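import Cfsg.Agent.Lib.RuRkE
import Cfsg.Agent.Lib.RuRkP1
import Cfsg.Agent.Lib.RuBrMain

/-!
# Recognition of the Rudvalis group as a rank three group: assembling the argument
-/

set_option autoImplicit false
set_option maxRecDepth 100000
set_option linter.unusedSectionVars false
set_option linter.unusedVariables false
set_option linter.style.haveILetI false
set_option linter.unusedSimpArgs false

namespace Cfsg.Agent.Lib.RuRkT

open MulAction Finset Cfsg.Agent.Lib.RuRkA Cfsg.Agent.Lib.RuRkB Cfsg.Agent.Lib.RuRkC Cfsg.Agent.Lib.RuRkE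
open Cfsg.Agent.Lib.ProgChain Cfsg.Agent.Lib.PermChain Cfsg.Agent.Lib.RuMain

/-- the point stabilizer -/
noncomputable abbrev H₀ : Subgroup (Equiv.Perm (Fin 4060)) := grp gH 140 2

theorem mem_H₀ (x : Equiv.Perm (Fin 4060)) : x ∈ H₀ ↔ x ∈ HH ∧ x 0 = 0 := by
  have h := (Cfsg.Agent.Lib.RuPMain.lev0).2.stab
  rw [show H₀ = _ from h]
  exact Iff.rfl

/-- the point stabilizer in the Rudvalis group -/
noncomputable def e₀ : stabilizer HH (0 : Fin 4060) ≃* H₀ where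
  toFun x := ⟨x.1.1, (mem_H₀ _).2 ⟨x.1.2, x.2⟩⟩
  invFun x := ⟨⟨x.1, ((mem_H₀ _).1 x.2).1⟩, ((mem_H₀ _).1 x.2).2⟩
  left_inv x := rfl
  right_inv x := rfl
  map_mul' x y := rfl

theorem he₀ (h : H₀) (x : Fin 4060) : act e₀ h x = h.1 x := rfl

theorem hS₀ : StabB e₀ (2 : Fin 4060) 2 := fun _ => Iff.rfl

section model

variable {B₀ C₀ Y₁ Y₂ Y₃ Y₄ Z₁ Z₂ V₁ V₂ W₁ W₂ W₃ W₄ W₅ : Finset (Fin 4060)}
  (D : Dat H₀ 2 B₀ Y₁ Y₂ Y₃ Y₄) (D3 : Dat3 H₀ 0 1 2 B₀ C₀ Z₁ Z₂ V₁ V₂ W₁ W₂ W₃ W₄ W₅)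
include D D3

theorem orbB₀ : orbit (stabilizer HH (0 : Fin 4060)) (2 : Fin 4060) = (B₀ : Set (Fin 4060)) := by
  ext z
  rw [mem_orbit_iff e₀]
  constructor
  · rintro ⟨h, rfl⟩
    exact D.invB _ h.2 _ D.p2B
  · intro hz
    obtain ⟨h, hh, rfl⟩ := D.trB z hz
    exact ⟨⟨h, hh⟩, rfl⟩

theorem orbC₀ : orbit (stabilizer HH (0 : Fin 4060)) (1 : Fin 4060) = (C₀ : Set (Fin 4060)) := by
  ext z
  rw [mem_orbit_iff e₀]
  constructor
  · rintro ⟨h, rfl⟩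
    exact D3.invC _ h.2 _ D3.p1C
  · intro hz
    obtain ⟨h, hh, rfl⟩ := D3.trC z hz
    exact ⟨⟨h, hh⟩, rfl⟩

theorem R₀ : R3 HH (0 : Fin 4060) 2 1 where
  card := by simp
  pre := transitive_HH
  hb := by rw [orbB₀ D D3, Set.ncard_coe_finset, D.cardB]
  hc := by rw [orbC₀ D D3, Set.ncard_coe_finset, D3.cardC]

end model

/-! ### the final step -/

open Cfsg.Agent.Lib.RuBr hiding HH gH in
open Cfsg.Agent.Lib.GraphRefine in
/-- the group preserving the relation -/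
noncomputable def AA : Subgroup (Equiv.Perm (Fin 4060)) where
  carrier := {p | ∀ x y : Fin 4060, WW (rows.getD (p x).1 (0, 0)) (rows.getD (p y).1 (0, 0)) = WW (rows.getD x.1 (0, 0)) (rows.getD y.1 (0, 0))}
  mul_mem' := by
    intro p q hp hq x y
    rw [Equiv.Perm.mul_apply, Equiv.Perm.mul_apply, hp, hq]
  one_mem' := fun x y => rfl
  inv_mem' := by
    intro p hp x y
    have := hp (p⁻¹ x) (p⁻¹ y)
    simpa using this.symm

open Cfsg.Agent.Lib.RuBr hiding HH gH in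
open Cfsg.Agent.Lib.GraphRefine in
theorem card_AA : Nat.card AA ≤ 145926144000 := by
  refine card_le_of_run (Equiv.refl _) WW rows (0, 0) rows_len AA ?_ opsRAll run_opsR
  intro g hg x y
  exact hg x y

open Cfsg.Agent.Lib.RuBr hiding HH gH in
theorem HH_le_AA : HH ≤ AA := by
  have h : HH = phi.range := range_eq
  rw [h]
  rintro _ ⟨f, rfl⟩ x y
  exact WW_act f x y

open Cfsg.Agent.Lib.RuBr hiding HH gH in
theorem HH_eq_AA : HH = AA := by
  refine Subgroup.eq_of_le_of_card_ge HH_le_AA ?_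
  have h : Nat.card HH = 145926144000 := Cfsg.Agent.Lib.RuPMain.cardH0
  rw [h]
  exact card_AA

open Cfsg.Agent.Lib.RuBr hiding HH gH in
theorem WW_01 (r s : ℕ × ℕ) : WW r s = 0 ∨ WW r s = 1 := by
  unfold WW
  cases Nat.beq (Nat.land (Nat.shiftRight (Nat.mul r.1 s.2) 976) MM) 0
  · exact Or.inl rfl
  · exact Or.inr rfl

open Cfsg.Agent.Lib.RuBr hiding HH gH in
/-- the relation and the graph of the Rudvalis group -/
theorem WW_gam (h₀₀ : ∀ w : Fin 4060, WW (rows.getD 0 (0, 0)) (rows.getD w.1 (0, 0)) = 1 ↔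
      (w = 0 ∨ w ∈ orbit (stabilizer HH (0 : Fin 4060)) (2 : Fin 4060))) (x y : Fin 4060) :
    WW (rows.getD x.1 (0, 0)) (rows.getD y.1 (0, 0)) = 1 ↔ (x = y ∨ Gam HH (0 : Fin 4060) 2 x y) := by
  haveI := transitive_HH
  obtain ⟨g, rfl⟩ := exists_smul_eq HH (0 : Fin 4060) x
  have h1 := HH_le_AA g.2 0 (g⁻¹ • y)
  have e1 : g.1 (g⁻¹ • y) = y := by
    show g • (g⁻¹ • y) = y
    rw [smul_inv_smul]
  rw [e1] at h1
  have e2 : g.1 (0 : Fin 4060) = g • (0 : Fin 4060) := rfl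
  rw [e2] at h1
  rw [h1]
  show WW (rows.getD 0 (0, 0)) (rows.getD (g⁻¹ • y).1 (0, 0)) = 1 ↔ _
  rw [h₀₀, Gam_smul_a]
  constructor
  · rintro (h2 | h2)
    · left
      have := congrArg (fun z => g • z) h2
      simpa using this.symm
    · exact Or.inr h2
  · rintro (h2 | h2)
    · left
      rw [← h2]
      simp
    · exact Or.inr h2

open Cfsg.Agent.Lib.RuBr hiding HH gH in
/-- the final step -/
theorem final {Ω : Type*} [Fintype Ω] [DecidableEq Ω] (G : Subgroup (Equiv.Perm Ω)) (a b : Ω) (π : Ω ≃ Fin 4060)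
    (hΓ : ∀ x y, Gam G a b x y ↔ Gam HH (0 : Fin 4060) 2 (π x) (π y))
    (hcard : Nat.card G = 145926144000)
    (h₀₀ : ∀ w : Fin 4060, WW (rows.getD 0 (0, 0)) (rows.getD w.1 (0, 0)) = 1 ↔
      (w = 0 ∨ w ∈ orbit (stabilizer HH (0 : Fin 4060)) (2 : Fin 4060))) :
    Cfsg.Spor.IsoRu G := by
  let φ : Equiv.Perm Ω ≃* Equiv.Perm (Fin 4060) := π.permCongrHom
  have hφ : ∀ (g : Equiv.Perm Ω) (x : Ω), φ g (π x) = π (g x) := by
    intro g x
    show (π.permCongr g) (π x) = _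
    simp [Equiv.permCongr_apply]
  let G' : Subgroup (Equiv.Perm (Fin 4060)) := G.map φ.toMonoidHom
  let eG : G ≃* G' := φ.subgroupMap G
  have hle : G' ≤ AA := by
    rintro _ ⟨g, hg, rfl⟩ x y
    obtain ⟨u, rfl⟩ := π.surjective x
    obtain ⟨v, rfl⟩ := π.surjective y
    show WW (rows.getD (φ g (π u)).1 (0, 0)) (rows.getD (φ g (π v)).1 (0, 0)) = _
    rw [hφ, hφ]
    have key : WW (rows.getD (π (g u)).1 (0, 0)) (rows.getD (π (g v)).1 (0, 0)) = 1 ↔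
        WW (rows.getD (π u).1 (0, 0)) (rows.getD (π v).1 (0, 0)) = 1 := by
      rw [WW_gam h₀₀, WW_gam h₀₀, ← hΓ, ← hΓ]
      have h1 : Gam G a b (g u) (g v) ↔ Gam G a b u v := Gam_smul (⟨g, hg⟩ : G) u v
      rw [h1]
      constructor
      · rintro (h2 | h2)
        · left
          exact congrArg π (g.injective (π.injective h2))
        · exact Or.inr h2
      · rintro (h2 | h2)
        · left
          exact congrArg π (congrArg g (π.injective h2))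
        · exact Or.inr h2
    rcases WW_01 (rows.getD (π (g u)).1 (0, 0)) (rows.getD (π (g v)).1 (0, 0)) with h1 | h1 <;>
      rcases WW_01 (rows.getD (π u).1 (0, 0)) (rows.getD (π v).1 (0, 0)) with h2 | h2
    · rw [h1, h2]
    · rw [h1] at key
      have := key.2 h2
      omega
    · rw [h2] at key
      have := key.1 h1
      omega
    · rw [h1, h2]
  have hcG' : Nat.card G' = 145926144000 := by
    rw [← Nat.card_congr eG.toEquiv, hcard]
  have hG'A : G' = AA := Subgroup.eq_of_le_of_card_ge hle (by rw [hcG']; exact card_AA)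
  have hG'H : G' = HH := hG'A.trans HH_eq_AA.symm
  have e3 : ↥G ≃* ↥HH := eG.trans (MulEquiv.subgroupCongr hG'H)
  exact ⟨e3.trans quotEquiv.symm⟩


section top

variable {Ω : Type*} [Fintype Ω] [DecidableEq Ω] {G : Subgroup (Equiv.Perm Ω)} {a : Ω}

theorem orb_inst {Ψ : Type*} [Fintype Ψ] [DecidableEq Ψ] {G' : Subgroup (Equiv.Perm Ψ)} {a' : Ψ} (e : stabilizer G' a' ≃* H₀) (z : Ψ) :
    letI := inst e
    orbit H₀ z = orbit (stabilizer G' a') z := by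
  letI := inst e
  ext w
  rw [mem_orbit_iff e]
  rfl

theorem exists_pi {b c : Ω} (e : stabilizer G a ≃* H₀) (hb' : ∀ k : H₀, act e k b = b ↔ k.1 2 = 2)
    (hc' : ∀ k : H₀, act e k c = c ↔ k.1 1 = 1) (R : R3 G a b c) (R' : R3 HH (0 : Fin 4060) 2 1) :
    ∃ π : Ω ≃ Fin 4060, π a = 0 ∧ π b = 2 ∧ π c = 1 ∧ ∀ (k : H₀) (x : Ω), π (act e k x) = k.1 (π x) := by
  have hG := fun z => orb_inst e z
  have hM := fun z => orb_inst e₀ z
  have := @Cfsg.Agent.Lib.RuRkP1.exists_equiv H₀ Ω (Fin 4060) _ (inst e) (inst e₀) a b c 0 2 1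
    (by intro x; rw [hG, hG]; exact cover R x)
    (by rw [hG]; exact a_not_B R)
    (by rw [hG]; exact a_not_C R)
    (by rw [hG, hG]; exact Set.disjoint_left.2 (fun z h1 h2 => B_disj_C R h1 h2))
    (fun k => act_a e k)
    (by intro x; rw [hM, hM]; exact cover R' x)
    (by rw [hM]; exact a_not_B R')
    (by rw [hM]; exact a_not_C R')
    (by rw [hM, hM]; exact Set.disjoint_left.2 (fun z h1 h2 => B_disj_C R' h1 h2))
    (fun k => act_a e₀ k)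
    (by
      ext k
      exact hb' k)
    (by
      ext k
      exact hc' k)
  obtain ⟨π, h1, h2, h3, h4⟩ := this
  exact ⟨π, h1, h2, h3, fun k x => h4 k x⟩

theorem card_stS1 (e : stabilizer G a ≃* H₀) (z : Ω)
    (hz : (orbit (stabilizer G a) z).ncard = 1755) : Nat.card (stS e z) = 20480 := by
  letI := inst e
  have h := Subgroup.card_mul_index (stabilizer H₀ z)
  rw [index_stabilizer] at h
  have e1 : orbit H₀ z = orbit (stabilizer G a) z := orb_inst e z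
  have e2 : stabilizer H₀ z = stS e z := by
    ext h
    rfl
  have hH : Nat.card H₀ = 35942400 := card_H1
  rw [e1, hz, e2, hH] at h
  omega

open Classical in
/-- the main theorem, from the data -/
theorem main (hΩ : Fintype.card Ω = 4060) (G : Subgroup (Equiv.Perm Ω)) [IsPretransitive G Ω] (a : Ω)
    (e : stabilizer G a ≃* H₀) (b c : Ω) (hb : (orbit (stabilizer G a) b).ncard = 1755)
    (hc : (orbit (stabilizer G a) c).ncard = 2304)
    {B₀ C₀ Y₁ Y₂ Y₃ Y₄ Z₁ Z₂ V₁ V₂ W₁ W₂ W₃ W₄ W₅ : Finset (Fin 4060)}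
    (D : Dat H₀ 2 B₀ Y₁ Y₂ Y₃ Y₄) (D3 : Dat3 H₀ 0 1 2 B₀ C₀ Z₁ Z₂ V₁ V₂ W₁ W₂ W₃ W₄ W₅)
    (hP5 : ∀ X : Subgroup H₀, Nat.card X = 20480 → ∃ t : H₀, ∀ h : H₀, h ∈ X ↔ (t * h * t⁻¹).1 2 = 2)
    (r f : H₀) (hr : orderOf r = 13) (hC : ∀ y, y * r = r * y → y ∈ Subgroup.zpowers r) (hf : f * r * f⁻¹ = r ^ 5)
    (Us : List (Fin 4060 → ℤ))
    (hUs : ∀ u ∈ Us, ∀ z ∈ orbit (stabilizer HH (0 : Fin 4060)) (1 : Fin 4060), ∑ y ∈ B₀.filter (fun y => Gam HH (0 : Fin 4060) 2 y z), u y = 0)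
    (Cands : List (Finset (Fin 4060)))
    (hsol : ∀ S : Finset (Fin 4060), S ⊆ B₀ → (∀ y ∈ S, r.1 y ∈ S) → (∀ y ∈ S, f.1 y ∈ S) → S.card = 780 →
      (∀ u ∈ Us, ∑ y ∈ S, u y = 0) → S ∈ Cands)
    (hext : ∀ S ∈ Cands, (∃ y₀ ∈ S, ∃ x₀ ∈ S, Q H₀ 2 Y₁ Y₂ Y₃ y₀ x₀ ∧ ∀ x ∈ S, Q H₀ 2 Y₁ Y₂ Y₃ y₀ x →
          (S.filter (fun w => Q H₀ 2 Y₁ Y₂ Y₃ y₀ w ∧ Q H₀ 2 Y₁ Y₂ Y₃ x w)).card =
            (S.filter (fun w => Q H₀ 2 Y₁ Y₂ Y₃ y₀ w ∧ Q H₀ 2 Y₁ Y₂ Y₃ x₀ w)).card → x = x₀) ∨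
        (∃ p ∈ orbit (stabilizer HH (0 : Fin 4060)) (1 : Fin 4060), S = Sz HH 0 2 B₀ p ∧ ∀ q ∈ orbit (stabilizer HH (0 : Fin 4060)) (1 : Fin 4060),
          Sz HH 0 2 B₀ q = Sz HH 0 2 B₀ p → q = p))
    (h₀₀ : ∀ w : Fin 4060, Cfsg.Agent.Lib.RuBr.WW (Cfsg.Agent.Lib.RuBr.rows.getD 0 (0, 0)) (Cfsg.Agent.Lib.RuBr.rows.getD w.1 (0, 0)) = 1 ↔
      (w = 0 ∨ w ∈ orbit (stabilizer HH (0 : Fin 4060)) (2 : Fin 4060))) :
    Cfsg.Spor.IsoRu G := by
  have hH : Nat.card H₀ = 35942400 := card_H1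
  have R : R3 G a b c := ⟨hΩ, inferInstance, hb, hc⟩
  obtain ⟨t₁, ht₁⟩ := hP5 (stS e b) (card_stS1 e b hb)
  set b' := act e t₁ b with hb'
  have hS : StabB e b' 2 := by
    intro k
    have e1 : t₁ * (t₁⁻¹ * k * t₁) * t₁⁻¹ = k := by group
    have e2 := ht₁ (t₁⁻¹ * k * t₁)
    rw [e1] at e2
    rw [← e2, mem_stS, hb', act_mul, act_mul]
    constructor
    · intro h1
      rw [h1, act_inv_act]
    · intro h1
      have := congrArg (act e t₁) h1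
      rwa [act_act_inv] at this
  have hbO : b' ∈ orbit (stabilizer G a) b := (mem_orbit_iff e).2 ⟨t₁, rfl⟩
  have R1 : R3 G a b' c := ⟨hΩ, inferInstance, by rw [orbit_eq_iff.2 hbO]; exact hb, hc⟩
  have R₀' := R₀ D D3
  obtain ⟨t₂, ht₂⟩ := C2 (G₀ := HH) (a₀ := 0) (p1 := 1) (e₀ := e₀) D hS R1 hH R₀' he₀ hS₀ r f hr hC hf Us hUs Cands hsol hext
  set c' := act e t₂ c with hc'
  have hcO : c' ∈ orbit (stabilizer G a) c := (mem_orbit_iff e).2 ⟨t₂, rfl⟩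
  have R2 : R3 G a b' c' := ⟨hΩ, inferInstance, by rw [orbit_eq_iff.2 hbO]; exact hb, by rw [orbit_eq_iff.2 hcO]; exact hc⟩
  obtain ⟨π, hπa, hπb, hπc, hπ⟩ := exists_pi e hS ht₂ R2 R₀'
  have g1 := gam_iff D D3 hS ht₂ R2 π hπa hπb hπc hπ
  have g2 := gam_iff (e := e₀) D D3 hS₀ (fun k => Iff.rfl) R₀' (Equiv.refl _) rfl rfl rfl (fun k x => rfl)
  have hΓ : ∀ x y, Gam G a b' x y ↔ Gam HH (0 : Fin 4060) 2 (π x) (π y) := fun x y =>
    (g1 x y).trans (g2 (π x) (π y)).symm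
  have hcard : Nat.card G = 145926144000 := by
    have h1 := Subgroup.card_mul_index (stabilizer G a)
    rw [index_stabilizer] at h1
    have h2 : orbit G a = Set.univ := orbit_eq_univ G a
    have h3 : Nat.card Ω = 4060 := by rw [Nat.card_eq_fintype_card, hΩ]
    rw [h2, Set.ncard_univ, h3, Nat.card_congr e.toEquiv, hH] at h1
    omega
  exact final G a b' π hΓ hcard h₀₀

end top

end Cfsg.Agent.Lib.RuRkT
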