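import Cfsg.Agent.Lib.RuRkT
import Cfsg.Agent.Lib.RuRkDat
import Cfsg.Agent.Lib.SparseDfs

/-!
# Rank three recognition of the Rudvalis group: the relation as a computable function, the elements `r` and `f`
-/

set_option autoImplicit false
set_option maxRecDepth 100000
set_option linter.unusedSectionVars false
set_option linter.unusedVariables false

namespace Cfsg.Agent.Lib.RuRkW

open MulAction Finset Cfsg.Agent.Lib.RuRkA Cfsg.Agent.Lib.RuRkB Cfsg.Agent.Lib.RuRkC Cfsg.Agent.Lib.RuRkE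
  Cfsg.Agent.Lib.RuRkT Cfsg.Agent.Lib.RuRkDat Cfsg.Agent.Lib.SparseDfs
open Cfsg.Agent.Lib.ProgChain Cfsg.Agent.Lib.PermChain Cfsg.Agent.Lib.RuMain

/-- the relation -/
def wb (x y : ℕ) : Bool :=
  Nat.beq (Nat.land (Nat.shiftRight (Nat.mul (Cfsg.Agent.Lib.RuBr.rows.getD x (0, 0)).1 (Cfsg.Agent.Lib.RuBr.rows.getD y (0, 0)).2) 976) Cfsg.Agent.Lib.RuBr.MM) 0

theorem WW_wb (x y : ℕ) : Cfsg.Agent.Lib.RuBr.WW (Cfsg.Agent.Lib.RuBr.rows.getD x (0, 0)) (Cfsg.Agent.Lib.RuBr.rows.getD y (0, 0)) = 1 ↔ wb x y = true := by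
  unfold Cfsg.Agent.Lib.RuBr.WW wb
  cases Nat.beq (Nat.land (Nat.shiftRight (Nat.mul (Cfsg.Agent.Lib.RuBr.rows.getD x (0, 0)).1 (Cfsg.Agent.Lib.RuBr.rows.getD y (0, 0)).2) 976) Cfsg.Agent.Lib.RuBr.MM) 0
  · simp
  · simp

theorem wb_inv {g : Equiv.Perm (Fin 4060)} (hg : g ∈ HH) (x y : Fin 4060) : wb (g x).1 (g y).1 = wb x.1 y.1 := by
  have h1 := HH_le_AA hg x y
  have h2 := WW_wb (g x).1 (g y).1
  have h3 := WW_wb x.1 y.1
  rw [h1] at h2
  rw [h3] at h2
  cases h4 : wb (g x).1 (g y).1 <;> cases h5 : wb x.1 y.1 <;> simp_all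

/-- the relation on two rows -/
def wr2 (r s : ℕ × ℕ) : Bool :=
  Nat.beq (Nat.land (Nat.shiftRight (Nat.mul r.1 s.2) 976) Cfsg.Agent.Lib.RuBr.MM) 0

theorem wb_eq (x y : ℕ) : wb x y = wr2 (Cfsg.Agent.Lib.RuBr.rows.getD x (0, 0)) (Cfsg.Agent.Lib.RuBr.rows.getD y (0, 0)) := rfl

/-- one pass over a list of rows, with indices -/
def colAux (r : ℕ × ℕ) : List (ℕ × ℕ) → ℕ → ℕ → ℕ
  | [], _, acc => acc
  | s :: l, i, acc => colAux r l (Nat.succ i) (cond (wr2 r s) (Nat.lor acc (Nat.shiftLeft 1 i)) acc)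

theorem testBit_colAux (r : ℕ × ℕ) : ∀ (l : List (ℕ × ℕ)) (i acc y : ℕ), (∀ j, i ≤ j → acc.testBit j = false) →
    (colAux r l i acc).testBit y = if i ≤ y ∧ y < i + l.length then wr2 r (l.getD (y - i) (0, 0)) else acc.testBit y := by
  intro l
  induction l with
  | nil =>
    intro i acc y _
    simp [colAux]
  | cons s l ih =>
    intro i acc y hacc
    rw [colAux]
    set acc' := cond (wr2 r s) (Nat.lor acc (Nat.shiftLeft 1 i)) acc with hacc'
    have hlor : ∀ j, (Nat.lor acc (Nat.shiftLeft 1 i)).testBit j = (acc.testBit j || decide (j = i)) := by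
      intro j
      have e1 : Nat.lor acc (Nat.shiftLeft 1 i) = acc ||| (1 <<< i) := rfl
      rw [e1, Nat.testBit_or, Nat.testBit_shiftLeft]
      by_cases h2 : j = i
      · subst h2
        simp
      · by_cases h3 : i ≤ j
        · have h4 : j - i ≠ 0 := by omega
          simp [h2, h3, Nat.testBit_one_eq_true_iff_self_eq_zero, h4]
        · simp [h2, h3]
    have hacc2 : ∀ j, Nat.succ i ≤ j → acc'.testBit j = false := by
      intro j hj
      rw [hacc']
      cases wr2 r s
      · exact hacc j (by omega)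
      · show (Nat.lor acc (Nat.shiftLeft 1 i)).testBit j = false
        rw [hlor, hacc j (by omega)]
        simp
        omega
    rw [ih (Nat.succ i) acc' y hacc2]
    by_cases h1 : i + 1 ≤ y ∧ y < i + 1 + l.length
    · have h2 : i ≤ y ∧ y < i + (s :: l).length := by
        simp only [List.length_cons]
        omega
      rw [if_pos (by simpa using h1), if_pos h2]
      have h3 : y - i = (y - (i + 1)) + 1 := by omega
      have h4 : y - Nat.succ i = y - (i + 1) := rfl
      rw [h4, h3]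
      simp
    · rw [if_neg (by simpa using h1)]
      by_cases h5 : y = i
      · subst h5
        have h2 : y ≤ y ∧ y < y + (s :: l).length := by
          simp only [List.length_cons]
          omega
        rw [if_pos h2, hacc']
        simp only [Nat.sub_self, List.getD_cons_zero]
        cases wr2 r s
        · exact hacc y (le_refl _)
        · show (Nat.lor acc (Nat.shiftLeft 1 y)).testBit y = true
          rw [hlor]
          simp
      · have h2 : ¬ (i ≤ y ∧ y < i + (s :: l).length) := by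
          simp only [List.length_cons]
          omega
        rw [if_neg h2, hacc']
        cases wr2 r s
        · rfl
        · show (Nat.lor acc (Nat.shiftLeft 1 i)).testBit y = _
          rw [hlor]
          simp [h5]

/-- the column of a point, by one pass over the rows -/
def colM (x : ℕ) : ℕ := colAux (Cfsg.Agent.Lib.RuBr.rows.getD x (0, 0)) Cfsg.Agent.Lib.RuBr.rows 0 0

theorem testBit_colM (x : ℕ) (y : Fin 4060) : (colM x).testBit y.1 = wb x y.1 := by
  rw [colM, testBit_colAux _ _ _ _ _ (fun j _ => by simp)]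
  rw [Cfsg.Agent.Lib.RuBr.rows_len, if_pos ⟨Nat.zero_le _, by simpa using y.2⟩, wb_eq, Nat.sub_zero]

theorem chk_00 : Nat.beq (colM 0) (Nat.lor Bm 1) = true := by decide +kernel

theorem wb_0 (w : Fin 4060) : wb 0 w.1 = true ↔ (w = 0 ∨ w ∈ mk Bm) := by
  rw [← testBit_colM, Nat.eq_of_beq_eq_true chk_00, RuRkDat.mem_mk]
  have e1 : Nat.lor Bm 1 = Bm ||| 1 := rfl
  rw [e1, Nat.testBit_or, Bool.or_eq_true, Or.comm]
  have h2 : Nat.testBit 1 w.1 = true ↔ w = 0 := by
    rw [Nat.testBit_one_eq_true_iff_self_eq_zero]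
    exact ⟨fun h3 => Fin.ext h3, fun h3 => by rw [h3]; rfl⟩
  rw [h2]

/-- the elements -/
theorem rep_r0 : RepW 12 4095 (prodW gH wr) rT := repW_of_chk Cfsg.Agent.Lib.RuPMain.ctx (by decide +kernel)
theorem rep_f0 : RepW 12 4095 (prodW gH wf) fT := repW_of_chk Cfsg.Agent.Lib.RuPMain.ctx (by decide +kernel)

theorem letH₀ : ∀ e, 140 ≤ e → gH e ∈ H₀ := (Cfsg.Agent.Lib.RuPMain.lev1).1

/-- the element `r` -/
noncomputable def rr : H₀ := ⟨prodW gH wr, prodW_mem letH₀ (by decide)⟩
/-- the element `f` -/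
noncomputable def fr : H₀ := ⟨prodW gH wf, prodW_mem letH₀ (by decide)⟩

theorem rep_r : RepW 12 4095 rr.1 rT := rep_r0
theorem rep_f : RepW 12 4095 fr.1 fT := rep_f0

theorem r_val (i : Fin 4060) : (rr.1 i).val = imW 12 4095 rT i.val := rep_r i
theorem f_val (i : Fin 4060) : (fr.1 i).val = imW 12 4095 fT i.val := rep_f i

theorem chk_r13 : (List.range 4060).all (fun i => Nat.beq (evalL 12 4095 (List.replicate 13 rT) i) i) = true := by decide +kernel
theorem chk_fr' : (List.range 4060).all (fun i => Nat.beq (imW 12 4095 fT (imW 12 4095 rT i))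
    (imW 12 4095 rT (imW 12 4095 rT (imW 12 4095 rT (imW 12 4095 rT (imW 12 4095 rT (imW 12 4095 fT i))))))) = true := by decide +kernel

theorem r_pow13 : rr ^ 13 = 1 := by
  apply Subtype.ext
  apply Equiv.ext
  intro i
  apply Fin.ext
  have h1 := repL_pow (n := 4060) rep_r 13
  have h2 := h1 i
  have h3 := Nat.eq_of_beq_eq_true (List.all_eq_true.1 chk_r13 i.1 (List.mem_range.2 i.2))
  rw [h3] at h2
  simpa using h2

theorem r_ne : rr ≠ 1 := by
  intro h
  have h1 := r_val 2
  rw [h] at h1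
  have h2 : imW 12 4095 rT 2 ≠ 2 := by decide +kernel
  exact h2 h1.symm

theorem order_r : orderOf rr = 13 := by
  haveI : Fact (Nat.Prime 13) := ⟨by norm_num⟩
  exact orderOf_eq_prime r_pow13 r_ne

theorem f_r : fr * rr * fr⁻¹ = rr ^ 5 := by
  rw [mul_inv_eq_iff_eq_mul]
  apply Subtype.ext
  apply Equiv.ext
  intro i
  apply Fin.ext
  have h3 := Nat.eq_of_beq_eq_true (List.all_eq_true.1 chk_fr' i.1 (List.mem_range.2 i.2))
  show ((fr.1 * rr.1) i).val = ((rr.1 ^ 5 * fr.1) i).val
  simp only [Equiv.Perm.mul_apply, pow_succ, pow_zero, one_mul, r_val, f_val] 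
  exact h3

end Cfsg.Agent.Lib.RuRkW
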