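import Cfsg.Agent.Lib.RuRkW

/-!
# Rank three recognition of the Rudvalis group: the relation as the graph, a reach certificate
-/

set_option autoImplicit false
set_option maxRecDepth 100000
set_option linter.unusedSectionVars false
set_option linter.unusedVariables false

namespace Cfsg.Agent.Lib.RuRkW2

open MulAction Finset Cfsg.Agent.Lib.RuRkA Cfsg.Agent.Lib.RuRkB Cfsg.Agent.Lib.RuRkC Cfsg.Agent.Lib.RuRkE
  Cfsg.Agent.Lib.RuRkT Cfsg.Agent.Lib.RuRkDat Cfsg.Agent.Lib.SparseDfs Cfsg.Agent.Lib.RuRkW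
open Cfsg.Agent.Lib.ProgChain Cfsg.Agent.Lib.PermChain Cfsg.Agent.Lib.RuMain

/-! ### a reach certificate -/

/-- the generators as tables -/
def TT (e p : ℕ) : ℕ := cond (Nat.beq e 0) (imW 12 4095 rT p) (imW 12 4095 fT p)

/-- checks the certificate, the mask of all the points seen, zero when it fails -/
def reachM (T : ℕ → ℕ → ℕ) : List (ℕ × ℕ × ℕ) → ℕ → ℕ
  | [], s => s
  | t :: l, s => cond (and (Nat.testBit s t.2.2) (Nat.beq (T t.2.1 t.2.2) t.1))
      (reachM T l (Nat.lor s (Nat.shiftLeft 1 t.1))) 0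

theorem testBit_lor_one (s x y : ℕ) : (Nat.lor s (Nat.shiftLeft 1 x)).testBit y = true ↔ (s.testBit y = true ∨ y = x) := by
  have e1 : Nat.lor s (Nat.shiftLeft 1 x) = s ||| (1 <<< x) := rfl
  rw [e1, Nat.testBit_or, Nat.testBit_shiftLeft, Bool.or_eq_true]
  by_cases h2 : y = x
  · subst h2
    simp
  · by_cases h3 : x ≤ y
    · have h4 : y - x ≠ 0 := by omega
      simp [h2, h3, Nat.testBit_one_eq_true_iff_self_eq_zero, h4]
    · simp [h2, h3]

theorem reachM_sound (T : ℕ → ℕ → ℕ) (P : ℕ → Prop) (hP : ∀ e p, P p → P (T e p)) :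
    ∀ (l : List (ℕ × ℕ × ℕ)) (s : ℕ), (∀ y, s.testBit y = true → P y) → ∀ y, (reachM T l s).testBit y = true → P y := by
  intro l
  induction l with
  | nil =>
    intro s hs y hy
    exact hs y hy
  | cons t l ih =>
    intro s hs y hy
    rw [reachM] at hy
    cases h1 : and (Nat.testBit s t.2.2) (Nat.beq (T t.2.1 t.2.2) t.1)
    · rw [h1] at hy
      simp at hy
    · rw [h1] at hy
      rw [Bool.and_eq_true] at h1
      refine ih _ ?_ y hy
      intro z hz
      rcases (testBit_lor_one _ _ _).1 hz with h2 | h2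
      · exact hs z h2
      · have h3 := Nat.eq_of_beq_eq_true h1.2
        rw [h2, ← h3]
        exact hP _ _ (hs _ h1.1)

/-- the mask of a list of points -/
def maskOf : List ℕ → ℕ
  | [] => 0
  | x :: l => Nat.lor (maskOf l) (Nat.shiftLeft 1 x)

theorem testBit_maskOf (l : List ℕ) (y : ℕ) : (maskOf l).testBit y = true ↔ y ∈ l := by
  induction l with
  | nil => simp [maskOf]
  | cons x l ih =>
    rw [maskOf, testBit_lor_one, ih, List.mem_cons, or_comm]

/-- the certificate, for a predicate on the points stable under `r` and `f` -/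
theorem reach_fin (P : Fin 4060 → Prop) (hr : ∀ x, P x → P (rr.1 x)) (hf : ∀ x, P x → P (fr.1 x))
    (l : List (ℕ × ℕ × ℕ)) (reps : List ℕ) (hreps : ∀ y ∈ reps, ∃ h : y < 4060, P ⟨y, h⟩) (y : Fin 4060)
    (hy : (reachM TT l (maskOf reps)).testBit y.1 = true) : P y := by
  have h := reachM_sound TT (fun n => ∃ h : n < 4060, P ⟨n, h⟩) ?_ l (maskOf reps) ?_ y.1 hy
  · obtain ⟨h1, h2⟩ := h
    exact h2
  · rintro e p ⟨h1, h2⟩
    unfold TT
    cases Nat.beq e 0
    · have h3 := f_val ⟨p, h1⟩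
      rw [show cond false (imW 12 4095 rT p) (imW 12 4095 fT p) = imW 12 4095 fT p from rfl]
      have h4 : imW 12 4095 fT p = (fr.1 ⟨p, h1⟩).val := h3.symm
      rw [h4]
      exact ⟨(fr.1 ⟨p, h1⟩).2, hf _ h2⟩
    · have h3 := r_val ⟨p, h1⟩
      rw [show cond true (imW 12 4095 rT p) (imW 12 4095 fT p) = imW 12 4095 rT p from rfl]
      have h4 : imW 12 4095 rT p = (rr.1 ⟨p, h1⟩).val := h3.symm
      rw [h4]
      exact ⟨(rr.1 ⟨p, h1⟩).2, hr _ h2⟩
  · intro z hz
    exact hreps z ((testBit_maskOf _ _).1 hz)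

theorem chk_Bcert : Nat.beq (reachM TT Bcert (maskOf Brep)) Bm = true := by decide +kernel
theorem chk_Ccert : Nat.beq (reachM TT Ccert (maskOf Crep)) Cm = true := by decide +kernel

/-- every point of `B₀` is reached from a representative -/
theorem reach_B (P : Fin 4060 → Prop) (hr : ∀ x, P x → P (rr.1 x)) (hf : ∀ x, P x → P (fr.1 x))
    (hreps : ∀ y ∈ Brep, ∃ h : y < 4060, P ⟨y, h⟩) (y : Fin 4060) (hy : y ∈ mk Bm) : P y := by
  refine reach_fin P hr hf Bcert Brep hreps y ?_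
  rw [Nat.eq_of_beq_eq_true chk_Bcert]
  exact RuRkDat.mem_mk.1 hy

/-- every point of `C₀` is reached from a representative -/
theorem reach_C (P : Fin 4060 → Prop) (hr : ∀ x, P x → P (rr.1 x)) (hf : ∀ x, P x → P (fr.1 x))
    (hreps : ∀ y ∈ Crep, ∃ h : y < 4060, P ⟨y, h⟩) (y : Fin 4060) (hy : y ∈ mk Cm) : P y := by
  refine reach_fin P hr hf Ccert Crep hreps y ?_
  rw [Nat.eq_of_beq_eq_true chk_Ccert]
  exact RuRkDat.mem_mk.1 hy


/-! ### the orbits of `⟨r, f⟩` on `B₀` -/

/-- the index of the orbit of a point (`63` outside `B₀`) -/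
def orb (y : ℕ) : ℕ := imW 6 63 orbT y

theorem chk_orb_r : (List.range 4060).all (fun i => Nat.beq (orb (imW 12 4095 rT i)) (orb i)) = true := by decide +kernel
theorem chk_orb_f : (List.range 4060).all (fun i => Nat.beq (orb (imW 12 4095 fT i)) (orb i)) = true := by decide +kernel

theorem orb_r (y : Fin 4060) : orb (rr.1 y).1 = orb y.1 := by
  rw [r_val]
  exact Nat.eq_of_beq_eq_true (List.all_eq_true.1 chk_orb_r y.1 (List.mem_range.2 y.2))

theorem orb_f (y : Fin 4060) : orb (fr.1 y).1 = orb y.1 := by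
  rw [f_val]
  exact Nat.eq_of_beq_eq_true (List.all_eq_true.1 chk_orb_f y.1 (List.mem_range.2 y.2))

/-- no repetition -/
def nodupB : List ℕ → Bool
  | [] => true
  | x :: l => and (not (l.contains x)) (nodupB l)

theorem nodup_of_nodupB : ∀ l : List ℕ, nodupB l = true → l.Nodup := by
  intro l
  induction l with
  | nil => intro _; exact List.nodup_nil
  | cons x l ih =>
    intro h
    rw [nodupB, Bool.and_eq_true] at h
    refine List.nodup_cons.2 ⟨?_, ih h.2⟩
    intro h2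
    have h3 : l.contains x = true := List.contains_iff_mem.2 h2
    rw [h3] at h
    exact absurd h.1 (by decide)

theorem chk_Ol1 : (List.range 42).all (fun j => and (nodupB (Ol.getD j []))
    ((Ol.getD j []).all (fun y => and (Nat.blt y 4060) (and (Nat.testBit Bm y) (Nat.beq (orb y) j))))) = true := by decide +kernel

theorem chk_Ol2 : (List.range 4060).all (fun y => or (not (Nat.testBit Bm y))
    (and (Nat.blt (orb y) 42) ((Ol.getD (orb y) []).contains y))) = true := by decide +kernel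

theorem Ol_nodup {j : ℕ} (hj : j < 42) : (Ol.getD j []).Nodup := by
  have h := List.all_eq_true.1 chk_Ol1 j (List.mem_range.2 hj)
  rw [Bool.and_eq_true] at h
  exact nodup_of_nodupB _ h.1

theorem Ol_sub {j : ℕ} (hj : j < 42) {y : ℕ} (hy : y ∈ Ol.getD j []) : y < 4060 ∧ Nat.testBit Bm y = true ∧ orb y = j := by
  have h := List.all_eq_true.1 chk_Ol1 j (List.mem_range.2 hj)
  rw [Bool.and_eq_true] at h
  have h2 := List.all_eq_true.1 h.2 y hy
  rw [Bool.and_eq_true, Bool.and_eq_true] at h2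
  exact ⟨Nat.le_of_ble_eq_true h2.1, h2.2.1, Nat.eq_of_beq_eq_true h2.2.2⟩

theorem orb_lt {y : Fin 4060} (hy : y ∈ mk Bm) : orb y.1 < 42 := by
  have h := List.all_eq_true.1 chk_Ol2 y.1 (List.mem_range.2 y.2)
  rw [RuRkDat.mem_mk.1 hy] at h
  have h2 : and (Nat.blt (orb y.1) 42) ((Ol.getD (orb y.1) []).contains y.1) = true := by simpa using h
  rw [Bool.and_eq_true] at h2
  exact Nat.le_of_ble_eq_true h2.1

theorem mem_Ol {y : Fin 4060} (hy : y ∈ mk Bm) : y.1 ∈ Ol.getD (orb y.1) [] := by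
  have h := List.all_eq_true.1 chk_Ol2 y.1 (List.mem_range.2 y.2)
  rw [RuRkDat.mem_mk.1 hy] at h
  have h2 : and (Nat.blt (orb y.1) 42) ((Ol.getD (orb y.1) []).contains y.1) = true := by simpa using h
  rw [Bool.and_eq_true] at h2
  exact List.contains_iff_mem.1 h2.2

/-- the fibers of `orb` on `B₀` are the lists `Ol` -/
theorem card_fib (p : ℕ → Bool) {j : ℕ} (hj : j < 42) :
    ((mk Bm).filter (fun y => p y.1 = true ∧ orb y.1 = j)).card = (Ol.getD j []).countP p := by
  have hnd := Ol_nodup hj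
  rw [List.countP_eq_length_filter]
  rw [← List.toFinset_card_of_nodup (hnd.filter _)]
  apply Finset.card_bij (fun y _ => y.1)
  · intro y hy
    rw [Finset.mem_filter] at hy
    rw [List.mem_toFinset, List.mem_filter]
    have h1 := mem_Ol hy.1
    rw [hy.2.2] at h1
    exact ⟨h1, hy.2.1⟩
  · intro a _ b _ h
    exact Fin.ext h
  · intro x hx
    rw [List.mem_toFinset, List.mem_filter] at hx
    obtain ⟨h1, h2, h3⟩ := Ol_sub hj hx.1
    refine ⟨⟨x, h1⟩, ?_, rfl⟩
    rw [Finset.mem_filter]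
    exact ⟨RuRkDat.mem_mk.2 h2, hx.2, h3⟩

/-- a sum over part of `B₀` of a function of the orbit -/
theorem sum_fib (p : ℕ → Bool) (w : ℕ → ℤ) :
    ∑ y ∈ (mk Bm).filter (fun y => p y.1 = true), w (orb y.1) =
      ∑ j ∈ Finset.range 42, (((Ol.getD j []).countP p : ℕ) : ℤ) * w j := by
  have hmaps : ∀ y ∈ (mk Bm).filter (fun y => p y.1 = true), orb y.1 ∈ Finset.range 42 := fun y hy =>
    Finset.mem_range.2 (orb_lt (Finset.mem_filter.1 hy).1)
  rw [← Finset.sum_fiberwise_of_maps_to hmaps]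
  apply Finset.sum_congr rfl
  intro j hj
  have hj' := Finset.mem_range.1 hj
  rw [← card_fib p hj', Finset.filter_filter]
  rw [Finset.sum_congr rfl (g := fun _ => w j)]
  · rw [Finset.sum_const, nsmul_eq_mul]
  · intro y hy
    rw [(Finset.mem_filter.1 hy).2.2]

/-- the vectors orthogonal to the sets `Sz` -/
def uu (i : ℕ) (y : Fin 4060) : ℤ :=
  (((up.getD i []).getD (orb y.1) 0 : ℕ) : ℤ) - (((un.getD i []).getD (orb y.1) 0 : ℕ) : ℤ)

/-- the list of the vectors -/
def Us : List (Fin 4060 → ℤ) := (List.range 23).map uu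

/-- the candidates -/
def Cands : List (Finset (Fin 4060)) := Cand.map (fun M => (mk Bm).filter (fun y => M.testBit (orb y.1) = true))

/-! ### the relation is the graph -/

section graph

/-- the orbit of `2` as a mask: everything below assumes this -/
abbrev HB : Prop := orbit (stabilizer HH (0 : Fin 4060)) (2 : Fin 4060) = ((mk Bm : Finset (Fin 4060)) : Set (Fin 4060))

theorem h00 (hB : HB) (w : Fin 4060) : Cfsg.Agent.Lib.RuBr.WW (Cfsg.Agent.Lib.RuBr.rows.getD 0 (0, 0)) (Cfsg.Agent.Lib.RuBr.rows.getD w.1 (0, 0)) = 1 ↔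
      (w = 0 ∨ w ∈ orbit (stabilizer HH (0 : Fin 4060)) (2 : Fin 4060)) := by
  have h1 := WW_wb 0 w.1
  rw [h1, hB]
  exact wb_0 w

/-- the relation and the graph -/
theorem gam_wb (hB : HB) (R : R3 HH (0 : Fin 4060) 2 1) (x y : Fin 4060) : Gam HH (0 : Fin 4060) 2 x y ↔ x ≠ y ∧ wb x.1 y.1 = true := by
  have h1 := WW_gam (h00 hB) x y
  rw [WW_wb] at h1
  constructor
  · intro h2
    refine ⟨?_, h1.2 (Or.inr h2)⟩
    rintro rfl
    exact Gam_irrefl R x h2
  · rintro ⟨h2, h3⟩
    rcases h1.1 h3 with h4 | h4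
    · exact absurd h4 h2
    · exact h4

/-- the relation is symmetric -/
theorem wb_symm (hB : HB) (R : R3 HH (0 : Fin 4060) 2 1) (x y : Fin 4060) : wb x.1 y.1 = wb y.1 x.1 := by
  have key : ∀ x y : Fin 4060, wb x.1 y.1 = true → wb y.1 x.1 = true := by
    intro x y h
    have h1 := WW_gam (h00 hB) x y
    have h2 := WW_gam (h00 hB) y x
    rw [WW_wb] at h1 h2
    rcases h1.1 h with h3 | h3
    · rw [h3] at h
      rw [h3]
      exact h
    · exact h2.2 (Or.inr (Gam_symm R h3))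
  cases h1 : wb x.1 y.1 <;> cases h2 : wb y.1 x.1
  · rfl
  · have := key y x h2
    rw [h1] at this
    exact absurd this (by decide)
  · have := key x y h1
    rw [h2] at this
    exact absurd this (by decide)
  · rfl

variable {B₀ C₀ Y₁ Y₂ Y₃ Y₄ Z₁ Z₂ V₁ V₂ W₁ W₂ W₃ W₄ W₅ : Finset (Fin 4060)}

/-- `Q` on the orbit of `2` is the relation -/
theorem Q_wb (D : Dat H₀ 2 B₀ Y₁ Y₂ Y₃ Y₄) (hB : HB) (R : R3 HH (0 : Fin 4060) 2 1) {y w : Fin 4060} (hy : y ∈ B₀) (hw : w ∈ B₀) :
    Q H₀ 2 Y₁ Y₂ Y₃ y w ↔ y ≠ w ∧ wb y.1 w.1 = true := by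
  have hS := hS₀
  have h1 := gam_bet D (e := e₀) R hS₀ hy hw
  have hbet : ∀ v ∈ B₀, bet e₀ (2 : Fin 4060) 2 v = v := by
    intro v hv
    obtain ⟨h, hh, rfl⟩ := D.trB v hv
    exact bet_eq hS₀ ⟨h, hh⟩
  rw [hbet y hy, hbet w hw] at h1
  rw [← h1]
  exact gam_wb hB R y w

end graph

end Cfsg.Agent.Lib.RuRkW2
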