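import Cfsg.Agent.Lib.RuRkW2
import Cfsg.Agent.Lib.RuRkP7

/-!
# Rank three recognition of the Rudvalis group: the centralizer of the element `r` of order `13`
-/

set_option autoImplicit false
set_option maxRecDepth 100000
set_option linter.unusedSectionVars false
set_option linter.unusedVariables false

namespace Cfsg.Agent.Lib.RuRkX1

open MulAction Finset Cfsg.Agent.Lib.RuRkA Cfsg.Agent.Lib.RuRkB Cfsg.Agent.Lib.RuRkC Cfsg.Agent.Lib.RuRkE
  Cfsg.Agent.Lib.RuRkT Cfsg.Agent.Lib.RuRkDat Cfsg.Agent.Lib.SparseDfs Cfsg.Agent.Lib.RuRkW Cfsg.Agent.Lib.RuRkW2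
open Cfsg.Agent.Lib.ProgChain Cfsg.Agent.Lib.PermChain Cfsg.Agent.Lib.RuMain
open Cfsg.Agent.Lib.ChainCert (letN letN_eq)

/-- equality of truth values -/
def bEq (a b : Bool) : Bool := cond a b (not b)

theorem bEq_true {a b : Bool} : bEq a b = true ↔ a = b := by
  cases a <;> cases b <;> decide

/-- the powers of `r` on numbers -/
def ev (i p : ℕ) : ℕ := evalL 12 4095 (List.replicate i rT) p

theorem ev_val (i : ℕ) (x : Fin 4060) : ((rr.1 ^ i) x).val = ev i x.val := repL_pow rep_r i x

/-- the pattern of a point -/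
def patG (u : ℕ) : ℕ → List Bool → Bool
  | _, [] => true
  | i, b :: l => and (bEq (wb u (ev i u)) b) (patG u (Nat.succ i) l)

/-- the pattern of `q0` -/
def pq : List Bool := [true, true, false, true, true, false]

theorem chk_pq : pq = (List.range' 1 6).map (fun i => wb q0 (ev i q0)) := by decide +kernel

theorem patG_of {u : ℕ} {f : ℕ → Bool} (h : ∀ i, wb u (ev i u) = f i) :
    ∀ (n i : ℕ), patG u i ((List.range' i n).map f) = true := by
  intro n
  induction n with
  | zero =>
    intro i
    rfl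
  | succ n ih =>
    intro i
    rw [List.range'_succ]
    simp only [List.map_cons, patG, Bool.and_eq_true]
    exact ⟨bEq_true.2 (h i), ih (i + 1)⟩

theorem r_HH : rr.1 ∈ HH := ((mem_H₀ _).1 rr.2).1

theorem wb_r (x : Fin 4060) (i : ℕ) : wb (rr.1 x).1 (ev i (rr.1 x).1) = wb x.1 (ev i x.1) := by
  rw [← ev_val, ← ev_val]
  have e : (rr.1 ^ i) (rr.1 x) = rr.1 ((rr.1 ^ i) x) := by
    have h1 : rr.1 ^ i * rr.1 = rr.1 * rr.1 ^ i := ((Commute.refl rr.1).pow_left i).eq
    exact congrArg (fun f : Equiv.Perm (Fin 4060) => f x) h1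
  rw [e]
  exact wb_inv r_HH x _

theorem patG_r (x : Fin 4060) : ∀ (l : List Bool) (i : ℕ), patG (rr.1 x).1 i l = patG x.1 i l := by
  intro l
  induction l with
  | nil =>
    intro i
    rfl
  | cons b l ih =>
    intro i
    simp only [patG, wb_r, ih]

/-- representatives of the cycles of `r` on `B₀` -/
def repsZ : List ℕ := [2, 6, 10, 14, 15, 20, 23, 27, 31, 35, 36, 38, 44, 47, 48, 51, 53, 61, 62, 68, 72, 73, 74, 75, 78, 85, 87, 90, 91, 95, 96, 97, 98, 99, 102, 106, 128, 133, 134, 136, 137, 139, 141, 142, 148, 150, 151, 160, 162, 163, 165, 179, 182, 183, 195, 199, 202, 204, 206, 227, 234, 235, 239, 245, 247, 248, 250, 252, 255, 256, 264, 270, 271, 290, 292, 302, 303, 304, 308, 315, 319, 321, 330, 339, 347, 353, 360, 394, 401, 408, 409, 411, 422, 425, 429, 433, 461, 469, 473, 475, 488, 510, 518, 520, 522, 532, 544, 548, 557, 571, 574, 576, 581, 638, 641, 645, 656, 664, 680, 690, 696, 708, 709, 715, 718, 737, 752, 799, 804, 836, 847, 906, 1000, 1170, 2091]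

/-- a certificate for the cycles of `r` on `B₀` -/
def certZ : List (ℕ × ℕ × ℕ) := [(2491,0,2), (1359,0,2491), (1450,0,1359), (897,0,1450), (3275,0,897), (2263,0,3275), (3921,0,2263), (84,0,3921), (3545,0,84), (29,0,3545), (1849,0,29), (2023,0,1849), (1878,0,6), (2482,0,1878), (236,0,2482), (1128,0,236), (1244,0,1128), (1043,0,1244), (3267,0,1043), (1960,0,3267), (2551,0,1960), (1315,0,2551), (124,0,1315), (2755,0,124), (2773,0,10), (1621,0,2773), (3787,0,1621), (3896,0,3787), (666,0,3896), (19,0,666), (424,0,19), (2493,0,424), (884,0,2493), (1857,0,884), (1052,0,1857), (2706,0,1052), (2236,0,14), (1847,0,2236), (2132,0,1847), (2508,0,2132), (2681,0,2508), (438,0,2681), (1065,0,438), (1346,0,1065), (3645,0,1346), (2034,0,3645), (1181,0,2034), (60,0,1181), (1977,0,15), (663,0,1977), (1483,0,663), (2907,0,1483), (343,0,2907), (3082,0,343), (3274,0,3082), (2722,0,3274), (217,0,2722), (109,0,217), (798,0,109), (1229,0,798), (26,0,20), (2542,0,26), (2120,0,2542), (1828,0,2120), (1778,0,1828),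 (3166,0,1778), (1294,0,3166), (3735,0,1294), (3770,0,3735), (55,0,3770), (2560,0,55), (2575,0,2560), (3911,0,23), (731,0,3911), (3028,0,731), (842,0,3028), (1233,0,842), (2608,0,1233), (397,0,2608), (1513,0,397), (3973,0,1513), (2631,0,3973), (56,0,2631), (2648,0,56), (1505,0,27), (1416,0,1505), (187,0,1416), (1603,0,187), (2251,0,1603), (3027,0,2251), (1430,0,3027), (1661,0,1430), (2227,0,1661), (1459,0,2227), (2784,0,1459), (3864,0,2784), (1792,0,31), (42,0,1792), (1167,0,42), (3757,0,1167), (831,0,3757), (2239,0,831), (3260,0,2239), (3534,0,3260), (1051,0,3534), (184,0,1051), (175,0,184), (3925,0,175), (1666,0,35), (2863,0,1666), (4043,0,2863), (1024,0,4043), (3693,0,1024), (558,0,3693), (2751,0,558), (2703,0,2751), (1014,0,2703), (3441,0,1014), (2324,0,3441), (3948,0,2324), (2713,0,36), (120,0,2713), (1647,0,120), (2156,0,1647), (3672,0,2156), (1118,0,3672), (1921,0,1118), (116,0,1921), (2148,0,116), (3615,0,2148), (1509,0,3615), (648,0,1509), (657,0,38), (2765,0,657), (497,0,2765),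 (835,0,497), (2053,0,835), (3952,0,2053), (1805,0,3952), (3846,0,1805), (2977,0,3846), (2044,0,2977), (1782,0,2044), (1496,0,1782), (355,0,44), (1757,0,355), (3044,0,1757), (2345,0,3044), (4051,0,2345), (1362,0,4051), (2162,0,1362), (1311,0,2162), (3629,0,1311), (2059,0,3629), (3373,0,2059), (2430,0,3373), (1801,0,47), (1672,0,1801), (2035,0,1672), (1824,0,2035), (377,0,1824), (1141,0,377), (582,0,1141), (2611,0,582), (691,0,2611), (1593,0,691), (2325,0,1593), (3185,0,2325), (803,0,48), (795,0,803), (272,0,795), (1293,0,272), (86,0,1293), (3347,0,86), (832,0,3347), (988,0,832), (1558,0,988), (959,0,1558), (2805,0,959), (2272,0,2805), (1899,0,51), (3096,0,1899), (2210,0,3096), (414,0,2210), (1876,0,414), (3162,0,1876), (902,0,3162), (3889,0,902), (54,0,3889), (1978,0,54), (3413,0,1978), (4044,0,3413), (2040,0,53), (2397,0,2040), (972,0,2397), (467,0,972), (3944,0,467), (3588,0,3944), (225,0,3588), (2114,0,225), (3917,0,2114), (3800,0,3917), (1419,0,3800), (2259,0,1419), (159,0,61), (2523,0,159),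 (3706,0,2523), (2280,0,3706), (2879,0,2280), (113,0,2879), (1029,0,113), (3384,0,1029), (1823,0,3384), (1747,0,1823), (253,0,1747), (483,0,253), (3344,0,62), (1271,0,3344), (3807,0,1271), (1709,0,3807), (2579,0,1709), (3556,0,2579), (3049,0,3556), (509,0,3049), (3898,0,509), (1388,0,3898), (970,0,1388), (792,0,970), (1959,0,68), (3975,0,1959), (2164,0,3975), (448,0,2164), (2819,0,448), (2733,0,2819), (3729,0,2733), (1564,0,3729), (3677,0,1564), (973,0,3677), (1222,0,973), (1199,0,1222), (369,0,72), (1007,0,369), (325,0,1007), (687,0,325), (2018,0,687), (3648,0,2018), (913,0,3648), (748,0,913), (145,0,748), (3223,0,145), (3568,0,3223), (3535,0,3568), (1457,0,73), (1210,0,1457), (1286,0,1210), (3491,0,1286), (132,0,3491), (3601,0,132), (2092,0,3601), (1508,0,2092), (2372,0,1508), (587,0,2372), (3920,0,587), (2032,0,3920), (3955,0,74), (1424,0,3955), (3826,0,1424), (2618,0,3826), (89,0,2618), (4023,0,89), (3161,0,4023), (2020,0,3161), (898,0,2020), (749,0,898), (1184,0,749), (806,0,1184), (2971,0,75),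 (3032,0,2971), (1082,0,3032), (1126,0,1082), (3618,0,1126), (2894,0,3618), (578,0,2894), (3388,0,578), (611,0,3388), (2906,0,611), (2145,0,2906), (3319,0,2145), (478,0,78), (613,0,478), (2825,0,613), (449,0,2825), (3060,0,449), (3794,0,3060), (3999,0,3794), (2746,0,3999), (2622,0,2746), (1319,0,2622), (1596,0,1319), (173,0,1596), (1216,0,85), (2029,0,1216), (2614,0,2029), (2015,0,2614), (2216,0,2015), (407,0,2216), (920,0,407), (1366,0,920), (759,0,1366), (1819,0,759), (4019,0,1819), (3217,0,4019), (284,0,87), (693,0,284), (1041,0,693), (2248,0,1041), (3330,0,2248), (3694,0,3330), (1806,0,3694), (434,0,1806), (3546,0,434), (3642,0,3546), (2487,0,3642), (1067,0,2487), (93,0,90), (1344,0,93), (3684,0,1344), (984,0,3684), (3354,0,984), (3144,0,3354), (531,0,3144), (577,0,531), (3328,0,577), (751,0,3328), (3421,0,751), (1214,0,3421), (997,0,91), (1830,0,997), (2970,0,1830), (1888,0,2970), (2607,0,1888), (3657,0,2607), (750,0,3657), (871,0,750), (205,0,871), (3836,0,205), (2312,0,3836), (946,0,2312),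 (1748,0,95), (816,0,1748), (1392,0,816), (3316,0,1392), (2289,0,3316), (1570,0,2289), (3916,0,1570), (1348,0,3916), (517,0,1348), (2790,0,517), (1754,0,2790), (2725,0,1754), (1452,0,96), (2640,0,1452), (1810,0,2640), (3843,0,1810), (2589,0,3843), (1328,0,2589), (3023,0,1328), (2321,0,3023), (1717,0,2321), (1062,0,1717), (114,0,1062), (2350,0,114), (3560,0,97), (3886,0,3560), (2961,0,3886), (3476,0,2961), (2140,0,3476), (170,0,2140), (1989,0,170), (1908,0,1989), (3816,0,1908), (1643,0,3816), (3970,0,1643), (2538,0,3970), (455,0,98), (1655,0,455), (278,0,1655), (453,0,278), (1468,0,453), (3030,0,1468), (3599,0,3030), (2182,0,3599), (3494,0,2182), (2118,0,3494), (2237,0,2118), (843,0,2237), (3204,0,99), (481,0,3204), (1912,0,481), (2778,0,1912), (3788,0,2778), (2826,0,3788), (740,0,2826), (1883,0,740), (1844,0,1883), (1020,0,1844), (655,0,1020), (1911,0,655), (1425,0,102), (1612,0,1425), (1262,0,1612), (3099,0,1262), (3650,0,3099), (2070,0,3650), (2000,0,2070), (1963,0,2000), (3045,0,1963),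 (336,0,3045), (376,0,336), (3742,0,376), (4058,0,106), (1783,0,4058), (2679,0,1783), (2472,0,2679), (1793,0,2472), (1894,0,1793), (2873,0,1894), (1039,0,2873), (3420,0,1039), (565,0,3420), (3730,0,565), (208,0,3730), (3463,0,128), (1013,0,3463), (904,0,1013), (771,0,904), (1829,0,771), (3036,0,1829), (2902,0,3036), (3075,0,2902), (2448,0,3075), (405,0,2448), (340,0,405), (4039,0,340), (923,0,133), (828,0,923), (2206,0,828), (2943,0,2206), (2351,0,2943), (858,0,2351), (3553,0,858), (3348,0,3553), (3459,0,3348), (3318,0,3459), (1465,0,3318), (3022,0,1465), (1173,0,134), (1010,0,1173), (3136,0,1010), (918,0,3136), (231,0,918), (1693,0,231), (332,0,1693), (1715,0,332), (2288,0,1715), (447,0,2288), (3305,0,447), (3289,0,3305), (824,0,136), (2038,0,824), (2660,0,2038), (3270,0,2660), (1202,0,3270), (661,0,1202), (1934,0,661), (2898,0,1934), (2568,0,2898), (1627,0,2568), (2700,0,1627), (2232,0,2700), (2859,0,137), (1619,0,2859), (1732,0,1619), (1633,0,1732), (2143,0,1633), (3644,0,2143), (1521,0,3644),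 (1435,0,1521), (3196,0,1435), (541,0,3196), (549,0,541), (2855,0,549), (1865,0,139), (2364,0,1865), (2451,0,2364), (916,0,2451), (2434,0,916), (2705,0,2434), (968,0,2705), (403,0,968), (3745,0,403), (2412,0,3745), (1478,0,2412), (1602,0,1478), (1114,0,141), (1753,0,1114), (3313,0,1753), (546,0,3313), (3869,0,546), (1776,0,3869), (3433,0,1776), (3121,0,3433), (283,0,3121), (1180,0,283), (1527,0,1180), (3137,0,1527), (1762,0,142), (990,0,1762), (1614,0,990), (2066,0,1614), (3625,0,2066), (1273,0,3625), (3264,0,1273), (3740,0,3264), (1373,0,3740), (3261,0,1373), (402,0,3261), (811,0,402), (3039,0,148), (813,0,3039), (2131,0,813), (1150,0,2131), (4022,0,1150), (4052,0,4022), (1064,0,4052), (365,0,1064), (2082,0,365), (3477,0,2082), (1699,0,3477), (3966,0,1699), (1122,0,150), (3068,0,1122), (1628,0,3068), (1863,0,1628), (995,0,1863), (1406,0,995), (2249,0,1406), (1537,0,2249), (2587,0,1537), (3176,0,2587), (164,0,3176), (3041,0,164), (2106,0,151), (2996,0,2106), (4054,0,2996), (979,0,4054), (309,0,979),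 (932,0,309), (3031,0,932), (1464,0,3031), (1099,0,1464), (2349,0,1099), (1046,0,2349), (2678,0,1046), (852,0,160), (2830,0,852), (2490,0,2830), (1291,0,2490), (3837,0,1291), (1022,0,3837), (2723,0,1022), (3710,0,2723), (2233,0,3710), (726,0,2233), (3056,0,726), (3084,0,3056), (2435,0,162), (2408,0,2435), (3500,0,2408), (1950,0,3500), (1302,0,1950), (2739,0,1302), (1917,0,2739), (3988,0,1917), (3602,0,3988), (901,0,3602), (209,0,901), (2432,0,209), (2537,0,163), (2574,0,2537), (805,0,2574), (3011,0,805), (2347,0,3011), (3397,0,2347), (1137,0,3397), (736,0,1137), (1221,0,736), (3367,0,1221), (1149,0,3367), (1755,0,1149), (3468,0,165), (1645,0,3468), (2699,0,1645), (2030,0,2699), (3664,0,2030), (224,0,3664), (636,0,224), (1253,0,636), (2170,0,1253), (3225,0,2170), (1059,0,3225), (1639,0,1059), (3321,0,179), (3985,0,3321), (2988,0,3985), (1600,0,2988), (4046,0,1600), (3386,0,4046), (1338,0,3386), (370,0,1338), (1749,0,370), (550,0,1749), (2429,0,550), (2470,0,2429), (3605,0,182), (298,0,3605),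 (2392,0,298), (2853,0,2392), (3713,0,2853), (3833,0,3713), (983,0,3833), (1163,0,983), (2380,0,1163), (3600,0,2380), (359,0,3600), (1814,0,359), (1279,0,183), (627,0,1279), (3026,0,627), (1613,0,3026), (393,0,1613), (1895,0,393), (3752,0,1895), (1398,0,3752), (2128,0,1398), (2986,0,2128), (275,0,2986), (945,0,275), (2045,0,195), (223,0,2045), (2603,0,223), (2620,0,2603), (779,0,2620), (2342,0,779), (1852,0,2342), (2177,0,1852), (3609,0,2177), (3065,0,3609), (1935,0,3065), (2492,0,1935), (2645,0,199), (2346,0,2645), (2506,0,2346), (1546,0,2506), (3069,0,1546), (818,0,3069), (2017,0,818), (3257,0,2017), (955,0,3257), (2516,0,955), (2637,0,2516), (1130,0,2637), (3641,0,202), (3567,0,3641), (2250,0,3567), (954,0,2250), (3967,0,954), (1290,0,3967), (1744,0,1290), (572,0,1744), (4035,0,572), (2171,0,4035), (3401,0,2171), (2262,0,3401), (1186,0,204), (3666,0,1186), (1274,0,3666), (3148,0,1274), (3776,0,3148), (2050,0,3776), (1385,0,2050), (1795,0,1385), (3131,0,1795), (524,0,3131), (3480,0,524),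 (773,0,3480), (1679,0,206), (1218,0,1679), (3259,0,1218), (2047,0,3259), (3376,0,2047), (2760,0,3376), (1156,0,2760), (3825,0,1156), (1426,0,3825), (3445,0,1426), (2940,0,3445), (3326,0,2940), (777,0,227), (294,0,777), (2727,0,294), (3349,0,2727), (3329,0,3349), (375,0,3329), (3142,0,375), (1916,0,3142), (3789,0,1916), (3653,0,3789), (1827,0,3653), (3199,0,1827), (1231,0,234), (2999,0,1231), (3748,0,2999), (921,0,3748), (521,0,921), (3290,0,521), (2061,0,3290), (3797,0,2061), (1938,0,3797), (903,0,1938), (2710,0,903), (1437,0,2710), (470,0,235), (733,0,470), (1630,0,733), (2717,0,1630), (3510,0,2717), (2803,0,3510), (3025,0,2803), (845,0,3025), (3717,0,845), (1768,0,3717), (3287,0,1768), (388,0,3287), (1900,0,239), (3090,0,1900), (3759,0,3090), (2908,0,3759), (1363,0,2908), (3883,0,1363), (3747,0,3883), (1611,0,3747), (551,0,1611), (1303,0,551), (1760,0,1303), (2067,0,1760), (2481,0,245), (2582,0,2481), (2513,0,2582), (1417,0,2513), (789,0,1417), (1734,0,789), (1374,0,1734), (947,0,1374),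 (3899,0,947), (2520,0,3899), (3924,0,2520), (2833,0,3924), (3396,0,247), (2918,0,3396), (412,0,2918), (3194,0,412), (892,0,3194), (2202,0,892), (1544,0,2202), (776,0,1544), (877,0,776), (2858,0,877), (589,0,2858), (962,0,589), (3863,0,248), (924,0,3863), (1846,0,924), (3015,0,1846), (1949,0,3015), (1284,0,1949), (1378,0,1284), (2033,0,1378), (1785,0,2033), (3857,0,1785), (2657,0,3857), (2218,0,2657), (1268,0,250), (3197,0,1268), (2973,0,3197), (277,0,2973), (1094,0,277), (3150,0,1094), (729,0,3150), (3492,0,729), (2791,0,3492), (2720,0,2791), (3709,0,2720), (919,0,3709), (2698,0,252), (1077,0,2698), (698,0,1077), (989,0,698), (350,0,989), (3950,0,350), (2776,0,3950), (1727,0,2776), (1534,0,1727), (2761,0,1534), (2619,0,2761), (2797,0,2619), (2742,0,255), (416,0,2742), (1691,0,416), (1540,0,1691), (3721,0,1540), (1460,0,3721), (2738,0,1460), (2509,0,2738), (3130,0,2509), (432,0,3130), (772,0,432), (288,0,772), (2133,0,256), (3221,0,2133), (282,0,3221), (3167,0,282), (436,0,3167), (1982,0,436),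 (3323,0,1982), (1135,0,3323), (1449,0,1135), (3829,0,1449), (3658,0,3829), (3604,0,3658), (1139,0,264), (2100,0,1139), (3847,0,2100), (863,0,3847), (673,0,863), (3887,0,673), (3669,0,3887), (2456,0,3669), (418,0,2456), (878,0,418), (1097,0,878), (3578,0,1097), (3095,0,270), (3704,0,3095), (2224,0,3704), (1988,0,2224), (3410,0,1988), (642,0,3410), (457,0,642), (1337,0,457), (2820,0,1337), (2772,0,2820), (1773,0,2772), (3350,0,1773), (1390,0,271), (2468,0,1390), (597,0,2468), (744,0,597), (2194,0,744), (802,0,2194), (3352,0,802), (444,0,3352), (2901,0,444), (295,0,2901), (3254,0,295), (1491,0,3254), (1518,0,290), (1055,0,1518), (1605,0,1055), (1735,0,1605), (3929,0,1735), (1076,0,3929), (3385,0,1076), (3457,0,3385), (1256,0,3457), (338,0,1256), (3314,0,338), (3152,0,3314), (2900,0,292), (3125,0,2900), (2179,0,3125), (2917,0,2179), (808,0,2917), (1432,0,808), (3939,0,1432), (2075,0,3939), (3838,0,2075), (3263,0,3838), (316,0,3263), (2792,0,316), (3871,0,302), (1376,0,3871), (1250,0,1376), (781,0,1250),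 (3157,0,781), (2467,0,3157), (1869,0,2467), (1529,0,1869), (1178,0,1529), (2273,0,1178), (3147,0,2273), (2517,0,3147), (2634,0,303), (1861,0,2634), (1387,0,1861), (1985,0,1387), (1725,0,1985), (3689,0,1725), (3207,0,3689), (3665,0,3207), (1380,0,3665), (3504,0,1380), (1412,0,3504), (3222,0,1412), (1948,0,304), (1866,0,1948), (2399,0,1866), (3690,0,2399), (1037,0,3690), (3220,0,1037), (3785,0,3220), (2810,0,3785), (3007,0,2810), (1839,0,3007), (1925,0,1839), (3338,0,1925), (4030,0,308), (2788,0,4030), (3977,0,2788), (313,0,3977), (579,0,313), (2235,0,579), (3527,0,2235), (2653,0,3527), (3993,0,2653), (1191,0,3993), (2042,0,1191), (3637,0,2042), (2447,0,315), (1507,0,2447), (3377,0,1507), (943,0,3377), (1742,0,943), (1189,0,1742), (1636,0,1189), (2277,0,1636), (1750,0,2277), (3296,0,1750), (2155,0,3296), (844,0,2155), (1370,0,319), (3850,0,1370), (2203,0,3850), (3793,0,2203), (3292,0,3793), (1089,0,3292), (2417,0,1089), (3406,0,2417), (4018,0,3406), (3778,0,4018), (3333,0,3778), (1207,0,3333),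 (3511,0,321), (2602,0,3511), (1695,0,2602), (3723,0,1695), (511,0,3723), (3449,0,511), (2866,0,3449), (1609,0,2866), (1044,0,1609), (2945,0,1044), (2895,0,2945), (2200,0,2895), (341,0,330), (2934,0,341), (3946,0,2934), (3820,0,3946), (2570,0,3820), (3571,0,2570), (441,0,3571), (2685,0,441), (3488,0,2685), (1892,0,3488), (1436,0,1892), (1340,0,1436), (1377,0,339), (3009,0,1377), (3803,0,3009), (941,0,3803), (2503,0,941), (3116,0,2503), (3102,0,3116), (2079,0,3102), (2461,0,2079), (4037,0,2461), (2299,0,4037), (814,0,2299), (894,0,347), (2363,0,894), (2402,0,2363), (3064,0,2402), (1804,0,3064), (1025,0,1804), (1879,0,1025), (1980,0,1879), (3010,0,1980), (1743,0,3010), (3841,0,1743), (3216,0,3841), (1721,0,353), (1728,0,1721), (2541,0,1728), (1833,0,2541), (3751,0,1833), (2341,0,3751), (2413,0,2341), (2675,0,2413), (519,0,2675), (3943,0,519), (2255,0,3943), (2368,0,2255), (3335,0,360), (1331,0,3335), (3506,0,1331), (4002,0,3506), (965,0,4002), (1045,0,965), (2651,0,1045), (454,0,2651), (2208,0,454),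 (3128,0,2208), (2719,0,3128), (1884,0,2719), (1511,0,394), (1914,0,1511), (2159,0,1914), (505,0,2159), (2499,0,505), (2507,0,2499), (1877,0,2507), (1624,0,1877), (684,0,1624), (2320,0,684), (2144,0,2320), (1568,0,2144), (2146,0,401), (1360,0,2146), (3767,0,1360), (1313,0,3767), (2980,0,1313), (2437,0,2980), (3585,0,2437), (1535,0,3585), (476,0,1535), (3515,0,476), (539,0,3515), (770,0,539), (1860,0,408), (2780,0,1860), (3389,0,2780), (2246,0,3389), (2968,0,2246), (1741,0,2968), (769,0,1741), (2547,0,769), (1726,0,2547), (3495,0,1726), (834,0,3495), (3885,0,834), (3271,0,409), (3390,0,3271), (2682,0,3390), (1144,0,2682), (2621,0,1144), (1519,0,2621), (3188,0,1519), (2230,0,3188), (4031,0,2230), (3575,0,4031), (3237,0,3575), (3914,0,3237), (2836,0,411), (4000,0,2836), (2134,0,4000), (3418,0,2134), (2205,0,3418), (4024,0,2205), (3912,0,4024), (1345,0,3912), (3720,0,1345), (1503,0,3720), (2929,0,1503), (431,0,2929), (1275,0,422), (3502,0,1275), (3101,0,3502), (1212,0,3101), (1961,0,1212), (3591,0,1961),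 (1641,0,3591), (4047,0,1641), (2465,0,4047), (3469,0,2465), (1441,0,3469), (679,0,1441), (3842,0,425), (2130,0,3842), (2141,0,2130), (3656,0,2141), (2978,0,3656), (458,0,2978), (846,0,458), (3417,0,846), (2160,0,3417), (1974,0,2160), (815,0,1974), (766,0,815), (3544,0,429), (1006,0,3544), (1815,0,1006), (1285,0,1815), (1005,0,1285), (628,0,1005), (2960,0,628), (3001,0,2960), (1680,0,3001), (2357,0,1680), (3029,0,2357), (874,0,3029), (2658,0,433), (3124,0,2658), (2793,0,3124), (1161,0,2793), (3974,0,1161), (1777,0,3974), (3070,0,1777), (725,0,3070), (780,0,725), (2276,0,780), (2458,0,2276), (3853,0,2458), (2758,0,461), (3835,0,2758), (3634,0,3835), (4057,0,3634), (1897,0,4057), (675,0,1897), (991,0,675), (3696,0,991), (1112,0,3696), (3996,0,1112), (1557,0,3996), (3079,0,1557), (652,0,469), (1085,0,652), (1730,0,1085), (2310,0,1730), (1956,0,2310), (1583,0,1956), (2110,0,1583), (817,0,2110), (647,0,817), (1995,0,647), (2274,0,1995), (3701,0,2274), (1543,0,473), (2188,0,1543), (1182,0,2188),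 (1751,0,1182), (1470,0,1751), (2522,0,1470), (2543,0,2522), (3355,0,2543), (609,0,3355), (3746,0,609), (2136,0,3746), (1423,0,2136), (512,0,475), (1517,0,512), (1731,0,1517), (2744,0,1731), (2572,0,2744), (3298,0,2572), (3092,0,3298), (1896,0,3092), (4014,0,1896), (2870,0,4014), (1623,0,2870), (2883,0,1623), (1440,0,488), (3682,0,1440), (620,0,3682), (3623,0,620), (3451,0,3623), (660,0,3451), (1411,0,660), (3610,0,1411), (3249,0,3610), (3140,0,3249), (1615,0,3140), (2109,0,1615), (3685,0,510), (3769,0,3685), (2956,0,3769), (2707,0,2956), (3626,0,2707), (4015,0,3626), (3453,0,4015), (653,0,3453), (559,0,653), (3942,0,559), (3676,0,3942), (2556,0,3676), (1608,0,518), (1807,0,1608), (3117,0,1807), (2419,0,3117), (2787,0,2419), (1499,0,2787), (2696,0,1499), (2775,0,2696), (3003,0,2775), (1704,0,3003), (762,0,1704), (3436,0,762), (2781,0,520), (711,0,2781), (4042,0,711), (1868,0,4042), (2441,0,1868), (567,0,2441), (922,0,567), (2313,0,922), (2965,0,2313), (859,0,2965), (2330,0,859), (2747,0,2330),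 (2674,0,522), (870,0,2674), (2228,0,870), (826,0,2228), (622,0,826), (2987,0,622), (1714,0,2987), (3408,0,1714), (2562,0,3408), (1021,0,2562), (3784,0,1021), (2847,0,3784), (1867,0,532), (553,0,1867), (3310,0,553), (996,0,3310), (1171,0,996), (643,0,1171), (2789,0,643), (2027,0,2789), (1036,0,2027), (2926,0,1036), (1890,0,2926), (893,0,1890), (2151,0,544), (4045,0,2151), (2275,0,4045), (2967,0,2275), (1953,0,2967), (2982,0,1953), (1845,0,2982), (4053,0,1845), (667,0,4053), (2406,0,667), (1354,0,2406), (3941,0,1354), (2410,0,548), (3612,0,2410), (3006,0,3612), (3018,0,3006), (2936,0,3018), (1433,0,2936), (1620,0,1433), (3638,0,1620), (3858,0,3638), (1235,0,3858), (1514,0,1235), (2088,0,1514), (3646,0,557), (2002,0,3646), (860,0,2002), (1409,0,860), (3533,0,1409), (3024,0,3533), (1248,0,3024), (3111,0,1248), (2588,0,3111), (3636,0,2588), (1764,0,3636), (3781,0,1764), (2058,0,571), (2808,0,2058), (2612,0,2808), (3580,0,2612), (1463,0,3580), (3346,0,1463), (1838,0,3346), (838,0,1838), (3768,0,838),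 (2939,0,3768), (2536,0,2939), (674,0,2536), (3059,0,574), (2427,0,3059), (3688,0,2427), (3824,0,3688), (1710,0,3824), (3643,0,1710), (2076,0,3643), (2361,0,2076), (2253,0,2361), (2377,0,2253), (1208,0,2377), (3621,0,1208), (3517,0,576), (2383,0,3517), (1964,0,2383), (1091,0,1964), (1480,0,1091), (1353,0,1480), (614,0,1353), (1919,0,614), (833,0,1919), (2268,0,833), (2565,0,2268), (1887,0,2565), (1339,0,581), (2294,0,1339), (1873,0,2294), (1803,0,1873), (2296,0,1803), (2807,0,2296), (3812,0,2807), (3870,0,3812), (1310,0,3870), (3722,0,1310), (856,0,3722), (3113,0,856), (3040,0,638), (2116,0,3040), (3668,0,2116), (3528,0,3668), (2832,0,3528), (3295,0,2832), (3715,0,3295), (1200,0,3715), (2865,0,1200), (2544,0,2865), (1812,0,2544), (2439,0,1812), (1706,0,641), (3228,0,1706), (1383,0,3228), (1429,0,1383), (1689,0,1429), (3426,0,1689), (963,0,3426), (1288,0,963), (2777,0,1288), (2952,0,2777), (3989,0,2952), (2526,0,3989), (3994,0,645), (2123,0,3994), (3880,0,2123), (3054,0,3880), (3358,0,3054),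 (2514,0,3358), (3470,0,2514), (1111,0,3470), (2404,0,1111), (1223,0,2404), (3447,0,1223), (1213,0,3447), (2527,0,656), (3154,0,2527), (2323,0,3154), (967,0,2323), (2010,0,967), (1673,0,2010), (3119,0,1673), (1539,0,3119), (1414,0,1539), (3855,0,1414), (1296,0,3855), (2006,0,1296), (1670,0,664), (2423,0,1670), (700,0,2423), (2009,0,700), (3741,0,2009), (1042,0,3741), (2642,0,1042), (3555,0,2642), (3520,0,3555), (3739,0,3520), (1488,0,3739), (839,0,1488), (4016,0,680), (3549,0,4016), (3894,0,3549), (3780,0,3894), (3360,0,3780), (1697,0,3360), (1781,0,1697), (2370,0,1781), (3431,0,2370), (981,0,3431), (1393,0,981), (2219,0,1393), (1102,0,690), (2946,0,1102), (3013,0,2946), (3299,0,3013), (1667,0,3299), (3990,0,1667), (2444,0,3990), (2709,0,2444), (3697,0,2709), (867,0,3697), (3108,0,867), (3058,0,3108), (841,0,696), (3146,0,841), (1061,0,3146), (3214,0,1061), (2207,0,3214), (2099,0,2207), (1684,0,2099), (2920,0,1684), (1349,0,2920), (2054,0,1349), (1258,0,2054), (2426,0,1258), (3878,0,708),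 (2759,0,3878), (2474,0,2759), (927,0,2474), (1080,0,927), (888,0,1080), (2993,0,888), (3485,0,2993), (1049,0,3485), (3343,0,1049), (1787,0,3343), (2460,0,1787), (3907,0,709), (1174,0,3907), (880,0,1174), (1019,0,880), (2290,0,1019), (3509,0,2290), (2089,0,3509), (885,0,2089), (2672,0,885), (3414,0,2672), (723,0,3414), (1996,0,723), (3443,0,715), (2518,0,3443), (3831,0,2518), (739,0,3831), (794,0,739), (1585,0,794), (1703,0,1585), (2963,0,1703), (1292,0,2963), (3783,0,1292), (1058,0,3783), (1474,0,1058), (1205,0,718), (2626,0,1205), (3187,0,2626), (2336,0,3187), (3103,0,2336), (2981,0,3103), (3935,0,2981), (3159,0,3935), (2064,0,3159), (3913,0,2064), (2081,0,3913), (3513,0,2081), (758,0,737), (2941,0,758), (3442,0,2941), (1148,0,3442), (3419,0,1148), (2095,0,3419), (3409,0,2095), (3687,0,3409), (2869,0,3687), (4056,0,2869), (1084,0,4056), (2307,0,1084), (3351,0,752), (2149,0,3351), (2028,0,2149), (774,0,2028), (3543,0,774), (1438,0,3543), (1595,0,1438), (2261,0,1595), (2897,0,2261), (3398,0,2897),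 (2814,0,3398), (3379,0,2814), (3466,0,799), (1648,0,3466), (2515,0,1648), (1789,0,2515), (3374,0,1789), (1096,0,3374), (1267,0,1096), (3674,0,1267), (3801,0,3674), (3479,0,3801), (3937,0,3479), (3813,0,3937), (3564,0,804), (1945,0,3564), (2524,0,1945), (2271,0,2524), (3193,0,2271), (3632,0,3193), (3790,0,3632), (1098,0,3790), (2085,0,1098), (1418,0,2085), (886,0,1418), (2549,0,886), (2057,0,836), (853,0,2057), (3576,0,853), (1462,0,3576), (1330,0,1462), (2593,0,1330), (3611,0,2593), (1947,0,3611), (2212,0,1947), (3903,0,2212), (1147,0,3903), (1632,0,1147), (2229,0,847), (3303,0,2229), (3493,0,3303), (3364,0,3493), (3819,0,3364), (2624,0,3819), (1469,0,2624), (4017,0,1469), (4026,0,4017), (1226,0,4026), (1901,0,1226), (935,0,1901), (1515,0,906), (3334,0,1515), (1333,0,3334), (1601,0,1333), (3483,0,1601), (2147,0,3483), (2501,0,2147), (1382,0,2501), (3471,0,1382), (3448,0,3471), (2886,0,3448), (3840,0,2886), (1347,0,1000), (2925,0,1347), (1649,0,2925), (1771,0,1649), (3764,0,1771), (3191,0,3764),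 (3590,0,3191), (1690,0,3590), (2225,0,1690), (3253,0,2225), (2395,0,3253), (3231,0,2395), (3063,0,1170), (3061,0,3063), (2848,0,3061), (3077,0,2848), (1569,0,3077), (2291,0,1569), (1572,0,2291), (3110,0,1572), (1364,0,3110), (3042,0,1364), (3557,0,3042), (3091,0,3557), (2234,0,2091), (3551,0,2234), (3737,0,3551), (2204,0,3737), (3731,0,2204), (2409,0,3731), (3670,0,2409), (2186,0,3670), (2213,0,2186), (3635,0,2213), (2671,0,3635), (2334,0,2671)]

/-- the table of `r` -/
def Tr (_ p : ℕ) : ℕ := imW 12 4095 rT p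

theorem chk_reach : Nat.beq (reachM Tr certZ (maskOf repsZ)) Bm = true := by decide +kernel
theorem chk_reps : repsZ.all (fun u => and (Nat.ble (Nat.succ u) 4060) (or (Zq.contains u) (not (patG u 1 pq)))) = true := by
  decide +kernel
theorem chk_Zr : Zq.all (fun z => Zq.contains (imW 12 4095 rT z)) = true := by decide +kernel
theorem chk_Zev : Zq = (List.range 13).map (fun j => ev j q0) := by decide +kernel

/-- the property of the points of `B₀` -/
def Pz (x : Fin 4060) : Prop := patG x.1 1 pq = true → x.1 ∈ Zq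

theorem Pz_r {x : Fin 4060} (h : Pz x) : Pz (rr.1 x) := by
  intro h1
  rw [patG_r] at h1
  have h2 := h h1
  have h3 := List.all_eq_true.1 chk_Zr _ h2
  rw [r_val]
  exact List.contains_iff_mem.1 h3

theorem Pz_all (y : Fin 4060) (hy : y ∈ mk Bm) : Pz y := by
  have hc := reachM_sound Tr (fun n => ∃ h : n < 4060, Pz ⟨n, h⟩) ?_ certZ (maskOf repsZ) ?_ y.1 ?_
  · obtain ⟨_, h⟩ := hc
    exact h
  · rintro e p ⟨h1, h2⟩
    have h3 := r_val ⟨p, h1⟩
    have h4 : Tr e p = (rr.1 ⟨p, h1⟩).val := h3.symm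
    rw [h4]
    exact ⟨(rr.1 ⟨p, h1⟩).2, Pz_r h2⟩
  · intro z hz
    have hz' := (testBit_maskOf _ _).1 hz
    have h := List.all_eq_true.1 chk_reps z hz'
    rw [Bool.and_eq_true, Bool.or_eq_true] at h
    refine ⟨Nat.le_of_ble_eq_true h.1, ?_⟩
    intro h5
    rcases h.2 with h6 | h6
    · exact List.contains_iff_mem.1 h6
    · rw [show patG (⟨z, Nat.le_of_ble_eq_true h.1⟩ : Fin 4060).1 1 pq = patG z 1 pq from rfl] at h5
      rw [h5] at h6
      exact absurd h6 (by decide)
  · rw [Nat.eq_of_beq_eq_true chk_reach]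
    exact RuRkDat.mem_mk.1 hy

/-- the point `q0` -/
def qF : Fin 4060 := ⟨1319, by norm_num⟩

theorem mem_Zq_ev {z : ℕ} (h : z ∈ Zq) : ∃ j, z = ev j q0 := by
  rw [chk_Zev] at h
  obtain ⟨j, _, rfl⟩ := List.mem_map.1 h
  exact ⟨j, rfl⟩

theorem q_B : Nat.testBit Bm 1319 = true := by decide +kernel

theorem hq : ∀ y : H₀, (∀ i : ℕ, (wb (y.1 qF).1 ((rr.1 ^ i) (y.1 qF)).1 = true) ↔ (wb qF.1 ((rr.1 ^ i) qF).1 = true)) →
    ∃ j : ℕ, y.1 qF = (rr.1 ^ j) qF := by
  intro y hy
  have hyH := (mem_H₀ _).1 y.2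
  have hqB : qF ∈ mk Bm := RuRkDat.mem_mk.2 q_B
  have h1 : wb 0 (y.1 qF).1 = true := by
    have h2 := wb_inv hyH.1 0 qF
    rw [hyH.2] at h2
    have h3 : wb 0 qF.1 = true := (wb_0 qF).2 (Or.inr hqB)
    exact h2.trans h3
  have h4 : y.1 qF ∈ mk Bm := by
    rcases (wb_0 _).1 h1 with h5 | h5
    · exfalso
      have h6 : y.1 qF = y.1 0 := by rw [h5, hyH.2]
      have h7 := y.1.injective h6
      have h8 := congrArg Fin.val h7
      exact absurd h8 (by decide)
    · exact h5
  have hpat : patG (y.1 qF).1 1 pq = true := by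
    rw [chk_pq]
    apply patG_of (f := fun i => wb q0 (ev i q0))
    intro i
    have h9 := hy i
    rw [ev_val, ev_val] at h9
    exact Bool.eq_iff_iff.2 h9
  have hz := Pz_all _ h4 hpat
  obtain ⟨j, hj⟩ := mem_Zq_ev hz
  refine ⟨j, Fin.ext ?_⟩
  rw [hj, ev_val]
  rfl

/-- a number as a point -/
def toF (z : ℕ) : Fin 4060 := ⟨z % 4060, Nat.mod_lt _ (by norm_num)⟩

theorem toF_val {z : ℕ} (h : z < 4060) : (toF z).val = z := Nat.mod_eq_of_lt h

theorem chk_lt : (Zq ++ L1).all (fun z => Nat.ble (Nat.succ z) 4060) = true := by decide +kernel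

theorem lt_of_mem {z : ℕ} (h : z ∈ Zq ++ L1) : z < 4060 :=
  Nat.le_of_ble_eq_true (List.all_eq_true.1 chk_lt z h)

/-- the cycle of `q0` -/
def F₀ : List (Fin 4060) := Zq.map toF
/-- the further points -/
def L₁ : List (Fin 4060) := L1.map toF

theorem hF₀ : ∀ x ∈ F₀, ∃ i : ℕ, x = (rr.1 ^ i) qF := by
  intro x hx
  obtain ⟨z, hz, rfl⟩ := List.mem_map.1 hx
  obtain ⟨j, hj⟩ := mem_Zq_ev hz
  refine ⟨j, Fin.ext ?_⟩
  rw [toF_val (lt_of_mem (List.mem_append_left _ hz)), hj, ev_val]
  rfl

/-! ### patterns -/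

/-- a bit -/
def bitv (K w : ℕ) : ℕ := Nat.land (Nat.shiftRight K w) 1

theorem bitv_toNat (K w : ℕ) : bitv K w = (K.testBit w).toNat := by
  have h4 : bitv K w = (K >>> w) &&& 1 := rfl
  rw [h4, Nat.and_one_is_mod, Nat.testBit, Nat.and_comm, Nat.and_one_is_mod]
  rcases Nat.mod_two_eq_zero_or_one (K >>> w) with h | h <;> simp [h, bne]

/-- the code of a point -/
def codeOf : List ℕ → ℕ → ℕ
  | [], _ => 0
  | K :: l, w => Nat.add (Nat.mul 2 (codeOf l w)) (bitv K w)

theorem code_eq {Ks : List ℕ} {w w' : ℕ} (h : ∀ K ∈ Ks, K.testBit w = K.testBit w') : codeOf Ks w = codeOf Ks w' := by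
  induction Ks with
  | nil => rfl
  | cons K l ih =>
    simp only [codeOf]
    rw [ih (fun K' hK' => h K' (List.mem_cons_of_mem _ hK')), bitv_toNat, bitv_toNat, h K List.mem_cons_self]

/-- distinctness, through a hash and a mask -/
def nodH (M : ℕ) : List ℕ → ℕ → Bool
  | [], _ => true
  | c :: l, m => cond (Nat.testBit m (Nat.mod c M)) false (letN (Nat.lor m (Nat.pow 2 (Nat.mod c M))) (nodH M l))

theorem nodH_spec (M : ℕ) : ∀ (l : List ℕ) (m : ℕ), nodH M l m = true → l.Nodup ∧ ∀ c ∈ l, m.testBit (c % M) = false := by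
  intro l
  induction l with
  | nil => simp
  | cons c l ih =>
    intro m h
    rw [nodH] at h
    cases h1 : Nat.testBit m (Nat.mod c M)
    · rw [h1, cond_false, letN_eq] at h
      obtain ⟨h2, h3⟩ := ih _ h
      have h4 : ∀ d ∈ l, d % M ≠ c % M ∧ m.testBit (d % M) = false := by
        intro d hd
        have h5 := h3 d hd
        have e : Nat.lor m (Nat.pow 2 (Nat.mod c M)) = m ||| 2 ^ (c % M) := rfl
        rw [e, Nat.testBit_or, Bool.or_eq_false_iff, Nat.testBit_two_pow] at h5
        refine ⟨?_, h5.1⟩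
        intro h6
        have h7 := h5.2
        rw [h6] at h7
        simp at h7
      refine ⟨List.nodup_cons.2 ⟨?_, h2⟩, ?_⟩
      · intro hc
        exact (h4 c hc).1 rfl
      · intro d hd
        rcases List.mem_cons.1 hd with rfl | hd
        · exact h1
        · exact (h4 d hd).2
    · rw [h1, cond_true] at h
      exact absurd h (by simp)

/-- force the evaluation of a list of numbers -/
def forceNs {β : Type} : List ℕ → (List ℕ → β) → β
  | [], k => k []
  | t :: l, k => letN t fun i => forceNs l (fun l' => k (i :: l'))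

theorem forceNs_eq {β : Type} : ∀ (l : List ℕ) (k : List ℕ → β), forceNs l k = k l := by
  intro l
  induction l with
  | nil => intro k; rfl
  | cons t l ih =>
    intro k
    simp only [forceNs, letN_eq, ih]

theorem chk_H : forceNs ((Zq ++ L1).map colM) (fun Ks => nodH hM ((List.range 4060).map (codeOf Ks)) 0) = true := by
  decide +kernel

theorem chk_L : forceNs (Zq.map colM) (fun KZ => L1.all (fun x => letN (codeOf KZ x) fun cx =>
    (List.range 4060).all (fun w => or (Nat.beq w x) (not (Nat.beq (codeOf KZ w) cx))))) = true := by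
  decide +kernel

theorem hall : ∀ w w' : Fin 4060, (∀ f ∈ F₀ ++ L₁, wb f.1 w.1 = true ↔ wb f.1 w'.1 = true) → w = w' := by
  intro w w' h
  have h1 := chk_H
  rw [forceNs_eq] at h1
  have h2 := (nodH_spec _ _ _ h1).1
  have h3 : codeOf ((Zq ++ L1).map colM) w.1 = codeOf ((Zq ++ L1).map colM) w'.1 := by
    apply code_eq
    intro K hK
    obtain ⟨z, hz, rfl⟩ := List.mem_map.1 hK
    rw [testBit_colM, testBit_colM]
    have hlt := lt_of_mem hz
    have h4 := h (toF z) (by
      rw [F₀, L₁, ← List.map_append]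
      exact List.mem_map_of_mem hz)
    rw [toF_val hlt] at h4
    exact Bool.eq_iff_iff.2 h4
  have := List.inj_on_of_nodup_map h2 (List.mem_range.2 w.2) (List.mem_range.2 w'.2) h3
  exact Fin.ext this

theorem hL₁ : ∀ x ∈ L₁, ∀ w : Fin 4060, (∀ f ∈ F₀, wb f.1 w.1 = true ↔ wb f.1 x.1 = true) → w = x := by
  intro x hx w h
  obtain ⟨x', hx', rfl⟩ := List.mem_map.1 hx
  have hlt := lt_of_mem (List.mem_append_right _ hx')
  have h1 := chk_L
  rw [forceNs_eq, List.all_eq_true] at h1
  have h2 := h1 x' hx'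
  rw [letN_eq, List.all_eq_true] at h2
  have h3 := h2 w.1 (List.mem_range.2 w.2)
  rw [Bool.or_eq_true] at h3
  have h5 : (toF x').val = x' := toF_val hlt
  rcases h3 with h4 | h4
  · apply Fin.ext
    rw [h5]
    exact Nat.eq_of_beq_eq_true h4
  · exfalso
    have h6 : codeOf (Zq.map colM) w.1 = codeOf (Zq.map colM) x' := by
      apply code_eq
      intro K hK
      obtain ⟨z, hz, rfl⟩ := List.mem_map.1 hK
      have hz' := lt_of_mem (List.mem_append_left _ hz)
      have h7 := h (toF z) (List.mem_map_of_mem hz)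
      rw [toF_val hz', h5] at h7
      rw [testBit_colM]
      have h8 : Nat.testBit (colM z) x' = wb z x' := testBit_colM z (⟨x', hlt⟩ : Fin 4060)
      rw [h8]
      exact Bool.eq_iff_iff.2 h7
    rw [h6, Nat.beq_refl] at h4
    exact absurd h4 (by decide)

theorem hA : ∀ h ∈ H₀, ∀ x y : Fin 4060, (wb (h x).1 (h y).1 = true) ↔ (wb x.1 y.1 = true) := by
  intro h hh x y
  rw [wb_inv ((mem_H₀ _).1 hh).1]

/-- the centralizer of `r` -/
theorem hC : ∀ y : H₀, y * rr = rr * y → y ∈ Subgroup.zpowers rr :=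
  Cfsg.Agent.Lib.RuRkP7.centr_of_uniq H₀ (fun x y => wb x.1 y.1 = true) hA rr qF r_pow13 hq F₀ hF₀ L₁ hL₁ hall

end Cfsg.Agent.Lib.RuRkX1
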