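import Cfsg.Agent.Lib.RuRkW2

/-!
# Rank three recognition of the Rudvalis group: the vectors orthogonal to the sets `Sz`
-/

set_option autoImplicit false
set_option maxRecDepth 100000
set_option linter.unusedSectionVars false
set_option linter.unusedVariables false

namespace Cfsg.Agent.Lib.RuRkX2

open MulAction Finset Cfsg.Agent.Lib.RuRkA Cfsg.Agent.Lib.RuRkB Cfsg.Agent.Lib.RuRkC Cfsg.Agent.Lib.RuRkE
  Cfsg.Agent.Lib.RuRkT Cfsg.Agent.Lib.RuRkDat Cfsg.Agent.Lib.SparseDfs Cfsg.Agent.Lib.RuRkW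
  Cfsg.Agent.Lib.RuRkW2
open Cfsg.Agent.Lib.ProgChain Cfsg.Agent.Lib.PermChain Cfsg.Agent.Lib.RuMain

/-- a dot product of two lists of numbers -/
def dotN : List ℕ → List ℕ → ℕ
  | a :: l, b :: m => Nat.add (Nat.mul a b) (dotN l m)
  | _, _ => 0

theorem dotN_eq : ∀ (T a : List ℕ), dotN T a = ∑ j ∈ Finset.range T.length, T.getD j 0 * a.getD j 0 := by
  intro T
  induction T with
  | nil => intro a; simp [dotN]
  | cons t T ih =>
    intro a
    cases a with
    | nil => simp [dotN]
    | cons x a =>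
      rw [dotN, List.length_cons, Finset.sum_range_succ', ih a, add_comm]
      simp

/-- evaluates a list function on a forced number -/
def forceN {α : Type} (n : ℕ) (k : ℕ → α) : α := Nat.rec (k 0) (fun m _ => k (Nat.succ m)) n

theorem forceN_eq {α : Type} (n : ℕ) (k : ℕ → α) : forceN n k = k n := by
  cases n <;> rfl

/-- the numbers of neighbours of a point in each orbit, from its column mask -/
def countsOf (M : ℕ) : List ℕ := Ol.map (fun l => l.countP M.testBit)

/-- all the orthogonality relations for a column -/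
def chkCounts (T : List ℕ) : Bool :=
  (List.range 23).all (fun i => Nat.beq (dotN T (up.getD i [])) (dotN T (un.getD i [])))

/-- the check at a point -/
def chkZ (z : ℕ) : Bool := and (Nat.blt z 4060) (forceN (colM z) (fun M => chkCounts (countsOf M)))

theorem chk_reps : Crep.all chkZ = true := by decide +kernel

theorem chk_disj : Nat.land Bm Cm = 0 := by decide +kernel

theorem chk_b0 : Nat.testBit Bm 0 = false := by decide +kernel

theorem Ol_length : Ol.length = 42 := by decide +kernel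

theorem disj {y z : Fin 4060} (hy : y ∈ mk Bm) (hz : z ∈ mk Cm) : y ≠ z := by
  rintro rfl
  have h1 := RuRkDat.mem_mk.1 hy
  have h2 := RuRkDat.mem_mk.1 hz
  have e1 : Nat.land Bm Cm = Bm &&& Cm := rfl
  have h3 : (Bm &&& Cm).testBit y.1 = false := by
    rw [← e1, chk_disj]
    simp
  rw [Nat.testBit_and, h1, h2] at h3
  exact absurd h3 (by decide)

/-- a stabilizing element preserves the orbit -/
theorem mem_B_iff {g : Equiv.Perm (Fin 4060)} (hg : g ∈ HH) (h0 : g 0 = 0) (y : Fin 4060) :
    g y ∈ mk Bm ↔ y ∈ mk Bm := by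
  have hb0 : (0 : Fin 4060) ∉ mk Bm := by
    intro h
    have h1 := RuRkDat.mem_mk.1 h
    have h2 : Nat.testBit Bm 0 = true := h1
    rw [chk_b0] at h2
    exact absurd h2 (by decide)
  have h1 := wb_inv hg 0 y
  rw [h0] at h1
  constructor
  · intro h
    have h2 : wb (0 : Fin 4060).1 (g y).1 = true := (wb_0 (g y)).2 (Or.inr h)
    rw [h1] at h2
    rcases (wb_0 y).1 h2 with h3 | h3
    · rw [h3, h0] at h
      exact absurd h hb0
    · exact h3
  · intro h
    have h2 : wb (0 : Fin 4060).1 y.1 = true := (wb_0 y).2 (Or.inr h)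
    rw [← h1] at h2
    rcases (wb_0 (g y)).1 h2 with h3 | h3
    · have h4 : y = 0 := g.injective (by rw [h3, h0])
      rw [h4] at h
      exact absurd h hb0
    · exact h3

/-- the property of a point -/
def PP (z : Fin 4060) : Prop :=
  ∀ i ∈ List.range 23, ∑ y ∈ (mk Bm).filter (fun y => wb z.1 y.1 = true), uu i y = 0

theorem PP_step {g : Equiv.Perm (Fin 4060)} (hg : g ∈ HH) (h0 : g 0 = 0)
    (ho : ∀ y : Fin 4060, orb (g y).1 = orb y.1) (z : Fin 4060) (hz : PP z) : PP (g z) := by
  intro i hi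
  refine Eq.trans ?_ (hz i hi)
  symm
  refine Finset.sum_equiv g ?_ ?_
  · intro y
    rw [Finset.mem_filter, Finset.mem_filter, mem_B_iff hg h0, wb_inv hg]
  · intro y _
    unfold uu
    rw [ho]

theorem PP_r (z : Fin 4060) (hz : PP z) : PP (rr.1 z) := by
  have h := (mem_H₀ _).1 rr.2
  exact PP_step h.1 h.2 orb_r z hz

theorem PP_f (z : Fin 4060) (hz : PP z) : PP (fr.1 z) := by
  have h := (mem_H₀ _).1 fr.2
  exact PP_step h.1 h.2 orb_f z hz

theorem PP_rep (z : ℕ) (h : z < 4060) (hc : chkCounts (countsOf (colM z)) = true) : PP ⟨z, h⟩ := by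
  intro i hi
  have h1 := List.all_eq_true.1 hc i hi
  have h2 := Nat.eq_of_beq_eq_true h1
  rw [dotN_eq, dotN_eq] at h2
  have hlen : (countsOf (colM z)).length = 42 := by
    rw [countsOf, List.length_map, Ol_length]
  rw [hlen] at h2
  have hf : (mk Bm).filter (fun y : Fin 4060 => wb (⟨z, h⟩ : Fin 4060).1 y.1 = true) =
      (mk Bm).filter (fun y : Fin 4060 => (colM z).testBit y.1 = true) := by
    apply Finset.filter_congr
    intro y _
    rw [testBit_colM]
  rw [hf]
  have h3 := sum_fib (colM z).testBit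
    (fun j => (((up.getD i []).getD j 0 : ℕ) : ℤ) - (((un.getD i []).getD j 0 : ℕ) : ℤ))
  have h4 : ∑ y ∈ (mk Bm).filter (fun y : Fin 4060 => (colM z).testBit y.1 = true), uu i y =
      ∑ y ∈ (mk Bm).filter (fun y : Fin 4060 => (colM z).testBit y.1 = true),
        (fun j => (((up.getD i []).getD j 0 : ℕ) : ℤ) - (((un.getD i []).getD j 0 : ℕ) : ℤ)) (orb y.1) := rfl
  rw [h4, h3]
  have h5 : ∀ j ∈ Finset.range 42, (((Ol.getD j []).countP (colM z).testBit : ℕ) : ℤ) *
      ((((up.getD i []).getD j 0 : ℕ) : ℤ) - (((un.getD i []).getD j 0 : ℕ) : ℤ)) =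
      (((countsOf (colM z)).getD j 0 * (up.getD i []).getD j 0 : ℕ) : ℤ) -
      (((countsOf (colM z)).getD j 0 * (un.getD i []).getD j 0 : ℕ) : ℤ) := by
    intro j hj
    have hj' : j < Ol.length := by
      rw [Ol_length]
      exact Finset.mem_range.1 hj
    have e : (countsOf (colM z)).getD j 0 = (Ol.getD j []).countP (colM z).testBit := by
      rw [countsOf, List.getD_eq_getElem _ _ (by simpa using hj'), List.getElem_map,
        List.getD_eq_getElem _ _ hj']
    rw [e]
    push_cast
    ring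
  rw [Finset.sum_congr rfl h5, Finset.sum_sub_distrib, ← Nat.cast_sum, ← Nat.cast_sum, h2, sub_self]

open Classical in
/-- the vectors `Us` are orthogonal to the sets `Sz` -/
theorem hUs (hB : HB) (hC : orbit (stabilizer HH (0 : Fin 4060)) (1 : Fin 4060) = ((mk Cm : Finset (Fin 4060)) : Set (Fin 4060)))
    (R : R3 HH (0 : Fin 4060) 2 1) :
    ∀ u ∈ Us, ∀ z ∈ orbit (stabilizer HH (0 : Fin 4060)) (1 : Fin 4060),
      ∑ y ∈ (mk Bm).filter (fun y => Gam HH (0 : Fin 4060) 2 y z), u y = 0 := by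
  intro u hu z hz
  rw [Us, List.mem_map] at hu
  obtain ⟨i, hi, rfl⟩ := hu
  have hz' : z ∈ mk Cm := by
    rw [hC] at hz
    exact hz
  have hP : PP z := by
    refine reach_C PP PP_r PP_f ?_ z hz'
    intro y hy
    have h1 := List.all_eq_true.1 chk_reps y hy
    rw [chkZ, Bool.and_eq_true, forceN_eq] at h1
    have h2 : y < 4060 := Nat.le_of_ble_eq_true h1.1
    exact ⟨h2, PP_rep y h2 h1.2⟩
  have hf : (mk Bm).filter (fun y => Gam HH (0 : Fin 4060) 2 y z) =
      (mk Bm).filter (fun y => wb z.1 y.1 = true) := by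
    ext y
    rw [Finset.mem_filter, Finset.mem_filter]
    constructor
    · rintro ⟨h1, h2⟩
      refine ⟨h1, ?_⟩
      rw [wb_symm hB R z y]
      exact ((gam_wb hB R y z).1 h2).2
    · rintro ⟨h1, h2⟩
      refine ⟨h1, (gam_wb hB R y z).2 ⟨disj h1 hz', ?_⟩⟩
      rw [wb_symm hB R y z]
      exact h2
  rw [hf]
  exact hP i hi

end Cfsg.Agent.Lib.RuRkX2
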