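import Cfsg.Agent.Lib.RuRkW2

/-!
# Rank three recognition of the Rudvalis group: the candidates are separated
-/

set_option autoImplicit false
set_option maxRecDepth 100000
set_option linter.unusedSectionVars false
set_option linter.unusedVariables false

namespace Cfsg.Agent.Lib.RuRkX3

open MulAction Finset Cfsg.Agent.Lib.RuRkA Cfsg.Agent.Lib.RuRkB Cfsg.Agent.Lib.RuRkC Cfsg.Agent.Lib.RuRkE
  Cfsg.Agent.Lib.RuRkT Cfsg.Agent.Lib.RuRkDat Cfsg.Agent.Lib.SparseDfs Cfsg.Agent.Lib.RuRkW Cfsg.Agent.Lib.RuRkW2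
open Cfsg.Agent.Lib.ProgChain Cfsg.Agent.Lib.PermChain Cfsg.Agent.Lib.RuMain

/-- the rows selected by a test, in one pass -/
def pickF (f : ℕ → ℕ × ℕ → Bool) : List (ℕ × ℕ) → ℕ → List (ℕ × (ℕ × ℕ)) → List (ℕ × (ℕ × ℕ))
  | [], _, acc => acc
  | r :: l, i, acc => cond (f i r) (pickF f l (Nat.succ i) ((i, r) :: acc)) (pickF f l (Nat.succ i) acc)

theorem mem_pickF (f : ℕ → ℕ × ℕ → Bool) : ∀ (l : List (ℕ × ℕ)) (i : ℕ) (acc : List (ℕ × (ℕ × ℕ))) (p : ℕ × (ℕ × ℕ)),
    p ∈ pickF f l i acc ↔ p ∈ acc ∨ (i ≤ p.1 ∧ p.1 < i + l.length ∧ l.getD (p.1 - i) (0, 0) = p.2 ∧ f p.1 p.2 = true) := by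
  intro l
  induction l with
  | nil =>
    intro i acc p
    simp only [pickF, List.length_nil]
    constructor
    · exact Or.inl
    · rintro (h | ⟨h1, h2, _⟩)
      · exact h
      · omega
  | cons r l ih =>
    intro i acc p
    have key : (i ≤ p.1 ∧ p.1 < i + (r :: l).length ∧ (r :: l).getD (p.1 - i) (0, 0) = p.2 ∧ f p.1 p.2 = true) ↔
        ((p.1 = i ∧ r = p.2 ∧ f p.1 p.2 = true) ∨
          (Nat.succ i ≤ p.1 ∧ p.1 < Nat.succ i + l.length ∧ l.getD (p.1 - Nat.succ i) (0, 0) = p.2 ∧ f p.1 p.2 = true)) := by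
      simp only [List.length_cons]
      constructor
      · rintro ⟨h1, h2, h3, h4⟩
        by_cases h5 : p.1 = i
        · left
          rw [h5, Nat.sub_self] at h3
          exact ⟨h5, by simpa using h3, h4⟩
        · right
          refine ⟨by omega, by omega, ?_, h4⟩
          have h6 : p.1 - i = (p.1 - Nat.succ i) + 1 := by omega
          rw [h6] at h3
          simpa using h3
      · rintro (⟨h1, h2, h3⟩ | ⟨h1, h2, h3, h4⟩)
        · refine ⟨by omega, by omega, ?_, h3⟩
          rw [h1, Nat.sub_self]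
          simpa using h2
        · refine ⟨by omega, by omega, ?_, h4⟩
          have h6 : p.1 - i = (p.1 - Nat.succ i) + 1 := by omega
          rw [h6]
          simpa using h3
    rw [key, pickF]
    cases hf : f i r
    · show p ∈ pickF f l (Nat.succ i) acc ↔ _
      rw [ih]
      constructor
      · rintro (h | h)
        · exact Or.inl h
        · exact Or.inr (Or.inr h)
      · rintro (h | ⟨h1, h2, h3⟩ | h)
        · exact Or.inl h
        · exfalso
          have h7 : p.2 = r := h2.symm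
          rw [h1, h7, hf] at h3
          exact absurd h3 (by decide)
        · exact Or.inr h
    · show p ∈ pickF f l (Nat.succ i) ((i, r) :: acc) ↔ _
      rw [ih, List.mem_cons]
      constructor
      · rintro ((h | h) | h)
        · refine Or.inr (Or.inl ?_)
          subst h
          exact ⟨rfl, rfl, hf⟩
        · exact Or.inl h
        · exact Or.inr (Or.inr h)
      · rintro (h | ⟨h1, h2, h3⟩ | h)
        · exact Or.inl (Or.inr h)
        · refine Or.inl (Or.inl ?_)
          exact Prod.ext h1 h2.symm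
        · exact Or.inr h

theorem nodup_pickF (f : ℕ → ℕ × ℕ → Bool) : ∀ (l : List (ℕ × ℕ)) (i : ℕ) (acc : List (ℕ × (ℕ × ℕ))),
    (acc.map Prod.fst).Nodup → (∀ a ∈ acc, a.1 < i) → ((pickF f l i acc).map Prod.fst).Nodup := by
  intro l
  induction l with
  | nil =>
    intro i acc h1 _
    exact h1
  | cons r l ih =>
    intro i acc h1 h2
    rw [pickF]
    cases hf : f i r
    · show ((pickF f l (Nat.succ i) acc).map Prod.fst).Nodup
      exact ih _ _ h1 (fun a ha => by have := h2 a ha; omega)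
    · show ((pickF f l (Nat.succ i) ((i, r) :: acc)).map Prod.fst).Nodup
      apply ih
      · rw [List.map_cons]
        refine List.nodup_cons.2 ⟨?_, h1⟩
        intro h3
        obtain ⟨a, ha, h4⟩ := List.mem_map.1 h3
        have := h2 a ha
        simp only at h4
        omega
      · intro a ha
        rcases List.mem_cons.1 ha with h3 | h3
        · rw [h3]
          exact Nat.lt_succ_self _
        · have := h2 a h3
          omega

/-- the rows selected by a test -/
def pk (f : ℕ → ℕ × ℕ → Bool) : List (ℕ × (ℕ × ℕ)) := pickF f Cfsg.Agent.Lib.RuBr.rows 0 []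

theorem mem_pk (f : ℕ → ℕ × ℕ → Bool) (p : ℕ × (ℕ × ℕ)) :
    p ∈ pk f ↔ p.1 < 4060 ∧ Cfsg.Agent.Lib.RuBr.rows.getD p.1 (0, 0) = p.2 ∧ f p.1 p.2 = true := by
  rw [pk, mem_pickF, Cfsg.Agent.Lib.RuBr.rows_len]
  simp only [List.not_mem_nil, false_or, Nat.zero_le, true_and, Nat.zero_add, Nat.sub_zero]

theorem nodup_pk (f : ℕ → ℕ × ℕ → Bool) : ((pk f).map Prod.fst).Nodup :=
  nodup_pickF f _ 0 [] List.nodup_nil (by simp)

/-- membership in a candidate -/
def smem (M i : ℕ) : Bool := and (Nat.testBit Bm i) (Nat.testBit M (orb i))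

theorem mem_cand {M : ℕ} {y : Fin 4060} :
    y ∈ (mk Bm).filter (fun y => M.testBit (orb y.1) = true) ↔ smem M y.1 = true := by
  rw [Finset.mem_filter, RuRkDat.mem_mk, smem, Bool.and_eq_true]

theorem not_beq (a b : ℕ) : (!(Nat.beq a b)) = true ↔ a ≠ b := by
  by_cases h : a = b
  · subst h
    simp [Nat.beq_refl]
  · have h2 : Nat.beq a b = false := by
      cases h3 : Nat.beq a b
      · rfl
      · exact absurd (Nat.eq_of_beq_eq_true h3) h
    simp [h, h2]

/-- the test for the neighbours of `y0` in a candidate -/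
def ft (M y0 : ℕ) (i : ℕ) (r : ℕ × ℕ) : Bool :=
  and (smem M i) (and (wr2 (Cfsg.Agent.Lib.RuBr.rows.getD y0 (0, 0)) r) (not (Nat.beq i y0)))

/-- the count -/
def cntR (R : List (ℕ × (ℕ × ℕ))) (x : ℕ) (rx : ℕ × ℕ) : ℕ :=
  R.countP (fun s => and (not (Nat.beq s.1 x)) (wr2 rx s.2))

open Classical in
theorem card_eq (hB : HB) (R : R3 HH (0 : Fin 4060) 2 1) (M : ℕ) (y x : Fin 4060) :
    ((((mk Bm).filter (fun y => M.testBit (orb y.1) = true))).filter
      (fun w => Gam HH (0 : Fin 4060) 2 y w ∧ Gam HH (0 : Fin 4060) 2 x w)).card =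
      cntR (pk (ft M y.1)) x.1 (Cfsg.Agent.Lib.RuBr.rows.getD x.1 (0, 0)) := by
  rw [cntR, List.countP_eq_length_filter]
  have hnd : ((pk (ft M y.1)).map Prod.fst).Nodup := nodup_pk _
  have hnd2 : (((pk (ft M y.1)).filter (fun s => and (not (Nat.beq s.1 x.1)) (wr2 (Cfsg.Agent.Lib.RuBr.rows.getD x.1 (0, 0)) s.2))).map Prod.fst).Nodup :=
    hnd.sublist (List.Sublist.map _ List.filter_sublist)
  rw [← List.length_map (f := Prod.fst), ← List.toFinset_card_of_nodup hnd2]
  apply Finset.card_bij (fun w _ => w.1)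
  · intro w hw
    rw [Finset.mem_filter, mem_cand, gam_wb hB R, gam_wb hB R] at hw
    obtain ⟨hwS, ⟨hy1, hy2⟩, hx1, hx2⟩ := hw
    rw [List.mem_toFinset, List.mem_map]
    refine ⟨(w.1, Cfsg.Agent.Lib.RuBr.rows.getD w.1 (0, 0)), ?_, rfl⟩
    rw [List.mem_filter, mem_pk]
    refine ⟨⟨w.2, rfl, ?_⟩, ?_⟩
    · show and (smem M w.1) (and (wr2 (Cfsg.Agent.Lib.RuBr.rows.getD y.1 (0, 0)) (Cfsg.Agent.Lib.RuBr.rows.getD w.1 (0, 0))) (not (Nat.beq w.1 y.1))) = true
      rw [Bool.and_eq_true, Bool.and_eq_true, not_beq]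
      refine ⟨hwS, ?_, ?_⟩
      · rw [← wb_eq]
        exact hy2
      · intro h
        exact hy1 (Fin.ext h.symm)
    · show and (not (Nat.beq w.1 x.1)) (wr2 (Cfsg.Agent.Lib.RuBr.rows.getD x.1 (0, 0)) (Cfsg.Agent.Lib.RuBr.rows.getD w.1 (0, 0))) = true
      rw [Bool.and_eq_true, not_beq]
      refine ⟨?_, ?_⟩
      · intro h
        exact hx1 (Fin.ext h.symm)
      · rw [← wb_eq]
        exact hx2
  · intro a _ b _ h
    exact Fin.ext h
  · intro n hn
    rw [List.mem_toFinset, List.mem_map] at hn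
    obtain ⟨p, hp, rfl⟩ := hn
    rw [List.mem_filter, mem_pk] at hp
    obtain ⟨⟨h1, h2, h3⟩, h4⟩ := hp
    have h3' : and (smem M p.1) (and (wr2 (Cfsg.Agent.Lib.RuBr.rows.getD y.1 (0, 0)) p.2) (not (Nat.beq p.1 y.1))) = true := h3
    have h4' : and (not (Nat.beq p.1 x.1)) (wr2 (Cfsg.Agent.Lib.RuBr.rows.getD x.1 (0, 0)) p.2) = true := h4
    rw [Bool.and_eq_true, Bool.and_eq_true, not_beq] at h3'
    rw [Bool.and_eq_true, not_beq] at h4'
    refine ⟨⟨p.1, h1⟩, ?_, rfl⟩
    rw [Finset.mem_filter, mem_cand, gam_wb hB R, gam_wb hB R]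
    refine ⟨h3'.1, ⟨?_, ?_⟩, ?_, ?_⟩
    · intro h
      exact h3'.2.2 (congrArg Fin.val h).symm
    · rw [wb_eq, h2]
      exact h3'.2.1
    · intro h
      exact h4'.1 (congrArg Fin.val h).symm
    · rw [wb_eq, h2]
      exact h4'.2

/-- the check for an extra triple -/
def chkE (M y0 x0 : ℕ) : Bool :=
  and (and (Nat.blt y0 4060) (Nat.blt x0 4060)) (and (smem M y0) (and (smem M x0)
    (and ((pk (ft M y0)).any (fun p => Nat.beq p.1 x0))
      ((pk (ft M y0)).all (fun p => or (Nat.beq p.1 x0)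
        (not (Nat.beq (cntR (pk (ft M y0)) p.1 p.2) (cntR (pk (ft M y0)) x0 (Cfsg.Agent.Lib.RuBr.rows.getD x0 (0, 0))))))))))

open Classical in
theorem extra_ok (hB : HB) (R : R3 HH (0 : Fin 4060) 2 1) (M y0 x0 : ℕ) (hc : chkE M y0 x0 = true) :
    ∃ y' ∈ (mk Bm).filter (fun y => M.testBit (orb y.1) = true), ∃ x' ∈ (mk Bm).filter (fun y => M.testBit (orb y.1) = true),
      Gam HH (0 : Fin 4060) 2 y' x' ∧ ∀ x ∈ (mk Bm).filter (fun y => M.testBit (orb y.1) = true), Gam HH (0 : Fin 4060) 2 y' x →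
        (((mk Bm).filter (fun y => M.testBit (orb y.1) = true)).filter (fun w => Gam HH (0 : Fin 4060) 2 y' w ∧ Gam HH (0 : Fin 4060) 2 x w)).card =
          (((mk Bm).filter (fun y => M.testBit (orb y.1) = true)).filter (fun w => Gam HH (0 : Fin 4060) 2 y' w ∧ Gam HH (0 : Fin 4060) 2 x' w)).card → x = x' := by
  rw [chkE] at hc
  simp only [Bool.and_eq_true] at hc
  obtain ⟨⟨h1, h2⟩, h3, h4, h5, h6⟩ := hc
  have h1' : y0 < 4060 := Nat.le_of_ble_eq_true h1
  have h2' : x0 < 4060 := Nat.le_of_ble_eq_true h2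
  refine ⟨⟨y0, h1'⟩, mem_cand.2 h3, ⟨x0, h2'⟩, mem_cand.2 h4, ?_, ?_⟩
  · rw [gam_wb hB R]
    obtain ⟨p, hp, hp2⟩ := List.any_eq_true.1 h5
    have hp3 : p.1 = x0 := Nat.eq_of_beq_eq_true hp2
    rw [mem_pk] at hp
    obtain ⟨_, h7, h8⟩ := hp
    have h8' : and (smem M p.1) (and (wr2 (Cfsg.Agent.Lib.RuBr.rows.getD y0 (0, 0)) p.2) (not (Nat.beq p.1 y0))) = true := h8
    rw [Bool.and_eq_true, Bool.and_eq_true, not_beq] at h8'
    refine ⟨?_, ?_⟩
    · intro h
      have h9 : y0 = x0 := congrArg Fin.val h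
      exact h8'.2.2 (by omega)
    · show wb y0 x0 = true
      rw [wb_eq, ← hp3, h7]
      exact h8'.2.1
  · intro x hxS hG hcard
    rw [card_eq hB R, card_eq hB R] at hcard
    rw [gam_wb hB R] at hG
    have hmem : (x.1, Cfsg.Agent.Lib.RuBr.rows.getD x.1 (0, 0)) ∈ pk (ft M y0) := by
      rw [mem_pk]
      refine ⟨x.2, rfl, ?_⟩
      show and (smem M x.1) (and (wr2 (Cfsg.Agent.Lib.RuBr.rows.getD y0 (0, 0)) (Cfsg.Agent.Lib.RuBr.rows.getD x.1 (0, 0))) (not (Nat.beq x.1 y0))) = true
      rw [Bool.and_eq_true, Bool.and_eq_true, not_beq]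
      refine ⟨mem_cand.1 hxS, ?_, ?_⟩
      · rw [← wb_eq]
        exact hG.2
      · intro h
        exact hG.1 (Fin.ext h.symm)
    have h7 := List.all_eq_true.1 h6 _ hmem
    rw [Bool.or_eq_true] at h7
    rcases h7 with h7 | h7
    · exact Fin.ext (Nat.eq_of_beq_eq_true h7)
    · exfalso
      rw [not_beq] at h7
      exact h7 hcard

/-- the check for a true neighbourhood -/
def chkT (M p : ℕ) : Bool :=
  and (and (Nat.blt p 4060) (Nat.testBit Cm p)) (and (not (Nat.testBit Bm p)) (and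
    ((List.range 4060).all (fun y => or (not (Nat.testBit Bm y)) (not (xor (Nat.testBit M (orb y)) (Nat.testBit (colM p) y)))))
    ((List.range 4060).all (fun q => or (not (Nat.testBit Cm q)) (or (Nat.beq q p)
      (W0.any (fun w => xor (Nat.testBit (colM w) q) (Nat.testBit (colM w) p))))))))

theorem chkW : W0.all (fun w => and (Nat.blt w 4060) (and (Nat.testBit Bm w) (not (Nat.testBit Cm w)))) = true := by decide +kernel

open Classical in
theorem true_ok (hB : HB) (R : R3 HH (0 : Fin 4060) 2 1) (M p : ℕ) (hc : chkT M p = true) :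
    ∃ p' ∈ mk Cm, (mk Bm).filter (fun y => M.testBit (orb y.1) = true) = (mk Bm).filter (fun y => Gam HH (0 : Fin 4060) 2 y p') ∧
      ∀ q ∈ mk Cm, (mk Bm).filter (fun y => Gam HH (0 : Fin 4060) 2 y q) = (mk Bm).filter (fun y => Gam HH (0 : Fin 4060) 2 y p') → q = p' := by
  rw [chkT] at hc
  simp only [Bool.and_eq_true] at hc
  obtain ⟨⟨h1, h2⟩, h3, h4, h5⟩ := hc
  have h1' : p < 4060 := Nat.le_of_ble_eq_true h1
  have h3' : Nat.testBit Bm p = false := by simpa using h3
  refine ⟨⟨p, h1'⟩, RuRkDat.mem_mk.2 h2, ?_, ?_⟩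
  · ext y
    rw [Finset.mem_filter, Finset.mem_filter]
    refine and_congr_right ?_
    intro hy
    have hy' := RuRkDat.mem_mk.1 hy
    have hne : y ≠ ⟨p, h1'⟩ := by
      intro h
      rw [h] at hy'
      rw [h3'] at hy'
      exact absurd hy' (by decide)
    rw [gam_wb hB R]
    have h6 := List.all_eq_true.1 h4 y.1 (List.mem_range.2 y.2)
    rw [Bool.or_eq_true, hy'] at h6
    have h7 : (!(xor (Nat.testBit M (orb y.1)) (Nat.testBit (colM p) y.1))) = true := by simpa using h6
    have h8 : Nat.testBit (colM p) y.1 = wb y.1 p := by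
      have h9 := testBit_colM p y
      have h10 := wb_symm hB R ⟨p, h1'⟩ y
      rw [h9]
      exact h10
    rw [h8] at h7
    constructor
    · intro h9
      refine ⟨hne, ?_⟩
      rw [h9] at h7
      show wb y.1 p = true
      cases h11 : wb y.1 p
      · rw [h11] at h7
        exact absurd h7 (by decide)
      · rfl
    · rintro ⟨_, h9⟩
      have h9' : wb y.1 p = true := h9
      rw [h9'] at h7
      cases h11 : Nat.testBit M (orb y.1)
      · rw [h11] at h7
        exact absurd h7 (by decide)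
      · rfl
  · intro q hq heq
    by_contra hne
    have hq' := RuRkDat.mem_mk.1 hq
    have h6 := List.all_eq_true.1 h5 q.1 (List.mem_range.2 q.2)
    rw [Bool.or_eq_true, Bool.or_eq_true] at h6
    rcases h6 with h6 | h6 | h6
    · rw [hq'] at h6
      exact absurd h6 (by decide)
    · exact hne (Fin.ext (Nat.eq_of_beq_eq_true h6))
    · obtain ⟨w, hw, h7⟩ := List.any_eq_true.1 h6
      have h8 := List.all_eq_true.1 chkW w hw
      rw [Bool.and_eq_true, Bool.and_eq_true] at h8
      have hw1 : w < 4060 := Nat.le_of_ble_eq_true h8.1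
      have hwB : (⟨w, hw1⟩ : Fin 4060) ∈ mk Bm := RuRkDat.mem_mk.2 h8.2.1
      have hwC : Nat.testBit Cm w = false := by simpa using h8.2.2
      have hne1 : (⟨w, hw1⟩ : Fin 4060) ≠ q := by
        intro h
        rw [← h] at hq'
        have h9 : Nat.testBit Cm w = true := hq'
        rw [hwC] at h9
        exact absurd h9 (by decide)
      have hne2 : (⟨w, hw1⟩ : Fin 4060) ≠ ⟨p, h1'⟩ := by
        intro h
        have h9 : w = p := congrArg Fin.val h
        rw [h9] at hwC
        rw [hwC] at h2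
        exact absurd h2 (by decide)
      have h9 : (⟨w, hw1⟩ : Fin 4060) ∈ (mk Bm).filter (fun y => Gam HH (0 : Fin 4060) 2 y q) ↔
          (⟨w, hw1⟩ : Fin 4060) ∈ (mk Bm).filter (fun y => Gam HH (0 : Fin 4060) 2 y ⟨p, h1'⟩) := by
        rw [heq]
      rw [Finset.mem_filter, Finset.mem_filter, gam_wb hB R, gam_wb hB R] at h9
      have h10 : wb w q.1 = true ↔ wb w p = true := by
        constructor
        · intro h
          exact (h9.1 ⟨hwB, hne1, h⟩).2.2
        · intro h
          exact (h9.2 ⟨hwB, hne2, h⟩).2.2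
      have h11 := testBit_colM w q
      have h12 := testBit_colM w ⟨p, h1'⟩
      have h13 : Nat.testBit (colM w) p = wb w p := h12
      rw [h11, h13] at h7
      cases h14 : wb w q.1 <;> cases h15 : wb w p
      · rw [h14, h15] at h7
        exact absurd h7 (by decide)
      · rw [h14] at h10
        have := h10.2 h15
        exact absurd this (by decide)
      · rw [h15] at h10
        have := h10.1 h14
        exact absurd this (by decide)
      · rw [h14, h15] at h7
        exact absurd h7 (by decide)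

theorem chkE0 : chkE 1265239184076 1773 2232 = true := by decide +kernel
theorem chkE1 : chkE 536389813010 1614 726 = true := by decide +kernel
theorem chkE2 : chkE 518954616350 1614 2973 = true := by decide +kernel
theorem chkE3 : chkE 320346096222 1614 3185 = true := by decide +kernel
theorem chkE4 : chkE 1663786469793 3166 2907 = true := by decide +kernel
theorem chkE5 : chkE 1804223937773 3166 1111 = true := by decide +kernel
theorem chkE6 : chkE 593043541485 3166 2699 = true := by decide +kernel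
theorem chkE7 : chkE 1930073778227 3166 1645 = true := by decide +kernel
theorem chkE8 : chkE 876766046579 3166 2777 = true := by decide +kernel
theorem chkE9 : chkE 859330849919 3166 304 = true := by decide +kernel
theorem chkT0 : chkT 983884396666 1090 = true := by decide +kernel
theorem chkT1 : chkT 2031873722397 1576 = true := by decide +kernel
theorem chkT2 : chkT 929123409511 2864 = true := by decide +kernel

open Classical in
/-- the candidates are separated -/
theorem hext (hB : HB) (R : R3 HH (0 : Fin 4060) 2 1) : ∀ S ∈ Cands,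
    (∃ y0 ∈ S, ∃ x0 ∈ S, Gam HH (0 : Fin 4060) 2 y0 x0 ∧ ∀ x ∈ S, Gam HH (0 : Fin 4060) 2 y0 x →
        (S.filter (fun w => Gam HH (0 : Fin 4060) 2 y0 w ∧ Gam HH (0 : Fin 4060) 2 x w)).card =
          (S.filter (fun w => Gam HH (0 : Fin 4060) 2 y0 w ∧ Gam HH (0 : Fin 4060) 2 x0 w)).card → x = x0) ∨
    (∃ p ∈ mk Cm, S = (mk Bm).filter (fun y => Gam HH (0 : Fin 4060) 2 y p) ∧
      ∀ q ∈ mk Cm, (mk Bm).filter (fun y => Gam HH (0 : Fin 4060) 2 y q) = (mk Bm).filter (fun y => Gam HH (0 : Fin 4060) 2 y p) → q = p) := by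
  intro S hS
  obtain ⟨M, hM, rfl⟩ := List.mem_map.1 hS
  simp only [Cand, List.mem_cons, List.not_mem_nil, or_false] at hM
  rcases hM with rfl | rfl | rfl | rfl | rfl | rfl | rfl | rfl | rfl | rfl | rfl | rfl | rfl
  · exact Or.inl (extra_ok hB R 1265239184076 1773 2232 chkE0)
  · exact Or.inl (extra_ok hB R 536389813010 1614 726 chkE1)
  · exact Or.inr (true_ok hB R 983884396666 1090 chkT0)
  · exact Or.inl (extra_ok hB R 518954616350 1614 2973 chkE2)
  · exact Or.inl (extra_ok hB R 320346096222 1614 3185 chkE3)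
  · exact Or.inl (extra_ok hB R 1663786469793 3166 2907 chkE4)
  · exact Or.inl (extra_ok hB R 1804223937773 3166 1111 chkE5)
  · exact Or.inl (extra_ok hB R 593043541485 3166 2699 chkE6)
  · exact Or.inr (true_ok hB R 2031873722397 1576 chkT1)
  · exact Or.inl (extra_ok hB R 1930073778227 3166 1645 chkE7)
  · exact Or.inl (extra_ok hB R 876766046579 3166 2777 chkE8)
  · exact Or.inr (true_ok hB R 929123409511 2864 chkT2)
  · exact Or.inl (extra_ok hB R 859330849919 3166 304 chkE9)

end Cfsg.Agent.Lib.RuRkX3
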