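import Cfsg.Agent.Lib.RuRkP3
import Cfsg.Agent.Lib.RuRkP5
import Cfsg.Agent.Lib.RuRkP6
import Cfsg.Agent.Lib.RuRkX2
import Cfsg.Agent.Lib.RuRkX3

/-!
# Recognition of the Rudvalis group as a rank three group: final assembly
-/

set_option autoImplicit false
set_option maxRecDepth 100000
set_option linter.unusedSectionVars false
set_option linter.unusedVariables false

namespace Cfsg.Agent.Lib.RuRkZ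

open MulAction Finset Cfsg.Agent.Lib.RuRkA Cfsg.Agent.Lib.RuRkB Cfsg.Agent.Lib.RuRkC Cfsg.Agent.Lib.RuRkE
  Cfsg.Agent.Lib.RuRkT Cfsg.Agent.Lib.RuRkDat Cfsg.Agent.Lib.SparseDfs Cfsg.Agent.Lib.RuRkW
  Cfsg.Agent.Lib.RuRkW2
open Cfsg.Agent.Lib.ProgChain Cfsg.Agent.Lib.PermChain Cfsg.Agent.Lib.RuMain

theorem mk_eq (m : ℕ) : Cfsg.Agent.Lib.RuRkP6C.mk m = mk m := by
  ext x
  rw [Cfsg.Agent.Lib.RuRkP6C.mem_mk, RuRkDat.mem_mk]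

theorem chk_Bm : Cfsg.Agent.Lib.RuRkP6D.Bm = Bm := by decide +kernel
theorem chk_Cm : Cfsg.Agent.Lib.RuRkP6D.Cm = Cm := by decide +kernel

theorem Dd : Dat H₀ 2 (mk Bm) (Cfsg.Agent.Lib.RuRkP6C.mk Cfsg.Agent.Lib.RuRkP6D.Y1m)
    (Cfsg.Agent.Lib.RuRkP6C.mk Cfsg.Agent.Lib.RuRkP6D.Y2m) (Cfsg.Agent.Lib.RuRkP6C.mk Cfsg.Agent.Lib.RuRkP6D.Y3m)
    (Cfsg.Agent.Lib.RuRkP6C.mk Cfsg.Agent.Lib.RuRkP6D.Y4m) := by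
  have h := Cfsg.Agent.Lib.RuRkP6.dat
  rw [mk_eq Cfsg.Agent.Lib.RuRkP6D.Bm, chk_Bm] at h
  exact h

theorem Dd3 : Dat3 H₀ 0 1 2 (mk Bm) (mk Cm) (Cfsg.Agent.Lib.RuRkP6C.mk Cfsg.Agent.Lib.RuRkP6D.Z1m)
    (Cfsg.Agent.Lib.RuRkP6C.mk Cfsg.Agent.Lib.RuRkP6D.Z2m)
    (Cfsg.Agent.Lib.RuRkP6C.mk Cfsg.Agent.Lib.RuRkP6D.V1m) (Cfsg.Agent.Lib.RuRkP6C.mk Cfsg.Agent.Lib.RuRkP6D.V2m)
    (Cfsg.Agent.Lib.RuRkP6C.mk Cfsg.Agent.Lib.RuRkP6D.W1m) (Cfsg.Agent.Lib.RuRkP6C.mk Cfsg.Agent.Lib.RuRkP6D.W2m)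
    (Cfsg.Agent.Lib.RuRkP6C.mk Cfsg.Agent.Lib.RuRkP6D.W3m) (Cfsg.Agent.Lib.RuRkP6C.mk Cfsg.Agent.Lib.RuRkP6D.W4m)
    (Cfsg.Agent.Lib.RuRkP6C.mk Cfsg.Agent.Lib.RuRkP6D.W5m) := by
  have h := Cfsg.Agent.Lib.RuRkP6.dat3
  rw [mk_eq Cfsg.Agent.Lib.RuRkP6D.Bm, chk_Bm, mk_eq Cfsg.Agent.Lib.RuRkP6D.Cm, chk_Cm] at h
  exact h

theorem hB : HB := orbB₀ Dd Dd3

theorem hCorb : orbit (stabilizer HH (0 : Fin 4060)) (1 : Fin 4060) = ((mk Cm : Finset (Fin 4060)) : Set (Fin 4060)) :=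
  orbC₀ Dd Dd3

theorem R : R3 HH (0 : Fin 4060) 2 1 := R₀ Dd Dd3

theorem hP5 (X : Subgroup H₀) (hX : Nat.card X = 20480) :
    ∃ t : H₀, ∀ h : H₀, h ∈ X ↔ (t * h * t⁻¹).1 2 = 2 :=
  Cfsg.Agent.Lib.RuRkP5.exists_conj_stab Dd card_H1 Cfsg.Agent.Lib.RuRkP6.hcl X hX

theorem cand_sub {S : Finset (Fin 4060)} (hS : S ∈ Cands) : S ⊆ mk Bm := by
  obtain ⟨M, _, rfl⟩ := List.mem_map.1 hS
  exact Finset.filter_subset _ _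

theorem Q_iff {y w : Fin 4060} (hy : y ∈ mk Bm) (hw : w ∈ mk Bm) :
    Q H₀ 2 (Cfsg.Agent.Lib.RuRkP6C.mk Cfsg.Agent.Lib.RuRkP6D.Y1m)
      (Cfsg.Agent.Lib.RuRkP6C.mk Cfsg.Agent.Lib.RuRkP6D.Y2m) (Cfsg.Agent.Lib.RuRkP6C.mk Cfsg.Agent.Lib.RuRkP6D.Y3m) y w ↔
    Gam HH (0 : Fin 4060) 2 y w := by
  rw [Q_wb Dd hB R hy hw, gam_wb hB R]

open Classical in
theorem hext' : ∀ S ∈ Cands, (∃ y₀ ∈ S, ∃ x₀ ∈ S,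
      Q H₀ 2 (Cfsg.Agent.Lib.RuRkP6C.mk Cfsg.Agent.Lib.RuRkP6D.Y1m) (Cfsg.Agent.Lib.RuRkP6C.mk Cfsg.Agent.Lib.RuRkP6D.Y2m)
        (Cfsg.Agent.Lib.RuRkP6C.mk Cfsg.Agent.Lib.RuRkP6D.Y3m) y₀ x₀ ∧
      ∀ x ∈ S, Q H₀ 2 (Cfsg.Agent.Lib.RuRkP6C.mk Cfsg.Agent.Lib.RuRkP6D.Y1m) (Cfsg.Agent.Lib.RuRkP6C.mk Cfsg.Agent.Lib.RuRkP6D.Y2m)
        (Cfsg.Agent.Lib.RuRkP6C.mk Cfsg.Agent.Lib.RuRkP6D.Y3m) y₀ x →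
        (S.filter (fun w => Q H₀ 2 (Cfsg.Agent.Lib.RuRkP6C.mk Cfsg.Agent.Lib.RuRkP6D.Y1m) (Cfsg.Agent.Lib.RuRkP6C.mk Cfsg.Agent.Lib.RuRkP6D.Y2m)
          (Cfsg.Agent.Lib.RuRkP6C.mk Cfsg.Agent.Lib.RuRkP6D.Y3m) y₀ w ∧
          Q H₀ 2 (Cfsg.Agent.Lib.RuRkP6C.mk Cfsg.Agent.Lib.RuRkP6D.Y1m) (Cfsg.Agent.Lib.RuRkP6C.mk Cfsg.Agent.Lib.RuRkP6D.Y2m)
          (Cfsg.Agent.Lib.RuRkP6C.mk Cfsg.Agent.Lib.RuRkP6D.Y3m) x w)).card =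
        (S.filter (fun w => Q H₀ 2 (Cfsg.Agent.Lib.RuRkP6C.mk Cfsg.Agent.Lib.RuRkP6D.Y1m) (Cfsg.Agent.Lib.RuRkP6C.mk Cfsg.Agent.Lib.RuRkP6D.Y2m)
          (Cfsg.Agent.Lib.RuRkP6C.mk Cfsg.Agent.Lib.RuRkP6D.Y3m) y₀ w ∧
          Q H₀ 2 (Cfsg.Agent.Lib.RuRkP6C.mk Cfsg.Agent.Lib.RuRkP6D.Y1m) (Cfsg.Agent.Lib.RuRkP6C.mk Cfsg.Agent.Lib.RuRkP6D.Y2m)
          (Cfsg.Agent.Lib.RuRkP6C.mk Cfsg.Agent.Lib.RuRkP6D.Y3m) x₀ w)).card → x = x₀) ∨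
    (∃ p ∈ orbit (stabilizer HH (0 : Fin 4060)) (1 : Fin 4060), S = Sz HH 0 2 (mk Bm) p ∧
      ∀ q ∈ orbit (stabilizer HH (0 : Fin 4060)) (1 : Fin 4060), Sz HH 0 2 (mk Bm) q = Sz HH 0 2 (mk Bm) p → q = p) := by
  intro S hS
  have hsub := cand_sub hS
  rcases Cfsg.Agent.Lib.RuRkX3.hext hB R S hS with ⟨y₀, hy₀, x₀, hx₀, h1, h2⟩ | ⟨p, hp, h1, h2⟩
  · refine Or.inl ⟨y₀, hy₀, x₀, hx₀, (Q_iff (hsub hy₀) (hsub hx₀)).2 h1, ?_⟩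
    intro x hx hq hc
    refine h2 x hx ((Q_iff (hsub hy₀) (hsub hx)).1 hq) ?_
    have hf : ∀ v ∈ S, (S.filter (fun w => Q H₀ 2 (Cfsg.Agent.Lib.RuRkP6C.mk Cfsg.Agent.Lib.RuRkP6D.Y1m) (Cfsg.Agent.Lib.RuRkP6C.mk Cfsg.Agent.Lib.RuRkP6D.Y2m)
          (Cfsg.Agent.Lib.RuRkP6C.mk Cfsg.Agent.Lib.RuRkP6D.Y3m) y₀ w ∧
          Q H₀ 2 (Cfsg.Agent.Lib.RuRkP6C.mk Cfsg.Agent.Lib.RuRkP6D.Y1m) (Cfsg.Agent.Lib.RuRkP6C.mk Cfsg.Agent.Lib.RuRkP6D.Y2m)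
          (Cfsg.Agent.Lib.RuRkP6C.mk Cfsg.Agent.Lib.RuRkP6D.Y3m) v w)) =
        (S.filter (fun w => Gam HH (0 : Fin 4060) 2 y₀ w ∧ Gam HH (0 : Fin 4060) 2 v w)) := by
      intro v hv
      apply Finset.filter_congr
      intro w hw
      rw [Q_iff (hsub hy₀) (hsub hw), Q_iff (hsub hv) (hsub hw)]
    rw [hf x hx, hf x₀ hx₀] at hc
    exact hc
  · refine Or.inr ⟨p, ?_, ?_, ?_⟩
    · rw [hCorb]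
      exact hp
    · rw [h1]
      rfl
    · intro q hq hq2
      refine h2 q ?_ hq2
      rw [hCorb] at hq
      exact hq

open Classical in
/-- the theorem, from the last two checks -/
theorem assemble
    (hCr : ∀ y : H₀, y * rr = rr * y → y ∈ Subgroup.zpowers rr)
    (hsol : ∀ S : Finset (Fin 4060), S ⊆ mk Bm → (∀ y ∈ S, rr.1 y ∈ S) → (∀ y ∈ S, fr.1 y ∈ S) → S.card = 780 →
      (∀ u ∈ Us, ∑ y ∈ S, u y = 0) → S ∈ Cands)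
    {Ω : Type*} [Fintype Ω] [DecidableEq Ω] (hΩ : Fintype.card Ω = 4060) (G : Subgroup (Equiv.Perm Ω))
    [MulAction.IsPretransitive G Ω] (a : Ω) (e : MulAction.stabilizer G a ≃* Cfsg.Lie.twistedF4 (ZMod 2) 1) (b c : Ω)
    (hb : (MulAction.orbit (MulAction.stabilizer G a) b).ncard = 1755)
    (hc : (MulAction.orbit (MulAction.stabilizer G a) c).ncard = 2304) : Cfsg.Spor.IsoRu G :=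
  Cfsg.Agent.Lib.RuRkT.main hΩ G a (e.trans Cfsg.Agent.Lib.RuRkP3.eH.symm) b c hb hc Dd Dd3 hP5 rr fr order_r hCr f_r
    Us (Cfsg.Agent.Lib.RuRkX2.hUs hB hCorb R) Cands hsol hext' (h00 hB)

end Cfsg.Agent.Lib.RuRkZ
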