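import Cfsg.Agent.Lib.SchurLev12

/-!
# Coset systems with the parameters solved by matrices

A variant of `SchurCoset46.CertE.powers`: the relations among the parameters are given by a list of rows with their
forms, and by linear combinations of these forms.
-/

set_option autoImplicit false
set_option linter.style.haveILetI false

namespace Cfsg.Agent.Lib.RuSc

open Cfsg Subgroup Cfsg.Agent.Lib.SchurCoset46 Cfsg.Agent.Lib.SchurTarget12 Cfsg.Agent.Lib.SchurLev12
  Cfsg.Agent.Lib.SchurStem

section Forms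

variable {B : Type*} [CommGroup B]

/-- a multiple of a form -/
def smulF (E a : ℕ) (f : List ℕ) : List ℕ := f.map fun x => (a * x) % E

/-- a linear combination of forms -/
def combo (E : ℕ) : List ℕ → List (List ℕ) → List ℕ
  | a :: cs, f :: fs => addL E (smulF E a f) (combo E cs fs)
  | _, _ => []

theorem evL_smul {E : ℕ} (hE : ∀ b : B, b ^ E = 1) (z : ℕ → B) (a : ℕ) (f : List ℕ) (i : ℕ) :
    evL z i (smulF E a f) = (evL z i f) ^ a := by
  induction f generalizing i with
  | nil => simp [smulF, evL]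
  | cons x f ih =>
    have h := ih (i + 1)
    simp only [smulF, List.map_cons, evL] at h ⊢
    rw [h, pow_mod_of_exp hE, mul_pow, ← pow_mul, mul_comm a x]

theorem evL_combo {E : ℕ} (hE : ∀ b : B, b ^ E = 1) (z : ℕ → B) (cs : List ℕ) (fs : List (List ℕ))
    (h : ∀ f ∈ fs, evL z 0 f = 1) : evL z 0 (combo E cs fs) = 1 := by
  induction cs generalizing fs with
  | nil => rfl
  | cons a cs ih =>
    cases fs with
    | nil => rfl
    | cons f fs =>
      simp only [combo]
      rw [evL_add hE, evL_smul hE, h f List.mem_cons_self, one_pow, one_mul]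
      exact ih fs fun g hg => h g (List.mem_cons_of_mem _ hg)

theorem evL_range' (z : ℕ → B) (f : ℕ → ℕ) (N i : ℕ) :
    evL z i ((List.range' i N).map f) = ∏ k ∈ Finset.range N, z (i + k) ^ f (i + k) := by
  induction N generalizing i with
  | zero => simp [evL]
  | succ N ih =>
    rw [List.range'_succ, List.map_cons, Finset.prod_range_succ']
    simp only [evL]
    rw [ih, mul_comm]
    congr 1
    refine Finset.prod_congr rfl fun k _ => ?_
    rw [show i + 1 + k = i + (k + 1) by ring]

theorem evL_range (z : ℕ → B) (f : ℕ → ℕ) (N : ℕ) :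
    evL z 0 ((List.range N).map f) = ∏ k ∈ Finset.range N, z k ^ f k := by
  rw [List.range_eq_range', evL_range']
  simp

/-- the form saying that a parameter is a power of the first one -/
def tgt (E P p c : ℕ) : List ℕ := (List.range P).map fun q => if q = p then 1 else if q = 0 then (E - c % E) % E else 0

theorem ev_tgt {E P p c : ℕ} (hE0 : 0 < E) (hE : ∀ b : B, b ^ E = 1) (z : ℕ → B) (hp0 : 0 < p) (hp : p < P)
    (h : evL z 0 (tgt E P p c) = 1) : z p = z 0 ^ c := by
  rw [tgt, evL_range, Finset.prod_eq_mul p 0 (by omega)] at h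
  · have e1 : (if p = p then 1 else if p = 0 then (E - c % E) % E else 0) = 1 := if_pos rfl
    have e2 : (if 0 = p then 1 else if 0 = 0 then (E - c % E) % E else 0) = (E - c % E) % E := by
      rw [if_neg (by omega), if_pos rfl]
    rw [e1, e2, pow_one] at h
    have h3 : z 0 ^ ((E - c % E) % E) * z 0 ^ c = 1 := by
      rw [pow_mod_of_exp hE, ← pow_mod_of_exp hE (z 0) c, ← pow_add]
      have : c % E < E := Nat.mod_lt _ hE0
      rw [Nat.sub_add_cancel this.le, hE]
    have h4 : z p = (z 0 ^ ((E - c % E) % E))⁻¹ := eq_inv_of_mul_eq_one_left h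
    rw [h4, inv_eq_iff_mul_eq_one]
    exact h3
  · intro q hq hq2
    rw [if_neg hq2.1, if_neg hq2.2, pow_zero]
  · intro h2
    exact absurd (Finset.mem_range.2 hp) h2
  · intro h2
    exact absurd (Finset.mem_range.2 (by omega)) h2

theorem ev_tgt0 {P r : ℕ} (z : ℕ → B) (hP : 0 < P)
    (h : evL z 0 ((List.range P).map fun q => if q = 0 then r else 0) = 1) : z 0 ^ r = 1 := by
  rw [evL_range, Finset.prod_eq_single 0] at h
  · simpa using h
  · intro q _ hq
    rw [if_neg hq, pow_zero]
  · intro h2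
    exact absurd (Finset.mem_range.2 hP) h2

namespace CertM

variable (C : CertE)

/-- A chosen row. -/
def rowOK (q : ℕ × ℕ × List ℕ) : Bool :=
  Nat.blt q.1 C.R && Nat.blt q.2.1 C.n && Nat.beq (endV C.T q.2.1 (C.rels q.1)) q.2.1 &&
    (C.row q.1 q.2.1).all (fun p => Nat.blt p.1 C.NV) &&
    (sumF (opsL C.E) C.val (C.row q.1 q.2.1) == q.2.2)

/-- The tests for the parameters. -/
def solveOK (Q : List (ℕ × ℕ × List ℕ)) (coef : ℕ → List ℕ) : Bool :=
  Nat.beq (C.cf 0) 1 && Nat.blt 0 C.P &&
    ((List.range C.P).all fun p =>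
      Nat.beq p 0 || (combo C.E (coef p) (Q.map fun q => q.2.2) == tgt C.E C.P p (C.cf p))) &&
    (combo C.E (coef 0) (Q.map fun q => q.2.2) == (List.range C.P).map fun q => if q = 0 then C.r0 else 0)

/-- The certificate gives all variables as powers of one element. -/
theorem powers (hE0 : 0 < C.E) (hm : 0 < C.m) (hvar : ∀ v, v < C.NV → C.varChk v = true)
    (hE : ∀ b : B, b ^ C.E = 1) {Φ : ℕ → B}
    (htree : ∀ c, c < C.n → 0 < c → Φ (treeVar C.m C.par c) = 1)
    (hrow : ∀ j, j < C.R → ∀ c, c < C.n → endV C.T c (C.rels j) = c → prodT Φ (C.row j c) = 1)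
    (hnorm : ∀ j, j < C.R → C.normal j = true → Φ (C.n * C.m + j) = 1)
    (Q : List (ℕ × ℕ × List ℕ)) (hQ : Q.all (rowOK C) = true) (coef : ℕ → List ℕ)
    (hsolveOK : solveOK C Q coef = true) :
    ∃ (u : B) (e : ℕ → ℕ), (∀ v, v < C.NV → Φ v = u ^ e v) ∧ u ^ C.r0 = 1 := by
  have hS := evL_sound hE0 hE (fun p => Φ (C.params p))
  set z : ℕ → B := fun p => Φ (C.params p) with hz
  set ev := evL z 0 with hev
  have hsolve : ∀ v, v < C.NV → Φ v = ev (C.val v) := by
    apply solve hS (E := C.E) (rank := C.rank) (rowOf := fun v => C.row (C.stepT v).1 (C.stepT v).2) hE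
    · intro v hv hr
      have h1 := hvar v hv
      have hb0 : Nat.beq (C.rank v) 0 = false := by
        rw [Bool.eq_false_iff]
        intro h2
        exact hr (Nat.eq_of_beq_eq_true h2)
      rw [CertE.varChk, hb0] at h1
      simp only [Bool.false_eq_true, if_false, Bool.and_eq_true, Nat.blt_eq] at h1
      obtain ⟨_, ⟨⟨⟨h2, h3⟩, h4⟩, _⟩⟩ := h1
      exact hrow _ h2 _ h3 (Nat.eq_of_beq_eq_true h4)
    · intro v hv hr
      have h1 := hvar v hv
      have hb0 : Nat.beq (C.rank v) 0 = true := by rw [hr]; rfl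
      rw [CertE.varChk, hb0] at h1
      simp only [if_true, Bool.or_eq_true, Bool.and_eq_true] at h1
      obtain ⟨_, h1⟩ := h1
      rcases h1 with ⟨h2, h3⟩ | h2
      · have hz0 : ev (C.val v) = 1 := by
          apply hS.zero
          show ((C.val v).all fun a => Nat.beq (a % C.E) 0) = true
          rw [List.all_eq_true] at h3 ⊢
          intro a ha
          rw [Nat.eq_of_beq_eq_true (h3 a ha)]
          simp
        rw [hz0]
        by_cases hlt : v < C.n * C.m
        · have hb1 : Nat.blt v (C.n * C.m) = true := by simpa using hlt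
          rw [hb1, cond_true] at h2
          obtain ⟨c, hc, hc0, he⟩ := C.base.treeVar_of_chk (by simpa [CertE.base] using hm) h2
          rw [← he]
          exact htree c hc hc0
        · have hb1 : Nat.blt v (C.n * C.m) = false := by
            rw [Bool.eq_false_iff]
            intro h9
            exact hlt (by simpa using h9)
          rw [hb1, cond_false] at h2
          have hjR : v - C.n * C.m < C.R := by
            have : v < C.n * C.m + C.R := hv
            omega
          have := hnorm _ hjR h2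
          rwa [Nat.add_sub_cancel' (by omega)] at this
      · simp only [CertE.paramChk, List.any_eq_true, List.mem_range, Bool.and_eq_true] at h2
        obtain ⟨p, hp, h3, h4⟩ := h2
        have h5 := Nat.eq_of_beq_eq_true h3
        have h6 : C.val v = (List.range C.P).map fun q => if q = p then 1 else 0 := by
          simpa using h4
        rw [h6, hev, evL_range, Finset.prod_eq_single p]
        · rw [if_pos rfl, pow_one]
          exact congrArg Φ h5.symm
        · intro q _ hq
          rw [if_neg hq, pow_zero]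
        · intro h7
          exact absurd (Finset.mem_range.2 hp) h7
    · intro v hv hr
      have h1 := hvar v hv
      have hb0 : Nat.beq (C.rank v) 0 = false := by
        rw [Bool.eq_false_iff]
        intro h2
        exact hr (Nat.eq_of_beq_eq_true h2)
      rw [CertE.varChk, hb0] at h1
      simp only [Bool.false_eq_true, if_false, Bool.and_eq_true] at h1
      exact h1.2.2
  -- the chosen rows
  have hform : ∀ f ∈ Q.map (fun q => q.2.2), ev f = 1 := by
    intro f hf
    obtain ⟨q, hq, rfl⟩ := List.mem_map.1 hf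
    have h1 := List.all_eq_true.1 hQ q hq
    simp only [rowOK, Bool.and_eq_true, Nat.blt_eq, beq_iff_eq, List.all_eq_true] at h1
    obtain ⟨⟨⟨⟨h2, h3⟩, h4⟩, h5⟩, h6⟩ := h1
    rw [← h6, ev_sumF hS, ← hrow _ h2 _ h3 (Nat.eq_of_beq_eq_true h4)]
    exact CertE.prodT_congr_of_lt (N := C.NV) (fun v hv => (hsolve v hv).symm) _ (fun p hp => by
      simpa using h5 p hp)
  simp only [solveOK, Bool.and_eq_true, List.all_eq_true, List.mem_range, Nat.blt_eq, beq_iff_eq,
    Bool.or_eq_true] at hsolveOK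
  obtain ⟨⟨⟨hc0, hP⟩, hpar⟩, h0⟩ := hsolveOK
  set u := z 0 with hu
  have hzu : ∀ p, p < C.P → z p = u ^ C.cf p := by
    intro p hp
    by_cases hp0 : p = 0
    · subst hp0
      rw [Nat.eq_of_beq_eq_true hc0, pow_one]
    · rcases hpar p hp with h1 | h1
      · exact absurd (Nat.eq_of_beq_eq_true h1) hp0
      · have h2 := evL_combo hE z (coef p) _ hform
        rw [h1] at h2
        exact ev_tgt hE0 hE z (by omega) hp h2
  refine ⟨u, fun v => substL C.E C.cf 0 (C.val v), ?_, ?_⟩
  · intro v hv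
    have h1 := hvar v hv
    simp only [CertE.varChk, Bool.and_eq_true] at h1
    have hlen : (C.val v).length ≤ C.P := by simpa using h1.1.2
    rw [hsolve v hv, hev]
    exact evL_subst hE hzu _ 0 (by omega)
  · have h2 := evL_combo hE z (coef 0) _ hform
    rw [h0] at h2
    exact ev_tgt0 z hP h2

end CertM

end Forms

section Coset

variable {Γ G X : Type*} [Group Γ] [Group G] [MulAction G X]

/-- The coset system with a certificate with matrices, with an abelian target. -/
theorem target_cyclic {σ : Γ →* G} (hσ : IsStemExtension σ)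
    {Ht : Subgroup Γ} {x0 : X} (hHt : ∀ y, y ∈ Ht ↔ σ y • x0 = x0)
    {B : Type*} [CommGroup B] (ρ : Ht →* B)
    (C : CertE) (hE0 : 0 < C.E) (hm : 0 < C.m) (hT : Tab C.n C.m C.T C.par)
    (hvar : ∀ v, v < C.NV → C.varChk v = true)
    (Q : List (ℕ × ℕ × List ℕ)) (hQ : Q.all (CertM.rowOK C) = true) (coef : ℕ → List ℕ)
    (hsolveOK : CertM.solveOK C Q coef = true)
    (hE : ∀ b : B, b ^ C.E = 1) {mask : ℕ → X} (hm0 : mask 0 = x0)
    (hmne : ∀ c, c < C.n → mask c = x0 → c = 0)
    {s : ℕ → G} (hms : ∀ c, c < C.n → ∀ i, i < C.m → s i • mask (C.T c (2 * i)) = mask c)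
    (hgen : closure (s '' Set.Iio C.m) = ⊤)
    {x : ℕ → Γ} (hx : ∀ i, σ (x i) = s i)
    (hrels : ∀ j, j < C.R → ∀ l ∈ C.rels j, l < 2 * C.m)
    (hrel : ∀ j, j < C.R → evW s (C.rels j) = 1)
    (hnorm : ∀ j, j < C.R → C.normal j = true → evW x (C.rels j) = 1) :
    ∃ u : B, u ^ C.r0 = 1 ∧ ∀ y, ρ y ∈ zpowers u := by
  obtain ⟨Φ, h1, h2, h3, h4⟩ := coset_system' hσ hHt ρ hT hm0 hmne hms hgen hx hrels hrel
  have hK : ∀ j, j < C.R → evW x (C.rels j) ∈ Ht := by
    intro j hj
    rw [hHt, map_evW]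
    simp only [hx]
    rw [hrel j hj, one_smul]
  obtain ⟨u, e, he, hu⟩ := CertM.powers C hE0 hm hvar hE h1 h2 (fun j hj hn => by
    rw [h3 j hj (hK j hj)]
    have h5 : (⟨_, hK j hj⟩ : Ht) = 1 := Subtype.ext (hnorm j hj hn)
    rw [h5, map_one]) Q hQ coef hsolveOK
  refine ⟨u, hu, ?_⟩
  intro k
  refine h4 (zpowers u) (by
    intro c hc i hi
    have h5 : c * C.m + i < C.NV := by
      show c * C.m + i < C.n * C.m + C.R
      have : c * C.m + i < C.n * C.m := by
        calc c * C.m + i < c * C.m + C.m := by omega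
          _ = (c + 1) * C.m := by ring
          _ ≤ C.n * C.m := Nat.mul_le_mul_right _ hc
      omega
    rw [he _ h5]
    exact Subgroup.npow_mem_zpowers u _) k

end Coset

section Level

variable {Q X : Type} [Group Q] [MulAction Q X] {x0 : X}

variable {Γ : Type} [Group Γ] [Finite Γ] {σ : Γ →* Q}

/-- The kernel of a stem extension from a certificate: the order divides `2`. -/
theorem level_cyc {n : ℕ} {T : ℕ → ℕ → ℕ} {par : ℕ → ℕ × ℕ} {mask : ℕ → X} {s : ℕ → Q}
    (L : LevelData x0 n T par mask s) (S : Subgroup ↥(MulAction.stabilizer Q x0))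
    (hM : HasCyclicSchurMultiplier ↥S 1) (hperf : commutator ↥S = ⊤) (hind : S.index = 2)
    (C : CertE) (hCn : C.n = n) (hCm : C.m = 2) (hCT : C.T = T) (hCp : C.par = par) (hE0 : 0 < C.E)
    (hvar : ∀ v, v < C.NV → C.varChk v = true)
    (Qs : List (ℕ × ℕ × List ℕ)) (hQ : Qs.all (CertM.rowOK C) = true) (coef : ℕ → List ℕ)
    (hsolveOK : CertM.solveOK C Qs coef = true)
    {e r t u v : ℕ} (hCE : C.E = 2 * e) (hr0 : C.r0 = 4) (hN : NormB C r t) (hR : 1 < C.R)
    (hd1 : e ∣ 1 + r * u) (hd2 : e ∣ 1 + t * v)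
    (hrels : ∀ j, j < C.R → ∀ l ∈ C.rels j, l < 4) (hrel : ∀ j, j < C.R → evW s (C.rels j) = 1)
    (hσ : IsStemExtension σ) (he : ∀ k ∈ σ.ker, k ^ e = 1) :
    ∃ w : σ.ker, w ^ 2 = 1 ∧ ∀ k : σ.ker, k ∈ zpowers w := by
  subst hCn hCT hCp
  obtain ⟨h1, h01⟩ := rels_b hN hR hrel
  obtain ⟨A, iA, ρ, hs, hinj, hcard, hsq⟩ := target S hM hperf hind hσ
  obtain ⟨x, hx, hx1, hx2⟩ := lifts_b hσ h1 h01 he hd1 hd2
  have hE : ∀ b : A, b ^ C.E = 1 := by
    intro b
    obtain ⟨z, rfl⟩ := hs b
    obtain ⟨k, h, hk, he'⟩ := hsq z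
    rw [hCE, pow_mul, he', ← map_pow]
    have h3 : (⟨k, h⟩ : ↥((MulAction.stabilizer Q x0).comap σ)) ^ e = 1 := Subtype.ext (he k hk)
    rw [h3, map_one]
  have hHt : ∀ z, z ∈ (MulAction.stabilizer Q x0).comap σ ↔ σ z • x0 = x0 := fun z => by
    rw [Subgroup.mem_comap]
    exact MulAction.mem_stabilizer_iff
  obtain ⟨w, hu, hall⟩ := target_cyclic hσ hHt ρ C hE0 (by rw [hCm]; norm_num) (by rw [hCm]; exact L.hT) hvar Qs hQ coef
    hsolveOK hE L.hm0 L.hne
    (by rw [hCm]; exact L.hms) (by rw [hCm]; exact L.hgen) hx (by rw [hCm]; exact hrels) hrel (hnorm_b hN hx1 hx2)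
  rw [hr0] at hu
  haveI : Finite A := Finite.of_surjective ρ hs
  have htop : zpowers w = ⊤ := by
    rw [eq_top_iff]
    intro a _
    obtain ⟨z, rfl⟩ := hs a
    exact hall z
  have hcardA : Nat.card A ∣ 4 := by
    have h3 : Nat.card (zpowers w) = Nat.card A := by
      rw [htop]
      exact Nat.card_congr (Subgroup.topEquiv).toEquiv
    rw [← h3, Nat.card_zpowers]
    exact orderOf_dvd_of_pow_eq_one hu
  rw [hcard] at hcardA
  have hk1 : Nat.card σ.ker ∣ 2 :=
    Nat.dvd_of_mul_dvd_mul_left (k := 2) (by norm_num) hcardA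
  -- the kernel is cyclic
  have hcy : ∃ w : σ.ker, ∀ k : σ.ker, k ∈ zpowers w := by
    have h2 : Nat.card σ.ker = 1 ∨ Nat.card σ.ker = 2 := by
      have := (Nat.dvd_prime Nat.prime_two).1 hk1
      exact this
    rcases h2 with h2 | h2
    · have : Subsingleton σ.ker := (Nat.card_eq_one_iff_unique.1 h2).1
      exact ⟨1, fun k => by rw [Subsingleton.elim k 1]; exact Subgroup.one_mem _⟩
    · haveI : Fact (Nat.Prime 2) := ⟨Nat.prime_two⟩
      haveI : IsCyclic σ.ker := isCyclic_of_prime_card (p := 2) h2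
      obtain ⟨g, hg⟩ := IsCyclic.exists_generator (α := σ.ker)
      exact ⟨g, hg⟩
  obtain ⟨w', hw'⟩ := hcy
  refine ⟨w', ?_, hw'⟩
  have h5 : orderOf w' ∣ 2 := (orderOf_dvd_natCard w').trans hk1
  exact orderOf_dvd_iff_pow_eq_one.1 h5

/-- With an abelian target, the index is an exponent of the kernel, and so are the quotients by primes. -/
theorem ker_exp {Hb : Subgroup Q} (S : Subgroup ↥Hb) (hM : HasCyclicSchurMultiplier ↥S 1)
    (hperf : commutator ↥S = ⊤) (hind : S.index = 2) (hσ : IsStemExtension σ) {k : Γ} (hk : k ∈ σ.ker) :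
    k ^ Hb.index = 1 := pow_index_of_target S hM hperf hind hσ hk

end Level

end Cfsg.Agent.Lib.RuSc
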