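import Cfsg.Agent.S2115
import Cfsg.Agent.Lib.RuMain
import Cfsg.Agent.Lib.SchurPerm12
import Cfsg.Agent.Lib.RuScTitsData

/-!
# The subgroup of the point stabilizer of `Ru` is the Tits group
-/

set_option autoImplicit false
set_option maxRecDepth 100000
set_option Elab.async false
set_option linter.style.haveILetI false

namespace Cfsg.Agent.Lib.RuScTits

open Cfsg Subgroup Cfsg.Agent.Lib.SchurCoset46 Cfsg.Agent.Lib.SchurLev12 Cfsg.Agent.Lib.SchurPerm12
  Cfsg.Agent.Lib.PermChain12 Cfsg.Agent.Lib.SparseDfs Cfsg.Agent.Lib.RuScTitsData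
  Cfsg.Agent.Lib.RuMain
open Cfsg.Agent.Lib.ProgBits Cfsg.Agent.Lib.ProgChain Cfsg.Agent.Lib.PermChain

noncomputable section

/-- the letters of the Tits group on `1755` points -/
abbrev g2 : ℕ → Equiv.Perm (Fin 1755) := Cfsg.Agent.Lib.TwoF4PMain.g

/-- the image of the first letter -/
def t0 : Equiv.Perm (Fin 1755) := prodW g2 w0
/-- the image of the second letter -/
def t1 : Equiv.Perm (Fin 1755) := prodW g2 w1

open Cfsg.Agent.Lib.TwoF4PTab in
theorem rep_t0 : RepW 11 2047 t0 dT0 := repW_of_chk Cfsg.Agent.Lib.TwoF4PMain.ctx (by decide +kernel)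
open Cfsg.Agent.Lib.TwoF4PTab in
theorem rep_t1 : RepW 11 2047 t1 dT1 := repW_of_chk Cfsg.Agent.Lib.TwoF4PMain.ctx (by decide +kernel)
open Cfsg.Agent.Lib.RuTTab in
theorem rep_c0' : RepW 12 4095 (prodW gT [0]) cT0 := repW_of_chk Cfsg.Agent.Lib.RuTMain.ctx (by decide +kernel)
open Cfsg.Agent.Lib.RuTTab in
theorem rep_c1' : RepW 12 4095 (prodW gT [1]) cT1 := repW_of_chk Cfsg.Agent.Lib.RuTMain.ctx (by decide +kernel)

theorem rep_c0 : RepW 12 4095 (gT 0) cT0 := by
  have h := rep_c0'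
  simpa [prodW] using h
theorem rep_c1 : RepW 12 4095 (gT 1) cT1 := by
  have h := rep_c1'
  simpa [prodW] using h

theorem t0_mem : t0 ∈ Cfsg.Agent.Lib.TitsPar.T := Cfsg.Agent.Lib.TitsPar.mem_T_word (by decide +kernel)
theorem t1_mem : t1 ∈ Cfsg.Agent.Lib.TitsPar.T := Cfsg.Agent.Lib.TitsPar.mem_T_word (by decide +kernel)

theorem beq_of_eq' {a b : ℕ} (h : a = b) : Nat.beq a b = true := by
  subst h
  exact Nat.beq_refl a

/-- the embedding of the points -/
def om (j : Fin 1755) : Fin 4060 := ptN 4060 (imW 12 4095 omT j.val)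

theorem chk_om : allB 1755 11 (fun j => Nat.blt (imW 12 4095 omT j) 4060 &&
    Nat.beq (imW 12 4095 omI (imW 12 4095 omT j)) j) = true := by decide +kernel

theorem om_val (j : Fin 1755) : (om j).val = imW 12 4095 omT j.val := by
  have h := allB_spec _ _ _ (by norm_num) chk_om j.val j.isLt
  simp only [Bool.and_eq_true, Nat.blt_eq] at h
  exact ptN_val h.1

theorem om_inj : Function.Injective om := by
  intro a b hab
  have h1 := allB_spec _ _ _ (by norm_num) chk_om a.val a.isLt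
  have h2 := allB_spec _ _ _ (by norm_num) chk_om b.val b.isLt
  simp only [Bool.and_eq_true] at h1 h2
  have h3 := Nat.eq_of_beq_eq_true h1.2
  have h4 := Nat.eq_of_beq_eq_true h2.2
  have h5 : imW 12 4095 omT a.val = imW 12 4095 omT b.val := by
    rw [← om_val, ← om_val, hab]
  apply Fin.ext
  rw [← h3, ← h4, h5]

theorem chk_e0 : allB 1755 11 (fun j => Nat.beq (imW 12 4095 cT0 (imW 12 4095 omT j))
    (imW 12 4095 omT (imW 11 2047 dT0 j))) = true := by decide +kernel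
theorem chk_e1 : allB 1755 11 (fun j => Nat.beq (imW 12 4095 cT1 (imW 12 4095 omT j))
    (imW 12 4095 omT (imW 11 2047 dT1 j))) = true := by decide +kernel

theorem eq0 (j : Fin 1755) : gT 0 (om j) = om (t0 j) := by
  apply Fin.ext
  rw [rep_c0, om_val, om_val, rep_t0]
  exact Nat.eq_of_beq_eq_true (allB_spec _ _ _ (by norm_num) chk_e0 j.val j.isLt)

theorem eq1 (j : Fin 1755) : gT 1 (om j) = om (t1 j) := by
  apply Fin.ext
  rw [rep_c1, om_val, om_val, rep_t1]
  exact Nat.eq_of_beq_eq_true (allB_spec _ _ _ (by norm_num) chk_e1 j.val j.isLt)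

theorem exists_y {x : Equiv.Perm (Fin 4060)} (hx : x ∈ grp gT 0 2) :
    ∃ y ∈ Cfsg.Agent.Lib.TitsPar.T, ∀ j, x (om j) = om (y j) := by
  rw [grp, genOf] at hx
  induction hx using Subgroup.closure_induction with
  | mem x hx =>
    obtain ⟨k, hk, rfl⟩ := hx
    obtain ⟨h1, h2⟩ := List.mem_range'_1.mp hk
    have h3 : k = 0 ∨ k = 1 := by omega
    rcases h3 with rfl | rfl
    · exact ⟨t0, t0_mem, eq0⟩
    · exact ⟨t1, t1_mem, eq1⟩
  | one => exact ⟨1, one_mem _, fun _ => rfl⟩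
  | mul a b _ _ ha hb =>
    obtain ⟨y1, hy1, h1⟩ := ha
    obtain ⟨y2, hy2, h2⟩ := hb
    refine ⟨y1 * y2, mul_mem hy1 hy2, fun j => ?_⟩
    rw [Equiv.Perm.mul_apply, h2, h1, Equiv.Perm.mul_apply]
  | inv a _ ha =>
    obtain ⟨y1, hy1, h1⟩ := ha
    refine ⟨y1⁻¹, inv_mem hy1, fun j => ?_⟩
    rw [Equiv.Perm.inv_eq_iff_eq, h1]
    simp

/-- the restriction -/
def fOf (x : grp gT 0 2) : Cfsg.Agent.Lib.TitsPar.T :=
  ⟨(exists_y x.2).choose, (exists_y x.2).choose_spec.1⟩

theorem fOf_spec (x : grp gT 0 2) (j : Fin 1755) : x.1 (om j) = om ((fOf x).1 j) :=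
  (exists_y x.2).choose_spec.2 j

/-- the restriction as a homomorphism -/
def ff : grp gT 0 2 →* Cfsg.Agent.Lib.TitsPar.T := MonoidHom.mk' fOf (by
  intro a b
  apply Subtype.ext
  apply Equiv.ext
  intro j
  apply om_inj
  rw [← fOf_spec]
  show (a.1 * b.1) (om j) = om ((fOf a).1 ((fOf b).1 j))
  rw [Equiv.Perm.mul_apply, fOf_spec, fOf_spec])

theorem chk_ne : Nat.beq (imW 12 4095 cT0 (imW 12 4095 omT 0)) (imW 12 4095 omT 0) = false := by decide +kernel

theorem ff_inj : Function.Injective ff := by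
  haveI := Cfsg.Agent.Lib.RuTMain.simple_top
  rw [injective_iff_map_eq_one]
  have hN : (ff.ker).Normal := inferInstance
  rcases hN.eq_bot_or_eq_top with h | h
  · intro a ha
    have : a ∈ ff.ker := ha
    rw [h] at this
    exact this
  · exfalso
    have hm : gT 0 ∈ grp gT 0 2 := gen_mem_grp _ (by norm_num) (by norm_num)
    have h1 : (⟨gT 0, hm⟩ : grp gT 0 2) ∈ ff.ker := by rw [h]; exact mem_top _
    have h2 : fOf ⟨gT 0, hm⟩ = 1 := h1
    have h3 := fOf_spec ⟨gT 0, hm⟩ ⟨0, by norm_num⟩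
    rw [h2] at h3
    have h4 : gT 0 (om ⟨0, by norm_num⟩) = om ⟨0, by norm_num⟩ := h3
    have h5 := congrArg Fin.val h4
    rw [rep_c0, om_val] at h5
    have h6 := chk_ne
    have h7 : Nat.beq (imW 12 4095 cT0 (imW 12 4095 omT 0)) (imW 12 4095 omT 0) = true := beq_of_eq' h5
    rw [h7] at h6
    exact absurd h6 (by decide)

theorem ff_bij : Function.Bijective ff := by
  refine Function.Injective.bijective_of_nat_card_le ff_inj ?_
  rw [Cfsg.Agent.Lib.TitsPar.card_T, Cfsg.Agent.Lib.RuTMain.cardH0]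

/-- the stabilizer subgroup is the Tits group -/
def eTT : TT ≃* Cfsg.Lie.TitsGroup :=
  (MulEquiv.ofBijective TTmap TTmap_bij).trans
    ((MulEquiv.ofBijective ff ff_bij).trans Cfsg.Agent.Lib.TitsBridge.eT.symm)

theorem finite_TT : Finite ↥TT := Nat.finite_of_card_ne_zero (by rw [card_TT]; norm_num)

theorem hM_TT : HasCyclicSchurMultiplier ↥TT 1 := by
  haveI := finite_TT
  exact schur_one_of_equiv (G := ↥TT) (G' := Cfsg.Lie.TitsGroup) eTT Cfsg.Agent.S2115.result

theorem chk_nc : Nat.beq (imW 12 4095 cT0 (imW 12 4095 cT1 pNC)) (imW 12 4095 cT1 (imW 12 4095 cT0 pNC)) = false := by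
  decide +kernel

theorem perfect_TT : commutator ↥TT = ⊤ := by
  haveI := Cfsg.Agent.Lib.RuTMain.simple_top
  apply perfect_of_equiv (MulEquiv.ofBijective TTmap TTmap_bij)
  have hm0 : gT 0 ∈ grp gT 0 2 := gen_mem_grp _ (by norm_num) (by norm_num)
  have hm1 : gT 1 ∈ grp gT 0 2 := gen_mem_grp _ (by norm_num) (by norm_num)
  refine commutator_eq_top_of_simple (MonoidHom.id _) Function.surjective_id
    (a := ⟨gT 0, hm0⟩) (b := ⟨gT 1, hm1⟩) ?_
  intro h
  have h1 : gT 0 * gT 1 = gT 1 * gT 0 := congrArg Subtype.val h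
  have h2 : (gT 0 (gT 1 ⟨pNC, by decide +kernel⟩)).val = (gT 1 (gT 0 ⟨pNC, by decide +kernel⟩)).val := by
    rw [← Equiv.Perm.mul_apply, h1, Equiv.Perm.mul_apply]
  rw [rep_c0, rep_c1, rep_c1, rep_c0] at h2
  have h6 := chk_nc
  have h7 : Nat.beq (imW 12 4095 cT0 (imW 12 4095 cT1 pNC)) (imW 12 4095 cT1 (imW 12 4095 cT0 pNC)) = true :=
    beq_of_eq' h2
  rw [h7] at h6
  exact absurd h6 (by decide)

theorem index_TT : TT.index = 2 := by
  have h := Subgroup.card_mul_index TT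
  rw [card_TT, card_stab] at h
  omega

end

end Cfsg.Agent.Lib.RuScTits
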