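import Cfsg.Agent.Lib.RuScData

/-!
# The certificate for the Schur multiplier of `Ru`: the variables
-/

set_option autoImplicit false
set_option maxRecDepth 100000
set_option Elab.async false

namespace Cfsg.Agent.Lib.RuScVar

open Cfsg.Agent.Lib.SchurCoset46 Cfsg.Agent.Lib.RuScData

theorem hv0 : (List.range' 0 3000).all cert.varChk = true := by decide +kernel
theorem hv1 : (List.range' 3000 1000).all cert.varChk = true := by decide +kernel
theorem hv2 : (List.range' 4000 1000).all cert.varChk = true := by decide +kernel

end Cfsg.Agent.Lib.RuScVar
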