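import Cfsg.Agent.Lib.RuScData

/-!
# The certificate for the Schur multiplier of `Ru`: the variables
-/

set_option autoImplicit false
set_option maxRecDepth 100000
set_option Elab.async false

namespace Cfsg.Agent.Lib.RuScVar

open Cfsg.Agent.Lib.SchurCoset46 Cfsg.Agent.Lib.RuScData

theorem hv3 : (List.range' 5000 1000).all cert.varChk = true := by decide +kernel
theorem hv4 : (List.range' 6000 500).all cert.varChk = true := by decide +kernel
theorem hv5 : (List.range' 6500 500).all cert.varChk = true := by decide +kernel
theorem hv6 : (List.range' 7000 500).all cert.varChk = true := by decide +kernel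
theorem hv7 : (List.range' 7500 500).all cert.varChk = true := by decide +kernel
theorem hv8 : (List.range' 8000 133).all cert.varChk = true := by decide +kernel

end Cfsg.Agent.Lib.RuScVar
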