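import Cfsg.Agent.Lib.RuMain
import Cfsg.Agent.Lib.SchurPerm12
import Cfsg.Agent.Lib.RuScData
import Cfsg.Agent.Lib.RuScVarA
import Cfsg.Agent.Lib.RuScVarB
import Cfsg.Agent.Lib.RuScTits

/-!
# The Schur multiplier of the Rudvalis group on `4060` points: the bound
-/

set_option autoImplicit false
set_option maxRecDepth 100000
set_option Elab.async false
set_option linter.style.haveILetI false

namespace Cfsg.Agent.Lib.RuScTop

open Cfsg Subgroup Cfsg.Agent.Lib.SchurCoset46 Cfsg.Agent.Lib.SchurLev12 Cfsg.Agent.Lib.SchurPerm12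
  Cfsg.Agent.Lib.PermChain12 Cfsg.Agent.Lib.SparseDfs Cfsg.Agent.Lib.RuScData Cfsg.Agent.Lib.SchurStem
  Cfsg.Agent.Lib.RuMain Cfsg.Agent.Lib.RuSc
open Cfsg.Agent.Lib.ProgBits Cfsg.Agent.Lib.ProgChain

noncomputable section

theorem letH : ∀ e, 0 ≤ e → gH e ∈ HH := (Cfsg.Agent.Lib.RuPMain.lev0).1

/-- the first generator -/
def aH : ↥HH := ⟨Cfsg.Agent.Lib.PermChain.prodW gH waH, prodW_mem letH (by decide)⟩
/-- the second generator -/
def bH : ↥HH := ⟨Cfsg.Agent.Lib.PermChain.prodW gH wbH, prodW_mem letH (by decide)⟩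
/-- the generators -/
def sH (i : ℕ) : ↥HH := if i = 0 then aH else bH

open Cfsg.Agent.Lib.RuPTab in
theorem rep_g0 : RepW 12 4095 (Cfsg.Agent.Lib.PermChain.prodW gH [0]) g0HT :=
  repW_of_chk Cfsg.Agent.Lib.RuPMain.ctx (by decide +kernel)
open Cfsg.Agent.Lib.RuPTab in
theorem rep_g1 : RepW 12 4095 (Cfsg.Agent.Lib.PermChain.prodW gH [1]) g1HT :=
  repW_of_chk Cfsg.Agent.Lib.RuPMain.ctx (by decide +kernel)

/-- the value of a word in the two letters -/
def evWd (c0 c1 : ℕ) : List ℕ → ℕ → ℕ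
  | [], p => p
  | k :: w, p => imW 12 4095 (cond (Nat.beq k 0) c0 c1) (evWd c0 c1 w p)

theorem rep_word (w : List ℕ) (hw : ∀ k ∈ w, k < 2) (i : Fin 4060) :
    ((Cfsg.Agent.Lib.PermChain.prodW gH w) i).val = evWd g0HT g1HT w i.val := by
  have e0 : gH 0 = Cfsg.Agent.Lib.PermChain.prodW gH [0] := by simp [Cfsg.Agent.Lib.PermChain.prodW]
  have e1 : gH 1 = Cfsg.Agent.Lib.PermChain.prodW gH [1] := by simp [Cfsg.Agent.Lib.PermChain.prodW]
  induction w with
  | nil => rfl
  | cons k w ih =>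
    rw [Cfsg.Agent.Lib.PermChain.prodW_cons, Equiv.Perm.mul_apply, evWd]
    rw [← ih (fun a ha => hw a (List.mem_cons_of_mem _ ha))]
    have hk := hw k List.mem_cons_self
    have h2 : k = 0 ∨ k = 1 := by omega
    rcases h2 with rfl | rfl
    · rw [e0]
      exact rep_g0 _
    · rw [e1]
      exact rep_g1 _

theorem chk_a : allB 4060 12 (fun i => Nat.beq (evWd g0HT g1HT waH i) (imW 12 4095 aHT i)) = true := by decide +kernel
theorem chk_b : allB 4060 12 (fun i => Nat.beq (evWd g0HT g1HT wbH i) (imW 12 4095 bHT i)) = true := by decide +kernel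

theorem rep_a : RepW 12 4095 (Cfsg.Agent.Lib.PermChain.prodW gH waH) aHT := by
  intro i
  rw [rep_word _ (by decide)]
  exact Nat.eq_of_beq_eq_true (allB_spec _ _ _ (by norm_num) chk_a i.val i.isLt)

theorem rep_b : RepW 12 4095 (Cfsg.Agent.Lib.PermChain.prodW gH wbH) bHT := by
  intro i
  rw [rep_word _ (by decide)]
  exact Nat.eq_of_beq_eq_true (allB_spec _ _ _ (by norm_num) chk_b i.val i.isLt)

theorem chk_TH : tabPChk 4060 12 12 4095 aHT bHT 4060 TH BH = true := by decide +kernel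

theorem chk_IH : allB 4060 12 (fun x => Nat.blt (IH x) 4060 && Nat.beq (BH (IH x)) x) = true := by decide +kernel

/-- the table of the action on the points -/
theorem ptH : PtTab 4060 TH (fun c => ptN 4060 (BH c)) sH :=
  ptTab_of_tabPChk (k := 12) (B := BH) (I := IH) (by norm_num) chk_TH rep_a rep_b (fun x hx => by
    have h := allB_spec _ _ _ (by norm_num) chk_IH x hx
    simp only [Bool.and_eq_true, Nat.blt_eq] at h
    exact ⟨h.1, Nat.eq_of_beq_eq_true h.2⟩)

theorem chk_g0 : allB 4060 12 (fun c => Nat.beq (imW 12 4095 g0HT (BH (endV TH c wg0H) % 4060)) (BH c % 4060)) = true := by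
  decide +kernel
theorem chk_g1 : allB 4060 12 (fun c => Nat.beq (imW 12 4095 g1HT (BH (endV TH c wg1H) % 4060)) (BH c % 4060)) = true := by
  decide +kernel

theorem hgenH : closure (sH '' Set.Iio 2) = ⊤ := by
  apply hgen_words (Q₀ := HH) (G := {x | ∃ k ∈ List.range' 0 2, x = gH k}) rfl
  rintro g ⟨k, hk, rfl⟩
  obtain ⟨h1, h2⟩ := List.mem_range'_1.mp hk
  have h3 : k = 0 ∨ k = 1 := by omega
  rcases h3 with rfl | rfl
  · refine ⟨wg0H, by decide, ?_⟩
    apply ptH.evW_val (by decide) (f := imW 12 4095 g0HT)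
    · intro y
      have := rep_g0 y
      simpa [Cfsg.Agent.Lib.PermChain.prodW] using this
    · intro c hc
      exact Nat.eq_of_beq_eq_true (allB_spec _ _ _ (by norm_num) chk_g0 c hc)
  · refine ⟨wg1H, by decide, ?_⟩
    apply ptH.evW_val (by decide) (f := imW 12 4095 g1HT)
    · intro y
      have := rep_g1 y
      simpa [Cfsg.Agent.Lib.PermChain.prodW] using this
    · intro c hc
      exact Nat.eq_of_beq_eq_true (allB_spec _ _ _ (by norm_num) chk_g1 c hc)

theorem chk_neH : allB 4060 12 (fun c => Nat.beq c 0 || !(Nat.beq (BH c % 4060) 0)) = true := by decide +kernel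

/-- the points, in the order of the table -/
abbrev maskH (c : ℕ) : Fin 4060 := ptN 4060 (BH c)

theorem tab_ok : cert.base.tabChk = true := by decide +kernel

/-- the level of `Ru` -/
theorem levH : LevelData (0 : Fin 4060) 4060 TH PH maskH sH where
  hT := cert.base.tab_of_chk tab_ok
  hm0 := by decide +kernel
  hne := by
    intro c hc h
    have h1 := allB_spec _ _ _ (by norm_num) chk_neH c hc
    rw [Bool.or_eq_true] at h1
    rcases h1 with h1 | h1
    · exact Nat.eq_of_beq_eq_true h1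
    · exfalso
      have h2 : BH c % 4060 = 0 := congrArg Fin.val h
      rw [h2] at h1
      simp [Nat.beq] at h1
  hms := ptH.hms
  hgen := hgenH

/-- the points of a base, as cosets -/
def baseC : List ℕ := [0, 2618, 1015, 94, 861, 311, 3733, 3908, 1613, 833]

theorem step_level {α : Type*} {H H' : Subgroup (Equiv.Perm α)} {b : α} {U : α → Equiv.Perm α} {O : Finset α}
    (L : Cfsg.Agent.Lib.PermChain.Level H H' b U O) {y : Equiv.Perm α} (hy : y ∈ H) (hb : y b = b) : y ∈ H' := by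
  have h := (L.cover y hy).2
  rw [hb, L.one, inv_one, one_mul] at h
  exact h

theorem pt_base : (List.zip baseC [0,2,411,551,572,1437,15,202,10,1]).all
    (fun p => Nat.beq (BH p.1 % 4060) p.2) = true := by decide +kernel

/-- An element of the group fixing the base is trivial. -/
theorem rigid {y : Equiv.Perm (Fin 4060)} (hy : y ∈ HH)
    (h : ∀ c ∈ baseC, y (ptN 4060 (BH c)) = ptN 4060 (BH c)) : y = 1 := by
  have hp : ∀ (c b : ℕ), (c, b) ∈ List.zip baseC [0,2,411,551,572,1437,15,202,10,1] → ∀ hb : b < 4060,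
      (ptN 4060 (BH c)) = (⟨b, hb⟩ : Fin 4060) := by
    intro c b hm hb
    have h1 := List.all_eq_true.mp pt_base _ hm
    exact Fin.ext (Nat.eq_of_beq_eq_true h1)
  have hf : ∀ (c b : ℕ), (c, b) ∈ List.zip baseC [0,2,411,551,572,1437,15,202,10,1] → ∀ hb : b < 4060,
      y (⟨b, hb⟩ : Fin 4060) = ⟨b, hb⟩ := by
    intro c b hm hb
    rw [← hp c b hm hb]
    exact h c (List.of_mem_zip hm).1
  have h0 := step_level (Cfsg.Agent.Lib.RuPMain.lev0).2 hy (hf 0 0 (by decide) _)
  have h1 := step_level (Cfsg.Agent.Lib.RuPMain.lev1).2 h0 (hf 2618 2 (by decide) _)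
  have h2 := step_level (Cfsg.Agent.Lib.RuPMain.lev2).2 h1 (hf 1015 411 (by decide) _)
  have h3 := step_level (Cfsg.Agent.Lib.RuPMain.lev3).2 h2 (hf 94 551 (by decide) _)
  have h4 := step_level (Cfsg.Agent.Lib.RuPMain.lev4).2 h3 (hf 861 572 (by decide) _)
  have h5 := step_level (Cfsg.Agent.Lib.RuPMain.lev5).2 h4 (hf 311 1437 (by decide) _)
  have h6 := step_level (Cfsg.Agent.Lib.RuPMain.lev6).2 h5 (hf 3733 15 (by decide) _)
  have h7 := step_level (Cfsg.Agent.Lib.RuPMain.lev7).2 h6 (hf 3908 202 (by decide) _)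
  have h8 := step_level (Cfsg.Agent.Lib.RuPMain.lev8).2 h7 (hf 1613 10 (by decide) _)
  have h9 := step_level (Cfsg.Agent.Lib.RuPMain.lev9).2 h8 (hf 833 1 (by decide) _)
  have h10 : grp Cfsg.Agent.Lib.RuPMain.g 264 0 = ⊥ := by
    rw [grp, Cfsg.Agent.Lib.PermChain.genOf, eq_bot_iff, closure_le]
    rintro x ⟨k, hk, rfl⟩
    simp at hk
  rw [h10] at h9
  exact h9

/-- the check of the relators -/
theorem rel_chk : (List.range 13).all (fun j => (cert.rels j).all (fun l => Nat.blt l 4) &&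
    baseC.all (fun c => Nat.beq (endV TH c (cert.rels j)) c)) = true := by decide +kernel

theorem rel_spec (j : ℕ) (hj : j < 13) : (∀ l ∈ cert.rels j, l < 4) ∧ evW sH (cert.rels j) = 1 := by
  have h := List.all_eq_true.mp rel_chk j (List.mem_range.mpr hj)
  rw [Bool.and_eq_true, List.all_eq_true, List.all_eq_true] at h
  have h1 : ∀ l ∈ cert.rels j, l < 4 := fun l hl => by
    have := h.1 l hl
    simpa using this
  refine ⟨h1, ?_⟩
  rw [← inv_eq_one]
  apply Subtype.ext
  apply rigid (SetLike.coe_mem _)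
  intro c hc
  have hcl : c < 4060 := by
    revert c
    decide
  have h2 := ptH.inv_evW (cert.rels j) h1 hcl
  have h3 : endV TH c (cert.rels j) = c := Nat.eq_of_beq_eq_true (h.2 c hc)
  rw [h3] at h2
  exact h2

theorem norm01' {j : ℕ} (h : (Nat.beq j 0 || Nat.beq j 1) = true) : j = 0 ∨ j = 1 := by
  rw [Bool.or_eq_true] at h
  rcases h with h | h
  · exact Or.inl (Nat.eq_of_beq_eq_true h)
  · exact Or.inr (Nat.eq_of_beq_eq_true h)

theorem normR : NormB cert 3 29 := ⟨by decide +kernel, by decide +kernel, fun _ hj => norm01' hj⟩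

theorem hvar : ∀ v, v < cert.NV → cert.varChk v = true := by
  intro v hv
  have hv' : v < 8133 := hv
  have h : ∀ (a n : ℕ), (List.range' a n).all cert.varChk = true → a ≤ v → v < a + n → cert.varChk v = true := by
    intro a n h1 h2 h3
    exact List.all_eq_true.mp h1 v (List.mem_range'_1.mpr ⟨h2, h3⟩)
  by_cases h0 : v < 3000
  · exact h _ _ Cfsg.Agent.Lib.RuScVar.hv0 (by omega) (by omega)
  by_cases h1 : v < 4000
  · exact h _ _ Cfsg.Agent.Lib.RuScVar.hv1 (by omega) (by omega)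
  by_cases h2 : v < 5000
  · exact h _ _ Cfsg.Agent.Lib.RuScVar.hv2 (by omega) (by omega)
  by_cases h3 : v < 6000
  · exact h _ _ Cfsg.Agent.Lib.RuScVar.hv3 (by omega) (by omega)
  by_cases h4 : v < 6500
  · exact h _ _ Cfsg.Agent.Lib.RuScVar.hv4 (by omega) (by omega)
  by_cases h5 : v < 7000
  · exact h _ _ Cfsg.Agent.Lib.RuScVar.hv5 (by omega) (by omega)
  by_cases h6 : v < 7500
  · exact h _ _ Cfsg.Agent.Lib.RuScVar.hv6 (by omega) (by omega)
  by_cases h7 : v < 8000
  · exact h _ _ Cfsg.Agent.Lib.RuScVar.hv7 (by omega) (by omega)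
  · exact h _ _ Cfsg.Agent.Lib.RuScVar.hv8 (by omega) (by omega)

theorem hQ : Qs.all (CertM.rowOK cert) = true := by decide +kernel

theorem hsolveOK : CertM.solveOK cert Qs (fun p => coefL.getD p []) = true := by decide +kernel

/-- The bound for the kernels of stem extensions. -/
theorem up {Γ : Type} [Group Γ] [Finite Γ] {σ : Γ →* ↥HH} (hσ : IsStemExtension σ) :
    ∃ w : σ.ker, w ^ 2 = 1 ∧ ∀ k : σ.ker, k ∈ zpowers w := by
  have he : ∀ k ∈ σ.ker, k ^ 20 = 1 := by
    intro k hk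
    have h1 := pow_index_of_target TT Cfsg.Agent.Lib.RuScTits.hM_TT Cfsg.Agent.Lib.RuScTits.perfect_TT
      Cfsg.Agent.Lib.RuScTits.index_TT hσ hk
    rw [levH.index_stab] at h1
    haveI : Fact (Nat.Prime 7) := ⟨by norm_num⟩
    haveI : Fact (Nat.Prime 29) := ⟨by norm_num⟩
    have h2 := ker_pow_prime hσ 7 (by rw [Cfsg.Agent.Lib.RuPMain.cardH0]; norm_num) hk
    have h3 := ker_pow_prime hσ 29 (by rw [Cfsg.Agent.Lib.RuPMain.cardH0]; norm_num) hk
    rw [Cfsg.Agent.Lib.RuPMain.cardH0] at h2 h3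
    have h4 := pow_gcd_eq_one.mpr ⟨h1, pow_gcd_eq_one.mpr ⟨h2, h3⟩⟩
    have h5 : Nat.gcd 4060 (Nat.gcd (145926144000 / 7) (145926144000 / 29)) = 20 := by norm_num
    rwa [h5] at h4
  exact level_cyc levH TT Cfsg.Agent.Lib.RuScTits.hM_TT Cfsg.Agent.Lib.RuScTits.perfect_TT
    Cfsg.Agent.Lib.RuScTits.index_TT cert rfl rfl rfl rfl (by decide) hvar Qs hQ (fun p => coefL.getD p []) hsolveOK
    (e := 20) (r := 3) (t := 29) (u := 13) (v := 11) rfl rfl normR (by decide) (by norm_num) (by norm_num)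
    (fun j hj => (rel_spec j hj).1) (fun j hj => (rel_spec j hj).2) hσ he

end

end Cfsg.Agent.Lib.RuScTop
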