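import Cfsg.Agent.Lib.RuBrMain
import Cfsg.Agent.Lib.SchurCoset46
import Cfsg.Agent.Lib.SchurStem
import Cfsg.Agent.Lib.RuScTop

/-!
# A double cover of the Rudvalis group inside the automorphism group of the lattice
-/

set_option autoImplicit false
set_option linter.style.haveILetI false

namespace Cfsg.Agent.Lib.RuScStem

open Cfsg Cfsg.Spor Subgroup Cfsg.Agent.Lib.RuBr Cfsg.Agent.Lib.SchurCoset46 Cfsg.Agent.RuLat
open scoped commutatorElement

theorem range_eq' : Cfsg.Agent.Lib.RuMain.HH = phi.range := range_eq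

section General

variable {F M : Type*} [Group F] [Group M]

/-- The commutator subgroup of a central extension of a perfect group is a stem extension. -/
theorem stem_of_central_perfect (τ : F →* M) (hτ : Function.Surjective τ) (hc : τ.ker ≤ center F)
    (hperf : commutator M = ⊤) : IsStemExtension (τ.comp (commutator F).subtype) := by
  set L := commutator F with hL
  have hLn : L.Normal := by rw [hL]; infer_instance
  have hmap : L.map τ = ⊤ := by
    rw [hL, commutator_def, Subgroup.map_commutator, Subgroup.map_top_of_surjective τ hτ]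
    exact hperf
  have hdec : ∀ y : F, ∃ d ∈ L, ∃ k ∈ τ.ker, y = d * k := by
    intro y
    have : τ y ∈ L.map τ := by rw [hmap]; exact mem_top _
    obtain ⟨d, hd, hdy⟩ := this
    refine ⟨d, hd, d⁻¹ * y, ?_, by group⟩
    rw [MonoidHom.mem_ker, map_mul, map_inv, hdy, inv_mul_cancel]
  have hτ's : Function.Surjective (τ.comp L.subtype) := by
    intro g
    have : g ∈ L.map τ := by rw [hmap]; exact mem_top _
    obtain ⟨d, hd, hdy⟩ := this
    exact ⟨⟨d, hd⟩, hdy⟩
  have hcomm : commutator L = ⊤ := by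
    rw [eq_top_iff]
    rintro ⟨y, hy⟩ -
    have hle : L ≤ (commutator L).map L.subtype := by
      conv_lhs => rw [hL, commutator_def]
      rw [Subgroup.commutator_le]
      intro a _ b _
      obtain ⟨d₁, hd₁, k₁, hk₁, rfl⟩ := hdec a
      obtain ⟨d₂, hd₂, k₂, hk₂, rfl⟩ := hdec b
      rw [commutatorElement_central _ _ _ _ (hc hk₁) (hc hk₂)]
      refine ⟨⁅(⟨d₁, hd₁⟩ : L), (⟨d₂, hd₂⟩ : L)⁆, ?_, rfl⟩
      rw [commutator_def]
      exact Subgroup.commutator_mem_commutator (mem_top _) (mem_top _)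
    obtain ⟨z, hz, hzy⟩ := hle hy
    have : z = ⟨y, hy⟩ := Subtype.ext hzy
    rwa [← this]
  refine ⟨hτ's, ?_, ?_⟩
  · rintro ⟨y, hy⟩ hk
    rw [Subgroup.mem_center_iff]
    rintro ⟨g, hg⟩
    apply Subtype.ext
    exact (Subgroup.mem_center_iff.mp (hc hk)) g
  · rw [hcomm]
    exact le_top

end General

/-! ### The quaternion units -/

theorem gI_gI (x : GaussianInt) : gI * (gI * x) = -x := by
  rw [← mul_assoc, gI_mul_gI]
  ring

theorem norm_gI (x : GaussianInt) : (gI * x).norm = x.norm := by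
  rw [Zsqrtd.norm_mul]
  have : (gI : GaussianInt).norm = 1 := by decide
  rw [this, one_mul]

theorem mem_Rj {v : RuVec} (hv : v ∈ ruLattice) : ruRj v ∈ ruLattice := by
  rw [ruLattice, AddSubgroup.mem_sInf] at hv ⊢
  intro L hL
  exact (hL.2 v (hv L hL)).2.1

theorem mem_Rk {v : RuVec} (hv : v ∈ ruLattice) : ruRk v ∈ ruLattice := by
  rw [ruLattice, AddSubgroup.mem_sInf] at hv ⊢
  intro L hL
  exact (hL.2 v (hv L hL)).2.2.1

theorem Rj_Rj (v : RuVec) : ruRj (ruRj v) = -v := by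
  funext ⟨n, t⟩
  fin_cases t
  · exact gI_gI _
  · exact gI_gI _
  · rfl
  · rfl

theorem Rk_Rk (v : RuVec) : ruRk (ruRk v) = -v := by
  funext ⟨n, t⟩
  fin_cases t
  · exact gI_gI _
  · show - (v (n, 1)) = - v (n, 1)
    rfl
  · exact gI_gI _
  · rfl

theorem Rj_neg (v : RuVec) : ruRj (-v) = -ruRj v := by
  funext ⟨n, t⟩
  fin_cases t
  · show gI * (- v (n, 1)) = - (gI * v (n, 1))
    ring
  · show gI * (- v (n, 0)) = - (gI * v (n, 0))
    ring
  · rfl
  · rfl

theorem Rk_neg (v : RuVec) : ruRk (-v) = -ruRk v := by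
  funext ⟨n, t⟩
  fin_cases t
  · show gI * (- v (n, 2)) = - (gI * v (n, 2))
    ring
  · rfl
  · show gI * (- v (n, 0)) = - (gI * v (n, 0))
    ring
  · rfl

theorem Rj_add (v w : RuVec) : ruRj (v + w) = ruRj v + ruRj w := by
  funext ⟨n, t⟩
  fin_cases t
  · show gI * (v (n, 1) + w (n, 1)) = gI * v (n, 1) + gI * w (n, 1)
    ring
  · show gI * (v (n, 0) + w (n, 0)) = gI * v (n, 0) + gI * w (n, 0)
    ring
  · rfl
  · show - (v (n, 2) + w (n, 2)) = - v (n, 2) + - w (n, 2)
    ring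

theorem Rk_add (v w : RuVec) : ruRk (v + w) = ruRk v + ruRk w := by
  funext ⟨n, t⟩
  fin_cases t
  · show gI * (v (n, 2) + w (n, 2)) = gI * v (n, 2) + gI * w (n, 2)
    ring
  · show - (v (n, 3) + w (n, 3)) = - v (n, 3) + - w (n, 3)
    ring
  · show gI * (v (n, 0) + w (n, 0)) = gI * v (n, 0) + gI * w (n, 0)
    ring
  · rfl

theorem Rj_i (v : RuVec) : ruRj (gI • v) = gI • ruRj v := by
  funext ⟨n, t⟩
  fin_cases t
  · rfl
  · rfl
  · rfl
  · show - (gI * v (n, 2)) = gI * (- v (n, 2))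
    ring

theorem Rk_i (v : RuVec) : ruRk (gI • v) = gI • ruRk v := by
  funext ⟨n, t⟩
  fin_cases t
  · rfl
  · show - (gI * v (n, 3)) = gI * (- v (n, 3))
    ring
  · rfl
  · rfl

theorem norm_Rj (v : RuVec) : ruNorm (ruRj v) = ruNorm v := by
  unfold ruNorm
  rw [Fintype.sum_prod_type, Fintype.sum_prod_type]
  refine Finset.sum_congr rfl fun n _ => ?_
  rw [Fin.sum_univ_four, Fin.sum_univ_four]
  show (gI * v (n, 1)).norm + (gI * v (n, 0)).norm + (v (n, 3)).norm + (- v (n, 2)).norm = _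
  rw [norm_gI, norm_gI, Zsqrtd.norm_neg]
  ring

theorem norm_Rk (v : RuVec) : ruNorm (ruRk v) = ruNorm v := by
  unfold ruNorm
  rw [Fintype.sum_prod_type, Fintype.sum_prod_type]
  refine Finset.sum_congr rfl fun n _ => ?_
  rw [Fin.sum_univ_four, Fin.sum_univ_four]
  show (gI * v (n, 2)).norm + (- v (n, 3)).norm + (gI * v (n, 0)).norm + (v (n, 1)).norm = _
  rw [norm_gI, norm_gI, Zsqrtd.norm_neg]
  ring

/-- anti-commutation -/
theorem Rk_Rj (v : RuVec) : ruRk (ruRj v) = - ruRj (ruRk v) := by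
  funext ⟨n, t⟩
  fin_cases t
  · show gI * (v (n, 3)) = - (gI * (- v (n, 3)))
    ring
  · show - (- v (n, 2)) = - (gI * (gI * v (n, 2)))
    rw [gI_gI]
  · show gI * (gI * v (n, 1)) = - v (n, 1)
    exact gI_gI _
  · show gI * v (n, 0) = - (- (gI * v (n, 0)))
    ring

/-- right multiplication by `j` -/
def RjE : Equiv.Perm ruLattice where
  toFun v := ⟨ruRj v, mem_Rj v.2⟩
  invFun v := ⟨-ruRj v, neg_mem (mem_Rj v.2)⟩
  left_inv v := Subtype.ext (by
    show -ruRj (ruRj v) = v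
    rw [Rj_Rj, neg_neg])
  right_inv v := Subtype.ext (by
    show ruRj (-ruRj v) = v
    rw [Rj_neg, Rj_Rj, neg_neg])

/-- right multiplication by `k` -/
def RkE : Equiv.Perm ruLattice where
  toFun v := ⟨ruRk v, mem_Rk v.2⟩
  invFun v := ⟨-ruRk v, neg_mem (mem_Rk v.2)⟩
  left_inv v := Subtype.ext (by
    show -ruRk (ruRk v) = v
    rw [Rk_Rk, neg_neg])
  right_inv v := Subtype.ext (by
    show ruRk (-ruRk v) = v
    rw [Rk_neg, Rk_Rk, neg_neg])

theorem RjE_mem : RjE ∈ fourRu :=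
  ⟨fun v w => Subtype.ext (Rj_add _ _), fun v => Subtype.ext (Rj_i _), fun v => norm_Rj _⟩
theorem RkE_mem : RkE ∈ fourRu :=
  ⟨fun v w => Subtype.ext (Rk_add _ _), fun v => Subtype.ext (Rk_i _), fun v => norm_Rk _⟩

/-- `j` -/
def rj : fourRu := ⟨RjE, RjE_mem⟩
/-- `k` -/
def rk : fourRu := ⟨RkE, RkE_mem⟩

theorem comm_val (x : ruLattice) : ((⁅rj, rk⁆ : fourRu).1 x : RuVec) = um 2 (x : RuVec) := by
  show ruRj (ruRk (-ruRj (-ruRk (x : RuVec)))) = gI • gI • (x : RuVec)
  rw [Rj_neg, neg_neg, Rk_Rj, Rj_neg, Rj_Rj, neg_neg, Rk_Rk, gI_smul_gI_smul]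

theorem comm_eq : ⁅rj, rk⁆ = sc ^ 2 := sc_eq_of comm_val

theorem sc2_mem : sc ^ 2 ∈ commutator ↥fourRu := by
  rw [← comm_eq, commutator_def]
  exact Subgroup.commutator_mem_commutator (mem_top _) (mem_top _)

/-! ### The extension -/

theorem finite_four : Finite fourRu := by
  have h1 : Finite phi.ker := by
    rw [ker_eq]
    exact Nat.finite_of_card_ne_zero (by rw [Nat.card_zpowers, order_sc]; norm_num)
  have h2 : Finite (fourRu ⧸ phi.ker) := Finite.of_equiv _ (QuotientGroup.quotientKerEquivRange phi).symm.toEquiv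
  exact Finite.of_equiv _ (Subgroup.groupEquivQuotientProdSubgroup (s := phi.ker)).symm

/-- the action with values in the group -/
noncomputable def phi' : fourRu →* ↥Cfsg.Agent.Lib.RuMain.HH :=
  phi.codRestrict Cfsg.Agent.Lib.RuMain.HH (fun f => by rw [range_eq']; exact ⟨f, rfl⟩)

theorem phi'_surj : Function.Surjective phi' := by
  rintro ⟨y, hy⟩
  rw [range_eq'] at hy
  obtain ⟨f, rfl⟩ := hy
  exact ⟨f, rfl⟩

theorem mem_phi'_ker (f : fourRu) : f ∈ phi'.ker ↔ f ∈ phi.ker := by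
  rw [MonoidHom.mem_ker, MonoidHom.mem_ker]
  exact ⟨fun h => congrArg Subtype.val h, fun h => Subtype.ext h⟩

theorem perfect_HH : commutator ↥Cfsg.Agent.Lib.RuMain.HH = ⊤ := by
  haveI := simple_HH
  have h0 : gH 0 ∈ Cfsg.Agent.Lib.RuMain.HH := Cfsg.Agent.Lib.ProgChain.gen_mem_grp _ (by norm_num) (by norm_num)
  have h1 : gH 1 ∈ Cfsg.Agent.Lib.RuMain.HH := Cfsg.Agent.Lib.ProgChain.gen_mem_grp _ (by norm_num) (by norm_num)
  refine commutator_eq_top_of_simple (MonoidHom.id _) Function.surjective_id (a := ⟨gH 0, h0⟩) (b := ⟨gH 1, h1⟩) ?_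
  intro h
  exact letters_noncomm (congrArg Subtype.val h)

/-- the double cover -/
noncomputable def sig : ↥(commutator ↥fourRu) →* ↥Cfsg.Agent.Lib.RuMain.HH := phi'.comp (commutator ↥fourRu).subtype

theorem sig_stem : IsStemExtension sig :=
  stem_of_central_perfect phi' phi'_surj (by
    intro f hf
    rw [center_eq]
    exact (mem_phi'_ker f).1 hf) perfect_HH

theorem sc2_ker : sc ^ 2 ∈ phi.ker := by
  rw [MonoidHom.mem_ker, map_pow, phi_sc, one_pow]

/-- The double cover is a stem extension with a kernel of order two. -/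
theorem exists_stem : ∃ (Γ : Type) (_ : Group Γ) (_ : Finite Γ) (σ : Γ →* ↥Cfsg.Agent.Lib.RuMain.HH),
    IsStemExtension σ ∧ Nonempty (σ.ker ≃* Multiplicative (ZMod 2)) := by
  haveI := finite_four
  refine ⟨↥(commutator ↥fourRu), inferInstance, inferInstance, sig, sig_stem, ?_⟩
  obtain ⟨w, hw, hall⟩ := Cfsg.Agent.Lib.RuScTop.up sig_stem
  let z : sig.ker := ⟨⟨sc ^ 2, sc2_mem⟩, by
    show phi' (sc ^ 2) = 1
    exact (mem_phi'_ker _).2 sc2_ker⟩
  have hz : z ≠ 1 := by
    intro h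
    exact sc_two (congrArg (fun y : sig.ker => ((y : ↥(commutator ↥fourRu)) : fourRu)) h)
  have hw1 : w ≠ 1 := by
    intro h
    have h3 := hall z
    rw [h, Subgroup.zpowers_one_eq_bot, Subgroup.mem_bot] at h3
    exact hz h3
  have hord : orderOf w = 2 := orderOf_eq_prime hw hw1
  have htop : Subgroup.zpowers w = ⊤ := by
    rw [eq_top_iff]
    intro a _
    exact hall a
  have hcard : Nat.card sig.ker = 2 := by
    rw [← hord, ← Nat.card_zpowers, htop]
    exact (Nat.card_congr (Subgroup.topEquiv).toEquiv).symm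
  haveI : Fact (Nat.Prime 2) := ⟨Nat.prime_two⟩
  have hc2 : Nat.card (Multiplicative (ZMod 2)) = 2 := by
    rw [Nat.card_congr Multiplicative.toAdd]
    simp
  exact ⟨mulEquivOfPrimeCardEq hcard hc2⟩

end Cfsg.Agent.Lib.RuScStem
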