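import Mathlib

/-!
# Isometries of a nondegenerate symmetric form in dimension three

Over an algebraically closed field of characteristic not two, an isometry of finite order prime to the characteristic, other than `± 1`,
stabilizes exactly two isotropic lines.
-/

set_option autoImplicit false
set_option linter.style.haveILetI false
set_option linter.unusedSectionVars false
set_option linter.unusedVariables false

namespace Cfsg.Agent.Lib.WeilB

open Matrix

variable {k : Type*} [Field k]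

/-- The bilinear form of a matrix. -/
def bf (S : Matrix (Fin 3) (Fin 3) k) (a b : Fin 3 → k) : k := a ⬝ᵥ (S *ᵥ b)

variable {S : Matrix (Fin 3) (Fin 3) k}

theorem bf_add_left (a a' b : Fin 3 → k) : bf S (a + a') b = bf S a b + bf S a' b := by
  simp [bf, add_dotProduct]

theorem bf_add_right (a b b' : Fin 3 → k) : bf S a (b + b') = bf S a b + bf S a b' := by
  simp [bf, mulVec_add, dotProduct_add]

theorem bf_sub_left (a a' b : Fin 3 → k) : bf S (a - a') b = bf S a b - bf S a' b := by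
  simp [bf, sub_dotProduct]

theorem bf_sub_right (a b b' : Fin 3 → k) : bf S a (b - b') = bf S a b - bf S a b' := by
  simp [bf, mulVec_sub, dotProduct_sub]

theorem bf_smul_left (c : k) (a b : Fin 3 → k) : bf S (c • a) b = c * bf S a b := by
  simp [bf, smul_dotProduct]

theorem bf_smul_right (c : k) (a b : Fin 3 → k) : bf S a (c • b) = c * bf S a b := by
  simp [bf, mulVec_smul, dotProduct_smul]

theorem bf_zero_left (b : Fin 3 → k) : bf S 0 b = 0 := by
  simp [bf]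

theorem bf_zero_right (a : Fin 3 → k) : bf S a 0 = 0 := by
  simp [bf]

theorem bf_symm (hS : Sᵀ = S) (a b : Fin 3 → k) : bf S a b = bf S b a := by
  unfold bf
  rw [dotProduct_mulVec, ← hS, vecMul_transpose, hS, dotProduct_comm]

theorem bf_isom {A : Matrix (Fin 3) (Fin 3) k} (hA : Aᵀ * S * A = S) (a b : Fin 3 → k) :
    bf S (A *ᵥ a) (A *ᵥ b) = bf S a b := by
  conv_rhs => rw [← hA]
  unfold bf
  have h1 : ∀ w : Fin 3 → k, (A *ᵥ a) ⬝ᵥ w = a ⬝ᵥ (Aᵀ *ᵥ w) := by
    intro w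
    rw [mulVec_transpose, dotProduct_comm, dotProduct_mulVec, dotProduct_comm]
  rw [h1, mulVec_mulVec, mulVec_mulVec, mul_assoc]

theorem bf_nondeg (hdet : S.det ≠ 0) {a : Fin 3 → k} (ha : a ≠ 0) : ∃ b, bf S a b ≠ 0 := by
  by_contra hcon
  push Not at hcon
  apply ha
  apply eq_zero_of_vecMul_eq_zero hdet
  ext i
  have h1 := hcon (Pi.single i 1)
  unfold bf at h1
  rw [dotProduct_mulVec, dotProduct_single, mul_one] at h1
  exact h1


section Main

variable [IsAlgClosed k]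

/-- Columns and the Gram matrix. -/
theorem gram_apply (c : Fin 3 → Fin 3 → k) (i j : Fin 3) :
    ((Matrix.of fun a b => c b a)ᵀ * S * (Matrix.of fun a b => c b a)) i j = bf S (c i) (c j) := by
  rw [Matrix.mul_assoc, Matrix.mul_apply]
  unfold bf dotProduct mulVec
  refine Finset.sum_congr rfl fun l _ => ?_
  simp [Matrix.mul_apply, dotProduct]

theorem fixed_exists (h2 : (2 : k) ≠ 0) (hdet : S.det ≠ 0) {A : Matrix (Fin 3) (Fin 3) k} (hA : Aᵀ * S * A = S)
    (hdA : A.det = 1) : ∃ w : Fin 3 → k, w ≠ 0 ∧ A *ᵥ w = w := by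
  have h1 : (A - 1)ᵀ * S * A = S * (1 - A) := by
    rw [transpose_sub, transpose_one, sub_mul, sub_mul, hA, mul_sub, one_mul, mul_one]
  have h3 := congrArg Matrix.det h1
  rw [det_mul, det_mul, det_transpose, hdA, mul_one, det_mul, mul_comm] at h3
  have h4 : (1 - A) = -(A - 1) := by abel
  rw [h4, det_neg] at h3
  simp only [Fintype.card_fin] at h3
  have h5 : (A - 1).det = 0 := by
    have h6 : S.det * (2 * (A - 1).det) = 0 := by
      linear_combination h3
    rcases mul_eq_zero.1 h6 with h | h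
    · exact absurd h hdet
    · rcases mul_eq_zero.1 h with h | h
      · exact absurd h h2
      · exact h
  obtain ⟨v, hv, hv2⟩ := Matrix.exists_mulVec_eq_zero_iff.2 h5
  refine ⟨v, hv, ?_⟩
  rw [sub_mulVec, one_mulVec, sub_eq_zero] at hv2
  exact hv2

theorem fixed_noniso (h2 : (2 : k) ≠ 0) (hS : Sᵀ = S) (hdet : S.det ≠ 0) {A : Matrix (Fin 3) (Fin 3) k} (hA : Aᵀ * S * A = S)
    {n : ℕ} (hn : A ^ n = 1) (hn0 : (n : k) ≠ 0) {w : Fin 3 → k} (hw : w ≠ 0) (hwA : A *ᵥ w = w) :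
    ∃ w₁ : Fin 3 → k, A *ᵥ w₁ = w₁ ∧ bf S w₁ w₁ ≠ 0 := by
  obtain ⟨a₀, ha₀⟩ := bf_nondeg hdet hw
  have hstep : ∀ b, bf S w (A *ᵥ b) = bf S w b := by
    intro b
    conv_lhs => rw [← hwA]
    exact bf_isom hA w b
  have hpow : ∀ i : ℕ, bf S w ((A ^ i) *ᵥ a₀) = bf S w a₀ := by
    intro i
    induction i with
    | zero => simp
    | succ i ih => rw [pow_succ', ← mulVec_mulVec, hstep, ih]
  let E : ℕ → Matrix (Fin 3) (Fin 3) k := fun m => ∑ i ∈ Finset.range m, A ^ i
  have hsum : ∀ m : ℕ, bf S w (E m *ᵥ a₀) = (m : k) * bf S w a₀ := by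
    intro m
    induction m with
    | zero => simp [E, bf_zero_right]
    | succ m ih =>
      simp only [E, Finset.sum_range_succ]
      rw [add_mulVec, bf_add_right]
      simp only [E] at ih
      rw [ih, hpow]
      push_cast
      ring
  set a' := E n *ᵥ a₀ with ha'
  have hA' : A *ᵥ a' = a' := by
    have h1 : (A - 1) * E n = 0 := by
      simp only [E]
      rw [mul_geom_sum, hn, sub_self]
    have h3 : (A - 1) *ᵥ a' = 0 := by
      rw [ha', mulVec_mulVec, h1, zero_mulVec]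
    rw [sub_mulVec, one_mulVec, sub_eq_zero] at h3
    exact h3
  have hww' : bf S w a' ≠ 0 := by
    rw [ha', hsum]
    exact mul_ne_zero hn0 ha₀
  by_cases h3 : bf S w w = 0
  · by_cases h4 : bf S a' a' = 0
    · refine ⟨w + a', by rw [mulVec_add, hwA, hA'], ?_⟩
      rw [bf_add_left, bf_add_right, bf_add_right, h3, h4, bf_symm hS a' w]
      have : (0 + bf S w a' + (bf S w a' + 0)) = 2 * bf S w a' := by ring
      rw [this]
      exact mul_ne_zero h2 hww'
    · exact ⟨a', hA', h4⟩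
  · exact ⟨w, hwA, h3⟩

/-- An isotropic vector in the orthogonal complement of a non-isotropic vector. -/
theorem exists_iso_perp (h2 : (2 : k) ≠ 0) (hS : Sᵀ = S) (hdet : S.det ≠ 0) {w₁ : Fin 3 → k} (hw₁ : bf S w₁ w₁ ≠ 0) :
    ∃ e₁ : Fin 3 → k, e₁ ≠ 0 ∧ bf S w₁ e₁ = 0 ∧ bf S e₁ e₁ = 0 := by
  classical
  let l : (Fin 3 → k) →ₗ[k] k :=
    { toFun := fun b => bf S w₁ b
      map_add' := fun a b => bf_add_right _ _ _
      map_smul' := fun c a => bf_smul_right _ _ _ }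
  have hr : LinearMap.range l = ⊤ := by
    rw [LinearMap.range_eq_top]
    intro c
    refine ⟨(c / bf S w₁ w₁) • w₁, ?_⟩
    show bf S w₁ _ = c
    rw [bf_smul_right]
    field_simp
  have hk : Module.finrank k (LinearMap.ker l) = 2 := by
    have h1 := LinearMap.finrank_range_add_finrank_ker l
    rw [hr, finrank_top, Module.finrank_self, Module.finrank_fin_fun] at h1
    omega
  let b := Module.finBasisOfFinrankEq k (LinearMap.ker l) hk
  let f₁ : Fin 3 → k := (b 0 : LinearMap.ker l)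
  let f₂ : Fin 3 → k := (b 1 : LinearMap.ker l)
  have hf₁ : bf S w₁ f₁ = 0 := (b 0).2
  have hf₂ : bf S w₁ f₂ = 0 := (b 1).2
  have hind : ∀ a c : k, a • f₁ + c • f₂ = 0 → a = 0 ∧ c = 0 := by
    intro a c h
    have h1 := b.linearIndependent
    rw [Fintype.linearIndependent_iff] at h1
    have h3 := h1 ![a, c] (by
      apply Subtype.ext
      simp only [Fin.sum_univ_two, Matrix.cons_val_zero, Matrix.cons_val_one]
      simpa using h)
    exact ⟨by simpa using h3 0, by simpa using h3 1⟩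
  by_cases hα : bf S f₁ f₁ = 0
  · refine ⟨f₁, ?_, hf₁, hα⟩
    intro h
    have := hind 1 0 (by simp [h])
    simp at this
  · obtain ⟨z, hz⟩ := IsAlgClosed.exists_pow_nat_eq (bf S f₁ f₂ ^ 2 - bf S f₁ f₁ * bf S f₂ f₂) (n := 2) (by norm_num)
    set α := bf S f₁ f₁ with hαdef
    set β := bf S f₁ f₂ with hβ
    set γ := bf S f₂ f₂ with hγ
    set t := (-β + z) / α with ht
    have hαt : α * t = -β + z := by
      rw [ht]
      field_simp
    refine ⟨t • f₁ + f₂, ?_, ?_, ?_⟩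
    · intro h
      have := hind t 1 (by simpa using h)
      simp at this
    · rw [bf_add_right, bf_smul_right, hf₁, hf₂]
      ring
    · rw [bf_add_left, bf_add_right, bf_add_right, bf_smul_left, bf_smul_left, bf_smul_right, bf_smul_right, bf_symm hS f₂ f₁,
        ← hαdef, ← hβ, ← hγ]
      have h5 : α * (t * (t * α) + t * β + (t * β + γ)) = 0 := by
        have h6 : α * (t * (t * α) + t * β + (t * β + γ)) = (α * t) ^ 2 + 2 * β * (α * t) + α * γ := by ring
        rw [h6, hαt]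
        linear_combination hz
      rcases mul_eq_zero.1 h5 with h | h
      · exact absurd h hα
      · exact h

/-- **Isometries of determinant one.** -/
theorem two_lines_SO (h2 : (2 : k) ≠ 0) (hS : Sᵀ = S) (hdet : S.det ≠ 0) {A : Matrix (Fin 3) (Fin 3) k} (hA : Aᵀ * S * A = S)
    (hdA : A.det = 1) {n : ℕ} (hn : A ^ n = 1) (hn0 : (n : k) ≠ 0) (h1 : A ≠ 1) :
    ∃ e₁ e₂ : Fin 3 → k, e₁ ≠ 0 ∧ e₂ ≠ 0 ∧ bf S e₁ e₁ = 0 ∧ bf S e₂ e₂ = 0 ∧ bf S e₁ e₂ = 1 ∧
      (∃ r : k, A *ᵥ e₁ = r • e₁) ∧ (∃ r : k, A *ᵥ e₂ = r • e₂) ∧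
      ∀ v : Fin 3 → k, v ≠ 0 → bf S v v = 0 → (∃ μ : k, A *ᵥ v = μ • v) → (∃ c : k, v = c • e₁) ∨ (∃ c : k, v = c • e₂) := by
  obtain ⟨w, hw, hwA⟩ := fixed_exists h2 hdet hA hdA
  obtain ⟨w₁, hw₁A, hw₁⟩ := fixed_noniso h2 hS hdet hA hn hn0 hw hwA
  obtain ⟨e₁, he₁0, he₁w, he₁⟩ := exists_iso_perp h2 hS hdet hw₁
  set a₀₀ := bf S w₁ w₁ with ha₀₀
  -- the second vector
  obtain ⟨a₀, ha₀⟩ := bf_nondeg hdet he₁0
  obtain ⟨a₁, ha₁w, ha₁e⟩ : ∃ a₁, bf S w₁ a₁ = 0 ∧ bf S e₁ a₁ ≠ 0 := by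
    refine ⟨a₀ - (bf S w₁ a₀ / a₀₀) • w₁, ?_, ?_⟩
    · rw [bf_sub_right, bf_smul_right, ← ha₀₀]
      field_simp
      ring
    · have he₁w' : bf S e₁ w₁ = 0 := by rw [bf_symm hS, he₁w]
      rw [bf_sub_right, bf_smul_right, he₁w', mul_zero, sub_zero]
      exact ha₀
  have he₁w' : bf S e₁ w₁ = 0 := by rw [bf_symm hS, he₁w]
  obtain ⟨e₂', he₂'w, he₂'e⟩ : ∃ e₂', bf S w₁ e₂' = 0 ∧ bf S e₁ e₂' = 1 := by
    refine ⟨(bf S e₁ a₁)⁻¹ • a₁, ?_, ?_⟩
    · rw [bf_smul_right, ha₁w, mul_zero]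
    · rw [bf_smul_right]
      exact inv_mul_cancel₀ ha₁e
  obtain ⟨e₂, he₂w, he₂e, he₂i⟩ : ∃ e₂, bf S w₁ e₂ = 0 ∧ bf S e₁ e₂ = 1 ∧ bf S e₂ e₂ = 0 := by
    have hc₀ : (bf S e₂' e₂' / 2) * 2 = bf S e₂' e₂' := by
      field_simp
    generalize (bf S e₂' e₂' / 2) = c₀ at hc₀
    refine ⟨e₂' - c₀ • e₁, ?_, ?_, ?_⟩
    · rw [bf_sub_right, bf_smul_right, he₂'w, he₁w]
      ring
    · rw [bf_sub_right, bf_smul_right, he₂'e, he₁]
      ring
    · simp only [bf_sub_left, bf_sub_right, bf_smul_left, bf_smul_right, he₁, bf_symm hS e₂' e₁, he₂'e]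
      linear_combination - hc₀
  have he₂w' : bf S e₂ w₁ = 0 := by rw [bf_symm hS, he₂w]
  have he₂e' : bf S e₂ e₁ = 1 := by rw [bf_symm hS, he₂e]
  have he₂0 : e₂ ≠ 0 := by
    intro h
    rw [h, bf_zero_right] at he₂e
    exact zero_ne_one he₂e
  -- the basis
  let c : Fin 3 → Fin 3 → k := ![w₁, e₁, e₂]
  let P : Matrix (Fin 3) (Fin 3) k := Matrix.of fun a b => c b a
  have hG : Pᵀ * S * P = !![a₀₀, 0, 0; 0, 0, 1; 0, 1, 0] := by
    ext i j
    rw [gram_apply c i j]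
    fin_cases i <;> fin_cases j <;> simp [c, he₁w, he₂w, he₁w', he₂w', he₁, he₂i, he₂e, he₂e', ← ha₀₀]
  have hdetP : P.det ≠ 0 := by
    intro h
    have h3 := congrArg Matrix.det hG
    rw [det_mul, det_mul, det_transpose, h, zero_mul, zero_mul, Matrix.det_fin_three] at h3
    simp at h3
    exact hw₁ h3
  have hort : ∀ d : Fin 3 → k, bf S w₁ d = 0 → bf S e₁ d = 0 → bf S e₂ d = 0 → d = 0 := by
    intro d h3 h4 h5
    have h6 : (Pᵀ * S).det ≠ 0 := by
      rw [det_mul, det_transpose]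
      exact mul_ne_zero hdetP hdet
    apply eq_zero_of_mulVec_eq_zero h6
    ext i
    have h7 : ((Pᵀ * S) *ᵥ d) i = bf S (c i) d := by
      rw [← mulVec_mulVec]
      simp [mulVec, bf, dotProduct, P, c, Matrix.transpose_apply, Matrix.of_apply]
    rw [h7]
    fin_cases i
    · simpa [c] using h3
    · simpa [c] using h4
    · simpa [c] using h5
  have hexp : ∀ a : Fin 3 → k, a = (bf S w₁ a / a₀₀) • w₁ + (bf S e₂ a) • e₁ + (bf S e₁ a) • e₂ := by
    intro a
    have h3 : a - ((bf S w₁ a / a₀₀) • w₁ + (bf S e₂ a) • e₁ + (bf S e₁ a) • e₂) = 0 := by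
      apply hort
      · simp only [bf_sub_right, bf_add_right, bf_smul_right, ← ha₀₀, he₁w, he₂w]
        field_simp
        ring
      · simp only [bf_sub_right, bf_add_right, bf_smul_right, he₁w', he₁, he₂e]
        ring
      · simp only [bf_sub_right, bf_add_right, bf_smul_right, he₂w', he₂e', he₂i]
        ring
    exact sub_eq_zero.1 h3
  -- the action
  have hlA : ∀ a, bf S w₁ (A *ᵥ a) = bf S w₁ a := by
    intro a
    conv_lhs => rw [← hw₁A]
    exact bf_isom hA _ _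
  set r := bf S e₂ (A *ᵥ e₁) with hr
  set s := bf S e₁ (A *ᵥ e₁) with hs
  set r' := bf S e₂ (A *ᵥ e₂) with hr'
  set s' := bf S e₁ (A *ᵥ e₂) with hs'
  have hAe₁ : A *ᵥ e₁ = r • e₁ + s • e₂ := by
    conv_lhs => rw [hexp (A *ᵥ e₁)]
    rw [hlA, he₁w, zero_div, zero_smul, zero_add]
  have hAe₂ : A *ᵥ e₂ = r' • e₁ + s' • e₂ := by
    conv_lhs => rw [hexp (A *ᵥ e₂)]
    rw [hlA, he₂w, zero_div, zero_smul, zero_add]
  have hrs : r * s = 0 := by
    have h3 := bf_isom hA e₁ e₁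
    rw [hAe₁, he₁] at h3
    simp only [bf_add_left, bf_add_right, bf_smul_left, bf_smul_right, he₁, he₂i, he₂e, he₂e'] at h3
    have h4 : 2 * (r * s) = 0 := by linear_combination h3
    exact (mul_eq_zero.1 h4).resolve_left h2
  have hrs' : r' * s' = 0 := by
    have h3 := bf_isom hA e₂ e₂
    rw [hAe₂, he₂i] at h3
    simp only [bf_add_left, bf_add_right, bf_smul_left, bf_smul_right, he₁, he₂i, he₂e, he₂e'] at h3
    have h4 : 2 * (r' * s') = 0 := by linear_combination h3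
    exact (mul_eq_zero.1 h4).resolve_left h2
  have hcross : r * s' + s * r' = 1 := by
    have h3 := bf_isom hA e₁ e₂
    rw [hAe₁, hAe₂, he₂e] at h3
    simp only [bf_add_left, bf_add_right, bf_smul_left, bf_smul_right, he₁, he₂i, he₂e, he₂e'] at h3
    linear_combination h3
  have hcol : ∀ i j, (A * P) i j = (A *ᵥ (c j)) i := by
    intro i j
    simp [Matrix.mul_apply, mulVec, dotProduct, P]
  have hAP : A * P = P * !![1, 0, 0; 0, r, r'; 0, s, s'] := by
    ext i j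
    rw [hcol]
    fin_cases j
    · show (A *ᵥ w₁) i = _
      rw [hw₁A]
      simp [Matrix.mul_apply, Fin.sum_univ_three, P, c]
    · show (A *ᵥ e₁) i = _
      rw [hAe₁]
      simp [Matrix.mul_apply, Fin.sum_univ_three, P, c]
      ring
    · show (A *ᵥ e₂) i = _
      rw [hAe₂]
      simp [Matrix.mul_apply, Fin.sum_univ_three, P, c]
      ring
  have hdetD : r * s' - s * r' = 1 := by
    have h3 := congrArg Matrix.det hAP
    have hD : (!![1, 0, 0; 0, r, r'; 0, s, s'] : Matrix (Fin 3) (Fin 3) k).det = r * s' - s * r' := by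
      rw [Matrix.det_fin_three]
      simp
      ring
    rw [det_mul, det_mul, hdA, one_mul, hD] at h3
    have h4 : P.det * (r * s' - s * r' - 1) = 0 := by linear_combination - h3
    have h5 := (mul_eq_zero.1 h4).resolve_left hdetP
    linear_combination h5
  have hrs1 : r * s' = 1 := by
    have h3 : 2 * (r * s') = 2 := by linear_combination hcross + hdetD
    exact mul_left_cancel₀ h2 (by rw [h3, mul_one])
  have hr0 : r ≠ 0 := left_ne_zero_of_mul_eq_one hrs1
  have hs'0 : s' ≠ 0 := right_ne_zero_of_mul_eq_one hrs1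
  have hs0 : s = 0 := (mul_eq_zero.1 hrs).resolve_left hr0
  have hr'0 : r' = 0 := (mul_eq_zero.1 hrs').resolve_right hs'0
  rw [hs0, zero_smul, add_zero] at hAe₁
  rw [hr'0, zero_smul, zero_add] at hAe₂
  have hr1 : r ≠ 1 := by
    intro h
    have hs1 : s' = 1 := by rw [h, one_mul] at hrs1; exact hrs1
    apply h1
    have h3 : A * P = P := by
      ext i j
      rw [hcol]
      fin_cases j
      · show (A *ᵥ w₁) i = _
        rw [hw₁A]
        simp [P, c]
      · show (A *ᵥ e₁) i = _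
        rw [hAe₁, h, one_smul]
        simp [P, c]
      · show (A *ᵥ e₂) i = _
        rw [hAe₂, hs1, one_smul]
        simp [P, c]
    have hu : IsUnit P := (Matrix.isUnit_iff_isUnit_det P).2 (isUnit_iff_ne_zero.2 hdetP)
    apply hu.mul_left_injective
    show A * P = 1 * P
    rw [h3, one_mul]
  have hs'1 : s' ≠ 1 := by
    intro h
    rw [h, mul_one] at hrs1
    exact hr1 hrs1
  refine ⟨e₁, e₂, he₁0, he₂0, he₁, he₂i, he₂e, ⟨r, hAe₁⟩, ⟨s', hAe₂⟩, ?_⟩
  rintro v hv0 hvi ⟨μ, hμ⟩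
  have hv := hexp v
  set α := bf S w₁ v / a₀₀ with hα
  set β := bf S e₂ v with hβ
  set γ := bf S e₁ v with hγ
  have hAv : A *ᵥ v = α • w₁ + (β * r) • e₁ + (γ * s') • e₂ := by
    conv_lhs => rw [hv]
    rw [mulVec_add, mulVec_add, mulVec_smul, mulVec_smul, mulVec_smul, hw₁A, hAe₁, hAe₂, smul_smul, smul_smul]
  have hμv : α • w₁ + (β * r) • e₁ + (γ * s') • e₂ = μ • (α • w₁ + β • e₁ + γ • e₂) := by
    rw [← hAv, hμ, ← hv]
  have hc1 : α * a₀₀ = μ * (α * a₀₀) := by
    have h3 := congrArg (bf S w₁) hμv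
    simpa only [bf_add_right, bf_smul_right, ← ha₀₀, he₁w, he₂w, mul_zero, add_zero] using h3
  have hc2 : β * r = μ * β := by
    have h3 := congrArg (bf S e₂) hμv
    simp only [bf_add_right, bf_smul_right, he₂w', he₂e', he₂i, mul_zero, add_zero, zero_add, mul_one] at h3
    exact h3
  have hc3 : γ * s' = μ * γ := by
    have h3 := congrArg (bf S e₁) hμv
    simp only [bf_add_right, bf_smul_right, he₁w', he₁, he₂e, mul_zero, add_zero, zero_add, mul_one] at h3
    exact h3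
  have hiso : α * α * a₀₀ + 2 * (β * γ) = 0 := by
    rw [hv] at hvi
    simp only [bf_add_left, bf_add_right, bf_smul_left, bf_smul_right, ← ha₀₀, he₁w, he₂w, he₁w', he₂w', he₁, he₂i, he₂e, he₂e'] at hvi
    linear_combination hvi
  by_cases hα0 : α = 0
  · rw [hα0] at hiso
    have h3 : β * γ = 0 := by
      have h4 : 2 * (β * γ) = 0 := by linear_combination hiso
      exact (mul_eq_zero.1 h4).resolve_left h2
    rcases mul_eq_zero.1 h3 with h | h
    · right
      refine ⟨γ, ?_⟩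
      conv_lhs => rw [hv, hα0, h]
      simp
    · left
      refine ⟨β, ?_⟩
      conv_lhs => rw [hv, hα0, h]
      simp
  · exfalso
    have hμ1 : μ = 1 := by
      have h3 : α * a₀₀ ≠ 0 := mul_ne_zero hα0 hw₁
      apply mul_right_cancel₀ h3
      rw [one_mul]
      exact hc1.symm
    rw [hμ1, one_mul] at hc2 hc3
    have hβ0 : β = 0 := by
      have h3 : β * (r - 1) = 0 := by linear_combination hc2
      exact (mul_eq_zero.1 h3).resolve_right (sub_ne_zero.2 hr1)
    have hγ0 : γ = 0 := by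
      have h3 : γ * (s' - 1) = 0 := by linear_combination hc3
      exact (mul_eq_zero.1 h3).resolve_right (sub_ne_zero.2 hs'1)
    rw [hβ0, zero_mul, mul_zero, add_zero] at hiso
    exact mul_ne_zero (mul_ne_zero hα0 hα0) hw₁ hiso

/-- **Isometries.** -/
theorem two_lines (h2 : (2 : k) ≠ 0) (hS : Sᵀ = S) (hdet : S.det ≠ 0) {A : Matrix (Fin 3) (Fin 3) k} (hA : Aᵀ * S * A = S)
    {n : ℕ} (hn : A ^ n = 1) (hn0 : (n : k) ≠ 0) (h1 : A ≠ 1) (hm1 : A ≠ -1) :
    ∃ e₁ e₂ : Fin 3 → k, e₁ ≠ 0 ∧ e₂ ≠ 0 ∧ bf S e₁ e₁ = 0 ∧ bf S e₂ e₂ = 0 ∧ bf S e₁ e₂ = 1 ∧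
      (∃ r : k, A *ᵥ e₁ = r • e₁) ∧ (∃ r : k, A *ᵥ e₂ = r • e₂) ∧
      ∀ v : Fin 3 → k, v ≠ 0 → bf S v v = 0 → (∃ μ : k, A *ᵥ v = μ • v) → (∃ c : k, v = c • e₁) ∨ (∃ c : k, v = c • e₂) := by
  set δ := A.det with hδ
  have hδ2 : δ * δ = 1 := by
    have h3 := congrArg Matrix.det hA
    rw [det_mul, det_mul, det_transpose] at h3
    have h4 : S.det * (δ * δ - 1) = 0 := by linear_combination h3
    have h5 := (mul_eq_zero.1 h4).resolve_left hdet
    linear_combination h5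
  have hδ0 : δ ≠ 0 := left_ne_zero_of_mul_eq_one hδ2
  have hδ1 : δ = 1 ∨ δ = -1 := by
    have h3 : (δ - 1) * (δ + 1) = 0 := by linear_combination hδ2
    rcases mul_eq_zero.1 h3 with h | h
    · exact Or.inl (sub_eq_zero.1 h)
    · exact Or.inr (eq_neg_of_add_eq_zero_left h)
  have hA' : (δ • A)ᵀ * S * (δ • A) = S := by
    rw [transpose_smul, Matrix.smul_mul, Matrix.mul_smul, Matrix.smul_mul, smul_smul, hδ2, one_smul, hA]
  have hdA' : (δ • A).det = 1 := by
    rw [det_smul]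
    simp only [Fintype.card_fin]
    rw [← hδ]
    linear_combination (δ * δ + 1) * hδ2
  have hn' : (δ • A) ^ (2 * n) = 1 := by
    rw [smul_pow, pow_mul δ 2 n, pow_two δ, hδ2, one_pow, one_smul, pow_mul' A 2 n, hn, one_pow]
  have hn0' : ((2 * n : ℕ) : k) ≠ 0 := by
    push_cast
    exact mul_ne_zero h2 hn0
  have h1' : δ • A ≠ 1 := by
    intro h
    rcases hδ1 with h3 | h3
    · rw [h3, one_smul] at h
      exact h1 h
    · rw [h3, neg_smul, one_smul] at h
      apply hm1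
      rw [← h, neg_neg]
  obtain ⟨e₁, e₂, h3, h4, h5, h6, h7, ⟨r, hr⟩, ⟨s, hs⟩, h10⟩ := two_lines_SO h2 hS hdet hA' hdA' hn' hn0' h1'
  have hback : ∀ (v : Fin 3 → k) (r : k), (δ • A) *ᵥ v = r • v → A *ᵥ v = (δ * r) • v := by
    intro v r h
    rw [smul_mulVec] at h
    have h8 : δ • δ • A *ᵥ v = δ • r • v := by rw [h]
    rw [smul_smul, hδ2, one_smul, smul_smul] at h8
    exact h8
  refine ⟨e₁, e₂, h3, h4, h5, h6, h7, ⟨_, hback _ _ hr⟩, ⟨_, hback _ _ hs⟩, ?_⟩
  rintro v hv hvi ⟨μ, hμ⟩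
  refine h10 v hv hvi ⟨δ * μ, ?_⟩
  rw [smul_mulVec, hμ, smul_smul]

end Main

end Cfsg.Agent.Lib.WeilB
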