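import Mathlib
import Cfsg.Agent.Lib.BTate
import Cfsg.Agent.Lib.WeilB

/-!
# The invariant form

A three-dimensional representation `τ` in characteristic `p ≥ 5` of a group `H`, with `x` of order `p` generating a Sylow subgroup and acting by the
standard unipotent matrix, with weights on the last basis vector determined by the action on `x`.  There is a nondegenerate
`H`-invariant symmetric form for which the last basis vector is isotropic.
-/

set_option autoImplicit false
set_option linter.style.haveILetI false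
set_option linter.unusedSectionVars false
set_option linter.unusedVariables false

namespace Cfsg.Agent.Lib.WeilC

open Matrix Subgroup Cfsg.Agent.Lib.WeilB Cfsg.Agent.Lib.BTate Cfsg.Agent.Lib.RangeMod

variable {k : Type*} [Field k]

/-- The standard unipotent matrix. -/
noncomputable def MM (k : Type*) [Field k] : Matrix (Fin 3) (Fin 3) k := !![1, 0, 0; 1, 1, 0; 2⁻¹, 1, 1]

/-- The seed form. -/
def JJ (k : Type*) [Field k] : Matrix (Fin 3) (Fin 3) k := !![0, 0, 1; 0, -1, 0; 1, 0, 0]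

/-- The last basis vector. -/
def e3 (k : Type*) [Field k] : Fin 3 → k := ![0, 0, 1]

/-- The first basis vector. -/
def e1 (k : Type*) [Field k] : Fin 3 → k := ![1, 0, 0]

/-- The second basis vector. -/
def e2 (k : Type*) [Field k] : Fin 3 → k := ![0, 1, 0]

theorem JJ_transpose : (JJ k)ᵀ = JJ k := by
  ext i j
  fin_cases i <;> fin_cases j <;> simp [JJ]

theorem MM_J (h2 : (2 : k) ≠ 0) : (MM k)ᵀ * JJ k * MM k = JJ k := by
  ext i j
  fin_cases i <;> fin_cases j <;>
    simp [MM, JJ, Matrix.mul_apply, Fin.sum_univ_three] <;> field_simp <;> ring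

theorem MM_pow (h2 : (2 : k) ≠ 0) (j : ℕ) :
    MM k ^ j = !![1, 0, 0; (j : k), 1, 0; (j : k) * j / 2, (j : k), 1] := by
  induction j with
  | zero =>
    ext i l
    fin_cases i <;> fin_cases l <;> simp
  | succ j ih =>
    rw [pow_succ, ih]
    ext i l
    fin_cases i <;> fin_cases l <;>
      simp [MM, Matrix.mul_apply, Fin.sum_univ_three] <;> field_simp <;> ring

theorem MM_pow_J (h2 : (2 : k) ≠ 0) (j : ℕ) : (MM k ^ j)ᵀ * JJ k * MM k ^ j = JJ k := by
  induction j with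
  | zero => simp
  | succ j ih =>
    rw [pow_succ, transpose_mul]
    calc (MM k)ᵀ * (MM k ^ j)ᵀ * JJ k * (MM k ^ j * MM k) = (MM k)ᵀ * ((MM k ^ j)ᵀ * JJ k * MM k ^ j) * MM k := by
          simp only [Matrix.mul_assoc]
      _ = _ := by rw [ih, MM_J h2]

theorem MM_pow_e1 (h2 : (2 : k) ≠ 0) (j : ℕ) :
    MM k ^ j *ᵥ e1 k = e1 k + (j : k) • e2 k + ((j : k) * j / 2) • e3 k := by
  rw [MM_pow h2]
  ext i
  fin_cases i <;> simp [mulVec, dotProduct, Fin.sum_univ_three, e1, e2, e3]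

theorem MM_e3 : MM k *ᵥ e3 k = e3 k := by
  ext i
  fin_cases i <;> simp [MM, mulVec, dotProduct, Fin.sum_univ_three, e3]

theorem MM_pow_e3 (i : ℕ) : MM k ^ i *ᵥ e3 k = e3 k := by
  induction i with
  | zero => simp
  | succ i ih => rw [pow_succ, ← mulVec_mulVec, MM_e3, ih]

theorem MM_e2 : MM k *ᵥ e2 k = e2 k + e3 k := by
  ext i
  fin_cases i <;> simp [MM, mulVec, dotProduct, Fin.sum_univ_three, e3, e2]

theorem struct_of_comm (h2 : (2 : k) ≠ 0) {A : Matrix (Fin 3) (Fin 3) k} {j : ℕ} (h : A * MM k = MM k ^ j * A) :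
    A 0 1 = 0 ∧ A 0 2 = 0 ∧ A 1 2 = 0 ∧ A 1 1 = (j : k) * A 0 0 ∧ A 2 2 = (j : k) * A 1 1 := by
  rw [MM_pow h2] at h
  have h0 := fun r s => congrFun (congrFun h r) s
  have h02 := h0 0 1
  have h01 := h0 0 0
  have h12 := h0 1 1
  have h11 := h0 1 0
  have h21 := h0 2 1
  simp [MM, Matrix.mul_apply, Fin.sum_univ_three] at h02 h01 h12 h11 h21
  have a1 : A 0 2 = 0 := by linear_combination h02
  have a2 : A 0 1 = 0 := by
    rw [a1] at h01
    linear_combination h01
  have a3 : A 1 2 = 0 := by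
    rw [a2] at h12
    linear_combination h12
  refine ⟨a2, a1, a3, ?_, ?_⟩
  · rw [a3] at h11
    linear_combination h11
  · rw [a2] at h21
    linear_combination h21


section Form

variable {H : Type*} [Group H] [Fintype H] [DecidableEq H] {p : ℕ} [hp : Fact p.Prime] [CharP k p]

/-- The translate of the seed form. -/
noncomputable def psi (τ : H →* Matrix (Fin 3) (Fin 3) k) (g : H) : Matrix (Fin 3) (Fin 3) k :=
  (τ g⁻¹)ᵀ * JJ k * τ g⁻¹

theorem bf_congr (A S : Matrix (Fin 3) (Fin 3) k) (a b : Fin 3 → k) : bf (Aᵀ * S * A) a b = bf S (A *ᵥ a) (A *ᵥ b) := by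
  unfold bf
  rw [← mulVec_mulVec, ← mulVec_mulVec]
  have h1 : ∀ w : Fin 3 → k, (A *ᵥ a) ⬝ᵥ w = a ⬝ᵥ (Aᵀ *ᵥ w) := by
    intro w
    rw [mulVec_transpose, dotProduct_comm, dotProduct_mulVec, dotProduct_comm]
  rw [h1]

theorem bf_sum_left {ι : Type*} (s : Finset ι) (T : ι → Matrix (Fin 3) (Fin 3) k) (a b : Fin 3 → k) :
    bf (∑ i ∈ s, T i) a b = ∑ i ∈ s, bf (T i) a b := by
  classical
  induction s using Finset.induction_on with
  | empty => simp [bf]
  | insert i s hi ih =>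
    rw [Finset.sum_insert hi, Finset.sum_insert hi, ← ih]
    simp [bf, add_mulVec, dotProduct_add]

variable {τ : H →* Matrix (Fin 3) (Fin 3) k} {x : H}

theorem psi_mul (h2 : (2 : k) ≠ 0) (hτ : τ x = MM k) (g : H) {u : H} (hu : u ∈ zpowers x) : psi τ (g * u) = psi τ g := by
  have hfin : IsOfFinOrder x := isOfFinOrder_of_finite x
  have hu' : u⁻¹ ∈ zpowers x := Subgroup.inv_mem _ hu
  obtain ⟨i, hi⟩ := hfin.mem_powers_iff_mem_zpowers.2 hu'
  simp only at hi
  have h1 : (τ u⁻¹)ᵀ * JJ k * τ u⁻¹ = JJ k := by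
    rw [← hi, map_pow, hτ]
    exact MM_pow_J h2 i
  unfold psi
  rw [_root_.mul_inv_rev, map_mul, transpose_mul]
  calc (τ g⁻¹)ᵀ * (τ u⁻¹)ᵀ * JJ k * (τ u⁻¹ * τ g⁻¹) = (τ g⁻¹)ᵀ * ((τ u⁻¹)ᵀ * JJ k * τ u⁻¹) * τ g⁻¹ := by
        simp only [Matrix.mul_assoc]
    _ = _ := by rw [h1]

theorem psi_out (h2 : (2 : k) ≠ 0) (hτ : τ x = MM k) (g : H) : psi τ ((g : H ⧸ zpowers x)).out = psi τ g := by
  have h : ((g : H ⧸ zpowers x)).out⁻¹ * g ∈ zpowers x := by
    rw [← QuotientGroup.eq]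
    exact QuotientGroup.out_eq' _
  have h3 := psi_mul h2 hτ ((g : H ⧸ zpowers x)).out h
  rw [mul_inv_cancel_left] at h3
  exact h3.symm

/-- The form. -/
noncomputable def SS (τ : H →* Matrix (Fin 3) (Fin 3) k) (x : H) [Fintype (H ⧸ zpowers x)] : Matrix (Fin 3) (Fin 3) k :=
  ∑ q : H ⧸ zpowers x, psi τ q.out

variable [Fintype (H ⧸ zpowers x)]

theorem SS_transpose : (SS τ x)ᵀ = SS τ x := by
  unfold SS
  rw [transpose_sum]
  refine Finset.sum_congr rfl fun q _ => ?_
  unfold psi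
  rw [transpose_mul, transpose_mul, transpose_transpose, JJ_transpose, Matrix.mul_assoc]

theorem SS_inv (h2 : (2 : k) ≠ 0) (hτ : τ x = MM k) (h : H) : (τ h)ᵀ * SS τ x * τ h = SS τ x := by
  unfold SS
  rw [Finset.mul_sum, Finset.sum_mul]
  have h1 : ∀ g : H, (τ h)ᵀ * psi τ g * τ h = psi τ (h⁻¹ * g) := by
    intro g
    unfold psi
    rw [_root_.mul_inv_rev, inv_inv, map_mul, transpose_mul]
    simp only [Matrix.mul_assoc]
  have h3 : ∀ q : H ⧸ zpowers x, (τ h)ᵀ * psi τ q.out * τ h = psi τ ((h⁻¹ • q).out) := by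
    intro q
    rw [h1, ← psi_out h2 hτ (h⁻¹ * q.out)]
    congr 3
    conv_rhs => rw [← QuotientGroup.out_eq' q]
    rfl
  simp_rw [h3]
  exact Equiv.sum_comp (MulAction.toPerm h⁻¹) (fun q : H ⧸ zpowers x => psi τ q.out)


theorem entry_two (h5 : 5 ≤ p) (hx : orderOf x = p) (hidx : ¬ p ∣ (zpowers x).index) (hτ : τ x = MM k)
    (hw : ∀ (n : H) (j : ℕ), n * x * n⁻¹ = x ^ j → τ n *ᵥ e3 k = (j : k) • e3 k) :
    bf (SS τ x) (e3 k) (e1 k) = ((Finset.univ.filter fun q : H ⧸ zpowers x => x • q = q).card : k) := by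
  classical
  have h2 : (2 : k) ≠ 0 := by
    intro h
    have h3 : ((2 : ℕ) : k) = 0 := by exact_mod_cast h
    rw [CharP.cast_eq_zero_iff k p] at h3
    have := Nat.le_of_dvd (by norm_num) h3
    omega
  have hxp : x ^ p = 1 := by rw [← hx, pow_orderOf_eq_one]
  have hx1 : x ≠ 1 := by
    rintro rfl
    rw [orderOf_one] at hx
    omega
  have hfin : IsOfFinOrder x := isOfFinOrder_of_finite x
  letI : Fintype (zpowers x) := Fintype.ofFinite _
  unfold SS
  rw [bf_sum_left, ← Finset.sum_filter_add_sum_filter_not Finset.univ (fun q : H ⧸ zpowers x => x • q = q)]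
  have hpart1 : ∀ q ∈ Finset.univ.filter (fun q : H ⧸ zpowers x => x • q = q), bf (psi τ q.out) (e3 k) (e1 k) = 1 := by
    intro q hq
    have hg : q.out⁻¹ ∈ normalizer (zpowers x : Set H) :=
      Subgroup.inv_mem _ (out_mem_normalizer hx (Finset.mem_filter.1 hq).2)
    set n := q.out⁻¹ with hn
    unfold psi
    rw [bf_congr, ← hn]
    have h3 : n * x * n⁻¹ ∈ zpowers x := (mem_normalizer_iff.1 hg x).1 (mem_zpowers x)
    obtain ⟨j, hj⟩ := hfin.mem_powers_iff_mem_zpowers.2 h3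
    simp only at hj
    have hA : τ n * MM k = MM k ^ j * τ n := by
      rw [← hτ, ← map_mul, ← map_pow, ← map_mul, hj]
      congr 1
      group
    obtain ⟨a1, a2, a3, a4, a5⟩ := struct_of_comm h2 hA
    have hw' := hw n j hj.symm
    have h6 : τ n 2 2 = (j : k) := by
      have := congrFun hw' 2
      simpa [mulVec, dotProduct, Fin.sum_univ_three, e3] using this
    have hj0 : (j : k) ≠ 0 := by
      intro h
      rw [CharP.cast_eq_zero_iff k p] at h
      obtain ⟨l, rfl⟩ := h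
      rw [pow_mul, hxp, one_pow] at hj
      apply hx1
      have : x = n⁻¹ * (n * x * n⁻¹) * n := by group
      rw [this, ← hj]
      simp
    have h7 : (j : k) * τ n 0 0 = 1 := by
      apply mul_left_cancel₀ hj0
      have h9 : (j : k) = j * (j * τ n 0 0) := by rw [← a4, ← a5, h6]
      linear_combination - h9
    rw [hw', bf_smul_left]
    have h8 : bf (JJ k) (e3 k) (τ n *ᵥ e1 k) = τ n 0 0 := by
      simp [bf, JJ, e3, e1, mulVec, dotProduct, Fin.sum_univ_three]
    rw [h8, h7]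
  rw [Finset.sum_congr rfl hpart1, Finset.sum_const, nsmul_eq_mul, mul_one]
  have hpart2 : ∑ q ∈ Finset.univ.filter (fun q : H ⧸ zpowers x => ¬ x • q = q), bf (psi τ q.out) (e3 k) (e1 k) = 0 := by
    refine sum_eq_zero_of_orbit (H := zpowers x) (fun q : H ⧸ zpowers x => bf (psi τ q.out) (e3 k) (e1 k)) _ ?_ ?_ ?_
    · intro q hq u
      rw [Finset.mem_filter] at hq ⊢
      refine ⟨Finset.mem_univ _, fun h => hq.2 ?_⟩
      have hcomm : x * (u : H) = (u : H) * x := by
        obtain ⟨i, hi⟩ := Subgroup.mem_zpowers_iff.1 u.2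
        rw [← hi]
        exact (Commute.zpow_right (Commute.refl x) i).eq
      have h3 : (u : H) • (x • q) = (u : H) • q := by
        rw [← mul_smul, ← hcomm, mul_smul]
        exact h
      exact smul_left_cancel _ h3
    · intro q hq u hu
      rw [Finset.mem_filter] at hq
      by_contra hne
      have hne' : (u : H) ≠ 1 := fun h => hne (Subtype.ext h)
      apply hq.2
      have hz := zpowers_eq_of_mem hx u.2 hne'
      have hxm : x ∈ zpowers (u : H) := by rw [hz]; exact mem_zpowers x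
      obtain ⟨i, hi⟩ := Subgroup.mem_zpowers_iff.1 hxm
      have hu' : (u : H) • q = q := hu
      have h4 := (MulAction.mem_stabilizer_iff (G := H) (a := q)).1
        (Subgroup.zpow_mem _ ((MulAction.mem_stabilizer_iff).2 hu') i)
      rwa [hi] at h4
    · intro q _
      set g := q.out with hg
      set B := τ g⁻¹ with hB
      have h1 : ∀ u : zpowers x, bf (psi τ (u • q).out) (e3 k) (e1 k) =
          (fun w : H => bf (JJ k) (B *ᵥ e3 k) (B *ᵥ (τ w *ᵥ e1 k))) ((u⁻¹ : zpowers x) : H) := by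
        intro u
        have h3 : u • q = (((u : H) * g : H) : H ⧸ zpowers x) := by
          conv_lhs => rw [← QuotientGroup.out_eq' q]
          rfl
        rw [h3, psi_out h2 hτ]
        unfold psi
        rw [bf_congr]
        have h4 : ((u : H) * g)⁻¹ = g⁻¹ * ((u⁻¹ : zpowers x) : H) := by
          simp
        rw [h4, map_mul, ← hB, ← mulVec_mulVec, ← mulVec_mulVec]
        have h5 : τ ((u⁻¹ : zpowers x) : H) *ᵥ e3 k = e3 k := by
          obtain ⟨i, hi⟩ := hfin.mem_powers_iff_mem_zpowers.2 (u⁻¹ : zpowers x).2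
          simp only at hi
          rw [← hi, map_pow, hτ]
          exact MM_pow_e3 i
        rw [h5]
      simp_rw [h1]
      have h9 : ∑ u : zpowers x, bf (JJ k) (B *ᵥ e3 k) (B *ᵥ (τ ((u⁻¹ : zpowers x) : H) *ᵥ e1 k)) =
          ∑ u : zpowers x, bf (JJ k) (B *ᵥ e3 k) (B *ᵥ (τ (u : H) *ᵥ e1 k)) :=
        Equiv.sum_comp (Equiv.inv (zpowers x)) (fun u : zpowers x => bf (JJ k) (B *ᵥ e3 k) (B *ᵥ (τ (u : H) *ᵥ e1 k)))
      rw [h9]
      rw [sum_zpowers_fun hx (fun w : H => bf (JJ k) (B *ᵥ e3 k) (B *ᵥ (τ w *ᵥ e1 k)))]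
      have h3 : ∀ i ∈ Finset.range p, bf (JJ k) (B *ᵥ e3 k) (B *ᵥ (τ (x ^ i) *ᵥ e1 k)) =
          bf (JJ k) (B *ᵥ e3 k) (B *ᵥ e1 k) * ((i : ℕ) : k) ^ 0 + bf (JJ k) (B *ᵥ e3 k) (B *ᵥ e2 k) * ((i : ℕ) : k) ^ 1 +
            (bf (JJ k) (B *ᵥ e3 k) (B *ᵥ e3 k) / 2) * ((i : ℕ) : k) ^ 2 := by
        intro i _
        rw [map_pow, hτ, MM_pow_e1 h2, mulVec_add, mulVec_add, mulVec_smul, mulVec_smul, bf_add_right, bf_add_right, bf_smul_right,
          bf_smul_right]
        ring
      rw [Finset.sum_congr rfl h3, Finset.sum_add_distrib, Finset.sum_add_distrib, ← Finset.mul_sum, ← Finset.mul_sum, ← Finset.mul_sum,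
        sum_pow_range (k := k) (p := p) (by omega), sum_pow_range (k := k) (p := p) (by omega),
        sum_pow_range (k := k) (p := p) (by omega)]
      simp
  rw [hpart2, add_zero]


/-- **The invariant form.** -/
theorem exists_form (h5 : 5 ≤ p) (hx : orderOf x = p) (hidx : ¬ p ∣ (zpowers x).index) (hτ : τ x = MM k)
    (hw : ∀ (n : H) (j : ℕ), n * x * n⁻¹ = x ^ j → τ n *ᵥ e3 k = (j : k) • e3 k) :
    ∃ S : Matrix (Fin 3) (Fin 3) k, Sᵀ = S ∧ S.det ≠ 0 ∧ (∀ h, (τ h)ᵀ * S * τ h = S) ∧ bf S (e3 k) (e3 k) = 0 := by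
  classical
  have h2 : (2 : k) ≠ 0 := by
    intro h
    have h3 : ((2 : ℕ) : k) = 0 := by exact_mod_cast h
    rw [CharP.cast_eq_zero_iff k p] at h3
    have := Nat.le_of_dvd (by norm_num) h3
    omega
  have hS := SS_transpose (τ := τ) (x := x)
  have hinv := SS_inv (τ := τ) (x := x) h2 hτ
  have hent := entry_two (τ := τ) h5 hx hidx hτ hw
  have hent0 : bf (SS τ x) (e3 k) (e1 k) ≠ 0 := by
    rw [hent]
    exact fix_card_ne hx hidx
  refine ⟨SS τ x, hS, ?_, hinv, ?_⟩
  · intro hdet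
    set S := SS τ x with hSdef
    obtain ⟨a, ha0, ha⟩ := Matrix.exists_mulVec_eq_zero_iff.2 hdet
    have hmul : (τ x⁻¹)ᵀ * S = S * MM k := by
      have h3 := hinv x⁻¹
      calc (τ x⁻¹)ᵀ * S = (τ x⁻¹)ᵀ * S * (τ x⁻¹ * τ x) := by
            rw [← map_mul, inv_mul_cancel, map_one, Matrix.mul_one]
        _ = ((τ x⁻¹)ᵀ * S * τ x⁻¹) * τ x := by simp only [Matrix.mul_assoc]
        _ = _ := by rw [h3, hτ]
    have hR : ∀ b : Fin 3 → k, S *ᵥ b = 0 → S *ᵥ (MM k *ᵥ b) = 0 := by
      intro b hb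
      rw [mulVec_mulVec, ← hmul, ← mulVec_mulVec, hb, mulVec_zero]
    have hR' : ∀ b : Fin 3 → k, S *ᵥ b = 0 → S *ᵥ (MM k *ᵥ b - b) = 0 := by
      intro b hb
      rw [mulVec_sub, hR b hb, hb, sub_zero]
    have hMb : ∀ b : Fin 3 → k, MM k *ᵥ b - b = ![0, b 0, 2⁻¹ * b 0 + b 1] := by
      intro b
      ext i
      fin_cases i <;> simp [MM, mulVec, dotProduct, Fin.sum_univ_three]
    have he3 : ∃ c : k, c ≠ 0 ∧ S *ᵥ (c • e3 k) = 0 := by
      by_cases h0 : a 0 = 0
      · by_cases h1 : a 1 = 0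
        · have h3 : a 2 ≠ 0 := by
            intro h3
            apply ha0
            ext i
            fin_cases i
            · exact h0
            · exact h1
            · exact h3
          refine ⟨a 2, h3, ?_⟩
          have h4 : a 2 • e3 k = a := by
            ext i
            fin_cases i <;> simp [e3, h0, h1]
          rw [h4]
          exact ha
        · refine ⟨a 1, h1, ?_⟩
          have h4 : a 1 • e3 k = MM k *ᵥ a - a := by
            rw [hMb]
            ext i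
            fin_cases i <;> simp [e3, h0]
          rw [h4]
          exact hR' a ha
      · refine ⟨a 0, h0, ?_⟩
        have h4 : a 0 • e3 k = MM k *ᵥ (MM k *ᵥ a - a) - (MM k *ᵥ a - a) := by
          rw [hMb (MM k *ᵥ a - a), hMb a]
          ext i
          fin_cases i <;> simp [e3]
        rw [h4]
        exact hR' _ (hR' a ha)
    obtain ⟨c, hc, hc2⟩ := he3
    rw [mulVec_smul] at hc2
    have h3 : S *ᵥ e3 k = 0 := (smul_eq_zero.1 hc2).resolve_left hc
    apply hent0
    rw [bf_symm hS]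
    unfold bf
    rw [h3, dotProduct_zero]
  · have h3 := bf_isom (hinv x) (e2 k) (e3 k)
    rw [hτ, MM_e2, MM_e3, bf_add_left] at h3
    linear_combination h3

end Form

end Cfsg.Agent.Lib.WeilC
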