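import Mathlib
import Cfsg.Agent.Lib.WeilA
import Cfsg.Agent.Lib.WeilC
import Cfsg.Agent.Lib.RigM

/-!
# Recognition of `PSL(2, p)` from a three-dimensional modular representation

The action of `H` on the conic of isotropic lines of the invariant form of `WeilC`.
-/

set_option autoImplicit false
set_option linter.style.haveILetI false
set_option linter.unusedSectionVars false
set_option linter.unusedVariables false

namespace Cfsg.Agent.Lib.WeilD

open Matrix Subgroup MulAction Cfsg.Agent.Lib.WeilB Cfsg.Agent.Lib.WeilC Cfsg.Agent.Lib.BTate Cfsg.Agent.Lib.RangeMod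

variable {k : Type*} [Field k] {H : Type*} [Group H]

/-- Subspaces, with the action of a group by a representation. -/
def Ln (τ : H →* Matrix (Fin 3) (Fin 3) k) : Type _ := Submodule k (Fin 3 → k)

variable {τ : H →* Matrix (Fin 3) (Fin 3) k}

noncomputable instance : MulAction H (Ln τ) where
  smul g ℓ := Submodule.map (Matrix.mulVecLin (τ g)) ℓ
  one_smul ℓ := by
    show Submodule.map (Matrix.mulVecLin (τ 1)) ℓ = ℓ
    rw [map_one, Matrix.mulVecLin_one]
    exact Submodule.map_id ℓ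
  mul_smul g h ℓ := by
    show Submodule.map (Matrix.mulVecLin (τ (g * h))) ℓ = Submodule.map (Matrix.mulVecLin (τ g)) (Submodule.map (Matrix.mulVecLin (τ h)) ℓ)
    rw [map_mul, Matrix.mulVecLin_mul]
    exact Submodule.map_comp _ _ _

/-- The line through a vector. -/
def ln (τ : H →* Matrix (Fin 3) (Fin 3) k) (v : Fin 3 → k) : Ln τ := Submodule.span k {v}

theorem smul_ln (g : H) (v : Fin 3 → k) : g • ln τ v = ln τ (τ g *ᵥ v) := by
  show Submodule.map (Matrix.mulVecLin (τ g)) (Submodule.span k {v}) = Submodule.span k {τ g *ᵥ v}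
  rw [Submodule.map_span, Set.image_singleton, Matrix.mulVecLin_apply]

theorem tau_inv_mul (g : H) (v : Fin 3 → k) : τ g⁻¹ *ᵥ (τ g *ᵥ v) = v := by
  rw [mulVec_mulVec, ← map_mul, inv_mul_cancel, map_one, one_mulVec]

theorem tau_mul_inv (g : H) (v : Fin 3 → k) : τ g *ᵥ (τ g⁻¹ *ᵥ v) = v := by
  rw [mulVec_mulVec, ← map_mul, mul_inv_cancel, map_one, one_mulVec]

theorem tau_ne_zero (g : H) {v : Fin 3 → k} (hv : v ≠ 0) : τ g *ᵥ v ≠ 0 := by
  intro h
  apply hv
  rw [← tau_inv_mul (τ := τ) g v, h, mulVec_zero]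

theorem ln_smul {c : k} (hc : c ≠ 0) (v : Fin 3 → k) : ln τ (c • v) = ln τ v :=
  Submodule.span_singleton_smul_eq (isUnit_iff_ne_zero.2 hc) v

theorem smul_ln_eq_iff (g : H) {v : Fin 3 → k} (hv : v ≠ 0) : g • ln τ v = ln τ v ↔ ∃ μ : k, τ g *ᵥ v = μ • v := by
  rw [smul_ln]
  constructor
  · intro h
    have h1 : τ g *ᵥ v ∈ (Submodule.span k {v} : Submodule k (Fin 3 → k)) := by
      have h2 : τ g *ᵥ v ∈ (Submodule.span k {τ g *ᵥ v} : Submodule k (Fin 3 → k)) := Submodule.mem_span_singleton_self _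
      have h3 : (Submodule.span k {τ g *ᵥ v} : Submodule k (Fin 3 → k)) = Submodule.span k {v} := h
      rwa [h3] at h2
    obtain ⟨μ, hμ⟩ := Submodule.mem_span_singleton.1 h1
    exact ⟨μ, hμ.symm⟩
  · rintro ⟨μ, hμ⟩
    have h0 : μ ≠ 0 := by
      rintro rfl
      rw [zero_smul] at hμ
      exact tau_ne_zero g hv hμ
    rw [hμ, ln_smul h0]

variable {S : Matrix (Fin 3) (Fin 3) k}

/-- Isotropic lines. -/
def IsIso (S : Matrix (Fin 3) (Fin 3) k) (τ : H →* Matrix (Fin 3) (Fin 3) k) (ℓ : Ln τ) : Prop :=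
  ∃ v : Fin 3 → k, v ≠ 0 ∧ ℓ = ln τ v ∧ bf S v v = 0

theorem IsIso.smul (hinv : ∀ h, (τ h)ᵀ * S * τ h = S) {ℓ : Ln τ} (hℓ : IsIso S τ ℓ) (g : H) : IsIso S τ (g • ℓ) := by
  obtain ⟨v, hv, rfl, hvi⟩ := hℓ
  exact ⟨τ g *ᵥ v, tau_ne_zero g hv, smul_ln g v, by rw [bf_isom (hinv g), hvi]⟩

/-- The isotropic lines fixed by a nontrivial element. -/
def DD (S : Matrix (Fin 3) (Fin 3) k) (τ : H →* Matrix (Fin 3) (Fin 3) k) (hinv : ∀ h, (τ h)ᵀ * S * τ h = S) : SubMulAction H (Ln τ) where
  carrier := {ℓ | IsIso S τ ℓ ∧ ∃ g : H, g ≠ 1 ∧ g • ℓ = ℓ}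
  smul_mem' := by
    rintro g ℓ ⟨h1, a, ha, h2⟩
    refine ⟨h1.smul hinv g, g * a * g⁻¹, ?_, ?_⟩
    · intro h
      apply ha
      have : a = g⁻¹ * (g * a * g⁻¹) * g := by group
      rw [this, h]
      simp
    · rw [← mul_smul]
      simp only [inv_mul_cancel_right, mul_smul]
      rw [h2]

/-- The set of fixed isotropic lines. -/
def Fx (S : Matrix (Fin 3) (Fin 3) k) (τ : H →* Matrix (Fin 3) (Fin 3) k) (g : H) : Set (Ln τ) := {ℓ | IsIso S τ ℓ ∧ g • ℓ = ℓ}

theorem card_fixedBy_DD (hinv : ∀ h, (τ h)ᵀ * S * τ h = S) {g : H} (hg : g ≠ 1) :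
    Nat.card (fixedBy (DD S τ hinv) g) = Nat.card (Fx S τ g) := by
  refine Nat.card_congr ⟨fun ℓ => ⟨ℓ.1.1, ℓ.1.2.1, congrArg Subtype.val ℓ.2⟩,
    fun ℓ => ⟨⟨ℓ.1, ℓ.2.1, g, hg, ℓ.2.2⟩, Subtype.ext ℓ.2.2⟩, fun ℓ => rfl, fun ℓ => rfl⟩

section Main

variable [IsAlgClosed k] {p t : ℕ} [hp : Fact p.Prime] [CharP k p] [Fintype H] [DecidableEq H] {x : H}

theorem pow_eq_one_of_unipotent (h5 : 5 ≤ p) {A : Matrix (Fin 3) (Fin 3) k} (h0 : A 0 1 = 0) (h1 : A 0 2 = 0) (h2 : A 1 2 = 0)
    (h3 : A 0 0 = 1) (h4 : A 1 1 = 1) (h6 : A 2 2 = 1) : A ^ p = 1 := by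
  have hcube : (A - 1) ^ 3 = 0 := by
    ext i j
    fin_cases i <;> fin_cases j <;>
      simp [pow_succ, Matrix.mul_apply, Fin.sum_univ_three, Matrix.sub_apply, Matrix.one_apply, h0, h1, h2, h3, h4, h6]
  have hpol : ((Polynomial.X : Polynomial k) - 1) ^ p = Polynomial.X ^ p - 1 := by
    have := sub_pow_char (Polynomial.X : Polynomial k) 1 (p := p)
    simpa using this
  have h7 := congrArg (Polynomial.aeval A) hpol
  simp only [map_pow, map_sub, map_one, Polynomial.aeval_X] at h7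
  have h8 : (A - 1) ^ p = 0 := by
    obtain ⟨m, rfl⟩ : ∃ m, p = 3 + m := ⟨p - 3, by omega⟩
    rw [pow_add, hcube, zero_mul]
  rw [h8] at h7
  exact (sub_eq_zero.1 h7.symm)

theorem centralizer_eq (hinj : Function.Injective τ) (h5 : 5 ≤ p) (hx : orderOf x = p) (hidx : ¬ p ∣ (zpowers x).index)
    (hτ : τ x = MM k) (hw : ∀ (n : H) (j : ℕ), n * x * n⁻¹ = x ^ j → τ n *ᵥ e3 k = (j : k) • e3 k) :
    centralizer (zpowers x : Set H) = zpowers x := by
  have h2 : (2 : k) ≠ 0 := by
    intro h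
    have h3 : ((2 : ℕ) : k) = 0 := by exact_mod_cast h
    rw [CharP.cast_eq_zero_iff k p] at h3
    have := Nat.le_of_dvd (by norm_num) h3
    omega
  apply le_antisymm
  · intro g hg
    rw [Subgroup.mem_centralizer_iff] at hg
    have hgx : x * g = g * x := hg x (mem_zpowers x)
    have h1 : g * x * g⁻¹ = x ^ 1 := by
      rw [← hgx, pow_one]
      group
    have hA : τ g * MM k = MM k ^ 1 * τ g := by
      rw [pow_one, ← hτ, ← map_mul, ← map_mul, hgx]
    obtain ⟨a1, a2, a3, a4, a5⟩ := struct_of_comm h2 hA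
    have hw' := hw g 1 h1
    have h6 : τ g 2 2 = 1 := by
      have := congrFun hw' 2
      simpa [mulVec, dotProduct, Fin.sum_univ_three, e3] using this
    have a4' : τ g 1 1 = τ g 0 0 := by simpa using a4
    have a5' : τ g 2 2 = τ g 1 1 := by simpa using a5
    have h7 : τ g 1 1 = 1 := by rw [← a5', h6]
    have h8 : τ g 0 0 = 1 := by rw [← a4', h7]
    have h9 := pow_eq_one_of_unipotent h5 a1 a2 a3 h8 h7 h6
    have h10 : g ^ p = 1 := by
      apply hinj
      rw [map_pow, h9, map_one]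
    apply mem_zpowers_of_normalizer hx hidx _ h10
    apply mem_normalizer_of_conj hx
    have : g⁻¹ * x * g = x := by
      rw [mul_assoc, hgx]
      group
    rw [this]
    exact mem_zpowers x
  · intro u hu
    rw [Subgroup.mem_centralizer_iff]
    intro v hv
    obtain ⟨i, rfl⟩ := Subgroup.mem_zpowers_iff.1 hu
    obtain ⟨j, rfl⟩ := Subgroup.mem_zpowers_iff.1 hv
    exact ((Commute.refl x).zpow_zpow j i).eq

/-- The line of the last vector is the only one stable under `x`. -/
theorem eq_of_fixed_x (hτ : τ x = MM k) {v : Fin 3 → k} (hv : v ≠ 0) (h : x • ln τ v = ln τ v) : ln τ v = ln τ (e3 k) := by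
  obtain ⟨μ, hμ⟩ := (smul_ln_eq_iff x hv).1 h
  rw [hτ] at hμ
  have h0 := congrFun hμ 0
  have h1 := congrFun hμ 1
  have h2 := congrFun hμ 2
  simp [MM, mulVec, dotProduct, Fin.sum_univ_three] at h0 h1 h2
  have hv0 : v 0 = 0 := by
    by_contra hne
    have hμ1 : μ = 1 := by
      apply mul_right_cancel₀ hne
      rw [one_mul]
      exact h0.symm
    rw [hμ1] at h1
    apply hne
    linear_combination h1
  have hv1 : v 1 = 0 := by
    by_contra hne
    rw [hv0] at h1
    have hμ1 : μ = 1 := by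
      apply mul_right_cancel₀ hne
      rw [one_mul]
      simpa using h1.symm
    rw [hμ1, hv0] at h2
    apply hne
    linear_combination h2
  have hv2 : v 2 ≠ 0 := by
    intro h3
    apply hv
    ext i
    fin_cases i
    · exact hv0
    · exact hv1
    · exact h3
  have h3 : v = v 2 • e3 k := by
    ext i
    fin_cases i <;> simp [e3, hv0, hv1]
  rw [h3, ln_smul hv2]


/-- Elements not of order dividing `p` have order prime to `p`. -/
theorem not_dvd_order (hx : orderOf x = p) (hidx : ¬ p ∣ (zpowers x).index) (hC : centralizer (zpowers x : Set H) = zpowers x)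
    {g : H} (hg : g ^ p ≠ 1) : ¬ p ∣ orderOf g := by
  rintro ⟨m, hm⟩
  have hcard : Nat.card (zpowers x) = p := by rw [Nat.card_zpowers, hx]
  have hg' : (g ^ m) ^ p = 1 := by
    rw [← pow_mul, mul_comm, ← hm, pow_orderOf_eq_one]
  have hg1 : g ^ m ≠ 1 := by
    intro h
    have h1 := orderOf_dvd_of_pow_eq_one h
    rw [hm] at h1
    have hm0 : 0 < m := by
      rcases Nat.eq_zero_or_pos m with h0 | h0
      · subst h0
        rw [mul_zero] at hm
        exact absurd hm (orderOf_pos g).ne'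
      · exact h0
    have := Nat.le_of_dvd hm0 h1
    have h3 := hp.out.two_le
    nlinarith
  obtain ⟨h, a, ha, hga⟩ := Cfsg.Agent.Lib.WeilA.exists_conj (zpowers x) hcard hidx hg1 hg'
  have ha1 : a ≠ 1 := by
    rintro rfl
    apply hg1
    rw [hga]
    simp
  have hz := zpowers_eq_of_mem hx ha ha1
  have hxa : x ∈ zpowers a := by rw [hz]; exact mem_zpowers x
  set b := h⁻¹ * g * h with hb
  have hba : b * a = a * b := by
    have h3 : a = h⁻¹ * g ^ m * h := by rw [hga]; group
    have h4 : g * g ^ m = g ^ m * g := (Commute.refl g).pow_right m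
    rw [h3, hb]
    calc h⁻¹ * g * h * (h⁻¹ * g ^ m * h) = h⁻¹ * (g * g ^ m) * h := by group
      _ = h⁻¹ * (g ^ m * g) * h := by rw [h4]
      _ = _ := by group
  obtain ⟨i, hi⟩ := Subgroup.mem_zpowers_iff.1 hxa
  have hbx : x * b = b * x := by
    rw [← hi]
    exact ((show Commute a b from hba.symm).zpow_left i).eq
  have hbC : b ∈ centralizer (zpowers x : Set H) := by
    rw [Subgroup.mem_centralizer_iff]
    intro u hu
    obtain ⟨j, rfl⟩ := Subgroup.mem_zpowers_iff.1 hu
    exact ((show Commute x b from hbx).zpow_left j).eq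
  rw [hC] at hbC
  have hbp : b ^ p = 1 := by
    obtain ⟨j, hj⟩ := Subgroup.mem_zpowers_iff.1 hbC
    rw [← hj, ← zpow_natCast, ← _root_.zpow_mul, mul_comm, _root_.zpow_mul, zpow_natCast, ← hx, pow_orderOf_eq_one, _root_.one_zpow]
  apply hg
  have h3 : g = h * b * h⁻¹ := by rw [hb]; group
  rw [h3, conj_pow, hbp]
  group

/-- **Recognition.** -/
theorem conic_main (hpt : p = 2 * t + 1) (ht : 2 ≤ t) (hinj : Function.Injective τ) (hx : orderOf x = p)
    (hidx : ¬ p ∣ (zpowers x).index) (hτ : τ x = MM k)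
    (hw : ∀ (n : H) (j : ℕ), n * x * n⁻¹ = x ^ j → τ n *ᵥ e3 k = (j : k) • e3 k)
    (hstab : ∀ (g : H) (c : k), τ g *ᵥ e3 k = c • e3 k → g ∈ normalizer (zpowers x : Set H))
    (hN : Nat.card (normalizer (zpowers x : Set H)) = p * t) (hnn : ¬ (zpowers x).Normal) :
    Nonempty (H ≃* Matrix.ProjectiveSpecialLinearGroup (Fin 2) (ZMod p)) := by
  classical
  have h5 : 5 ≤ p := by omega
  have h2 : (2 : k) ≠ 0 := by
    intro h
    have h3 : ((2 : ℕ) : k) = 0 := by exact_mod_cast h
    rw [CharP.cast_eq_zero_iff k p] at h3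
    have := Nat.le_of_dvd (by norm_num) h3
    omega
  have hcard : Nat.card (zpowers x) = p := by rw [Nat.card_zpowers, hx]
  have hx1 : x ≠ 1 := by
    rintro rfl
    rw [orderOf_one] at hx
    omega
  have hC := centralizer_eq hinj h5 hx hidx hτ hw
  letI : Fintype (H ⧸ zpowers x) := Fintype.ofFinite _
  obtain ⟨S, hS, hdet, hinv, hiso⟩ := exists_form (τ := τ) h5 hx hidx hτ hw
  have hfin : IsOfFinOrder x := isOfFinOrder_of_finite x
  -- the base point
  have he30 : e3 k ≠ 0 := by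
    intro h
    have := congrFun h 2
    simp [e3] at this
  set ω := ln τ (e3 k) with hω
  have hωiso : IsIso S τ ω := ⟨e3 k, he30, rfl, hiso⟩
  have hfixP : ∀ a ∈ zpowers x, a • ω = ω := by
    intro a ha
    obtain ⟨i, rfl⟩ := hfin.mem_powers_iff_mem_zpowers.2 ha
    rw [smul_ln_eq_iff _ he30]
    refine ⟨1, ?_⟩
    simp only [map_pow, hτ, one_smul]
    exact MM_pow_e3 i
  -- fixed lines of elements of order `p`
  have hFx1 : ∀ g : H, g ≠ 1 → g ^ p = 1 → Nat.card (Fx S τ g) = 1 := by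
    intro g hg1 hg2
    obtain ⟨h, a, ha, hga⟩ := Cfsg.Agent.Lib.WeilA.exists_conj (zpowers x) hcard hidx hg1 hg2
    have ha1 : a ≠ 1 := by
      rintro rfl
      apply hg1
      rw [hga]
      simp
    have hz := zpowers_eq_of_mem hx ha ha1
    have hxa : x ∈ zpowers a := by rw [hz]; exact mem_zpowers x
    have hset : Fx S τ g = {h • ω} := by
      ext ℓ
      simp only [Fx, Set.mem_ofPred_eq, Set.mem_singleton_iff]
      constructor
      · rintro ⟨h1, h3⟩
        have h4 : a • (h⁻¹ • ℓ) = h⁻¹ • ℓ := by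
          calc a • (h⁻¹ • ℓ) = h⁻¹ • ((h * a * h⁻¹) • ℓ) := by
                simp only [← mul_smul]
                congr 1
                group
            _ = h⁻¹ • ℓ := by rw [← hga, h3]
        obtain ⟨i, hi⟩ := Subgroup.mem_zpowers_iff.1 hxa
        have h6 : x • (h⁻¹ • ℓ) = h⁻¹ • ℓ := by
          have h7 := (MulAction.mem_stabilizer_iff (G := H) (a := h⁻¹ • ℓ)).1
            (Subgroup.zpow_mem _ ((MulAction.mem_stabilizer_iff).2 h4) i)
          rwa [hi] at h7
        obtain ⟨v, hv, hv2, hv3⟩ := h1.smul hinv h⁻¹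
        rw [hv2] at h6
        have h8 := eq_of_fixed_x hτ hv h6
        rw [← hv2] at h8
        rw [← smul_left_cancel_iff h⁻¹, inv_smul_smul]
        exact h8
      · rintro rfl
        refine ⟨hωiso.smul hinv h, ?_⟩
        rw [hga, mul_smul, mul_smul, inv_smul_smul, hfixP a ha]
    rw [hset]
    simp
  -- fixed lines of the other elements
  have hFx2 : ∀ g : H, g ^ p ≠ 1 → Nat.card (Fx S τ g) = 2 ∧ (Fx S τ g).Finite := by
    intro g hg
    have hg1 : g ≠ 1 := by
      rintro rfl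
      simp at hg
    have hA1 : τ g ≠ 1 := by
      intro h
      apply hg1
      apply hinj
      rw [h, map_one]
    have hAm1 : τ g ≠ -1 := by
      intro h
      apply hg
      have h3 : τ (g * x) = τ (x * g) := by
        rw [map_mul, map_mul, h]
        simp
      have h4 := hinj h3
      have hbC : g ∈ centralizer (zpowers x : Set H) := by
        rw [Subgroup.mem_centralizer_iff]
        intro u hu
        obtain ⟨j, rfl⟩ := Subgroup.mem_zpowers_iff.1 hu
        exact ((show Commute x g from h4.symm).zpow_left j).eq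
      rw [hC] at hbC
      obtain ⟨j, rfl⟩ := Subgroup.mem_zpowers_iff.1 hbC
      rw [← zpow_natCast, ← _root_.zpow_mul, mul_comm, _root_.zpow_mul, zpow_natCast, ← hx, pow_orderOf_eq_one, _root_.one_zpow]
    have hn : τ g ^ orderOf g = 1 := by
      rw [← map_pow, pow_orderOf_eq_one, map_one]
    have hn0 : ((orderOf g : ℕ) : k) ≠ 0 := by
      rw [Ne, CharP.cast_eq_zero_iff k p]
      exact not_dvd_order hx hidx hC hg
    obtain ⟨e₁, e₂, he₁0, he₂0, he₁i, he₂i, he₁₂, ⟨r, hr⟩, ⟨r', hr'⟩, hall⟩ := two_lines h2 hS hdet (hinv g) hn hn0 hA1 hAm1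
    have hne : ln τ e₁ ≠ ln τ e₂ := by
      intro h
      have h3 : e₂ ∈ (Submodule.span k {e₁} : Submodule k (Fin 3 → k)) := by
        have h4 : e₂ ∈ (Submodule.span k {e₂} : Submodule k (Fin 3 → k)) := Submodule.mem_span_singleton_self _
        have h5' : (Submodule.span k {e₁} : Submodule k (Fin 3 → k)) = Submodule.span k {e₂} := h
        rwa [h5']
      obtain ⟨c, hc⟩ := Submodule.mem_span_singleton.1 h3
      rw [← hc, bf_smul_right, he₁i, mul_zero] at he₁₂
      exact zero_ne_one he₁₂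
    have hset : Fx S τ g = {ln τ e₁, ln τ e₂} := by
      ext ℓ
      simp only [Fx, Set.mem_ofPred_eq, Set.mem_insert_iff, Set.mem_singleton_iff]
      constructor
      · rintro ⟨⟨v, hv, rfl, hvi⟩, h3⟩
        rcases hall v hv hvi ((smul_ln_eq_iff g hv).1 h3) with ⟨c, hc⟩ | ⟨c, hc⟩
        · left
          have hc0 : c ≠ 0 := by
            rintro rfl
            rw [zero_smul] at hc
            exact hv hc
          rw [hc, ln_smul hc0]
        · right
          have hc0 : c ≠ 0 := by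
            rintro rfl
            rw [zero_smul] at hc
            exact hv hc
          rw [hc, ln_smul hc0]
      · rintro (rfl | rfl)
        · exact ⟨⟨e₁, he₁0, rfl, he₁i⟩, (smul_ln_eq_iff g he₁0).2 ⟨r, hr⟩⟩
        · exact ⟨⟨e₂, he₂0, rfl, he₂i⟩, (smul_ln_eq_iff g he₂0).2 ⟨r', hr'⟩⟩
    rw [hset]
    refine ⟨?_, Set.toFinite _⟩
    rw [Nat.card_coe_set_eq, Set.ncard_pair hne]
  -- the finite set
  have hfinFx : ∀ g : H, g ≠ 1 → (Fx S τ g).Finite := by
    intro g hg
    by_cases h3 : g ^ p = 1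
    · have h4 := hFx1 g hg h3
      exact Nat.finite_of_card_ne_zero (by rw [h4]; norm_num)
    · exact (hFx2 g h3).2
  letI hDfin : Finite (DD S τ hinv) := by
    have h3 : ((DD S τ hinv : SubMulAction H (Ln τ)) : Set (Ln τ)) ⊆ ⋃ g : {g : H // g ≠ 1}, Fx S τ g.1 := by
      rintro ℓ ⟨h4, g, hg, h6⟩
      exact Set.mem_iUnion.2 ⟨⟨g, hg⟩, h4, h6⟩
    exact ((Set.finite_iUnion fun g : {g : H // g ≠ 1} => hfinFx g.1 g.2).subset h3).to_subtype
  let ω₀ : DD S τ hinv := ⟨ω, hωiso, x, hx1, hfixP x (mem_zpowers x)⟩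
  have hst : stabilizer H ω₀ = normalizer (zpowers x : Set H) := by
    ext g
    rw [mem_stabilizer_iff]
    constructor
    · intro h
      have h3 : g • ω = ω := congrArg Subtype.val h
      obtain ⟨μ, hμ⟩ := (smul_ln_eq_iff g he30).1 h3
      exact hstab g μ hμ
    · intro h
      apply Subtype.ext
      show g • ω = ω
      rw [smul_ln_eq_iff g he30]
      have h3 : g * x * g⁻¹ ∈ zpowers x := (mem_normalizer_iff.1 h x).1 (mem_zpowers x)
      obtain ⟨j, hj⟩ := hfin.mem_powers_iff_mem_zpowers.2 h3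
      exact ⟨(j : k), hw g j hj.symm⟩
  obtain ⟨hM, hperf⟩ := Cfsg.Agent.Lib.WeilA.main (Δ := DD S τ hinv) hpt ht (zpowers x) hcard hidx hC hnn ω₀ hst hN
    (fun g hg1 hg2 => by rw [card_fixedBy_DD hinv hg1, hFx1 g hg1 hg2])
    (fun g hg => by
      have hg1 : g ≠ 1 := by
        rintro rfl
        simp at hg
      rw [card_fixedBy_DD hinv hg1, (hFx2 g hg).1])
    (fun ω' => by
      obtain ⟨g, hg, h3⟩ := ω'.2.2
      exact ⟨g, hg, Subtype.ext h3⟩)
  -- the core
  have hcore : ∀ K : Subgroup H, K.Normal → K ≤ normalizer (zpowers x : Set H) → K = ⊥ := by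
    intro K hK hKN
    have hxK : x ∉ K := by
      intro hxK
      apply hnn
      refine ⟨fun u hu g => ?_⟩
      have h3 : g * x * g⁻¹ ∈ zpowers x := by
        apply mem_zpowers_of_normalizer hx hidx (hKN (hK.conj_mem x hxK g))
        rw [conj_pow, ← hx, pow_orderOf_eq_one]
        group
      obtain ⟨i, rfl⟩ := Subgroup.mem_zpowers_iff.1 hu
      rw [← conj_zpow]
      exact Subgroup.zpow_mem _ h3 i
    rw [eq_bot_iff]
    intro g hg
    rw [Subgroup.mem_bot]
    by_contra hg1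
    set c := g * x * g⁻¹ * x⁻¹ with hc
    have hcK : c ∈ K := by
      have h3 : c = g * (x * g⁻¹ * x⁻¹) := by rw [hc]; group
      rw [h3]
      exact K.mul_mem hg (hK.conj_mem _ (K.inv_mem hg) x)
    have hcP : c ∈ zpowers x :=
      Subgroup.mul_mem _ ((mem_normalizer_iff.1 (hKN hg) x).1 (mem_zpowers x)) (Subgroup.inv_mem _ (mem_zpowers x))
    by_cases hc1 : c = 1
    · have h3 : g * x = x * g := by
        rw [hc, mul_inv_eq_one, mul_inv_eq_iff_eq_mul] at hc1
        exact hc1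
      have hgC : g ∈ centralizer (zpowers x : Set H) := by
        rw [Subgroup.mem_centralizer_iff]
        intro u hu
        obtain ⟨j, rfl⟩ := Subgroup.mem_zpowers_iff.1 hu
        exact ((show Commute x g from h3.symm).zpow_left j).eq
      rw [hC] at hgC
      have hz := zpowers_eq_of_mem hx hgC hg1
      apply hxK
      have h4 : x ∈ zpowers g := by rw [hz]; exact mem_zpowers x
      exact (Subgroup.zpowers_le.2 hg) h4
    · have hz := zpowers_eq_of_mem hx hcP hc1
      apply hxK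
      have h4 : x ∈ zpowers c := by rw [hz]; exact mem_zpowers x
      exact (Subgroup.zpowers_le.2 hcK) h4
  have hnt : Nontrivial H := ⟨⟨x, 1, hx1⟩⟩
  exact Cfsg.Agent.Lib.RigM.recog_A hperf _ hM hN hpt hnt hcore

end Main

end Cfsg.Agent.Lib.WeilD
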