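import Mathlib
import Cfsg.Agent.Lib.BEndo
import Cfsg.Agent.Lib.WeilC

/-!
# The module of conjugates of the element `X`

`V` a faithful `k G`-module in characteristic `p`, `2 dim V + 1 ≤ p`, `x` of order `p` generating a non-normal Sylow subgroup: the span of the conjugates of
`X ∈ End V` is three-dimensional and `x` acts on it by a single Jordan block.
-/

set_option autoImplicit false
set_option linter.style.haveILetI false
set_option linter.unusedSectionVars false
set_option linter.unusedVariables false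

namespace Cfsg.Agent.Lib.WeilE

open Subgroup Cfsg.Agent.Lib.RangeMod Cfsg.Agent.Lib.BTate Cfsg.Agent.Lib.BEndo Module Polynomial

section Tate

variable {G : Type*} [Group G] [Fintype G] [DecidableEq G] {k : Type*} [Field k]
  {W : Type*} [AddCommGroup W] [Module k W] [FiniteDimensional k W]
  {p : ℕ} [hp : Fact p.Prime] [CharP k p]

/-- **The transfer**, with the fixed vectors. -/
theorem cube_fix (σ : G →* Module.End k W) {x : G} (hx : orderOf x = p) (hidx : ¬ p ∣ (zpowers x).index)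
    (hy : (yy σ x) ^ (p - 1) = 0) {X : W} (hX0 : X ≠ 0) (hXfix : yy σ x X = 0)
    (hsemi : ∀ n ∈ normalizer (zpowers x : Set G), ∃ c : k, c ≠ 0 ∧ σ n X = c • X)
    (hsep : X ∉ LinearMap.range ((yy σ x) ^ 3)) :
    (∀ m ∈ spn σ X, (yy σ x ^ 3) m = 0) ∧ ∀ m ∈ spn σ X, yy σ x m = 0 → ∃ a : k, m = a • X := by
  classical
  set y := yy σ x with hydef
  -- the depth of `X`
  let Sd : ℕ → Prop := fun i => X ∈ LinearMap.range (y ^ i)
  have hS0 : Sd 0 := ⟨X, by simp⟩
  have hS0' := Nat.findGreatest_spec (P := Sd) (m := 0) (n := 2) (Nat.zero_le _) hS0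
  set i₀ := Nat.findGreatest Sd 2 with hi₀
  have hi₀2 : i₀ ≤ 2 := Nat.findGreatest_le 2
  obtain ⟨u, hu⟩ := hS0'
  have hXn : X ∉ LinearMap.range (y ^ (i₀ + 1)) := by
    intro h
    by_cases h3 : i₀ + 1 ≤ 2
    · have h5 := Nat.le_findGreatest (P := Sd) (m := i₀ + 1) (n := 2) h3 h
      omega
    · have h6 : i₀ + 1 = 3 := by omega
      rw [h6] at h
      exact hsep h
  obtain ⟨l0, hl0, hl0'⟩ := Submodule.exists_le_ker_of_notMem hXn
  let l : W →ₗ[k] k := (l0 X)⁻¹ • l0
  have hlX : l X = 1 := by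
    simp only [l, LinearMap.smul_apply, smul_eq_mul]
    exact inv_mul_cancel₀ hl0
  have hl : ∀ v, l ((y ^ (i₀ + 1)) v) = 0 := by
    intro v
    have : (y ^ (i₀ + 1)) v ∈ LinearMap.ker l0 := hl0' ⟨v, rfl⟩
    simp only [l, LinearMap.smul_apply]
    rw [LinearMap.mem_ker.1 this, smul_zero]
  have hgz : (y ^ (i₀ + 1)) u = 0 := by
    rw [pow_succ', Module.End.mul_apply, hu, hXfix]
  set φ := phi y l u i₀ with hφdef
  have hφy : φ * y = y * φ := phi_comm y l u i₀ hl hgz
  have hφx : φ * σ x = σ x * φ := by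
    have : σ x = y + 1 := by rw [hydef]; simp [yy]
    rw [this, mul_add, add_mul, hφy, mul_one, one_mul]
  have hφu := comm_of_comm_x (ρ := σ) hx hφx
  have hφF : ∀ v ∈ Fx σ x, φ v = l v • X := by
    intro v hv
    rw [hφdef, phi_fix y l u i₀ hv, hu]
  -- the relative trace
  let _ : Fintype (G ⧸ zpowers x) := Fintype.ofFinite _
  set Z := trf σ (zpowers x) φ with hZ
  have hZcomm : ∀ h, Z * σ h = σ h * Z := fun h => trf_comm hφu h
  set Fix := Finset.univ.filter (fun q : G ⧸ zpowers x => x • q = q) with hFix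
  have hIm : ImN σ x p = ⊥ := by
    unfold ImN
    rw [nrm_eq, ← hydef, hy]
    exact LinearMap.range_zero
  have hmod : ∀ v ∈ Fx σ x, Z v = ∑ q ∈ Fix, tq σ (zpowers x) φ q v := by
    intro v hv
    have h1 := trf_mod hx hφu hv
    rw [hIm, Submodule.mem_bot, sub_eq_zero] at h1
    exact h1
  have hinvN : ∀ q ∈ Fix, q.out⁻¹ ∈ normalizer (zpowers x : Set G) := fun q hq =>
    Subgroup.inv_mem _ (out_mem_normalizer hx (Finset.mem_filter.1 hq).2)
  have hN : ∀ q ∈ Fix, q.out ∈ normalizer (zpowers x : Set G) := fun q hq =>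
    out_mem_normalizer hx (Finset.mem_filter.1 hq).2
  have hXF : X ∈ Fx σ x := hXfix
  -- the image of the fixed space is in the line
  have hline : ∀ v ∈ Fx σ x, ∃ a : k, Z v = a • X := by
    intro v hv
    have h5 : ∀ q ∈ Fix, ∃ a : k, tq σ (zpowers x) φ q v = a • X := by
      intro q hq
      obtain ⟨c, -, hc⟩ := hsemi _ (hN q hq)
      refine ⟨l (σ q.out⁻¹ v) * c, ?_⟩
      unfold tq
      rw [Module.End.mul_apply, Module.End.mul_apply, hφF _ (rho_fx_mem (hinvN q hq) hv), map_smul, hc, smul_smul]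
    choose! a ha using h5
    refine ⟨∑ q ∈ Fix, a q, ?_⟩
    rw [hmod v hv, Finset.sum_smul]
    exact Finset.sum_congr rfl ha
  -- the value at `X`
  have hZX : Z X = (Fix.card : k) • X := by
    have h6 : ∀ q ∈ Fix, tq σ (zpowers x) φ q X = X := by
      intro q hq
      obtain ⟨c, hc0, hc⟩ := hsemi _ (hN q hq)
      have h7 : σ q.out⁻¹ X = c⁻¹ • X := by
        have h8 : σ q.out⁻¹ (σ q.out X) = X := by
          rw [← Module.End.mul_apply, ← map_mul, inv_mul_cancel, map_one, Module.End.one_apply]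
        rw [hc, map_smul] at h8
        rw [eq_inv_smul_iff₀ hc0]
        exact h8
      unfold tq
      rw [Module.End.mul_apply, Module.End.mul_apply, h7, map_smul, hφF X hXF, hlX, one_smul, map_smul, hc, smul_smul,
        inv_mul_cancel₀ hc0, one_smul]
    rw [hmod X hXF, Finset.sum_congr rfl h6, Finset.sum_const, Nat.cast_smul_eq_nsmul]
  have hκ : (Fix.card : k) ≠ 0 := fix_card_ne hx hidx
  -- on the span
  have hZspan : ∀ m ∈ spn σ X, Z m = (Fix.card : k) • m := by
    intro m hm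
    unfold spn at hm
    induction hm using Submodule.span_induction with
    | mem a ha =>
      obtain ⟨g, rfl⟩ := ha
      show Z (σ g X) = _
      rw [← Module.End.mul_apply, hZcomm, Module.End.mul_apply, hZX, map_smul]
    | zero => simp
    | add a b _ _ ha hb => rw [map_add, ha, hb, smul_add]
    | smul c a _ ha => rw [map_smul, ha, smul_comm]
  -- the fixed vectors in the span
  have hfixspan : ∀ m ∈ spn σ X, y m = 0 → ∃ a : k, m = a • X := by
    intro m hm hym
    obtain ⟨a, ha⟩ := hline m hym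
    refine ⟨(Fix.card : k)⁻¹ * a, ?_⟩
    have h1 := hZspan m hm
    rw [ha] at h1
    rw [mul_smul, h1, smul_smul, inv_mul_cancel₀ hκ, one_smul]
  -- conclusion
  refine ⟨fun m hm => ?_, hfixspan⟩
  by_contra hne
  have hp1 : ∃ i, (y ^ (i + 3)) m ≠ 0 ∧ (y ^ (i + 3 + 1)) m = 0 := by
    have hex : ∃ i, (y ^ (i + 3 + 1)) m = 0 := by
      refine ⟨p, ?_⟩
      have : y ^ (p + 3 + 1) = y ^ (p - 1) * y ^ 5 := by
        rw [← pow_add]
        congr 1
        have := hp.out.two_le
        omega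
      rw [this, hy, zero_mul]
      rfl
    classical
    set i := Nat.find hex with hi
    refine ⟨i, ?_, Nat.find_spec hex⟩
    rcases Nat.eq_zero_or_pos i with h0 | h0
    · rw [h0]
      simpa using hne
    · have h1 := Nat.find_min hex (m := i - 1) (by omega)
      have h2 : i - 1 + 3 + 1 = i + 3 := by omega
      rwa [h2] at h1
  obtain ⟨i, hi1, hi2⟩ := hp1
  have hmem := yy_pow_stable σ X x hm (i + 3)
  have hyz : y ((y ^ (i + 3)) m) = 0 := by
    rw [← Module.End.mul_apply, ← pow_succ']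
    exact hi2
  obtain ⟨a, ha⟩ := hfixspan _ hmem hyz
  have ha0 : a ≠ 0 := by
    rintro rfl
    rw [zero_smul] at ha
    exact hi1 ha
  apply hsep
  refine ⟨a⁻¹ • (y ^ i) m, ?_⟩
  rw [map_smul, ← Module.End.mul_apply, ← pow_add, add_comm 3 i, ha, smul_smul, inv_mul_cancel₀ ha0, one_smul]

/-- The sum of a power of a linear function. -/
theorem sum_pow_lin (a b : k) {e : ℕ} (he : e < p - 1) :
    ∑ i ∈ Finset.range p, (a + (i : k) * b) ^ e = 0 := by
  let Q : Polynomial k := (Polynomial.C a + Polynomial.X * Polynomial.C b) ^ e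
  have hdeg : Q.natDegree < p - 1 := by
    have h1 : (Polynomial.C a + Polynomial.X * Polynomial.C b : Polynomial k).natDegree ≤ 1 := by
      compute_degree
    have h3 : Q.natDegree ≤ e * 1 := by
      refine Polynomial.natDegree_pow_le_of_le _ h1
    omega
  have hQ := sum_eval_range Q hdeg
  rw [← hQ]
  refine Finset.sum_congr rfl fun i _ => ?_
  simp only [Q, Polynomial.eval_pow, Polynomial.eval_add, Polynomial.eval_mul, Polynomial.eval_C, Polynomial.eval_X]

/-- **The line is stable**. -/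
theorem line_stable2 (σ : G →* Module.End k W) {x : G} (hx : orderOf x = p) (hidx : ¬ p ∣ (zpowers x).index) {X : W}
    (hquad : ∀ m ∈ spn σ X, yy σ x (yy σ x m) = 0) {e : ℕ} (he : 1 ≤ e) (h2e : e + 1 < p) (h3p : 2 < p)
    (hsemi : ∀ n ∈ normalizer (zpowers x : Set G), ∃ c : k, c ^ e = 1 ∧ σ n X = c • X) (g : G) :
    ∃ a : k, σ g X = a • X := by
  classical
  have hp5 : 2 < p := h3p
  have h2 : (2 : k) ≠ 0 := by
    intro h
    have h3 : ((2 : ℕ) : k) = 0 := by exact_mod_cast h
    rw [CharP.cast_eq_zero_iff k p] at h3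
    have := Nat.le_of_dvd (by norm_num) h3
    omega
  set N := normalizer (zpowers x : Set G) with hNdef
  let _ : Fintype (G ⧸ N) := Fintype.ofFinite _
  let _ : Fintype (zpowers x) := Fintype.ofFinite _
  -- the function on cosets
  let F : (W →ₗ[k] k) → G ⧸ N → k := fun l q => (l (σ q.out X)) ^ e
  have hF : ∀ (l : W →ₗ[k] k) (h : G), F l (h : G ⧸ N) = (l (σ h X)) ^ e := by
    intro l h
    have h1 : ((h : G ⧸ N)).out⁻¹ * h ∈ N := by
      rw [← QuotientGroup.eq]
      exact QuotientGroup.out_eq' _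
    obtain ⟨c, hc1, hc⟩ := hsemi _ h1
    have h3 : σ h X = σ ((h : G ⧸ N)).out (σ (((h : G ⧸ N)).out⁻¹ * h) X) := by
      rw [← Module.End.mul_apply, ← map_mul]
      congr 2
      group
    show (l (σ ((h : G ⧸ N)).out X)) ^ e = _
    rw [h3, hc, map_smul, map_smul, smul_eq_mul, mul_pow, hc1, one_mul]
  have hxN : ∀ u ∈ zpowers x, u ∈ N := by
    intro u hu
    exact Subgroup.le_normalizer hu
  -- the sum
  set S := (Finset.univ : Finset (G ⧸ N)).erase ((1 : G) : G ⧸ N) with hS
  have hstable : ∀ q ∈ S, ∀ u : zpowers x, u • q ∈ S := by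
    intro q hq u
    rw [hS, Finset.mem_erase] at hq ⊢
    refine ⟨fun h => hq.1 ?_, Finset.mem_univ _⟩
    have h1 : q = (u⁻¹ : zpowers x) • (((1 : G) : G ⧸ N)) := by
      rw [← h, inv_smul_smul]
    rw [h1]
    show (((u⁻¹ : zpowers x) : G) : G) • ((1 : G) : G ⧸ N) = _
    have h3 : (((u⁻¹ : zpowers x) : G) : G) • ((1 : G) : G ⧸ N) = (((((u⁻¹ : zpowers x) : G) * 1 : G)) : G ⧸ N) := rfl
    rw [h3, mul_one]
    refine QuotientGroup.eq.2 ?_
    rw [mul_one]
    exact N.inv_mem (hxN _ (u⁻¹ : zpowers x).2)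
  have hfree : ∀ q ∈ S, ∀ u : zpowers x, u • q = q → u = 1 := by
    intro q hq u hu
    by_contra hne
    have hne' : (u : G) ≠ 1 := fun h => hne (Subtype.ext h)
    rw [hS, Finset.mem_erase] at hq
    apply hq.1
    induction q using QuotientGroup.induction_on with
    | H g =>
      refine QuotientGroup.eq.2 ?_
      rw [mul_one]
      refine N.inv_mem ?_
      have hz := zpowers_eq_of_mem hx u.2 hne'
      have hxm : x ∈ zpowers (u : G) := by rw [hz]; exact mem_zpowers x
      obtain ⟨i, hi⟩ := Subgroup.mem_zpowers_iff.1 hxm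
      have hu' : (u : G) • ((g : G) : G ⧸ N) = (g : G ⧸ N) := hu
      have h4 : ∀ i : ℤ, ((u : G) ^ i) • ((g : G) : G ⧸ N) = (g : G ⧸ N) := by
        intro i
        exact (MulAction.mem_stabilizer_iff (G := G) (a := (g : G ⧸ N))).1
          (Subgroup.zpow_mem _ ((MulAction.mem_stabilizer_iff).2 hu') i)
      have h5 := h4 i
      rw [hi] at h5
      have h6 : ((x * g : G) : G ⧸ N) = (g : G ⧸ N) := h5
      rw [QuotientGroup.eq] at h6
      have h7 := Subgroup.inv_mem _ h6
      have h8 : ((x * g)⁻¹ * g)⁻¹ = g⁻¹ * x * g := by group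
      rw [h8] at h7
      have h9 : (g⁻¹ * x * g) ^ p = 1 := by
        have h10 := conj_pow (a := g⁻¹) (b := x) (i := p)
        simp only [inv_inv] at h10
        rw [h10, ← hx, pow_orderOf_eq_one]
        group
      exact mem_normalizer_of_conj hx (mem_zpowers_of_normalizer hx hidx h7 h9)
  have hsum0 : ∀ l : W →ₗ[k] k, ∑ q ∈ S, F l q = 0 := by
    intro l
    refine sum_eq_zero_of_orbit (H := zpowers x) (F l) S hstable hfree ?_
    intro q _
    have h1 : ∀ u : zpowers x, F l (u • q) = (fun v : G => (l (σ v (σ q.out X))) ^ e) (u : G) := by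
      intro u
      have h2 : u • q = (((u : G) * q.out : G) : G ⧸ N) := by
        conv_lhs => rw [← QuotientGroup.out_eq' q]
        rfl
      rw [h2, hF, map_mul, Module.End.mul_apply]
    rw [Finset.sum_congr rfl fun u _ => h1 u]
    rw [sum_zpowers_fun hx (fun v : G => (l (σ v (σ q.out X))) ^ e)]
    set m := σ q.out X with hm
    have hmS : m ∈ spn σ X := by
      apply Submodule.subset_span
      exact ⟨q.out, rfl⟩
    have h0 := hquad m hmS
    have h3 : (yy σ x ^ 3) m = 0 := by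
      have : (yy σ x ^ 3) m = yy σ x (yy σ x (yy σ x m)) := by
        simp [pow_succ, Module.End.mul_apply]
      rw [this, h0, map_zero]
    have hσ : σ x = yy σ x + 1 := by simp [yy]
    have h4 : ∀ i : ℕ, l (σ (x ^ i) m) = l m + (i : k) * l (yy σ x m) := by
      intro i
      rw [map_pow, hσ, pow_apply_of_cube h3 i, h0]
      simp [map_add, map_smul]
    simp_rw [h4]
    exact sum_pow_lin _ _ (by omega)
  have hsum : ∀ l : W →ₗ[k] k, ∑ q : G ⧸ N, F l q = (l X) ^ e := by
    intro l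
    rw [← Finset.add_sum_erase (Finset.univ : Finset (G ⧸ N)) (F l) (Finset.mem_univ ((1 : G) : G ⧸ N)), ← hS, hsum0, add_zero,
      hF, map_one, Module.End.one_apply]
  have hinv : ∀ (l : W →ₗ[k] k) (h : G), (l (σ h X)) ^ e = (l X) ^ e := by
    intro l h
    have h1 := hsum (l ∘ₗ σ h)
    have h2 : ∀ q : G ⧸ N, F (l ∘ₗ σ h) q = F l (h • q) := by
      intro q
      have h3 : h • q = ((h * q.out : G) : G ⧸ N) := by
        conv_lhs => rw [← QuotientGroup.out_eq' q]
        rfl
      rw [h3, hF, map_mul, Module.End.mul_apply]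
      rfl
    rw [Finset.sum_congr rfl fun q _ => h2 q] at h1
    have h3 : ∑ q : G ⧸ N, F l (h • q) = ∑ q : G ⧸ N, F l q :=
      Equiv.sum_comp (MulAction.toPerm h) (F l)
    rw [h3, hsum l] at h1
    simpa using h1.symm
  by_contra hcon
  push Not at hcon
  have hnot : σ g X ∉ Submodule.span k {X} := by
    intro h
    obtain ⟨a, ha⟩ := Submodule.mem_span_singleton.1 h
    exact hcon a ha.symm
  obtain ⟨l0, hl0, hl0'⟩ := Submodule.exists_le_ker_of_notMem hnot
  have hX0 : l0 X = 0 := hl0' (Submodule.mem_span_singleton_self X)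
  have h1 := hinv l0 g
  rw [hX0, zero_pow (by omega)] at h1
  exact hl0 (pow_eq_zero_iff (by omega) |>.1 h1)

end Tate

section Rep

variable {G : Type*} [Group G] [Fintype G] [DecidableEq G] {k : Type*} [Field k]
  {V : Type*} [AddCommGroup V] [Module k V] [FiniteDimensional k V] {p : ℕ} [hp : Fact p.Prime] [CharP k p]
  (ρ : G →* Module.End k V) {x : G}

/-- `T` is a polynomial in `X`. -/
theorem exists_poly (hp3 : 2 < p) (hxp : x ^ p = 1) : ∃ f : k[X], TT ρ x = aeval (XX p ρ x) f := by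
  obtain ⟨Q, hQ⟩ := Xp_eq k p hp3
  obtain ⟨f, s, hfs⟩ := exists_comp_inv (Xp k p) Q hQ p
  refine ⟨f, ?_⟩
  have h1 := congrArg (aeval (TT ρ x)) hfs
  rw [map_sub, aeval_X, aeval_comp, map_mul, map_pow, aeval_X, TT_pow_p ρ hxp, zero_mul] at h1
  exact sub_eq_zero.1 h1

theorem comm_of_line (hp3 : 2 < p) (hxp : x ^ p = 1) {g : G} {a : k} (ha : cj ρ g (XX p ρ x) = a • XX p ρ x) :
    Commute (ρ (g * x * g⁻¹)) (ρ x) := by
  obtain ⟨f, hTf⟩ := exists_poly ρ hp3 hxp
  set T := TT ρ x with hT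
  set XE := XX p ρ x with hXE
  have h1 : cj ρ g T = aeval (a • XE) f := by
    rw [← ha]
    have h0 := aeval_algHom_apply (cjAlg ρ g) XE f
    rw [← hTf, cjAlg_apply, cjAlg_apply] at h0
    exact h0.symm
  have h2 : Commute (cj ρ g T) T := by
    rw [h1]
    conv_rhs => rw [hTf]
    exact comm_aeval XE a f f
  have h3 : ρ (g * x * g⁻¹) = cj ρ g T + 1 := by
    rw [hT, TT, cj_apply, mul_sub, sub_mul, mul_one, rho_mul_inv, map_mul, map_mul]
    abel
  have h4 : ρ x = T + 1 := by
    rw [hT, TT]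
    abel
  rw [h3, h4]
  exact (h2.add_right (Commute.one_right _)).add_left (Commute.one_left _)

/-- Elements commuting with a generating `x`. -/
theorem mem_of_comm (hinj : Function.Injective ρ) (hx : orderOf x = p) (hidx : ¬ p ∣ (zpowers x).index) {g : G}
    (h : Commute (ρ (g * x * g⁻¹)) (ρ x)) : g * x * g⁻¹ ∈ zpowers x := by
  have hxp : x ^ p = 1 := by rw [← hx, pow_orderOf_eq_one]
  apply mem_zpowers_of_normalizer hx hidx
  · have h1 : g * x * g⁻¹ * x = x * (g * x * g⁻¹) := by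
      apply hinj
      rw [map_mul, map_mul _ x]
      exact h
    apply mem_normalizer_of_conj hx
    have h2 : (g * x * g⁻¹)⁻¹ * x * (g * x * g⁻¹) = x := by
      rw [mul_assoc, ← h1]
      group
    rw [h2]
    exact mem_zpowers x
  · rw [conj_pow, hxp]
    simp

theorem normal_of_line (hp3 : 2 < p) (hinj : Function.Injective ρ) (hx : orderOf x = p) (hidx : ¬ p ∣ (zpowers x).index)
    (hline : ∀ g : G, ∃ a : k, cj ρ g (XX p ρ x) = a • XX p ρ x) : (zpowers x).Normal := by
  have hxp : x ^ p = 1 := by rw [← hx, pow_orderOf_eq_one]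
  have hmem : ∀ g : G, g * x * g⁻¹ ∈ zpowers x := by
    intro g
    obtain ⟨a, ha⟩ := hline g
    exact mem_of_comm ρ hinj hx hidx (comm_of_line ρ hp3 hxp ha)
  refine ⟨fun z hz g => ?_⟩
  obtain ⟨i, rfl⟩ := Subgroup.mem_zpowers_iff.1 hz
  rw [← conj_zpow]
  exact Subgroup.zpow_mem _ (hmem g) i

/-- The first part of the proof of `normal_of_small`, under a weaker hypothesis. -/
theorem prelim (hinj : Function.Injective ρ) (hx : orderOf x = p) (hdim : 2 * finrank k V + 1 ≤ p) (h5 : 5 ≤ p) :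
    (yy (cj ρ) x) ^ (p - 1) = 0 ∧ XX p ρ x ∉ LinearMap.range ((yy (cj ρ) x) ^ 3) := by
  classical
  have hp3 : 2 < p := by omega
  have hxp : x ^ p = 1 := by rw [← hx, pow_orderOf_eq_one]
  have hx1 : x ≠ 1 := by
    rintro rfl
    rw [orderOf_one] at hx
    omega
  set T := TT ρ x with hT
  have hT0 : T ≠ 0 := by
    intro h
    apply hx1
    apply hinj
    rw [map_one]
    exact sub_eq_zero.1 h
  have hTp : T ^ p = 0 := TT_pow_p ρ hxp
  have hTf : T ^ finrank k V = 0 := nil_pow_finrank hTp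
  have hex : ∃ m, T ^ m = 0 := ⟨_, hTf⟩
  obtain ⟨m, hm, hmin, hmle⟩ : ∃ m, T ^ m = 0 ∧ (∀ i < m, T ^ i ≠ 0) ∧ m ≤ finrank k V :=
    ⟨Nat.find hex, Nat.find_spec hex, fun i hi => Nat.find_min hex hi, Nat.find_min' hex hTf⟩
  have hm2 : 2 ≤ m := by
    by_contra hcon
    have : m = 0 ∨ m = 1 := by omega
    rcases this with rfl | rfl
    · apply hT0
      rw [pow_zero] at hm
      rw [← mul_one T, hm, mul_zero]
    · apply hT0
      simpa using hm
  have hcast : ∀ n : ℕ, 0 < n → n < p → (n : k) ≠ 0 := by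
    intro n h0 hn h
    rw [CharP.cast_eq_zero_iff k p] at h
    have := Nat.le_of_dvd h0 h
    omega
  have hk0 : (m : k) ≠ 0 := hcast m (by omega) (by omega)
  have hk1 : (m : k) - 1 ≠ 0 := by
    have := hcast (m - 1) (by omega) (by omega)
    rwa [Nat.cast_sub (by omega), Nat.cast_one] at this
  have hk2 : (m : k) + 1 ≠ 0 := by
    have := hcast (m + 1) (by omega) (by omega)
    rwa [Nat.cast_add, Nat.cast_one] at this
  have hy : (yy (cj ρ) x) ^ (p - 1) = 0 := by
    ext1 A
    rw [yy_cj_pow, ad_pow_zero hm (by omega)]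
    simp
  obtain ⟨Q, hQ⟩ := Xp_eq k p hp3
  set XE := XX p ρ x with hXE
  have hXE' : XE = aeval T (Xp k p) := rfl
  refine ⟨hy, ?_⟩
  rintro ⟨A, hA⟩
  rw [yy_cj_pow] at hA
  have h1 : (ad (TT ρ x) ^ 3) A = XE * ρ x ^ 3 := by
    rw [← hA, mul_assoc, ← map_pow, ← map_pow, ← map_mul, inv_pow, inv_mul_cancel, map_one, mul_one]
  let H : k[X] := -3 - 3 * X - X ^ 2 + Q * (1 + X) ^ 3
  have h2 : XE * ρ x ^ 3 = -T + T ^ 2 * aeval T H := by
    have h3 : ρ x = aeval T (1 + X : k[X]) := by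
      simp [hT, TT]
    rw [h3, ← map_pow, hXE', ← map_mul, hQ]
    have h4 : (-X + X ^ 2 * Q) * (1 + X) ^ 3 = -X + X ^ 2 * H := by
      simp only [H]
      ring
    rw [h4]
    simp
  have hcomm : Commute T (aeval T H) := comm_self_aeval T H
  refine not_ad_cube hcomm hm2 hm (hmin _ (by omega)) hk0 hk1 hk2 A ?_
  rw [← h2, ← h1]

theorem XE_fix (hp3 : 2 < p) : yy (cj ρ) x (XX p ρ x) = 0 := by
  have hXcomm : ρ x * XX p ρ x = XX p ρ x * ρ x := by
    have h1 : ρ x = TT ρ x + 1 := by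
      rw [TT]
      abel
    have h2 : Commute (TT ρ x) (XX p ρ x) := comm_self_aeval _ (Xp k p)
    rw [h1]
    exact (h2.add_left (Commute.one_left _))
  rw [yy, LinearMap.sub_apply, Module.End.one_apply, cj_apply, hXcomm, mul_assoc, rho_mul_inv, mul_one, sub_self]

/-- Weights on `X`. -/
theorem cj_XX_nat (hx : orderOf x = p) {n : G} {j : ℕ} (hn : n * x * n⁻¹ = x ^ j) : cj ρ n (XX p ρ x) = (j : k) • XX p ρ x := by
  have hxp : x ^ p = 1 := by rw [← hx, pow_orderOf_eq_one]
  have hx1 : x ≠ 1 := by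
    rintro rfl
    rw [orderOf_one] at hx
    exact hp.out.one_lt.ne hx
  have hj0 : (j : ZMod p) ≠ 0 := by
    intro h
    rw [ZMod.natCast_eq_zero_iff] at h
    obtain ⟨l, rfl⟩ := h
    rw [pow_mul, hxp, one_pow] at hn
    apply hx1
    have : x = n⁻¹ * (n * x * n⁻¹) * n := by group
    rw [this, hn]
    simp
  have h1 : n * x * n⁻¹ = x ^ ((Units.mk0 (j : ZMod p) hj0 : (ZMod p)ˣ) : ZMod p).val := by
    rw [Units.val_mk0, ZMod.val_natCast, ← pow_eq_pow_mod _ hxp, hn]
  have h2 := cj_XX ρ hxp h1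
  rw [Units.val_mk0, map_natCast] at h2
  exact h2

/-- Restriction to the span of the conjugates. -/
noncomputable def resRep {A : Type*} [AddCommGroup A] [Module k A] [FiniteDimensional k A] (σ : G →* Module.End k A) (X : A) : G →* Module.End k (spn σ X) where
  toFun g := (σ g).restrict (fun m hm => spn_stable σ X g hm)
  map_one' := by
    ext m
    simp
  map_mul' g h := by
    ext m
    simp [Module.End.mul_apply]

/-- The matrices of a representation. -/
noncomputable def toMat {A : Type*} [AddCommGroup A] [Module k A] (b : Basis (Fin 3) k A) (σ : G →* Module.End k A) :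
    G →* Matrix (Fin 3) (Fin 3) k where
  toFun g := LinearMap.toMatrix b b (σ g)
  map_one' := by
    rw [map_one]
    exact LinearMap.toMatrix_one b
  map_mul' g h := by
    rw [map_mul]
    exact LinearMap.toMatrix_mul b _ _

/-- Commuting with a polynomial. -/
theorem comm_aeval_right {A B : Module.End k V} (h : Commute A B) (f : k[X]) : Commute A (aeval B f) := by
  rw [aeval_eq_sum_range]
  refine Commute.sum_right _ _ _ fun i _ => ?_
  exact (h.pow_right i).smul_right _

/-- **The three-dimensional representation.** -/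
theorem exists_tau (hinj : Function.Injective ρ) (hx : orderOf x = p) (hidx : ¬ p ∣ (zpowers x).index)
    (hdim : 2 * finrank k V + 1 ≤ p) (h5 : 5 ≤ p) (hnn : ¬ (zpowers x).Normal) {e₀ : ℕ} (he₀ : 1 ≤ e₀) (he₁ : e₀ + 1 < p)
    (hexp : ∀ n ∈ normalizer (zpowers x : Set G), ∃ c₀ : (ZMod p)ˣ, n * x * n⁻¹ = x ^ (c₀ : ZMod p).val ∧ c₀ ^ e₀ = 1) :
    p < 2 * e₀ + 2 ∧ ∃ τ : G →* Matrix (Fin 3) (Fin 3) k, τ x = Cfsg.Agent.Lib.WeilC.MM k ∧
      (∀ (n : G) (j : ℕ), n * x * n⁻¹ = x ^ j → Matrix.mulVec (τ n) (Cfsg.Agent.Lib.WeilC.e3 k) = (j : k) • Cfsg.Agent.Lib.WeilC.e3 k) ∧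
      (∀ (g : G) (c : k), Matrix.mulVec (τ g) (Cfsg.Agent.Lib.WeilC.e3 k) = c • Cfsg.Agent.Lib.WeilC.e3 k → Commute (ρ (g * x * g⁻¹)) (ρ x)) ∧
      (∀ g : G, τ g = 1 → ∀ h : G, Commute (ρ g) (ρ (h * x * h⁻¹))) ∧
      (∀ z ∈ center G, τ z = 1) := by
  classical
  have hp3 : 2 < p := by omega
  have hxp : x ^ p = 1 := by rw [← hx, pow_orderOf_eq_one]
  have h2 : (2 : k) ≠ 0 := by
    intro h
    have h3 : ((2 : ℕ) : k) = 0 := by exact_mod_cast h
    rw [CharP.cast_eq_zero_iff k p] at h3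
    have := Nat.le_of_dvd (by norm_num) h3
    omega
  obtain ⟨hy, hsep⟩ := prelim ρ hinj hx hdim h5
  set σ := cj ρ with hσ
  set XE := XX p ρ x with hXE
  set y := yy σ x with hydef
  have hX0 : XE ≠ 0 := by
    intro h
    apply hsep
    rw [h]
    exact Submodule.zero_mem _
  have hXfix : y XE = 0 := XE_fix ρ hp3
  have hsemi : ∀ n ∈ normalizer (zpowers x : Set G), ∃ c : k, c ^ e₀ = 1 ∧ σ n XE = c • XE := by
    intro n hn
    obtain ⟨c₀, h1, h3⟩ := hexp n hn
    refine ⟨iota k p (c₀ : ZMod p), ?_, cj_XX ρ hxp h1⟩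
    rw [← map_pow, ← Units.val_pow_eq_pow_val, h3, Units.val_one, map_one]
  have hsemi' : ∀ n ∈ normalizer (zpowers x : Set G), ∃ c : k, c ≠ 0 ∧ σ n XE = c • XE := by
    intro n hn
    obtain ⟨c, h1, h3⟩ := hsemi n hn
    refine ⟨c, ?_, h3⟩
    rintro rfl
    rw [zero_pow (by omega)] at h1
    exact zero_ne_one h1
  obtain ⟨hcube, hfix⟩ := cube_fix σ hx hidx hy hX0 hXfix hsemi' hsep
  have hcube' : ∀ m ∈ spn σ XE, y (y (y m)) = 0 := by
    intro m hm
    have := hcube m hm
    simpa [pow_succ, Module.End.mul_apply] using this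
  have hnline : ¬ ∀ g : G, ∃ a : k, σ g XE = a • XE := fun h => hnn (normal_of_line ρ hp3 hinj hx hidx h)
  refine ⟨?_, ?_⟩
  · by_contra hcon
    exact hnline (line_stable σ hx hidx hcube he₀ (by omega) hsemi)
  -- a vector with nonzero second difference
  obtain ⟨v, hvW, hvne⟩ : ∃ v ∈ spn σ XE, y (y v) ≠ 0 := by
    by_contra hcon
    push Not at hcon
    exact hnline (line_stable2 σ hx hidx hcon he₀ he₁ hp3 hsemi)
  have hyW : ∀ m ∈ spn σ XE, y m ∈ spn σ XE := fun m hm => yy_stable σ XE x hm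
  obtain ⟨a, ha⟩ := hfix (y (y v)) (hyW _ (hyW _ hvW)) (hcube' v hvW)
  have ha0 : a ≠ 0 := by
    rintro rfl
    rw [zero_smul] at ha
    exact hvne ha
  set v₁ := a⁻¹ • v with hv₁
  have hv₁W : v₁ ∈ spn σ XE := Submodule.smul_mem _ _ hvW
  have hyy : y (y v₁) = XE := by
    rw [hv₁, map_smul, map_smul, ha, smul_smul, inv_mul_cancel₀ ha0, one_smul]
  have hXW : XE ∈ spn σ XE := mem_spn_self σ XE
  set e₂ := y v₁ - (2⁻¹ : k) • XE with he₂
  have he₂W : e₂ ∈ spn σ XE := Submodule.sub_mem _ (hyW _ hv₁W) (Submodule.smul_mem _ _ hXW)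
  have hye₂ : y e₂ = XE := by
    rw [he₂, map_sub, hyy, map_smul, hXfix, smul_zero, sub_zero]
  have hσy : ∀ m, σ x m = m + y m := by
    intro m
    rw [hydef, yy]
    simp
  -- the basis
  let E₁ : spn σ XE := ⟨v₁, hv₁W⟩
  let E₂ : spn σ XE := ⟨e₂, he₂W⟩
  let E₃ : spn σ XE := ⟨XE, hXW⟩
  have hli : LinearIndependent k ![E₁, E₂, E₃] := by
    rw [Fintype.linearIndependent_iff]
    intro c hc
    rw [Fin.sum_univ_three] at hc
    have hc' : c 0 • v₁ + c 1 • e₂ + c 2 • XE = 0 := congrArg Subtype.val hc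
    have h3 := congrArg (fun m => y (y m)) hc'
    simp only [map_add, map_smul, hyy, hye₂, hXfix, map_zero, smul_zero, add_zero] at h3
    have h0 : c 0 = 0 := (smul_eq_zero.1 h3).resolve_right hX0
    rw [h0, zero_smul, zero_add] at hc'
    have h4 := congrArg y hc'
    simp only [map_add, map_smul, hye₂, hXfix, map_zero, smul_zero, add_zero] at h4
    have h1 : c 1 = 0 := (smul_eq_zero.1 h4).resolve_right hX0
    rw [h1, zero_smul, zero_add] at hc'
    have h6 : c 2 = 0 := (smul_eq_zero.1 hc').resolve_right hX0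
    intro i
    fin_cases i
    · exact h0
    · exact h1
    · exact h6
  have hsp : ⊤ ≤ Submodule.span k (Set.range ![E₁, E₂, E₃]) := by
    rintro ⟨m, hm⟩ -
    obtain ⟨α, hα⟩ := hfix (y (y m)) (hyW _ (hyW _ hm)) (hcube' m hm)
    have hm' : m - α • v₁ ∈ spn σ XE := Submodule.sub_mem _ hm (Submodule.smul_mem _ _ hv₁W)
    have h3 : y (y (m - α • v₁)) = 0 := by
      rw [map_sub, map_sub, map_smul, map_smul, hyy, hα, sub_self]
    obtain ⟨β, hβ⟩ := hfix (y (m - α • v₁)) (hyW _ hm') h3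
    have hm'' : m - α • v₁ - β • e₂ ∈ spn σ XE := Submodule.sub_mem _ hm' (Submodule.smul_mem _ _ he₂W)
    have h4 : y (m - α • v₁ - β • e₂) = 0 := by
      rw [map_sub, hβ, map_smul, hye₂, sub_self]
    obtain ⟨γ, hγ⟩ := hfix _ hm'' h4
    have h6 : (⟨m, hm⟩ : spn σ XE) = α • E₁ + β • E₂ + γ • E₃ := by
      apply Subtype.ext
      show m = α • v₁ + β • e₂ + γ • XE
      rw [← hγ]
      abel
    rw [h6]
    refine Submodule.add_mem _ (Submodule.add_mem _ (Submodule.smul_mem _ _ (Submodule.subset_span ⟨0, rfl⟩))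
      (Submodule.smul_mem _ _ (Submodule.subset_span ⟨1, rfl⟩))) (Submodule.smul_mem _ _ (Submodule.subset_span ⟨2, rfl⟩))
  let b : Basis (Fin 3) k (spn σ XE) := Basis.mk hli hsp
  have hb0 : b 0 = E₁ := by simp [b]
  have hb1 : b 1 = E₂ := by simp [b]
  have hb2 : b 2 = E₃ := by simp [b]
  let σW := resRep σ XE
  have hσW : ∀ (g : G) (m : spn σ XE), ((σW g m : spn σ XE) : Module.End k V) = σ g m := fun g m => rfl
  let τ := toMat b σW
  have hτapp : ∀ g, τ g = LinearMap.toMatrix b b (σW g) := fun g => rfl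
  have hrepr2 : (⇑(b.repr E₃) : Fin 3 → k) = Cfsg.Agent.Lib.WeilC.e3 k := by
    rw [← hb2, Basis.repr_self]
    ext i
    fin_cases i <;> simp [Cfsg.Agent.Lib.WeilC.e3]
  have hmulVec : ∀ (g : G) (m : spn σ XE), Matrix.mulVec (τ g) (⇑(b.repr m)) = ⇑(b.repr (σW g m)) := by
    intro g m
    rw [hτapp]
    exact LinearMap.toMatrix_mulVec_repr b b (σW g) m
  have hτe3 : ∀ g, Matrix.mulVec (τ g) (Cfsg.Agent.Lib.WeilC.e3 k) = ⇑(b.repr (σW g E₃)) := by
    intro g
    rw [← hrepr2, hmulVec]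
  have hτker : ∀ g, τ g = 1 → σW g = 1 := by
    intro g hg
    apply (LinearMap.toMatrix b b).injective
    rw [← hτapp, hg, LinearMap.toMatrix_one]
  refine ⟨τ, ?_, ?_, ?_, ?_, ?_⟩
  · -- the matrix of `x`
    have hx0 : σW x (b 0) = b 0 + b 1 + (2⁻¹ : k) • b 2 := by
      rw [hb0, hb1, hb2]
      apply Subtype.ext
      show σ x v₁ = v₁ + e₂ + (2⁻¹ : k) • XE
      rw [hσy, he₂]
      abel
    have hx1 : σW x (b 1) = b 1 + b 2 := by
      rw [hb1, hb2]
      apply Subtype.ext
      show σ x e₂ = e₂ + XE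
      rw [hσy, hye₂]
    have hx2 : σW x (b 2) = b 2 := by
      rw [hb2]
      apply Subtype.ext
      show σ x XE = XE
      rw [hσy, hXfix, add_zero]
    rw [hτapp]
    ext i j
    rw [LinearMap.toMatrix_apply]
    fin_cases j
    · show b.repr (σW x (b 0)) i = _
      rw [hx0]
      fin_cases i <;> simp [Cfsg.Agent.Lib.WeilC.MM, Basis.repr_self]
    · show b.repr (σW x (b 1)) i = _
      rw [hx1]
      fin_cases i <;> simp [Cfsg.Agent.Lib.WeilC.MM, Basis.repr_self]
    · show b.repr (σW x (b 2)) i = _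
      rw [hx2]
      fin_cases i <;> simp [Cfsg.Agent.Lib.WeilC.MM, Basis.repr_self]
  · intro n j hj
    rw [hτe3]
    have h3 : σW n E₃ = (j : k) • E₃ := by
      apply Subtype.ext
      exact cj_XX_nat ρ hx hj
    rw [h3, map_smul, ← hrepr2]
    rfl
  · intro g c hc
    rw [hτe3, ← hrepr2] at hc
    have h3 : b.repr (σW g E₃) = b.repr (c • E₃) := by
      rw [map_smul]
      exact DFunLike.coe_injective hc
    have h4 := b.repr.injective h3
    have h5' : σ g XE = c • XE := congrArg Subtype.val h4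
    exact comm_of_line ρ hp3 hxp h5'
  · intro g hg h
    have h1 := hτker g hg
    obtain ⟨f, hf⟩ := exists_poly ρ hp3 hxp
    have h3 : σ g (σ h XE) = σ h XE := by
      have hm : σ h XE ∈ spn σ XE := Submodule.subset_span ⟨h, rfl⟩
      have h9 : ((σW g ⟨σ h XE, hm⟩ : spn σ XE) : Module.End k V) = σ h XE := by
        rw [h1]
        rfl
      exact h9
    have h4 : Commute (ρ g) (σ h XE) := by
      have h6 : ρ g * σ h XE * ρ g⁻¹ = σ h XE := h3
      show ρ g * σ h XE = σ h XE * ρ g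
      conv_rhs => rw [← h6]
      rw [mul_assoc _ (ρ g⁻¹), rho_inv_mul, mul_one]
    have h6 : σ h (TT ρ x) = aeval (σ h XE) f := by
      have h0 := aeval_algHom_apply (cjAlg ρ h) XE f
      rw [← hf, cjAlg_apply, cjAlg_apply] at h0
      exact h0.symm
    have h7 : ρ (h * x * h⁻¹) = σ h (TT ρ x) + 1 := by
      rw [TT, hσ, cj_apply, mul_sub, sub_mul, mul_one, rho_mul_inv, map_mul, map_mul]
      abel
    rw [h7, h6]
    exact (comm_aeval_right h4 f).add_right (Commute.one_right _)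
  · intro z hz
    have h3 : σ z XE = XE := by
      have h4 : z * x * z⁻¹ = x ^ 1 := by
        rw [pow_one, (Subgroup.mem_center_iff.1 hz x).symm]
        group
      have := cj_XX_nat ρ hx h4
      simpa using this
    have h4 : ∀ m ∈ spn σ XE, σ z m = m := by
      intro m hm
      unfold spn at hm
      induction hm using Submodule.span_induction with
      | mem a ha =>
        obtain ⟨g, rfl⟩ := ha
        show σ z (σ g XE) = σ g XE
        rw [← Module.End.mul_apply, ← map_mul, ← (Subgroup.mem_center_iff.1 hz g), map_mul, Module.End.mul_apply, h3]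
      | zero => simp
      | add a b _ _ ha hb => rw [map_add, ha, hb]
      | smul c a _ ha => rw [map_smul, ha]
    have h5' : σW z = 1 := LinearMap.ext fun m => Subtype.ext (h4 m.1 m.2)
    rw [hτapp, h5', LinearMap.toMatrix_one]

end Rep

end Cfsg.Agent.Lib.WeilE
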