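import Mathlib
import Cfsg.Agent.Lib.BFaith
import Cfsg.Agent.Lib.WeilD
import Cfsg.Agent.Lib.WeilE

/-!
# Faithful characters of degree `(p - 1) / 2`: the complex part
-/

set_option autoImplicit false
set_option linter.style.haveILetI false
set_option linter.unusedSectionVars false
set_option linter.unusedVariables false

namespace Cfsg.Agent.Lib.WeilF

open Subgroup Module Cfsg.Agent.Lib.BFaith Cfsg.Agent.Lib.BTate Cfsg.Agent.Lib.RangeMod

variable {p : ℕ} [hp : Fact p.Prime]

/-- **Representations of low degree**: conjugates of `x` commute with `x` in the image. -/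
theorem comm_of_low {Γ : Type*} [Group Γ] [Finite Γ] {U : Type*} [AddCommGroup U] [Module ℂ U] [FiniteDimensional ℂ U]
    (ρ' : Γ →* Module.End ℂ U) {x : Γ} (hx : orderOf x = p) (hidx : ¬ p ∣ (zpowers x).index)
    (hU : 2 * finrank ℂ U + 1 < p) (g : Γ) : Commute (ρ' (g * x * g⁻¹)) (ρ' x) := by
  classical
  by_cases hx1 : ρ' x = 1
  · rw [hx1]
    exact Commute.one_right _
  by_contra hcomm
  set K := ρ'.ker with hK
  let Γ₁ := Γ ⧸ K
  let ρ₁ : Γ₁ →* Module.End ℂ U := QuotientGroup.lift K ρ' le_rfl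
  have hρ₁ : ∀ a : Γ, ρ₁ (a : Γ₁) = ρ' a := fun a => rfl
  let e := (finBasis ℂ U).equivFun
  let ρ₂ : Γ₁ →* Module.End ℂ (Fin (finrank ℂ U) → ℂ) :=
    { toFun := fun a => (e : U →ₗ[ℂ] _) ∘ₗ ρ₁ a ∘ₗ (e.symm : _ →ₗ[ℂ] U)
      map_one' := by
        ext v
        simp
      map_mul' := fun a b => by
        ext v
        simp [Module.End.mul_apply] }
  have hρ₂ : ∀ a, ρ₂ a = 1 → a = 1 := by
    intro a ha
    induction a using QuotientGroup.induction_on with
    | H b =>
      have h1 : ρ' b = 1 := by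
        ext1 u
        have h3 := congrArg (fun φ : Module.End ℂ (Fin (finrank ℂ U) → ℂ) => e.symm (φ (e u))) ha
        simpa [ρ₂, hρ₁] using h3
      exact (QuotientGroup.eq_one_iff b).2 h1
  letI : Fintype Γ₁ := Fintype.ofFinite _
  have hxp : x ^ p = 1 := by rw [← hx, pow_orderOf_eq_one]
  set xb : Γ₁ := (x : Γ₁) with hxb
  have hxb1 : xb ≠ 1 := by
    intro h
    apply hx1
    have := congrArg ρ₁ h
    rwa [map_one, hρ₁] at this
  have hxbp : xb ^ p = 1 := by
    rw [hxb, ← QuotientGroup.mk_pow, hxp]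
    rfl
  have hxbo : orderOf xb = p := orderOf_eq_prime hxbp hxb1
  have hcardΓ : Nat.card Γ = p * (zpowers x).index := by
    rw [← Subgroup.card_mul_index (zpowers x), Nat.card_zpowers, hx]
  have hidx₁ : ¬ p ∣ (zpowers xb).index := by
    intro h
    apply hidx
    have h1 : Nat.card Γ₁ = p * (zpowers xb).index := by
      rw [← Subgroup.card_mul_index (zpowers xb), Nat.card_zpowers, hxbo]
    have h2 : Nat.card Γ₁ ∣ Nat.card Γ := by
      rw [← Subgroup.card_mul_index K]
      exact Dvd.intro_left _ rfl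
    rw [h1, hcardΓ] at h2
    exact h.trans (Nat.dvd_of_mul_dvd_mul_left hp.out.pos h2)
  refine normal_of_low_degree ρ₂ hρ₂ hxbo hidx₁ ?_ hU
  intro H hH hcH
  -- a normal subgroup of order `p`
  have hpH : p ∣ Nat.card H := by rw [hcH]
  obtain ⟨h, hh⟩ := exists_prime_orderOf_dvd_card' (G := H) p hpH
  have hhH : (h : Γ₁) ∈ H := h.2
  have hho : orderOf (h : Γ₁) = p := by
    rw [← hh]
    exact Subgroup.orderOf_coe h
  have hzH : zpowers (h : Γ₁) = H := by
    apply Subgroup.eq_of_le_of_card_ge ((Subgroup.zpowers_le).2 hhH)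
    rw [hcH, Nat.card_zpowers, hho]
  have hidxh : ¬ p ∣ (zpowers (h : Γ₁)).index := by
    have h1 : Nat.card Γ₁ = p * (zpowers xb).index := by
      rw [← Subgroup.card_mul_index (zpowers xb), Nat.card_zpowers, hxbo]
    have h2 : Nat.card Γ₁ = p * (zpowers (h : Γ₁)).index := by
      rw [← Subgroup.card_mul_index (zpowers (h : Γ₁)), Nat.card_zpowers, hho]
    have h3 : (zpowers (h : Γ₁)).index = (zpowers xb).index := by
      have := h1.symm.trans h2
      exact (Nat.eq_of_mul_eq_mul_left hp.out.pos this).symm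
    rwa [h3]
  have hxbH : xb ∈ zpowers (h : Γ₁) := by
    apply mem_zpowers_of_normalizer hho hidxh _ hxbp
    rw [hzH]
    have : normalizer (H : Set Γ₁) = ⊤ := Subgroup.normalizer_eq_top_iff.2 hH
    rw [this]
    exact Subgroup.mem_top _
  have hzz : zpowers xb = H := by
    apply Subgroup.eq_of_le_of_card_ge
    · rw [← hzH]
      exact (Subgroup.zpowers_le).2 hxbH
    · rw [hcH, Nat.card_zpowers, hxbo]
  have hconj : (g : Γ₁) * xb * (g : Γ₁)⁻¹ ∈ zpowers xb := by
    rw [hzz]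
    apply hH.conj_mem
    rw [← hzz]
    exact mem_zpowers xb
  apply hcomm
  obtain ⟨i, hi⟩ := Subgroup.mem_zpowers_iff.1 hconj
  have h3 : (((g * x * g⁻¹ : Γ)) : Γ₁) = xb ^ i := by
    rw [hi]
    rfl
  have h4 : ρ' (g * x * g⁻¹) = ρ₁ (xb ^ i) := by
    rw [← h3, hρ₁]
  have hρ₁x : ρ' x = ρ₁ xb := rfl
  rw [h4, hρ₁x]
  show ρ₁ (xb ^ i) * ρ₁ xb = ρ₁ xb * ρ₁ (xb ^ i)
  rw [← map_mul, ← map_mul]
  congr 1
  exact ((Commute.refl xb).zpow_left i).eq


/-- Restriction of a representation to a stable subspace. -/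
noncomputable def subRep {Γ : Type*} [Group Γ] {U : Type*} [AddCommGroup U] [Module ℂ U] (ρ' : Γ →* Module.End ℂ U)
    (P : Submodule ℂ U) (hP : ∀ (g : Γ), ∀ v ∈ P, ρ' g v ∈ P) : Γ →* Module.End ℂ P where
  toFun g := (ρ' g).restrict (hP g)
  map_one' := by
    ext m
    simp
  map_mul' g h := by
    ext m
    simp [Module.End.mul_apply]

/-- **Elements centralizing the conjugates of `x` are central.** -/
theorem central_of_comm {G : Type*} [Group G] [Finite G] {d : ℕ} (ρ : G →* Module.End ℂ (Fin d → ℂ)) (hρ : ∀ g, ρ g = 1 → g = 1)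
    {x : G} (hx : orderOf x = p) (hidx : ¬ p ∣ (zpowers x).index) (hnn : ∀ H : Subgroup G, H.Normal → Nat.card H ≠ p)
    (hd : 2 * d + 1 = p) (hd1 : 1 ≤ d) {c : G} (hc : ∀ h : G, Commute c (h * x * h⁻¹)) : c ∈ center G := by
  classical
  letI := Fintype.ofFinite G
  have hρinj : Function.Injective ρ := by
    rw [injective_iff_map_eq_one]
    exact hρ
  have hxp : x ^ p = 1 := by rw [← hx, pow_orderOf_eq_one]
  rw [Subgroup.mem_center_iff]
  set R := ρ c with hR
  haveI : Nontrivial (Fin d → ℂ) := by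
    haveI : Nonempty (Fin d) := ⟨⟨0, hd1⟩⟩
    infer_instance
  obtain ⟨μ, hμ⟩ := Module.End.exists_eigenvalue R
  obtain ⟨v₀, hv₀⟩ := hμ.exists_hasEigenvector
  set n := orderOf c with hn
  have hn0 : (n : ℂ) ≠ 0 := by
    have : n ≠ 0 := (orderOf_pos c).ne'
    exact_mod_cast this
  have hRn : R ^ n = 1 := by
    rw [hR, ← map_pow, hn, pow_orderOf_eq_one, map_one]
  have hRv : ∀ i : ℕ, (R ^ i) v₀ = μ ^ i • v₀ := by
    intro i
    induction i with
    | zero => simp
    | succ i ih =>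
      rw [pow_succ, Module.End.mul_apply, hv₀.apply_eq_smul, map_smul, ih, smul_smul, pow_succ, mul_comm (μ ^ i)]
  have hμn : μ ^ n = 1 := by
    have h1 := hRv n
    rw [hRn, Module.End.one_apply] at h1
    have h3 : (μ ^ n - 1) • v₀ = 0 := by
      rw [sub_smul, ← h1, one_smul, sub_self]
    exact sub_eq_zero.1 ((smul_eq_zero.1 h3).resolve_right hv₀.2)
  have hμ0 : μ ≠ 0 := by
    rintro rfl
    rw [zero_pow (orderOf_pos c).ne'] at hμn
    exact zero_ne_one hμn
  set T : Module.End ℂ (Fin d → ℂ) := μ⁻¹ • R with hT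
  have hTn : T ^ n = 1 := by
    rw [hT, smul_pow, hRn, inv_pow, hμn, inv_one, one_smul]
  set π : Module.End ℂ (Fin d → ℂ) := (n : ℂ)⁻¹ • ∑ i ∈ Finset.range n, T ^ i with hπ
  have hTπ : T * π = π := by
    have h1 : (T - 1) * ∑ i ∈ Finset.range n, T ^ i = 0 := by
      rw [mul_geom_sum, hTn, sub_self]
    have h3 : T * ∑ i ∈ Finset.range n, T ^ i = ∑ i ∈ Finset.range n, T ^ i := by
      rw [sub_mul, one_mul, sub_eq_zero] at h1
      exact h1
    rw [hπ, mul_smul_comm, h3]
  have hTpow : ∀ i : ℕ, T ^ i * π = π := by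
    intro i
    induction i with
    | zero => simp
    | succ i ih => rw [pow_succ, mul_assoc, hTπ, ih]
  have hππ : π * π = π := by
    have h1 : (∑ i ∈ Finset.range n, T ^ i) * π = (n : ℂ) • π := by
      rw [Finset.sum_mul, Finset.sum_congr rfl (fun i _ => hTpow i), Finset.sum_const, Finset.card_range, Nat.cast_smul_eq_nsmul]
    calc π * π = (n : ℂ)⁻¹ • ((∑ i ∈ Finset.range n, T ^ i) * π) := by
          rw [hπ, smul_mul_assoc]
      _ = π := by rw [h1, smul_smul, inv_mul_cancel₀ hn0, one_smul]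
  have hπcomm : ∀ g : G, Commute (ρ g) R → Commute (ρ g) π := by
    intro g hg
    have h1 : Commute (ρ g) T := hg.smul_right _
    exact (Commute.sum_right _ _ _ fun i _ => h1.pow_right i).smul_right _
  by_cases hscal : T = 1
  · -- a scalar
    intro g
    have hRs : R = μ • 1 := by
      have : R = μ • T := by rw [hT, smul_smul, mul_inv_cancel₀ hμ0, one_smul]
      rw [this, hscal]
    have h1 : ρ (g * c) = ρ (c * g) := by
      rw [map_mul, map_mul, ← hR, hRs]
      simp
    exact hρinj h1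
  exfalso
  -- the centralizer
  let Γ : Subgroup G := centralizer {c}
  have hmemΓ : ∀ g, g ∈ Γ ↔ Commute (ρ g) R := by
    intro g
    rw [Subgroup.mem_centralizer_singleton_iff]
    constructor
    · intro h
      show ρ g * ρ c = ρ c * ρ g
      rw [← map_mul, ← map_mul, h]
    · intro h
      apply hρinj
      rw [map_mul, map_mul]
      exact h
  have hconjΓ : ∀ h : G, h * x * h⁻¹ ∈ Γ := by
    intro h
    rw [Subgroup.mem_centralizer_singleton_iff]
    exact (hc h).symm.eq
  have hxΓ : x ∈ Γ := by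
    have := hconjΓ 1
    simpa using this
  -- the two complementary subspaces
  let P₁ : Submodule ℂ (Fin d → ℂ) := LinearMap.range π
  let P₂ : Submodule ℂ (Fin d → ℂ) := LinearMap.ker π
  have hP₁ : ∀ (g : Γ), ∀ v ∈ P₁, ρ (g : G) v ∈ P₁ := by
    rintro g _ ⟨w, rfl⟩
    have h1 := hπcomm g ((hmemΓ g).1 g.2)
    refine ⟨ρ g w, ?_⟩
    have h3 := congrArg (fun φ : Module.End ℂ (Fin d → ℂ) => φ w) h1
    exact h3.symm
  have hP₂ : ∀ (g : Γ), ∀ v ∈ P₂, ρ (g : G) v ∈ P₂ := by
    intro g v hv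
    have h1 := hπcomm g ((hmemΓ g).1 g.2)
    have h3 := congrArg (fun φ : Module.End ℂ (Fin d → ℂ) => φ v) h1
    rw [LinearMap.mem_ker]
    have h4 : π (ρ g v) = ρ g (π v) := h3.symm
    rw [h4, LinearMap.mem_ker.1 hv, map_zero]
  have hfr := LinearMap.finrank_range_add_finrank_ker π
  rw [Module.finrank_fin_fun] at hfr
  have hP₁0 : 0 < finrank ℂ P₁ := by
    rw [Module.finrank_pos_iff]
    refine ⟨⟨⟨v₀, ⟨v₀, ?_⟩⟩, 0, ?_⟩⟩
    · have h1 : ∀ i : ℕ, (T ^ i) v₀ = v₀ := by
        intro i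
        induction i with
        | zero => simp
        | succ i ih =>
          rw [pow_succ, Module.End.mul_apply, hT, LinearMap.smul_apply, hv₀.apply_eq_smul, smul_smul, inv_mul_cancel₀ hμ0, one_smul, ih]
      show π v₀ = v₀
      rw [hπ, LinearMap.smul_apply, LinearMap.sum_apply, Finset.sum_congr rfl (fun i _ => h1 i), Finset.sum_const, Finset.card_range,
        ← Nat.cast_smul_eq_nsmul ℂ, smul_smul, inv_mul_cancel₀ hn0, one_smul]
    · intro h
      exact hv₀.2 (congrArg Subtype.val h)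
  have hP₂0 : 0 < finrank ℂ P₂ := by
    rw [Module.finrank_pos_iff]
    by_contra hcon
    rw [not_nontrivial_iff_subsingleton] at hcon
    apply hscal
    -- `π` is injective and idempotent, so it is the identity, and `T π = π`
    have hπ1 : π = 1 := by
      apply LinearMap.ext
      intro v
      have h1 : v - π v ∈ P₂ := by
        rw [LinearMap.mem_ker, map_sub]
        have h3 := congrArg (fun φ : Module.End ℂ (Fin d → ℂ) => φ v) hππ
        have h4 : π (π v) = π v := h3
        rw [h4, sub_self]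
      have h3 : (⟨_, h1⟩ : P₂) = 0 := Subsingleton.elim _ _
      have h4 : v - π v = 0 := congrArg Subtype.val h3
      rw [Module.End.one_apply]
      exact (sub_eq_zero.1 h4).symm
    rw [hπ1, mul_one] at hTπ
    exact hTπ
  have hΓo : orderOf (⟨x, hxΓ⟩ : Γ) = p := by
    rw [Subgroup.orderOf_mk, hx]
  have hcardG : Nat.card G = p * (zpowers x).index := by
    rw [← Subgroup.card_mul_index (zpowers x), Nat.card_zpowers, hx]
  have hΓidx : ¬ p ∣ (zpowers (⟨x, hxΓ⟩ : Γ)).index := by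
    intro h
    apply hidx
    have h1 : Nat.card Γ = p * (zpowers (⟨x, hxΓ⟩ : Γ)).index := by
      rw [← Subgroup.card_mul_index (zpowers (⟨x, hxΓ⟩ : Γ)), Nat.card_zpowers, hΓo]
    have h2 : Nat.card Γ ∣ Nat.card G := Subgroup.card_subgroup_dvd_card Γ
    rw [h1, hcardG] at h2
    exact h.trans (Nat.dvd_of_mul_dvd_mul_left hp.out.pos h2)
  let ρΓ : Γ →* Module.End ℂ (Fin d → ℂ) := ρ.comp Γ.subtype
  have hfr' : finrank ℂ P₁ + finrank ℂ P₂ = d := hfr
  have hkey : ∀ g : Γ, Commute (ρ ((g : G) * x * (g : G)⁻¹)) (ρ x) := by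
    intro g
    have h1 := comm_of_low (subRep ρΓ P₁ hP₁) hΓo hΓidx (by omega) g
    have h2 := comm_of_low (subRep ρΓ P₂ hP₂) hΓo hΓidx (by omega) g
    have h1' : ∀ v ∈ P₁, ρ ((g : G) * x * (g : G)⁻¹) (ρ x v) = ρ x (ρ ((g : G) * x * (g : G)⁻¹) v) := by
      intro v hv
      have := congrArg (fun φ : Module.End ℂ P₁ => ((φ ⟨v, hv⟩ : P₁) : Fin d → ℂ)) h1
      exact this
    have h2' : ∀ v ∈ P₂, ρ ((g : G) * x * (g : G)⁻¹) (ρ x v) = ρ x (ρ ((g : G) * x * (g : G)⁻¹) v) := by
      intro v hv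
      have := congrArg (fun φ : Module.End ℂ P₂ => ((φ ⟨v, hv⟩ : P₂) : Fin d → ℂ)) h2
      exact this
    apply LinearMap.ext
    intro v
    have h3 : v = π v + (v - π v) := by abel
    have h4 : π v ∈ P₁ := ⟨v, rfl⟩
    have h5 : v - π v ∈ P₂ := by
      rw [LinearMap.mem_ker, map_sub]
      have h3 := congrArg (fun φ : Module.End ℂ (Fin d → ℂ) => φ v) hππ
      have h4 : π (π v) = π v := h3
      rw [h4, sub_self]
    show ρ ((g : G) * x * (g : G)⁻¹) (ρ x v) = ρ x (ρ ((g : G) * x * (g : G)⁻¹) v)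
    rw [h3]
    simp only [map_add]
    rw [h1' _ h4, h2' _ h5]
  have hconj : ∀ g : Γ, (g : G) * x * (g : G)⁻¹ ∈ zpowers x := by
    intro g
    have h1 : (g : G) * x * (g : G)⁻¹ * x = x * ((g : G) * x * (g : G)⁻¹) := by
      apply hρinj
      rw [map_mul, map_mul _ x]
      exact hkey g
    apply mem_zpowers_of_normalizer hx hidx
    · apply mem_normalizer_of_conj hx
      have h2 : ((g : G) * x * (g : G)⁻¹)⁻¹ * x * ((g : G) * x * (g : G)⁻¹) = x := by
        rw [mul_assoc, ← h1]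
        group
      rw [h2]
      exact mem_zpowers x
    · rw [conj_pow, hxp]
      simp
  have hnorm : (zpowers x).Normal := by
    refine ⟨fun z hz h => ?_⟩
    have hm : h * x * h⁻¹ ∈ zpowers x := by
      apply mem_zpowers_of_normalizer hx hidx
      · apply mem_normalizer_of_conj hx
        exact hconj ⟨(h * x * h⁻¹)⁻¹, Γ.inv_mem (hconjΓ h)⟩ |> fun h5 => by
          simpa using h5
      · rw [conj_pow, hxp]
        simp
    obtain ⟨i, rfl⟩ := Subgroup.mem_zpowers_iff.1 hz
    rw [← conj_zpow]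
    exact Subgroup.zpow_mem _ hm i
  exact hnn _ hnorm (by rw [Nat.card_zpowers, hx])

end Cfsg.Agent.Lib.WeilF
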