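import Mathlib
import Cfsg.Agent.Lib.WeilF

/-!
# Faithful characters of degree `(p - 1) / 2`: assembling the proof
-/

set_option autoImplicit false
set_option linter.style.haveILetI false
set_option linter.unusedSectionVars false
set_option linter.unusedVariables false

namespace Cfsg.Agent.Lib.WeilG

open Subgroup Module Cfsg.Agent.Lib.BFaith Cfsg.Agent.Lib.BTate Cfsg.Agent.Lib.RangeMod Cfsg.Agent.Lib.WeilC
open Cfsg.Agent.Lib.WeilD Cfsg.Agent.Lib.WeilE Cfsg.Agent.Lib.WeilF Cfsg.Agent.Lib.BLat Cfsg.Agent.Lib.RangeLat Cfsg.Agent.Lib.BEndo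

variable {p : ℕ} [hp : Fact p.Prime]

theorem exp_inj {Γ : Type*} [Group Γ] {x : Γ} (hx : orderOf x = p) {a b : (ZMod p)ˣ}
    (h : x ^ (a : ZMod p).val = x ^ (b : ZMod p).val) : a = b := by
  have h1 := pow_inj_mod.1 h
  rw [hx, Nat.mod_eq_of_lt (ZMod.val_lt _), Nat.mod_eq_of_lt (ZMod.val_lt _)] at h1
  exact Units.ext (ZMod.val_injective p h1)

/-- The normalizer of a self-centralizing subgroup of order `p`. -/
theorem card_normalizer {Γ : Type*} [Group Γ] [Finite Γ] {x : Γ} (hx : orderOf x = p) (hxp : x ^ p = 1)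
    (hC : centralizer (zpowers x : Set Γ) = zpowers x) :
    Nat.card (normalizer (zpowers x : Set Γ)) = p * Nat.card (conjSub hxp) := by
  classical
  letI := Fintype.ofFinite Γ
  set N := normalizer (zpowers x : Set Γ) with hN
  have hex : ∀ n : N, ∃ c₀ : (ZMod p)ˣ, (n : Γ) * x * (n : Γ)⁻¹ = x ^ (c₀ : ZMod p).val := fun n => exists_exponent hx n.2
  choose c hc using hex
  have hmul : ∀ n m : N, c (n * m) = c n * c m := by
    intro n m
    apply exp_inj hx
    rw [← hc, Units.val_mul, ZMod.val_mul, ← pow_eq_pow_mod _ hxp]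
    calc ((n * m : N) : Γ) * x * ((n * m : N) : Γ)⁻¹ = (n : Γ) * ((m : Γ) * x * (m : Γ)⁻¹) * (n : Γ)⁻¹ := by
          simp only [Subgroup.coe_mul]
          group
      _ = (x ^ (c n : ZMod p).val) ^ (c m : ZMod p).val := by
          rw [hc m, ← conj_pow, hc n]
      _ = _ := by rw [← pow_mul]
  let φ : N →* (ZMod p)ˣ := MonoidHom.mk' c hmul
  have hφ : ∀ n, φ n = c n := fun n => rfl
  have hker : φ.ker = (zpowers x).subgroupOf N := by
    ext n
    rw [MonoidHom.mem_ker, hφ, Subgroup.mem_subgroupOf, ← hC, Subgroup.mem_centralizer_iff]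
    constructor
    · intro h u hu
      have h1 := hc n
      rw [h, Units.val_one] at h1
      haveI : Fact (1 < p) := ⟨hp.out.one_lt⟩
      rw [ZMod.val_one, pow_one] at h1
      obtain ⟨i, rfl⟩ := Subgroup.mem_zpowers_iff.1 hu
      have h3 : x * (n : Γ) = (n : Γ) * x := by
        rw [mul_inv_eq_iff_eq_mul] at h1
        exact h1.symm
      exact ((show Commute x (n : Γ) from h3).zpow_left i).eq
    · intro h
      apply exp_inj hx
      have h1 := h x (mem_zpowers x)
      rw [← hc, Units.val_one]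
      haveI : Fact (1 < p) := ⟨hp.out.one_lt⟩
      rw [ZMod.val_one, pow_one, ← h1]
      group
  have hrange : φ.range = conjSub hxp := by
    ext a
    rw [MonoidHom.mem_range, mem_conjSub]
    constructor
    · rintro ⟨n, rfl⟩
      exact ⟨n, hc n⟩
    · rintro ⟨g, hg⟩
      have hgN : g ∈ N := by
        have h1 : g⁻¹ ∈ N := by
          apply mem_normalizer_of_conj hx
          rw [inv_inv, hg]
          exact Subgroup.pow_mem _ (mem_zpowers x) _
        simpa using N.inv_mem h1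
      refine ⟨⟨g, hgN⟩, ?_⟩
      apply exp_inj hx
      rw [hφ, ← hc, hg]
  have h1 := Subgroup.card_mul_index φ.ker
  rw [Subgroup.index_ker, hrange, hker, Nat.card_congr (Subgroup.subgroupOfEquivOfLe (Subgroup.le_normalizer)).toEquiv,
    Nat.card_zpowers, hx] at h1
  exact h1.symm

section CharP

variable {G : Type*} [Group G] [Fintype G] [DecidableEq G] {k₀ : Type*} [Field k₀] [CharP k₀ p]
  {V : Type*} [AddCommGroup V] [Module k₀ V] [FiniteDimensional k₀ V]

theorem mulVec_e3 {k : Type*} [Field k] (A : Matrix (Fin 3) (Fin 3) k) (i : Fin 3) : Matrix.mulVec A (e3 k) i = A i 2 := by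
  simp [Matrix.mulVec, dotProduct, Fin.sum_univ_three, e3]

/-- **The modular part.** -/
theorem main_char_p (ρb : G →* Module.End k₀ V) (hinj : Function.Injective ρb) {x : G} (hx : orderOf x = p)
    (hxp : x ^ p = 1) (hidx : ¬ p ∣ (zpowers x).index) (hdim : 2 * finrank k₀ V + 1 ≤ p) {t : ℕ} (hpt : p = 2 * t + 1) (ht : 2 ≤ t)
    (hnn : ∀ H : Subgroup G, H.Normal → Nat.card H ≠ p) (he : Nat.card (conjSub hxp) ≤ t)
    (hcen : ∀ c : G, (∀ h : G, Commute c (h * x * h⁻¹)) → c ∈ center G) :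
    Nonempty ((G ⧸ center G) ≃* Matrix.ProjectiveSpecialLinearGroup (Fin 2) (ZMod p)) := by
  classical
  have h5 : 5 ≤ p := by omega
  have hnn' : ¬ (zpowers x).Normal := fun h => hnn _ h (by rw [Nat.card_zpowers, hx])
  have he₀ : 1 ≤ Nat.card (conjSub hxp) := Nat.card_pos
  have hexp : ∀ n ∈ normalizer (zpowers x : Set G), ∃ c₀ : (ZMod p)ˣ, n * x * n⁻¹ = x ^ (c₀ : ZMod p).val ∧
      c₀ ^ Nat.card (conjSub hxp) = 1 := by
    intro m hm
    obtain ⟨c₀, h1⟩ := exists_exponent hx hm
    refine ⟨c₀, h1, ?_⟩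
    have h2 : c₀ ∈ conjSub hxp := ⟨m, h1⟩
    have h3 : (⟨c₀, h2⟩ : conjSub hxp) ^ Nat.card (conjSub hxp) = 1 := pow_card_eq_one'
    exact congrArg Subtype.val h3
  obtain ⟨hlow, τ, hτx, hw, hst, hker, hcz⟩ := exists_tau ρb hinj hx hidx hdim h5 hnn' he₀ (by omega) hexp
  have het : Nat.card (conjSub hxp) = t := by omega
  set Z := center G with hZ
  let H := G ⧸ Z
  letI : Fintype H := Fintype.ofFinite _
  have hZp : ∀ z ∈ Z, z ^ p = 1 → z = 1 := by
    intro z hz hzp
    by_contra hz1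
    have ho : orderOf z = p := orderOf_eq_prime hzp hz1
    apply hnn (zpowers z) _ (by rw [Nat.card_zpowers, ho])
    refine ⟨fun u hu g => ?_⟩
    have hu' : u ∈ Z := (Subgroup.zpowers_le.2 hz) hu
    have h1 : g * u * g⁻¹ = u := by
      rw [Subgroup.mem_center_iff.1 hu' g]
      group
    rwa [h1]
  have hL1 : ∀ (g : G) (j : ℕ), ((g : H)) * (x : H) * ((g : H))⁻¹ = ((x : H)) ^ j → g * x * g⁻¹ = x ^ j := by
    intro g j h
    have h1 : ((g * x * g⁻¹ : G) : H) = ((x ^ j : G) : H) := h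
    have h2 := QuotientGroup.eq.1 h1
    set z := (g * x * g⁻¹)⁻¹ * x ^ j with hz
    have h3 : x ^ j = (g * x * g⁻¹) * z := by rw [hz]; group
    have h4 : (x ^ j) ^ p = (g * x * g⁻¹) ^ p * z ^ p := by
      rw [h3]
      exact (show Commute (g * x * g⁻¹) z from ((Subgroup.mem_center_iff.1 h2) _)).mul_pow p
    have h6 : z ^ p = 1 := by
      rw [← pow_mul, mul_comm, pow_mul, hxp, one_pow, conj_pow, hxp] at h4
      simpa using h4.symm
    have h7 := hZp z h2 h6
    rw [h3, h7, mul_one]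
  let K := AlgebraicClosure k₀
  let f : k₀ →+* K := algebraMap k₀ K
  haveI : CharP K p := charP_of_injective_algebraMap f.injective p
  let τ₁ : G →* Matrix (Fin 3) (Fin 3) K := (f.mapMatrix : Matrix (Fin 3) (Fin 3) k₀ →+* Matrix (Fin 3) (Fin 3) K).toMonoidHom.comp τ
  have hτ₁ : ∀ (g : G) (i j : Fin 3), τ₁ g i j = f (τ g i j) := fun g i j => rfl
  let τ₂ : H →* Matrix (Fin 3) (Fin 3) K := QuotientGroup.lift Z τ₁ (by
    intro z hz
    rw [MonoidHom.mem_ker]
    ext i j
    rw [hτ₁, hcz z hz, Matrix.one_apply, Matrix.one_apply]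
    split_ifs <;> simp)
  have hτ₂ : ∀ (g : G), τ₂ (g : H) = τ₁ g := fun g => rfl
  have hone : ∀ c : H, τ₂ c = 1 → c = 1 := by
    intro c hc
    induction c using QuotientGroup.induction_on with
    | H g =>
      rw [hτ₂] at hc
      have h1 : τ g = 1 := by
        ext i j
        have h3 := congrFun (congrFun hc i) j
        rw [hτ₁, Matrix.one_apply] at h3
        apply f.injective
        rw [h3, Matrix.one_apply]
        split_ifs <;> simp
      have h3 := hker g h1
      refine (QuotientGroup.eq_one_iff g).2 (hcen g fun h => ?_)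
      have h4 : ρb (g * (h * x * h⁻¹)) = ρb ((h * x * h⁻¹) * g) := by
        rw [map_mul, map_mul _ (h * x * h⁻¹)]
        exact h3 h
      exact hinj h4
  have hinj₂ : Function.Injective τ₂ := by
    intro a b hab
    have h1 : τ₂ (a * b⁻¹) = 1 := by
      rw [map_mul, hab, ← map_mul, mul_inv_cancel, map_one]
    have h3 := hone _ h1
    exact mul_inv_eq_one.1 h3
  set x₁ : H := (x : H) with hx₁
  have hxZ : x ∉ Z := by
    intro h
    apply hnn'
    refine ⟨fun u hu g => ?_⟩
    have hu' : u ∈ Z := (Subgroup.zpowers_le.2 h) hu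
    have h1 : g * u * g⁻¹ = u := by
      rw [Subgroup.mem_center_iff.1 hu' g]
      group
    rwa [h1]
  have hx₁1 : x₁ ≠ 1 := fun h => hxZ ((QuotientGroup.eq_one_iff x).1 h)
  have hx₁p : x₁ ^ p = 1 := by
    rw [hx₁, ← QuotientGroup.mk_pow, hxp]
    rfl
  have hx₁o : orderOf x₁ = p := orderOf_eq_prime hx₁p hx₁1
  have hcardG : Nat.card G = p * (zpowers x).index := by
    rw [← Subgroup.card_mul_index (zpowers x), Nat.card_zpowers, hx]
  have hidx₁ : ¬ p ∣ (zpowers x₁).index := by
    intro h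
    apply hidx
    have h1 : Nat.card H = p * (zpowers x₁).index := by
      rw [← Subgroup.card_mul_index (zpowers x₁), Nat.card_zpowers, hx₁o]
    have h2 : Nat.card H ∣ Nat.card G := by
      rw [← Subgroup.card_mul_index Z]
      exact Dvd.intro_left _ rfl
    rw [h1, hcardG] at h2
    exact h.trans (Nat.dvd_of_mul_dvd_mul_left hp.out.pos h2)
  have h2K : (2 : K)⁻¹ = f 2⁻¹ := by
    rw [map_inv₀, map_ofNat]
  have hτ₁x : τ₂ x₁ = MM K := by
    rw [hτ₂]
    ext i j
    rw [hτ₁, hτx]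
    fin_cases i <;> fin_cases j <;> simp [MM, h2K]
  have hw₁ : ∀ (n : H) (j : ℕ), n * x₁ * n⁻¹ = x₁ ^ j → Matrix.mulVec (τ₂ n) (e3 K) = (j : K) • e3 K := by
    intro n j hn
    induction n using QuotientGroup.induction_on with
    | H g =>
      have h1 := hL1 g j hn
      have h3 := hw g j h1
      ext i
      have h4 := congrFun h3 i
      rw [mulVec_e3] at h4 ⊢
      rw [hτ₂, hτ₁, h4]
      fin_cases i <;> simp [e3]
  have hst₁ : ∀ (g₁ : H) (c : K), Matrix.mulVec (τ₂ g₁) (e3 K) = c • e3 K → g₁ ∈ normalizer (zpowers x₁ : Set H) := by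
    intro g₁ c hc
    induction g₁ using QuotientGroup.induction_on with
    | H g =>
      have h0 := congrFun hc 0
      have h1 := congrFun hc 1
      rw [mulVec_e3, hτ₂, hτ₁] at h0 h1
      simp [e3] at h0 h1
      have h3 : Matrix.mulVec (τ g) (e3 k₀) = (τ g 2 2) • e3 k₀ := by
        ext i
        rw [mulVec_e3]
        fin_cases i
        · simp [e3, h0]
        · simp [e3, h1]
        · simp [e3]
      have h4 := hst g _ h3
      have h6 := mem_of_comm ρb hinj hx hidx h4
      have h7 : ((g : H))⁻¹ ∈ normalizer (zpowers x₁ : Set H) := by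
        apply mem_normalizer_of_conj hx₁o
        rw [inv_inv]
        obtain ⟨i, hi⟩ := Subgroup.mem_zpowers_iff.1 h6
        have h8 : (g : H) * x₁ * ((g : H))⁻¹ = x₁ ^ i := by
          rw [hx₁, ← QuotientGroup.mk_zpow, hi]
          rfl
        rw [h8]
        exact Subgroup.zpow_mem _ (mem_zpowers x₁) i
      simpa using (normalizer (zpowers x₁ : Set H)).inv_mem h7
  have hnn₁ : ¬ (zpowers x₁).Normal := by
    intro hN
    apply hnn'
    have hmem : ∀ g : G, g * x * g⁻¹ ∈ zpowers x := by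
      intro g
      have h1 : (g : H) * x₁ * ((g : H))⁻¹ ∈ zpowers x₁ := hN.conj_mem _ (mem_zpowers x₁) _
      have hfin : IsOfFinOrder x₁ := isOfFinOrder_of_finite x₁
      obtain ⟨j, hj⟩ := hfin.mem_powers_iff_mem_zpowers.2 h1
      have h3 := hL1 g j hj.symm
      rw [h3]
      exact Subgroup.pow_mem _ (mem_zpowers x) j
    refine ⟨fun u hu g => ?_⟩
    obtain ⟨i, rfl⟩ := Subgroup.mem_zpowers_iff.1 hu
    rw [← conj_zpow]
    exact Subgroup.zpow_mem _ (hmem g) i
  have hC₁ := centralizer_eq hinj₂ h5 hx₁o hidx₁ hτ₁x hw₁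
  have hconj : conjSub hx₁p = conjSub hxp := by
    ext c
    rw [mem_conjSub, mem_conjSub]
    constructor
    · rintro ⟨g₁, hg₁⟩
      induction g₁ using QuotientGroup.induction_on with
      | H g => exact ⟨g, hL1 g _ hg₁⟩
    · rintro ⟨g, hg⟩
      refine ⟨(g : H), ?_⟩
      have h1 : ((g * x * g⁻¹ : G) : H) = ((x ^ (c : ZMod p).val : G) : H) := by rw [hg]
      exact h1
  have hN₁ : Nat.card (normalizer (zpowers x₁ : Set H)) = p * t := by
    rw [card_normalizer hx₁o hx₁p hC₁, hconj, het]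
  exact conic_main hpt ht hinj₂ hx₁o hidx₁ hτ₁x hw₁ hst₁ hN₁ hnn₁

end CharP

end Cfsg.Agent.Lib.WeilG
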