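import Mathlib
import Cfsg.Agent.S0997
import Cfsg.Agent.S4501
import Cfsg.Agent.Lib.ClassicalSmall
import Cfsg.Agent.Lib.Five4
import Cfsg.Agent.Lib.OrdR3640A

/-!
# Simple groups of order `p * r * q ^ b`: numeric part and the reduction to S0997.
-/

set_option autoImplicit false
set_option linter.style.haveILetI false

namespace Cfsg.Agent.Lib.S0998Aux

open Cfsg.Agent.Lib

/-- Extraction: from `r * q ^ b = 2 ^ m * w` with `w > 1` odd, `m ≥ 2`, distinct primes. -/
theorem extract {r q b m w : ℕ} (hr : r.Prime) (hq : q.Prime) (hqr : q ≠ r) (hm : 2 ≤ m)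
    (hw : Odd w) (h : r * q ^ b = 2 ^ m * w) : q = 2 ∧ r = w := by
  have h2 : 2 ∣ r * q ^ b := by
    rw [h]
    exact Dvd.dvd.mul_right (dvd_pow_self 2 (by omega)) w
  rcases (Nat.Prime.dvd_mul Nat.prime_two).1 h2 with h3 | h3
  · exfalso
    have hr2 : r = 2 := ((Nat.prime_dvd_prime_iff_eq Nat.prime_two hr).1 h3).symm
    subst hr2
    have hq2 : ¬ 2 ∣ q := by
      intro h4
      exact hqr ((Nat.prime_dvd_prime_iff_eq Nat.prime_two hq).1 h4).symm
    obtain ⟨k, rfl⟩ : ∃ k, m = k + 2 := ⟨m - 2, by omega⟩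
    have h5 : q ^ b = 2 * (2 ^ k * w) := by
      have : 2 * q ^ b = 2 * (2 * (2 ^ k * w)) := by rw [h]; ring
      omega
    have h6 : 2 ∣ q ^ b := by rw [h5]; exact dvd_mul_right 2 _
    exact hq2 (Nat.prime_two.dvd_of_dvd_pow h6)
  · have hq2 : q = 2 := ((Nat.prime_dvd_prime_iff_eq Nat.prime_two hq).1
      (Nat.prime_two.dvd_of_dvd_pow h3)).symm
    subst hq2
    refine ⟨rfl, ?_⟩
    have hr2 : r ≠ 2 := fun e => hqr e.symm
    have hc1 : Nat.Coprime r (2 ^ m) := by
      apply Nat.Coprime.pow_right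
      exact (Nat.coprime_primes hr Nat.prime_two).2 hr2
    have hc2 : Nat.Coprime w (2 ^ b) := by
      apply Nat.Coprime.pow_right
      exact Nat.coprime_two_right.2 hw
    have h7 : r ∣ w := by
      apply hc1.dvd_of_dvd_mul_left
      rw [← h]
      exact dvd_mul_right _ _
    have h8 : w ∣ r := by
      apply hc2.dvd_of_dvd_mul_right
      rw [h]
      exact dvd_mul_left _ _
    exact Nat.dvd_antisymm h7 h8

theorem three_dvd_two_pow_add_one {m : ℕ} (h : Odd m) : 3 ∣ 2 ^ m + 1 := by
  have := Odd.nat_add_dvd_pow_add_pow 2 1 h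
  simpa using this

theorem three_dvd_two_pow_sub_one {m : ℕ} (h : Even m) : 3 ∣ 2 ^ m - 1 := by
  obtain ⟨k, rfl⟩ := h
  have h1 : (2:ℕ) ^ (k + k) = 4 ^ k := by rw [← two_mul, pow_mul]; norm_num
  rw [h1]
  have := Nat.sub_dvd_pow_sub_pow 4 1 k
  simpa using this

theorem two_pow_inj {a b : ℕ} (h : 2 ^ a = 2 ^ b) : a = b :=
  Nat.pow_right_injective (le_refl 2) h

section iso
variable {G : Type*} [Group G] [Finite G] [IsSimpleGroup G]

/-- A non-abelian simple group of order 60 is `PSL_2(5)`. -/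
theorem iso_of_card_60 (hna : ∃ x y : G, x * y ≠ y * x) (h : Nat.card G = 60) :
    Nonempty (G ≃* Matrix.ProjectiveSpecialLinearGroup (Fin 2) (ZMod 5)) := by
  haveI : Fact (Nat.Prime 5) := ⟨by norm_num⟩
  have hc : Fintype.card (ZMod 5) = 5 := ZMod.card 5
  have hq' : 4 ≤ Nat.card (ZMod 5) := by
    rw [Nat.card_eq_fintype_card, hc]; norm_num
  haveI hs : IsSimpleGroup (Matrix.ProjectiveSpecialLinearGroup (Fin 2) (ZMod 5)) :=
    Matrix.ProjectiveSpecialLinearGroup.rank_two_simple hq'
  have hcp : Nat.card (Matrix.ProjectiveSpecialLinearGroup (Fin 2) (ZMod 5)) = 60 := by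
    have := ClassicalSmall.card_PSL2 (F := ZMod 5)
    rw [hc] at this
    have h2 : Nat.gcd 2 (5 - 1) = 2 := by decide
    rw [h2] at this
    omega
  have hnp : ∃ x y : Matrix.ProjectiveSpecialLinearGroup (Fin 2) (ZMod 5), x * y ≠ y * x := by
    apply OrdR3640A.exists_noncomm
    intro hcomm
    have := SmallGroups2.card_prime_of_isMulCommutative hcomm
    rw [hcp] at this
    norm_num at this
  have e1 := (Cfsg.Agent.S4501.result hna 3 5 1 1 Nat.prime_three (by norm_num) (by norm_num)
    (by norm_num)).1 (by rw [h]; norm_num)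
  have e2 := (Cfsg.Agent.S4501.result hnp 3 5 1 1 Nat.prime_three (by norm_num) (by norm_num)
    (by norm_num)).1 (by rw [hcp]; norm_num)
  obtain ⟨e1⟩ := e1
  obtain ⟨e2⟩ := e2
  exact ⟨e1.trans e2.symm⟩

theorem concl_five (hna : ∃ x y : G, x * y ≠ y * x) (h : Nat.card G = 60) :
    (∃ (F : Type) (_ : Field F) (_ : Fintype F), Fintype.card F = 5 ∧
      Nonempty (G ≃* Matrix.ProjectiveSpecialLinearGroup (Fin 2) F)) := by
  haveI : Fact (Nat.Prime 5) := ⟨by norm_num⟩
  exact ⟨ZMod 5, inferInstance, inferInstance, ZMod.card 5, iso_of_card_60 hna h⟩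

/-- The main case, with `r < p`. -/
theorem main_lt (hG : ¬ IsCyclic G) (p q r b : ℕ) (hp : p.Prime) (hq : q.Prime) (hr : r.Prime)
    (hpq : p ≠ q) (hpr : p ≠ r) (hqr : q ≠ r) (hG' : Nat.card G = p * r * q ^ b) (hlt : r < p) :
    (∃ (F : Type) (_ : Field F) (_ : Fintype F), Fintype.card F = 5 ∧
      Nonempty (G ≃* Matrix.ProjectiveSpecialLinearGroup (Fin 2) F)) ∨
    (∃ (F : Type) (_ : Field F) (_ : Fintype F), Fintype.card F = 7 ∧
      Nonempty (G ≃* Matrix.ProjectiveSpecialLinearGroup (Fin 2) F)) := by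
  have hnc : ¬ IsMulCommutative G := by
    intro hc
    have hp' := SmallGroups2.card_prime_of_isMulCommutative hc
    haveI : Fact (Nat.card G).Prime := ⟨hp'⟩
    exact hG (isCyclic_of_prime_card rfl)
  have hna := OrdR3640A.exists_noncomm hnc
  have hr2 := hr.two_le
  by_cases hrp : r = p - 1
  · exfalso
    -- `r` and `p` consecutive primes
    have hp3 : p = 3 ∧ r = 2 := by
      have hp2 := hp.two_le
      have : p = r + 1 := by omega
      rcases hr.eq_two_or_odd with h | h
      · omega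
      · rcases hp.eq_two_or_odd with h' | h'
        · omega
        · omega
    obtain ⟨rfl, rfl⟩ := hp3
    have h1 := (Cfsg.Agent.S4501.result hna 2 q 1 b Nat.prime_two hq (fun e => hqr e.symm)
      (by norm_num)).2 (by rw [hG']; ring)
    have hq2 : ¬ 2 ∣ q ^ b := by
      intro h4
      exact hqr ((Nat.prime_dvd_prime_iff_eq Nat.prime_two hq).1
        (Nat.prime_two.dvd_of_dvd_pow h4)).symm
    rcases h1 with ⟨⟨e⟩⟩ | ⟨⟨e⟩⟩
    · have h2 : Nat.card G = 60 := by
        rw [Nat.card_congr e.toEquiv]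
        exact Five4.card_A5
      rw [hG'] at h2
      apply hq2
      have : q ^ b = 10 := by omega
      rw [this]; norm_num
    · have h2 : Nat.card G = 168 := by
        rw [Nat.card_congr e.toEquiv]
        haveI : Fact (Nat.Prime 7) := ⟨by norm_num⟩
        have := ClassicalSmall.card_PSL2 (F := ZMod 7)
        rw [ZMod.card 7] at this
        have h2 : Nat.gcd 2 (7 - 1) = 2 := by decide
        rw [h2] at this
        omega
      rw [hG'] at h2
      apply hq2
      have : q ^ b = 28 := by omega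
      rw [this]; norm_num
  have hp5 : 5 ≤ p := by
    -- `p ≥ 5` as `r < p - 1`
    have hp2 := hp.two_le
    have h4 : p ≠ 4 := by
      rintro rfl
      norm_num at hp
    omega
  have hpodd : Odd p := hp.odd_of_ne_two (by omega)
  have hnot3 : ∀ {k : ℕ}, 3 ∣ k → k = p → False := by
    rintro k ⟨j, rfl⟩ rfl
    have : (3 * j).Prime := hp
    rw [Nat.prime_mul_iff] at this
    norm_num at this
    omega
  rcases Cfsg.Agent.S0997.result hG p q b r hp hq hpq (by rw [hG']; ring) (by omega) with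
    ⟨m, F, _, _, hF, hpm, ⟨e⟩⟩ | ⟨m, F, _, _, hF, hpm, h3p, ⟨e⟩⟩
  · have hc := ClassicalSmall.card_PSL2 (F := F)
    rw [← Nat.card_congr e.toEquiv, hG', hF] at hc
    have hgcd : Nat.gcd 2 (p - 1) = 2 := by
      apply Nat.gcd_eq_left
      obtain ⟨k, hk⟩ := hpodd
      exact ⟨k, by omega⟩
    rw [hgcd] at hc
    have hp0 : 0 < p := by omega
    rcases hpm with hpm | hpm
    · -- `p = 2 ^ m + 1`
      have hm : 2 ≤ m := by
        by_contra hm
        have : m = 0 ∨ m = 1 := by omega
        rcases this with rfl | rfl <;> omega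
      obtain ⟨k, rfl⟩ : ∃ k, m = k + 1 := ⟨m - 1, by omega⟩
      have hk1 : 1 ≤ k := by omega
      have h2k : (2:ℕ) ^ (k + 1) = 2 * 2 ^ k := by ring
      have hnum : r * q ^ b = 2 ^ (k + 1) * (2 ^ k + 1) := by
        have e1 : p - 1 = 2 * 2 ^ k := by omega
        have e2 : p + 1 = 2 * (2 ^ k + 1) := by omega
        rw [e1, e2] at hc
        have : p * (2 * (r * q ^ b)) = p * (2 * (2 * 2 ^ k * (2 ^ k + 1))) := by
          calc p * (2 * (r * q ^ b)) = 2 * (p * r * q ^ b) := by ring
            _ = _ := hc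
            _ = _ := by ring
        have := Nat.eq_of_mul_eq_mul_left hp0 this
        have := Nat.eq_of_mul_eq_mul_left (by norm_num : 0 < 2) this
        rw [this, h2k]
      have hodd : Odd (2 ^ k + 1) := by
        have : Even (2 ^ k) := (Nat.even_pow.2 ⟨even_two, by omega⟩)
        exact this.add_one
      obtain ⟨hq2, hrw⟩ := extract hr hq hqr (by omega) hodd hnum
      rcases Nat.even_or_odd k with hke | hko
      · exfalso
        have : Odd (k + 1) := hke.add_one
        exact hnot3 (three_dvd_two_pow_add_one this) hpm.symm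
      · have h3 := three_dvd_two_pow_add_one hko
        rw [← hrw] at h3
        have hr3 : r = 3 := ((Nat.prime_dvd_prime_iff_eq Nat.prime_three hr).1 h3).symm
        have hk2 : 2 ^ k = 2 ^ 1 := by omega
        have hk : k = 1 := two_pow_inj hk2
        subst hk
        have hp5' : p = 5 := by omega
        left
        exact ⟨F, _, _, by rw [hF, hp5'], ⟨e⟩⟩
    · -- `p = 2 ^ m - 1`
      have hm : 3 ≤ m := by
        by_contra hm
        have : m = 0 ∨ m = 1 ∨ m = 2 := by omega
        rcases this with rfl | rfl | rfl <;> omega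
      obtain ⟨k, rfl⟩ : ∃ k, m = k + 1 := ⟨m - 1, by omega⟩
      have hk1 : 2 ≤ k := by omega
      have h2k : (2:ℕ) ^ (k + 1) = 2 * 2 ^ k := by ring
      have h4k : 4 ≤ 2 ^ k := by
        calc 4 = 2 ^ 2 := by norm_num
          _ ≤ 2 ^ k := Nat.pow_le_pow_right (by norm_num) hk1
      have hnum : r * q ^ b = 2 ^ (k + 1) * (2 ^ k - 1) := by
        have e1 : p - 1 = 2 * (2 ^ k - 1) := by omega
        have e2 : p + 1 = 2 * 2 ^ k := by omega
        rw [e1, e2] at hc
        have : p * (2 * (r * q ^ b)) = p * (2 * (2 * 2 ^ k * (2 ^ k - 1))) := by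
          calc p * (2 * (r * q ^ b)) = 2 * (p * r * q ^ b) := by ring
            _ = _ := hc
            _ = _ := by ring
        have := Nat.eq_of_mul_eq_mul_left hp0 this
        have := Nat.eq_of_mul_eq_mul_left (by norm_num : 0 < 2) this
        rw [this, h2k]
      have hodd : Odd (2 ^ k - 1) := by
        have : Even (2 ^ k) := (Nat.even_pow.2 ⟨even_two, by omega⟩)
        obtain ⟨j, hj⟩ := this
        exact ⟨j - 1, by omega⟩
      obtain ⟨hq2, hrw⟩ := extract hr hq hqr (by omega) hodd hnum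
      rcases Nat.even_or_odd k with hke | hko
      · have h3 := three_dvd_two_pow_sub_one hke
        rw [← hrw] at h3
        have hr3 : r = 3 := ((Nat.prime_dvd_prime_iff_eq Nat.prime_three hr).1 h3).symm
        have hk2 : 2 ^ k = 2 ^ 2 := by omega
        have hk : k = 2 := two_pow_inj hk2
        subst hk
        have hp7 : p = 7 := by omega
        right
        exact ⟨F, _, _, by rw [hF, hp7], ⟨e⟩⟩
      · exfalso
        have : Even (k + 1) := hko.add_one
        exact hnot3 (three_dvd_two_pow_sub_one this) hpm.symm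
  · -- `|F| = 2 ^ m`, `p = 2 ^ m + 1`
    have hc := ClassicalSmall.card_PSL2 (F := F)
    rw [← Nat.card_congr e.toEquiv, hG', hF] at hc
    have hm : 2 ≤ m := by
      by_contra hm
      have : m = 0 ∨ m = 1 := by omega
      rcases this with rfl | rfl <;> omega
    have h4m : 4 ≤ 2 ^ m := by
      calc 4 = 2 ^ 2 := by norm_num
        _ ≤ 2 ^ m := Nat.pow_le_pow_right (by norm_num) hm
    have hevenm : Even (2 ^ m) := (Nat.even_pow.2 ⟨even_two, by omega⟩)
    have hodd : Odd (2 ^ m - 1) := by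
      obtain ⟨j, hj⟩ := hevenm
      exact ⟨j - 1, by omega⟩
    have hgcd : Nat.gcd 2 (2 ^ m - 1) = 1 := by
      exact Nat.coprime_two_left.2 hodd
    rw [hgcd, one_mul, ← hpm] at hc
    have hp0 : 0 < p := by omega
    have hnum : r * q ^ b = 2 ^ m * (2 ^ m - 1) := by
      have : p * (r * q ^ b) = p * (2 ^ m * (2 ^ m - 1)) := by
        calc p * (r * q ^ b) = p * r * q ^ b := by ring
          _ = _ := hc
          _ = _ := by ring
      exact Nat.eq_of_mul_eq_mul_left hp0 this
    obtain ⟨hq2, hrw⟩ := extract hr hq hqr hm hodd hnum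
    rcases Nat.even_or_odd m with hke | hko
    · have h3 := three_dvd_two_pow_sub_one hke
      rw [← hrw] at h3
      have hr3 : r = 3 := ((Nat.prime_dvd_prime_iff_eq Nat.prime_three hr).1 h3).symm
      have hk2 : 2 ^ m = 2 ^ 2 := by omega
      have hk : m = 2 := two_pow_inj hk2
      subst hk
      have hp5' : p = 5 := by omega
      left
      apply concl_five hna
      rw [hG', hp5', hr3, hq2]
      have hb : b = 2 := by
        subst hq2
        subst hr3
        have : 3 * 2 ^ b = 3 * 2 ^ 2 := by rw [hnum]; norm_num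
        exact two_pow_inj (Nat.eq_of_mul_eq_mul_left (by norm_num) this)
      rw [hb]
      norm_num
    · exfalso
      exact hnot3 (three_dvd_two_pow_add_one hko) hpm.symm

/-- The statement. -/
theorem main (hG : ¬ IsCyclic G) (p q r b : ℕ) (hp : p.Prime) (hq : q.Prime) (hr : r.Prime)
    (hpq : p ≠ q) (hpr : p ≠ r) (hqr : q ≠ r) (hG' : Nat.card G = p * r * q ^ b) :
    (∃ (F : Type) (_ : Field F) (_ : Fintype F), Fintype.card F = 5 ∧
      Nonempty (G ≃* Matrix.ProjectiveSpecialLinearGroup (Fin 2) F)) ∨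
    (∃ (F : Type) (_ : Field F) (_ : Fintype F), Fintype.card F = 7 ∧
      Nonempty (G ≃* Matrix.ProjectiveSpecialLinearGroup (Fin 2) F)) := by
  rcases lt_or_gt_of_ne hpr with h | h
  · exact main_lt hG r q p b hr hq hp hqr.symm hpr.symm hpq.symm (by rw [hG']; ring) h
  · exact main_lt hG p q r b hp hq hr hpq hpr hqr hG' h

end iso

end Cfsg.Agent.Lib.S0998Aux
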