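import Mathlib
import Cfsg.Prelude.Def_Sporadic_a
import Cfsg.Agent.Lib.Steiner

set_option autoImplicit false
set_option linter.unusedSectionVars false
set_option linter.unusedSimpArgs false

/-!
# Counting in a Steiner system S(3,6,22)
-/

namespace Cfsg.Agent.Lib.S322
open Finset Cfsg Cfsg.Agent.Lib.Steiner

variable {α : Type*} [Fintype α] [DecidableEq α] {B : Set (Finset α)}

theorem lam0 (hα : Fintype.card α = 22) (hB : IsSteinerSystem 3 6 B) :
    (blocksOver B ∅).card = 77 := by
  have := card_blocksOver_mul hα hB (∅ : Finset α) (by simp)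
  simp at this
  have h1 : Nat.choose 6 3 = 20 := by decide
  have h2 : Nat.choose 22 3 = 1540 := by decide
  rw [h1, h2] at this
  omega

theorem lam1 (hα : Fintype.card α = 22) (hB : IsSteinerSystem 3 6 B) {s : Finset α}
    (hs : s.card = 1) : (blocksOver B s).card = 21 := by
  have := card_blocksOver_mul hα hB s (by omega)
  rw [hs] at this
  have h1 : Nat.choose 5 2 = 10 := by decide
  have h2 : Nat.choose 21 2 = 210 := by decide
  simp only [Nat.reduceSub, h1, h2] at this
  omega

theorem lam2 (hα : Fintype.card α = 22) (hB : IsSteinerSystem 3 6 B) {s : Finset α}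
    (hs : s.card = 2) : (blocksOver B s).card = 5 := by
  have := card_blocksOver_mul hα hB s (by omega)
  rw [hs] at this
  have h1 : Nat.choose 4 1 = 4 := by decide
  have h2 : Nat.choose 20 1 = 20 := by decide
  simp only [Nat.reduceSub, h1, h2] at this
  omega

theorem lam3 (hα : Fintype.card α = 22) (hB : IsSteinerSystem 3 6 B) {s : Finset α}
    (hs : s.card = 3) : (blocksOver B s).card = 1 := by
  have := card_blocksOver_mul hα hB s (by omega)
  rw [hs] at this
  simpa using this

theorem filter_blocksOver_empty (P : Finset α) :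
    (blocksOver B ∅).filter (fun d => P ⊆ d) = blocksOver B P := by
  ext d
  simp [mem_blocksOver]

/-- The size of the trace on `Y`. -/
abbrev tr (Y d : Finset α) : ℕ := (d ∩ Y).card

theorem sum_choose_0 (hα : Fintype.card α = 22) (hB : IsSteinerSystem 3 6 B) (Y : Finset α) :
    ∑ d ∈ blocksOver B ∅, (tr Y d).choose 0 = 77 := by
  simp [lam0 hα hB]

theorem sum_choose_1 (hα : Fintype.card α = 22) (hB : IsSteinerSystem 3 6 B) (Y : Finset α) :
    ∑ d ∈ blocksOver B ∅, (tr Y d).choose 1 = Y.card.choose 1 * 21 := by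
  rw [sum_choose_inter]
  simp only [filter_blocksOver_empty]
  rw [sum_congr rfl (g := fun _ => 21), sum_const, card_powersetCard, smul_eq_mul]
  intro P hP
  exact lam1 hα hB (mem_powersetCard.1 hP).2

theorem sum_choose_2 (hα : Fintype.card α = 22) (hB : IsSteinerSystem 3 6 B) (Y : Finset α) :
    ∑ d ∈ blocksOver B ∅, (tr Y d).choose 2 = Y.card.choose 2 * 5 := by
  rw [sum_choose_inter]
  simp only [filter_blocksOver_empty]
  rw [sum_congr rfl (g := fun _ => 5), sum_const, card_powersetCard, smul_eq_mul]
  intro P hP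
  exact lam2 hα hB (mem_powersetCard.1 hP).2

theorem sum_choose_3 (hα : Fintype.card α = 22) (hB : IsSteinerSystem 3 6 B) (Y : Finset α) :
    ∑ d ∈ blocksOver B ∅, (tr Y d).choose 3 = Y.card.choose 3 := by
  rw [sum_choose_inter]
  simp only [filter_blocksOver_empty]
  rw [sum_congr rfl (g := fun _ => 1), sum_const, card_powersetCard, smul_eq_mul, mul_one]
  intro P hP
  exact lam3 hα hB (mem_powersetCard.1 hP).2

/-- The general polynomial sum over blocks. -/
theorem sum_poly (hα : Fintype.card α = 22) (hB : IsSteinerSystem 3 6 B) (Y : Finset α)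
    (c0 c1 c2 c3 : ℤ) :
    ∑ d ∈ blocksOver B ∅, (c0 + c1 * ((tr Y d).choose 1 : ℤ) + c2 * ((tr Y d).choose 2 : ℤ)
        + c3 * ((tr Y d).choose 3 : ℤ))
      = c0 * 77 + c1 * ((Y.card.choose 1 * 21 : ℕ) : ℤ) + c2 * ((Y.card.choose 2 * 5 : ℕ) : ℤ)
        + c3 * ((Y.card.choose 3 : ℕ) : ℤ) := by
  rw [← sum_choose_1 hα hB, ← sum_choose_2 hα hB, ← sum_choose_3 hα hB]
  simp only [sum_add_distrib, ← mul_sum, Nat.cast_sum, sum_const, lam0 hα hB]
  simp [mul_comm]

theorem inter_le_two (hB : IsSteinerSystem 3 6 B) {b c : Finset α} (hb : b ∈ B) (hc : c ∈ B)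
    (hne : b ≠ c) : (b ∩ c).card ≤ 2 := by
  by_contra h
  push Not at h
  obtain ⟨T, hT, hTc⟩ := Finset.exists_subset_card_eq (s := b ∩ c) (n := 3) (by omega)
  obtain ⟨e, -, hu⟩ := hB.2 T hTc
  have h1 := hu b ⟨hb, hT.trans inter_subset_left⟩
  have h2 := hu c ⟨hc, hT.trans inter_subset_right⟩
  exact hne (h1.trans h2.symm)

theorem card_self_block (hB : IsSteinerSystem 3 6 B) {b : Finset α} (hb : b ∈ B) : b.card = 6 :=
  hB.1 b hb

theorem mem_BF {b : Finset α} : b ∈ blocksOver B ∅ ↔ b ∈ B := by
  simp [mem_blocksOver]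

/-- Two distinct blocks meet in 0 or 2 points. -/
theorem inter_zero_or_two (hα : Fintype.card α = 22) (hB : IsSteinerSystem 3 6 B) {b c : Finset α}
    (hb : b ∈ B) (hc : c ∈ B) (hne : b ≠ c) : (c ∩ b).card = 0 ∨ (c ∩ b).card = 2 := by
  have h1 := sum_choose_1 hα hB b
  have h2 := sum_choose_2 hα hB b
  rw [card_self_block hB hb] at h1 h2
  have hbm : b ∈ blocksOver B ∅ := mem_BF.2 hb
  rw [← add_sum_erase _ _ hbm] at h1 h2
  have h6 : tr b b = 6 := by simp [tr, card_self_block hB hb]
  rw [h6] at h1 h2
  norm_num [Nat.choose] at h1 h2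
  have hle : ∀ d ∈ (blocksOver B ∅).erase b, 2 * (tr b d).choose 2 ≤ (tr b d).choose 1 := by
    intro d hd
    have hd' := mem_erase.1 hd
    have : tr b d ≤ 2 := by
      have := inter_le_two hB (mem_BF.1 hd'.2) hb hd'.1
      simpa [tr] using this
    interval_cases (tr b d) <;> simp [Nat.choose]
  have heq : ∑ d ∈ (blocksOver B ∅).erase b, 2 * (tr b d).choose 2
      = ∑ d ∈ (blocksOver B ∅).erase b, (tr b d).choose 1 := by
    rw [← mul_sum]
    simp only [Nat.choose_one_right] at h1 ⊢
    omega
  have := (sum_eq_sum_iff_of_le hle).1 heq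
  have h3 := this c (mem_erase.2 ⟨hne.symm, mem_BF.2 hc⟩)
  have h4 : tr b c ≤ 2 := by
    have := inter_le_two hB hc hb hne.symm
    simpa [tr] using this
  have h5 : tr b c = 0 ∨ tr b c = 2 := by
    interval_cases (tr b c) <;> simp [Nat.choose] at h3 ⊢
  simpa [tr] using h5

/-- Number of blocks disjoint from a block. -/
theorem card_disjoint_block (hα : Fintype.card α = 22) (hB : IsSteinerSystem 3 6 B) {b : Finset α}
    (hb : b ∈ B) : ((blocksOver B ∅).filter (fun d => Disjoint d b)).card = 16 := by
  have h := sum_poly hα hB b 2 (-1) 0 0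
  rw [card_self_block hB hb] at h
  norm_num [Nat.choose] at h
  have hbm : b ∈ blocksOver B ∅ := mem_BF.2 hb
  rw [← add_sum_erase _ _ hbm] at h
  have h6 : tr b b = 6 := by simp [tr, card_self_block hB hb]
  rw [h6] at h
  have key : ∀ d ∈ (blocksOver B ∅).erase b,
      (2 + -(tr b d : ℤ)) = 2 * (if Disjoint d b then 1 else 0) := by
    intro d hd
    have hd' := mem_erase.1 hd
    rcases inter_zero_or_two hα hB hb (mem_BF.1 hd'.2) hd'.1.symm with h0 | h0
    · have : Disjoint d b := by
        rw [Finset.disjoint_iff_inter_eq_empty]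
        exact card_eq_zero.1 h0
      simp [this, tr, h0]
    · have : ¬ Disjoint d b := by
        rw [Finset.disjoint_iff_inter_eq_empty]
        intro h'
        rw [h'] at h0
        simp at h0
      simp [this, tr, h0]
  rw [sum_congr rfl key, ← mul_sum, sum_boole] at h
  have h7 : ((blocksOver B ∅).erase b).filter (fun d => Disjoint d b)
      = (blocksOver B ∅).filter (fun d => Disjoint d b) := by
    ext d
    simp only [mem_filter, mem_erase]
    constructor
    · rintro ⟨⟨_, h⟩, h'⟩; exact ⟨h, h'⟩
    · rintro ⟨h, h'⟩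
      refine ⟨⟨?_, h⟩, h'⟩
      rintro rfl
      have := card_self_block hB hb
      rw [Finset.disjoint_self_iff_empty] at h'
      simp [h'] at this
  rw [h7] at h
  norm_num at h
  omega

theorem block_nonempty (hB : IsSteinerSystem 3 6 B) {b : Finset α} (hb : b ∈ B) : b.Nonempty := by
  rw [← card_pos, card_self_block hB hb]; omega

/-- Split off two blocks. -/
theorem sum_split {b c : Finset α} (hb : b ∈ B) (hc : c ∈ B) (hne : b ≠ c) (F : Finset α → ℤ) :
    ∑ d ∈ blocksOver B ∅, F d = F b + F c + ∑ d ∈ ((blocksOver B ∅).erase b).erase c, F d := by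
  have h1 : b ∈ blocksOver B ∅ := mem_BF.2 hb
  have h2 : c ∈ (blocksOver B ∅).erase b := mem_erase.2 ⟨hne.symm, mem_BF.2 hc⟩
  rw [← add_sum_erase _ _ h1, ← add_sum_erase _ _ h2, add_assoc]

theorem card_inter_union (d b c : Finset α) :
    (d ∩ (b ∪ c)).card + (d ∩ (b ∩ c)).card = (d ∩ b).card + (d ∩ c).card := by
  rw [inter_union_distrib_left]
  have h := card_union_add_card_inter (d ∩ b) (d ∩ c)
  have h2 : d ∩ b ∩ (d ∩ c) = d ∩ (b ∩ c) := by
    ext x; simp only [mem_inter]; tauto
  rw [h2] at h
  exact h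

theorem tr_eq_zero_iff {d Y : Finset α} : tr Y d = 0 ↔ Disjoint d Y := by
  rw [Finset.disjoint_iff_inter_eq_empty, tr, card_eq_zero]

theorem disjoint_union_iff' {d b c : Finset α} : Disjoint d (b ∪ c) ↔ Disjoint d b ∧ Disjoint d c :=
  disjoint_union_right

/-- Blocks disjoint from both of two disjoint blocks: none. -/
theorem no_triangle (hα : Fintype.card α = 22) (hB : IsSteinerSystem 3 6 B) {b c d : Finset α}
    (hb : b ∈ B) (hc : c ∈ B) (hd : d ∈ B) (hbc : Disjoint b c) (hdb : Disjoint d b)
    (hdc : Disjoint d c) : False := by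
  have hne : b ≠ c := by
    rintro rfl
    rw [Finset.disjoint_self_iff_empty] at hbc
    have := card_self_block hB hb
    simp [hbc] at this
  have hne1 : d ≠ b := by
    rintro rfl
    rw [Finset.disjoint_self_iff_empty] at hdb
    have := card_self_block hB hb
    simp [hdb] at this
  have hne2 : d ≠ c := by
    rintro rfl
    rw [Finset.disjoint_self_iff_empty] at hdc
    have := card_self_block hB hc
    simp [hdc] at this
  set Y := b ∪ c with hY
  have hcardY : Y.card = 12 := by
    rw [hY, card_union_of_disjoint hbc, card_self_block hB hb, card_self_block hB hc]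
  have h := sum_poly hα hB Y 8 (-5) 2 0
  rw [hcardY] at h
  norm_num [Nat.choose] at h
  rw [sum_split hb hc hne] at h
  have hbY : tr Y b = 6 := by
    have : b ∩ Y = b := by rw [inter_eq_left]; exact subset_union_left
    simp [tr, this, card_self_block hB hb]
  have hcY : tr Y c = 6 := by
    have : c ∩ Y = c := by rw [inter_eq_left]; exact subset_union_right
    simp [tr, this, card_self_block hB hc]
  rw [hbY, hcY] at h
  norm_num [Nat.choose] at h
  have key : ∀ e ∈ ((blocksOver B ∅).erase b).erase c,
      8 + -(5 * ((tr Y e : ℕ) : ℤ)) + 2 * (((tr Y e).choose 2 : ℕ) : ℤ) ≥ 0 ∧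
      (e = d → 8 + -(5 * ((tr Y e : ℕ) : ℤ)) + 2 * (((tr Y e).choose 2 : ℕ) : ℤ) = 8) := by
    intro e he
    have he' := mem_erase.1 he
    have he'' := mem_erase.1 he'.2
    have heB := mem_BF.1 he''.2
    have h1 := card_inter_union e b c
    have h2 : (e ∩ (b ∩ c)) = ∅ := by
      rw [Finset.disjoint_iff_inter_eq_empty.1 hbc]; simp
    rw [h2, card_empty, add_zero] at h1
    have h3 := inter_zero_or_two hα hB hb heB he''.1.symm
    have h4 := inter_zero_or_two hα hB hc heB he'.1.symm
    have h1' : tr Y e = (e ∩ b).card + (e ∩ c).card := h1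
    constructor
    · rcases h3 with h3 | h3 <;> rcases h4 with h4 | h4 <;> rw [h3, h4] at h1' <;> rw [h1'] <;>
        norm_num [Nat.choose]
    · rintro rfl
      have h5 : tr Y e = 0 := tr_eq_zero_iff.2 (disjoint_union_iff'.2 ⟨hdb, hdc⟩)
      rw [h5]
      norm_num
  have hdmem : d ∈ ((blocksOver B ∅).erase b).erase c :=
    mem_erase.2 ⟨hne2, mem_erase.2 ⟨hne1, mem_BF.2 hd⟩⟩
  have hsum := Finset.single_le_sum (f := fun e => 8 + -(5 * ((tr Y e : ℕ) : ℤ)) + 2 * (((tr Y e).choose 2 : ℕ) : ℤ))
    (fun e he => (key e he).1) hdmem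
  rw [(key d hdmem).2 rfl] at hsum
  linarith

/-- Blocks disjoint from both of two blocks meeting in 2 points: exactly 4. -/
theorem card_disjoint_meeting (hα : Fintype.card α = 22) (hB : IsSteinerSystem 3 6 B) {b c : Finset α}
    (hb : b ∈ B) (hc : c ∈ B) (hbc : (c ∩ b).card = 2) :
    ((blocksOver B ∅).filter (fun d => Disjoint d b ∧ Disjoint d c)).card = 4 := by
  have hne : b ≠ c := by
    rintro rfl
    have := card_self_block hB hb
    rw [inter_self] at hbc
    omega
  set Y := b ∪ c with hY
  have hcardY : Y.card = 10 := by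
    have := card_union_add_card_inter b c
    rw [card_self_block hB hb, card_self_block hB hc, inter_comm b c, hbc] at this
    rw [hY]; omega
  have h := sum_poly hα hB Y 4 (-3) 2 (-1)
  rw [hcardY] at h
  norm_num [Nat.choose] at h
  rw [sum_split hb hc hne] at h
  have hbY : tr Y b = 6 := by
    have : b ∩ Y = b := by rw [inter_eq_left]; exact subset_union_left
    simp [tr, this, card_self_block hB hb]
  have hcY : tr Y c = 6 := by
    have : c ∩ Y = c := by rw [inter_eq_left]; exact subset_union_right
    simp [tr, this, card_self_block hB hc]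
  rw [hbY, hcY] at h
  norm_num [Nat.choose] at h
  have key : ∀ e ∈ ((blocksOver B ∅).erase b).erase c,
      (4 + -(3 * ((tr Y e : ℕ) : ℤ)) + 2 * (((tr Y e).choose 2 : ℕ) : ℤ) + -(((tr Y e).choose 3 : ℕ) : ℤ))
        = 4 * (if Disjoint e b ∧ Disjoint e c then 1 else 0) := by
    intro e he
    have he' := mem_erase.1 he
    have he'' := mem_erase.1 he'.2
    have heB := mem_BF.1 he''.2
    have h1 := card_inter_union e b c
    have h3 := inter_zero_or_two hα hB hb heB he''.1.symm
    have h4 := inter_zero_or_two hα hB hc heB he'.1.symm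
    have h1' : tr Y e + (e ∩ (b ∩ c)).card = (e ∩ b).card + (e ∩ c).card := h1
    have h5 : (e ∩ (b ∩ c)).card ≤ (e ∩ b).card := card_le_card (by
      intro x; simp only [mem_inter]; tauto)
    have h6 : (e ∩ (b ∩ c)).card ≤ (e ∩ c).card := card_le_card (by
      intro x; simp only [mem_inter]; tauto)
    have h7 : tr Y e = 0 ↔ (Disjoint e b ∧ Disjoint e c) := by
      rw [tr_eq_zero_iff, hY, disjoint_union_iff']
    by_cases h8 : Disjoint e b ∧ Disjoint e c
    · rw [if_pos h8, h7.2 h8]
      norm_num
    · rw [if_neg h8]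
      have h9 : tr Y e ≠ 0 := fun h' => h8 (h7.1 h')
      have h10 : tr Y e = 2 ∨ tr Y e = 3 ∨ tr Y e = 4 := by omega
      rcases h10 with h10 | h10 | h10 <;> rw [h10] <;> norm_num [Nat.choose]
  rw [sum_congr rfl key, ← mul_sum, sum_boole] at h
  have h7 : (((blocksOver B ∅).erase b).erase c).filter (fun d => Disjoint d b ∧ Disjoint d c)
      = (blocksOver B ∅).filter (fun d => Disjoint d b ∧ Disjoint d c) := by
    ext d
    simp only [mem_filter, mem_erase]
    constructor
    · rintro ⟨⟨_, _, h⟩, h'⟩; exact ⟨h, h'⟩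
    · rintro ⟨h, h'⟩
      refine ⟨⟨?_, ?_, h⟩, h'⟩
      · rintro rfl
        have := card_self_block hB hc
        have h'' := h'.2
        rw [Finset.disjoint_self_iff_empty] at h''
        simp [h''] at this
      · rintro rfl
        have := card_self_block hB hb
        have h'' := h'.1
        rw [Finset.disjoint_self_iff_empty] at h''
        simp [h''] at this
  rw [h7] at h
  norm_num at h
  omega

/-- Blocks through a point off a block, disjoint from that block: exactly 6. -/
theorem card_through_disjoint (hα : Fintype.card α = 22) (hB : IsSteinerSystem 3 6 B) {b : Finset α}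
    (hb : b ∈ B) {a : α} (ha : a ∉ b) :
    ((blocksOver B {a}).filter (fun d => Disjoint d b)).card = 6 := by
  have h1 := sum_choose_inter (blocksOver B {a}) b 1
  have h2 : ∀ P ∈ b.powersetCard 1, ((blocksOver B {a}).filter (fun d => P ⊆ d)).card = 5 := by
    intro P hP
    obtain ⟨hP1, hP2⟩ := mem_powersetCard.1 hP
    have h3 : (blocksOver B {a}).filter (fun d => P ⊆ d) = blocksOver B ({a} ∪ P) := by
      ext d
      simp only [mem_filter, mem_blocksOver, union_subset_iff]
      tauto
    rw [h3]
    apply lam2 hα hB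
    rw [card_union_of_disjoint, hP2]
    · simp
    · simp only [disjoint_singleton_left]
      exact fun h => ha (hP1 h)
  rw [sum_congr rfl h2, sum_const, card_powersetCard, card_self_block hB hb] at h1
  norm_num [Nat.choose] at h1
  have hl : (blocksOver B {a}).card = 21 := lam1 hα hB (by simp)
  have key : ∀ d ∈ blocksOver B {a},
      (2 - ((d ∩ b).card : ℤ)) = 2 * (if Disjoint d b then 1 else 0) := by
    intro d hd
    obtain ⟨hdB, hda⟩ := mem_blocksOver.1 hd
    have hne : b ≠ d := by
      rintro rfl
      exact ha (hda (mem_singleton_self a))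
    rcases inter_zero_or_two hα hB hb hdB hne with h0 | h0
    · have : Disjoint d b := by
        rw [Finset.disjoint_iff_inter_eq_empty]
        exact card_eq_zero.1 h0
      simp [this, h0]
    · have : ¬ Disjoint d b := by
        rw [Finset.disjoint_iff_inter_eq_empty]
        intro h'
        rw [h'] at h0
        simp at h0
      simp [this, h0]
  have h3 := sum_congr rfl key
  rw [sum_sub_distrib, ← mul_sum, sum_boole] at h3
  simp only [sum_const, hl, nsmul_eq_mul] at h3
  have h4 : ∑ d ∈ blocksOver B {a}, ((d ∩ b).card : ℤ) = 30 := by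
    rw [← Nat.cast_sum, h1]; norm_num
  rw [h4] at h3
  norm_num at h3
  omega

/-! ### The graphs -/

theorem adj_block (hB : IsSteinerSystem 3 6 B) (b c : B) :
    (blockGraph B).Adj b c ↔ Disjoint (b : Finset α) (c : Finset α) := by
  unfold blockGraph
  rw [SimpleGraph.fromRel_adj]
  constructor
  · rintro ⟨_, h | h⟩
    · exact h
    · exact h.symm
  · intro h
    refine ⟨?_, Or.inl h⟩
    rintro rfl
    rw [Finset.disjoint_self_iff_empty] at h
    have := card_self_block hB b.2
    simp [h] at this

theorem card_set_eq (S : Set B) [Fintype S] (F : Finset (Finset α))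
    (h : ∀ d, d ∈ F ↔ ∃ hd : d ∈ B, (⟨d, hd⟩ : B) ∈ S) : Fintype.card S = F.card := by
  rw [← Nat.card_eq_fintype_card, Nat.card_coe_set_eq,
    ← Set.ncard_image_of_injective S Subtype.val_injective]
  have : Subtype.val '' S = (↑F : Set (Finset α)) := by
    ext d
    simp only [Set.mem_image, Subtype.exists, exists_and_right, exists_eq_right, mem_coe, h]
  rw [this, Set.ncard_coe_finset]

theorem card_B (hα : Fintype.card α = 22) (hB : IsSteinerSystem 3 6 B) [Fintype B] :
    Fintype.card B = 77 := by
  rw [← Nat.card_eq_fintype_card, Nat.card_coe_set_eq]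
  have : B = (↑(blocksOver B ∅) : Set (Finset α)) := by
    ext d
    simp [mem_blocksOver]
  have h2 : B.ncard = (blocksOver B ∅).card := by
    conv_lhs => rw [this]
    exact Set.ncard_coe_finset _
  rw [h2, lam0 hα hB]

/-- Counting sets of vertices of the 100-vertex graph. -/
theorem card_of_parts (S : Set (Option (α ⊕ B))) [Fintype S] (n : ℕ) (P : Finset α)
    (Q : Finset (Finset α)) (hn1 : none ∈ S → n = 1) (hn0 : none ∉ S → n = 0)
    (hP : ∀ a, a ∈ P ↔ some (Sum.inl a) ∈ S)
    (hQ : ∀ d, d ∈ Q ↔ ∃ hd : d ∈ B, some (Sum.inr ⟨d, hd⟩) ∈ S) :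
    Fintype.card S = n + P.card + Q.card := by
  classical
  rw [← Nat.card_eq_fintype_card, Nat.card_coe_set_eq]
  let f : α → Option (α ⊕ B) := fun a => some (Sum.inl a)
  have hf : Function.Injective f := fun a b h => by simpa [f] using h
  let g : B → Option (α ⊕ B) := fun a => some (Sum.inr a)
  have hg : Function.Injective g := fun a b h => by simpa [g] using h
  let Q' : Set B := {d | (d : Finset α) ∈ Q}
  have hQ' : Q'.ncard = Q.card := by
    rw [← Set.ncard_image_of_injective Q' Subtype.val_injective]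
    have : Subtype.val '' Q' = (↑Q : Set (Finset α)) := by
      ext d
      simp only [Q', Set.mem_image, Set.mem_ofPred_eq, Subtype.exists, exists_and_right,
        exists_eq_right, mem_coe]
      constructor
      · rintro ⟨_, h⟩; exact h
      · intro h
        exact ⟨((hQ d).1 h).1, h⟩
    rw [this, Set.ncard_coe_finset]
  have hS : S = ({x | x = none ∧ none ∈ S} ∪ f '' (↑P : Set α)) ∪ g '' Q' := by
    ext x
    rcases x with _ | a | d
    · simp [f, g]
    · simp only [Set.mem_union, Set.mem_ofPred_eq, Set.mem_image, mem_coe, f, g, reduceCtorEq,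
        false_and, false_or, Option.some.injEq, Sum.inl.injEq, exists_eq_right, hP]
      simp
    · simp only [Set.mem_union, Set.mem_ofPred_eq, Set.mem_image, mem_coe, f, g, reduceCtorEq,
        false_and, false_or, Option.some.injEq, Sum.inr.injEq, exists_eq_right, Q', hQ]
      simp [Subtype.ext_iff]
  have h1 : ({x | x = none ∧ none ∈ S} : Set (Option (α ⊕ B))).ncard = n := by
    by_cases h : none ∈ S
    · simp [h, hn1 h]
    · simp [h, hn0 h]
  rw [hS, Set.ncard_union_eq, Set.ncard_union_eq, Set.ncard_image_of_injective _ hf,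
    Set.ncard_image_of_injective _ hg, Set.ncard_coe_finset, h1, hQ']
  · rw [Set.disjoint_left]
    rintro _ ⟨rfl, _⟩ ⟨a, _, h⟩
    simp [f] at h
  · rw [Set.disjoint_left]
    rintro x hx ⟨a, _, rfl⟩
    rcases hx with ⟨h, _⟩ | ⟨b, _, h⟩
    · simp [g] at h
    · simp [f, g] at h

variable (B) in
theorem pb_none_none : ¬ (pointBlockGraph B).Adj none none := by simp [pointBlockGraph]

variable (B) in
theorem pb_none_inl (a : α) : (pointBlockGraph B).Adj none (some (Sum.inl a)) := by
  simp [pointBlockGraph, pointBlockRel]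

variable (B) in
theorem pb_inl_none (a : α) : (pointBlockGraph B).Adj (some (Sum.inl a)) none := by
  simp [pointBlockGraph, pointBlockRel]

variable (B) in
theorem pb_none_inr (b : B) : ¬ (pointBlockGraph B).Adj none (some (Sum.inr b)) := by
  simp [pointBlockGraph, pointBlockRel]

variable (B) in
theorem pb_inr_none (b : B) : ¬ (pointBlockGraph B).Adj (some (Sum.inr b)) none := by
  simp [pointBlockGraph, pointBlockRel]

variable (B) in
theorem pb_inl_inl (a a' : α) : ¬ (pointBlockGraph B).Adj (some (Sum.inl a)) (some (Sum.inl a')) := by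
  simp [pointBlockGraph, pointBlockRel]

variable (B) in
theorem pb_inl_inr (a : α) (b : B) :
    (pointBlockGraph B).Adj (some (Sum.inl a)) (some (Sum.inr b)) ↔ a ∈ (b : Finset α) := by
  simp [pointBlockGraph, pointBlockRel]

variable (B) in
theorem pb_inr_inl (a : α) (b : B) :
    (pointBlockGraph B).Adj (some (Sum.inr b)) (some (Sum.inl a)) ↔ a ∈ (b : Finset α) := by
  simp [pointBlockGraph, pointBlockRel]

theorem pb_inr_inr (hB : IsSteinerSystem 3 6 B) (b c : B) :
    (pointBlockGraph B).Adj (some (Sum.inr b)) (some (Sum.inr c)) ↔ Disjoint (b : Finset α) c := by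
  simp only [pointBlockGraph, pointBlockRel, SimpleGraph.fromRel_adj, ne_eq, Option.some.injEq,
    Sum.inr.injEq]
  constructor
  · rintro ⟨_, h | h⟩
    · exact h
    · exact h.symm
  · intro h
    refine ⟨?_, Or.inl h⟩
    rintro rfl
    rw [Finset.disjoint_self_iff_empty] at h
    have := card_self_block hB b.2
    simp [h] at this

end Cfsg.Agent.Lib.S322
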