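-- Shared library: tables and kernel checks for the subgroups `3·U₄(3)` of `SU₆(2)`.
import Mathlib
import Cfsg.Agent.Lib.M6K4
import Cfsg.Agent.Lib.SchurCoset46
import Cfsg.Agent.Lib.U43Tc0

set_option autoImplicit false
set_option maxRecDepth 100000
set_option Elab.async false
set_option maxHeartbeats 4000000

namespace Cfsg.Agent.Lib.S5520D

open Cfsg Matrix Cfsg.Agent.Lib.F4K Cfsg.Agent.Lib.M6K4 Cfsg.Agent.Lib.SchurCoset46

/-- The group. -/
abbrev G := SU 6 K4 2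

/-- The simple group. -/
abbrev Gb := PSU 6 K4 2

/-- The codes of the seven base matrices. -/
def baseC : List ℕ := [3004502298816436610703, 3541991043730977603585, 885731949213818826756, 4612037866443505680, 3541846928542633312257, 9223987780546396224, 55358247169430651904]

/-- The code of the identity. -/
def oneC : ℕ := 1180663682709764194305

/-- The base tables. -/
def bT (n : ℕ) : Mt := decM (baseC.getD n oneC)

theorem bT_ge (n : ℕ) (h : 7 ≤ n) : bT n = oneM := by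
  have h1 : baseC.getD n oneC = oneC := List.getD_eq_default _ _ (by simpa [baseC] using h)
  rw [bT, h1]
  exact meq_eq (by decide +kernel)

theorem det_bT : ∀ n, (toM (bT n)).det = 1 := by
  intro n
  by_cases h : n < 7
  · interval_cases n
    · decide +kernel
    · decide +kernel
    · decide +kernel
    · decide +kernel
    · decide +kernel
    · decide +kernel
    · decide +kernel
  · rw [bT_ge n (by omega), toM_one, Matrix.det_one]

theorem uni_bT : ∀ n, mmul (adj (bT n)) (bT n) = oneM := by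
  intro n
  by_cases h : n < 7
  · interval_cases n
    · exact meq_eq (by decide +kernel)
    · exact meq_eq (by decide +kernel)
    · exact meq_eq (by decide +kernel)
    · exact meq_eq (by decide +kernel)
    · exact meq_eq (by decide +kernel)
    · exact meq_eq (by decide +kernel)
    · exact meq_eq (by decide +kernel)
  · rw [bT_ge n (by omega)]
    exact meq_eq (by decide +kernel)

/-- The base elements. -/
def bG (n : ℕ) : G := ofMt (bT n) (det_bT n) (uni_bT n)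

theorem Rq_bG (n : ℕ) : Rq (bG n) (bT n) := rfl

/-- Letters. -/
def lettT (t : ℕ → Mt) (l : ℕ) : Mt :=
  bif Nat.beq (Nat.mod l 2) 0 then t (Nat.div l 2) else adj (t (Nat.div l 2))

theorem Rq_lett {x : ℕ → G} {t : ℕ → Mt} (h : ∀ n, Rq (x n) (t n)) (l : ℕ) : Rq (lett x l) (lettT t l) := by
  unfold lett lettT
  by_cases hl : l % 2 = 0
  · rw [if_pos hl]
    have h1 : Nat.beq (Nat.mod l 2) 0 = true := by
      rw [Nat.beq_eq]
      exact hl
    rw [h1]
    exact h _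
  · rw [if_neg hl]
    have h1 : Nat.beq (Nat.mod l 2) 0 = false := by
      rw [Bool.eq_false_iff]
      intro h2
      rw [Nat.beq_eq] at h2
      exact hl h2
    rw [h1]
    exact Rq_inv (h _)

/-- Words. -/
def evT (t : ℕ → Mt) (w : List ℕ) : Mt := w.foldr (fun l y => mmul (lettT t l) y) oneM

theorem Rq_evW {x : ℕ → G} {t : ℕ → Mt} (h : ∀ n, Rq (x n) (t n)) (w : List ℕ) : Rq (evW x w) (evT t w) := by
  induction w with
  | nil => exact Rq_one
  | cons l w ih => exact Rq_mul (Rq_lett h l) ih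

/-- The projection. -/
def pi : G →* Gb := QuotientGroup.mk' _

theorem pi_surj : Function.Surjective pi := QuotientGroup.mk'_surjective _

theorem pi_eq_one_iff {g : G} : pi g = 1 ↔ g ∈ Subgroup.center G := QuotientGroup.eq_one_iff g

theorem pi_eq {g h : G} {m n : Mt} (hg : Rq g m) (hh : Rq h n) (hs : isS (mmul m (adj n)) = true) : pi g = pi h := by
  have h1 := central_of_isS (Rq_mul hg (Rq_inv hh)) hs
  have h2 := pi_eq_one_iff.2 h1
  rw [map_mul, map_inv, mul_inv_eq_one] at h2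
  exact h2

theorem isS_of {g : G} {m : Mt} (hg : Rq g m) (h : pi g = 1) : isS m = true :=
  isS_of_central hg (pi_eq_one_iff.1 h)

theorem evW_map {Q : Type*} [Group Q] (f : G →* Q) (x : ℕ → G) (w : List ℕ) : f (evW x w) = evW (fun n => f (x n)) w := by
  induction w with
  | nil => exact map_one f
  | cons l w ih =>
    show f (lett x l * evW x w) = lett (fun n => f (x n)) l * evW (fun n => f (x n)) w
    rw [map_mul, ih]
    congr 1
    unfold lett
    split_ifs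
    · rfl
    · rw [map_inv]

/-- The images of the base elements. -/
def bb (n : ℕ) : Gb := pi (bG n)

/-- Relations among the base elements. -/
theorem rel (w : List ℕ) (h : isS (evT bT w) = true) : evW bb w = 1 := by
  have h1 := Rq_evW Rq_bG w
  have h2 := central_of_isS h1 h
  have h3 := pi_eq_one_iff.2 h2
  rw [evW_map] at h3
  exact h3

/-! ### Generators of the three subgroups -/

/-- The word expressing a generator. -/
def wx : List ℕ := [2, 0, 5, 0, 5, 1, 4, 0, 4, 0, 4, 3, 1, 5, 1]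

/-- The word of the last generator. -/
def wb : List ℕ := [1, 2, 2, 0, 3, 0, 2, 0, 2, 2, 1, 2, 2, 2]

/-- The letters of `wx`. -/
def gT (i n : ℕ) : Mt :=
  match n with
  | 0 => bT 0
  | 1 => bT 1
  | _ => bT (4 + i)

/-- The letters of `wx`. -/
def gG (i n : ℕ) : G :=
  match n with
  | 0 => bG 0
  | 1 => bG 1
  | _ => bG (4 + i)

theorem Rq_gG (i n : ℕ) : Rq (gG i n) (gT i n) := by
  match n with
  | 0 => exact Rq_bG _
  | 1 => exact Rq_bG _
  | _ + 2 => exact Rq_bG _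

/-- The generator. -/
def x1 (i : ℕ) : G := evW (gG i) wx

/-- The table of the generator. -/
def tX1 (i : ℕ) : Mt := decM (([4137285244983875477853, 2614574666545672323942, 4186169937111862006915] : List ℕ).getD i 0)

/-- The last generator. -/
def tX3 (i : ℕ) : Mt := decM (([1463527781814756608850, 3968497080121713919131, 2552740936064261275635] : List ℕ).getD i 0)

/-- The first two generators. -/
def s2 (i n : ℕ) : G :=
  match n with
  | 0 => bG 0
  | _ => x1 i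

/-- Their tables. -/
def s2T (i n : ℕ) : Mt :=
  match n with
  | 0 => bT 0
  | _ => tX1 i

/-- The last generator. -/
def x3 (i : ℕ) : G := evW (s2 i) wb

/-- The generators. -/
def sx (i n : ℕ) : G :=
  match n with
  | 0 => bG 0
  | 1 => x1 i
  | 2 => bG 0
  | _ => x3 i

/-- Their tables. -/
def sT (i n : ℕ) : Mt :=
  match n with
  | 0 => bT 0
  | 1 => tX1 i
  | 2 => bT 0
  | _ => tX3 i

theorem c_x1 : (List.range 3).all (fun i => meq (evT (gT i) wx) (tX1 i)) = true := by decide +kernel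

theorem Rq_x1 {i : ℕ} (hi : i < 3) : Rq (x1 i) (tX1 i) := by
  have h := Rq_evW (Rq_gG i) wx
  rw [meq_eq (List.all_eq_true.mp c_x1 i (List.mem_range.mpr hi))] at h
  exact h

theorem Rq_s2 {i : ℕ} (hi : i < 3) (n : ℕ) : Rq (s2 i n) (s2T i n) := by
  match n with
  | 0 => exact Rq_bG _
  | _ + 1 => exact Rq_x1 hi

theorem c_x3 : (List.range 3).all (fun i => meq (evT (s2T i) wb) (tX3 i)) = true := by decide +kernel

theorem Rq_x3 {i : ℕ} (hi : i < 3) : Rq (x3 i) (tX3 i) := by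
  have h := Rq_evW (Rq_s2 hi) wb
  rw [meq_eq (List.all_eq_true.mp c_x3 i (List.mem_range.mpr hi))] at h
  exact h

theorem Rq_sx {i : ℕ} (hi : i < 3) (n : ℕ) : Rq (sx i n) (sT i n) := by
  match n with
  | 0 => exact Rq_bG _
  | 1 => exact Rq_x1 hi
  | 2 => exact Rq_bG _
  | _ + 3 => exact Rq_x3 hi

/-- The relators. -/
abbrev R : List (List ℕ) := Cfsg.Agent.Lib.U43Tc0.relsL

theorem c_rels : (List.range 3).all (fun i => R.all (fun r => isS (evT (sT i) r))) = true := by decide +kernel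

/-- The images of the generators. -/
def sb (i n : ℕ) : Gb := pi (sx i n)

theorem sb_rels {i : ℕ} (hi : i < 3) : ∀ r ∈ R, evW (sb i) r = 1 := by
  intro r hr
  have h1 := List.all_eq_true.mp (List.all_eq_true.mp c_rels i (List.mem_range.mpr hi)) r hr
  have h2 := central_of_isS (Rq_evW (Rq_sx hi) r) h1
  have h3 := pi_eq_one_iff.2 h2
  rw [evW_map] at h3
  exact h3

/-- Words for `y`. -/
def yW (i : ℕ) : List ℕ := ([[2, 2, 1, 2, 2, 2, 1, 1, 2, 0, 0, 3, 1, 3], [2, 2, 1, 2, 2, 2, 1, 1, 2, 0, 0, 3, 1, 3], [2, 2, 1, 2, 2, 2, 1, 1, 2, 0, 0, 3, 1, 3]] : List (List ℕ)).getD i []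

/-- Words for `b`. -/
def bW (i : ℕ) : List ℕ := ([[2, 2, 2, 0, 2, 1, 3, 0, 2, 0, 2, 1, 2, 0], [2, 2, 2, 0, 2, 1, 3, 0, 2, 0, 2, 1, 2, 0], [2, 2, 2, 0, 2, 1, 3, 0, 2, 0, 2, 1, 2, 0]] : List (List ℕ)).getD i []

/-- Words for `w x w⁻¹`. -/
def wxwW (i : ℕ) : List ℕ := ([[2, 0, 3, 1, 1, 3, 3, 0, 2, 2, 0, 3], [3, 1, 2, 1, 1, 1, 2, 0, 2, 1, 1, 2, 0, 0], [3, 1, 2, 1, 1, 1, 2, 0, 2, 1, 1, 2, 0, 0]] : List (List ℕ)).getD i []

/-- Words of the survivors. -/
def wdW (i : ℕ) : List (List ℕ) := ([[[1, 1, 3, 3, 3, 0, 2, 2, 1, 2, 2, 1, 2], [2, 2, 2, 0, 2, 1, 3, 0, 2, 0, 2, 1, 2, 0], [2, 0, 2, 1, 2, 0, 2, 0, 3, 1, 2, 1, 1, 1], [1, 3, 3, 1, 3, 3, 1, 3, 0, 2, 1, 2, 1, 1]], [[1, 1, 3, 3, 3, 0, 2, 2, 1, 2, 2, 1, 2], [2, 2, 2, 0, 2, 1, 3, 0, 2, 0, 2, 1, 2, 0], [2, 0, 2, 1, 2, 0, 2, 0, 3, 1, 2, 1, 1, 1], [1, 3, 3, 1, 3, 3, 1, 3, 0, 2, 1, 2, 1, 1]], [[1, 1, 3, 3, 3, 0, 2, 2, 1, 2, 2, 1, 2], [2, 2, 2, 0, 2, 1, 3, 0, 2, 0, 2, 1, 2, 0], [2, 0,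 2, 1, 2, 0, 2, 0, 3, 1, 2, 1, 1, 1], [1, 3, 3, 1, 3, 3, 1, 3, 0, 2, 1, 2, 1, 1]]] : List (List (List ℕ))).getD i []

theorem c_y : (List.range 3).all (fun i => isS (mmul (evT (sT i) (yW i)) (adj (bT 1)))) = true := by decide +kernel

theorem c_b : (List.range 3).all (fun i => isS (mmul (evT (sT i) (bW i)) (adj (bT (4 + i))))) = true := by decide +kernel

theorem c_wxw : (List.range 3).all (fun i =>
    isS (mmul (evT (sT i) (wxwW i)) (adj (mmul (mmul (bT 2) (tX1 i)) (adj (bT 2)))))) = true := by decide +kernel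

theorem y_word {i : ℕ} (hi : i < 3) : evW (sb i) (yW i) = bb 1 := by
  have h := pi_eq (Rq_evW (Rq_sx hi) (yW i)) (Rq_bG 1) (List.all_eq_true.mp c_y i (List.mem_range.mpr hi))
  rw [evW_map] at h
  exact h

theorem b_word {i : ℕ} (hi : i < 3) : evW (sb i) (bW i) = bb (4 + i) := by
  have h := pi_eq (Rq_evW (Rq_sx hi) (bW i)) (Rq_bG (4 + i)) (List.all_eq_true.mp c_b i (List.mem_range.mpr hi))
  rw [evW_map] at h
  exact h

theorem wxw_word {i : ℕ} (hi : i < 3) : evW (sb i) (wxwW i) = bb 2 * sb i 1 * (bb 2)⁻¹ := by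
  have h := pi_eq (Rq_evW (Rq_sx hi) (wxwW i)) (Rq_mul (Rq_mul (Rq_bG 2) (Rq_x1 hi)) (Rq_inv (Rq_bG 2)))
    (List.all_eq_true.mp c_wxw i (List.mem_range.mpr hi))
  rw [evW_map] at h
  have h' : evW (sb i) (wxwW i) = pi (bG 2 * x1 i * (bG 2)⁻¹) := h
  rw [h', map_mul, map_mul, map_inv]
  rfl

/-! ### Powers -/

/-- Powers of tables. -/
def mpw (m : Mt) : ℕ → Mt
  | 0 => oneM
  | 1 => m
  | k + 2 => mmul m (mpw m (k + 1))

theorem Rq_pow {g : G} {m : Mt} (h : Rq g m) : ∀ k, Rq (g ^ k) (mpw m k)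
  | 0 => by
    rw [pow_zero]
    exact Rq_one
  | 1 => by
    rw [pow_one]
    exact h
  | k + 2 => by
    rw [pow_succ']
    exact Rq_mul h (Rq_pow h (k + 1))

/-! ### The centraliser of `a` -/

/-- The constant. -/
def kk (n : ℕ) : K4 := ⟨n % 4, Nat.mod_lt _ (by decide)⟩

theorem k4_cases : ∀ x : K4, x = kk 0 ∨ x = kk 1 ∨ x = kk 2 ∨ x = kk 3 := by decide +kernel

/-- All field elements. -/
def all4 (f : K4 → Bool) : Bool := f (kk 0) && (f (kk 1) && (f (kk 2) && f (kk 3)))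

theorem all4_spec {f : K4 → Bool} (h : all4 f = true) (x : K4) : f x = true := by
  simp only [all4, Bool.and_eq_true] at h
  rcases k4_cases x with rfl | rfl | rfl | rfl
  · exact h.1
  · exact h.2.1
  · exact h.2.2.1
  · exact h.2.2.2

/-- Vectors. -/
@[ext] structure Vt where
  (v0 v1 v2 v3 v4 v5 : K4)

/-- The vector. -/
def toV (v : Vt) : Fin 6 → K4 := ![v.v0, v.v1, v.v2, v.v3, v.v4, v.v5]

/-- Matrix times vector. -/
def mvec (m : Mt) (v : Vt) : Vt :=
  ⟨sp m.a00 v.v0 m.a01 v.v1 m.a02 v.v2 m.a03 v.v3 m.a04 v.v4 m.a05 v.v5,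
   sp m.a10 v.v0 m.a11 v.v1 m.a12 v.v2 m.a13 v.v3 m.a14 v.v4 m.a15 v.v5,
   sp m.a20 v.v0 m.a21 v.v1 m.a22 v.v2 m.a23 v.v3 m.a24 v.v4 m.a25 v.v5,
   sp m.a30 v.v0 m.a31 v.v1 m.a32 v.v2 m.a33 v.v3 m.a34 v.v4 m.a35 v.v5,
   sp m.a40 v.v0 m.a41 v.v1 m.a42 v.v2 m.a43 v.v3 m.a44 v.v4 m.a45 v.v5,
   sp m.a50 v.v0 m.a51 v.v1 m.a52 v.v2 m.a53 v.v3 m.a54 v.v4 m.a55 v.v5⟩

theorem toV_mvec (m : Mt) (v : Vt) (k : Fin 6) : toV (mvec m v) k = ∑ j, toM m k j * toV v j := by
  rw [Fin.sum_univ_six]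
  fin_cases k <;> rfl

/-- A matrix with given columns. -/
def colsM (c0 c1 c2 c3 c4 c5 : Vt) : Mt :=
  ⟨c0.v0, c1.v0, c2.v0, c3.v0, c4.v0, c5.v0, c0.v1, c1.v1, c2.v1, c3.v1, c4.v1, c5.v1,
   c0.v2, c1.v2, c2.v2, c3.v2, c4.v2, c5.v2, c0.v3, c1.v3, c2.v3, c3.v3, c4.v3, c5.v3,
   c0.v4, c1.v4, c2.v4, c3.v4, c4.v4, c5.v4, c0.v5, c1.v5, c2.v5, c3.v5, c4.v5, c5.v5⟩

theorem toM_colsM (c0 c1 c2 c3 c4 c5 : Vt) (k i : Fin 6) :
    toM (colsM c0 c1 c2 c3 c4 c5) k i = toV (![c0, c1, c2, c3, c4, c5] i) k := by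
  fin_cases k <;> fin_cases i <;> rfl

/-- The first column. -/
def col0 (m : Mt) : Vt := ⟨m.a00, m.a10, m.a20, m.a30, m.a40, m.a50⟩

theorem toV_col0 (m : Mt) (j : Fin 6) : toV (col0 m) j = toM m j 0 := by
  fin_cases j <;> rfl

/-- Powers of `a`. -/
def pa : ℕ → Mt
  | 0 => oneM
  | k + 1 => mmul (pa k) (bT 0)

theorem toM_pa (k : ℕ) : toM (pa k) = toM (bT 0) ^ k := by
  induction k with
  | zero => rw [pow_zero]; exact toM_one
  | succ k ih => rw [pow_succ, ← ih]; exact toM_mul _ _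

theorem Rq_pa (k : ℕ) : Rq (bG 0 ^ k) (pa k) := by
  induction k with
  | zero => rw [pow_zero]; exact Rq_one
  | succ k ih => rw [pow_succ]; exact Rq_mul ih (Rq_bG 0)

/-- The first columns of the powers. -/
def VV : Mt := colsM (col0 (pa 0)) (col0 (pa 1)) (col0 (pa 2)) (col0 (pa 3)) (col0 (pa 4)) (col0 (pa 5))

/-- The inverse. -/
def Vi : Mt := decM 536084915159044768441

theorem hVi : mmul VV Vi = oneM := meq_eq (by decide +kernel)

/-- The matrix commuting with `a` with a given first column. -/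
def cT (x : Vt) : Mt :=
  mmul (colsM (mvec (pa 0) x) (mvec (pa 1) x) (mvec (pa 2) x) (mvec (pa 3) x) (mvec (pa 4) x) (mvec (pa 5) x)) Vi

theorem col_lemma (C : MM) (p : Mt) (x : Vt) (hc : Commute C (toM p)) (hx : ∀ j, toV x j = C j 0) (k : Fin 6) :
    ∑ j, C k j * toV (col0 p) j = toV (mvec p x) k := by
  have h := congrFun (congrFun hc.eq k) 0
  rw [Matrix.mul_apply, Matrix.mul_apply] at h
  rw [toV_mvec]
  simp only [toV_col0, hx]
  exact h

theorem eq_cT (C : MM) (x : Vt) (hc : Commute C (toM (bT 0))) (hx : ∀ j, toV x j = C j 0) : C = toM (cT x) := by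
  have hcp : ∀ k, Commute C (toM (pa k)) := by
    intro k
    rw [toM_pa]
    exact hc.pow_right k
  have h1 : C * toM VV =
      toM (colsM (mvec (pa 0) x) (mvec (pa 1) x) (mvec (pa 2) x) (mvec (pa 3) x) (mvec (pa 4) x) (mvec (pa 5) x)) := by
    ext k i
    rw [Matrix.mul_apply, toM_colsM]
    simp only [VV, toM_colsM]
    fin_cases i
    · exact col_lemma C _ x (hcp 0) hx k
    · exact col_lemma C _ x (hcp 1) hx k
    · exact col_lemma C _ x (hcp 2) hx k
    · exact col_lemma C _ x (hcp 3) hx k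
    · exact col_lemma C _ x (hcp 4) hx k
    · exact col_lemma C _ x (hcp 5) hx k
  have h2 : toM VV * toM Vi = 1 := by
    rw [← toM_mul, hVi, toM_one]
  rw [cT, toM_mul, ← h1, Matrix.mul_assoc, h2, Matrix.mul_one]

/-- Acceptance. -/
def acc21 (M : Mt) : Bool := (List.range 7).any (fun k => isS (mmul M (adj (pa k))))

/-- A generator of the unitary centraliser. -/
def tC : Mt := decM 4023190291111644091832

/-- Its powers. -/
def pc : ℕ → Mt
  | 0 => oneM
  | k + 1 => mmul (pc k) tC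

theorem toM_pc (k : ℕ) : toM (pc k) = toM tC ^ k := by
  induction k with
  | zero => rw [pow_zero]; exact toM_one
  | succ k ih => rw [pow_succ, ← ih]; exact toM_mul _ _

theorem det_tC : (toM tC).det = kk 2 := by decide +kernel

theorem det_pc {j : ℕ} (hj : j % 3 ≠ 0) : (toM (pc j)).det ≠ 1 := by
  rw [toM_pc, Matrix.det_pow, det_tC]
  have h3 : kk 2 ^ 3 = 1 := by decide +kernel
  rw [← Nat.div_add_mod j 3, pow_add, pow_mul, h3, one_pow, one_mul]
  have hlt : j % 3 < 3 := Nat.mod_lt _ (by decide)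
  generalize j % 3 = r at hj hlt
  interval_cases r
  · exact absurd rfl hj
  · decide +kernel
  · decide +kernel

/-- The test. -/
def cchk (x : Vt) : Bool :=
  !(meq (mmul (adj (cT x)) (cT x)) oneM) ||
    (List.range 63).any (fun j => meq (cT x) (pc j) && (!(Nat.beq (j % 3) 0) || acc21 (cT x)))

theorem centChk : all4 (fun x0 => all4 (fun x1 => all4 (fun x2 => all4 (fun x3 => all4 (fun x4 => all4 (fun x5 =>
    cchk ⟨x0, x1, x2, x3, x4, x5⟩)))))) = true := by decide +kernel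

theorem cchk_all (x : Vt) : cchk x = true :=
  all4_spec (all4_spec (all4_spec (all4_spec (all4_spec (all4_spec centChk x.v0) x.v1) x.v2) x.v3) x.v4) x.v5

/-- Elements commuting with `a`. -/
theorem cent_a (g : G) (h : g * bG 0 = bG 0 * g) : ∃ k, pi g = pi (bG 0) ^ k := by
  let C : MM := (g : Matrix.SpecialLinearGroup (Fin 6) K4)
  let x : Vt := ⟨C 0 0, C 1 0, C 2 0, C 3 0, C 4 0, C 5 0⟩
  have hx : ∀ j, toV x j = C j 0 := by
    intro j
    fin_cases j <;> rfl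
  have hc : Commute C (toM (bT 0)) := by
    have e := congrArg (fun t : G => ((t : Matrix.SpecialLinearGroup (Fin 6) K4) : MM)) h
    exact e
  have hR : Rq g (cT x) := eq_cT C x hc hx
  have h1 : mmul (adj (cT x)) (cT x) = oneM := by
    apply toM_inj
    rw [toM_mul, toM_one]
    exact adj_mul_self hR
  have h2 := cchk_all x
  rw [cchk, h1] at h2
  have h3 : meq oneM oneM = true := by decide +kernel
  rw [h3] at h2
  simp only [Bool.not_true, Bool.false_or, List.any_eq_true, Bool.and_eq_true, Bool.or_eq_true] at h2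
  obtain ⟨j, _, hj, hjj⟩ := h2
  have hM := meq_eq hj
  rcases hjj with h4 | h4
  · exfalso
    have h5 : j % 3 ≠ 0 := by
      intro h6
      have h7 : Nat.beq (j % 3) 0 = true := by
        rw [Nat.beq_eq]
        exact h6
      rw [h7] at h4
      exact absurd h4 (by decide)
    apply det_pc h5
    rw [← hM]
    have e : ((g : Matrix.SpecialLinearGroup (Fin 6) K4) : MM) = toM (cT x) := hR
    rw [← e]
    exact (g : Matrix.SpecialLinearGroup (Fin 6) K4).2
  · simp only [acc21, List.any_eq_true] at h4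
    obtain ⟨k, _, hk⟩ := h4
    refine ⟨k, ?_⟩
    rw [← map_pow]
    exact pi_eq hR (Rq_pa k) hk

/-! ### The centraliser of `y` -/

/-- Blocks. -/
abbrev Blk := K4 × K4 × K4 × K4

/-- The block diagonal table. -/
def blkM (c1 c2 c3 : Blk) : Mt :=
  ⟨c1.1, c1.2.1, 0, 0, 0, 0, c1.2.2.1, c1.2.2.2, 0, 0, 0, 0,
   0, 0, c2.1, c2.2.1, 0, 0, 0, 0, c2.2.2.1, c2.2.2.2, 0, 0,
   0, 0, 0, 0, c3.1, c3.2.1, 0, 0, 0, 0, c3.2.2.1, c3.2.2.2⟩

/-- The unitary blocks. -/
def gu2 : List Blk := [(kk 0, kk 1, kk 1, kk 0), (kk 0, kk 1, kk 2, kk 0), (kk 0, kk 1, kk 3, kk 0), (kk 0, kk 2, kk 1, kk 0), (kk 0, kk 2, kk 2, kk 0), (kk 0, kk 2, kk 3, kk 0), (kk 0, kk 3, kk 1, kk 0), (kk 0, kk 3, kk 2, kk 0), (kk 0, kk 3, kk 3, kk 0), (kk 1, kk 0, kk 0, kk 1), (kk 1, kk 0, kk 0, kk 2), (kk 1, kk 0, kk 0, kk 3), (kk 2, kk 0, kk 0, kk 1), (kk 2, kk 0, kk 0, kk 2), (kk 2, kk 0, kk 0, kk 3), (kk 3, kk 0, kk 0, kk 1), (kk 3, kk 0, kk 0, kk 2), (kk 3, kk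 0, kk 0, kk 3)]

theorem gu2_mem : ∀ p q r t : K4, p * p ^ 2 + r * r ^ 2 = 1 → q * q ^ 2 + t * t ^ 2 = 1 → p * q ^ 2 + r * t ^ 2 = 0 →
    (p, q, r, t) ∈ gu2 := by decide +kernel

/-- Powers of `τ`. -/
def tauG (k : ℕ) : G :=
  match k with
  | 0 => 1
  | 1 => bG 3
  | _ => bG 3 * bG 3

/-- Their tables. -/
def tpw (k : ℕ) : Mt :=
  match k with
  | 0 => oneM
  | 1 => bT 3
  | _ => mmul (bT 3) (bT 3)

theorem Rq_tau (k : ℕ) : Rq (tauG k) (tpw k) := by
  match k with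
  | 0 => exact Rq_one
  | 1 => exact Rq_bG 3
  | _ + 2 => exact Rq_mul (Rq_bG 3) (Rq_bG 3)

theorem c_tau : ∀ c : K4, c * c ^ 2 = 1 → (List.range 3).any (fun k =>
    meq (mmul (mmul (mmul (tpw k) (bT 1)) (adj (tpw k))) (adj (bT 1))) (scal c)) = true := by decide +kernel

/-- Central elements act on `y` through powers of `τ`. -/
theorem tau_cases (z : G) (hz : z ∈ Subgroup.center G) : ∃ k, k < 3 ∧ tauG k * bG 1 * (tauG k)⁻¹ = z * bG 1 := by
  obtain ⟨c, hc, hR⟩ := scal_of_central hz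
  have h := c_tau c hc
  simp only [List.any_eq_true] at h
  obtain ⟨k, hk, hm⟩ := h
  refine ⟨k, List.mem_range.mp hk, ?_⟩
  have h1 := Rq_mul (Rq_mul (Rq_mul (Rq_tau k) (Rq_bG 1)) (Rq_inv (Rq_tau k))) (Rq_inv (Rq_bG 1))
  rw [meq_eq hm] at h1
  have h2 := Rq_inj h1 hR
  rw [← h2]
  group

/-- The diagonal of `y`. -/
def dY : Fin 6 → K4 := ![kk 1, kk 1, kk 2, kk 2, kk 3, kk 3]

theorem toM_y (i j : Fin 6) : toM (bT 1) i j = Matrix.diagonal dY i j := by
  fin_cases i <;> fin_cases j <;> decide +kernel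

/-- Which block. -/
def blI (i : Fin 6) : ℕ := i.1 / 2

theorem dY_ne : ∀ i j : Fin 6, blI i ≠ blI j → dY i ≠ dY j := by decide +kernel

/-- Elements commuting with `y` are block diagonal. -/
theorem blk_of (D : G) (h : D * bG 1 = bG 1 * D) : ∃ c1 ∈ gu2, ∃ c2 ∈ gu2, ∃ c3 ∈ gu2, Rq D (blkM c1 c2 c3) := by
  let X : MM := (D : Matrix.SpecialLinearGroup (Fin 6) K4)
  have hc : X * toM (bT 1) = toM (bT 1) * X := congrArg (fun t : G => ((t : Matrix.SpecialLinearGroup (Fin 6) K4) : MM)) h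
  have hY : toM (bT 1) = Matrix.diagonal dY := by
    ext i j
    exact toM_y i j
  rw [hY] at hc
  have hE : ∀ i j, X i j * dY j = dY i * X i j := by
    intro i j
    have := congrFun (congrFun hc i) j
    rwa [Matrix.mul_diagonal, Matrix.diagonal_mul] at this
  have hz : ∀ i j, blI i ≠ blI j → X i j = 0 := by
    intro i j hij
    by_contra hne
    apply dY_ne i j hij
    have h2 := hE i j
    rw [mul_comm (dY i)] at h2
    exact (mul_left_cancel₀ hne h2).symm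
  have hU : X.transpose * X.map (Cfsg.Agent.Lib.UnitaryBasic.sigma hF4) = 1 :=
    Cfsg.Agent.Lib.UnitarySU.transpose_mul_map_sigma hF4 (fun u v => D.2 u v)
  have hUe : ∀ j k, ∑ i, X i j * X i k ^ 2 = (1 : MM) j k := by
    intro j k
    have := congrFun (congrFun hU j) k
    rwa [Matrix.mul_apply] at this
  have blk : ∀ a b : Fin 6, a ≠ b → blI a = blI b → (∀ i, i ≠ a → i ≠ b → blI i ≠ blI a) →
      (X a a, X a b, X b a, X b b) ∈ gu2 := by
    intro a b hab hbl hO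
    have e : ∀ j k, blI j = blI a → blI k = blI a → X a j * X a k ^ 2 + X b j * X b k ^ 2 = (1 : MM) j k := by
      intro j k hj hk
      rw [← hUe j k, Fintype.sum_eq_add a b hab]
      rintro i ⟨hia, hib⟩
      rw [hz i j (by rw [hj]; exact hO i hia hib), zero_mul]
    have e1 := e a a rfl rfl
    have e2 := e b b hbl.symm hbl.symm
    have e3 := e a b rfl hbl.symm
    rw [Matrix.one_apply_eq] at e1 e2
    rw [Matrix.one_apply_ne hab] at e3
    exact gu2_mem _ _ _ _ e1 e2 e3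
  refine ⟨_, blk 0 1 (by decide) (by decide) (by decide), _, blk 2 3 (by decide) (by decide) (by decide),
    _, blk 4 5 (by decide) (by decide) (by decide), ?_⟩
  show X = _
  ext i j
  fin_cases i <;> fin_cases j <;> first | rfl | exact hz _ _ (by decide)

/-! ### The enumeration -/

/-- The letters of `y⁻¹` times `a`. -/
def ayT : Mt := mmul (bT 0) (adj (bT 1))

/-- Acceptance. -/
def accB (M : Mt) : Bool := (List.range 3).any (fun i => (wdW i).any (fun W => isS (mmul M (adj (evT (sT i) W)))))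

/-- The test. -/
def chkM (M : Mt) : Bool :=
  !(isS (mpw M 3)) || (!(isS (mpw (mmul (bT 0) M) 7)) || (!(isS (mpw (mmul (bT 0) (adj M)) 7)) ||
    (!(isS (mpw (mmul ayT M) 7)) || accB M)))

/-- The test for a first block. -/
def chkC1 (c1 : Blk) : Bool :=
  gu2.all (fun c2 => gu2.all (fun c3 => (List.range 3).all (fun k => chkM (mmul (blkM c1 c2 c3) (tpw k)))))

theorem ac0 : chkC1 (kk 0, kk 1, kk 1, kk 0) = true := by decide +kernel

theorem ac1 : chkC1 (kk 0, kk 1, kk 2, kk 0) = true := by decide +kernel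

theorem ac2 : chkC1 (kk 0, kk 1, kk 3, kk 0) = true := by decide +kernel

theorem ac3 : chkC1 (kk 0, kk 2, kk 1, kk 0) = true := by decide +kernel

theorem ac4 : chkC1 (kk 0, kk 2, kk 2, kk 0) = true := by decide +kernel

theorem ac5 : chkC1 (kk 0, kk 2, kk 3, kk 0) = true := by decide +kernel

theorem ac6 : chkC1 (kk 0, kk 3, kk 1, kk 0) = true := by decide +kernel

theorem ac7 : chkC1 (kk 0, kk 3, kk 2, kk 0) = true := by decide +kernel

theorem ac8 : chkC1 (kk 0, kk 3, kk 3, kk 0) = true := by decide +kernel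

theorem ac9 : chkC1 (kk 1, kk 0, kk 0, kk 1) = true := by decide +kernel

theorem ac10 : chkC1 (kk 1, kk 0, kk 0, kk 2) = true := by decide +kernel

theorem ac11 : chkC1 (kk 1, kk 0, kk 0, kk 3) = true := by decide +kernel

theorem ac12 : chkC1 (kk 2, kk 0, kk 0, kk 1) = true := by decide +kernel

theorem ac13 : chkC1 (kk 2, kk 0, kk 0, kk 2) = true := by decide +kernel

theorem ac14 : chkC1 (kk 2, kk 0, kk 0, kk 3) = true := by decide +kernel

theorem ac15 : chkC1 (kk 3, kk 0, kk 0, kk 1) = true := by decide +kernel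

theorem ac16 : chkC1 (kk 3, kk 0, kk 0, kk 2) = true := by decide +kernel

theorem ac17 : chkC1 (kk 3, kk 0, kk 0, kk 3) = true := by decide +kernel

theorem chkC1_all : ∀ c1 ∈ gu2, chkC1 c1 = true := by
  intro c1 h
  simp only [gu2, List.mem_cons, List.not_mem_nil, or_false] at h
  rcases h with rfl | rfl | rfl | rfl | rfl | rfl | rfl | rfl | rfl | rfl | rfl | rfl | rfl | rfl | rfl | rfl | rfl | rfl
  · exact ac0
  · exact ac1
  · exact ac2
  · exact ac3
  · exact ac4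
  · exact ac5
  · exact ac6
  · exact ac7
  · exact ac8
  · exact ac9
  · exact ac10
  · exact ac11
  · exact ac12
  · exact ac13
  · exact ac14
  · exact ac15
  · exact ac16
  · exact ac17


theorem chkM_all {c1 c2 c3 : Blk} (h1 : c1 ∈ gu2) (h2 : c2 ∈ gu2) (h3 : c3 ∈ gu2) {k : ℕ} (hk : k < 3) :
    chkM (mmul (blkM c1 c2 c3) (tpw k)) = true :=
  List.all_eq_true.mp (List.all_eq_true.mp (List.all_eq_true.mp (chkC1_all c1 h1) c2 h2) c3 h3) k
    (List.mem_range.mpr hk)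

/-! ### Relations -/

theorem a_pow7 : bG 0 ^ 7 = 1 := by
  have h := Rq_pow (Rq_bG 0) 7
  exact Rq_inj h (by
    have h2 : mpw (bT 0) 7 = oneM := meq_eq (by decide +kernel)
    rw [h2]
    exact Rq_one)

theorem r_y : bb 1 * bb 0 * (bb 1)⁻¹ = bb 0 ^ 2 := by
  have h : bb 1 * (bb 0 * ((bb 1)⁻¹ * ((bb 0)⁻¹ * ((bb 0)⁻¹ * 1)))) = 1 := rel [2, 0, 3, 1, 1] (by decide +kernel)
  calc bb 1 * bb 0 * (bb 1)⁻¹ = (bb 1 * (bb 0 * ((bb 1)⁻¹ * ((bb 0)⁻¹ * ((bb 0)⁻¹ * 1))))) * (bb 0 * bb 0) := by group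
    _ = bb 0 ^ 2 := by rw [h, one_mul, pow_two]

theorem r_w : bb 2 * bb 0 * (bb 2)⁻¹ = (bb 0)⁻¹ := by
  have h : bb 2 * (bb 0 * ((bb 2)⁻¹ * (bb 0 * 1))) = 1 := rel [4, 0, 5, 0] (by decide +kernel)
  calc bb 2 * bb 0 * (bb 2)⁻¹ = (bb 2 * (bb 0 * ((bb 2)⁻¹ * (bb 0 * 1)))) * (bb 0)⁻¹ := by group
    _ = (bb 0)⁻¹ := by rw [h, one_mul]

theorem ne_a : bb 0 ≠ 1 := by
  intro h
  have h2 := isS_of (Rq_bG 0) h
  exact absurd h2 (by decide +kernel)

/-- The relations of the first `b`. -/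
theorem r_b3 : bb 4 ^ 3 = 1 := by
  have h2 : bb 4 * (bb 4 * (bb 4 * 1)) = 1 := rel [8, 8, 8] (by decide +kernel)
  rw [mul_one, ← mul_assoc, ← pow_two, ← pow_succ] at h2
  exact h2

theorem r_by : bb 4 * bb 1 = bb 1 * bb 4 := by
  have h : bb 4 * (bb 1 * ((bb 4)⁻¹ * ((bb 1)⁻¹ * 1))) = 1 := rel [8, 2, 9, 3] (by decide +kernel)
  calc bb 4 * bb 1 = (bb 4 * (bb 1 * ((bb 4)⁻¹ * ((bb 1)⁻¹ * 1)))) * (bb 1 * bb 4) := by group
    _ = bb 1 * bb 4 := by rw [h, one_mul]

theorem r_ab7 : (bb 0 * bb 4) ^ 7 = 1 := by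
  have h2 := central_of_isS (Rq_pow (Rq_mul (Rq_bG 0) (Rq_bG 4)) 7) (by decide +kernel)
  have h3 := pi_eq_one_iff.2 h2
  rw [map_pow, map_mul] at h3
  exact h3

theorem r_abi7 : (bb 0 * (bb 4)⁻¹) ^ 7 = 1 := by
  have h2 := central_of_isS (Rq_pow (Rq_mul (Rq_bG 0) (Rq_inv (Rq_bG 4))) 7) (by decide +kernel)
  have h3 := pi_eq_one_iff.2 h2
  rw [map_pow, map_mul, map_inv] at h3
  exact h3

theorem r_ayb7 : (bb 0 * (bb 1)⁻¹ * bb 4) ^ 7 = 1 := by
  have h2 := central_of_isS (Rq_pow (Rq_mul (Rq_mul (Rq_bG 0) (Rq_inv (Rq_bG 1))) (Rq_bG 4)) 7) (by decide +kernel)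
  have h3 := pi_eq_one_iff.2 h2
  rw [map_pow, map_mul, map_mul, map_inv] at h3
  exact h3

/-- Elements of order eleven. -/
def w11 (i : ℕ) : List ℕ := ([[9, 11, 0, 3, 0, 0, 2], [2, 13, 1, 1, 12, 0, 8], [13, 1, 10, 1, 10]] : List (List ℕ)).getD i []

theorem c_w11 : (List.range 3).all (fun i => isS (mpw (evT bT (w11 i)) 11) && !(isS (evT bT (w11 i)))) = true := by
  decide +kernel

theorem w11_order {i : ℕ} (hi : i < 3) : orderOf (evW bb (w11 i)) = 11 := by
  haveI : Fact (Nat.Prime 11) := ⟨by norm_num⟩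
  have h := List.all_eq_true.mp c_w11 i (List.mem_range.mpr hi)
  simp only [Bool.and_eq_true, Bool.not_eq_true'] at h
  have h1 := Rq_evW Rq_bG (w11 i)
  have h2 := pi_eq_one_iff.2 (central_of_isS (Rq_pow h1 11) h.1)
  rw [map_pow, evW_map] at h2
  apply orderOf_eq_prime h2
  intro h3
  have h4 : pi (evW bG (w11 i)) = 1 := by
    rw [evW_map]
    exact h3
  have h5 := isS_of h1 h4
  rw [h.2] at h5
  exact absurd h5 (by decide)

end Cfsg.Agent.Lib.S5520D
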