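-- Shared library: the three classes of subgroups `3·U₄(3)` of `SU₆(2)`, over the concrete fields.
import Mathlib
import Cfsg.Agent.Lib.S5520D
import Cfsg.Agent.Lib.S5520P
import Cfsg.Agent.Lib.UnitarySimple

set_option autoImplicit false
set_option maxRecDepth 100000
set_option linter.unusedVariables false
set_option linter.unusedSectionVars false

namespace Cfsg.Agent.Lib.S5520A

open Cfsg Subgroup Cfsg.Agent.Lib.F4K Cfsg.Agent.Lib.M6K4 Cfsg.Agent.Lib.SchurCoset46 Cfsg.Agent.Lib.S5520D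

/-- The target. -/
abbrev T0 := PSU 4 Cfsg.Agent.Lib.F9K.K9 3

/-- The generators. -/
abbrev tS : ℕ → T0 := Cfsg.Agent.Lib.S5520P.sG

theorem evW_map' {A Q : Type*} [Group A] [Group Q] (f : A →* Q) (x : ℕ → A) (w : List ℕ) :
    f (evW x w) = evW (fun n => f (x n)) w := by
  induction w with
  | nil => exact map_one f
  | cons l w ih =>
    show f (lett x l * evW x w) = lett (fun n => f (x n)) l * evW (fun n => f (x n)) w
    rw [map_mul, ih]
    congr 1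
    unfold lett
    split_ifs
    · rfl
    · rw [map_inv]

theorem evW_mem {Q : Type*} [Group Q] (H : Subgroup Q) (x : ℕ → Q) (w : List ℕ) (h : ∀ l ∈ w, x (l / 2) ∈ H) :
    evW x w ∈ H := by
  induction w with
  | nil => exact one_mem _
  | cons l w ih =>
    refine mul_mem ?_ (ih (fun a ha => h a (List.mem_cons_of_mem _ ha)))
    have hl := h l List.mem_cons_self
    unfold lett
    split_ifs
    · exact hl
    · exact inv_mem hl

/-! ### Orders -/

theorem card_Gb : Nat.card Gb = 9196830720 := by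
  have h := Cfsg.Agent.Lib.UnitarySU.card_PSU hF4 6 (by norm_num)
  simp only [Finset.prod_range_succ, Finset.prod_range_zero] at h
  norm_num [Nat.even_iff] at h
  show Nat.card (PSU 6 K4 2) = 9196830720
  omega

theorem card_center_G : Nat.card (center G) = 3 := by
  have h := Cfsg.Agent.Lib.UnitarySU.card_center_SU hF4 (n := 6) (by norm_num)
  rw [h]
  norm_num

theorem card_T0 : Nat.card T0 = 3265920 := Cfsg.Agent.Lib.U43Mat.card_S0

theorem one_of_7_3 {Q : Type*} [Group Q] (t : Q) (h7 : t ^ 7 = 1) (h3 : t ^ 3 = 1) : t = 1 := by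
  calc t = t ^ 7 * (t ^ 3)⁻¹ * (t ^ 3)⁻¹ := by group
    _ = 1 := by rw [h7, h3]; group

theorem center_pow3 {z : G} (hz : z ∈ center G) : z ^ 3 = 1 := by
  have h : (⟨z, hz⟩ : center G) ^ Nat.card (center G) = 1 := pow_card_eq_one'
  rw [card_center_G] at h
  exact congrArg Subtype.val h

/-- Elements of order dividing seven with the same image are equal. -/
theorem eq_of_pi_eq {x u : G} (h : pi x = pi u) (hx : x ^ 7 = 1) (hu : u ^ 7 = 1) : x = u := by
  have hz : x * u⁻¹ ∈ center G := by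
    apply pi_eq_one_iff.1
    rw [map_mul, map_inv, h, mul_inv_cancel]
  have hc : Commute (x * u⁻¹) u := by
    have := (Subgroup.mem_center_iff.1 hz) u
    exact this.symm
  have h7 : (x * u⁻¹) ^ 7 = 1 := by
    have e : x = (x * u⁻¹) * u := by group
    have h2 : ((x * u⁻¹) * u) ^ 7 = 1 := by
      rw [← e]
      exact hx
    rw [hc.mul_pow, hu, mul_one] at h2
    exact h2
  have h3 := center_pow3 hz
  exact mul_inv_eq_one.mp (one_of_7_3 _ h7 h3)

theorem bb0_pow7 : bb 0 ^ 7 = 1 := by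
  show pi (bG 0) ^ 7 = 1
  rw [← map_pow, a_pow7, map_one]

/-- The centraliser of `a` in the quotient. -/
theorem cent_b {c : Gb} (h : c * bb 0 = bb 0 * c) : ∃ k, c = bb 0 ^ k := by
  obtain ⟨d, rfl⟩ := pi_surj c
  have h1 : pi (d * bG 0 * d⁻¹) = pi (bG 0) := by
    rw [map_mul, map_mul, map_inv]
    show pi d * bb 0 * (pi d)⁻¹ = bb 0
    rw [h]
    group
  have h2 : (d * bG 0 * d⁻¹) ^ 7 = 1 := by
    rw [conj_pow, a_pow7]
    group
  have h3 := eq_of_pi_eq h1 h2 a_pow7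
  have h4 : d * bG 0 = bG 0 * d := by
    calc d * bG 0 = (d * bG 0 * d⁻¹) * d := by group
      _ = bG 0 * d := by rw [h3]
  exact cent_a d h4

/-! ### Sylow subgroups of order seven -/

theorem exists_conj_pow {H : Type*} [Group H] [Finite H] {p : ℕ} [hp : Fact p.Prime] (h2 : ¬ p ^ 2 ∣ Nat.card H)
    {a b : H} (ha : orderOf a = p) (hb : orderOf b = p) : ∃ h : H, ∃ k, h * b * h⁻¹ = a ^ k := by
  have key : ∀ x : H, orderOf x = p → ∃ Q : Sylow p H, (Q : Subgroup H) = zpowers x := by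
    intro x hx
    have hP : IsPGroup p (zpowers x) := by
      apply IsPGroup.of_card (n := 1)
      rw [Nat.card_zpowers, hx, pow_one]
    obtain ⟨Q, hQ⟩ := hP.exists_le_sylow
    refine ⟨Q, ?_⟩
    obtain ⟨n, hn⟩ := IsPGroup.iff_card.1 Q.isPGroup'
    have hd : p ^ n ∣ Nat.card H := hn ▸ Subgroup.card_subgroup_dvd_card (Q : Subgroup H)
    have hn1 : n ≤ 1 := by
      by_contra hc
      exact h2 ((pow_dvd_pow p (by omega)).trans hd)
    have hcard : Nat.card (Q : Subgroup H) ≤ Nat.card (zpowers x) := by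
      rw [hn, Nat.card_zpowers, hx]
      calc p ^ n ≤ p ^ 1 := Nat.pow_le_pow_right hp.out.pos hn1
        _ = p := pow_one p
    exact (Subgroup.eq_of_le_of_card_ge hQ hcard).symm
  obtain ⟨Qa, hQa⟩ := key a ha
  obtain ⟨Qb, hQb⟩ := key b hb
  obtain ⟨h, hh⟩ := MulAction.exists_smul_eq H Qb Qa
  have hmem : h * b * h⁻¹ ∈ (Qa : Subgroup H) := by
    rw [← hh, Sylow.coe_subgroup_smul]
    have hb' : b ∈ (Qb : Subgroup H) := by
      rw [hQb]
      exact mem_zpowers b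
    exact Subgroup.smul_mem_pointwise_smul b (MulAut.conj h) _ hb'
  rw [hQa] at hmem
  obtain ⟨k, hk⟩ := (Submonoid.mem_powers_iff _ _).1 (mem_powers_iff_mem_zpowers.2 hmem)
  exact ⟨h, k, hk.symm⟩

theorem to_a (H : Subgroup Gb) (ha : bb 0 ∈ H) (hc : ¬ 49 ∣ Nat.card H) {A : Gb} (hAH : A ∈ H) (hA7 : A ^ 7 = 1)
    (hA1 : A ≠ 1) : ∃ h ∈ H, ∃ k, k % 7 ≠ 0 ∧ h * A * h⁻¹ = bb 0 ^ k := by
  haveI : Fact (Nat.Prime 7) := ⟨by norm_num⟩
  have o1 : orderOf (⟨bb 0, ha⟩ : H) = 7 := by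
    apply orderOf_eq_prime
    · exact Subtype.ext bb0_pow7
    · intro h
      exact ne_a (congrArg Subtype.val h)
  have o2 : orderOf (⟨A, hAH⟩ : H) = 7 := by
    apply orderOf_eq_prime
    · exact Subtype.ext hA7
    · intro h
      exact hA1 (congrArg Subtype.val h)
  obtain ⟨h, k, hk⟩ := exists_conj_pow (p := 7) (by simpa using hc) o1 o2
  have hk' : (h : Gb) * A * (h : Gb)⁻¹ = bb 0 ^ k := congrArg Subtype.val hk
  refine ⟨h, h.2, k, ?_, hk'⟩
  intro h0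
  apply hA1
  have h5 : bb 0 ^ k = 1 := by
    rw [pow_eq_pow_mod k bb0_pow7, h0, pow_zero]
  rw [h5] at hk'
  have h6 : (h : Gb) * A = h := mul_inv_eq_one.mp hk'
  exact mul_eq_left.mp h6

theorem hconj {t : Gb} {r : ℕ} (h : t * bb 0 * t⁻¹ = bb 0 ^ r) {k : ℕ} (hrk : (r * k) % 7 = 1) :
    t * bb 0 ^ k * t⁻¹ = bb 0 := by
  rw [← conj_pow, h, ← pow_mul, pow_eq_pow_mod _ bb0_pow7, hrk, pow_one]

theorem adjust (N : Subgroup Gb) (hy : bb 1 ∈ N) (hw : bb 2 ∈ N) (k : ℕ) (hk : k % 7 ≠ 0) :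
    ∃ t ∈ N, t * bb 0 ^ k * t⁻¹ = bb 0 := by
  have t1 : (1 : Gb) * bb 0 * (1 : Gb)⁻¹ = bb 0 ^ 1 := by group
  have t2 : bb 1 * bb 0 * (bb 1)⁻¹ = bb 0 ^ 2 := r_y
  have t4 : (bb 1 * bb 1) * bb 0 * (bb 1 * bb 1)⁻¹ = bb 0 ^ 4 := by
    calc (bb 1 * bb 1) * bb 0 * (bb 1 * bb 1)⁻¹ = bb 1 * (bb 1 * bb 0 * (bb 1)⁻¹) * (bb 1)⁻¹ := by group
      _ = bb 1 * bb 0 ^ 2 * (bb 1)⁻¹ := by rw [t2]
      _ = (bb 1 * bb 0 * (bb 1)⁻¹) ^ 2 := (conj_pow).symm
      _ = bb 0 ^ 4 := by rw [t2, ← pow_mul]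
  have hi : (bb 0)⁻¹ = bb 0 ^ 6 := by
    rw [inv_eq_iff_mul_eq_one, ← pow_succ', bb0_pow7]
  have t6 : bb 2 * bb 0 * (bb 2)⁻¹ = bb 0 ^ 6 := by rw [r_w, hi]
  have tw : ∀ {t : Gb} {r : ℕ}, t * bb 0 * t⁻¹ = bb 0 ^ r → (bb 2 * t) * bb 0 * (bb 2 * t)⁻¹ = bb 0 ^ (6 * r) := by
    intro t r h
    calc (bb 2 * t) * bb 0 * (bb 2 * t)⁻¹ = bb 2 * (t * bb 0 * t⁻¹) * (bb 2)⁻¹ := by group
      _ = bb 2 * bb 0 ^ r * (bb 2)⁻¹ := by rw [h]
      _ = (bb 2 * bb 0 * (bb 2)⁻¹) ^ r := (conj_pow).symm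
      _ = bb 0 ^ (6 * r) := by rw [t6, ← pow_mul]
  have hc : k % 7 < 7 := Nat.mod_lt _ (by decide)
  have hcases : k % 7 = 1 ∨ k % 7 = 2 ∨ k % 7 = 3 ∨ k % 7 = 4 ∨ k % 7 = 5 ∨ k % 7 = 6 := by omega
  rcases hcases with h | h | h | h | h | h
  · exact ⟨1, one_mem _, hconj t1 (by omega)⟩
  · exact ⟨bb 1 * bb 1, mul_mem hy hy, hconj t4 (by omega)⟩
  · exact ⟨bb 2 * bb 1, mul_mem hw hy, hconj (tw t2) (by omega)⟩
  · exact ⟨bb 1, hy, hconj t2 (by omega)⟩
  · exact ⟨bb 2 * (bb 1 * bb 1), mul_mem hw (mul_mem hy hy), hconj (tw t4) (by omega)⟩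
  · exact ⟨bb 2, hw, hconj t6 (by omega)⟩

/-! ### The three subgroups -/

theorem exists_phi (i : Fin 3) : ∃ φ : T0 →* Gb, ∀ n, n < 4 → φ (tS n) = sb i n :=
  Cfsg.Agent.Lib.S5520P.hFP.exists_hom (sb i) (sb_rels i.2)

/-- The embeddings. -/
noncomputable def phi (i : Fin 3) : T0 →* Gb := (exists_phi i).choose

theorem phi_s (i : Fin 3) (n : ℕ) (h : n < 4) : phi i (tS n) = sb i n := (exists_phi i).choose_spec n h

/-- The three subgroups. -/
noncomputable def Kb (i : Fin 3) : Subgroup Gb := (phi i).range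

theorem simple_T0 : IsSimpleGroup T0 :=
  Cfsg.Agent.Lib.UnitarySimple.isSimple_PSU Cfsg.Agent.Lib.U43Mat.card_K9' (by norm_num) (by norm_num)

theorem inj_of_ne {Q : Type*} [Group Q] (ψ : T0 →* Q) (h : ψ (tS 0) ≠ 1) : Function.Injective ψ := by
  haveI := simple_T0
  rcases IsSimpleGroup.eq_bot_or_eq_top_of_normal ψ.ker inferInstance with h1 | h1
  · exact (MonoidHom.ker_eq_bot_iff ψ).1 h1
  · exfalso
    apply h
    have : tS 0 ∈ ψ.ker := by
      rw [h1]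
      trivial
    exact MonoidHom.mem_ker.1 this

theorem sb_zero (i : Fin 3) : sb i 0 = bb 0 := rfl

theorem phi_inj (i : Fin 3) : Function.Injective (phi i) := by
  apply inj_of_ne
  rw [phi_s i 0 (by norm_num), sb_zero]
  exact ne_a

theorem sb_mem (i : Fin 3) (n : ℕ) : sb i n ∈ Kb i := by
  match n with
  | 0 => exact ⟨_, phi_s i 0 (by norm_num)⟩
  | 1 => exact ⟨_, phi_s i 1 (by norm_num)⟩
  | 2 => exact ⟨_, phi_s i 2 (by norm_num)⟩
  | 3 => exact ⟨_, phi_s i 3 (by norm_num)⟩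
  | n + 4 => exact ⟨_, phi_s i 3 (by norm_num)⟩

theorem word_mem (i : Fin 3) (w : List ℕ) : evW (sb i) w ∈ Kb i := evW_mem _ _ _ (fun l _ => sb_mem i _)

theorem a_mem (i : Fin 3) : bb 0 ∈ Kb i := sb_mem i 0

theorem y_mem (i : Fin 3) : bb 1 ∈ Kb i := by
  rw [← y_word i.2]
  exact word_mem i _

theorem b_mem (i : Fin 3) : bb (4 + i) ∈ Kb i := by
  rw [← b_word i.2]
  exact word_mem i _

theorem card_Kb (i : Fin 3) : Nat.card (Kb i) = 3265920 := by
  rw [← card_T0]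
  exact (Nat.card_congr (MonoidHom.ofInjective (phi_inj i)).toEquiv).symm

theorem s_ne : tS 0 ≠ 1 := by
  intro h
  have h1 := phi_s 0 0 (by norm_num)
  rw [h, map_one, sb_zero] at h1
  exact ne_a h1.symm

/-- A homomorphism sending the two generators into a subgroup. -/
theorem hom_le {Q : Type*} [Group Q] (ψ : T0 →* Q) (H : Subgroup Q) (h0 : ψ (tS 0) ∈ H) (h1 : ψ (tS 1) ∈ H) :
    ψ.range ≤ H := by
  have h := Cfsg.Agent.Lib.S5520P.closure_sG2
  have hle : closure (tS '' Set.Iio 2) ≤ H.comap ψ := by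
    rw [closure_le]
    rintro _ ⟨n, hn, rfl⟩
    have hn' : n < 2 := hn
    interval_cases n
    · exact h0
    · exact h1
  rw [h] at hle
  rintro _ ⟨x, rfl⟩
  exact hle (mem_top x)

theorem mem_norm {Q : Type*} [Group Q] [Finite Q] {H : Subgroup Q} {g : Q} (h : ∀ n ∈ H, g * n * g⁻¹ ∈ H) :
    g ∈ normalizer (H : Set Q) := by
  have hle : H.map (MulAut.conj g).toMonoidHom ≤ H := by
    rintro _ ⟨n, hn, rfl⟩
    exact h n hn
  have hinj : Function.Injective (MulAut.conj g).toMonoidHom := (MulAut.conj g).injective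
  have hcard : Nat.card H ≤ Nat.card (H.map (MulAut.conj g).toMonoidHom) :=
    (Subgroup.card_map_of_injective hinj).ge
  have he := Subgroup.eq_of_le_of_card_ge hle hcard
  rw [Subgroup.mem_normalizer_iff]
  intro n
  refine ⟨h n, fun hn => ?_⟩
  rw [← he] at hn
  obtain ⟨m, hm, hme⟩ := hn
  have : m = n := by
    have h2 : g * m * g⁻¹ = g * n * g⁻¹ := hme
    exact mul_left_cancel (mul_right_cancel h2)
  rwa [← this]

theorem w_norm (i : Fin 3) : bb 2 ∈ normalizer ((Kb i : Subgroup Gb) : Set Gb) := by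
  apply mem_norm
  have h := hom_le ((MulAut.conj (bb 2)).toMonoidHom.comp (phi i)) (Kb i) ?_ ?_
  · rintro _ ⟨x, rfl⟩
    exact h ⟨x, rfl⟩
  · show bb 2 * phi i (tS 0) * (bb 2)⁻¹ ∈ Kb i
    rw [phi_s i 0 (by norm_num), sb_zero, r_w]
    exact inv_mem (a_mem i)
  · show bb 2 * phi i (tS 1) * (bb 2)⁻¹ ∈ Kb i
    rw [phi_s i 1 (by norm_num), ← wxw_word i.2]
    exact word_mem i _

theorem y_norm (i : Fin 3) : bb 1 ∈ normalizer ((Kb i : Subgroup Gb) : Set Gb) :=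
  Subgroup.le_normalizer (y_mem i)

/-- The central part. -/
theorem b_cases (B : Gb) (h3 : B ^ 3 = 1) (hy : B * bb 1 = bb 1 * B) (h7a : (bb 0 * B) ^ 7 = 1)
    (h7b : (bb 0 * B⁻¹) ^ 7 = 1) (h7c : (bb 0 * (bb 1)⁻¹ * B) ^ 7 = 1) : ∃ i : Fin 3, B ∈ Kb i := by
  obtain ⟨d, rfl⟩ := pi_surj B
  have hz : d * bG 1 * d⁻¹ * (bG 1)⁻¹ ∈ center G := by
    apply pi_eq_one_iff.1
    rw [map_mul, map_mul, map_mul, map_inv, map_inv]
    show pi d * bb 1 * (pi d)⁻¹ * (bb 1)⁻¹ = 1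
    rw [hy]
    group
  set z := d * bG 1 * d⁻¹ * (bG 1)⁻¹ with hzdef
  obtain ⟨k, hk, hτ⟩ := tau_cases z hz
  set τ := tauG k with hτdef
  have hzc : ∀ g : G, g * z = z * g := fun g => (Subgroup.mem_center_iff.1 hz g)
  have hzi : ∀ g : G, g * z⁻¹ = z⁻¹ * g := by
    intro g
    have h1 := hzc g
    calc g * z⁻¹ = z⁻¹ * (z * g) * z⁻¹ := by group
      _ = z⁻¹ * (g * z) * z⁻¹ := by rw [h1]
      _ = z⁻¹ * g := by group
  have e1 : d * bG 1 = z * bG 1 * d := by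
    rw [hzdef]
    group
  have e2 : τ * bG 1 = z * bG 1 * τ := by
    calc τ * bG 1 = (τ * bG 1 * τ⁻¹) * τ := by group
      _ = z * bG 1 * τ := by rw [hτ]
  have e3 : τ⁻¹ * bG 1 = z⁻¹ * bG 1 * τ⁻¹ := by
    have : τ * (z⁻¹ * bG 1 * τ⁻¹) = bG 1 := by
      calc τ * (z⁻¹ * bG 1 * τ⁻¹) = (τ * z⁻¹) * bG 1 * τ⁻¹ := by group
        _ = z⁻¹ * (τ * bG 1) * τ⁻¹ := by rw [hzi τ]; group
        _ = bG 1 := by rw [e2]; group
    exact (eq_inv_mul_of_mul_eq this).symm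
  have hD : (d * τ⁻¹) * bG 1 = bG 1 * (d * τ⁻¹) := by
    calc (d * τ⁻¹) * bG 1 = d * (τ⁻¹ * bG 1) := by group
      _ = d * (z⁻¹ * bG 1 * τ⁻¹) := by rw [e3]
      _ = (d * z⁻¹) * bG 1 * τ⁻¹ := by group
      _ = z⁻¹ * (d * bG 1) * τ⁻¹ := by rw [hzi d]; group
      _ = z⁻¹ * (z * bG 1 * d) * τ⁻¹ := by rw [e1]
      _ = bG 1 * (d * τ⁻¹) := by group
  obtain ⟨c1, h1, c2, h2, c3, h3', hR⟩ := blk_of _ hD
  have hM : Rq d (mmul (blkM c1 c2 c3) (tpw k)) := by
    have := Rq_mul hR (Rq_tau k)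
    rwa [show d * τ⁻¹ * tauG k = d by rw [← hτdef]; group] at this
  have hchk := chkM_all h1 h2 h3' hk
  set M := mmul (blkM c1 c2 c3) (tpw k) with hMdef
  have t1 : isS (mpw M 3) = true := isS_of (Rq_pow hM 3) (by rw [map_pow]; exact h3)
  have t2 : isS (mpw (mmul (bT 0) M) 7) = true :=
    isS_of (Rq_pow (Rq_mul (Rq_bG 0) hM) 7) (by rw [map_pow, map_mul]; exact h7a)
  have t3 : isS (mpw (mmul (bT 0) (adj M)) 7) = true :=
    isS_of (Rq_pow (Rq_mul (Rq_bG 0) (Rq_inv hM)) 7) (by rw [map_pow, map_mul, map_inv]; exact h7b)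
  have t4 : isS (mpw (mmul ayT M) 7) = true :=
    isS_of (Rq_pow (Rq_mul (Rq_mul (Rq_bG 0) (Rq_inv (Rq_bG 1))) hM) 7)
      (by rw [map_pow, map_mul, map_mul, map_inv]; exact h7c)
  rw [chkM, t1, t2, t3, t4] at hchk
  simp only [Bool.not_true, Bool.false_or, accB, List.any_eq_true] at hchk
  obtain ⟨i, hi, W, hW, hs⟩ := hchk
  have hi' : i < 3 := List.mem_range.mp hi
  refine ⟨⟨i, hi'⟩, ?_⟩
  have h5 := pi_eq hM (Rq_evW (Rq_sx hi') W) hs
  rw [h5, evW_map]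
  exact word_mem ⟨i, hi'⟩ W

/-! ### Normal forms of embeddings -/

theorem normalize (ψ : T0 →* Gb) (hψ : Function.Injective ψ) (y0 : T0) (hy0 : y0 * tS 0 * y0⁻¹ = tS 0 ^ 2)
    (hs7 : tS 0 ^ 7 = 1) : ∃ g : Gb, g * ψ (tS 0) * g⁻¹ = bb 0 ∧ g * ψ y0 * g⁻¹ = bb 1 := by
  have hA7 : ψ (tS 0) ^ 7 = 1 := by rw [← map_pow, hs7, map_one]
  have hA1 : ψ (tS 0) ≠ 1 := by
    intro h
    exact s_ne (hψ (h.trans (map_one ψ).symm))
  obtain ⟨h1, -, k, hk, hh⟩ := to_a ⊤ (mem_top _) (by rw [Subgroup.card_top, card_Gb]; norm_num) (mem_top _) hA7 hA1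
  obtain ⟨t, -, ht⟩ := adjust ⊤ (mem_top _) (mem_top _) k hk
  set g1 := t * h1 with hg1
  have e1 : g1 * ψ (tS 0) * g1⁻¹ = bb 0 := by
    rw [← ht, ← hh, hg1]
    group
  set Y := g1 * ψ y0 * g1⁻¹ with hY
  have e2 : Y * bb 0 * Y⁻¹ = bb 0 ^ 2 := by
    have h2 : ψ y0 * ψ (tS 0) * (ψ y0)⁻¹ = ψ (tS 0) ^ 2 := by
      rw [← map_mul, ← map_inv, ← map_mul, hy0, map_pow]
    calc Y * bb 0 * Y⁻¹ = g1 * (ψ y0 * ψ (tS 0) * (ψ y0)⁻¹) * g1⁻¹ := by
          rw [← e1, hY]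
          group
      _ = g1 * ψ (tS 0) ^ 2 * g1⁻¹ := by rw [h2]
      _ = (g1 * ψ (tS 0) * g1⁻¹) ^ 2 := (conj_pow).symm
      _ = bb 0 ^ 2 := by rw [e1]
  have e3 : ((bb 1)⁻¹ * Y) * bb 0 = bb 0 * ((bb 1)⁻¹ * Y) := by
    have h4 : Y * bb 0 = bb 0 ^ 2 * Y := by
      rw [← e2]
      group
    have h5 : bb 1 * bb 0 = bb 0 ^ 2 * bb 1 := by
      rw [← r_y]
      group
    calc ((bb 1)⁻¹ * Y) * bb 0 = (bb 1)⁻¹ * (Y * bb 0) := by group
      _ = (bb 1)⁻¹ * (bb 0 ^ 2 * Y) := by rw [h4]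
      _ = (bb 1)⁻¹ * (bb 0 ^ 2 * bb 1) * ((bb 1)⁻¹ * Y) := by group
      _ = (bb 1)⁻¹ * (bb 1 * bb 0) * ((bb 1)⁻¹ * Y) := by rw [h5]
      _ = bb 0 * ((bb 1)⁻¹ * Y) := by group
  obtain ⟨n, hn⟩ := cent_b e3
  have eY : Y = bb 1 * bb 0 ^ n := by
    rw [← hn]
    group
  set p := bb 0 ^ n with hp
  have hyp : bb 1 * p = p * p * bb 1 := by
    have h6 : bb 1 * p * (bb 1)⁻¹ = p * p := by
      rw [hp, ← conj_pow, r_y, ← pow_mul, ← pow_add]
      congr 1
      ring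
    calc bb 1 * p = (bb 1 * p * (bb 1)⁻¹) * bb 1 := by group
      _ = p * p * bb 1 := by rw [h6]
  have hpa : p * bb 0 = bb 0 * p := by
    rw [hp, ← pow_succ, ← pow_succ']
  refine ⟨(p * p) * g1, ?_, ?_⟩
  · calc (p * p) * g1 * ψ (tS 0) * ((p * p) * g1)⁻¹ = (p * p) * (g1 * ψ (tS 0) * g1⁻¹) * (p * p)⁻¹ := by group
      _ = (p * p) * bb 0 * (p * p)⁻¹ := by rw [e1]
      _ = p * (p * bb 0) * p⁻¹ * p⁻¹ := by group
      _ = p * (bb 0 * p) * p⁻¹ * p⁻¹ := by rw [hpa]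
      _ = (p * bb 0) * p⁻¹ := by group
      _ = (bb 0 * p) * p⁻¹ := by rw [hpa]
      _ = bb 0 := by group
  · calc (p * p) * g1 * ψ y0 * ((p * p) * g1)⁻¹ = (p * p) * Y * (p * p)⁻¹ := by
          rw [hY]
          group
      _ = (p * p) * (bb 1 * p) * (p * p)⁻¹ := by rw [eY]
      _ = bb 1 * (p * p) * (p * p)⁻¹ := by
          have h7 : (p * p) * (bb 1 * p) = bb 1 * (p * p) := by
            calc (p * p) * (bb 1 * p) = (p * p * bb 1) * p := by group
              _ = (bb 1 * p) * p := by rw [hyp]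
              _ = bb 1 * (p * p) := by group
          rw [h7]
      _ = bb 1 := by group

/-! ### The cover -/

theorem tS_pow7 : tS 0 ^ 7 = 1 := by
  apply phi_inj 0
  rw [map_pow, phi_s 0 0 (by norm_num), sb_zero, bb0_pow7, map_one]

/-- Every embedding has a conjugate inside one of the three subgroups. -/
theorem cover (ψ : T0 →* Gb) (hψ : Function.Injective ψ) : ∃ g : Gb, ∃ i : Fin 3, ∀ x ∈ ψ.range, g * x * g⁻¹ ∈ Kb i := by
  obtain ⟨y0, hy⟩ : ∃ y0, phi 0 y0 = bb 1 := y_mem 0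
  obtain ⟨b0, hb⟩ : ∃ b0, phi 0 b0 = bb 4 := b_mem 0
  have hs : phi 0 (tS 0) = bb 0 := phi_s 0 0 (by norm_num)
  have ry : y0 * tS 0 * y0⁻¹ = tS 0 ^ 2 := by
    apply phi_inj 0
    rw [map_mul, map_mul, map_inv, map_pow, hy, hs]
    exact r_y
  have b3 : b0 ^ 3 = 1 := by
    apply phi_inj 0
    rw [map_pow, hb, map_one]
    exact r_b3
  have rby : b0 * y0 = y0 * b0 := by
    apply phi_inj 0
    rw [map_mul, map_mul, hb, hy]
    exact r_by
  have ab7 : (tS 0 * b0) ^ 7 = 1 := by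
    apply phi_inj 0
    rw [map_pow, map_mul, hb, hs, map_one]
    exact r_ab7
  have abi7 : (tS 0 * b0⁻¹) ^ 7 = 1 := by
    apply phi_inj 0
    rw [map_pow, map_mul, map_inv, hb, hs, map_one]
    exact r_abi7
  have ayb7 : (tS 0 * y0⁻¹ * b0) ^ 7 = 1 := by
    apply phi_inj 0
    rw [map_pow, map_mul, map_mul, map_inv, hb, hy, hs, map_one]
    exact r_ayb7
  let gg : ℕ → T0 := fun n =>
    match n with
    | 0 => tS 0
    | 1 => y0
    | _ => b0
  have hs1 : tS 1 = evW gg wx := by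
    apply phi_inj 0
    rw [phi_s 0 1 (by norm_num), evW_map']
    show pi (evW (gG 0) wx) = _
    rw [evW_map]
    congr 1
    funext n
    match n with
    | 0 => exact hs.symm
    | 1 => exact hy.symm
    | n + 2 => exact hb.symm
  obtain ⟨g, hg0, hg1⟩ := normalize ψ hψ y0 ry tS_pow7
  let ψ2 : T0 →* Gb := (MulAut.conj g).toMonoidHom.comp ψ
  have h0 : ψ2 (tS 0) = bb 0 := hg0
  have h1 : ψ2 y0 = bb 1 := hg1
  obtain ⟨i, hi⟩ := b_cases (ψ2 b0)
    (by rw [← map_pow, b3, map_one])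
    (by rw [← h1, ← map_mul, ← map_mul, rby])
    (by rw [← h0, ← map_mul, ← map_pow, ab7, map_one])
    (by rw [← h0, ← map_inv, ← map_mul, ← map_pow, abi7, map_one])
    (by rw [← h0, ← h1, ← map_inv, ← map_mul, ← map_mul, ← map_pow, ayb7, map_one])
  refine ⟨g, i, ?_⟩
  have hle := hom_le ψ2 (Kb i) (by rw [h0]; exact a_mem i) (by
    rw [hs1, evW_map']
    apply evW_mem
    intro l _
    generalize l / 2 = n
    match n with
    | 0 =>
      show ψ2 (tS 0) ∈ Kb i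
      rw [h0]
      exact a_mem i
    | 1 =>
      show ψ2 y0 ∈ Kb i
      rw [h1]
      exact y_mem i
    | n + 2 => exact hi)
  rintro _ ⟨t, rfl⟩
  exact hle ⟨t, rfl⟩

/-! ### Non-conjugacy -/

theorem nonconj (i j : Fin 3) (n : ℕ) (hn3 : n < 3)
    (hn : ∀ l ∈ w11 n, l / 2 = 0 ∨ l / 2 = 1 ∨ l / 2 = 4 + i ∨ l / 2 = 4 + j) (g : Gb)
    (h : ∀ x ∈ Kb i, g * x * g⁻¹ ∈ Kb j) : False := by
  have hA7 : (g * bb 0 * g⁻¹) ^ 7 = 1 := by
    rw [conj_pow, bb0_pow7]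
    group
  have hA1 : g * bb 0 * g⁻¹ ≠ 1 := by
    intro h1
    exact ne_a (conj_eq_one_iff.mp h1)
  obtain ⟨h1, hh1, k, hk, hh⟩ := to_a (Kb j) (a_mem j) (by rw [card_Kb]; norm_num) (h _ (a_mem i)) hA7 hA1
  obtain ⟨t, ht, hte⟩ := adjust (normalizer ((Kb j : Subgroup Gb) : Set Gb)) (y_norm j) (w_norm j) k hk
  have hu : (t * h1 * g) * bb 0 = bb 0 * (t * h1 * g) := by
    have h2 : (t * h1 * g) * bb 0 * (t * h1 * g)⁻¹ = bb 0 := by
      calc (t * h1 * g) * bb 0 * (t * h1 * g)⁻¹ = t * (h1 * (g * bb 0 * g⁻¹) * h1⁻¹) * t⁻¹ := by group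
        _ = bb 0 := by rw [hh, hte]
    exact mul_inv_eq_iff_eq_mul.mp h2
  obtain ⟨m, hm⟩ := cent_b hu
  have huK : t * h1 * g ∈ Kb i := by
    rw [hm]
    exact pow_mem (a_mem i) m
  have hsub : ∀ x ∈ Kb i, x ∈ Kb j := by
    intro x hx
    have hx' : (t * h1 * g)⁻¹ * x * (t * h1 * g) ∈ Kb i := mul_mem (mul_mem (inv_mem huK) hx) huK
    have h3 : h1 * (g * ((t * h1 * g)⁻¹ * x * (t * h1 * g)) * g⁻¹) * h1⁻¹ ∈ Kb j :=
      mul_mem (mul_mem hh1 (h _ hx')) (inv_mem hh1)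
    have h4 := (Subgroup.mem_normalizer_iff.1 ht _).1 h3
    have e : t * (h1 * (g * ((t * h1 * g)⁻¹ * x * (t * h1 * g)) * g⁻¹) * h1⁻¹) * t⁻¹ = x := by group
    rwa [e] at h4
  have hw : evW bb (w11 n) ∈ Kb j := by
    apply evW_mem
    intro l hl
    rcases hn l hl with e | e | e | e <;> rw [e]
    · exact a_mem j
    · exact y_mem j
    · exact hsub _ (b_mem i)
    · exact b_mem j
  have hd := Subgroup.orderOf_dvd_natCard (Kb j) hw
  rw [w11_order hn3, card_Kb] at hd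
  norm_num at hd

/-! ### Preimages -/

theorem center_T0 {s : T0} (h : ∀ t : T0, t * s = s * t) : s = 1 := by
  haveI := simple_T0
  rcases IsSimpleGroup.eq_bot_or_eq_top_of_normal (center T0) inferInstance with h1 | h1
  · have : s ∈ center T0 := Subgroup.mem_center_iff.2 h
    rw [h1] at this
    exact Subgroup.mem_bot.1 this
  · exfalso
    obtain ⟨y0, hy⟩ : ∃ y0, phi 0 y0 = bb 1 := y_mem 0
    have hs : phi 0 (tS 0) = bb 0 := phi_s 0 0 (by norm_num)
    have ry : y0 * tS 0 * y0⁻¹ = tS 0 ^ 2 := by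
      apply phi_inj 0
      rw [map_mul, map_mul, map_inv, map_pow, hy, hs]
      exact r_y
    have hc : y0 * tS 0 = tS 0 * y0 := by
      have : y0 ∈ center T0 := by
        rw [h1]
        trivial
      exact (Subgroup.mem_center_iff.1 this (tS 0)).symm
    have h2 : tS 0 = tS 0 ^ 2 := by
      rw [← ry, hc]
      group
    apply s_ne
    have h3 : tS 0 * tS 0 = tS 0 * 1 := by
      rw [mul_one, ← pow_two]
      exact h2.symm
    exact mul_left_cancel h3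

theorem center_Kb (i : Fin 3) (x : Kb i) (h : ∀ y : Kb i, y * x = x * y) : x = 1 := by
  obtain ⟨x, s, rfl⟩ := x
  have hs : s = 1 := by
    apply center_T0
    intro t
    apply phi_inj i
    have := h ⟨phi i t, ⟨t, rfl⟩⟩
    rw [map_mul, map_mul]
    exact congrArg Subtype.val this
  subst hs
  exact Subtype.ext (map_one _)

theorem comap_facts (H : Subgroup Gb) (hH : ∀ x : H, (∀ y : H, y * x = x * y) → x = 1) :
    Nat.card (center (H.comap pi)) = 3 ∧ Nonempty ((H.comap pi) ⧸ center (H.comap pi) ≃* H) := by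
  set K := H.comap pi with hK
  let f : K →* H := (pi.comp K.subtype).codRestrict H (fun x => x.2)
  have hfs : Function.Surjective f := by
    rintro ⟨y, hy⟩
    obtain ⟨x, rfl⟩ := pi_surj y
    exact ⟨⟨x, hy⟩, rfl⟩
  have hker : f.ker = center K := by
    ext x
    rw [MonoidHom.mem_ker, Subgroup.mem_center_iff]
    constructor
    · intro h y
      have h1 : pi x.1 = 1 := congrArg Subtype.val h
      have h2 := pi_eq_one_iff.1 h1
      exact Subtype.ext (Subgroup.mem_center_iff.1 h2 y.1)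
    · intro h
      apply hH
      intro y
      obtain ⟨y', rfl⟩ := hfs y
      rw [← map_mul, ← map_mul, h y']
  constructor
  · have hm : (center K).map K.subtype = center G := by
      ext z
      constructor
      · rintro ⟨x, hx, rfl⟩
        have h1 : x ∈ f.ker := by
          rw [hker]
          exact hx
        have h2 : pi x.1 = 1 := congrArg Subtype.val (MonoidHom.mem_ker.1 h1)
        exact pi_eq_one_iff.1 h2
      · intro hz
        have h1 : pi z = 1 := pi_eq_one_iff.2 hz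
        have hzK : z ∈ K := by
          show pi z ∈ H
          rw [h1]
          exact one_mem _
        refine ⟨⟨z, hzK⟩, ?_, rfl⟩
        rw [← hker]
        exact MonoidHom.mem_ker.2 (Subtype.ext h1)
    rw [← card_center_G, ← hm, Subgroup.card_map_of_injective K.subtype_injective]
  · exact ⟨(QuotientGroup.quotientMulEquivOfEq hker.symm).trans (QuotientGroup.quotientKerEquivOfSurjective f hfs)⟩

/-- The centre of a subgroup of the right kind is central. -/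
theorem center_le (K : Subgroup G) (hc : Nat.card (center K) = 3) (h7 : 7 ∣ Nat.card K) {z : K} (hz : z ∈ center K) :
    (z : G) ∈ center G := by
  haveI : Fact (Nat.Prime 7) := ⟨by norm_num⟩
  have hz3 : (z : G) ^ 3 = 1 := by
    have h : (⟨z, hz⟩ : center K) ^ Nat.card (center K) = 1 := pow_card_eq_one'
    rw [hc] at h
    exact congrArg (fun t : center K => ((t : K) : G)) h
  obtain ⟨x, hx⟩ := exists_prime_orderOf_dvd_card' 7 h7
  have hx7 : (x : G) ^ 7 = 1 := by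
    have : x ^ 7 = 1 := by
      rw [← hx]
      exact pow_orderOf_eq_one x
    exact congrArg Subtype.val this
  have hx1 : (x : G) ≠ 1 := by
    intro h
    have h1 : x = 1 := Subtype.ext h
    rw [h1, orderOf_one] at hx
    omega
  have hpi1 : pi (x : G) ≠ 1 := by
    intro h
    have h3 := center_pow3 (pi_eq_one_iff.1 h)
    exact hx1 (one_of_7_3 _ hx7 h3)
  have hpi7 : pi (x : G) ^ 7 = 1 := by rw [← map_pow, hx7, map_one]
  obtain ⟨h1, -, k, hk, hh⟩ := to_a ⊤ (mem_top _) (by rw [Subgroup.card_top, card_Gb]; norm_num) (mem_top _) hpi7 hpi1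
  obtain ⟨t, -, ht⟩ := adjust ⊤ (mem_top _) (mem_top _) k hk
  obtain ⟨c, hc'⟩ := pi_surj (t * h1)
  have e1 : c * x * c⁻¹ = bG 0 := by
    refine eq_of_pi_eq ?_ (by rw [conj_pow, hx7]; group) a_pow7
    rw [map_mul, map_mul, map_inv, hc']
    show t * h1 * pi (x : G) * (t * h1)⁻¹ = bb 0
    rw [← ht, ← hh]
    group
  have hzx : (z : G) * x = x * z := by
    have := (Subgroup.mem_center_iff.1 hz x).symm
    exact congrArg Subtype.val this
  have hcomm : (c * z * c⁻¹) * bG 0 = bG 0 * (c * z * c⁻¹) := by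
    rw [← e1]
    calc (c * z * c⁻¹) * (c * x * c⁻¹) = c * ((z : G) * x) * c⁻¹ := by group
      _ = c * ((x : G) * z) * c⁻¹ := by rw [hzx]
      _ = (c * x * c⁻¹) * (c * z * c⁻¹) := by group
  obtain ⟨n, hn⟩ := cent_a _ hcomm
  have hz3' : (c * z * c⁻¹) ^ 3 = 1 := by
    rw [conj_pow, hz3]
    group
  have h3n : bb 0 ^ (n * 3) = 1 := by
    rw [pow_mul]
    show (pi (bG 0) ^ n) ^ 3 = 1
    rw [← hn, ← map_pow, hz3', map_one]
  have ho : orderOf (bb 0) = 7 := orderOf_eq_prime bb0_pow7 ne_a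
  have hd := orderOf_dvd_of_pow_eq_one h3n
  rw [ho] at hd
  have h7n : 7 ∣ n := by omega
  have h1' : pi (c * z * c⁻¹) = 1 := by
    rw [hn]
    obtain ⟨q, rfl⟩ := h7n
    show (bb 0) ^ (7 * q) = 1
    rw [pow_mul, bb0_pow7, one_pow]
  have h2 := pi_eq_one_iff.1 h1'
  rw [Subgroup.mem_center_iff] at h2 ⊢
  intro g
  have h4 := h2 (c * g * c⁻¹)
  calc g * (z : G) = c⁻¹ * ((c * g * c⁻¹) * (c * z * c⁻¹)) * c := by group
    _ = c⁻¹ * ((c * z * c⁻¹) * (c * g * c⁻¹)) * c := by rw [h4]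
    _ = z * g := by group

/-- The preimages. -/
noncomputable def K0 (i : Fin 3) : Subgroup G := (Kb i).comap pi

theorem facts (i : Fin 3) : Nat.card (center (K0 i)) = 3 ∧ Nonempty ((K0 i) ⧸ center (K0 i) ≃* T0) := by
  obtain ⟨h1, ⟨e⟩⟩ := comap_facts (Kb i) (center_Kb i)
  exact ⟨h1, ⟨e.trans (MonoidHom.ofInjective (phi_inj i)).symm⟩⟩

theorem card_K0 (i : Fin 3) : Nat.card (K0 i) = 3265920 * 3 := by
  obtain ⟨h1, ⟨e⟩⟩ := facts i
  rw [Subgroup.card_eq_card_quotient_mul_card_subgroup (center (K0 i)), h1, Nat.card_congr e.toEquiv, card_T0]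

theorem not_conj (i j : Fin 3) (n : ℕ) (hn3 : n < 3)
    (hn : ∀ l ∈ w11 n, l / 2 = 0 ∨ l / 2 = 1 ∨ l / 2 = 4 + i ∨ l / 2 = 4 + j) :
    ¬ ∃ g : G, (K0 i).map (MulAut.conj g).toMonoidHom = K0 j := by
  rintro ⟨g, hg⟩
  apply nonconj i j n hn3 hn (pi g)
  intro x hx
  obtain ⟨d, rfl⟩ := pi_surj x
  have h1 : d ∈ K0 i := hx
  have h2 : g * d * g⁻¹ ∈ K0 j := by
    rw [← hg]
    exact ⟨d, h1, rfl⟩
  have h3 : pi (g * d * g⁻¹) ∈ Kb j := h2
  rwa [map_mul, map_mul, map_inv] at h3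

theorem classify (K : Subgroup G) (hc : Nat.card (center K) = 3) (he : Nonempty (K ⧸ center K ≃* T0)) :
    ∃ g : G, ∃ i : Fin 3, K.map (MulAut.conj g).toMonoidHom = K0 i := by
  obtain ⟨e⟩ := he
  have hcard : Nat.card K = 3265920 * 3 := by
    rw [Subgroup.card_eq_card_quotient_mul_card_subgroup (center K), hc, Nat.card_congr e.toEquiv, card_T0]
  have hcen : ∀ z ∈ center K, (z : G) ∈ center G := fun z hz =>
    center_le K hc (by rw [hcard]; norm_num) hz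
  let f : K →* Gb := pi.comp K.subtype
  have hf : center K ≤ f.ker := fun z hz => pi_eq_one_iff.2 (hcen z hz)
  let ψ' : K ⧸ center K →* Gb := QuotientGroup.lift (center K) f hf
  have hψ' : Function.Injective ψ' := by
    rw [injective_iff_map_eq_one]
    intro q
    induction q using QuotientGroup.induction_on with
    | H x =>
      intro h
      have h1 : pi (x : G) = 1 := h
      have h2 := pi_eq_one_iff.1 h1
      apply (QuotientGroup.eq_one_iff x).2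
      rw [Subgroup.mem_center_iff]
      intro y
      exact Subtype.ext (Subgroup.mem_center_iff.1 h2 y.1)
  let ψ : T0 →* Gb := ψ'.comp e.symm.toMonoidHom
  have hψ : Function.Injective ψ := hψ'.comp e.symm.injective
  obtain ⟨g, i, hgi⟩ := cover ψ hψ
  obtain ⟨c, rfl⟩ := pi_surj g
  refine ⟨c, i, ?_⟩
  have hle : K.map (MulAut.conj c).toMonoidHom ≤ K0 i := by
    rintro _ ⟨x, hx, rfl⟩
    have h1 : pi x ∈ ψ.range := by
      refine ⟨e (QuotientGroup.mk ⟨x, hx⟩), ?_⟩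
      show ψ' (e.symm (e (QuotientGroup.mk ⟨x, hx⟩))) = pi x
      rw [e.symm_apply_apply]
      rfl
    have h2 := hgi _ h1
    show pi (c * x * c⁻¹) ∈ Kb i
    rwa [map_mul, map_mul, map_inv]
  apply Subgroup.eq_of_le_of_card_ge hle
  have hinj : Function.Injective (MulAut.conj c).toMonoidHom := (MulAut.conj c).injective
  exact le_of_eq (by rw [card_K0, Subgroup.card_map_of_injective hinj, hcard])

/-- The result over the concrete fields. -/
theorem main : ∃ K₁ K₂ K₃ : Subgroup G, (∀ K ∈ [K₁, K₂, K₃], Nat.card (center K) = 3 ∧ Nonempty (K ⧸ center K ≃* T0)) ∧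
    (¬ ∃ g : G, K₁.map (MulAut.conj g).toMonoidHom = K₂) ∧ (¬ ∃ g : G, K₁.map (MulAut.conj g).toMonoidHom = K₃) ∧
    (¬ ∃ g : G, K₂.map (MulAut.conj g).toMonoidHom = K₃) ∧
    ∀ K : Subgroup G, Nat.card (center K) = 3 → Nonempty (K ⧸ center K ≃* T0) →
      ∃ g : G, K.map (MulAut.conj g).toMonoidHom = K₁ ∨ K.map (MulAut.conj g).toMonoidHom = K₂ ∨
        K.map (MulAut.conj g).toMonoidHom = K₃ := by
  refine ⟨K0 0, K0 1, K0 2, ?_, not_conj 0 1 0 (by norm_num) ?_, not_conj 0 2 1 (by norm_num) ?_,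
    not_conj 1 2 2 (by norm_num) ?_, ?_⟩
  · intro K hK
    simp only [List.mem_cons, List.not_mem_nil, or_false] at hK
    rcases hK with rfl | rfl | rfl <;> exact facts _
  · decide +kernel
  · decide +kernel
  · decide +kernel
  · intro K hc he
    obtain ⟨g, i, hi⟩ := classify K hc he
    refine ⟨g, ?_⟩
    fin_cases i
    · exact Or.inl hi
    · exact Or.inr (Or.inl hi)
    · exact Or.inr (Or.inr hi)

end Cfsg.Agent.Lib.S5520A
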