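import Mathlib
import Cfsg.Agent.Lib.SL2Prin
import Cfsg.Agent.Lib.SL2Nonsplit
import Cfsg.Agent.Lib.GenChar

/-!
# The subgroup `Z U` of `SL₂(F)` and the characters induced from its linear characters
-/

set_option autoImplicit false
set_option linter.unusedSectionVars false
set_option linter.unusedSimpArgs false
set_option linter.unusedVariables false

namespace Cfsg.Agent.Lib.SL2ZU

open Matrix Finset Cfsg Cfsg.Agent.Lib.SL2Core Cfsg.Agent.Lib.SL2Bor Cfsg.Agent.Lib.SL2Prin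
  Cfsg.Agent.Lib.SL2Nonsplit Cfsg.Agent.Lib.CharBasic Cfsg.Agent.Lib.CharInd
open scoped MatrixGroups ComplexConjugate

variable {F : Type*} [Field F]

local notation "E" g:max i:max j:max => ((g : SL2 F) : Matrix (Fin 2) (Fin 2) F) i j

/-! ### Additive characters -/

section gauss

variable [Fintype F] [DecidableEq F]

lemma exists_psi : ∃ ψ : AddChar F ℂ, ψ ≠ 1 := by
  obtain ⟨ψ, hψ⟩ := (AddChar.exists_apply_ne_zero (α := F) (a := 1)).mpr one_ne_zero
  refine ⟨ψ, ?_⟩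
  rintro rfl
  exact hψ (AddChar.one_apply 1)

lemma sum_mul_left {ψ : AddChar F ℂ} (hψ : ψ ≠ 1) {c : F} (hc : c ≠ 0) : ∑ y : F, ψ (c * y) = 0 := by
  calc ∑ y : F, ψ (c * y) = ∑ y : F, ψ (Equiv.mulLeft₀ c hc y) := rfl
    _ = ∑ y : F, ψ y := Equiv.sum_comp (Equiv.mulLeft₀ c hc) (fun y => ψ y)
    _ = 0 := AddChar.sum_eq_zero_of_ne_one hψ

lemma sum_sq (hF : ringChar F ≠ 2) (h : F → ℂ) :
    ∑ s : F, h (s ^ 2) = ∑ y : F, (((quadraticChar F y : ℤ) : ℂ) + 1) * h y := by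
  rw [← Finset.sum_fiberwise Finset.univ (fun s : F => s ^ 2) (fun s => h (s ^ 2))]
  refine Finset.sum_congr rfl fun y _ => ?_
  have h1 : ∀ s ∈ Finset.univ.filter (fun s : F => s ^ 2 = y), h (s ^ 2) = h y := by
    intro s hs
    rw [(Finset.mem_filter.mp hs).2]
  rw [Finset.sum_congr rfl h1, Finset.sum_const, nsmul_eq_mul]
  congr 1
  have h2 := quadraticChar_card_sqrts hF y
  have h3 : ({x : F | x ^ 2 = y}.toFinset) = Finset.univ.filter (fun s : F => s ^ 2 = y) := by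
    ext x
    simp
  rw [h3] at h2
  have h4 : (((Finset.univ.filter (fun s : F => s ^ 2 = y)).card : ℤ) : ℂ) =
      ((quadraticChar F y + 1 : ℤ) : ℂ) := by
    rw [h2]
  push_cast at h4
  exact h4

/-- The key cancellation of quadratic Gauss sums. -/
lemma key_gauss (hF : ringChar F ≠ 2) {ψ : AddChar F ℂ} (hψ : ψ ≠ 1) {b ν : F} (hb : b ≠ 0)
    (hν : ¬ IsSquare ν) : ∑ s : F, (ψ (b * s ^ 2) + ψ (ν * b * s ^ 2)) = 0 := by
  have hν0 : ν ≠ 0 := by
    rintro rfl
    exact hν (IsSquare.zero)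
  rw [Finset.sum_add_distrib, sum_sq hF (fun y => ψ (b * y)), sum_sq hF (fun y => ψ (ν * b * y))]
  have hνi : quadraticChar F ν⁻¹ = -1 := by
    rw [quadraticChar_neg_one_iff_not_isSquare]
    rwa [isSquare_inv]
  have h2 : ∑ y : F, (((quadraticChar F y : ℤ) : ℂ) + 1) * ψ (ν * b * y) =
      ∑ y : F, (-((quadraticChar F y : ℤ) : ℂ) + 1) * ψ (b * y) := by
    rw [← Equiv.sum_comp (Equiv.mulLeft₀ ν⁻¹ (inv_ne_zero hν0))
      (fun y => (((quadraticChar F y : ℤ) : ℂ) + 1) * ψ (ν * b * y))]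
    refine Finset.sum_congr rfl fun y _ => ?_
    have e0 : (Equiv.mulLeft₀ ν⁻¹ (inv_ne_zero hν0)) y = ν⁻¹ * y := rfl
    beta_reduce
    rw [e0, map_mul, hνi]
    have e : ν * b * (ν⁻¹ * y) = b * y := by
      field_simp
    rw [e]
    push_cast
    ring
  rw [h2, ← Finset.sum_add_distrib]
  have h3 : ∀ y : F, (((quadraticChar F y : ℤ) : ℂ) + 1) * ψ (b * y) +
      (-((quadraticChar F y : ℤ) : ℂ) + 1) * ψ (b * y) = 2 * ψ (b * y) := fun y => by ring
  simp only [h3]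
  rw [← Finset.mul_sum, sum_mul_left hψ hb, mul_zero]

/-- Sum over the units. -/
lemma sum_eq_add_units (h : F → ℂ) : ∑ s : F, h s = h 0 + ∑ a : Fˣ, h (a : F) := by
  rw [← Finset.add_sum_erase Finset.univ h (Finset.mem_univ 0)]
  congr 1
  symm
  refine Finset.sum_bij (fun a _ => (a : F)) ?_ ?_ ?_ ?_
  · intro a _
    exact Finset.mem_erase.mpr ⟨a.ne_zero, Finset.mem_univ _⟩
  · intro a _ b _ h
    exact Units.ext h
  · intro s hs
    exact ⟨Units.mk0 s (Finset.ne_of_mem_erase hs), Finset.mem_univ _, rfl⟩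
  · intro _ _
    rfl

/-- The sum appearing in the value of `Y` at a unipotent element. -/
lemma sum_units_sq (hF : ringChar F ≠ 2) {ψ : AddChar F ℂ} (hψ : ψ ≠ 1) {b ν : F} (hb : b ≠ 0)
    (hν : ¬ IsSquare ν) : ∑ a : Fˣ, (ψ (b * (a : F) ^ 2) + ψ (ν * b * (a : F) ^ 2)) = -2 := by
  have h1 := key_gauss hF hψ hb hν
  rw [sum_eq_add_units (fun s => ψ (b * s ^ 2) + ψ (ν * b * s ^ 2))] at h1
  simp only [ne_eq, OfNat.ofNat_ne_zero, not_false_eq_true, zero_pow, mul_zero, AddChar.map_zero_eq_one] at h1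
  linear_combination h1

lemma sum_psi_ne_zero {ψ : AddChar F ℂ} (hψ : ψ ≠ 1) {c : F} (hc : c ≠ 0) :
    ∑ y ∈ Finset.univ.erase (0 : F), ψ (c * y) = -1 := by
  have h1 := sum_mul_left hψ hc
  rw [← Finset.add_sum_erase Finset.univ _ (Finset.mem_univ 0)] at h1
  simp only [mul_zero, AddChar.map_zero_eq_one] at h1
  linear_combination h1

end gauss

/-! ### The group -/

variable (F) in
/-- The subgroup `Z U` of `SL₂(F)`: upper triangular matrices with equal diagonal entries. -/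
def ZU : Subgroup (SL2 F) where
  carrier := {g | E g 1 0 = 0 ∧ E g 0 0 = E g 1 1}
  one_mem' := by simp
  mul_mem' := by
    rintro a b ⟨h1, h2⟩ ⟨h3, h4⟩
    constructor
    · rw [mul_apply2, h1, h3]
      ring
    · rw [mul_apply2, mul_apply2, h1, h3, h2, h4]
      ring
  inv_mem' := by
    rintro a ⟨h1, h2⟩
    constructor
    · rw [inv10, h1]
      simp
    · rw [inv00, inv11, h2]

lemma mem_ZU {g : SL2 F} : g ∈ ZU F ↔ E g 1 0 = 0 ∧ E g 0 0 = E g 1 1 := Iff.rfl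

lemma ZU_sq {g : SL2 F} (hg : g ∈ ZU F) : E g 0 0 * E g 0 0 = 1 := by
  have h := det_entries g
  rw [hg.1, mul_zero, sub_zero, ← hg.2] at h
  exact h

lemma center_le_ZU : Subgroup.center (SL2 F) ≤ ZU F := by
  intro g hg
  have := (mem_center_iff' g).mp hg
  exact ⟨this.2.1, this.2.2⟩

lemma sq_eq_one_cases {z : F} (hz : z * z = 1) : z = 1 ∨ z = -1 := by
  have : (z - 1) * (z + 1) = 0 := by linear_combination hz
  rcases mul_eq_zero.mp this with h | h
  · left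
    linear_combination h
  · right
    linear_combination h

/-- Elements of `Z U`. -/
def zuEl (z w : F) (hz : z * z = 1) : SL2 F := mk2 z w 0 z (by simp [hz])

@[simp] lemma zuEl00 (z w : F) (hz : z * z = 1) : E (zuEl z w hz) 0 0 = z := rfl
@[simp] lemma zuEl01 (z w : F) (hz : z * z = 1) : E (zuEl z w hz) 0 1 = w := rfl
@[simp] lemma zuEl10 (z w : F) (hz : z * z = 1) : E (zuEl z w hz) 1 0 = 0 := rfl
@[simp] lemma zuEl11 (z w : F) (hz : z * z = 1) : E (zuEl z w hz) 1 1 = z := rfl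

lemma zuEl_mem (z w : F) (hz : z * z = 1) : zuEl z w hz ∈ ZU F := ⟨rfl, rfl⟩

section enum

variable [DecidableEq F]

/-- The parametrisation of `Z U`. -/
def zuEquiv (hF : ringChar F ≠ 2) : Bool × F ≃ ZU F where
  toFun p := ⟨zuEl (if p.1 then 1 else -1) p.2 (by split_ifs <;> ring), zuEl_mem _ _ _⟩
  invFun g := (decide (E g.1 0 0 = 1), E g.1 0 1)
  left_inv := by
    rintro ⟨e, w⟩
    have h2 : (-1 : F) ≠ 1 := Ring.neg_one_ne_one_of_char_ne_two hF
    cases e <;> simp [h2]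
  right_inv := by
    rintro ⟨g, hg⟩
    apply Subtype.ext
    apply sl2_ext
    · by_cases h : E g 0 0 = 1
      · simp [h]
      · rcases sq_eq_one_cases (ZU_sq hg) with h1 | h1
        · exact absurd h1 h
        · simp [h, h1, Ring.neg_one_ne_one_of_char_ne_two hF]
    · rfl
    · exact hg.1.symm
    · by_cases h : E g 0 0 = 1
      · simp [← hg.2, h]
      · rcases sq_eq_one_cases (ZU_sq hg) with h1 | h1
        · exact absurd h1 h
        · simp [h, ← hg.2, h1, Ring.neg_one_ne_one_of_char_ne_two hF]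

lemma zuEquiv_true (hF : ringChar F ≠ 2) (w : F) :
    zuEquiv hF (true, w) = ⟨zuEl 1 w (by ring), zuEl_mem _ _ _⟩ := rfl

lemma zuEquiv_false (hF : ringChar F ≠ 2) (w : F) :
    zuEquiv hF (false, w) = ⟨zuEl (-1) w (by ring), zuEl_mem _ _ _⟩ := rfl

lemma card_ZU [Fintype F] (hF : ringChar F ≠ 2) : Nat.card (ZU F) = 2 * Fintype.card F := by
  rw [← Nat.card_congr (zuEquiv hF), Nat.card_prod, Nat.card_eq_fintype_card,
    Nat.card_eq_fintype_card]
  simp

lemma sum_ZU [Fintype F] [Fintype (ZU F)] (hF : ringChar F ≠ 2) (h : ZU F → ℂ) :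
    ∑ g : ZU F, h g = ∑ w : F, h ⟨zuEl 1 w (by ring), zuEl_mem _ _ _⟩ +
      ∑ w : F, h ⟨zuEl (-1) w (by ring), zuEl_mem _ _ _⟩ := by
  rw [← Equiv.sum_comp (zuEquiv hF) h, Fintype.sum_prod_type, Fintype.sum_bool]
  rfl

/-! ### Linear characters -/

/-- The sign function, with value `t` at `-1`. -/
def sgn (t : ℂ) (a : F) : ℂ := if a = 1 then 1 else t

@[simp] lemma sgn_one (t : ℂ) : sgn t (1 : F) = 1 := if_pos rfl

lemma sgn_neg_one (hF : ringChar F ≠ 2) (t : ℂ) : sgn t (-1 : F) = t :=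
  if_neg (Ring.neg_one_ne_one_of_char_ne_two hF)

lemma sgn_mul {t : ℂ} (ht : t * t = 1) {a b : F} (ha : a * a = 1) (hb : b * b = 1) :
    sgn t (a * b) = sgn t a * sgn t b := by
  unfold sgn
  by_cases h1 : a = 1
  · subst h1
    simp
  · by_cases h2 : b = 1
    · subst h2
      simp [h1]
    · have h3 : a = -1 := (sq_eq_one_cases ha).resolve_left h1
      have h4 : b = -1 := (sq_eq_one_cases hb).resolve_left h2
      subst h3 h4
      simp [h1, ht]

/-- The linear character `ε ⊗ ψ(ν ·)` of `Z U`. -/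
noncomputable def fZU (ψ : AddChar F ℂ) (t : ℂ) (ν : F) : ZU F → ℂ :=
  fun g => sgn t (E g.1 0 0) * ψ (ν * (E g.1 0 0 * E g.1 0 1))

lemma fZU_mul (ψ : AddChar F ℂ) {t : ℂ} (ht : t * t = 1) (ν : F) (g h : ZU F) :
    fZU ψ t ν (g * h) = fZU ψ t ν g * fZU ψ t ν h := by
  have hg := ZU_sq g.2
  have hh := ZU_sq h.2
  have e00 : E (g * h : ZU F).1 0 0 = E g.1 0 0 * E h.1 0 0 := by
    show E (g.1 * h.1) 0 0 = _
    rw [mul_apply2, h.2.1]
    ring
  have e01 : E (g * h : ZU F).1 0 1 = E g.1 0 0 * E h.1 0 1 + E g.1 0 1 * E h.1 0 0 := by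
    show E (g.1 * h.1) 0 1 = _
    rw [mul_apply2, ← h.2.2]
  unfold fZU
  rw [e00, e01, sgn_mul ht hg hh]
  have e : ν * (E g.1 0 0 * E h.1 0 0 * (E g.1 0 0 * E h.1 0 1 + E g.1 0 1 * E h.1 0 0)) =
      ν * (E g.1 0 0 * E g.1 0 1) + ν * (E h.1 0 0 * E h.1 0 1) := by
    linear_combination (ν * E h.1 0 0 * E h.1 0 1) * hg + (ν * E g.1 0 0 * E g.1 0 1) * hh
  rw [e, AddChar.map_add_eq_mul]
  ring

lemma fZU_one (ψ : AddChar F ℂ) (t : ℂ) (ν : F) : fZU ψ t ν 1 = 1 := by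
  unfold fZU
  simp

lemma fZU_isIrr (ψ : AddChar F ℂ) {t : ℂ} (ht : t * t = 1) (ν : F) :
    IsIrrCharacter (ZU F) (fZU ψ t ν) := by
  let f : ZU F →* ℂ :=
    { toFun := fZU ψ t ν
      map_one' := fZU_one ψ t ν
      map_mul' := fZU_mul ψ ht ν }
  have := isIrrCharacter_of_hom (MonoidHom.toHomUnits f)
  exact this

lemma ext_fZU (ψ : AddChar F ℂ) (t : ℂ) (ν : F) (y : SL2 F) :
    extendByZero (ZU F) (fZU ψ t ν) y = if E y 1 0 = 0 ∧ E y 0 0 = E y 1 1 then
      sgn t (E y 0 0) * ψ (ν * (E y 0 0 * E y 0 1)) else 0 := by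
  by_cases h : E y 1 0 = 0 ∧ E y 0 0 = E y 1 1
  · rw [if_pos h, extendByZero_of_mem (ZU F) _ (mem_ZU.mpr h)]
    rfl
  · rw [if_neg h, extendByZero_of_not_mem (ZU F) _ (fun h' => h (mem_ZU.mp h'))]

/-- Entry `(0,1)` of a conjugate. -/
lemma conj01 (g x : SL2 F) : E (x⁻¹ * g * x) 0 1 =
    E x 1 1 * (E g 0 0 * E x 0 1 + E g 0 1 * E x 1 1) -
    E x 0 1 * (E g 1 0 * E x 0 1 + E g 1 1 * E x 1 1) := by
  rw [mul_assoc, mul_apply2, mul_apply2, mul_apply2, inv00, inv01]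
  ring

/-- Entry `(1,1)` of a conjugate. -/
lemma conj11 (g x : SL2 F) : E (x⁻¹ * g * x) 1 1 =
    E x 0 0 * (E g 1 0 * E x 0 1 + E g 1 1 * E x 1 1) -
    E x 1 0 * (E g 0 0 * E x 0 1 + E g 0 1 * E x 1 1) := by
  rw [mul_assoc, mul_apply2, mul_apply2, mul_apply2, inv10, inv11]
  ring

/-- The sum over the Borel subgroup, in coordinates. -/
lemma sum_ite_bor' [Fintype F] (h : SL2 F → ℂ) :
    (∑ x : SL2 F, if E x 1 0 = 0 then h x else 0) =
      ∑ a : Fˣ, ∑ b : F, h (borEl (a : F) a.ne_zero b) := by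
  classical
  rw [← Finset.sum_filter, ← Finset.sum_product']
  symm
  refine Finset.sum_bij (fun p _ => borEl (p.1 : F) p.1.ne_zero p.2) ?_ ?_ ?_ ?_
  · intro p _
    simp
  · rintro ⟨a, b⟩ _ ⟨a', b'⟩ _ h
    have e1 := congrArg (fun g : SL2 F => E g 0 0) h
    have e2 := congrArg (fun g : SL2 F => E g 0 1) h
    simp only [borEl00, borEl01] at e1 e2
    exact Prod.ext (Units.ext e1) e2
  · intro g hg
    have hg' : g ∈ Bor F := mem_Bor.mpr (Finset.mem_filter.mp hg).2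
    refine ⟨(Units.mk0 (E g 0 0) (bor_ne_zero hg'), E g 0 1), by simp, ?_⟩
    exact (bor_eq hg').symm
  · intro _ _
    rfl

section values

variable [Fintype F]

lemma card_ne_two_mul (hF : ringChar F ≠ 2) : ((Nat.card (ZU F) : ℕ) : ℂ) = 2 * (Fintype.card F : ℂ) := by
  rw [card_ZU hF]
  push_cast
  ring

lemma q_ne_zero_cast : (Fintype.card F : ℂ) ≠ 0 := by
  have : Fintype.card F ≠ 0 := Fintype.card_ne_zero
  exact_mod_cast this

/-- The value of the induced character at a non-central element of `Z U`. -/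
theorem Y_noncentral (hF : ringChar F ≠ 2) (ψ : AddChar F ℂ) (t : ℂ) (ν : F) {g : SL2 F}
    (h10 : E g 1 0 = 0) (h00 : E g 0 0 = E g 1 1) (h01 : E g 0 1 ≠ 0) :
    indFun (ZU F) (fZU ψ t ν) g =
      2⁻¹ * (sgn t (E g 0 0) * ∑ a : Fˣ, ψ (ν * (E g 0 0 * E g 0 1) * (a : F) ^ 2)) := by
  set z := E g 0 0 with hz
  set w := E g 0 1 with hw
  have hdet := det_entries g
  rw [h10, mul_zero, sub_zero, ← h00] at hdet
  have key : ∀ x : SL2 F, extendByZero (ZU F) (fZU ψ t ν) (x⁻¹ * g * x) =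
      if E x 1 0 = 0 then sgn t z * ψ (ν * (z * w) * (E x 1 1) ^ 2) else 0 := by
    intro x
    rw [ext_fZU]
    have c10 := conj10 g x
    have c00 := conj00 g x
    have c01 := conj01 g x
    have c11 := conj11 g x
    have hx := det_entries x
    rw [h10, ← h00] at c10 c00 c01 c11
    rw [← hz, ← hw] at c10 c00 c01 c11
    by_cases hs : E x 1 0 = 0
    · rw [if_pos hs]
      rw [hs] at c10 c00 c11 hx
      have e00 : E (x⁻¹ * g * x) 0 0 = z := by
        rw [c00]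
        linear_combination z * hx
      have e11 : E (x⁻¹ * g * x) 1 1 = z := by
        rw [c11]
        linear_combination z * hx
      have e01 : E (x⁻¹ * g * x) 0 1 = w * E x 1 1 ^ 2 := by
        rw [c01]
        ring
      have e10 : E (x⁻¹ * g * x) 1 0 = 0 := by
        rw [c10]
        ring
      rw [if_pos ⟨e10, by rw [e00, e11]⟩, e00, e01]
      congr 2
      ring
    · rw [if_neg hs, if_neg]
      intro h
      have e10 : E (x⁻¹ * g * x) 1 0 = - w * E x 1 0 ^ 2 := by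
        rw [c10]
        ring
      rw [e10] at h
      have := h.1
      simp only [neg_mul, neg_eq_zero, mul_eq_zero, pow_eq_zero_iff (two_ne_zero), h01, false_or] at this
      exact hs this
  rw [indFun_apply, Finset.sum_congr rfl (fun x _ => key x), sum_ite_bor', card_ne_two_mul hF]
  have h1 : ∀ a : Fˣ, ∑ b : F, (fun x : SL2 F => sgn t z * ψ (ν * (z * w) * E x 1 1 ^ 2))
      (borEl (a : F) a.ne_zero b) = (Fintype.card F : ℂ) * (sgn t z * ψ (ν * (z * w) * ((a⁻¹ : Fˣ) : F) ^ 2)) := by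
    intro a
    simp [Finset.sum_const, Finset.card_univ]
  rw [Finset.sum_congr rfl (fun a _ => h1 a), ← Finset.mul_sum, ← Finset.mul_sum]
  have h2 : ∑ a : Fˣ, ψ (ν * (z * w) * ((a⁻¹ : Fˣ) : F) ^ 2) = ∑ a : Fˣ, ψ (ν * (z * w) * (a : F) ^ 2) :=
    Equiv.sum_comp (Equiv.inv Fˣ) (fun a : Fˣ => ψ (ν * (z * w) * (a : F) ^ 2))
  rw [h2]
  have hq := q_ne_zero_cast (F := F)
  field_simp

/-- The value at a central element. -/
theorem Y_central (hF : ringChar F ≠ 2) (ψ : AddChar F ℂ) (t : ℂ) (ν : F) {g : SL2 F}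
    (hg : g ∈ Subgroup.center (SL2 F)) :
    indFun (ZU F) (fZU ψ t ν) g = 2⁻¹ * (((Fintype.card F : ℂ) ^ 2 - 1) * sgn t (E g 0 0)) := by
  have hx : ∀ x : SL2 F, x⁻¹ * g * x = g := by
    intro x
    rw [mul_assoc, ← Subgroup.mem_center_iff.mp hg x, ← mul_assoc]
    simp
  have h01 := ((mem_center_iff' g).mp hg).1
  rw [indFun_apply, card_ne_two_mul hF]
  simp only [hx]
  rw [Finset.sum_const, Finset.card_univ, extendByZero_of_mem (ZU F) _ (center_le_ZU hg)]
  show _ * (_ • (sgn t (E g 0 0) * ψ (ν * (E g 0 0 * E g 0 1)))) = _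
  rw [h01]
  have hcard : Fintype.card (SL2 F) = (Fintype.card F + 1) * Fintype.card F * (Fintype.card F - 1) := by
    rw [← Nat.card_eq_fintype_card]
    exact Cfsg.Agent.Lib.ClassicalSmall.card_SL2 (F := F)
  rw [hcard]
  simp only [mul_zero, AddChar.map_zero_eq_one, mul_one, nsmul_eq_mul]
  have h1 : 1 ≤ Fintype.card F := Fintype.card_pos
  have hq := q_ne_zero_cast (F := F)
  push_cast [h1]
  field_simp
  ring

/-- Vanishing at elements of trace not `±2`. -/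
theorem Y_of_tr (ψ : AddChar F ℂ) (t : ℂ) (ν : F) {g : SL2 F} (h : tr g * tr g ≠ 4) :
    indFun (ZU F) (fZU ψ t ν) g = 0 := by
  apply indFun_eq_zero_of_not_conj
  intro x hx
  apply h
  have e : tr (x⁻¹ * g * x⁻¹⁻¹) = tr g := tr_conj x⁻¹ g
  rw [inv_inv] at e
  rw [← e, tr_eq, ← hx.2]
  have := ZU_sq hx
  linear_combination 4 * this

end values

end enum

end Cfsg.Agent.Lib.SL2ZU
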