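import Mathlib
import Cfsg.Agent.Lib.SL2ZU
import Cfsg.Agent.Lib.SL2SylowTwo

/-!
# The generalized characters `cusp θ` of `SL₂(q)`, `q` odd

For a nonsplit torus `C` and `θ : C →* ℂˣ`, the generalized character
`cusp θ = Ind_{ZU}(θ_Z ⊗ ψ) + Ind_{ZU}(θ_Z ⊗ ψ_ν) - Ind_C θ`, its values and inner products.
-/

set_option autoImplicit false
set_option linter.unusedSectionVars false
set_option linter.unusedSimpArgs false
set_option linter.unusedVariables false

namespace Cfsg.Agent.Lib.SL2Cusp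

open Matrix Finset Cfsg Cfsg.Agent.Lib.SL2Core Cfsg.Agent.Lib.SL2Bor Cfsg.Agent.Lib.SL2Prin
  Cfsg.Agent.Lib.SL2Nonsplit Cfsg.Agent.Lib.CharBasic Cfsg.Agent.Lib.CharInd
  Cfsg.Agent.Lib.GenChar Cfsg.Agent.Lib.SL2ZU Cfsg.Agent.Lib.SL2SylowTwo
open scoped MatrixGroups ComplexConjugate

variable {F : Type*} [Field F] [Fintype F] [DecidableEq F]

local notation "E" g:max i:max j:max => ((g : SL2 F) : Matrix (Fin 2) (Fin 2) F) i j
local notation "Z" => Subgroup.center (SL2 F)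
local notation "m1" => (negS 1 : SL2 F)

/-! ### The sum of the two characters induced from `Z U` -/

/-- The sum of the two characters induced from `Z U`. -/
noncomputable def YY (ψ : AddChar F ℂ) (t : ℂ) (ν : F) : SL2 F → ℂ :=
  indFun (ZU F) (fZU ψ t 1) + indFun (ZU F) (fZU ψ t ν)

lemma YY_isChar (ψ : AddChar F ℂ) {t : ℂ} (ht : t * t = 1) (ν : F) : IsCharacter (SL2 F) (YY ψ t ν) :=
  isCharacter_add (indFun_isCharacter _ (IsIrrCharacter.isCharacter (fZU_isIrr ψ ht 1)))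
    (indFun_isCharacter _ (IsIrrCharacter.isCharacter (fZU_isIrr ψ ht ν)))

lemma YY_central (hF : ringChar F ≠ 2) (ψ : AddChar F ℂ) (t : ℂ) (ν : F) {g : SL2 F} (hg : g ∈ Z) :
    YY ψ t ν g = ((Fintype.card F : ℂ) ^ 2 - 1) * sgn t (E g 0 0) := by
  unfold YY
  rw [Pi.add_apply, Y_central hF _ _ _ hg, Y_central hF _ _ _ hg]
  ring

lemma YY_of_tr (ψ : AddChar F ℂ) (t : ℂ) (ν : F) {g : SL2 F} (h : tr g * tr g ≠ 4) :
    YY ψ t ν g = 0 := by
  unfold YY
  rw [Pi.add_apply, Y_of_tr _ _ _ h, Y_of_tr _ _ _ h, add_zero]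

lemma YY_noncentral (hF : ringChar F ≠ 2) {ψ : AddChar F ℂ} (hψ : ψ ≠ 1) (t : ℂ) {ν : F}
    (hν : ¬ IsSquare ν) {g : SL2 F} (h10 : E g 1 0 = 0) (h00 : E g 0 0 = E g 1 1) (h01 : E g 0 1 ≠ 0) :
    YY ψ t ν g = - sgn t (E g 0 0) := by
  unfold YY
  rw [Pi.add_apply, Y_noncentral hF _ _ _ h10 h00 h01, Y_noncentral hF _ _ _ h10 h00 h01]
  have hz : E g 0 0 ≠ 0 := by
    have := det_entries g
    rw [h10, mul_zero, sub_zero] at this
    exact left_ne_zero_of_mul_eq_one this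
  have h := sum_units_sq hF hψ (mul_ne_zero hz h01) hν
  rw [Finset.sum_add_distrib] at h
  simp only [one_mul]
  have e : ∀ a : Fˣ, ψ (ν * (E g 0 0 * E g 0 1) * (a : F) ^ 2) = ψ (ν * (E g 0 0 * E g 0 1) * (a : F) ^ 2) :=
    fun _ => rfl
  linear_combination (2⁻¹ * sgn t (E g 0 0)) * h

/-! ### The part from the torus -/

section torus

variable {C : Subgroup (SL2 F)}

/-- The complex-valued function defined by a homomorphism. -/
def thetaF (θ : C →* ℂˣ) : C → ℂ := fun c => ((θ c : ℂˣ) : ℂ)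

lemma thetaF_isIrr (θ : C →* ℂˣ) : IsIrrCharacter C (thetaF θ) := isIrrCharacter_of_hom θ

lemma thetaF_injective : Function.Injective (thetaF (C := C)) := by
  intro θ θ' h
  ext c
  exact congrFun h c

/-- `-1` in the torus. -/
def mC (hC : IsNSTorus C) : C := ⟨m1, hC.center_le m_mem_center⟩

lemma mC_mul (hC : IsNSTorus C) : mC hC * mC hC = 1 := Subtype.ext m_mul_m

/-- The value of a character at `-1`. -/
def tOf (hC : IsNSTorus C) (θ : C →* ℂˣ) : ℂ := ((θ (mC hC) : ℂˣ) : ℂ)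

lemma tOf_sq (hC : IsNSTorus C) (θ : C →* ℂˣ) : tOf hC θ * tOf hC θ = 1 := by
  unfold tOf
  rw [← Units.val_mul, ← map_mul, mC_mul, map_one, Units.val_one]

lemma tOf_inv (hC : IsNSTorus C) (θ : C →* ℂˣ) : ((θ (mC hC) : ℂˣ)⁻¹ : ℂˣ).val = tOf hC θ := by
  have h : (θ (mC hC)) * (θ (mC hC)) = 1 := by
    rw [← map_mul, mC_mul, map_one]
  exact congrArg Units.val (inv_eq_of_mul_eq_one_left h)

lemma conj_tOf (hC : IsNSTorus C) (θ : C →* ℂˣ) : conj (tOf hC θ) = tOf hC θ := by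
  have h := tOf_sq hC θ
  have h2 : (tOf hC θ - 1) * (tOf hC θ + 1) = 0 := by linear_combination h
  rcases mul_eq_zero.mp h2 with h3 | h3
  · have : tOf hC θ = 1 := by linear_combination h3
    rw [this]
    simp
  · have : tOf hC θ = -1 := by linear_combination h3
    rw [this]
    simp

/-- The value of `θ` at a central element. -/
lemma theta_center (hF : ringChar F ≠ 2) (hC : IsNSTorus C) (θ : C →* ℂˣ) {z : SL2 F} (hz : z ∈ Z) :
    ((θ ⟨z, hC.center_le hz⟩ : ℂˣ) : ℂ) = sgn (tOf hC θ) (E z 0 0) := by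
  rcases center_eq z hz with rfl | rfl
  · have : (⟨1, hC.center_le hz⟩ : C) = 1 := rfl
    rw [this, map_one]
    simp
  · have e : E (negS (1 : SL2 F)) 0 0 = -1 := by simp
    rw [e, sgn_neg_one hF]
    rfl

/-- The character induced from the torus. -/
noncomputable def IC (θ : C →* ℂˣ) : SL2 F → ℂ := indFun C (thetaF θ)

lemma IC_isChar (θ : C →* ℂˣ) : IsCharacter (SL2 F) (IC θ) :=
  indFun_isCharacter _ (IsIrrCharacter.isCharacter (thetaF_isIrr θ))

lemma card_SL2_cast : ((Nat.card (SL2 F) : ℕ) : ℂ) =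
    ((Fintype.card F : ℂ) + 1) * (Fintype.card F : ℂ) * ((Fintype.card F : ℂ) - 1) := by
  rw [Cfsg.Agent.Lib.ClassicalSmall.card_SL2 (F := F)]
  have h1 : 1 ≤ Fintype.card F := Fintype.card_pos
  push_cast [h1]
  ring

lemma card_SL2_cast' : ((Fintype.card (SL2 F) : ℕ) : ℂ) =
    ((Fintype.card F : ℂ) + 1) * (Fintype.card F : ℂ) * ((Fintype.card F : ℂ) - 1) := by
  rw [← Nat.card_eq_fintype_card (α := SL2 F)]
  exact card_SL2_cast

lemma card_q1_ne : ((Fintype.card F : ℂ) + 1) ≠ 0 := by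
  have : ((Fintype.card F + 1 : ℕ) : ℂ) ≠ 0 := Nat.cast_ne_zero.mpr (Nat.succ_ne_zero _)
  push_cast at this
  exact this

lemma IC_central (hC : IsNSTorus C) (θ : C →* ℂˣ) {g : SL2 F} (hg : g ∈ Z) :
    IC θ g = (Fintype.card F : ℂ) * ((Fintype.card F : ℂ) - 1) * ((θ ⟨g, hC.center_le hg⟩ : ℂˣ) : ℂ) := by
  have hx : ∀ x : SL2 F, x⁻¹ * g * x = g := by
    intro x
    rw [mul_assoc, ← Subgroup.mem_center_iff.mp hg x, ← mul_assoc]
    simp
  unfold IC
  rw [indFun_apply, hC.card_eq]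
  simp only [hx]
  rw [Finset.sum_const, Finset.card_univ, extendByZero_of_mem C _ (hC.center_le hg),
    nsmul_eq_mul, card_SL2_cast']
  have := card_q1_ne (F := F)
  unfold thetaF
  push_cast
  field_simp

lemma IC_of_not_ns (hC : IsNSTorus C) (θ : C →* ℂˣ) {g : SL2 F} (hg : g ∉ Z) (hns : ¬ NS g) :
    IC θ g = 0 := by
  apply indFun_eq_zero_of_not_conj
  intro x hx
  apply hns
  have h1 : x⁻¹ * g * x ∉ Z := fun h => hg (center_conj.mp h)
  have h2 := hC.ns _ hx h1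
  have h3 := (NS_conj (g := g) x⁻¹)
  rw [inv_inv] at h3
  exact h3.mp h2

lemma sum_ite_subgroup (H : Subgroup (SL2 F)) [DecidablePred (· ∈ H)] (c : ℂ) :
    (∑ x : SL2 F, if x ∈ H then c else 0) = (Nat.card H : ℂ) * c := by
  rw [Finset.sum_ite, Finset.sum_const_zero, add_zero, Finset.sum_const, nsmul_eq_mul]
  congr 2
  rw [Nat.card_eq_fintype_card, Fintype.card_subtype]

/-- The value at a regular element of the torus. -/
theorem IC_torus (hF : ringChar F ≠ 2) (hC : IsNSTorus C) (θ : C →* ℂˣ) {c : SL2 F} (hc : c ∈ C)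
    (hcZ : c ∉ Z) : IC θ c = ((θ ⟨c, hc⟩ : ℂˣ) : ℂ) + (((θ ⟨c, hc⟩)⁻¹ : ℂˣ) : ℂ) := by
  classical
  set N := Subgroup.normalizer (C : Set (SL2 F)) with hN
  have hle : C ≤ N := hC.le_norm hF
  set a : ℂ := ((θ ⟨c, hc⟩ : ℂˣ) : ℂ) with ha
  set b : ℂ := (((θ ⟨c, hc⟩)⁻¹ : ℂˣ) : ℂ) with hb
  have key : ∀ x : SL2 F, extendByZero C (thetaF θ) (x⁻¹ * c * x) =
      (if x ∈ C then a - b else 0) + (if x ∈ N then b else 0) := by
    intro x
    by_cases h1 : x ∈ C
    · rw [if_pos h1, if_pos (hle h1)]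
      have e : x⁻¹ * c * x = c := by
        rw [mul_assoc, hC.comm hc h1, ← mul_assoc]
        simp
      rw [e, extendByZero_of_mem C _ hc]
      rw [sub_add_cancel]
      rfl
    · rw [if_neg h1, zero_add]
      by_cases h2 : x ∈ N
      · rw [if_pos h2]
        have hinv := ((hC.mem_normalizer_iff hF).mp (N.inv_mem h2))
        have h3 : x⁻¹ ∉ C := fun h => h1 (by simpa using C.inv_mem h)
        have hinv' : ∀ h ∈ C, x⁻¹ * h * x⁻¹⁻¹ = h⁻¹ := hinv.resolve_left h3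
        have e : x⁻¹ * c * x = c⁻¹ := by
          have := hinv' c hc
          rwa [inv_inv] at this
        have hcinv : c⁻¹ ∈ C := C.inv_mem hc
        rw [e, extendByZero_of_mem C _ hcinv]
        have e2 : (⟨c⁻¹, hcinv⟩ : C) = (⟨c, hc⟩ : C)⁻¹ := rfl
        unfold thetaF
        rw [e2, map_inv]
      · rw [if_neg h2]
        rw [extendByZero_of_not_mem]
        intro hmem
        have hmem' : x⁻¹ * c * x⁻¹⁻¹ ∈ C := by
          rwa [inv_inv]
        apply h2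
        rcases hC.conj_mem hF hc hcZ hmem' with ⟨h3, -⟩ | ⟨-, h3⟩
        · exact hle (by simpa using C.inv_mem h3)
        · have : x⁻¹ ∈ N := (hC.mem_normalizer_iff hF).mpr (Or.inr h3)
          simpa using N.inv_mem this
  unfold IC
  rw [indFun_apply, Finset.sum_congr rfl (fun x _ => key x), Finset.sum_add_distrib,
    sum_ite_subgroup, sum_ite_subgroup, hC.card_eq, hC.card_normalizer hF]
  have := card_q1_ne (F := F)
  push_cast
  field_simp
  ring

/-! ### The generalized characters -/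

/-- The function `cusp θ`. -/
noncomputable def cusp (ψ : AddChar F ℂ) (ν : F) (hC : IsNSTorus C) (θ : C →* ℂˣ) : SL2 F → ℂ :=
  YY ψ (tOf hC θ) ν - IC θ

lemma cusp_isGen (ψ : AddChar F ℂ) (ν : F) (hC : IsNSTorus C) (θ : C →* ℂˣ) :
    IsGeneralizedCharacter (SL2 F) (cusp ψ ν hC θ) :=
  ⟨_, _, YY_isChar ψ (tOf_sq hC θ) ν, IC_isChar θ, rfl⟩

variable (hF : ringChar F ≠ 2) {ψ : AddChar F ℂ} (hψ : ψ ≠ 1) {ν : F} (hν : ¬ IsSquare ν)
  (hC : IsNSTorus C) (θ : C →* ℂˣ)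

include hF in
/-- The value at a central element. -/
lemma cusp_central {g : SL2 F} (hg : g ∈ Z) :
    cusp ψ ν hC θ g = ((Fintype.card F : ℂ) - 1) * sgn (tOf hC θ) (E g 0 0) := by
  unfold cusp
  rw [Pi.sub_apply, YY_central hF _ _ _ hg, IC_central hC θ hg, theta_center hF hC θ hg]
  ring

lemma not_ns_of_ZU {g : SL2 F} (h10 : E g 1 0 = 0) (h00 : E g 0 0 = E g 1 1) : ¬ NS g := by
  intro h
  apply h (E g 0 0)
  have h3 := det_entries g
  rw [h10, mul_zero, sub_zero, ← h00] at h3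
  rw [tr_eq, ← h00]
  linear_combination -h3

include hF hψ hν in
/-- The value at a non-central element of `Z U`. -/
lemma cusp_noncentral {g : SL2 F} (h10 : E g 1 0 = 0) (h00 : E g 0 0 = E g 1 1) (h01 : E g 0 1 ≠ 0) :
    cusp ψ ν hC θ g = - sgn (tOf hC θ) (E g 0 0) := by
  unfold cusp
  have hgZ : g ∉ Z := fun h => h01 ((mem_center_iff' g).mp h).1
  rw [Pi.sub_apply, YY_noncentral hF hψ _ hν h10 h00 h01, IC_of_not_ns hC θ hgZ (not_ns_of_ZU h10 h00), sub_zero]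

/-- The value at an element with trace different from `±2` and with an eigenvalue. -/
lemma cusp_split {g : SL2 F} (h : tr g * tr g ≠ 4) (hns : ¬ NS g) : cusp ψ ν hC θ g = 0 := by
  unfold cusp
  have hgZ : g ∉ Z := by
    intro hZ
    apply h
    rcases center_eq g hZ with rfl | rfl
    · rw [tr_one]
      norm_num
    · rw [tr_negS, tr_one]
      norm_num
  rw [Pi.sub_apply, YY_of_tr _ _ _ h, IC_of_not_ns hC θ hgZ hns, sub_zero]

include hF in
/-- The value at a regular element of the torus. -/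
lemma cusp_torus {c : SL2 F} (hc : c ∈ C) (hcZ : c ∉ Z) :
    cusp ψ ν hC θ c = -(((θ ⟨c, hc⟩ : ℂˣ) : ℂ) + (((θ ⟨c, hc⟩)⁻¹ : ℂˣ) : ℂ)) := by
  unfold cusp
  have hns := hC.ns c hc hcZ
  rw [Pi.sub_apply, YY_of_tr _ _ _ (NS_tr_sq hF hns), IC_torus hF hC θ hc hcZ, zero_sub]

end torus

end Cfsg.Agent.Lib.SL2Cusp
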