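import Mathlib
import Cfsg.Agent.Lib.SL2Cusp

/-!
# Inner products of the generalized characters `cusp θ`
-/

set_option autoImplicit false
set_option linter.unusedSectionVars false
set_option linter.unusedSimpArgs false
set_option linter.unusedVariables false

namespace Cfsg.Agent.Lib.SL2Cusp

open Matrix Finset Cfsg Cfsg.Agent.Lib.SL2Core Cfsg.Agent.Lib.SL2Bor Cfsg.Agent.Lib.SL2Prin
  Cfsg.Agent.Lib.SL2Nonsplit Cfsg.Agent.Lib.CharBasic Cfsg.Agent.Lib.CharInd
  Cfsg.Agent.Lib.GenChar Cfsg.Agent.Lib.SL2ZU Cfsg.Agent.Lib.SL2SylowTwo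
open scoped MatrixGroups ComplexConjugate

variable {F : Type*} [Field F] [Fintype F] [DecidableEq F]

local notation "E" g:max i:max j:max => ((g : SL2 F) : Matrix (Fin 2) (Fin 2) F) i j
local notation "Z" => Subgroup.center (SL2 F)
local notation "m1" => (negS 1 : SL2 F)

lemma sum_mul_ite {ψ : AddChar F ℂ} (hψ : ψ ≠ 1) {κ : F} (hκ : κ ≠ 0) (a b : ℂ) :
    ∑ w : F, ψ (κ * w) * conj (if w = 0 then a else b) = conj a - conj b := by
  have h1 : ∀ w : F, ψ (κ * w) * conj (if w = 0 then a else b) =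
      ψ (κ * w) * conj b + (if w = 0 then conj a - conj b else 0) := by
    intro w
    by_cases h : w = 0
    · subst h
      simp
    · simp [h]
  simp only [h1]
  rw [Finset.sum_add_distrib, ← Finset.sum_mul, sum_mul_left hψ hκ, zero_mul, zero_add,
    Finset.sum_ite_eq' Finset.univ (0 : F), if_pos (Finset.mem_univ _)]

/-- The inner product with a character induced from `Z U`. -/
theorem inner_ZU (hF : ringChar F ≠ 2) {ψ : AddChar F ℂ} (hψ : ψ ≠ 1) (t' : ℂ) {ν : F} (hν0 : ν ≠ 0)
    {φ : SL2 F → ℂ} (hφ : IsClassFunction (SL2 F) φ) {a b c d : ℂ}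
    (h1 : ∀ w : F, φ (zuEl 1 w (by ring)) = if w = 0 then a else b)
    (h2 : ∀ w : F, φ (zuEl (-1) w (by ring)) = if w = 0 then c else d) :
    classInner (indFun (ZU F) (fZU ψ t' ν)) φ =
      (2 * (Fintype.card F : ℂ))⁻¹ * ((conj a - conj b) + t' * (conj c - conj d)) := by
  classical
  haveI : Fintype (ZU F) := Fintype.ofFinite _
  rw [Cfsg.Agent.Lib.CharInd.frobenius _ _ hφ]
  unfold classInner
  rw [card_ne_two_mul hF, sum_ZU hF]
  congr 1
  have e1 : ∀ w : F, fZU ψ t' ν ⟨zuEl 1 w (by ring), zuEl_mem _ _ _⟩ * conj (φ (zuEl 1 w (by ring))) =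
      ψ (ν * w) * conj (if w = 0 then a else b) := by
    intro w
    rw [h1]
    unfold fZU
    simp
  have e2 : ∀ w : F, fZU ψ t' ν ⟨zuEl (-1) w (by ring), zuEl_mem _ _ _⟩ * conj (φ (zuEl (-1) w (by ring))) =
      t' * (ψ ((-ν) * w) * conj (if w = 0 then c else d)) := by
    intro w
    rw [h2]
    unfold fZU
    have : E (zuEl (-1) w (by ring)) 0 0 = -1 := rfl
    simp only [zuEl00, zuEl01, sgn_neg_one hF]
    have e3 : ν * (-1 * w) = -ν * w := by ring
    rw [e3]
    ring
  simp only [e1, e2]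
  rw [sum_mul_ite hψ hν0, ← Finset.mul_sum, sum_mul_ite hψ (neg_ne_zero.mpr hν0)]

section torus

variable {C : Subgroup (SL2 F)}

lemma inner_IC (θ : C →* ℂˣ) [Fintype C] {φ : SL2 F → ℂ} (hφ : IsClassFunction (SL2 F) φ) :
    classInner (IC θ) φ = classInner (thetaF θ) (fun c : C => φ c) :=
  Cfsg.Agent.Lib.CharInd.frobenius _ _ hφ

lemma classInner_thetaF [Fintype C] [DecidableEq (C →* ℂˣ)] (θ' θ : C →* ℂˣ) :
    classInner (thetaF θ') (thetaF θ) = if θ' = θ then 1 else 0 := by
  split_ifs with h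
  · subst h
    exact classInner_irr_self (thetaF_isIrr θ')
  · exact classInner_irr_ne (thetaF_isIrr θ') (thetaF_isIrr θ) (fun e => h (thetaF_injective e))

/-- The central part of a torus character. -/
noncomputable def zpart (θ : C →* ℂˣ) : C → ℂ := fun c => if (c : SL2 F) ∈ Z then thetaF θ c else 0

lemma theta_sq_of_center (hF : ringChar F ≠ 2) (hC : IsNSTorus C) (θ : C →* ℂˣ) (c : C) (hc : (c : SL2 F) ∈ Z) :
    ((θ c)⁻¹ : ℂˣ) = θ c := by
  have h : c * c = 1 := by
    apply Subtype.ext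
    rcases center_eq _ hc with h1 | h1 <;> show (c : SL2 F) * c = 1 <;> rw [h1]
    · simp
    · exact m_mul_m
  have h2 : θ c * θ c = 1 := by
    rw [← map_mul, h, map_one]
  exact inv_eq_of_mul_eq_one_left h2

lemma mC_ne_one (hF : ringChar F ≠ 2) (hC : IsNSTorus C) : mC hC ≠ 1 := by
  intro h
  have h1 : (m1 : SL2 F) = 1 := congrArg Subtype.val h
  have h2 := congrArg (fun g : SL2 F => E g 0 0) h1
  simp at h2
  exact Ring.neg_one_ne_one_of_char_ne_two hF h2

lemma inner_zpart (hF : ringChar F ≠ 2) (hC : IsNSTorus C) [Fintype C] (θ' θ : C →* ℂˣ) :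
    classInner (thetaF θ') (zpart θ) =
      ((Fintype.card F : ℂ) + 1)⁻¹ * (1 + tOf hC θ' * conj (tOf hC θ)) := by
  classical
  unfold classInner
  rw [hC.card_eq]
  push_cast
  congr 1
  have h1 : ∀ c : C, thetaF θ' c * conj (zpart θ c) =
      if (c : SL2 F) ∈ Z then thetaF θ' c * conj (thetaF θ c) else 0 := by
    intro c
    unfold zpart
    split_ifs <;> simp
  simp only [h1]
  rw [← Finset.sum_filter]
  have h2 : Finset.univ.filter (fun c : C => (c : SL2 F) ∈ Z) = {1, mC hC} := by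
    ext c
    simp only [Finset.mem_filter, Finset.mem_univ, true_and, Finset.mem_insert, Finset.mem_singleton]
    constructor
    · intro h
      rcases center_eq _ h with h1 | h1
      · exact Or.inl (Subtype.ext h1)
      · exact Or.inr (Subtype.ext h1)
    · rintro (rfl | rfl)
      · exact Subgroup.one_mem _
      · exact m_mem_center
  rw [h2, Finset.sum_pair (mC_ne_one hF hC).symm]
  have e1 : thetaF θ' (1 : C) = 1 := by
    unfold thetaF
    simp
  have e2 : thetaF θ (1 : C) = 1 := by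
    unfold thetaF
    simp
  rw [e1, e2]
  simp only [map_one, mul_one]
  rfl

variable (hF : ringChar F ≠ 2) {ψ : AddChar F ℂ} (hψ : ψ ≠ 1) {ν : F} (hν : ¬ IsSquare ν)
  (hC : IsNSTorus C) (θ : C →* ℂˣ)

include hF in
lemma cusp_isClass : IsClassFunction (SL2 F) (cusp ψ ν hC θ) :=
  isGen_isClassFunction (cusp_isGen ψ ν hC θ)

include hF hψ hν in
lemma cusp_zu_one (w : F) : cusp ψ ν hC θ (zuEl 1 w (by ring)) =
    if w = 0 then (Fintype.card F : ℂ) - 1 else -1 := by
  by_cases h : w = 0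
  · rw [if_pos h, h]
    have hz : zuEl (1 : F) 0 (by ring) ∈ Z := by
      rw [mem_center_iff']
      simp
    rw [cusp_central hF hC θ hz]
    simp
  · rw [if_neg h, cusp_noncentral hF hψ hν hC θ rfl rfl h]
    simp

include hF hψ hν in
lemma cusp_zu_neg (w : F) : cusp ψ ν hC θ (zuEl (-1) w (by ring)) =
    if w = 0 then ((Fintype.card F : ℂ) - 1) * tOf hC θ else - tOf hC θ := by
  by_cases h : w = 0
  · rw [if_pos h, h]
    have hz : zuEl (-1 : F) 0 (by ring) ∈ Z := by
      rw [mem_center_iff']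
      simp
    rw [cusp_central hF hC θ hz]
    simp [sgn_neg_one hF]
  · rw [if_neg h, cusp_noncentral hF hψ hν hC θ rfl rfl h]
    simp [sgn_neg_one hF]

include hF hψ hν in
/-- The inner product of a character induced from `Z U` and `cusp θ`. -/
lemma inner_ZU_cusp (t' : ℂ) {κ : F} (hκ : κ ≠ 0) :
    classInner (indFun (ZU F) (fZU ψ t' κ)) (cusp ψ ν hC θ) = 2⁻¹ * (1 + t' * tOf hC θ) := by
  rw [inner_ZU hF hψ t' hκ (cusp_isClass hF hC θ) (cusp_zu_one hF hψ hν hC θ) (cusp_zu_neg hF hψ hν hC θ)]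
  have hq := q_ne_zero_cast (F := F)
  simp only [map_sub, map_mul, map_neg, map_one, Complex.conj_natCast, conj_tOf]
  field_simp
  ring

include hF hψ hν in
/-- The restriction of `cusp θ` to the torus. -/
lemma cusp_restrict : (fun c : C => cusp ψ ν hC θ c) =
    -(thetaF θ) - thetaF θ⁻¹ + ((Fintype.card F : ℂ) + 1) • zpart θ := by
  funext c
  simp only [Pi.add_apply, Pi.sub_apply, Pi.neg_apply, Pi.smul_apply, smul_eq_mul]
  by_cases hc : (c : SL2 F) ∈ Z
  · have h1 := theta_center hF hC θ hc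
    have e : (⟨(c : SL2 F), hC.center_le hc⟩ : C) = c := rfl
    rw [e] at h1
    have ez : zpart θ c = ((θ c : ℂˣ) : ℂ) := by
      unfold zpart
      rw [if_pos hc]
      rfl
    have et : thetaF θ c = ((θ c : ℂˣ) : ℂ) := rfl
    have ei : thetaF θ⁻¹ c = ((θ c : ℂˣ) : ℂ) := by
      show (((θ⁻¹) c : ℂˣ) : ℂ) = _
      rw [MonoidHom.inv_apply, theta_sq_of_center hF hC θ c hc]
    rw [cusp_central hF hC θ hc, ← h1, ez, et, ei]
    ring
  · have ez : zpart θ c = 0 := by
      unfold zpart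
      rw [if_neg hc]
    have et : thetaF θ c = ((θ c : ℂˣ) : ℂ) := rfl
    have ei : thetaF θ⁻¹ c = (((θ c)⁻¹ : ℂˣ) : ℂ) := by
      show (((θ⁻¹) c : ℂˣ) : ℂ) = _
      rw [MonoidHom.inv_apply]
    rw [cusp_torus hF hC θ c.2 hc, ez, et, ei]
    simp only [Subtype.coe_eta]
    ring

include hF hψ hν in
/-- The fundamental inner product formula. -/
theorem classInner_cusp (θ' θ : C →* ℂˣ) [DecidableEq (C →* ℂˣ)] :
    classInner (cusp ψ ν hC θ') (cusp ψ ν hC θ) =
      (if θ' = θ then 1 else 0) + (if θ' = θ⁻¹ then 1 else 0) := by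
  classical
  haveI : Fintype C := Fintype.ofFinite _
  have hν0 : ν ≠ 0 := by
    rintro rfl
    exact hν IsSquare.zero
  have hcl := cusp_isClass (ψ := ψ) (ν := ν) hF hC θ
  have hq1 := card_q1_ne (F := F)
  have e0 : cusp ψ ν hC θ' = indFun (ZU F) (fZU ψ (tOf hC θ') 1) + indFun (ZU F) (fZU ψ (tOf hC θ') ν) - IC θ' := rfl
  rw [e0, classInner_sub_left, classInner_add_left, inner_ZU_cusp hF hψ hν hC θ _ one_ne_zero,
    inner_ZU_cusp hF hψ hν hC θ _ hν0, inner_IC θ' hcl, cusp_restrict hF hψ hν hC θ,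
    classInner_add_right, classInner_sub_right, classInner_neg_right, classInner_smul_right,
    classInner_thetaF, classInner_thetaF, inner_zpart hF hC]
  simp only [map_add, map_one, Complex.conj_natCast, conj_tOf]
  field_simp
  ring

lemma borEl_mem_center {a : F} (ha : a ≠ 0) (h : a * a = 1) : borEl a ha 0 ∈ Z := by
  rw [mem_center_iff']
  simp only [borEl00, borEl01, borEl10, borEl11, true_and]
  exact eq_inv_of_mul_eq_one_left h

include hF hψ hν in
/-- The sum of `cusp θ` over a coset of the unipotent subgroup vanishes. -/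
lemma sum_cusp_bor (a : Fˣ) : ∑ b : F, cusp ψ ν hC θ (borEl (a : F) a.ne_zero b) = 0 := by
  by_cases ha : (a : F) * a = 1
  · have hinv : (a : F) = (a : F)⁻¹ := eq_inv_of_mul_eq_one_left ha
    rw [← Finset.add_sum_erase _ _ (Finset.mem_univ (0 : F)),
      cusp_central hF hC θ (borEl_mem_center a.ne_zero ha)]
    have h1 : ∀ b ∈ Finset.univ.erase (0 : F), cusp ψ ν hC θ (borEl (a : F) a.ne_zero b) =
        - sgn (tOf hC θ) (a : F) := by
      intro b hb
      exact cusp_noncentral hF hψ hν hC θ rfl hinv (Finset.ne_of_mem_erase hb)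
    rw [Finset.sum_congr rfl h1, Finset.sum_const, Finset.card_erase_of_mem (Finset.mem_univ _),
      Finset.card_univ, nsmul_eq_mul]
    have h2 : 1 ≤ Fintype.card F := Fintype.card_pos
    push_cast [h2]
    simp only [borEl00]
    ring
  · apply Finset.sum_eq_zero
    intro b _
    apply cusp_split
    · rw [tr_eq]
      simp only [borEl00, borEl11]
      intro h
      apply ha
      have ha0 := a.ne_zero
      have h3 : ((a : F) * a - 1) ^ 2 = 0 := by
        field_simp at h
        linear_combination h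
      have h4 := pow_eq_zero_iff (two_ne_zero) |>.mp h3
      linear_combination h4
    · intro hns
      apply hns (a : F)
      rw [tr_eq]
      simp only [borEl00, borEl11]
      have ha0 := a.ne_zero
      field_simp
      ring

include hF hψ hν in
/-- `cusp θ` is orthogonal to the principal series. -/
theorem classInner_prin_cusp (α : MulChar F ℂ) : classInner (prin α) (cusp ψ ν hC θ) = 0 := by
  classical
  haveI : Fintype (Bor F) := Fintype.ofFinite _
  have hcl := cusp_isClass (ψ := ψ) (ν := ν) hF hC θ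
  unfold prin
  rw [Cfsg.Agent.Lib.CharInd.frobenius _ _ hcl]
  unfold classInner
  rw [sum_bor]
  have h1 : ∀ a : Fˣ, ∑ b : F, lin α (borEquiv (a, b)) *
      conj (cusp ψ ν hC θ ((borEquiv (a, b) : Bor F) : SL2 F)) = 0 := by
    intro a
    have h2 : ∀ b : F, lin α (borEquiv (a, b)) = α (a : F) := fun b => rfl
    have h3 : ∀ b : F, ((borEquiv (a, b) : Bor F) : SL2 F) = borEl (a : F) a.ne_zero b := fun b => rfl
    simp only [h2, h3]
    rw [← Finset.mul_sum, ← map_sum, sum_cusp_bor hF hψ hν hC θ a, map_zero, mul_zero]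
  rw [Finset.sum_eq_zero (fun a _ => h1 a), mul_zero]

include hF hψ hν in
/-- `cusp θ` and the trivial character. -/
theorem classInner_cusp_one [DecidableEq (C →* ℂˣ)] :
    classInner (cusp ψ ν hC θ) (fun _ => 1) = - (if θ = 1 then 1 else 0) := by
  classical
  haveI : Fintype C := Fintype.ofFinite _
  have hν0 : ν ≠ 0 := by
    rintro rfl
    exact hν IsSquare.zero
  have hcl : IsClassFunction (SL2 F) (fun _ => (1 : ℂ)) := fun _ _ => rfl
  have e0 : cusp ψ ν hC θ = indFun (ZU F) (fZU ψ (tOf hC θ) 1) + indFun (ZU F) (fZU ψ (tOf hC θ) ν) - IC θ := rfl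
  rw [e0, classInner_sub_left, classInner_add_left,
    inner_ZU hF hψ _ one_ne_zero hcl (a := 1) (b := 1) (c := 1) (d := 1) (by simp) (by simp),
    inner_ZU hF hψ _ hν0 hcl (a := 1) (b := 1) (c := 1) (d := 1) (by simp) (by simp), inner_IC θ hcl]
  have e1 : (fun c : C => (1 : ℂ)) = thetaF (1 : C →* ℂˣ) := by
    funext c
    simp [thetaF]
  rw [e1, classInner_thetaF]
  simp

end torus

/-! ### Central elements -/

lemma indFun_central_mul {G : Type*} [Group G] [Fintype G] (H : Subgroup G) (f : H → ℂ) {z : G}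
    (hz : z ∈ Subgroup.center G) (hzH : z ∈ H) (κ : ℂ)
    (hf : ∀ h : H, f (⟨z, hzH⟩ * h) = κ * f h) (g : G) :
    indFun H f (z * g) = κ * indFun H f g := by
  rw [indFun_apply, indFun_apply, mul_left_comm]
  congr 1
  rw [Finset.mul_sum]
  refine Finset.sum_congr rfl fun x _ => ?_
  have e : x⁻¹ * (z * g) * x = z * (x⁻¹ * g * x) := by
    have := Subgroup.mem_center_iff.mp hz x⁻¹
    calc x⁻¹ * (z * g) * x = (x⁻¹ * z) * g * x := by group
      _ = (z * x⁻¹) * g * x := by rw [this]
      _ = _ := by group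
  rw [e]
  by_cases hm : x⁻¹ * g * x ∈ H
  · rw [extendByZero_of_mem H f hm, extendByZero_of_mem H f (H.mul_mem hzH hm)]
    exact hf ⟨_, hm⟩
  · rw [extendByZero_of_not_mem H f hm, extendByZero_of_not_mem H f, mul_zero]
    intro h
    apply hm
    have := H.mul_mem (H.inv_mem hzH) h
    simpa using this

section central

variable {C : Subgroup (SL2 F)} (hF : ringChar F ≠ 2) {ψ : AddChar F ℂ} {ν : F}
  (hC : IsNSTorus C) (θ : C →* ℂˣ)

include hF in
lemma fZU_center (t : ℂ) (κ : F) {z : SL2 F} (hz : z ∈ Z) :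
    fZU ψ t κ ⟨z, center_le_ZU hz⟩ = sgn t (E z 0 0) := by
  unfold fZU
  have h01 := ((mem_center_iff' z).mp hz).1
  simp [h01]

include hF in
lemma cusp_central_mul {z : SL2 F} (hz : z ∈ Z) (g : SL2 F) :
    cusp ψ ν hC θ (z * g) = ((θ ⟨z, hC.center_le hz⟩ : ℂˣ) : ℂ) * cusp ψ ν hC θ g := by
  unfold cusp YY
  simp only [Pi.add_apply, Pi.sub_apply]
  have ht := tOf_sq hC θ
  have hY : ∀ κ : F, indFun (ZU F) (fZU ψ (tOf hC θ) κ) (z * g) =
      ((θ ⟨z, hC.center_le hz⟩ : ℂˣ) : ℂ) * indFun (ZU F) (fZU ψ (tOf hC θ) κ) g := by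
    intro κ
    apply indFun_central_mul _ _ hz (center_le_ZU hz)
    intro h
    rw [fZU_mul ψ ht, fZU_center hF _ _ hz, theta_center hF hC θ hz]
  have hI : IC θ (z * g) = ((θ ⟨z, hC.center_le hz⟩ : ℂˣ) : ℂ) * IC θ g := by
    apply indFun_central_mul _ _ hz (hC.center_le hz)
    intro h
    unfold thetaF
    rw [map_mul, Units.val_mul]
  rw [hY, hY, hI]
  ring

include hF in
lemma cusp_one : cusp ψ ν hC θ 1 = (Fintype.card F : ℂ) - 1 := by
  rw [cusp_central hF hC θ (Subgroup.one_mem _)]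
  simp

end central

end Cfsg.Agent.Lib.SL2Cusp
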