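import Mathlib
import Cfsg.Agent.Lib.SL2Odd
import Cfsg.Agent.S2433

/-!
# Sums over the unipotent subgroup for the irreducible characters of `SL₂(q)`, `q` odd
-/

set_option autoImplicit false
set_option linter.unusedSectionVars false
set_option linter.unusedSimpArgs false
set_option linter.unusedVariables false

namespace Cfsg.Agent.Lib.SL2Usum

open Cfsg Cfsg.Agent.Lib.CharBasic Cfsg.Agent.Lib.CharInd Cfsg.Agent.Lib.GL2Char
  Cfsg.Agent.Lib.GL2Irr Cfsg.Agent.Lib.SL2Char Cfsg.Agent.Lib.SL2Count Cfsg.Agent.Lib.SL2Odd Matrix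
open scoped ComplexConjugate

variable {F : Type*} [Field F] [DecidableEq F] [Fintype F]

local notation "G2" => Matrix.GeneralLinearGroup (Fin 2) F
local notation "S2" => Matrix.SpecialLinearGroup (Fin 2) F
local notation "ι" => Matrix.SpecialLinearGroup.toGL (n := Fin 2) (R := F)
local notation "uS" => Cfsg.Agent.S2301.uu (F := F)
local notation "E" g:max i:max j:max => ((g : Matrix.SpecialLinearGroup (Fin 2) F) : Matrix (Fin 2) (Fin 2) F) i j

/-- The sum of a function over the upper unitriangular subgroup. -/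
noncomputable def sumU (φ : S2 → ℂ) : ℂ := ∑ b : F, φ (uS b)

theorem sum_filter_eq (φ : S2 → ℂ) :
    (∑ g : S2, if E g 1 0 = 0 ∧ E g 0 0 = 1 ∧ E g 1 1 = 1 then φ g else 0) = sumU φ := by
  classical
  rw [← Finset.sum_filter]
  symm
  refine Finset.sum_bij (fun b _ => uS b) ?_ ?_ ?_ ?_
  · intro b _
    simp only [Finset.mem_filter, Finset.mem_univ, true_and]
    exact ⟨rfl, rfl, rfl⟩
  · intro a _ b _ h
    have := congrArg (fun g : S2 => E g 0 1) h
    simpa [Cfsg.Agent.S2301.uu] using this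
  · intro g hg
    obtain ⟨-, h1, h2, h3⟩ := Finset.mem_filter.mp hg
    refine ⟨E g 0 1, Finset.mem_univ _, ?_⟩
    apply Subtype.ext
    ext i j
    fin_cases i <;> fin_cases j
    · simp [Cfsg.Agent.S2301.uu, h2]
    · simp [Cfsg.Agent.S2301.uu]
    · simp [Cfsg.Agent.S2301.uu, h1]
    · simp [Cfsg.Agent.S2301.uu, h3]
  · intro _ _
    rfl

theorem uS_zero : uS 0 = 1 := by
  apply Subtype.ext
  ext i j
  fin_cases i <;> fin_cases j <;> simp [Cfsg.Agent.S2301.uu]

theorem sumU_add (φ φ' : S2 → ℂ) : sumU (φ + φ') = sumU φ + sumU φ' := by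
  simp [sumU, Finset.sum_add_distrib]

theorem sumU_sub (φ φ' : S2 → ℂ) : sumU (φ - φ') = sumU φ - sumU φ' := by
  simp [sumU, Finset.sum_sub_distrib]

theorem sumU_of_val {φ : S2 → ℂ} {c : ℂ} (h : ∀ b : F, b ≠ 0 → φ (uS b) = c) :
    sumU φ = φ 1 + ((Fintype.card F : ℂ) - 1) * c := by
  unfold sumU
  rw [← Finset.add_sum_erase _ _ (Finset.mem_univ (0 : F)), uS_zero]
  congr 1
  rw [Finset.sum_congr rfl (fun b hb => h b (Finset.ne_of_mem_erase hb)), Finset.sum_const,
    Finset.card_erase_of_mem (Finset.mem_univ _), Finset.card_univ, nsmul_eq_mul]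
  congr 1
  have : 1 ≤ Fintype.card F := Fintype.card_pos
  push_cast [this]
  ring

theorem ff_uS (hodd : Odd (Fintype.card F)) (μ : MulChar F ℂ) {b : F} (hb : b ≠ 0) :
    ff μ (uS b) = 1 := by
  have := (Cfsg.Agent.S2433.result hodd μ (uS b)).2.2.1 rfl rfl hb
  have e : (((uS b : S2) : Matrix (Fin 2) (Fin 2) F) 0 0) = 1 := rfl
  rw [e, map_one] at this
  exact this

theorem sumU_ff (hodd : Odd (Fintype.card F)) (μ : MulChar F ℂ) :
    sumU (ff μ) = 2 * (Fintype.card F : ℂ) := by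
  rw [sumU_of_val (fun b hb => ff_uS hodd μ hb), ff_one]
  ring

theorem sumU_one' : sumU (one' (F := F)) = (Fintype.card F : ℂ) := by
  simp [sumU, one']

theorem sumU_stS (hodd : Odd (Fintype.card F)) : sumU (stS (F := F)) = (Fintype.card F : ℂ) := by
  unfold stS
  rw [sumU_sub, sumU_ff hodd, sumU_one']
  ring

/-- The element `y` of `GL₂` with a left `SL₂` factor. -/
theorem exists_decomp_right (y : G2) :
    ∃ (s : S2) (d : Fˣ), y = ι s * dm d := by
  obtain ⟨s, hs⟩ := exists_ι_of_det (g := y * (dm (Matrix.GeneralLinearGroup.det y))⁻¹) (by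
    rw [map_mul, map_inv, det_dm, mul_inv_cancel])
  refine ⟨s, Matrix.GeneralLinearGroup.det y, ?_⟩
  rw [hs]
  group

theorem exists_decomp_left (y : G2) :
    ∃ (s : S2) (d : Fˣ), y = dm d * ι s := by
  obtain ⟨s, hs⟩ := exists_ι_of_det (g := (dm (Matrix.GeneralLinearGroup.det y))⁻¹ * y) (by
    rw [map_mul, map_inv, det_dm, inv_mul_cancel])
  refine ⟨s, Matrix.GeneralLinearGroup.det y, ?_⟩
  rw [hs]
  group

/-- A conjugate under `GL₂` has the same sum over the unipotent subgroup. -/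
theorem sumU_conj {φ φ' : S2 → ℂ} (hφ : IsClassFunction S2 φ) (y : G2)
    (hy : ∀ g h : S2, ι h = y * ι g * y⁻¹ → φ' h = φ g) : sumU φ' = sumU φ := by
  obtain ⟨s, d, rfl⟩ := exists_decomp_left y
  have key : ∀ b : F, φ' (uS (d * b)) = φ (uS b) := by
    intro b
    have h1 : ι (uS (d * b)) = (dm d * ι s) * ι (s⁻¹ * uS b * s) * (dm d * ι s)⁻¹ := by
      rw [← cy_uS, ι_cy, map_mul, map_mul, map_inv]
      group
    rw [hy _ _ h1]
    have := hφ (uS b) s⁻¹
    rw [inv_inv] at this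
    exact this
  unfold sumU
  rw [← Fintype.sum_equiv (Units.mulLeft d) (fun b => φ' (uS (d * b))) (fun b => φ' (uS b))
    (fun b => rfl)]
  exact Finset.sum_congr rfl fun b _ => key b

theorem uS_toGL (b : F) : ι (uS b) = ((bmk (1 : Fˣ) 1 b : Cfsg.upperTriangularGL 2 F) : G2) := by
  apply ext2 <;> rfl

/-- The sum over the unipotent subgroup of a cuspidal character vanishes. -/
theorem sumU_cusp {χ : G2 → ℂ} (hcl : IsClassFunction G2 χ) (hc : IsCusp χ) :
    sumU (χ ∘ ι) = 0 := by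
  have h := cusp_sum_zero hcl hc 1 1
  unfold sumU
  simp only [Function.comp_apply, uS_toGL]
  exact h

/-- For a pair of conjugate constituents. -/
theorem sumU_half {φ φ' θ : S2 → ℂ} (hφ : IsClassFunction S2 φ) (y : G2)
    (hy : ∀ g h : S2, ι h = y * ι g * y⁻¹ → φ' h = φ g) (hθ : θ = φ + φ') :
    2 * sumU φ = sumU θ := by
  rw [hθ, sumU_add, sumU_conj hφ y hy]
  ring

theorem sumU_isHalfP (hodd : Odd (Fintype.card F)) {φ : S2 → ℂ} (hφ : IsIrrCharacter S2 φ)
    (h : IsHalfP φ) : sumU φ = (Fintype.card F : ℂ) := by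
  obtain ⟨μ, -, -, φ', -, -, h3, y, hy⟩ := h
  have := sumU_half (isClassFunction_of_isCharacter (IsIrrCharacter.isCharacter hφ)) y hy h3
  rw [sumU_ff hodd] at this
  exact mul_left_cancel₀ two_ne_zero this

theorem sumU_isCuspHalf {φ : S2 → ℂ} (hφ : IsIrrCharacter S2 φ) (h : IsCuspHalf φ) :
    sumU φ = 0 := by
  obtain ⟨χ, hχ, hc, φ', -, -, h3, y, hy⟩ := h
  have := sumU_half (isClassFunction_of_isCharacter (IsIrrCharacter.isCharacter hφ)) y hy h3
  rw [sumU_cusp (isClassFunction_of_isCharacter (IsIrrCharacter.isCharacter hχ)) hc] at this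
  simpa using this

theorem sumU_isCuspFull {φ : S2 → ℂ} (h : IsCuspFull φ) : sumU φ = 0 := by
  obtain ⟨χ, hχ, hc, rfl⟩ := h
  exact sumU_cusp (isClassFunction_of_isCharacter (IsIrrCharacter.isCharacter hχ)) hc

/-- Classification by degree for `q ≥ 5`. -/
theorem main (hodd : Odd (Fintype.card F)) (hq : 5 ≤ Fintype.card F)
    (χ : S2 → ℂ) (hχ : IsIrrCharacter S2 χ) :
    (χ 1 = (Fintype.card F : ℂ) + 1 → sumU χ = 2 * (Fintype.card F : ℂ)) ∧
    (χ 1 = (Fintype.card F : ℂ) → sumU χ = (Fintype.card F : ℂ)) ∧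
    (χ 1 = (Fintype.card F : ℂ) - 1 → sumU χ = 0) ∧
    (χ 1 = (((Fintype.card F + 1) / 2 : ℕ) : ℂ) → sumU χ = (Fintype.card F : ℂ)) ∧
    (χ 1 = (((Fintype.card F - 1) / 2 : ℕ) : ℂ) → sumU χ = 0) := by
  set φ : IrrCharacter S2 := ⟨χ, hχ⟩ with hφ
  have hd := degS_spec φ
  have hpos := degS_pos φ
  obtain ⟨k, hk⟩ := hodd
  have hodd' : Odd (Fintype.card F) := ⟨k, hk⟩
  refine ⟨?_, ?_, ?_, ?_, ?_⟩
  · intro h
    obtain ⟨μ, -, rfl⟩ := eq_ff_of_deg hχ h
    exact sumU_ff hodd' μ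
  · intro h
    rw [eq_stS_of_deg hχ h]
    exact sumU_stS hodd'
  · intro h
    have h1 : degS φ + 1 = Fintype.card F := by
      have : ((degS φ + 1 : ℕ) : ℂ) = (Fintype.card F : ℂ) := by
        push_cast
        have e : φ.1 1 = (degS φ : ℂ) := hd
        have e' : φ.1 1 = χ 1 := rfl
        rw [← e, e', h]
        ring
      exact_mod_cast this
    rcases deg_table φ with h2 | h2 | h2 | h2 | h2 | h2
    · exfalso; have := h2.2; omega
    · exfalso; have := h2.2; omega
    · exfalso; have := h2.2; omega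
    · exfalso; have := h2.2; omega
    · exact sumU_isCuspFull h2.1
    · exfalso; have := h2.2; omega
  · intro h
    have h1 : degS φ = (Fintype.card F + 1) / 2 := (degS_eq_iff φ _).mpr h
    exact sumU_isHalfP hodd' hχ ((half_classification hq φ).1 (by omega))
  · intro h
    have h1 : degS φ = (Fintype.card F - 1) / 2 := (degS_eq_iff φ _).mpr h
    exact sumU_isCuspHalf hχ ((half_classification hq φ).2 (by omega))

end Cfsg.Agent.Lib.SL2Usum
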