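import Mathlib
import Cfsg.Agent.Lib.SL2CuspInner
import Cfsg.Agent.Lib.SL2Usum

/-!
# Irreducibility of the `cusp θ`
-/

set_option autoImplicit false
set_option linter.unusedSectionVars false
set_option linter.unusedSimpArgs false
set_option linter.unusedVariables false
set_option linter.style.haveILetI false

namespace Cfsg.Agent.Lib.SL2Cusp

open Finset Cfsg Cfsg.Agent.Lib.SL2Core Cfsg.Agent.Lib.SL2Bor Cfsg.Agent.Lib.SL2Prin
  Cfsg.Agent.Lib.SL2Nonsplit Cfsg.Agent.Lib.CharBasic Cfsg.Agent.Lib.CharInd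
  Cfsg.Agent.Lib.GenChar Cfsg.Agent.Lib.SL2ZU Cfsg.Agent.Lib.SL2SylowTwo
  Cfsg.Agent.Lib.SL2Char Cfsg.Agent.Lib.GL2Irr Cfsg.Agent.Lib.SL2Usum
open scoped MatrixGroups ComplexConjugate

variable {F : Type*} [Field F] [Fintype F] [DecidableEq F]

local notation "E" g:max i:max j:max => ((g : SL2 F) : Matrix (Fin 2) (Fin 2) F) i j
local notation "Z" => Subgroup.center (SL2 F)
local notation "m1" => (negS 1 : SL2 F)

section irr

variable {C : Subgroup (SL2 F)} (hF : ringChar F ≠ 2) {ψ : AddChar F ℂ} (hψ : ψ ≠ 1) {ν : F}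
  (hν : ¬ IsSquare ν) (hC : IsNSTorus C) (θ : C →* ℂˣ)

omit [DecidableEq F] in
lemma q_sub_one_ne : (Fintype.card F : ℂ) - 1 ≠ 0 := by
  have h : 1 < Fintype.card F := Fintype.one_lt_card
  intro h0
  have h1 : (Fintype.card F : ℂ) = ((1 : ℕ) : ℂ) := by
    push_cast
    linear_combination h0
  have h2 : Fintype.card F = 1 := by exact_mod_cast h1
  omega

include hF hψ hν in
/-- `cusp θ` is irreducible as soon as `θ ≠ θ⁻¹`. -/
theorem cusp_isIrr (hθ : θ ≠ θ⁻¹) : IsIrrCharacter (SL2 F) (cusp ψ ν hC θ) := by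
  classical
  have hn : classInner (cusp ψ ν hC θ) (cusp ψ ν hC θ) = 1 := by
    rw [classInner_cusp hF hψ hν hC θ θ]
    simp [hθ]
  rcases gen_norm_one (cusp_isGen ψ ν hC θ) hn with h | h
  · exact h
  · exfalso
    obtain ⟨d, hd, hd'⟩ := isIrr_one_pos h
    rw [Pi.neg_apply, cusp_one hF hC θ] at hd'
    have h1 : ((d + Fintype.card F : ℕ) : ℂ) = ((1 : ℕ) : ℂ) := by
      push_cast
      linear_combination -hd'
    have h2 : d + Fintype.card F = 1 := by exact_mod_cast h1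
    have h3 : 1 < Fintype.card F := Fintype.one_lt_card
    omega

include hF hψ hν in
lemma classInner_ff_cusp (α : MulChar F ℂ) : classInner (ff α) (cusp ψ ν hC θ) = 0 :=
  classInner_prin_cusp hF hψ hν hC θ α

include hF hψ hν in
lemma classInner_cusp_ff (α : MulChar F ℂ) : classInner (cusp ψ ν hC θ) (ff α) = 0 := by
  rw [← classInner_conj_symm, classInner_ff_cusp hF hψ hν hC θ α, map_zero]

include hF hψ hν in
lemma classInner_cusp_one' (hθ1 : θ ≠ 1) : classInner (cusp ψ ν hC θ) (one' (F := F)) = 0 := by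
  classical
  have := classInner_cusp_one hF hψ hν hC θ
  simp only [hθ1, if_false, neg_zero] at this
  exact this

include hF hψ hν in
lemma classInner_cusp_stS (hθ1 : θ ≠ 1) : classInner (cusp ψ ν hC θ) (stS (F := F)) = 0 := by
  unfold stS
  rw [classInner_sub_right, classInner_cusp_ff hF hψ hν hC θ, classInner_cusp_one' hF hψ hν hC θ hθ1,
    sub_zero]

include hF hψ hν in
/-- The types of the constituents of `cusp θ` when it has norm `2`. -/
lemma cusp_type (hθ1 : θ ≠ 1) {χ₁ χ₂ : SL2 F → ℂ} {a b : ℤ} (h1 : IsIrrCharacter (SL2 F) χ₁)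
    (h2 : IsIrrCharacter (SL2 F) χ₂) (hne : χ₁ ≠ χ₂) (ha : a = 1 ∨ a = -1) (hb : b = 1 ∨ b = -1)
    (hcu : cusp ψ ν hC θ = a • χ₁ + b • χ₂) : IsCuspFull χ₁ ∨ IsCuspHalf χ₁ := by
  have hexp : ∀ φ : SL2 F → ℂ, classInner (cusp ψ ν hC θ) φ =
      (a : ℂ) * classInner χ₁ φ + (b : ℂ) * classInner χ₂ φ := by
    intro φ
    rw [hcu, classInner_add_left, classInner_zsmul_left, classInner_zsmul_left]
  have ha0 : (a : ℂ) ≠ 0 := by
    rcases ha with rfl | rfl <;> norm_num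
  have hself : classInner (cusp ψ ν hC θ) χ₁ = (a : ℂ) := by
    rw [hexp, classInner_irr_self h1, classInner_irr_ne h2 h1 hne.symm]
    ring
  have hnot : ∀ φ : SL2 F → ℂ, classInner (cusp ψ ν hC θ) φ = 0 → χ₁ ≠ φ := by
    rintro φ h rfl
    rw [hself] at h
    exact ha0 h
  rcases classify_S h1 with rfl | rfl | ⟨μ, -, rfl⟩ | hP | h3 | h3
  · exact absurd rfl (hnot _ (classInner_cusp_one' hF hψ hν hC θ hθ1))
  · exact absurd rfl (hnot _ (classInner_cusp_stS hF hψ hν hC θ hθ1))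
  · exact absurd rfl (hnot _ (classInner_cusp_ff hF hψ hν hC θ μ))
  · exfalso
    obtain ⟨μ, -, -, φ', h4, h5, h6, y, hy⟩ := hP
    have h7 := classInner_cusp_ff hF hψ hν hC θ μ
    rw [h6, classInner_add_right, hself, hexp φ', classInner_irr_ne h1 h4 h5.symm, mul_zero, zero_add] at h7
    by_cases h8 : χ₂ = φ'
    · subst h8
      rw [classInner_irr_self h2, mul_one] at h7
      have h9 := cusp_one (ψ := ψ) (ν := ν) hF hC θ
      rw [hcu, Pi.add_apply, Pi.smul_apply, Pi.smul_apply, zsmul_eq_mul, zsmul_eq_mul, conj_deg hy] at h9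
      apply q_sub_one_ne (F := F)
      rw [← h9]
      linear_combination (χ₁ 1) * h7
    · rw [classInner_irr_ne h2 h4 h8, mul_zero, add_zero] at h7
      exact ha0 h7
  · exact Or.inl h3
  · exact Or.inr h3

include hF hψ hν in
/-- When `θ` has order `2`, the function `cusp θ` is the sum of two half-cuspidal characters. -/
theorem cusp_half (hθ : θ = θ⁻¹) (hθ1 : θ ≠ 1) :
    ∃ χ₁ χ₂ : SL2 F → ℂ, IsIrrCharacter (SL2 F) χ₁ ∧ IsIrrCharacter (SL2 F) χ₂ ∧ χ₁ ≠ χ₂ ∧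
      IsCuspHalf χ₁ ∧ IsCuspHalf χ₂ ∧ cusp ψ ν hC θ = χ₁ + χ₂ := by
  classical
  have hn : classInner (cusp ψ ν hC θ) (cusp ψ ν hC θ) = 2 := by
    rw [classInner_cusp hF hψ hν hC θ θ, if_pos rfl, if_pos hθ]
    norm_num
  obtain ⟨χ₁, χ₂, a, b, h1, h2, hne, ha, hb, hcu⟩ := gen_norm_two (cusp_isGen ψ ν hC θ) hn
  have t1 := cusp_type hF hψ hν hC θ hθ1 h1 h2 hne ha hb hcu
  have t2 := cusp_type hF hψ hν hC θ hθ1 h2 h1 hne.symm hb ha (by rw [hcu, add_comm])
  have hQ := q_sub_one_ne (F := F)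
  have e := cusp_one (ψ := ψ) (ν := ν) hF hC θ
  rw [hcu, Pi.add_apply, Pi.smul_apply, Pi.smul_apply, zsmul_eq_mul, zsmul_eq_mul] at e
  have t1' : (IsCuspFull χ₁ ∧ χ₁ 1 = (Fintype.card F : ℂ) - 1) ∨
      (IsCuspHalf χ₁ ∧ 2 * χ₁ 1 = (Fintype.card F : ℂ) - 1) := by
    rcases t1 with h | h
    · exact Or.inl ⟨h, isCuspFull_deg h⟩
    · exact Or.inr ⟨h, isCuspHalf_deg h⟩
  have t2' : (IsCuspFull χ₂ ∧ χ₂ 1 = (Fintype.card F : ℂ) - 1) ∨
      (IsCuspHalf χ₂ ∧ 2 * χ₂ 1 = (Fintype.card F : ℂ) - 1) := by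
    rcases t2 with h | h
    · exact Or.inl ⟨h, isCuspFull_deg h⟩
    · exact Or.inr ⟨h, isCuspHalf_deg h⟩
  generalize (Fintype.card F : ℂ) - 1 = Q at *
  generalize χ₁ 1 = x at *
  generalize χ₂ 1 = y at *
  rcases ha with rfl | rfl <;> rcases hb with rfl | rfl <;> rcases t1' with ⟨k1, d1⟩ | ⟨k1, d1⟩ <;>
    rcases t2' with ⟨k2, d2⟩ | ⟨k2, d2⟩ <;> push_cast at e
  all_goals first
    | (exfalso; apply hQ; grind)
    | skip
  refine ⟨χ₁, χ₂, h1, h2, hne, k1, k2, ?_⟩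
  rw [hcu]
  simp

end irr

/-! ### Conjugate characters -/

section conjval

local notation "G2" => Matrix.GeneralLinearGroup (Fin 2) F
local notation "S2" => Matrix.SpecialLinearGroup (Fin 2) F
local notation "ι" => Matrix.SpecialLinearGroup.toGL (n := Fin 2) (R := F)

open Cfsg.Agent.Lib.SL2Odd in
/-- Constituents of a reducible restriction agree on elements of trace not `±2`. -/
theorem conj_val (hodd : Odd (Fintype.card F)) {φ φ' : S2 → ℂ} (hφ' : IsClassFunction S2 φ') (y : G2)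
    (hy : ∀ g h : S2, ι h = y * ι g * y⁻¹ → φ' h = φ g) (g : S2) (ht : tr g * tr g ≠ 4) :
    φ' g = φ g := by
  obtain ⟨s, d, rfl⟩ := exists_decomp_right y
  have ht' : (Cfsg.Agent.S2301.tr g) ^ 2 ≠ 4 := by
    intro h
    apply ht
    rw [tr_eq, ← h, pow_two]
    rfl
  obtain ⟨r, hr⟩ := isConj_iff.mp (fix_of_tr hodd d g ht')
  have h1 : ι (s * (cy (dm d) g) * s⁻¹) = (ι s * dm d) * ι g * (ι s * dm d)⁻¹ := by
    rw [map_mul, map_mul, map_inv, ι_cy]
    group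
  rw [← hy g _ h1, ← hr]
  have h2 : s * (r * g * r⁻¹) * s⁻¹ = (s * r) * g * (s * r)⁻¹ := by group
  rw [h2, hφ']

end conjval

end Cfsg.Agent.Lib.SL2Cusp
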