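import Mathlib
import Cfsg.Agent.Lib.SL2CuspIrr

/-!
# Values of the half-degree characters of `SL₂(q)`
-/

set_option autoImplicit false
set_option linter.unusedSectionVars false
set_option linter.unusedSimpArgs false
set_option linter.unusedVariables false
set_option linter.style.haveILetI false

namespace Cfsg.Agent.Lib.SL2Cusp

open Finset Cfsg Cfsg.Agent.Lib.SL2Core Cfsg.Agent.Lib.SL2Bor Cfsg.Agent.Lib.SL2Prin
  Cfsg.Agent.Lib.SL2Nonsplit Cfsg.Agent.Lib.CharBasic Cfsg.Agent.Lib.CharInd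
  Cfsg.Agent.Lib.GenChar Cfsg.Agent.Lib.SL2ZU Cfsg.Agent.Lib.SL2SylowTwo
  Cfsg.Agent.Lib.SL2Char Cfsg.Agent.Lib.GL2Irr Cfsg.Agent.Lib.SL2Usum Cfsg.Agent.Lib.SL2Count
  Cfsg.Agent.Lib.SL2Odd
open scoped MatrixGroups ComplexConjugate

variable {F : Type*} [Field F] [Fintype F] [DecidableEq F]

local notation "E" g:max i:max j:max => ((g : SL2 F) : Matrix (Fin 2) (Fin 2) F) i j
local notation "Z" => Subgroup.center (SL2 F)
local notation "m1" => (negS 1 : SL2 F)
local notation "S2" => Matrix.SpecialLinearGroup (Fin 2) F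

/-! ### The quadratic character of the torus -/

section quad

variable {C : Subgroup (SL2 F)} (hF : ringChar F ≠ 2) (hC : IsNSTorus C)

include hF hC in
lemma pow_half_cases (hodd : Odd (Fintype.card F)) {c : SL2 F} (hc : c ∈ C) :
    c ^ ((Fintype.card F + 1) / 2) = 1 ∨ c ^ ((Fintype.card F + 1) / 2) = m1 := by
  have hq : (Fintype.card F + 1) / 2 + (Fintype.card F + 1) / 2 = Fintype.card F + 1 := by
    rw [Nat.odd_iff] at hodd
    omega
  have h1 : c ^ ((Fintype.card F + 1) / 2) * c ^ ((Fintype.card F + 1) / 2) = 1 := by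
    rw [← pow_add, hq]
    have := pow_card_eq_one' (G := C) (x := ⟨c, hc⟩)
    rw [hC.card_eq] at this
    exact congrArg Subtype.val this
  exact center_eq _ (sq_eq_one_iff hF h1)

/-- The quadratic character of the torus `C`. -/
noncomputable def quadHom (hodd : Odd (Fintype.card F)) : C →* ℂˣ :=
  MonoidHom.mk' (fun c => if (c : SL2 F) ^ ((Fintype.card F + 1) / 2) = 1 then 1 else -1) (by
    intro a b
    have hab : Commute (a : SL2 F) (b : SL2 F) := hC.comm a.2 b.2
    have e : ((a : SL2 F) * b) ^ ((Fintype.card F + 1) / 2) =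
        (a : SL2 F) ^ ((Fintype.card F + 1) / 2) * (b : SL2 F) ^ ((Fintype.card F + 1) / 2) :=
      hab.mul_pow _
    have hne : (m1 : SL2 F) ≠ 1 := by
      intro h
      have h2 := congrArg (fun g : SL2 F => E g 0 0) h
      simp at h2
      exact Ring.neg_one_ne_one_of_char_ne_two hF h2
    rcases pow_half_cases hF hC hodd a.2 with h1 | h1 <;>
      rcases pow_half_cases hF hC hodd b.2 with h2 | h2
    · simp [e, h1, h2]
    · simp [e, h1, h2, hne]
    · simp [e, h1, h2, hne]
    · simp [e, h1, h2, hne, m_mul_m])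

lemma quadHom_apply (hodd : Odd (Fintype.card F)) (c : C) :
    quadHom hF hC hodd c = if (c : SL2 F) ^ ((Fintype.card F + 1) / 2) = 1 then 1 else -1 := rfl

lemma quadHom_inv (hodd : Odd (Fintype.card F)) : quadHom hF hC hodd = (quadHom hF hC hodd)⁻¹ := by
  ext c
  rw [MonoidHom.inv_apply, quadHom_apply]
  split_ifs <;> simp

lemma quadHom_ne_one (hodd : Odd (Fintype.card F)) : quadHom hF hC hodd ≠ 1 := by
  have hcyc := hC.cyc
  obtain ⟨c, hc⟩ := IsCyclic.exists_ofOrder_eq_natCard (α := C)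
  rw [hC.card_eq] at hc
  intro h
  have h1 := DFunLike.congr_fun h c
  rw [quadHom_apply, MonoidHom.one_apply] at h1
  have h2 : (c : SL2 F) ^ ((Fintype.card F + 1) / 2) = 1 := by
    by_contra h3
    rw [if_neg h3] at h1
    have h4 := congrArg (fun u : ℂˣ => (u : ℂ)) h1
    simp only [Units.val_neg, Units.val_one] at h4
    norm_num at h4
  have h3 : orderOf c ∣ (Fintype.card F + 1) / 2 := by
    apply orderOf_dvd_of_pow_eq_one
    apply Subtype.ext
    simpa using h2
  rw [hc] at h3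
  have h5 := Nat.le_of_dvd (by rw [Nat.odd_iff] at hodd; omega) h3
  omega

end quad

/-! ### Values at nonsplit elements -/

/-- Two distinct irreducible characters of degree `(q-1)/2` exhaust them. -/
lemma half_minus_eq (hodd : Odd (Fintype.card F)) (hq : 5 ≤ Fintype.card F) {χ₁ χ₂ χ : S2 → ℂ}
    (h1 : IsIrrCharacter S2 χ₁) (h2 : IsIrrCharacter S2 χ₂) (hne : χ₁ ≠ χ₂) (hχ : IsIrrCharacter S2 χ)
    (d1 : χ₁ 1 = (((Fintype.card F - 1) / 2 : ℕ) : ℂ)) (d2 : χ₂ 1 = (((Fintype.card F - 1) / 2 : ℕ) : ℂ))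
    (d : χ 1 = (((Fintype.card F - 1) / 2 : ℕ) : ℂ)) : χ = χ₁ ∨ χ = χ₂ := by
  classical
  have hc := NN_half_minus hodd hq
  rw [NN_eq] at hc
  set A := Finset.univ.filter (fun φ : IrrCharacter S2 => degS φ = (Fintype.card F - 1) / 2) with hA
  have hm1 : (⟨χ₁, h1⟩ : IrrCharacter S2) ∈ A := by
    simp only [hA, Finset.mem_filter, Finset.mem_univ, true_and]
    exact (degS_eq_iff _ _).mpr d1
  have hm2 : (⟨χ₂, h2⟩ : IrrCharacter S2) ∈ A := by
    simp only [hA, Finset.mem_filter, Finset.mem_univ, true_and]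
    exact (degS_eq_iff _ _).mpr d2
  have hm : (⟨χ, hχ⟩ : IrrCharacter S2) ∈ A := by
    simp only [hA, Finset.mem_filter, Finset.mem_univ, true_and]
    exact (degS_eq_iff _ _).mpr d
  have hne' : (⟨χ₁, h1⟩ : IrrCharacter S2) ≠ ⟨χ₂, h2⟩ := fun e => hne (congrArg Subtype.val e)
  have hsub : ({⟨χ₁, h1⟩, ⟨χ₂, h2⟩} : Finset (IrrCharacter S2)) ⊆ A := by
    intro x hx
    simp only [Finset.mem_insert, Finset.mem_singleton] at hx
    rcases hx with rfl | rfl
    · exact hm1
    · exact hm2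
  have heq := Finset.eq_of_subset_of_card_le hsub (by rw [hc, Finset.card_pair hne'])
  rw [← heq] at hm
  simp only [Finset.mem_insert, Finset.mem_singleton] at hm
  rcases hm with h | h
  · exact Or.inl (congrArg Subtype.val h)
  · exact Or.inr (congrArg Subtype.val h)

lemma isCuspHalf_deg' {φ : S2 → ℂ} (hφ : IsIrrCharacter S2 φ) (h : IsCuspHalf φ) :
    φ 1 = (((Fintype.card F - 1) / 2 : ℕ) : ℂ) := by
  have h1 := isCuspHalf_degS ⟨φ, hφ⟩ h
  have h2 : degS (⟨φ, hφ⟩ : IrrCharacter S2) = (Fintype.card F - 1) / 2 := by omega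
  exact (degS_eq_iff _ _).mp h2

/-- The values of the characters of degree `(q-1)/2` at elements with no eigenvalue. -/
theorem half_cusp_value (hodd : Odd (Fintype.card F)) (hq : 5 ≤ Fintype.card F) {χ : S2 → ℂ}
    (hχ : IsIrrCharacter S2 χ) (hdeg : χ 1 = (((Fintype.card F - 1) / 2 : ℕ) : ℂ)) {g : S2} (hns : NS g) :
    (g ^ ((Fintype.card F + 1) / 2) = 1 → χ g = -1) ∧
      (g ^ ((Fintype.card F + 1) / 2) ≠ 1 → χ g = 1) := by
  have hF := ringChar_ne_two hodd
  have hC := exists_torus_of_ns hF hns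
  have hg : g ∈ Subgroup.centralizer ({g} : Set (SL2 F)) := by
    rw [Subgroup.mem_centralizer_singleton_iff]
  have hgZ := NS_not_center hns
  obtain ⟨ψ, hψ⟩ := exists_psi (F := F)
  obtain ⟨ν, hν⟩ := FiniteField.exists_nonsquare hF
  obtain ⟨χ₁, χ₂, h1, h2, hne, k1, k2, hcu⟩ := cusp_half hF hψ hν hC (quadHom hF hC hodd)
    (quadHom_inv hF hC hodd) (quadHom_ne_one hF hC hodd)
  have d1 := isCuspHalf_deg' h1 k1
  have d2 := isCuspHalf_deg' h2 k2
  have htr : tr g * tr g ≠ 4 := NS_tr_sq hF hns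
  -- the two values agree
  have hsame : χ₂ g = χ₁ g := by
    obtain ⟨χG, hG, hc, φ', h4, h5, h6, y, hy⟩ := k1
    have h7 : φ' = χ₁ ∨ φ' = χ₂ := half_minus_eq hodd hq h1 h2 hne h4 d1 d2 (by rw [conj_deg hy, d1])
    have h8 : φ' = χ₂ := h7.resolve_left h5
    rw [← h8]
    exact conj_val hodd (isClassFunction_of_isCharacter (IsIrrCharacter.isCharacter h4)) y hy g htr
  have hv := cusp_torus (ψ := ψ) (ν := ν) hF hC (quadHom hF hC hodd) hg hgZ
  rw [hcu, Pi.add_apply, hsame, quadHom_apply] at hv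
  have hchi : χ g = χ₁ g := by
    rcases half_minus_eq hodd hq h1 h2 hne hχ d1 d2 hdeg with rfl | rfl
    · rfl
    · exact hsame
  rw [hchi]
  constructor
  · intro h
    rw [if_pos h] at hv
    simp at hv
    linear_combination (1 / 2 : ℂ) * hv
  · intro h
    rw [if_neg h] at hv
    simp at hv
    linear_combination (1 / 2 : ℂ) * hv

/-! ### Values at split elements -/

lemma tr_sq_of_diag {g : S2} (h01 : E g 0 1 = 0) (h10 : E g 1 0 = 0) (hsq : E g 0 0 ^ 2 ≠ 1) :
    tr g * tr g ≠ 4 := by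
  have hd := det_entries g
  rw [h01, h10, mul_zero, sub_zero] at hd
  rw [tr_eq]
  intro h
  apply hsq
  have h3 : (E g 0 0 - E g 1 1) ^ 2 = 0 := by linear_combination h - 4 * hd
  have h4 : E g 0 0 = E g 1 1 := by
    have := pow_eq_zero_iff (two_ne_zero) |>.mp h3
    linear_combination this
  rw [pow_two]
  nth_rw 2 [h4]
  exact hd

/-- The quadratic character as a multiplicative character. -/
noncomputable def quadMul (F : Type*) [Field F] [Fintype F] [DecidableEq F] : MulChar F ℂ :=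
  (quadraticChar F).ringHomComp (Int.castRingHom ℂ)

lemma quadMul_apply (a : F) : quadMul F a = ((quadraticChar F a : ℤ) : ℂ) := rfl

lemma quadMul_sq (hF : ringChar F ≠ 2) : quadMul F ^ 2 = 1 := by
  ext a
  rw [MulChar.pow_apply_coe, MulChar.one_apply a.isUnit, quadMul_apply, ← Int.cast_pow,
    quadraticChar_sq_one a.ne_zero]
  simp

lemma quadMul_ne_one (hF : ringChar F ≠ 2) : quadMul F ≠ 1 := by
  obtain ⟨ν, hν⟩ := FiniteField.exists_nonsquare hF
  have hν0 : ν ≠ 0 := by
    rintro rfl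
    exact hν IsSquare.zero
  intro h
  have h1 := congrArg (fun μ : MulChar F ℂ => μ ν) h
  simp only [quadMul_apply, MulChar.one_apply (Ne.isUnit hν0),
    quadraticChar_neg_one_iff_not_isSquare.mpr hν] at h1
  norm_num at h1

/-- The values of the characters of degree `(q+1)/2` at regular diagonal elements. -/
theorem half_prin_value (hodd : Odd (Fintype.card F)) (hq : 5 ≤ Fintype.card F) {χ : S2 → ℂ}
    (hχ : IsIrrCharacter S2 χ) (hdeg : χ 1 = (((Fintype.card F + 1) / 2 : ℕ) : ℂ)) {g : S2}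
    (h01 : E g 0 1 = 0) (h10 : E g 1 0 = 0) (hsq : E g 0 0 ^ 2 ≠ 1) :
    (IsSquare (E g 0 0) → χ g = 1) ∧ (¬ IsSquare (E g 0 0) → χ g = -1) := by
  have hF := ringChar_ne_two hodd
  have hd : degS (⟨χ, hχ⟩ : IrrCharacter S2) = (Fintype.card F + 1) / 2 := (degS_eq_iff _ _).mpr hdeg
  have hP : IsHalfP χ := (half_classification hq ⟨χ, hχ⟩).1 (by
    rw [hd]
    rw [Nat.odd_iff] at hodd
    omega)
  obtain ⟨μ, h1, h2, φ', h4, h5, h6, y, hy⟩ := hP
  have hμ : μ = quadMul F := quad_unique h1 h2 (quadMul_sq hF) (quadMul_ne_one hF)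
  subst hμ
  have htr := tr_sq_of_diag h01 h10 hsq
  have h7 := conj_val hodd (isClassFunction_of_isCharacter (IsIrrCharacter.isCharacter h4)) y hy g htr
  have h8 := (Cfsg.Agent.S2433.result hodd (quadMul F) g).1 h01 h10 hsq
  have h9 : ff (quadMul F) g = χ g + φ' g := by
    rw [h6]
    rfl
  have h10' : ff (quadMul F) g = quadMul F (E g 0 0) + quadMul F (E g 1 1) := h8
  rw [h10', h7] at h9
  have hdet := det_entries g
  rw [h01, h10, mul_zero, sub_zero] at hdet
  have ha0 : E g 0 0 ≠ 0 := left_ne_zero_of_mul_eq_one hdet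
  have hb0 : E g 1 1 ≠ 0 := right_ne_zero_of_mul_eq_one hdet
  have hqq : quadraticChar F (E g 1 1) = quadraticChar F (E g 0 0) := by
    have h11 : quadraticChar F (E g 0 0) * quadraticChar F (E g 1 1) = 1 := by
      rw [← map_mul, hdet, map_one]
    have h12 := quadraticChar_dichotomy ha0
    have h13 := quadraticChar_dichotomy hb0
    rcases h12 with h12 | h12 <;> rcases h13 with h13 | h13 <;> rw [h12, h13] at h11 ⊢ <;> simp at h11
  constructor
  · intro h
    have h11 := (quadraticChar_one_iff_isSquare ha0).mpr h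
    rw [quadMul_apply, quadMul_apply, hqq, h11] at h9
    push_cast at h9
    linear_combination (-1 / 2 : ℂ) * h9
  · intro h
    have h11 := quadraticChar_neg_one_iff_not_isSquare.mpr h
    rw [quadMul_apply, quadMul_apply, hqq, h11] at h9
    push_cast at h9
    linear_combination (-1 / 2 : ℂ) * h9

end Cfsg.Agent.Lib.SL2Cusp
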