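import Mathlib
import Cfsg.Agent.Lib.SL2CuspVal

/-!
# The cuspidal characters of `SL₂(q)` of degree `q - 1`
-/

set_option autoImplicit false
set_option linter.unusedSectionVars false
set_option linter.unusedSimpArgs false
set_option linter.unusedVariables false
set_option linter.style.haveILetI false

namespace Cfsg.Agent.Lib.SL2Cusp

open Finset Cfsg Cfsg.Agent.Lib.SL2Core Cfsg.Agent.Lib.SL2Bor Cfsg.Agent.Lib.SL2Prin
  Cfsg.Agent.Lib.SL2Nonsplit Cfsg.Agent.Lib.CharBasic Cfsg.Agent.Lib.CharInd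
  Cfsg.Agent.Lib.GenChar Cfsg.Agent.Lib.SL2ZU Cfsg.Agent.Lib.SL2SylowTwo
  Cfsg.Agent.Lib.SL2Char Cfsg.Agent.Lib.GL2Irr Cfsg.Agent.Lib.SL2Usum Cfsg.Agent.Lib.SL2Count
  Cfsg.Agent.Lib.SL2Odd
open scoped MatrixGroups ComplexConjugate

variable {F : Type*} [Field F] [Fintype F]

local notation "E" g:max i:max j:max => ((g : SL2 F) : Matrix (Fin 2) (Fin 2) F) i j
local notation "Z" => Subgroup.center (SL2 F)
local notation "m1" => (negS 1 : SL2 F)
local notation "S2" => Matrix.SpecialLinearGroup (Fin 2) F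

/-! ### Elements of order `q + 1` -/

lemma one_add_pow {R : Type*} [Ring R] {N : R} (hN : N * N = 0) (n : ℕ) :
    (1 + N) ^ n = 1 + (n : R) * N := by
  induction n with
  | zero => simp
  | succ n ih =>
    rw [pow_succ, ih]
    push_cast
    simp only [add_mul, mul_add, one_mul, mul_one, mul_assoc, hN, mul_zero, add_zero]
    abel

/-- An element of order `q + 1` has no eigenvalue in `F`. -/
theorem ns_of_order [DecidableEq F] {c : SL2 F} (hord : orderOf c = Fintype.card F + 1) : NS c := by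
  intro l hl
  have hdet : Matrix.det ((c : Matrix (Fin 2) (Fin 2) F) - l • (1 : Matrix (Fin 2) (Fin 2) F)) = 0 := by
    rw [det_sub_smul]
    exact hl
  obtain ⟨v, hv, hv0⟩ := Matrix.exists_mulVec_eq_zero_iff.mpr hdet
  have hl0 : l ≠ 0 := by
    rintro rfl
    simp at hl
  have hcv : (c : Matrix (Fin 2) (Fin 2) F).mulVec v = l • v := by
    rw [Matrix.sub_mulVec, sub_eq_zero] at hv0
    rw [hv0, Matrix.smul_mulVec, Matrix.one_mulVec]
  have hpow : ∀ n : ℕ, ((c ^ n : SL2 F) : Matrix (Fin 2) (Fin 2) F).mulVec v = l ^ n • v := by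
    intro n
    induction n with
    | zero => simp
    | succ n ih =>
      rw [pow_succ, Matrix.SpecialLinearGroup.coe_mul, ← Matrix.mulVec_mulVec, hcv, Matrix.mulVec_smul, ih,
        smul_smul, pow_succ, mul_comm]
  set h : SL2 F := c ^ (Fintype.card F - 1) with hh
  have hhv : (h : Matrix (Fin 2) (Fin 2) F).mulVec v = v := by
    rw [hh, hpow, FiniteField.pow_card_sub_one_eq_one l hl0, one_smul]
  have hdet2 : Matrix.det ((h : Matrix (Fin 2) (Fin 2) F) - (1 : F) • (1 : Matrix (Fin 2) (Fin 2) F)) = 0 := by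
    apply Matrix.exists_mulVec_eq_zero_iff.mp
    refine ⟨v, hv, ?_⟩
    rw [Matrix.sub_mulVec, hhv, one_smul, Matrix.one_mulVec, sub_self]
  rw [det_sub_smul] at hdet2
  have htr : tr h = 2 := by linear_combination -hdet2
  have hcay := cayley h
  rw [htr] at hcay
  set N : Matrix (Fin 2) (Fin 2) F := (h : Matrix (Fin 2) (Fin 2) F) - 1 with hNd
  have hN : N * N = 0 := by
    rw [hNd, Matrix.sub_mul, Matrix.mul_sub, Matrix.mul_sub, hcay]
    simp only [Matrix.one_mul, Matrix.mul_one, two_smul]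
    abel
  have hh1 : (h : Matrix (Fin 2) (Fin 2) F) = 1 + N := by
    rw [hNd]
    abel
  obtain ⟨p, hp⟩ := CharP.exists F
  obtain ⟨n, hpp, hq⟩ := FiniteField.card F p
  have hhp : h ^ p = 1 := by
    apply Subtype.ext
    rw [Matrix.SpecialLinearGroup.coe_pow, hh1, one_add_pow hN]
    have : ((p : ℕ) : Matrix (Fin 2) (Fin 2) F) = 0 := CharP.cast_eq_zero _ p
    rw [this]
    simp
  have hc1 : c ^ ((Fintype.card F - 1) * p) = 1 := by
    rw [pow_mul]
    exact hhp
  have hdvd := orderOf_dvd_of_pow_eq_one hc1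
  rw [hord] at hdvd
  have hcop : Nat.Coprime (Fintype.card F + 1) p := by
    rw [Nat.coprime_comm, Nat.Prime.coprime_iff_not_dvd hpp]
    intro h1
    have h2 : p ∣ Fintype.card F := by
      rw [hq]
      exact dvd_pow_self p n.ne_zero
    have h3 : p ∣ 1 := (Nat.dvd_add_right h2).mp h1
    exact hpp.one_lt.ne' (Nat.dvd_one.mp h3)
  have h5 := hcop.dvd_of_dvd_mul_right hdvd
  have h6 : 1 < Fintype.card F := Fintype.one_lt_card
  have h7 := Nat.le_of_dvd (by omega) h5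
  omega

/-- A cyclic subgroup of order `q + 1` is a nonsplit torus. -/
theorem isNSTorus_of_cyclic [DecidableEq F] (hF : ringChar F ≠ 2) {C : Subgroup (SL2 F)} (hC : IsCyclic C)
    (hcard : Nat.card C = Fintype.card F + 1) : IsNSTorus C := by
  obtain ⟨c, hc⟩ := IsCyclic.exists_ofOrder_eq_natCard (α := C)
  have hord : orderOf (c : SL2 F) = Fintype.card F + 1 := by
    rw [Subgroup.orderOf_coe, hc, hcard]
  have hT := isNSTorus_of_ns hF (ns_of_order hord) hord
  have hle : Subgroup.zpowers (c : SL2 F) ≤ C := by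
    rw [Subgroup.zpowers_le]
    exact c.2
  have heq : Subgroup.zpowers (c : SL2 F) = C := by
    apply Subgroup.eq_of_le_of_card_ge hle
    rw [Nat.card_zpowers, hord, hcard]
  rwa [heq] at hT

variable [DecidableEq F]

section forward

variable {C : Subgroup (SL2 F)} (hF : ringChar F ≠ 2) {ψ : AddChar F ℂ} (hψ : ψ ≠ 1) {ν : F}
  (hν : ¬ IsSquare ν) (hC : IsNSTorus C) (θ : C →* ℂˣ)

include hF hψ hν in
/-- The values of `cusp θ`. -/
theorem cusp_values (hθ : θ ≠ θ⁻¹) :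
    IsIrrCharacter S2 (cusp ψ ν hC θ) ∧ cusp ψ ν hC θ 1 = (Fintype.card F : ℂ) - 1 ∧
    (∀ c : C, (c : S2) ∉ Subgroup.center S2 → cusp ψ ν hC θ c = -((θ c).val + (θ c)⁻¹.val)) ∧
    (∀ c : C, (c : S2) ∈ Subgroup.center S2 → ∀ g : S2, cusp ψ ν hC θ ((c : S2) * g) = (θ c).val * cusp ψ ν hC θ g) ∧
    (∀ g : S2, E g 0 1 = 0 → E g 1 0 = 0 → E g 0 0 ^ 2 ≠ 1 → cusp ψ ν hC θ g = 0) ∧
    (∀ g : S2, E g 1 0 = 0 → E g 0 0 = 1 → E g 1 1 = 1 → E g 0 1 ≠ 0 → cusp ψ ν hC θ g = -1) := by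
  refine ⟨cusp_isIrr hF hψ hν hC θ hθ, cusp_one hF hC θ, ?_, ?_, ?_, ?_⟩
  · intro c hc
    exact cusp_torus hF hC θ c.2 hc
  · intro c hc g
    exact cusp_central_mul hF hC θ hc g
  · intro g h01 h10 hsq
    apply cusp_split hC θ (tr_sq_of_diag h01 h10 hsq)
    intro hns
    have hd := det_entries g
    rw [h01, h10, mul_zero, sub_zero] at hd
    apply hns (E g 0 0)
    rw [tr_eq]
    linear_combination -hd
  · intro g h10 h00 h11 h01
    rw [cusp_noncentral hF hψ hν hC θ h10 (by rw [h00, h11]) h01, h00, sgn_one]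

end forward

/-! ### Counting -/

section count

variable {C : Subgroup (SL2 F)} (hF : ringChar F ≠ 2) (hC : IsNSTorus C)

lemma hom_inv_inv (θ : C →* ℂˣ) : θ⁻¹⁻¹ = θ := by
  ext x
  simp

include hC in
lemma card_hom : Nat.card (C →* ℂˣ) = Fintype.card F + 1 := by
  have hcyc := hC.cyc
  letI : CommGroup C := IsCyclic.commGroup
  have hfin : Finite C := inferInstance
  have hne : NeZero (Monoid.exponent C : ℂ) := by
    constructor
    have : Monoid.exponent C ≠ 0 := Monoid.exponent_ne_zero_of_finite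
    exact_mod_cast this
  have := CommGroup.card_monoidHom_of_hasEnoughRootsOfUnity C ℂ
  rw [← hC.card_eq]
  exact this

include hC in
lemma finite_hom : Finite (C →* ℂˣ) := by
  apply Nat.finite_of_card_ne_zero
  rw [card_hom hC]
  omega

lemma hom_ext_gen {c₀ : C} (hgen : ∀ c : C, c ∈ Subgroup.zpowers c₀) {θ θ' : C →* ℂˣ}
    (h : θ c₀ = θ' c₀) : θ = θ' := by
  ext c
  obtain ⟨k, rfl⟩ := Subgroup.mem_zpowers_iff.mp (hgen c)
  rw [map_zpow, map_zpow, h]

include hF hC in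
/-- The homomorphisms of order at most two. -/
lemma eq_one_or_quad (hodd : Odd (Fintype.card F)) {θ : C →* ℂˣ} (hθ : θ = θ⁻¹) :
    θ = 1 ∨ θ = quadHom hF hC hodd := by
  have hcyc := hC.cyc
  obtain ⟨c₀, hgen⟩ := IsCyclic.exists_generator (α := C)
  have hord : orderOf c₀ = Fintype.card F + 1 := by
    rw [orderOf_eq_card_of_forall_mem_zpowers hgen, hC.card_eq]
  have h1 : θ c₀ * θ c₀ = 1 := by
    have := DFunLike.congr_fun hθ c₀
    rw [MonoidHom.inv_apply] at this
    nth_rw 1 [this]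
    exact inv_mul_cancel _
  have h2 : (θ c₀ : ℂ) * (θ c₀ : ℂ) = 1 := by
    rw [← Units.val_mul, h1, Units.val_one]
  have hq0 : quadHom hF hC hodd c₀ = -1 := by
    rw [quadHom_apply, if_neg]
    intro h3
    have h4 : orderOf c₀ ∣ (Fintype.card F + 1) / 2 := by
      apply orderOf_dvd_of_pow_eq_one
      apply Subtype.ext
      simpa using h3
    rw [hord] at h4
    have h5 := Nat.le_of_dvd (by rw [Nat.odd_iff] at hodd; omega) h4
    omega
  rcases mul_self_eq_one_iff.mp h2 with h3 | h3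
  · left
    apply hom_ext_gen hgen
    rw [MonoidHom.one_apply]
    exact Units.ext h3
  · right
    apply hom_ext_gen hgen
    rw [hq0]
    exact Units.ext (by simpa using h3)

include hF hC in
lemma card_reg (hodd : Odd (Fintype.card F)) [Fintype (C →* ℂˣ)] [DecidableEq (C →* ℂˣ)] :
    (Finset.univ.filter (fun θ : C →* ℂˣ => θ ≠ θ⁻¹)).card = Fintype.card F - 1 := by
  have h3 : Finset.univ.filter (fun θ : C →* ℂˣ => θ = θ⁻¹) = {1, quadHom hF hC hodd} := by
    ext θ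
    simp only [Finset.mem_filter, Finset.mem_univ, true_and, Finset.mem_insert, Finset.mem_singleton]
    constructor
    · exact eq_one_or_quad hF hC hodd
    · rintro (rfl | rfl)
      · ext x
        simp
      · exact quadHom_inv hF hC hodd
  have h4 := Finset.card_filter_add_card_filter_not (s := (Finset.univ : Finset (C →* ℂˣ)))
    (fun θ : C →* ℂˣ => θ = θ⁻¹)
  rw [h3, Finset.card_pair (quadHom_ne_one hF hC hodd).symm, Finset.card_univ, ← Nat.card_eq_fintype_card,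
    card_hom hC] at h4
  have h5 : Finset.univ.filter (fun θ : C →* ℂˣ => θ ≠ θ⁻¹) =
      Finset.univ.filter (fun θ : C →* ℂˣ => ¬ θ = θ⁻¹) := rfl
  rw [h5]
  omega

variable {ψ : AddChar F ℂ} (hψ : ψ ≠ 1) {ν : F} (hν : ¬ IsSquare ν)

include hF hψ hν in
lemma cusp_eq_iff [DecidableEq (C →* ℂˣ)] {θ θ' : C →* ℂˣ} (hθ : θ ≠ θ⁻¹) :
    cusp ψ ν hC θ' = cusp ψ ν hC θ ↔ θ' = θ ∨ θ' = θ⁻¹ := by
  constructor
  · intro h
    have h1 := classInner_cusp hF hψ hν hC θ' θ
    rw [h, classInner_cusp hF hψ hν hC θ θ, if_pos rfl, if_neg hθ] at h1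
    by_contra hcon
    push Not at hcon
    rw [if_neg hcon.1, if_neg hcon.2] at h1
    norm_num at h1
  · rintro (rfl | rfl)
    · rfl
    · by_contra hne
      have hθ' : θ⁻¹ ≠ (θ⁻¹)⁻¹ := by
        rw [hom_inv_inv]
        exact fun e => hθ e.symm
      have h1 := classInner_irr_ne (cusp_isIrr hF hψ hν hC θ⁻¹ hθ') (cusp_isIrr hF hψ hν hC θ hθ) hne
      rw [classInner_cusp hF hψ hν hC θ⁻¹ θ, if_neg (fun e => hθ e.symm), if_pos rfl] at h1
      norm_num at h1

include hF hψ hν in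
/-- All irreducible characters of degree `q - 1` are of the form `cusp θ` when `q ≥ 5`. -/
theorem exists_theta_of_deg (hodd : Odd (Fintype.card F)) (hq : 5 ≤ Fintype.card F) {χ : S2 → ℂ}
    (hχ : IsIrrCharacter S2 χ) (hdeg : χ 1 = (Fintype.card F : ℂ) - 1) :
    ∃ θ : C →* ℂˣ, θ ≠ θ⁻¹ ∧ χ = cusp ψ ν hC θ := by
  classical
  haveI := finite_hom hC
  haveI : Fintype (C →* ℂˣ) := Fintype.ofFinite _
  set A := Finset.univ.filter (fun θ : C →* ℂˣ => θ ≠ θ⁻¹) with hA
  have hAc : A.card = Fintype.card F - 1 := card_reg hF hC hodd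
  set C' : Finset (S2 → ℂ) := A.image (cusp ψ ν hC) with hC'
  have hmemA : ∀ θ ∈ A, θ ≠ θ⁻¹ := fun θ hθ => (Finset.mem_filter.mp hθ).2
  have h2 : A.card = C'.card * 2 := by
    rw [Finset.card_eq_sum_card_image (cusp ψ ν hC) A, ← hC', ← smul_eq_mul, ← Finset.sum_const]
    refine Finset.sum_congr rfl fun f hf => ?_
    obtain ⟨θ, hθ, rfl⟩ := Finset.mem_image.mp hf
    have hθ' := hmemA θ hθ
    have hfib : A.filter (fun θ' => cusp ψ ν hC θ' = cusp ψ ν hC θ) = {θ, θ⁻¹} := by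
      ext θ'
      simp only [Finset.mem_filter, Finset.mem_insert, Finset.mem_singleton,
        cusp_eq_iff hF hC hψ hν hθ']
      constructor
      · exact fun h => h.2
      · rintro (rfl | rfl)
        · exact ⟨hθ, Or.inl rfl⟩
        · refine ⟨?_, Or.inr rfl⟩
          simp only [hA, Finset.mem_filter, Finset.mem_univ, true_and]
          rw [hom_inv_inv]
          exact fun e => hθ' e.symm
    rw [hfib, Finset.card_pair hθ']
  set B := Finset.univ.filter (fun φ : IrrCharacter S2 => degS φ = Fintype.card F - 1) with hB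
  have hBc : B.card = (Fintype.card F - 1) / 2 := by
    rw [← NN_eq]
    exact NN_q_sub_one_odd hodd hq
  set B' : Finset (S2 → ℂ) := B.image Subtype.val with hB'
  have hB'c : B'.card = B.card := Finset.card_image_of_injective _ Subtype.val_injective
  have hsub : C' ⊆ B' := by
    intro f hf
    obtain ⟨θ, hθ, rfl⟩ := Finset.mem_image.mp hf
    have hirr := cusp_isIrr hF hψ hν hC θ (hmemA θ hθ)
    refine Finset.mem_image.mpr ⟨⟨_, hirr⟩, ?_, rfl⟩
    simp only [hB, Finset.mem_filter, Finset.mem_univ, true_and]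
    apply (degS_eq_iff _ _).mpr
    rw [cardF_sub_one_cast]
    exact cusp_one hF hC θ
  have heq : C' = B' := Finset.eq_of_subset_of_card_le hsub (by
    rw [hB'c, hBc]
    omega)
  have hmem : χ ∈ B' := by
    refine Finset.mem_image.mpr ⟨⟨χ, hχ⟩, ?_, rfl⟩
    simp only [hB, Finset.mem_filter, Finset.mem_univ, true_and]
    apply (degS_eq_iff _ _).mpr
    rw [cardF_sub_one_cast]
    exact hdeg
  rw [← heq] at hmem
  obtain ⟨θ, hθ, h⟩ := Finset.mem_image.mp hmem
  exact ⟨θ, hmemA θ hθ, h.symm⟩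

end count

/-! ### The case `q = 3` -/

section three

variable {C : Subgroup (SL2 F)} (hF : ringChar F ≠ 2) (hC : IsNSTorus C)

lemma normSq_of_deg_one {φ : S2 → ℂ} (hφ : IsIrrCharacter S2 φ) (h1 : φ 1 = 1) (g : S2) :
    Complex.normSq (φ g) = 1 := by
  obtain ⟨f, hf⟩ := exists_hom_of_degree_one (IsIrrCharacter.isCharacter hφ) h1
  have h2 : (φ g) ^ (Nat.card S2) = 1 := by
    rw [hf, ← Units.val_pow_eq_pow_val, ← map_pow, pow_card_eq_one', map_one, Units.val_one]
  have h3 := Complex.norm_eq_one_of_pow_eq_one h2 Nat.card_pos.ne'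
  rw [Complex.normSq_eq_norm_sq, h3]
  norm_num

include hF in
/-- The characters of degree `2` of `SL₂(3)` vanish off the centre on a nonsplit torus. -/
theorem vanish_of_three (hodd : Odd (Fintype.card F)) (hq3 : Fintype.card F = 3) {ψ : AddChar F ℂ}
    (hψ : ψ ≠ 1) {ν : F} (hν : ¬ IsSquare ν) (hC : IsNSTorus C) {χ : S2 → ℂ} (hχ : IsIrrCharacter S2 χ)
    (hdeg : χ 1 = 2) {c : S2} (hc : c ∈ C) (hcZ : c ∉ Z) : χ c = 0 := by
  classical
  have hqc : (Fintype.card F : ℂ) = 3 := by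
    rw [hq3]
    norm_num
  set θ := quadHom hF hC hodd with hθ
  have hθ1 : θ ≠ 1 := quadHom_ne_one hF hC hodd
  obtain ⟨χ₁, χ₂, h1, h2, hne, k1, k2, hcu⟩ := cusp_half hF hψ hν hC θ (quadHom_inv hF hC hodd) hθ1
  have d1 : χ₁ 1 = 1 := by
    have := isCuspHalf_deg k1
    rw [hqc] at this
    linear_combination (1 / 2 : ℂ) * this
  have d2 : χ₂ 1 = 1 := by
    have := isCuspHalf_deg k2
    rw [hqc] at this
    linear_combination (1 / 2 : ℂ) * this
  have hns := hC.ns c hc hcZ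
  have hst : stS c = -1 := by
    unfold stS
    have h3 : ff 1 c = 0 := (Cfsg.Agent.S2433.result hodd 1 c).2.1 ((ns_iff c).mp hns)
    rw [Pi.sub_apply, h3]
    simp [one']
  have hst1 : stS (1 : S2) = 3 := by
    rw [stS_one, hqc]
  -- distinct characters
  have hone1 : classInner (χ₁ + χ₂) (one' (F := F)) = 0 := by
    rw [← hcu]
    exact classInner_cusp_one' hF hψ hν hC θ hθ1
  have hne1 : χ₁ ≠ one' := by
    rintro rfl
    rw [classInner_add_left, classInner_irr_self h1, classInner_irr_ne h2 h1 hne.symm] at hone1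
    norm_num at hone1
  have hne2 : χ₂ ≠ one' := by
    rintro rfl
    rw [classInner_add_left, classInner_irr_self h2, classInner_irr_ne h1 h2 hne, ] at hone1
    norm_num at hone1
  let e₁ : IrrCharacter S2 := ⟨one', one'_isIrr⟩
  let e₂ : IrrCharacter S2 := ⟨stS, stS_isIrr⟩
  let e₃ : IrrCharacter S2 := ⟨χ₁, h1⟩
  let e₄ : IrrCharacter S2 := ⟨χ₂, h2⟩
  let e₅ : IrrCharacter S2 := ⟨χ, hχ⟩
  have hv : ∀ a b : IrrCharacter S2, a.1 1 ≠ b.1 1 → a ≠ b := by
    rintro a b h rfl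
    exact h rfl
  have h12 : e₁ ≠ e₂ := hv _ _ (by
    show one' (1 : S2) ≠ stS 1
    rw [hst1]
    simp [one'])
  have h13 : e₁ ≠ e₃ := fun e => hne1 (congrArg Subtype.val e).symm
  have h14 : e₁ ≠ e₄ := fun e => hne2 (congrArg Subtype.val e).symm
  have h15 : e₁ ≠ e₅ := hv _ _ (by
    show one' (1 : S2) ≠ χ 1
    rw [hdeg]
    simp [one'])
  have h23 : e₂ ≠ e₃ := hv _ _ (by
    show stS (1 : S2) ≠ χ₁ 1
    rw [hst1, d1]
    norm_num)
  have h24 : e₂ ≠ e₄ := hv _ _ (by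
    show stS (1 : S2) ≠ χ₂ 1
    rw [hst1, d2]
    norm_num)
  have h25 : e₂ ≠ e₅ := hv _ _ (by
    show stS (1 : S2) ≠ χ 1
    rw [hst1, hdeg]
    norm_num)
  have h34 : e₃ ≠ e₄ := fun e => hne (congrArg Subtype.val e)
  have h35 : e₃ ≠ e₅ := hv _ _ (by
    show χ₁ 1 ≠ χ 1
    rw [d1, hdeg]
    norm_num)
  have h45 : e₄ ≠ e₅ := hv _ _ (by
    show χ₂ 1 ≠ χ 1
    rw [d2, hdeg]
    norm_num)
  let f : IrrCharacter S2 → ℝ := fun φ => Complex.normSq (φ.1 c)
  have hsum : ∑ φ : IrrCharacter S2, f φ = 4 := by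
    have h3 := sum_irr_mul_conj c c
    rw [if_pos (IsConj.refl c), hC.cent c hc hcZ, hC.card_eq, hq3] at h3
    have h4 : ((∑ φ : IrrCharacter S2, f φ : ℝ) : ℂ) = ((4 : ℝ) : ℂ) := by
      push_cast
      rw [show (4 : ℂ) = ((3 + 1 : ℕ) : ℂ) by norm_num, ← h3]
      refine Finset.sum_congr rfl fun φ _ => ?_
      exact (Complex.mul_conj _).symm
    exact_mod_cast h4
  have hle : ∑ φ ∈ ({e₁, e₂, e₃, e₄, e₅} : Finset (IrrCharacter S2)), f φ ≤ ∑ φ : IrrCharacter S2, f φ :=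
    Finset.sum_le_univ_sum_of_nonneg (fun φ => Complex.normSq_nonneg _)
  rw [hsum, Finset.sum_insert (by simp [h12, h13, h14, h15]), Finset.sum_insert (by simp [h23, h24, h25]),
    Finset.sum_insert (by simp [h34, h35]), Finset.sum_insert (by simp [h45]), Finset.sum_singleton] at hle
  have v1 : f e₁ = 1 := by
    show Complex.normSq (one' c) = 1
    simp [one']
  have v2 : f e₂ = 1 := by
    show Complex.normSq (stS c) = 1
    rw [hst]
    simp
  have v3 : f e₃ = 1 := normSq_of_deg_one h1 d1 c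
  have v4 : f e₄ = 1 := normSq_of_deg_one h2 d2 c
  rw [v1, v2, v3, v4] at hle
  have v5 : Complex.normSq (χ c) ≤ 0 := by
    have : f e₅ ≤ 0 := by linarith
    exact this
  exact Complex.normSq_eq_zero.mp (le_antisymm v5 (Complex.normSq_nonneg _))

include hF hC in
lemma sum_theta_zero_of_three (hq3 : Fintype.card F = 3) {θ : C →* ℂˣ} (hθ : θ ≠ θ⁻¹) (c : C)
    (hc : (c : S2) ∉ Z) : (θ c).val + (θ c)⁻¹.val = 0 := by
  have hZ1 : ∀ c : C, (c : S2) ∈ Z → c * c = 1 := by
    intro c hc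
    apply Subtype.ext
    rcases center_eq _ hc with h | h <;> show (c : S2) * c = 1 <;> rw [h]
    · simp
    · exact m_mul_m
  have hZ2 : ∀ c : C, (c : S2) ∉ Z → c * c = mC hC := by
    intro c hc
    have h4 : c ^ 4 = 1 := by
      have := pow_card_eq_one' (G := C) (x := c)
      rwa [hC.card_eq, hq3] at this
    have h5 : ((c : S2) * c) * ((c : S2) * c) = 1 := by
      have := congrArg Subtype.val h4
      simp only [Subgroup.coe_pow, Subgroup.coe_one] at this
      rw [← this]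
      simp only [pow_succ, pow_zero, one_mul, mul_assoc]
    apply Subtype.ext
    rcases center_eq _ (sq_eq_one_iff hF h5) with h | h
    · exact absurd (sq_eq_one_iff hF h) hc
    · exact h
  obtain ⟨c₁, hc₁⟩ := DFunLike.ne_iff.mp hθ
  rw [MonoidHom.inv_apply] at hc₁
  have hc₁Z : (c₁ : S2) ∉ Z := by
    intro h
    apply hc₁
    have h1 : θ c₁ * θ c₁ = 1 := by
      rw [← map_mul, hZ1 c₁ h, map_one]
    exact (inv_eq_of_mul_eq_one_left h1).symm
  have h1 : θ (mC hC) ≠ 1 := by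
    rw [← hZ2 c₁ hc₁Z, map_mul]
    intro h
    exact hc₁ (eq_inv_of_mul_eq_one_left h)
  have h2 : θ (mC hC) * θ (mC hC) = 1 := by
    rw [← map_mul, mC_mul, map_one]
  have h3 : (θ (mC hC) : ℂ) = -1 := by
    have h4 : (θ (mC hC) : ℂ) * (θ (mC hC) : ℂ) = 1 := by
      rw [← Units.val_mul, h2, Units.val_one]
    rcases mul_self_eq_one_iff.mp h4 with h5 | h5
    · exact absurd (Units.ext h5) h1
    · exact h5
  have h4 : (θ c : ℂ) * (θ c : ℂ) = -1 := by
    rw [← Units.val_mul, ← map_mul, hZ2 c hc, h3]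
  have h5 : (θ c : ℂ) ≠ 0 := (θ c).ne_zero
  rw [Units.val_inv_eq_inv_val]
  field_simp
  linear_combination h4

end three

/-- The theorem on cuspidal characters of degree `q - 1`. -/
theorem main_cusp (hodd : Odd (Fintype.card F)) (C : Subgroup S2) (hC : IsCyclic C)
    (hcard : Nat.card C = Fintype.card F + 1) :
    (∀ θ : C →* ℂˣ, (∃ c : C, θ c ^ 2 ≠ 1) →
      ∃ χ : S2 → ℂ, IsIrrCharacter S2 χ ∧ χ 1 = (Fintype.card F : ℂ) - 1 ∧
        (∀ c : C, (c : S2) ∉ Subgroup.center S2 → χ c = -((θ c).val + (θ c)⁻¹.val)) ∧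
        (∀ c : C, (c : S2) ∈ Subgroup.center S2 → ∀ g : S2, χ ((c : S2) * g) = (θ c).val * χ g) ∧
        (∀ g : S2, E g 0 1 = 0 → E g 1 0 = 0 → E g 0 0 ^ 2 ≠ 1 → χ g = 0) ∧
        (∀ g : S2, E g 1 0 = 0 → E g 0 0 = 1 → E g 1 1 = 1 → E g 0 1 ≠ 0 → χ g = -1)) ∧
    (∀ χ : S2 → ℂ, IsIrrCharacter S2 χ → χ 1 = (Fintype.card F : ℂ) - 1 →
      ∃ θ : C →* ℂˣ, (∃ c : C, θ c ^ 2 ≠ 1) ∧
        ∀ c : C, (c : S2) ∉ Subgroup.center S2 → χ c = -((θ c).val + (θ c)⁻¹.val)) := by
  classical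
  have hF := ringChar_ne_two hodd
  have hT := isNSTorus_of_cyclic hF hC hcard
  obtain ⟨ψ, hψ⟩ := exists_psi (F := F)
  obtain ⟨ν, hν⟩ := FiniteField.exists_nonsquare hF
  have hreg : ∀ θ : C →* ℂˣ, θ ≠ θ⁻¹ → ∃ c : C, θ c ^ 2 ≠ 1 := by
    intro θ hθ
    obtain ⟨c, hc⟩ := DFunLike.ne_iff.mp hθ
    refine ⟨c, fun h => hc ?_⟩
    rw [MonoidHom.inv_apply]
    exact eq_inv_of_mul_eq_one_left (by rw [← pow_two, h])
  constructor
  · rintro θ ⟨c₀, hc₀⟩
    have hθ : θ ≠ θ⁻¹ := by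
      intro e
      apply hc₀
      have := DFunLike.congr_fun e c₀
      rw [MonoidHom.inv_apply] at this
      rw [pow_two]
      nth_rw 1 [this]
      exact inv_mul_cancel _
    exact ⟨_, cusp_values hF hψ hν hT θ hθ⟩
  · intro χ hχ hdeg
    by_cases hq : 5 ≤ Fintype.card F
    · obtain ⟨θ, hθ, rfl⟩ := exists_theta_of_deg hF hT hψ hν hodd hq hχ hdeg
      exact ⟨θ, hreg θ hθ, (cusp_values hF hψ hν hT θ hθ).2.2.1⟩
    · have hq3 : Fintype.card F = 3 := by
        have h2 : 1 < Fintype.card F := Fintype.one_lt_card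
        rw [Nat.odd_iff] at hodd
        omega
      haveI := finite_hom hT
      haveI : Fintype (C →* ℂˣ) := Fintype.ofFinite _
      have hcardA := card_reg hF hT hodd
      have hA : (Finset.univ.filter (fun θ : C →* ℂˣ => θ ≠ θ⁻¹)).Nonempty := by
        rw [← Finset.card_pos, hcardA, hq3]
        norm_num
      obtain ⟨θ, hθ⟩ := hA
      have hθ' : θ ≠ θ⁻¹ := (Finset.mem_filter.mp hθ).2
      refine ⟨θ, hreg θ hθ', fun c hc => ?_⟩
      rw [sum_theta_zero_of_three hF hT hq3 hθ' c hc, neg_zero]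
      apply vanish_of_three hF hodd hq3 hψ hν hT hχ _ c.2 hc
      rw [hdeg, hq3]
      norm_num

end Cfsg.Agent.Lib.SL2Cusp
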