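import Mathlib
import Cfsg.Agent.Lib.SL2Val

/-!
# Values at the transvections of the half characters of `SL₂(q)`: Gauss sums.
-/

set_option autoImplicit false
set_option linter.unusedSectionVars false
set_option linter.unusedSimpArgs false
set_option linter.style.haveILetI false

namespace Cfsg.Agent.Lib.SL2Gauss

open Cfsg Cfsg.Agent.Lib.CharBasic Cfsg.Agent.Lib.CharInd Cfsg.Agent.Lib.GL2Char
  Cfsg.Agent.Lib.GL2Irr Cfsg.Agent.Lib.CharDecomp Cfsg.Agent.Lib.Clifford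
  Cfsg.Agent.Lib.SL2Char Cfsg.Agent.Lib.SL2Count Cfsg.Agent.Lib.SL2Odd Cfsg.Agent.Lib.SL2Val Matrix
open scoped ComplexConjugate

variable {F : Type*} [Field F] [DecidableEq F] [Fintype F]

local notation "G2" => Matrix.GeneralLinearGroup (Fin 2) F
local notation "S2" => Matrix.SpecialLinearGroup (Fin 2) F
local notation "ι" => Matrix.SpecialLinearGroup.toGL (n := Fin 2) (R := F)
local notation "uS" => Cfsg.Agent.S2301.uu (F := F)

/-- The quadratic character with complex values. -/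
noncomputable def eta (F : Type*) [Field F] [DecidableEq F] [Fintype F] : MulChar F ℂ :=
  (quadraticChar F).ringHomComp (Int.castRingHom ℂ)

theorem eta_apply (a : F) : eta F a = ((quadraticChar F a : ℤ) : ℂ) := rfl

theorem eta_conj (a : F) : conj (eta F a) = eta F a := by
  rw [eta_apply, map_intCast]

theorem eta_nonsq {s : F} (h : ¬ IsSquare s) : eta F s = -1 := by
  rw [eta_apply, quadraticChar_neg_one_iff_not_isSquare.mpr h]
  simp

theorem eta_sq_el {s : F} (hs : s ≠ 0) (h : IsSquare s) : eta F s = 1 := by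
  rw [eta_apply, (quadraticChar_one_iff_isSquare hs).mpr h]
  simp

theorem eta_ne_one (hodd : Odd (Fintype.card F)) : eta F ≠ 1 := by
  intro h
  obtain ⟨n, hn⟩ := exists_nonsq hodd
  have h1 := eta_nonsq (F := F) hn
  rw [h, MulChar.one_apply n.isUnit] at h1
  norm_num at h1

theorem eta_isQuadratic : (eta F).IsQuadratic :=
  (quadraticChar_isQuadratic F).comp _

theorem eta_neg_one_sq : (eta F (-1)) ^ 2 = 1 := by
  rw [← map_pow]
  simp

theorem eta_neg_one (hodd : Odd (Fintype.card F)) :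
    eta F (-1) = (-1 : ℂ) ^ ((Fintype.card F - 1) / 2) := by
  have h2 := two_ne hodd
  have hF : ringChar F ≠ 2 := by
    intro h
    have := FiniteField.even_card_iff_char_two.mp h
    rcases hodd with ⟨k, hk⟩
    omega
  have h3 : Fintype.card F / 2 = (Fintype.card F - 1) / 2 := by
    rcases hodd with ⟨k, hk⟩
    omega
  rw [eta_apply, quadraticChar_eq_pow_of_char_ne_two hF (by simp), h3]
  rcases Nat.even_or_odd ((Fintype.card F - 1) / 2) with h | h
  · rw [h.neg_one_pow, h.neg_one_pow, if_pos rfl]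
    simp
  · rw [h.neg_one_pow, h.neg_one_pow, if_neg]
    · simp
    · intro h5
      have : (2 : F) = 0 := by linear_combination -h5
      exact h2 this

/-! ### The character on the unipotent subgroup -/

theorem uS_add (a b : F) : uS (a + b) = uS a * uS b := by
  apply Subtype.ext
  show !![1, a + b; 0, 1] = (!![1, a; 0, 1] * !![1, b; 0, 1] : Matrix (Fin 2) (Fin 2) F)
  rw [Matrix.mul_fin_two]
  simp
  ring_nf

theorem uS_zero : uS (0 : F) = 1 := by
  apply Subtype.ext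
  show !![1, 0; 0, 1] = (1 : Matrix (Fin 2) (Fin 2) F)
  rw [Matrix.one_fin_two]

/-- The unipotent subgroup as a homomorphic image. -/
def uHom : Multiplicative F →* S2 where
  toFun x := uS (Multiplicative.toAdd x)
  map_one' := by simpa using uS_zero
  map_mul' a b := by simpa using uS_add _ _

theorem mult_exists {φ : S2 → ℂ} (hφ : IsCharacter S2 φ) (ψ : AddChar F ℂ) :
    ∃ M : ℕ, ∑ s : F, φ (uS s) * conj (ψ s) = (Fintype.card F : ℂ) * M := by
  have h1 : IsCharacter (Multiplicative F) (φ ∘ uHom) := isCharacter_comp uHom hφ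
  have h2 := isIrrCharacter_of_hom (ψ.toMonoidHom.toHomUnits)
  obtain ⟨M, hM⟩ := classInner_char_irr h1 h2
  refine ⟨M, ?_⟩
  unfold classInner at hM
  have h3 : ∑ x : Multiplicative F, (φ ∘ uHom) x * conj ((ψ.toMonoidHom.toHomUnits x : ℂˣ) : ℂ) =
      ∑ s : F, φ (uS s) * conj (ψ s) := by
    refine Fintype.sum_equiv Multiplicative.toAdd _ _ fun x => ?_
    rfl
  rw [h3] at hM
  have h4 : (Nat.card (Multiplicative F) : ℂ) = (Fintype.card F : ℂ) := by
    rw [Nat.card_eq_fintype_card, Fintype.card_congr (Multiplicative.toAdd (α := F))]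
  rw [h4] at hM
  rw [← hM]
  have := card_ne (F := F)
  field_simp

/-- Values on unipotent elements, in terms of the quadratic character. -/
theorem val_uS_eq {φ : S2 → ℂ} (hφ : IsClassFunction S2 φ) (hodd : Odd (Fintype.card F)) (n : Fˣ)
    (hn : ¬ IsSquare (n : F)) {s : F} (hs : s ≠ 0) :
    φ (uS s) = (φ (uS 1) + φ (uS n)) / 2 + eta F s * ((φ (uS 1) - φ (uS n)) / 2) := by
  have hconj : ∀ {a b : S2}, IsConj a b → φ a = φ b := by
    intro a b h
    obtain ⟨x, hx⟩ := isConj_iff.mp h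
    rw [← hx, hφ]
  by_cases hq : IsSquare s
  · rw [eta_sq_el hs hq, hconj (uS_conj_of_square hs one_ne_zero (by simpa using hq))]
    ring
  · have hF : ringChar F ≠ 2 := by
      intro h
      have := FiniteField.even_card_iff_char_two.mp h
      rcases hodd with ⟨k, hk⟩
      omega
    have h2 : quadraticChar F (s * n) = 1 := by
      rw [map_mul, quadraticChar_neg_one_iff_not_isSquare.mpr hq,
        quadraticChar_neg_one_iff_not_isSquare.mpr hn]
      norm_num
    have h3 := (quadraticChar_one_iff_isSquare (mul_ne_zero hs n.ne_zero)).mp h2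
    rw [eta_nonsq hq, hconj (uS_conj_of_square hs n.ne_zero h3)]
    ring

theorem sum_conj_add_char {ψ : AddChar F ℂ} (hψ : ψ ≠ 1) : ∑ s : F, conj (ψ s) = 0 := by
  rw [← map_sum, AddChar.sum_eq_zero_of_ne_one hψ, map_zero]

theorem conj_gauss (ψ : AddChar F ℂ) :
    conj (gaussSum (eta F) ψ) = ∑ s : F, eta F s * conj (ψ s) := by
  unfold gaussSum
  rw [map_sum]
  refine Finset.sum_congr rfl fun s _ => ?_
  rw [map_mul, eta_conj]

/-- The formula for the multiplicity. -/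
theorem sum_formula {φ : S2 → ℂ} (hφ : IsClassFunction S2 φ) (hodd : Odd (Fintype.card F)) (n : Fˣ)
    (hn : ¬ IsSquare (n : F)) {ψ : AddChar F ℂ} (hψ : ψ ≠ 1) :
    ∑ s : F, φ (uS s) * conj (ψ s) = φ 1 - (φ (uS 1) + φ (uS n)) / 2 +
      (φ (uS 1) - φ (uS n)) / 2 * conj (gaussSum (eta F) ψ) := by
  have h1 : ∀ s : F, φ (uS s) * conj (ψ s) =
      (φ (uS 1) + φ (uS n)) / 2 * conj (ψ s) + (φ (uS 1) - φ (uS n)) / 2 * (eta F s * conj (ψ s)) +
      (if s = 0 then (φ 1 - (φ (uS 1) + φ (uS n)) / 2) else 0) := by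
    intro s
    by_cases hs : s = 0
    · subst hs
      have h0 : eta F 0 = 0 := MulChar.map_nonunit _ not_isUnit_zero
      rw [uS_zero, if_pos rfl, h0, AddChar.map_zero_eq_one, map_one]
      ring
    · rw [if_neg hs, val_uS_eq hφ hodd n hn hs]
      ring
  simp only [h1, Finset.sum_add_distrib, ← Finset.mul_sum, sum_conj_add_char hψ, ← conj_gauss]
  simp only [Finset.sum_ite_eq', Finset.mem_univ, if_true]
  ring

/-- The square of the difference of the two values at unipotent elements. -/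
theorem gauss_rel {φ : S2 → ℂ} (hφ : IsCharacter S2 φ) (hodd : Odd (Fintype.card F)) (n : Fˣ)
    (hn : ¬ IsSquare (n : F))
    (h : 2 * φ 1 - (φ (uS 1) + φ (uS n)) = (Fintype.card F : ℂ)) :
    (φ (uS 1) - φ (uS n)) ^ 2 = eta F (-1) * (Fintype.card F : ℂ) := by
  have hcl := isClassFunction_of_isCharacter hφ
  have hq := card_ne (F := F)
  obtain ⟨ψ, hψ⟩ : ∃ ψ : AddChar F ℂ, ψ ≠ 1 := by
    obtain ⟨ψ, hψ⟩ := (AddChar.exists_apply_ne_zero (α := F) (a := 1)).mpr one_ne_zero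
    refine ⟨ψ, fun e => hψ ?_⟩
    rw [e]
    rfl
  have hprim : ψ.IsPrimitive := AddChar.IsPrimitive.of_ne_one hψ
  have hψn : AddChar.mulShift ψ n ≠ 1 := hprim n.ne_zero
  obtain ⟨M, hM⟩ := mult_exists hφ ψ
  obtain ⟨M', hM'⟩ := mult_exists hφ (AddChar.mulShift ψ n)
  rw [sum_formula hcl hodd n hn hψ] at hM
  rw [sum_formula hcl hodd n hn hψn] at hM'
  have hG : gaussSum (eta F) (AddChar.mulShift ψ n) = - gaussSum (eta F) ψ := by
    have h1 := gaussSum_mulShift (eta F) ψ n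
    rw [eta_nonsq hn] at h1
    linear_combination -h1
  rw [hG, map_neg] at hM'
  have hsum : (Fintype.card F : ℂ) * ((M : ℂ) + M') = (Fintype.card F : ℂ) := by
    rw [mul_add, ← hM, ← hM', ← h]
    ring
  have hsum' : (M : ℂ) + M' = 1 := mul_left_cancel₀ hq (by rw [hsum, mul_one])
  have hnat : M + M' = 1 := by exact_mod_cast hsum'
  have hdiff : (φ (uS 1) - φ (uS n)) * conj (gaussSum (eta F) ψ) =
      (Fintype.card F : ℂ) * ((M : ℂ) - M') := by
    rw [mul_sub, ← hM, ← hM']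
    ring
  have hone : ((M : ℂ) - M') ^ 2 = 1 := by
    have : M = 0 ∨ M' = 0 := by omega
    rcases this with h0 | h0
    · have h1 : M' = 1 := by omega
      rw [h0, h1]
      simp
    · have h1 : M = 1 := by omega
      rw [h0, h1]
      simp
  have hG2 : (conj (gaussSum (eta F) ψ)) ^ 2 = eta F (-1) * (Fintype.card F : ℂ) := by
    rw [← map_pow, gaussSum_sq (eta_ne_one hodd) eta_isQuadratic hprim, map_mul, eta_conj]
    simp
  have h4 : (φ (uS 1) - φ (uS n)) ^ 2 * (eta F (-1) * (Fintype.card F : ℂ)) =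
      (Fintype.card F : ℂ) ^ 2 := by
    rw [← hG2, ← mul_pow, hdiff, mul_pow, hone, mul_one]
  have h5 := eta_neg_one_sq (F := F)
  have h6 : (φ (uS 1) - φ (uS n)) ^ 2 * eta F (-1) = (Fintype.card F : ℂ) := by
    apply mul_right_cancel₀ hq
    rw [← sq, ← h4]
    ring
  calc _ = (φ (uS 1) - φ (uS n)) ^ 2 * ((eta F (-1)) ^ 2) := by rw [h5, mul_one]
    _ = eta F (-1) * ((φ (uS 1) - φ (uS n)) ^ 2 * eta F (-1)) := by ring
    _ = _ := by rw [h6]

/-- Conjugate constituents at the two classes of transvections. -/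
theorem pair_v (hodd : Odd (Fintype.card F)) (n : Fˣ) (hn : ¬ IsSquare (n : F))
    {φ φ' : S2 → ℂ} (hφ : IsClassFunction S2 φ) (hφ' : IsClassFunction S2 φ') (hne : φ' ≠ φ) (y : G2)
    (hy : ∀ g h : S2, ι h = y * ι g * y⁻¹ → φ' h = φ g) : φ' (uS 1) = φ (uS n) := by
  obtain ⟨c, hc | hc⟩ := decomp_det hodd n hn (Matrix.GeneralLinearGroup.det y)
  · exfalso
    apply hne
    obtain ⟨s, hs⟩ := exists_ι_of_det (g := y * (scal c)⁻¹) (by simp [det_scal, hc])
    have hy' : y = ι s * scal c := by rw [hs]; group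
    funext h
    have h1 : ι h = y * ι (s⁻¹ * h * s) * y⁻¹ := by
      rw [hy', map_mul, map_mul, map_inv]
      calc _ = ι s * ((ι s)⁻¹ * ι h * ι s) * (ι s)⁻¹ := by group
        _ = ι s * (scal c * ((ι s)⁻¹ * ι h * ι s) * (scal c)⁻¹) * (ι s)⁻¹ := by rw [scal_conj]
        _ = _ := by group
    rw [hy _ _ h1]
    have h2 := hφ h s⁻¹
    rw [inv_inv] at h2
    exact h2
  · obtain ⟨s, hs⟩ := exists_ι_of_det (g := y * (scal c * dm n)⁻¹) (by
      simp only [map_mul, map_inv, det_scal, det_dm, hc]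
      rw [mul_inv_eq_one, mul_comm])
    have hy' : y = ι s * (scal c * dm n) := by rw [hs]; group
    have h0 : cy (dm n) (uS ((n⁻¹ : Fˣ) : F)) = uS 1 := by
      rw [cy_uS]
      simp
    have h1 : ι (s * uS 1 * s⁻¹) = y * ι (uS ((n⁻¹ : Fˣ) : F)) * y⁻¹ := by
      rw [map_mul, map_mul, map_inv, ← h0, ι_cy, hy']
      calc _ = ι s * (scal c * (dm n * ι (uS ((n⁻¹ : Fˣ) : F)) * (dm n)⁻¹) * (scal c)⁻¹) * (ι s)⁻¹ := by
            rw [scal_conj]
        _ = _ := by group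
    have h2 := hy _ _ h1
    rw [hφ'] at h2
    rw [h2]
    obtain ⟨x, hx⟩ := isConj_iff.mp (uS_conj_of_square (s := ((n⁻¹ : Fˣ) : F)) (b := (n : F))
      (Units.ne_zero _) n.ne_zero (by simp))
    rw [← hx, hφ]

theorem half_plus_val (hodd : Odd (Fintype.card F)) (hq : 5 ≤ Fintype.card F) {χ : S2 → ℂ}
    (hχ : IsIrrCharacter S2 χ) (hd : χ 1 = (((Fintype.card F + 1) / 2 : ℕ) : ℂ)) :
    (2 * χ (uS 1) - 1) ^ 2 = (-1 : ℂ) ^ ((Fintype.card F - 1) / 2) * (Fintype.card F : ℂ) := by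
  have hdeg : 2 * degS ⟨χ, hχ⟩ = Fintype.card F + 1 := by
    have h7 := (degS_eq_iff ⟨χ, hχ⟩ _).mpr hd
    obtain ⟨k, hk⟩ := hodd
    omega
  have hH := (half_classification hq ⟨χ, hχ⟩).1 hdeg
  have h2q := isHalfP_deg hH
  obtain ⟨μ, -, -, φ', h1, h2, h3, y, hy⟩ := hH
  have hv : χ (uS 1) + φ' (uS 1) = 1 := by
    have := congrFun h3 (uS 1)
    rw [ff_uS, Pi.add_apply] at this
    exact this.symm
  obtain ⟨n, hn⟩ := exists_nonsq hodd
  have hp := pair_v hodd n hn (isClassFunction_of_isCharacter (IsIrrCharacter.isCharacter hχ))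
    (isClassFunction_of_isCharacter (IsIrrCharacter.isCharacter h1)) h2 y hy
  rw [hp] at hv
  have hg := gauss_rel (IsIrrCharacter.isCharacter hχ) hodd n hn (by rw [h2q, hv]; ring)
  rw [eta_neg_one hodd] at hg
  rw [← hg]
  have : χ (uS n) = 1 - χ (uS 1) := by linear_combination hv
  rw [this]
  ring

theorem half_minus_val (hodd : Odd (Fintype.card F)) (hq : 5 ≤ Fintype.card F) {χ : S2 → ℂ}
    (hχ : IsIrrCharacter S2 χ) (hd : χ 1 = (((Fintype.card F - 1) / 2 : ℕ) : ℂ)) :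
    (2 * χ (uS 1) + 1) ^ 2 = (-1 : ℂ) ^ ((Fintype.card F - 1) / 2) * (Fintype.card F : ℂ) := by
  have hdeg : 2 * degS ⟨χ, hχ⟩ + 1 = Fintype.card F := by
    have h7 := (degS_eq_iff ⟨χ, hχ⟩ _).mpr hd
    obtain ⟨k, hk⟩ := hodd
    omega
  have hH := (half_classification hq ⟨χ, hχ⟩).2 hdeg
  have h2q := isCuspHalf_deg hH
  obtain ⟨χ', hχ', hc, φ', h1, h2, h3, y, hy⟩ := hH
  have hv : χ (uS 1) + φ' (uS 1) = -1 := by
    have := congrFun h3 (uS 1)
    rw [Pi.add_apply, Function.comp_apply, ι_uS_one, (cusp_degree hχ' hc).2] at this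
    exact this.symm
  obtain ⟨n, hn⟩ := exists_nonsq hodd
  have hp := pair_v hodd n hn (isClassFunction_of_isCharacter (IsIrrCharacter.isCharacter hχ))
    (isClassFunction_of_isCharacter (IsIrrCharacter.isCharacter h1)) h2 y hy
  rw [hp] at hv
  have hg := gauss_rel (IsIrrCharacter.isCharacter hχ) hodd n hn (by rw [h2q, hv]; ring)
  rw [eta_neg_one hodd] at hg
  rw [← hg]
  have : χ (uS n) = -1 - χ (uS 1) := by linear_combination hv
  rw [this]
  ring

theorem half_plus_sum (hodd : Odd (Fintype.card F)) (hq : 5 ≤ Fintype.card F) {χ₁ χ₂ : S2 → ℂ}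
    (h1 : IsIrrCharacter S2 χ₁) (h2 : IsIrrCharacter S2 χ₂) (hne : χ₁ ≠ χ₂)
    (hd1 : χ₁ 1 = (((Fintype.card F + 1) / 2 : ℕ) : ℂ))
    (hd2 : χ₂ 1 = (((Fintype.card F + 1) / 2 : ℕ) : ℂ)) : χ₁ (uS 1) + χ₂ (uS 1) = 1 := by
  have hdeg : ∀ {χ : S2 → ℂ} (hχ : IsIrrCharacter S2 χ),
      χ 1 = (((Fintype.card F + 1) / 2 : ℕ) : ℂ) → 2 * degS ⟨χ, hχ⟩ = Fintype.card F + 1 := by
    intro χ hχ hd
    have h7 := (degS_eq_iff ⟨χ, hχ⟩ _).mpr hd
    obtain ⟨k, hk⟩ := hodd
    omega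
  have H1 := (half_classification hq ⟨χ₁, h1⟩).1 (hdeg h1 hd1)
  have H2 := (half_classification hq ⟨χ₂, h2⟩).1 (hdeg h2 hd2)
  obtain ⟨μ, hμ1, hμ2, φ', h3, -, h4, -⟩ := H1
  rcases isHalfP_mem hodd hμ1 hμ2 h1 h3 h4 h2 H2 with e | e
  · exact absurd e.symm hne
  · subst e
    have := congrFun h4 (uS 1)
    rw [ff_uS, Pi.add_apply] at this
    exact this.symm

theorem half_minus_sum (hodd : Odd (Fintype.card F)) (hq : 5 ≤ Fintype.card F) {χ₁ χ₂ : S2 → ℂ}
    (h1 : IsIrrCharacter S2 χ₁) (h2 : IsIrrCharacter S2 χ₂) (hne : χ₁ ≠ χ₂)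
    (hd1 : χ₁ 1 = (((Fintype.card F - 1) / 2 : ℕ) : ℂ))
    (hd2 : χ₂ 1 = (((Fintype.card F - 1) / 2 : ℕ) : ℂ)) : χ₁ (uS 1) + χ₂ (uS 1) = -1 := by
  have hdeg : 2 * degS ⟨χ₁, h1⟩ + 1 = Fintype.card F := by
    have h7 := (degS_eq_iff ⟨χ₁, h1⟩ _).mpr hd1
    obtain ⟨k, hk⟩ := hodd
    omega
  obtain ⟨χ', hχ', hc, φ', h3, h5, h4, y, hy⟩ := (half_classification hq ⟨χ₁, h1⟩).2 hdeg
  have hd3 : φ' 1 = (((Fintype.card F - 1) / 2 : ℕ) : ℂ) := (conj_deg hy).trans hd1
  have hN := NN_half_minus hodd hq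
  unfold NN at hN
  rw [Nat.card_eq_two_iff] at hN
  obtain ⟨a, b, hab, hS⟩ := hN
  have key : ∀ c : {φ : IrrCharacter S2 // φ.1 1 = (((Fintype.card F - 1) / 2 : ℕ) : ℂ)},
      c = a ∨ c = b := by
    intro c
    have : c ∈ ({a, b} : Set _) := by rw [hS]; trivial
    simpa using this
  have e : φ' = χ₂ := by
    have ka := key ⟨⟨χ₁, h1⟩, hd1⟩
    have kb := key ⟨⟨χ₂, h2⟩, hd2⟩
    have kc := key ⟨⟨φ', h3⟩, hd3⟩
    have val : ∀ {c d : {φ : IrrCharacter S2 // φ.1 1 = (((Fintype.card F - 1) / 2 : ℕ) : ℂ)}},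
        c = d → c.1.1 = d.1.1 := by
      rintro c d rfl
      rfl
    rcases ka with ka | ka <;> rcases kb with kb | kb <;> rcases kc with kc | kc
    all_goals first
      | exact (val (kc.trans kb.symm))
      | exact absurd (val (ka.trans kb.symm)) hne
      | exact absurd (val (kc.trans ka.symm)) h5
  subst e
  have := congrFun h4 (uS 1)
  rw [Pi.add_apply, Function.comp_apply, ι_uS_one, (cusp_degree hχ' hc).2] at this
  exact this.symm

end Cfsg.Agent.Lib.SL2Gauss
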