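import Mathlib
import Cfsg.Agent.Lib.SL2SylowTwo
set_option autoImplicit false
set_option linter.unusedSectionVars false
set_option linter.unusedSimpArgs false
set_option linter.unusedVariables false

/-!
# The explicit structure of the normaliser of the Sylow `2`-subgroup: the quaternion case
-/

namespace Cfsg.Agent.Lib.SL2QuatData

open Matrix Finset Cfsg.Agent.Lib.SL2Core Cfsg.Agent.Lib.SL2Bor Cfsg.Agent.Lib.SL2Split
  Cfsg.Agent.Lib.SL2Nonsplit Cfsg.Agent.Lib.SL2Sylow Cfsg.Agent.Lib.SL2TorusLike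
  Cfsg.Agent.Lib.SylowAbelian Cfsg.Agent.Lib.SL2SylowTwo
open scoped MatrixGroups

variable {F : Type*} [Field F]

local notation "E" g:max i:max j:max => ((g : SL2 F) : Matrix (Fin 2) (Fin 2) F) i j
local notation "Z" => Subgroup.center (SL2 F)
local notation "m1" => (negS 1 : SL2 F)

variable [Fintype F] {A : Subgroup (SL2 F)} (hA : TorusLike A)
include hA

/-- The structure of the Sylow `2`-subgroup in the quaternion case. -/
theorem quat_data (hc : ringChar F ≠ 2) (S : Sylow 2 (SL2 F))
    (hS : ∀ y ∈ (S : Subgroup (SL2 F)), Nd A y) (hidx : 2 ∣ A.index) (h4 : 4 ∣ Nat.card A)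
    (h8 : ¬ 8 ∣ Nat.card A) :
    ∃ g w h : SL2 F, g ∈ (S : Subgroup (SL2 F)) ∧ w ∈ (S : Subgroup (SL2 F)) ∧
      h ∈ Subgroup.normalizer ((S : Subgroup (SL2 F)) : Set (SL2 F)) ∧ g * g = negS 1 ∧
      h * g * h⁻¹ = w ∧ h * w * h⁻¹ = g * w ∧
      (∀ y ∈ (S : Subgroup (SL2 F)), y = 1 ∨ y = negS 1 ∨ y = g ∨ y = negS 1 * g ∨
        y = w ∨ y = negS 1 * w ∨ y = g * w ∨ y = negS 1 * g * w) ∧
      Nat.card (Subgroup.normalizer ((S : Subgroup (SL2 F)) : Set (SL2 F))) ≤ 24 ∧
      8 ≤ Nat.card (S : Subgroup (SL2 F)) := by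
  classical
  have h2F : (2 : F) ≠ 0 := Ring.two_ne_zero hc
  obtain ⟨w, hwS, hwA, hw⟩ := hA.exists_w hc S hS hidx
  obtain ⟨g, hgA, hg⟩ := hA.exists_order 4 h4
  have hg4 : g ^ 4 = 1 := by
    have := pow_orderOf_eq_one g
    rwa [hg] at this
  have hgS : g ∈ (S : Subgroup (SL2 F)) := hA.mem_sylow S hS hgA (k := 2) (by simpa using hg4)
  have hgZ : g ∉ Z := not_center_of_order hA hg
  have hm1 : (negS 1 : SL2 F) ≠ 1 := by
    intro h
    have e := congrArg (fun z : SL2 F => E z 0 0) h
    simp only [negS_coe, Matrix.neg_apply, Matrix.SpecialLinearGroup.coe_one, Matrix.one_apply_eq] at e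
    apply h2F
    linear_combination -e
  have sq_cases : ∀ y : SL2 F, (y * y) * (y * y) = 1 → y * y = 1 ∨ y * y = negS 1 := by
    intro y hy
    exact center_eq _ (sq_eq_one_iff hc hy)
  have hgg : g * g = negS 1 := by
    rcases sq_cases g (by rw [← hg4]; simp only [pow_succ, pow_zero, one_mul, mul_assoc]) with h | h
    · exfalso
      have : g ^ 2 = 1 := by rw [pow_two, h]
      have := orderOf_dvd_of_pow_eq_one this
      rw [hg] at this
      omega
    · exact h
  have hww : w * w = negS 1 := hA.sq w hw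
  have hginv : g⁻¹ = negS 1 * g := by
    rw [inv_eq_iff_mul_eq_one, ← mul_assoc, ← m_comm, mul_assoc, hgg, m_mul_m]
  have hwg : w * g = negS (g * w) := by
    have h1 := hw g hgA
    have h2 : w * g = g⁻¹ * w := by
      rw [← h1]
      group
    rw [h2, hginv, negS_eq (g * w), mul_assoc]
  have hmS : negS 1 ∈ (S : Subgroup (SL2 F)) := by
    rw [← hgg]
    exact Subgroup.mul_mem _ hgS hgS
  -- elements of `S ∩ A`
  have hSA : ∀ y ∈ (S : Subgroup (SL2 F)), y ∈ A → y = 1 ∨ y = negS 1 ∨ y = g ∨ y = negS 1 * g := by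
    intro y hyS hyA
    have hy4 : y ^ 4 = 1 := by
      obtain ⟨k, hk⟩ := S.isPGroup' ⟨y, hyS⟩
      have hk' : y ^ (2 ^ k) = 1 := congrArg Subtype.val hk
      obtain ⟨j, -, hj⟩ := (Nat.dvd_prime_pow Nat.prime_two).mp (orderOf_dvd_of_pow_eq_one hk')
      have h5 : orderOf y ∣ Nat.card A := Subgroup.orderOf_dvd_natCard A hyA
      have hj2 : j ≤ 2 := by
        by_contra hcon
        apply h8
        refine dvd_trans ?_ h5
        rw [hj]
        exact pow_dvd_pow 2 (by omega : 3 ≤ j)
      have : orderOf y ∣ 4 := by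
        rw [hj]
        exact pow_dvd_pow 2 hj2
      exact orderOf_dvd_iff_pow_eq_one.mp this
    rcases sq_cases y (by rw [← hy4]; simp only [pow_succ, pow_zero, one_mul, mul_assoc]) with h | h
    · rcases center_eq y (sq_eq_one_iff hc h) with h1 | h1
      · exact Or.inl h1
      · exact Or.inr (Or.inl h1)
    · have h1 : (y * g⁻¹) * (y * g⁻¹) = 1 := by
        have hcomm : g⁻¹ * y = y * g⁻¹ := hA.comm (A.inv_mem hgA) hyA
        calc (y * g⁻¹) * (y * g⁻¹) = y * (g⁻¹ * y) * g⁻¹ := by group
          _ = (y * y) * (g⁻¹ * g⁻¹) := by rw [hcomm]; group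
          _ = negS 1 * (g * g)⁻¹ := by rw [h]; group
          _ = 1 := by rw [hgg]; group
      rcases center_eq _ (sq_eq_one_iff hc h1) with h2 | h2
      · right; right; left
        exact mul_inv_eq_one.mp h2
      · right; right; right
        exact mul_inv_eq_iff_eq_mul.mp h2
  -- all elements of `S`
  have hSall : ∀ y ∈ (S : Subgroup (SL2 F)), y = 1 ∨ y = negS 1 ∨ y = g ∨ y = negS 1 * g ∨
      y = w ∨ y = negS 1 * w ∨ y = g * w ∨ y = negS 1 * g * w := by
    intro y hyS
    rcases hS y hyS with h | h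
    · rcases hSA y hyS h with h1 | h1 | h1 | h1
      · exact Or.inl h1
      · exact Or.inr (Or.inl h1)
      · exact Or.inr (Or.inr (Or.inl h1))
      · exact Or.inr (Or.inr (Or.inr (Or.inl h1)))
    · have h1 := inverting_mul hA hgA hgZ h hw
      have h2 : y * w⁻¹ ∈ (S : Subgroup (SL2 F)) := Subgroup.mul_mem _ hyS (Subgroup.inv_mem _ hwS)
      have h3 : y = (y * w⁻¹) * w := by group
      rcases hSA _ h2 h1 with h5 | h5 | h5 | h5 <;> rw [h5] at h3
      · right; right; right; right; left
        rw [h3]; group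
      · right; right; right; right; right; left
        exact h3
      · right; right; right; right; right; right; left
        exact h3
      · right; right; right; right; right; right; right
        exact h3
  -- the upper bound
  have hNle : Nat.card (Subgroup.normalizer ((S : Subgroup (SL2 F)) : Set (SL2 F))) ≤ 24 := by
    set N := Subgroup.normalizer ((S : Subgroup (SL2 F)) : Set (SL2 F)) with hN
    have hcard : Nat.card N = (univ.filter (fun y => y ∈ N)).card := by
      rw [Nat.card_eq_fintype_card, Fintype.card_subtype]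
    rw [hcard]
    set s := univ.filter (fun y => y ∈ N) with hs
    let f : SL2 F → SL2 F := fun y => y * g * y⁻¹
    have himage : (s.image f).card ≤ 6 := by
      have hsub : s.image f ⊆ {g, negS 1 * g, w, negS 1 * w, g * w, negS 1 * g * w} := by
        intro a ha
        obtain ⟨y, hy, rfl⟩ := Finset.mem_image.mp ha
        have hyN : y ∈ N := (Finset.mem_filter.mp hy).2
        have h1 : f y ∈ (S : Subgroup (SL2 F)) := (Subgroup.mem_normalizer_iff.mp hyN g).mp hgS
        have h2 : f y ∉ Z := by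
          intro hZ
          apply hgZ
          have := (Cfsg.Agent.Lib.SL2Nonsplit.center_conj (x := y⁻¹) (g := g)).mp
          rw [inv_inv] at this
          exact this hZ
        rcases hSall _ h1 with h | h | h | h | h | h | h | h
        · exact absurd (h ▸ Subgroup.one_mem _) h2
        · exact absurd (h ▸ m_mem_center) h2
        all_goals simp [h]
      exact (Finset.card_le_card hsub).trans Finset.card_le_six
    have hfib : ∀ a ∈ s.image f, (s.filter (fun y => f y = a)).card ≤ 4 := by
      intro a ha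
      obtain ⟨y₀, hy₀, rfl⟩ := Finset.mem_image.mp ha
      have hy₀N : y₀ ∈ N := (Finset.mem_filter.mp hy₀).2
      have hsub : s.filter (fun y => f y = f y₀) ⊆
          ({1, negS 1, g, negS 1 * g} : Finset (SL2 F)).image (fun t => y₀ * t) := by
        intro y hy
        obtain ⟨hy1, hy2⟩ := Finset.mem_filter.mp hy
        have hyN : y ∈ N := (Finset.mem_filter.mp hy1).2
        have hzN : y₀⁻¹ * y ∈ N := Subgroup.mul_mem _ (Subgroup.inv_mem _ hy₀N) hyN
        have hzA : y₀⁻¹ * y ∈ A := by
          rw [← hA.cent g hgA hgZ, Subgroup.mem_centralizer_singleton_iff]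
          have e : y * g * y⁻¹ = y₀ * g * y₀⁻¹ := hy2
          calc y₀⁻¹ * y * g = y₀⁻¹ * (y * g * y⁻¹) * y := by group
            _ = y₀⁻¹ * (y₀ * g * y₀⁻¹) * y := by rw [e]
            _ = g * (y₀⁻¹ * y) := by group
        have hzS := hA.mem_of_normalizer hc S hS hidx h4 hzN (Or.inl hzA)
        rw [Finset.mem_image]
        refine ⟨y₀⁻¹ * y, ?_, by group⟩
        rcases hSA _ hzS hzA with h | h | h | h <;> rw [h] <;> simp
      refine (Finset.card_le_card hsub).trans (Finset.card_image_le.trans Finset.card_le_four)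
    have := Finset.card_le_mul_card_image s 4 hfib
    calc s.card ≤ 4 * (s.image f).card := this
      _ ≤ 4 * 6 := Nat.mul_le_mul_left _ himage
      _ = 24 := rfl
  -- the lower bound
  have hSge : 8 ≤ Nat.card (S : Subgroup (SL2 F)) := by
    have hP : (S : Subgroup (SL2 F)) ⊓ A ≤ S := inf_le_left
    have h1 : 4 ∣ Nat.card ((S : Subgroup (SL2 F)) ⊓ A : Subgroup (SL2 F)) := by
      have h2 : Subgroup.zpowers g ≤ (S : Subgroup (SL2 F)) ⊓ A := by
        rw [Subgroup.zpowers_le]
        exact ⟨hgS, hgA⟩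
      have h3 := Subgroup.card_dvd_of_le h2
      rwa [Nat.card_zpowers, hg] at h3
    have h2 := Subgroup.card_dvd_of_le hP
    obtain ⟨k, hk⟩ := h2
    obtain ⟨l, hl⟩ := h1
    have hne : (S : Subgroup (SL2 F)) ⊓ A ≠ S := by
      intro h
      have : w ∈ (S : Subgroup (SL2 F)) ⊓ A := by
        rw [h]
        exact hwS
      exact hwA this.2
    have hk1 : k ≠ 1 := by
      rintro rfl
      rw [mul_one] at hk
      exact hne (Subgroup.eq_of_le_of_card_ge hP hk.le)
    have hk0 : k ≠ 0 := by
      rintro rfl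
      have := Nat.card_pos (α := (S : Subgroup (SL2 F)))
      omega
    have hl0 : l ≠ 0 := by
      rintro rfl
      have := Nat.card_pos (α := ((S : Subgroup (SL2 F)) ⊓ A : Subgroup (SL2 F)))
      omega
    rw [hk, hl]
    have h5 : 2 ≤ k := by omega
    have h6 : 1 ≤ l := by omega
    nlinarith
  -- the element of order six
  set h := hEl h2F hgg hww with hh
  have hhg : h * g = w * h := hEl_mul_g h2F hgg hww hwg
  have hhw : h * w = (g * w) * h := hEl_mul_w h2F hgg hww hwg
  have hcube : h * h * h = negS 1 := hEl_cube h2F hgg hww hwg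
  have hhg' : h * g * h⁻¹ = w := by rw [hhg]; group
  have hhw' : h * w * h⁻¹ = g * w := by rw [hhw]; group
  have hhm' : h * negS 1 * h⁻¹ = negS 1 := by
    rw [← m_comm h]
    group
  have hconjS : ∀ y ∈ (S : Subgroup (SL2 F)), h * y * h⁻¹ ∈ (S : Subgroup (SL2 F)) := by
    intro y hy
    have hmul : ∀ a b : SL2 F, h * (a * b) * h⁻¹ = (h * a * h⁻¹) * (h * b * h⁻¹) := by
      intro a b
      group
    have e1 : h * 1 * h⁻¹ = 1 := by group
    have hgwS : g * w ∈ (S : Subgroup (SL2 F)) := Subgroup.mul_mem _ hgS hwS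
    rcases hSall y hy with e | e | e | e | e | e | e | e <;> rw [e]
    · rw [e1]
      exact Subgroup.one_mem _
    · rw [hhm']
      exact hmS
    · rw [hhg']
      exact hwS
    · rw [hmul, hhm', hhg']
      exact Subgroup.mul_mem _ hmS hwS
    · rw [hhw']
      exact hgwS
    · rw [hmul, hhm', hhw']
      exact Subgroup.mul_mem _ hmS hgwS
    · rw [hmul, hhg', hhw']
      exact Subgroup.mul_mem _ hwS hgwS
    · rw [hmul, hmul, hhm', hhg', hhw']
      exact Subgroup.mul_mem _ (Subgroup.mul_mem _ hmS hwS) hgwS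
  have hh6 : h ^ 6 = 1 := by
    calc h ^ 6 = (h * h * h) * (h * h * h) := by
          simp only [pow_succ, pow_zero, one_mul, mul_assoc]
      _ = 1 := by rw [hcube, m_mul_m]
  have hpowS : ∀ n : ℕ, ∀ y ∈ (S : Subgroup (SL2 F)), h ^ n * y * (h ^ n)⁻¹ ∈ (S : Subgroup (SL2 F)) := by
    intro n
    induction n with
    | zero =>
      intro y hy
      simpa using hy
    | succ n ih =>
      intro y hy
      have := ih _ (hconjS y hy)
      convert this using 1
      rw [pow_succ]
      group
  have hhN : h ∈ Subgroup.normalizer ((S : Subgroup (SL2 F)) : Set (SL2 F)) := by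
    rw [Subgroup.mem_normalizer_iff]
    intro t
    refine ⟨fun ht => hconjS t ht, fun ht => ?_⟩
    have := hpowS 5 _ ht
    convert this using 1
    have e : h ^ 5 * h = 1 := by
      rw [← pow_succ]
      exact hh6
    have e' : (h ^ 5)⁻¹ = h := by
      rw [inv_eq_iff_mul_eq_one]
      exact e
    rw [e']
    calc t = (h ^ 5 * h) * t * (h⁻¹ * h) := by rw [e]; group
      _ = h ^ 5 * (h * t * h⁻¹) * h := by group
  exact ⟨g, w, h, hgS, hwS, hhN, hgg, hhg', hhw', hSall, hNle, hSge⟩

end Cfsg.Agent.Lib.SL2QuatData
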