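import Mathlib
import Cfsg.Agent.Lib.SL2McKayG
import Cfsg.Agent.Lib.SL2QuatData
import Cfsg.Agent.Lib.SL2Sylow
import Cfsg.Agent.Lib.ClassicalSL2

/-!
# The number of irreducible characters of Sylow normalisers in `SL₂(q)` of degree prime to `ℓ`
-/

set_option autoImplicit false
set_option linter.unusedSectionVars false
set_option linter.unusedSimpArgs false
set_option linter.unusedVariables false
set_option linter.style.haveILetI false

namespace Cfsg.Agent.Lib.SL2McKayN

open Cfsg Cfsg.Agent.Lib.McKayTools Cfsg.Agent.Lib.SL2Core Cfsg.Agent.Lib.SL2Bor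
  Cfsg.Agent.Lib.SL2Split Cfsg.Agent.Lib.SL2Nonsplit Cfsg.Agent.Lib.SL2Sylow
  Cfsg.Agent.Lib.SylowAbelian Cfsg.Agent.Lib.SL2TorusLike Cfsg.Agent.Lib.SL2SylowTwo
open scoped MatrixGroups commutatorElement

section general

universe u

variable {H : Type u} [Group H] [Finite H]

/-- By Ito's theorem, with a normal abelian subgroup of index prime to `ℓ`, all the characters have
degree prime to `ℓ`. -/
theorem count_of_abelian_normal (A : Subgroup H) [A.Normal] (hcomm : ∀ a ∈ A, ∀ b ∈ A, a * b = b * a)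
    {ℓ : ℕ} (hℓ : ¬ ℓ ∣ A.index) :
    Nat.card {χ : IrrCharacter H // ¬ ℓ ∣ charDegree (χ : H → ℂ)} = Nat.card (ConjClasses H) := by
  apply count_all (P := fun d => ¬ ℓ ∣ d)
  intro χ h
  apply hℓ
  refine dvd_trans h (ito_dvd A ?_ χ.2)
  intro a b
  exact Subtype.ext (hcomm a.1 a.2 b.1 b.2)

/-- The same statement for a pair of subgroups of an ambient group. -/
theorem count_of_subgroup {G : Type u} [Group G] [Finite G] (K A : Subgroup G)
    (hcomm : ∀ a ∈ A, ∀ b ∈ A, a * b = b * a) (hn : (A.subgroupOf K).Normal) {ℓ : ℕ}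
    (hℓ : ¬ ℓ ∣ (A.subgroupOf K).index) :
    Nat.card {χ : IrrCharacter K // ¬ ℓ ∣ charDegree (χ : K → ℂ)} = Nat.card (ConjClasses K) := by
  apply count_of_abelian_normal (A.subgroupOf K) _ hℓ
  intro a ha b hb
  exact Subtype.ext (hcomm a.1 (Subgroup.mem_subgroupOf.mp ha) b.1 (Subgroup.mem_subgroupOf.mp hb))

/-- Index of a subgroup in an overgroup. -/
lemma index_mul_card {G : Type*} [Group G] {K A : Subgroup G} (hle : A ≤ K) :
    (A.subgroupOf K).index * Nat.card A = Nat.card K := by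
  rw [← Nat.card_congr (Subgroup.subgroupOfEquivOfLe hle).toEquiv, mul_comm]
  exact Subgroup.card_mul_index _

/-- The commutator factor group of a group with an inverted abelian subgroup of index two. -/
theorem commutator_index_four (B : Subgroup H)
    (hcomm : ∀ a ∈ B, ∀ b ∈ B, a * b = b * a) (w : H) (hw : w ∉ B)
    (hinv : ∀ y, y ∉ B → ∀ a ∈ B, y * a * y⁻¹ = a⁻¹)
    (hmul : ∀ y, y ∉ B → y * w⁻¹ ∈ B)
    (hker : Nat.card {a : B // a * a = 1} = 2) :
    (commutator H).index = 4 := by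
  have hcomm' : ∀ a b : B, a.1 * b.1 = b.1 * a.1 := fun a b => hcomm a.1 a.2 b.1 b.2
  let f : B →* H :=
    { toFun := fun a => a.1 * a.1
      map_one' := by simp
      map_mul' := by
        intro a b
        show a.1 * b.1 * (a.1 * b.1) = a.1 * a.1 * (b.1 * b.1)
        calc a.1 * b.1 * (a.1 * b.1) = a.1 * (b.1 * a.1) * b.1 := by group
          _ = a.1 * (a.1 * b.1) * b.1 := by rw [hcomm' b a]
          _ = _ := by group }
  have hf : ∀ a : B, f a = a.1 * a.1 := fun a => rfl
  have hrange : commutator H = f.range := by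
    apply le_antisymm
    · rw [commutator_def, Subgroup.commutator_le]
      rintro x - y -
      rw [commutatorElement_def]
      by_cases hx : x ∈ B
      · by_cases hy : y ∈ B
        · have : x * y * x⁻¹ * y⁻¹ = 1 := by
            rw [hcomm x hx y hy]
            group
          rw [this]
          exact Subgroup.one_mem _
        · refine ⟨⟨x, hx⟩, ?_⟩
          rw [hf]
          have e := hinv y hy x⁻¹ (B.inv_mem hx)
          rw [inv_inv] at e
          calc x * x = x * (y * x⁻¹ * y⁻¹) := by rw [e]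
            _ = _ := by group
      · by_cases hy : y ∈ B
        · refine ⟨⟨y⁻¹, B.inv_mem hy⟩, ?_⟩
          rw [hf]
          have e := hinv x hx y hy
          calc y⁻¹ * y⁻¹ = (x * y * x⁻¹) * y⁻¹ := by rw [e]
            _ = _ := by group
        · have hyx : y * x⁻¹ ∈ B := by
            have h1 := hmul y hy
            have h2 := hmul x hx
            have := B.mul_mem h1 (B.inv_mem h2)
            convert this using 1
            group
          refine ⟨⟨(y * x⁻¹)⁻¹, B.inv_mem hyx⟩, ?_⟩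
          rw [hf]
          have e := hinv x hx _ hyx
          calc (y * x⁻¹)⁻¹ * (y * x⁻¹)⁻¹ = (x * (y * x⁻¹) * x⁻¹) * (y * x⁻¹)⁻¹ := by rw [e]
            _ = _ := by group
    · rintro _ ⟨a, rfl⟩
      rw [hf]
      have e := hinv w hw a.1⁻¹ (B.inv_mem a.2)
      rw [inv_inv] at e
      have e2 : a.1 * a.1 = ⁅a.1, w⁆ := by
        rw [commutatorElement_def]
        calc a.1 * a.1 = a.1 * (w * a.1⁻¹ * w⁻¹) := by rw [e]
          _ = _ := by group
      rw [e2, commutator_def]
      exact Subgroup.commutator_mem_commutator (Subgroup.mem_top _) (Subgroup.mem_top _)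
  have hkercard : Nat.card f.ker = 2 := by
    rw [← hker]
    apply Nat.card_congr
    refine Equiv.subtypeEquivRight (fun a => ?_)
    rw [MonoidHom.mem_ker, hf]
    constructor
    · intro h
      exact Subtype.ext h
    · intro h
      exact congrArg Subtype.val h
  have h1 := Subgroup.card_mul_index f.ker
  rw [hkercard, Subgroup.index_ker] at h1
  have hB2 : B.index = 2 := by
    rw [Subgroup.index_eq_two_iff]
    refine ⟨w⁻¹, fun b => ?_⟩
    by_cases hb : b ∈ B
    · right
      refine ⟨hb, fun h => hw ?_⟩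
      have := B.inv_mem (B.mul_mem (B.inv_mem hb) h)
      simpa using this
    · left
      exact ⟨hmul b hb, hb⟩
  have h2 := Subgroup.card_mul_index B
  rw [hB2] at h2
  have h3 := Subgroup.card_mul_index (commutator H)
  rw [hrange] at h3 ⊢
  have hpos : 0 < Nat.card f.range := Nat.card_pos
  have h4 : Nat.card f.range * f.range.index = Nat.card f.range * 4 := by
    rw [h3, ← h2, ← h1]
    ring
  exact Nat.eq_of_mul_eq_mul_left hpos h4

end general

section sl2

variable {F : Type*} [Field F] [Fintype F]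

local notation "E" g:max i:max j:max => ((g : SL2 F) : Matrix (Fin 2) (Fin 2) F) i j

/-- The normaliser of a Sylow subgroup in the split case. -/
theorem exists_conj_split (hodd : Odd (Fintype.card F)) (hc : ringChar F ≠ 2) (hq : 5 ≤ Fintype.card F)
    (ℓ : ℕ) [hℓ' : Fact ℓ.Prime] (hℓ : ℓ ≠ 2) (P : Sylow ℓ (SL2 F)) (hdvd : ℓ ∣ Fintype.card F - 1) :
    ∃ x : SL2 F, Subgroup.normalizer ((P : Subgroup (SL2 F)) : Set (SL2 F)) = conjS x (NN F) := by
  have hp := hℓ'.out
  have hq2 : Fintype.card F - 1 + 1 = Fintype.card F := by omega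
  have hidx : ¬ ℓ ∣ (TT F).index := by
    rw [index_TT]
    intro h
    rcases (Nat.Prime.dvd_mul hp).mp h with h1 | h1
    · have h2 : ℓ ∣ 2 := by
        have := Nat.dvd_sub h1 hdvd
        have e : Fintype.card F + 1 - (Fintype.card F - 1) = 2 := by omega
        rwa [e] at this
      exact hℓ ((Nat.prime_dvd_prime_iff_eq hp Nat.prime_two).mp h2)
    · have h2 : ℓ ∣ 1 := by
        have := Nat.dvd_sub h1 hdvd
        have e : Fintype.card F - (Fintype.card F - 1) = 1 := by omega
        rwa [e] at this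
      exact hp.one_lt.ne' (Nat.dvd_one.mp h2)
  have hcard : ℓ ∣ Nat.card (TT F) := by
    rw [card_TT]
    exact hdvd
  have hcent : ∀ d ∈ TT F, d ≠ 1 → (∃ k : ℕ, d ^ (ℓ ^ k) = 1) →
      Subgroup.centralizer ({d} : Set (SL2 F)) = TT F := by
    rintro d ⟨h1, h2⟩ hd1 ⟨k, hk⟩
    apply centralizer_eq h1 h2
    intro hsq
    exact hd1 (odd_prime_pow_not_two hp hℓ hk (diag_sq h1 h2 hsq))
  obtain ⟨x, -, hx2⟩ := centralizer_normalizer_sylow (TT F) TT_comm hcard hidx hcent P
  obtain ⟨d, h1, h2, h3⟩ := exists_regular_diag (F := F) (by omega)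
  exact ⟨x, by rw [hx2, normalizer_eq h1 h2 h3]⟩

/-- The count in the split case. -/
theorem count_N_split (hodd : Odd (Fintype.card F)) (hq : 5 ≤ Fintype.card F)
    (ℓ : ℕ) [hℓ' : Fact ℓ.Prime] (hℓ : ℓ ≠ 2) (P : Sylow ℓ (SL2 F)) (hdvd : ℓ ∣ Fintype.card F - 1) :
    Nat.card {ψ : IrrCharacter (Subgroup.normalizer ((P : Subgroup (SL2 F)) : Set (SL2 F))) //
      ¬ ℓ ∣ charDegree (ψ : Subgroup.normalizer ((P : Subgroup (SL2 F)) : Set (SL2 F)) → ℂ)} =
      (Fintype.card F + 5) / 2 := by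
  have hc := ringChar_ne_two hodd
  obtain ⟨x, hx⟩ := exists_conj_split hodd hc hq ℓ hℓ P hdvd
  let e : Subgroup.normalizer ((P : Subgroup (SL2 F)) : Set (SL2 F)) ≃* NN F :=
    (MulEquiv.subgroupCongr hx).trans ((NN F).equivMapOfInjective _ (MulEquiv.injective _)).symm
  rw [count_congr e (fun d => ¬ ℓ ∣ d), ← card_conjClasses_NN hodd]
  have h1 := index_mul_card (TT_le_NN (F := F))
  rw [card_TT, card_NN] at h1
  have h2 : ((TT F).subgroupOf (NN F)).index = 2 :=
    Nat.eq_of_mul_eq_mul_right (by omega : 0 < Fintype.card F - 1) h1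
  have hnor : ((TT F).subgroupOf (NN F)).Normal := Subgroup.normal_of_index_eq_two h2
  apply count_of_subgroup (NN F) (TT F) TT_comm hnor
  rw [h2]
  intro h
  exact hℓ ((Nat.prime_dvd_prime_iff_eq hℓ'.out Nat.prime_two).mp h)

/-- The count in the nonsplit case. -/
theorem count_N_nonsplit (hodd : Odd (Fintype.card F))
    (ℓ : ℕ) [hℓ' : Fact ℓ.Prime] (hℓ : ℓ ≠ 2) (P : Sylow ℓ (SL2 F)) (hdvd : ℓ ∣ Fintype.card F + 1) :
    Nat.card {ψ : IrrCharacter (Subgroup.normalizer ((P : Subgroup (SL2 F)) : Set (SL2 F))) //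
      ¬ ℓ ∣ charDegree (ψ : Subgroup.normalizer ((P : Subgroup (SL2 F)) : Set (SL2 F)) → ℂ)} =
      (Fintype.card F + 7) / 2 := by
  have hc := ringChar_ne_two hodd
  have hq : 2 ≤ Fintype.card F := Fintype.one_lt_card
  have hp := hℓ'.out
  obtain ⟨D⟩ := Cfsg.Agent.Lib.SL2Torus.exists_normOneData (F := F)
  have hT := isNSTorus_zpowers hc D
  set A := Subgroup.zpowers (gC D) with hA
  have hidx : ¬ ℓ ∣ A.index := by
    have h1 := Subgroup.card_mul_index A
    rw [hT.card_eq, Cfsg.Agent.Lib.ClassicalSmall.card_SL2] at h1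
    have h2 : A.index = Fintype.card F * (Fintype.card F - 1) :=
      Nat.eq_of_mul_eq_mul_left (Nat.succ_pos (Fintype.card F)) (by
        rw [Nat.succ_eq_add_one, h1]; ring)
    rw [h2]
    intro h
    rcases (Nat.Prime.dvd_mul hp).mp h with h1 | h1
    · have h2 : ℓ ∣ 1 := by
        have := Nat.dvd_sub hdvd h1
        have e : Fintype.card F + 1 - Fintype.card F = 1 := by omega
        rwa [e] at this
      exact hp.one_lt.ne' (Nat.dvd_one.mp h2)
    · have h2 : ℓ ∣ 2 := by
        have := Nat.dvd_sub hdvd h1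
        have e : Fintype.card F + 1 - (Fintype.card F - 1) = 2 := by omega
        rwa [e] at this
      exact hℓ ((Nat.prime_dvd_prime_iff_eq hp Nat.prime_two).mp h2)
  have hcard : ℓ ∣ Nat.card A := by
    rw [hT.card_eq]
    exact hdvd
  have hcent : ∀ d ∈ A, d ≠ 1 → (∃ k : ℕ, d ^ (ℓ ^ k) = 1) →
      Subgroup.centralizer ({d} : Set (SL2 F)) = A := by
    rintro d hd hd1 ⟨k, hk⟩
    apply hT.cent d hd
    intro hZ
    rcases center_eq d hZ with h1 | h1
    · exact hd1 h1
    · apply hd1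
      apply odd_prime_pow_not_two hp hℓ hk
      rw [h1]
      apply Subtype.ext
      simp
  obtain ⟨x, -, hx⟩ := centralizer_normalizer_sylow A (fun a ha b hb => hT.comm ha hb) hcard hidx hcent P
  let e : Subgroup.normalizer ((P : Subgroup (SL2 F)) : Set (SL2 F)) ≃* Subgroup.normalizer (A : Set (SL2 F)) :=
    (MulEquiv.subgroupCongr hx).trans ((Subgroup.normalizer (A : Set (SL2 F))).equivMapOfInjective _ (MulEquiv.injective _)).symm
  rw [count_congr e (fun d => ¬ ℓ ∣ d), ← hT.card_conjClasses_normalizer hc]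
  have h1 := index_mul_card (Subgroup.le_normalizer (H := A))
  rw [hT.card_eq, hT.card_normalizer hc] at h1
  have h2 : (A.subgroupOf (Subgroup.normalizer (A : Set (SL2 F)))).index = 2 :=
    Nat.eq_of_mul_eq_mul_right (by omega : 0 < Fintype.card F + 1) h1
  apply count_of_subgroup (Subgroup.normalizer (A : Set (SL2 F))) A (fun a ha b hb => hT.comm ha hb)
    Subgroup.normal_in_normalizer
  rw [h2]
  intro h
  exact hℓ ((Nat.prime_dvd_prime_iff_eq hℓ'.out Nat.prime_two).mp h)

/-- Description of the root subgroup. -/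
lemma mem_U_x0_iff {g : SL2 F} :
    g ∈ Cfsg.Agent.Lib.ClassicalSL2.U Cfsg.Agent.Lib.ClassicalSL2.x0 ↔ E g 1 0 = 0 ∧ E g 0 0 = 1 := by
  constructor
  · intro h
    have e := Cfsg.Agent.Lib.ClassicalSL2.eq_transvection_of_mem_U_x0 h
    rw [e]
    simp [Matrix.SpecialLinearGroup.transvection_coe]
  · rintro ⟨h1, h2⟩
    have hdet := det_entries g
    rw [h1, h2] at hdet
    have h3 : E g 1 1 = 1 := by linear_combination hdet
    have e : g = Matrix.SpecialLinearGroup.transvection zero_ne_one (E g 0 1) := by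
      apply sl2_ext
      · simp [Matrix.SpecialLinearGroup.transvection_coe, h2]
      · simp [Matrix.SpecialLinearGroup.transvection_coe]
      · simp [Matrix.SpecialLinearGroup.transvection_coe, h1]
      · simp [Matrix.SpecialLinearGroup.transvection_coe, h3]
    rw [e]
    exact Cfsg.Agent.Lib.ClassicalSL2.transvection_mem_U_x0 _

lemma U_comm {a b : SL2 F} (ha : a ∈ Cfsg.Agent.Lib.ClassicalSL2.U Cfsg.Agent.Lib.ClassicalSL2.x0)
    (hb : b ∈ Cfsg.Agent.Lib.ClassicalSL2.U Cfsg.Agent.Lib.ClassicalSL2.x0) : a * b = b * a := by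
  obtain ⟨h1, h2⟩ := mem_U_x0_iff.mp ha
  obtain ⟨h3, h4⟩ := mem_U_x0_iff.mp hb
  have h5 : E a 1 1 = 1 := by
    have hdet := det_entries a
    rw [h1, h2] at hdet
    linear_combination hdet
  have h6 : E b 1 1 = 1 := by
    have hdet := det_entries b
    rw [h3, h4] at hdet
    linear_combination hdet
  apply sl2_ext
  all_goals simp only [mul_apply2, h1, h2, h3, h4, h5, h6]
  all_goals ring

lemma conj_U_of_Bor {y g : SL2 F} (hy : y ∈ Bor F)
    (hg : g ∈ Cfsg.Agent.Lib.ClassicalSL2.U Cfsg.Agent.Lib.ClassicalSL2.x0) :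
    y⁻¹ * g * y ∈ Cfsg.Agent.Lib.ClassicalSL2.U Cfsg.Agent.Lib.ClassicalSL2.x0 := by
  obtain ⟨h1, h2⟩ := mem_U_x0_iff.mp hg
  have hy0 := mem_Bor.mp hy
  have hdet := det_entries y
  rw [hy0] at hdet
  rw [mem_U_x0_iff]
  constructor
  · rw [Cfsg.Agent.Lib.SL2Prin.conj10, hy0, h1]
    ring
  · rw [Cfsg.Agent.Lib.SL2Prin.conj00, hy0, h1, h2]
    linear_combination hdet

/-- The normaliser of the root subgroup. -/
theorem normalizer_U :
    Subgroup.normalizer ((Cfsg.Agent.Lib.ClassicalSL2.U Cfsg.Agent.Lib.ClassicalSL2.x0 : Subgroup (SL2 F)) : Set (SL2 F)) = Bor F := by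
  apply le_antisymm
  · intro x hx
    rw [mem_Bor]
    have hu : (Matrix.SpecialLinearGroup.transvection (zero_ne_one (α := Fin 2)) (1 : F) : SL2 F) ∈
        Cfsg.Agent.Lib.ClassicalSL2.U Cfsg.Agent.Lib.ClassicalSL2.x0 :=
      Cfsg.Agent.Lib.ClassicalSL2.transvection_mem_U_x0 _
    have h1 := (Subgroup.mem_normalizer_iff.mp (Subgroup.inv_mem _ hx) _).mp hu
    rw [inv_inv] at h1
    have h2 := (mem_U_x0_iff.mp h1).1
    rw [Cfsg.Agent.Lib.SL2Prin.conj10] at h2
    simp [Matrix.SpecialLinearGroup.transvection_coe] at h2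
    have h3 : E x 1 0 * E x 1 0 = 0 := by linear_combination -h2
    exact mul_self_eq_zero.mp h3
  · intro x hx
    rw [Subgroup.mem_normalizer_iff]
    intro h
    constructor
    · intro hh
      have := conj_U_of_Bor (Subgroup.inv_mem _ hx) hh
      rwa [inv_inv] at this
    · intro hh
      have := conj_U_of_Bor hx hh
      convert this using 1
      group

/-- The count in the defining characteristic. -/
theorem count_N_defining (hodd : Odd (Fintype.card F)) (ℓ : ℕ) [hℓ' : Fact ℓ.Prime] (hdvd : ℓ ∣ Fintype.card F)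
    (P : Sylow ℓ (SL2 F)) :
    Nat.card {ψ : IrrCharacter (Subgroup.normalizer ((P : Subgroup (SL2 F)) : Set (SL2 F))) //
      ¬ ℓ ∣ charDegree (ψ : Subgroup.normalizer ((P : Subgroup (SL2 F)) : Set (SL2 F)) → ℂ)} =
      Fintype.card F + 3 := by
  have hc := ringChar_ne_two hodd
  have hq : 2 ≤ Fintype.card F := Fintype.one_lt_card
  have hp := hℓ'.out
  have hchar : CharP F ℓ := by
    obtain ⟨n, hn⟩ := FiniteField.card F (ringChar F)
    have hpr : (ringChar F).Prime := hn.1
    rw [hn.2] at hdvd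
    have := (Nat.prime_dvd_prime_iff_eq hp hpr).mp (hp.dvd_of_dvd_pow hdvd)
    rw [this]
    exact ringChar.charP F
  obtain ⟨g, hg⟩ := MulAction.exists_smul_eq (SL2 F) (Cfsg.Agent.Lib.ClassicalSL2.sylowX0 (F := F) ℓ) P
  set U0 : Subgroup (SL2 F) := Cfsg.Agent.Lib.ClassicalSL2.U Cfsg.Agent.Lib.ClassicalSL2.x0 with hU0
  have hP : (P : Subgroup (SL2 F)) = U0.map (MulAut.conj g).toMonoidHom := by
    rw [← hg, Sylow.coe_subgroup_smul, Cfsg.Agent.Lib.ClassicalSL2.coe_sylowX0]
    rfl
  have hN : Subgroup.normalizer ((P : Subgroup (SL2 F)) : Set (SL2 F)) =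
      (Bor F).map (MulAut.conj g).toMonoidHom := by
    rw [hP, ← normalizer_U]
    exact (Subgroup.map_equiv_normalizer_eq U0 (MulAut.conj g)).symm
  let e : Subgroup.normalizer ((P : Subgroup (SL2 F)) : Set (SL2 F)) ≃* Bor F :=
    (MulEquiv.subgroupCongr hN).trans ((Bor F).equivMapOfInjective _ (MulEquiv.injective _)).symm
  rw [count_congr e (fun d => ¬ ℓ ∣ d), ← card_conjClasses_Bor hodd]
  have hle : U0 ≤ Bor F := by
    intro x hx
    exact mem_Bor.mpr (mem_U_x0_iff.mp hx).1
  have h1 := index_mul_card hle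
  have hcU : Nat.card U0 = Fintype.card F := by
    rw [← Nat.card_congr (Cfsg.Agent.Lib.ClassicalSL2.UEquiv (F := F)), Nat.card_eq_fintype_card]
  rw [hcU, Cfsg.Agent.Lib.SL2Prin.card_Bor] at h1
  have h2 : (U0.subgroupOf (Bor F)).index = Fintype.card F - 1 := by
    have : (U0.subgroupOf (Bor F)).index * Fintype.card F = (Fintype.card F - 1) * Fintype.card F := by
      rw [h1]
      ring
    exact Nat.eq_of_mul_eq_mul_right (by omega) this
  have hnor : (U0.subgroupOf (Bor F)).Normal := by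
    rw [Subgroup.normal_subgroupOf_iff_le_normalizer hle, hU0, normalizer_U]
  apply count_of_subgroup (Bor F) U0 (fun a ha b hb => U_comm ha hb) hnor
  rw [h2]
  intro h
  have h3 : ℓ ∣ 1 := by
    have := Nat.dvd_sub hdvd h
    have e : Fintype.card F - (Fintype.card F - 1) = 1 := by omega
    rwa [e] at this
  exact hp.one_lt.ne' (Nat.dvd_one.mp h3)

/-- If `ℓ` does not divide the group order, the Sylow normaliser is everything. -/
theorem count_coprime (ℓ : ℕ) [hℓ' : Fact ℓ.Prime] (hdvd : ¬ ℓ ∣ Nat.card (SL2 F)) (P : Sylow ℓ (SL2 F)) :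
    Nat.card {χ : IrrCharacter (SL2 F) // ¬ ℓ ∣ charDegree (χ : SL2 F → ℂ)} =
    Nat.card {ψ : IrrCharacter (Subgroup.normalizer ((P : Subgroup (SL2 F)) : Set (SL2 F))) //
      ¬ ℓ ∣ charDegree (ψ : Subgroup.normalizer ((P : Subgroup (SL2 F)) : Set (SL2 F)) → ℂ)} := by
  have h1 : (P : Subgroup (SL2 F)) = ⊥ := by
    rw [Subgroup.eq_bot_iff_card]
    rw [P.card_eq_multiplicity, Nat.factorization_eq_zero_of_not_dvd hdvd]
    simp
  have h2 : Subgroup.normalizer ((P : Subgroup (SL2 F)) : Set (SL2 F)) = ⊤ := by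
    rw [h1]
    exact Subgroup.normalizer_eq_top (H := (⊥ : Subgroup (SL2 F)))
  exact count_congr ((MulEquiv.subgroupCongr h2).trans Subgroup.topEquiv).symm (fun d => ¬ ℓ ∣ d)

/-- The case `q ≡ ±1 mod 8`, `ℓ = 2`. -/
theorem count_N_two_eight (hodd : Odd (Fintype.card F)) (hq8 : Fintype.card F % 8 = 1 ∨ Fintype.card F % 8 = 7)
    (S : Sylow 2 (SL2 F)) :
    Nat.card {ψ : IrrCharacter (Subgroup.normalizer ((S : Subgroup (SL2 F)) : Set (SL2 F))) //
      ¬ 2 ∣ charDegree (ψ : Subgroup.normalizer ((S : Subgroup (SL2 F)) : Set (SL2 F)) → ℂ)} = 4 := by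
  classical
  have hc := ringChar_ne_two hodd
  have h2F : (2 : F) ≠ 0 := Ring.two_ne_zero hc
  obtain ⟨A, hA, hS, hidx, hcase⟩ := exists_torus_data hodd S
  have h4 : 4 ∣ Nat.card A := by
    rcases hcase with ⟨h1, h2⟩ | ⟨h1, h2⟩ <;> rw [h2] <;> omega
  have hN := (sylow_two hodd S).2.1 hq8
  rw [count_congr (MulEquiv.subgroupCongr hN) (fun d => ¬ 2 ∣ d)]
  have hpg : IsPGroup 2 (S : Subgroup (SL2 F)) := S.isPGroup'
  rw [Nat.card_eq_fintype_card, Fintype.card_subtype, Cfsg.Agent.Lib.CharCentral.card_not_dvd hpg]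
  obtain ⟨w, hwS, hwA, hw⟩ := hA.exists_w hc S hS hidx
  obtain ⟨g, hgA, hg⟩ := hA.exists_order 4 h4
  have hg4 : g ^ 4 = 1 := by
    have := pow_orderOf_eq_one g
    rwa [hg] at this
  have hgS : g ∈ (S : Subgroup (SL2 F)) := hA.mem_sylow S hS hgA (k := 2) (by simpa using hg4)
  have hgZ : g ∉ Subgroup.center (SL2 F) := not_center_of_order hA hg
  have hm1 : (negS 1 : SL2 F) ≠ 1 := by
    intro h
    have e := congrArg (fun z : SL2 F => E z 0 0) h
    simp only [negS_coe, Matrix.neg_apply, Matrix.SpecialLinearGroup.coe_one, Matrix.one_apply_eq] at e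
    apply h2F
    linear_combination -e
  have sq_cases : ∀ y : SL2 F, (y * y) * (y * y) = 1 → y * y = 1 ∨ y * y = negS 1 := by
    intro y hy
    exact center_eq _ (sq_eq_one_iff hc hy)
  have hgg : g * g = negS 1 := by
    rcases sq_cases g (by rw [← hg4]; simp only [pow_succ, pow_zero, one_mul, mul_assoc]) with h | h
    · exfalso
      have : g ^ 2 = 1 := by rw [pow_two, h]
      have := orderOf_dvd_of_pow_eq_one this
      rw [hg] at this
      omega
    · exact h
  have hmS : negS 1 ∈ (S : Subgroup (SL2 F)) := by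
    rw [← hgg]
    exact Subgroup.mul_mem _ hgS hgS
  have hmA : negS 1 ∈ A := by
    rw [← hgg]
    exact A.mul_mem hgA hgA
  apply commutator_index_four (A.subgroupOf (S : Subgroup (SL2 F))) (w := ⟨w, hwS⟩)
  · intro a ha b hb
    exact Subtype.ext (hA.comm (Subgroup.mem_subgroupOf.mp ha) (Subgroup.mem_subgroupOf.mp hb))
  · exact fun h => hwA (Subgroup.mem_subgroupOf.mp h)
  · intro y hy a ha
    have h1 : y.1 ∉ A := fun h => hy (Subgroup.mem_subgroupOf.mpr h)
    rcases hS y.1 y.2 with h2 | h2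
    · exact absurd h2 h1
    · exact Subtype.ext (h2 a.1 (Subgroup.mem_subgroupOf.mp ha))
  · intro y hy
    have h1 : y.1 ∉ A := fun h => hy (Subgroup.mem_subgroupOf.mpr h)
    rcases hS y.1 y.2 with h2 | h2
    · exact absurd h2 h1
    · exact Subgroup.mem_subgroupOf.mpr (inverting_mul hA hgA hgZ h2 hw)
  · rw [Nat.card_eq_two_iff]
    refine ⟨⟨1, by simp⟩, ⟨⟨⟨negS 1, hmS⟩, Subgroup.mem_subgroupOf.mpr hmA⟩, ?_⟩, ?_, ?_⟩
    · apply Subtype.ext
      apply Subtype.ext
      exact m_mul_m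
    · intro h
      have := congrArg (fun z => z.1.1.1) h
      exact hm1 (this.symm)
    · ext ⟨⟨⟨y, hyS⟩, hyA⟩, hyy⟩
      simp only [Set.mem_insert_iff, Set.mem_singleton_iff, Set.mem_univ, iff_true]
      have e : y * y = 1 := by
        have := congrArg (fun z => z.1.1) hyy
        exact this
      rcases center_eq y (sq_eq_one_iff hc e) with h | h
      · left
        apply Subtype.ext
        apply Subtype.ext
        exact Subtype.ext h
      · right
        apply Subtype.ext
        apply Subtype.ext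
        exact Subtype.ext h

/-- The case `q ≡ ±3 mod 8`, `ℓ = 2`. -/
theorem card_N_quat (hodd : Odd (Fintype.card F)) (hq8 : Fintype.card F % 8 = 3 ∨ Fintype.card F % 8 = 5)
    (S : Sylow 2 (SL2 F)) :
    Nat.card (Subgroup.normalizer ((S : Subgroup (SL2 F)) : Set (SL2 F))) = 24 ∧
    (commutator (Subgroup.normalizer ((S : Subgroup (SL2 F)) : Set (SL2 F)))).index = 3 := by
  classical
  have hc := ringChar_ne_two hodd
  obtain ⟨A, hA, hS, hidx, hcase⟩ := exists_torus_data hodd S
  have h4 : 4 ∣ Nat.card A := by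
    rcases hcase with ⟨h1, h2⟩ | ⟨h1, h2⟩ <;> rw [h2] <;> omega
  have h8 : ¬ 8 ∣ Nat.card A := by
    rcases hcase with ⟨h1, h2⟩ | ⟨h1, h2⟩ <;> rw [h2] <;> omega
  obtain ⟨g, w, h, hgS, hwS, hhN, hgg, hhg, hhw, hall, hle, hge⟩ :=
    Cfsg.Agent.Lib.SL2QuatData.quat_data hA hc S hS hidx h4 h8
  have h3 := (sylow_two hodd S).2.2 hq8
  have hN24 : Nat.card (Subgroup.normalizer ((S : Subgroup (SL2 F)) : Set (SL2 F))) = 24 := by omega
  have hS8 : Nat.card (S : Subgroup (SL2 F)) = 8 := by omega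
  refine ⟨hN24, ?_⟩
  set N := Subgroup.normalizer ((S : Subgroup (SL2 F)) : Set (SL2 F)) with hNdef
  have hSN : (S : Subgroup (SL2 F)) ≤ N := Subgroup.le_normalizer
  set S' := (S : Subgroup (SL2 F)).subgroupOf N with hS'
  have hnor : S'.Normal := Subgroup.normal_in_normalizer
  have hidx3 : S'.index = 3 := by
    have h5 : S'.index * Nat.card (S : Subgroup (SL2 F)) = Nat.card N := index_mul_card hSN
    rw [hN24, hS8] at h5
    omega
  have hD1 : commutator N ≤ S' := by
    rw [← Subgroup.Normal.quotient_commutative_iff_commutator_le]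
    have hcard : Nat.card (N ⧸ S') = 3 := hidx3
    haveI : Fact (Nat.Prime 3) := ⟨Nat.prime_three⟩
    haveI : IsCyclic (N ⧸ S') := isCyclic_of_prime_card hcard
    exact IsCyclic.isMulCommutative
  have hD2 : S' ≤ commutator N := by
    set D := commutator N with hD
    let g' : N := ⟨g, hSN hgS⟩
    let w' : N := ⟨w, hSN hwS⟩
    let h' : N := ⟨h, hhN⟩
    have hcm : ∀ a b : N, ⁅a, b⁆ ∈ D := fun a b =>
      Subgroup.commutator_mem_commutator (Subgroup.mem_top _) (Subgroup.mem_top _)
    have hg'D : g' ∈ D := by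
      have : g' = ⁅h', w'⁆ := by
        apply Subtype.ext
        rw [commutatorElement_def]
        show g = h * w * h⁻¹ * w⁻¹
        rw [hhw]
        group
      rw [this]
      exact hcm _ _
    have hw'D : w' ∈ D := by
      have : w' = ⁅h', g'⁆ * g' := by
        apply Subtype.ext
        rw [commutatorElement_def]
        show w = h * g * h⁻¹ * g⁻¹ * g
        rw [hhg]
        group
      rw [this]
      exact D.mul_mem (hcm _ _) hg'D
    have hmD : (⟨negS 1, hSN (by rw [← hgg]; exact Subgroup.mul_mem _ hgS hgS)⟩ : N) ∈ D := by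
      have : (⟨negS 1, hSN (by rw [← hgg]; exact Subgroup.mul_mem _ hgS hgS)⟩ : N) = g' * g' := by
        apply Subtype.ext
        exact hgg.symm
      rw [this]
      exact D.mul_mem hg'D hg'D
    rintro ⟨y, hyN⟩ hy
    have hyS : y ∈ (S : Subgroup (SL2 F)) := Subgroup.mem_subgroupOf.mp hy
    have hprod : ∀ (a b : N) (c : SL2 F), a ∈ D → b ∈ D → c = a.1 * b.1 → ∀ hc : c ∈ N, (⟨c, hc⟩ : N) ∈ D := by
      intro a b c ha hb hc' hc
      have : (⟨c, hc⟩ : N) = a * b := Subtype.ext hc'
      rw [this]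
      exact D.mul_mem ha hb
    rcases hall y hyS with e | e | e | e | e | e | e | e
    · subst e
      exact D.one_mem
    · subst e
      exact hmD
    · subst e
      exact hg'D
    · subst e
      exact hprod _ _ _ hmD hg'D rfl _
    · subst e
      exact hw'D
    · subst e
      exact hprod _ _ _ hmD hw'D rfl _
    · subst e
      exact hprod _ _ _ hg'D hw'D rfl _
    · subst e
      have h5 : (⟨negS 1 * g, N.mul_mem (hSN (by rw [← hgg]; exact Subgroup.mul_mem _ hgS hgS)) (hSN hgS)⟩ : N) ∈ D :=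
        hprod _ _ _ hmD hg'D rfl _
      exact hprod _ _ _ h5 hw'D rfl _
  rw [le_antisymm hD1 hD2]
  exact hidx3

end sl2

end Cfsg.Agent.Lib.SL2McKayN
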