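import Mathlib
import Cfsg.Agent.Lib.FixedVec

/-!
`SL_n(2)` (and `GL_n(2)`), `n ≥ 2`, has no nontrivial normal 2-subgroup.
-/

set_option autoImplicit false

namespace Cfsg.Agent.Lib.SLTwoCore

open Matrix

variable {n : ℕ}

/-- An elementary transvection in `SL_n`. -/
def tvSL (i j : Fin n) (h : i ≠ j) : SpecialLinearGroup (Fin n) (ZMod 2) :=
  ⟨transvection i j 1, det_transvection_of_ne i j h 1⟩

theorem tvSL_mulVec (i j : Fin n) (h : i ≠ j) (v : Fin n → ZMod 2) :
    (tvSL i j h : Matrix (Fin n) (Fin n) (ZMod 2)).mulVec v = v + Pi.single i (v j) := by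
  funext k
  show (transvection i j (1 : ZMod 2)).mulVec v k = _
  unfold transvection
  rw [Matrix.add_mulVec, Matrix.one_mulVec, Pi.add_apply, Pi.add_apply]
  congr 1
  rw [Matrix.mulVec, dotProduct]
  by_cases hk : k = i
  · subst hk
    simp [Matrix.single_apply]
  · have hk' : i ≠ k := Ne.symm hk
    simp [hk, hk']

theorem zmod2_eq_one_of_ne : ∀ x : ZMod 2, x ≠ 0 → x = 1 := by decide

/-- A normal 2-subgroup of `SL_n(2)`, `n ≥ 2`, is trivial. -/
theorem normal_two_eq_bot (hn : 2 ≤ n) (N : Subgroup (SpecialLinearGroup (Fin n) (ZMod 2)))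
    (hN : N.Normal) (h2 : IsPGroup 2 N) : N = ⊥ := by
  classical
  have : Fact (Nat.Prime 2) := ⟨Nat.prime_two⟩
  let ρ : N →* Matrix (Fin n) (Fin n) (ZMod 2) :=
    { toFun := fun x => ((x : SpecialLinearGroup (Fin n) (ZMod 2)) : Matrix (Fin n) (Fin n) (ZMod 2))
      map_one' := rfl
      map_mul' := fun _ _ => rfl }
  have hne : (⊤ : Submodule (ZMod 2) (Fin n → ZMod 2)) ≠ ⊥ := by
    intro h
    have h1 : (Pi.single ⟨0, by omega⟩ 1 : Fin n → ZMod 2) ∈ (⊤ : Submodule (ZMod 2) (Fin n → ZMod 2)) :=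
      Submodule.mem_top
    rw [h, Submodule.mem_bot] at h1
    have h2 := congrFun h1 ⟨0, by omega⟩
    simp at h2
  obtain ⟨w, -, hw0, hw⟩ := Cfsg.Agent.Lib.FixedVec.exists_fixed_vector (p := 2) h2 ρ ⊤
    (fun _ _ _ => Submodule.mem_top) hne
  -- the fixed space is invariant under `SL_n`
  have hfix : ∀ (g : SpecialLinearGroup (Fin n) (ZMod 2)) (x : N) (v : Fin n → ZMod 2),
      (∀ y : N, (y : SpecialLinearGroup (Fin n) (ZMod 2)).1.mulVec v = v) →
      (x : SpecialLinearGroup (Fin n) (ZMod 2)).1.mulVec (g.1.mulVec v) = g.1.mulVec v := by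
    intro g x v hv
    have hy := hv ⟨g⁻¹ * x * g, by
      have := hN.conj_mem x x.2 g⁻¹
      simpa using this⟩
    have h3 : (g⁻¹ * (x : SpecialLinearGroup (Fin n) (ZMod 2)) * g).1.mulVec v = v := hy
    have h4 : (g⁻¹ * (x : SpecialLinearGroup (Fin n) (ZMod 2)) * g).1 =
        (g⁻¹).1 * (x : SpecialLinearGroup (Fin n) (ZMod 2)).1 * g.1 := rfl
    rw [h4, ← Matrix.mulVec_mulVec, ← Matrix.mulVec_mulVec] at h3
    have h5 := congrArg (fun u => g.1.mulVec u) h3
    simp only [Matrix.mulVec_mulVec] at h5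
    have h6 : g.1 * (g⁻¹).1 = 1 := by
      have := congrArg Subtype.val (mul_inv_cancel g)
      exact this
    rw [← Matrix.mul_assoc, h6, Matrix.one_mul] at h5
    rw [← Matrix.mulVec_mulVec] at h5
    exact h5
  -- the standard vectors are fixed
  obtain ⟨i, hi⟩ : ∃ i, w i ≠ 0 := by
    by_contra h
    push Not at h
    exact hw0 (funext h)
  have hi1 : w i = 1 := zmod2_eq_one_of_ne _ hi
  have hwfix : ∀ y : N, (y : SpecialLinearGroup (Fin n) (ZMod 2)).1.mulVec w = w := hw
  have hadd : ∀ (x : N) (u v : Fin n → ZMod 2), (x : SpecialLinearGroup (Fin n) (ZMod 2)).1.mulVec (u + v) = (x : SpecialLinearGroup (Fin n) (ZMod 2)).1.mulVec u + (x : SpecialLinearGroup (Fin n) (ZMod 2)).1.mulVec v :=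
    fun x u v => Matrix.mulVec_add _ _ _
  have hstep : ∀ (u : Fin n → ZMod 2) (a b : Fin n), a ≠ b → u b = 1 →
      (∀ y : N, (y : SpecialLinearGroup (Fin n) (ZMod 2)).1.mulVec u = u) →
      ∀ y : N, (y : SpecialLinearGroup (Fin n) (ZMod 2)).1.mulVec (Pi.single a 1) = Pi.single a 1 := by
    intro u a b hab hu hfx y
    have h1 := hfix (tvSL a b hab) y u hfx
    rw [tvSL_mulVec, hu, hadd, hfx y] at h1
    exact add_left_cancel h1
  have hall : ∀ (a : Fin n) (y : N), (y : SpecialLinearGroup (Fin n) (ZMod 2)).1.mulVec (Pi.single a 1) = Pi.single a 1 := by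
    intro a
    by_cases hai : a = i
    · subst hai
      obtain ⟨j, hj⟩ : ∃ j : Fin n, j ≠ a := by
        by_cases h0 : a.val = 0
        · exact ⟨⟨1, by omega⟩, fun e => by
            have := congrArg Fin.val e
            simp at this
            omega⟩
        · exact ⟨⟨0, by omega⟩, fun e => h0 (by
            have := congrArg Fin.val e
            simpa using this.symm)⟩
      have h1 := hstep w j a hj hi1 hwfix
      exact hstep (Pi.single j 1) a j (Ne.symm hj) (by simp) h1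
    · exact hstep w a i hai hi1 hwfix
  rw [eq_bot_iff]
  intro x hx
  rw [Subgroup.mem_bot]
  apply Subtype.ext
  ext a b
  have h1 := congrFun (hall b ⟨x, hx⟩) a
  simp only [Matrix.mulVec_single_one] at h1
  show x.1 a b = (1 : Matrix (Fin n) (Fin n) (ZMod 2)) a b
  rw [Matrix.one_apply]
  have h2 : (x.1.col b) a = x.1 a b := rfl
  rw [← h2]
  rw [h1]
  simp [Pi.single_apply]

end Cfsg.Agent.Lib.SLTwoCore
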