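import Mathlib

set_option autoImplicit false
set_option linter.unusedSectionVars false
set_option linter.unusedSimpArgs false
set_option linter.unusedVariables false

/-!
# Strongly regular graphs with parameters (15, 6, 1, 3): cocliques of size 5

Every vertex of such a graph lies in exactly two cocliques of size 5.
-/

namespace Cfsg.Agent.Lib.SRG77GQ
open Finset

variable {T : Type*} [Fintype T] [DecidableEq T] {r : T → T → Prop} [DecidableRel r]

/-- Integer indicator of the relation. -/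
def ri (r : T → T → Prop) [DecidableRel r] (u v : T) : ℤ := if r u v then 1 else 0

theorem ri_nonneg (u v : T) : 0 ≤ ri r u v := by unfold ri; split <;> norm_num

theorem ri_le_one (u v : T) : ri r u v ≤ 1 := by unfold ri; split <;> norm_num

theorem ri_of {u v : T} (h : r u v) : ri r u v = 1 := by simp [ri, h]

theorem ri_of_not {u v : T} (h : ¬ r u v) : ri r u v = 0 := by simp [ri, h]

theorem ri_sq (u v : T) : ri r u v * ri r u v = ri r u v := by
  unfold ri; split <;> norm_num

/-- The hypotheses. -/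
structure Hyp (r : T → T → Prop) [DecidableRel r] : Prop where
  card : Fintype.card T = 15
  symm : ∀ u v, r u v → r v u
  irr : ∀ u, ¬ r u u
  sq : ∀ u v, ∑ w, ri r u w * ri r v w = if u = v then 6 else if r u v then 1 else 3

variable (h : Hyp r)
include h

theorem ri_comm (u v : T) : ri r u v = ri r v u := by
  unfold ri
  by_cases h1 : r u v
  · simp [h1, h.symm u v h1]
  · have h2 : ¬ r v u := fun h' => h1 (h.symm v u h')
    simp [h1, h2]

theorem deg (u : T) : ∑ w, ri r u w = 6 := by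
  have := h.sq u u
  simp only [ri_sq, if_true] at this
  exact this

/-- Uniqueness of the third point of a line. -/
theorem third_unique {u v z z' : T} (huv : r u v) (hz : r u z) (hz2 : r v z) (hz' : r u z')
    (hz2' : r v z') : z = z' := by
  by_contra hne
  have h1 := h.sq u v
  have huv' : u ≠ v := by
    rintro rfl
    exact h.irr _ huv
  rw [if_neg huv', if_pos huv] at h1
  have h2 : ∑ w ∈ ({z, z'} : Finset T), ri r u w * ri r v w ≤ ∑ w, ri r u w * ri r v w := by
    apply Finset.sum_le_sum_of_subset_of_nonneg (subset_univ _)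
    intro i _ _
    exact mul_nonneg (ri_nonneg _ _) (ri_nonneg _ _)
  rw [sum_pair hne, ri_of hz, ri_of hz2, ri_of hz', ri_of hz2', h1] at h2
  norm_num at h2

theorem third_exists {u v : T} (huv : r u v) : ∃ z, r u z ∧ r v z := by
  by_contra hne
  push Not at hne
  have h1 := h.sq u v
  have huv' : u ≠ v := by
    rintro rfl
    exact h.irr _ huv
  rw [if_neg huv', if_pos huv] at h1
  rw [Finset.sum_eq_zero] at h1
  · norm_num at h1
  · intro w _
    by_cases h2 : r u w
    · rw [ri_of_not (hne w h2), mul_zero]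
    · rw [ri_of_not h2, zero_mul]

/-- The generalized quadrangle axiom. -/
theorem gq_axiom {u v z : T} (huv : r u v) (hz : r u z) (hz2 : r v z) (p : T) (hpu : p ≠ u)
    (hpv : p ≠ v) (hpz : p ≠ z) : ri r p u + ri r p v + ri r p z = 1 := by
  have hne1 : u ≠ v := by rintro rfl; exact h.irr _ huv
  have hne2 : u ≠ z := by rintro rfl; exact h.irr _ hz
  have hne3 : v ≠ z := by rintro rfl; exact h.irr _ hz2
  -- upper bound
  have hle : ∀ q, q ≠ u → q ≠ v → q ≠ z → ri r q u + ri r q v + ri r q z ≤ 1 := by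
    intro q hqu hqv hqz
    have e1 : ¬ (r q u ∧ r q v) := fun ⟨h1, h2⟩ =>
      hqz (third_unique h huv (h.symm _ _ h1) (h.symm _ _ h2) hz hz2)
    have e2 : ¬ (r q u ∧ r q z) := fun ⟨h1, h2⟩ =>
      hqv (third_unique h hz (h.symm _ _ h1) (h.symm _ _ h2) huv (h.symm _ _ hz2))
    have e3 : ¬ (r q v ∧ r q z) := fun ⟨h1, h2⟩ =>
      hqu (third_unique h hz2 (h.symm _ _ h1) (h.symm _ _ h2) (h.symm _ _ huv) (h.symm _ _ hz))
    by_cases h1 : r q u <;> by_cases h2 : r q v <;> by_cases h3 : r q z <;>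
      simp_all [ri]
  -- total
  set s : T → ℤ := fun q => ri r q u + ri r q v + ri r q z with hs
  have htot : ∑ q, s q = 18 := by
    simp only [hs, sum_add_distrib]
    have e1 := deg h u
    have e2 := deg h v
    have e3 := deg h z
    simp only [fun q => ri_comm h q u, fun q => ri_comm h q v, fun q => ri_comm h q z]
    omega
  set L : Finset T := {u, v, z} with hL
  have hLcard : L.card = 3 := by
    rw [hL, card_eq_three]
    exact ⟨u, v, z, hne1, hne2, hne3, rfl⟩
  have hLsum : ∑ q ∈ L, s q = 6 := by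
    rw [hL, sum_insert (by simp [hne1, hne2]), sum_insert (by simp [hne3]), sum_singleton]
    simp only [hs, ri_of huv, ri_of hz, ri_of (h.symm _ _ huv), ri_of (h.symm _ _ hz), ri_of hz2,
      ri_of (h.symm _ _ hz2), ri_of_not (h.irr u), ri_of_not (h.irr v), ri_of_not (h.irr z)]
    norm_num
  have hrest : ∑ q ∈ univ \ L, (1 - s q) = 0 := by
    rw [sum_sub_distrib, sum_const, card_sdiff_of_subset (subset_univ _), card_univ, h.card, hLcard]
    have := Finset.sum_sdiff (subset_univ L) (f := s)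
    rw [htot, hLsum] at this
    have h4 : ∑ q ∈ univ \ L, s q = 12 := by linarith
    rw [h4]
    norm_num
  have hp : p ∈ univ \ L := by
    simp [hL, hpu, hpv, hpz]
  have := (Finset.sum_eq_zero_iff_of_nonneg (s := univ \ L) (f := fun q => 1 - s q) (fun q hq => by
    simp only [mem_sdiff, mem_univ, true_and, hL, mem_insert, mem_singleton, not_or] at hq
    have := hle q hq.1 hq.2.1 hq.2.2
    simp only [hs]
    linarith)).1 hrest p hp
  simp only [hs] at this
  linarith

section pair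

/-- Common neighbours of `a, b`. -/
def U (r : T → T → Prop) [DecidableRel r] (a b : T) : Finset T :=
  univ.filter fun z => r a z ∧ r b z

/-- Points other than `a, b`, adjacent to neither. -/
def W (r : T → T → Prop) [DecidableRel r] (a b : T) : Finset T :=
  univ.filter fun w => w ≠ a ∧ w ≠ b ∧ ¬ r a w ∧ ¬ r b w

omit h in
theorem mem_U {a b z : T} : z ∈ U r a b ↔ r a z ∧ r b z := by simp [U]

omit h in
theorem mem_W {a b w : T} : w ∈ W r a b ↔ w ≠ a ∧ w ≠ b ∧ ¬ r a w ∧ ¬ r b w := by simp [W]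

omit h in
theorem sum_U (a b : T) (g : T → ℤ) : ∑ z ∈ U r a b, g z = ∑ z, g z * ri r a z * ri r b z := by
  rw [U, sum_filter]
  refine sum_congr rfl fun z _ => ?_
  by_cases h1 : r a z <;> by_cases h2 : r b z <;> simp [ri, h1, h2]

variable {a b : T} (hab : a ≠ b) (hna : ¬ r a b)
include hab hna

theorem sum_W (g : T → ℤ) : ∑ w ∈ W r a b, g w
    = ∑ w, g w * (1 - ri r a w) * (1 - ri r b w) - g a - g b := by
  have hnb : ¬ r b a := fun h' => hna (h.symm _ _ h')
  have h1 : ∀ w, g w * (1 - ri r a w) * (1 - ri r b w)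
      = (if w ≠ a ∧ w ≠ b ∧ ¬ r a w ∧ ¬ r b w then g w else 0) + (if w = a then g a else 0)
        + (if w = b then g b else 0) := by
    intro w
    by_cases h2 : w = a
    · subst h2
      simp [ri, h.irr, hnb, hab]
    · by_cases h3 : w = b
      · subst h3
        simp [ri, h.irr, hna, h2]
      · by_cases h4 : r a w <;> by_cases h5 : r b w <;> simp [ri, h2, h3, h4, h5]
  rw [sum_congr rfl fun w _ => h1 w, sum_add_distrib, sum_add_distrib, W, sum_filter]
  simp
  ring

theorem card_W : (W r a b).card = 4 := by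
  have h1 := sum_W h hab hna (fun _ => (1 : ℤ))
  simp only [sum_const, nsmul_eq_mul, mul_one, one_mul] at h1
  have h2 : ∀ w, (1 - ri r a w) * (1 - ri r b w) = 1 - ri r a w - ri r b w + ri r a w * ri r b w := by
    intro w; ring
  rw [sum_congr rfl fun w _ => h2 w, sum_add_distrib, sum_sub_distrib, sum_sub_distrib, h.sq a b,
    deg h a, deg h b, if_neg hab, if_neg hna] at h1
  simp only [sum_const, card_univ, h.card, nsmul_eq_mul, mul_one] at h1
  norm_num at h1
  exact_mod_cast h1

theorem card_U : (U r a b).card = 3 := by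
  have h1 := sum_U (r := r) a b (fun _ => (1 : ℤ))
  simp only [sum_const, nsmul_eq_mul, mul_one, one_mul] at h1
  rw [h.sq a b, if_neg hab, if_neg hna] at h1
  exact_mod_cast h1

theorem triple_zero {u : T} (hu : u ∈ U r a b) (w : T) : ri r u w * ri r a w * ri r b w = 0 := by
  obtain ⟨h1, h2⟩ := mem_U.1 hu
  by_cases h3 : r u w
  · by_cases h4 : r a w
    · by_cases h5 : r b w
      · exfalso
        apply hab
        exact third_unique h h3 (h.symm _ _ h1) (h.symm _ _ h4) (h.symm _ _ h2) (h.symm _ _ h5)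
      · rw [ri_of_not h5, mul_zero]
    · rw [ri_of_not h4, mul_zero, zero_mul]
  · rw [ri_of_not h3, zero_mul, zero_mul]

/-- Every common neighbour has exactly two neighbours in `W`. -/
theorem sum_W_U {u : T} (hu : u ∈ U r a b) : ∑ w ∈ W r a b, ri r u w = 2 := by
  obtain ⟨h1, h2⟩ := mem_U.1 hu
  have hne1 : u ≠ a := by rintro rfl; exact h.irr _ h1
  have hne2 : u ≠ b := by rintro rfl; exact h.irr _ h2
  rw [sum_W h hab hna]
  have h3 : ∀ w, ri r u w * (1 - ri r a w) * (1 - ri r b w)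
      = ri r u w - ri r u w * ri r a w - ri r u w * ri r b w + ri r u w * ri r a w * ri r b w := by
    intro w; ring
  rw [sum_congr rfl fun w _ => h3 w, sum_add_distrib, sum_sub_distrib, sum_sub_distrib, deg h u,
    h.sq u a, h.sq u b, if_neg hne1, if_neg hne2, if_pos (h.symm _ _ h1), if_pos (h.symm _ _ h2),
    sum_eq_zero fun w _ => triple_zero h hab hna hu w, ri_of (h.symm _ _ h1), ri_of (h.symm _ _ h2)]
  norm_num

/-- Number of neighbours in `W` equals number of neighbours in `U`. -/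
theorem deg_W {w : T} (hw : w ∈ W r a b) : ∑ z ∈ W r a b, ri r w z = ∑ z ∈ U r a b, ri r w z := by
  obtain ⟨h1, h2, h3, h4⟩ := mem_W.1 hw
  have h3' : ¬ r w a := fun h' => h3 (h.symm _ _ h')
  have h4' : ¬ r w b := fun h' => h4 (h.symm _ _ h')
  rw [sum_W h hab hna, sum_U]
  have h5 : ∀ z, ri r w z * (1 - ri r a z) * (1 - ri r b z)
      = ri r w z - ri r w z * ri r a z - ri r w z * ri r b z + ri r w z * ri r a z * ri r b z := by
    intro z; ring
  rw [sum_congr rfl fun z _ => h5 z, sum_add_distrib, sum_sub_distrib, sum_sub_distrib, deg h w,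
    h.sq w a, h.sq w b, if_neg h1, if_neg h2, if_neg h3', if_neg h4', ri_of_not h3', ri_of_not h4']
  norm_num

theorem sum_deg_W : ∑ w ∈ W r a b, ∑ z ∈ W r a b, ri r w z = 6 := by
  rw [sum_congr rfl fun w hw => deg_W h hab hna hw, sum_comm]
  have h1 : ∀ z ∈ U r a b, ∑ w ∈ W r a b, ri r w z = 2 := by
    intro z hz
    rw [← sum_W_U h hab hna hz]
    exact sum_congr rfl fun w _ => ri_comm h _ _
  rw [sum_congr rfl h1, sum_const, card_U h hab hna]
  norm_num

/-- On an edge of `W`, the degrees add up to 4. -/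
theorem edge_sum {w w' : T} (hw : w ∈ W r a b) (hw' : w' ∈ W r a b) (hr : r w w') :
    ∑ z ∈ W r a b, ri r w z + ∑ z ∈ W r a b, ri r w' z = 4 := by
  rw [deg_W h hab hna hw, deg_W h hab hna hw', ← sum_add_distrib]
  obtain ⟨h1, h2, h3, h4⟩ := mem_W.1 hw
  obtain ⟨h1', h2', h3', h4'⟩ := mem_W.1 hw'
  obtain ⟨z, hz, hz'⟩ := third_exists h hr
  have hza : a ≠ z := by
    rintro rfl
    exact h3 (h.symm _ _ hz)
  have hzb : b ≠ z := by
    rintro rfl
    exact h4 (h.symm _ _ hz)
  have hzU : z ∈ U r a b := by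
    have e1 := gq_axiom h hr hz hz' a h1.symm h1'.symm hza
    have e2 := gq_axiom h hr hz hz' b h2.symm h2'.symm hzb
    rw [ri_of_not h3, ri_of_not h3'] at e1
    rw [ri_of_not h4, ri_of_not h4'] at e2
    refine mem_U.2 ⟨?_, ?_⟩
    · by_contra h'
      rw [ri_of_not h'] at e1
      norm_num at e1
    · by_contra h'
      rw [ri_of_not h'] at e2
      norm_num at e2
  have h5 : ∀ u ∈ (U r a b).erase z, ri r w u + ri r w' u = 1 := by
    intro u hu
    obtain ⟨hu1, hu2⟩ := mem_erase.1 hu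
    obtain ⟨hua, hub⟩ := mem_U.1 hu2
    have huw : u ≠ w := by
      rintro rfl
      exact h3 hua
    have huw' : u ≠ w' := by
      rintro rfl
      exact h3' hua
    have e1 := gq_axiom h hr hz hz' u huw huw' hu1
    have e2 : ¬ r u z := by
      intro h6
      apply hab
      obtain ⟨hza', hzb'⟩ := mem_U.1 hzU
      exact third_unique h h6 (h.symm _ _ hua) (h.symm _ _ hza') (h.symm _ _ hub) (h.symm _ _ hzb')
    rw [ri_of_not e2, ri_comm h u w, ri_comm h u w'] at e1
    linarith
  rw [← add_sum_erase _ _ hzU, ri_of hz, ri_of hz', sum_congr rfl h5, sum_const,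
    card_erase_of_mem hzU, card_U h hab hna]
  norm_num

/-- No triangles in `W`. -/
theorem no_triangle {w w' w'' : T} (hw : w ∈ W r a b) (hw' : w' ∈ W r a b) (hw'' : w'' ∈ W r a b)
    (h1 : r w w') (h2 : r w w'') (h3 : r w' w'') : False := by
  obtain ⟨h1a, h2a, h3a, h4a⟩ := mem_W.1 hw
  obtain ⟨h1b, h2b, h3b, h4b⟩ := mem_W.1 hw'
  obtain ⟨h1c, h2c, h3c, h4c⟩ := mem_W.1 hw''
  have hza : a ≠ w'' := h1c.symm
  have e1 := gq_axiom h h1 h2 h3 a h1a.symm h1b.symm hza
  rw [ri_of_not h3a, ri_of_not h3b, ri_of_not h3c] at e1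
  norm_num at e1

/-- A vertex of `W` adjacent to all the others exists. -/
theorem star_exists : ∃ w₀ ∈ W r a b, ∑ z ∈ W r a b, ri r w₀ z = 3 := by
  have hc := card_W h hab hna
  obtain ⟨w1, S, hw1, hS, hSc⟩ : ∃ w1 S, w1 ∉ S ∧ insert w1 S = W r a b ∧ S.card = 3 := by
    obtain ⟨w1, S, hw1, hS, hSc⟩ := card_eq_succ.1 hc
    exact ⟨w1, S, hw1, hS, hSc⟩
  obtain ⟨w2, w3, w4, h23, h24, h34, rfl⟩ := card_eq_three.1 hSc
  simp only [mem_insert, mem_singleton, not_or] at hw1
  obtain ⟨h12, h13, h14⟩ := hw1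
  have mem1 : w1 ∈ W r a b := by rw [← hS]; simp
  have mem2 : w2 ∈ W r a b := by rw [← hS]; simp
  have mem3 : w3 ∈ W r a b := by rw [← hS]; simp
  have mem4 : w4 ∈ W r a b := by rw [← hS]; simp
  have hsum : ∀ g : T → ℤ, ∑ z ∈ W r a b, g z = g w1 + g w2 + g w3 + g w4 := by
    intro g
    rw [← hS, sum_insert (by simp [h12, h13, h14]), sum_insert (by simp [h23, h24]),
      sum_insert (by simp [h34]), sum_singleton]
    ring
  have key : ∀ v v', ri r v v' = 1 → r v v' := by
    intro v v' hv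
    by_contra h'
    rw [ri_of_not h'] at hv
    norm_num at hv
  suffices hd : ri r w1 w2 + ri r w1 w3 + ri r w1 w4 = 3 ∨ ri r w1 w2 + ri r w2 w3 + ri r w2 w4 = 3 ∨
      ri r w1 w3 + ri r w2 w3 + ri r w3 w4 = 3 ∨ ri r w1 w4 + ri r w2 w4 + ri r w3 w4 = 3 by
    rcases hd with h7 | h7 | h7 | h7
    · refine ⟨w1, mem1, ?_⟩
      rw [hsum, ri_of_not (h.irr w1)]
      linarith
    · refine ⟨w2, mem2, ?_⟩
      rw [hsum, ri_of_not (h.irr w2), ri_comm h w2 w1]
      linarith
    · refine ⟨w3, mem3, ?_⟩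
      rw [hsum, ri_of_not (h.irr w3), ri_comm h w3 w1, ri_comm h w3 w2]
      linarith
    · refine ⟨w4, mem4, ?_⟩
      rw [hsum, ri_of_not (h.irr w4), ri_comm h w4 w1, ri_comm h w4 w2, ri_comm h w4 w3]
      linarith
  have h6 := sum_deg_W h hab hna
  rw [hsum] at h6
  simp only [hsum, ri_of_not (h.irr w1), ri_of_not (h.irr w2), ri_of_not (h.irr w3),
    ri_of_not (h.irr w4)] at h6
  rw [ri_comm h w2 w1, ri_comm h w3 w1, ri_comm h w4 w1, ri_comm h w3 w2, ri_comm h w4 w2,
    ri_comm h w4 w3] at h6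
  have e12 := edge_sum h hab hna mem1 mem2
  have e13 := edge_sum h hab hna mem1 mem3
  have e14 := edge_sum h hab hna mem1 mem4
  have e23 := edge_sum h hab hna mem2 mem3
  have e24 := edge_sum h hab hna mem2 mem4
  have e34 := edge_sum h hab hna mem3 mem4
  simp only [hsum, ri_of_not (h.irr w1), ri_of_not (h.irr w2), ri_of_not (h.irr w3),
    ri_of_not (h.irr w4)] at e12 e13 e14 e23 e24 e34
  simp only [ri_comm h w2 w1, ri_comm h w3 w1, ri_comm h w4 w1, ri_comm h w3 w2, ri_comm h w4 w2,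
    ri_comm h w4 w3] at e12 e13 e14 e23 e24 e34
  have t123 : ¬ (ri r w1 w2 = 1 ∧ ri r w1 w3 = 1 ∧ ri r w2 w3 = 1) := fun ⟨x, y, z⟩ =>
    no_triangle h hab hna mem1 mem2 mem3 (key _ _ x) (key _ _ y) (key _ _ z)
  have t124 : ¬ (ri r w1 w2 = 1 ∧ ri r w1 w4 = 1 ∧ ri r w2 w4 = 1) := fun ⟨x, y, z⟩ =>
    no_triangle h hab hna mem1 mem2 mem4 (key _ _ x) (key _ _ y) (key _ _ z)
  have t134 : ¬ (ri r w1 w3 = 1 ∧ ri r w1 w4 = 1 ∧ ri r w3 w4 = 1) := fun ⟨x, y, z⟩ =>
    no_triangle h hab hna mem1 mem3 mem4 (key _ _ x) (key _ _ y) (key _ _ z)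
  have t234 : ¬ (ri r w2 w3 = 1 ∧ ri r w2 w4 = 1 ∧ ri r w3 w4 = 1) := fun ⟨x, y, z⟩ =>
    no_triangle h hab hna mem2 mem3 mem4 (key _ _ x) (key _ _ y) (key _ _ z)
  have f12 : ri r w1 w2 = 1 → _ := fun x => e12 (key _ _ x)
  have f13 : ri r w1 w3 = 1 → _ := fun x => e13 (key _ _ x)
  have f14 : ri r w1 w4 = 1 → _ := fun x => e14 (key _ _ x)
  have f23 : ri r w2 w3 = 1 → _ := fun x => e23 (key _ _ x)
  have f24 : ri r w2 w4 = 1 → _ := fun x => e24 (key _ _ x)
  have f34 : ri r w3 w4 = 1 → _ := fun x => e34 (key _ _ x)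
  clear e12 e13 e14 e23 e24 e34
  have b12 := ri_nonneg (r := r) w1 w2
  have c12 := ri_le_one (r := r) w1 w2
  have b13 := ri_nonneg (r := r) w1 w3
  have c13 := ri_le_one (r := r) w1 w3
  have b14 := ri_nonneg (r := r) w1 w4
  have c14 := ri_le_one (r := r) w1 w4
  have b23 := ri_nonneg (r := r) w2 w3
  have c23 := ri_le_one (r := r) w2 w3
  have b24 := ri_nonneg (r := r) w2 w4
  have c24 := ri_le_one (r := r) w2 w4
  have b34 := ri_nonneg (r := r) w3 w4
  have c34 := ri_le_one (r := r) w3 w4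
  generalize ri r w1 w2 = x12 at *
  generalize ri r w1 w3 = x13 at *
  generalize ri r w1 w4 = x14 at *
  generalize ri r w2 w3 = x23 at *
  generalize ri r w2 w4 = x24 at *
  generalize ri r w3 w4 = x34 at *
  omega

/-- The size-5 cocliques. -/
def IsC (r : T → T → Prop) (O : Finset T) : Prop := O.card = 5 ∧ ∀ v ∈ O, ∀ w ∈ O, ¬ r v w

omit [Fintype T] [DecidableEq T] in
instance instDecIsC (O : Finset T) : Decidable (IsC r O) := by
  unfold IsC
  infer_instance

/-- Existence and uniqueness of a 5-coclique through a non-adjacent pair. -/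
theorem existsUnique_coc : ∃! O, IsC r O ∧ a ∈ O ∧ b ∈ O := by
  obtain ⟨w₀, hw₀, hd⟩ := star_exists h hab hna
  have hadj : ∀ w ∈ (W r a b).erase w₀, r w₀ w := by
    have h1 : ∑ z ∈ (W r a b).erase w₀, (1 - ri r w₀ z) = 0 := by
      rw [sum_sub_distrib, sum_const, card_erase_of_mem hw₀, card_W h hab hna]
      have := add_sum_erase _ (fun z => ri r w₀ z) hw₀
      simp only [ri_of_not (h.irr w₀)] at this
      rw [hd] at this
      rw [show ∑ z ∈ (W r a b).erase w₀, ri r w₀ z = 3 by linarith]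
      norm_num
    intro w hw
    have h2 := (Finset.sum_eq_zero_iff_of_nonneg (fun z _ => by
      have := ri_le_one (r := r) w₀ z
      linarith)).1 h1 w hw
    by_contra h3
    rw [ri_of_not h3] at h2
    norm_num at h2
  set L := (W r a b).erase w₀ with hL
  have hLc : L.card = 3 := by
    rw [hL, card_erase_of_mem hw₀, card_W h hab hna]
  have hLW : ∀ w ∈ L, w ∈ W r a b := fun w hw => (mem_erase.1 hw).2
  have hnb : ¬ r b a := fun h' => hna (h.symm _ _ h')
  have hLa : a ∉ L := fun h' => (mem_W.1 (hLW a h')).1 rfl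
  have hLb : b ∉ L := fun h' => (mem_W.1 (hLW b h')).2.1 rfl
  refine ⟨insert a (insert b L), ⟨⟨?_, ?_⟩, by simp, by simp⟩, ?_⟩
  · rw [card_insert_of_notMem (by simp [hab, hLa]), card_insert_of_notMem hLb, hLc]
  · intro v hv w hw
    simp only [mem_insert] at hv hw
    rcases hv with rfl | rfl | hv <;> rcases hw with rfl | rfl | hw
    · exact h.irr _
    · exact hna
    · exact (mem_W.1 (hLW w hw)).2.2.1
    · exact hnb
    · exact h.irr _
    · exact (mem_W.1 (hLW w hw)).2.2.2
    · exact fun h' => (mem_W.1 (hLW v hv)).2.2.1 (h.symm _ _ h')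
    · exact fun h' => (mem_W.1 (hLW v hv)).2.2.2 (h.symm _ _ h')
    · intro h3
      exact no_triangle h hab hna hw₀ (hLW v hv) (hLW w hw) (hadj v hv) (hadj w hw) h3
  · rintro O' ⟨⟨hc, hco⟩, ha, hb⟩
    have hmem : ∀ v ∈ O', v ≠ a → v ≠ b → v ∈ W r a b := by
      intro v hv h1 h2
      exact mem_W.2 ⟨h1, h2, hco a ha v hv, hco b hb v hv⟩
    have hw₀' : w₀ ∉ O' := by
      intro h3
      have h4 : 3 < O'.card := by rw [hc]; norm_num
      have h5 : ({a, b, w₀} : Finset T).card ≤ 3 := card_le_three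
      obtain ⟨v, hv, hv'⟩ := exists_mem_notMem_of_card_lt_card (lt_of_le_of_lt h5 h4)
      simp only [mem_insert, mem_singleton, not_or] at hv'
      exact hco w₀ h3 v hv (hadj v (mem_erase.2 ⟨hv'.2.2, hmem v hv hv'.1 hv'.2.1⟩))
    apply Finset.eq_of_subset_of_card_le
    · intro v hv
      by_cases h1 : v = a
      · simp [h1]
      · by_cases h2 : v = b
        · simp [h2]
        · refine mem_insert_of_mem (mem_insert_of_mem (mem_erase.2 ⟨?_, hmem v hv h1 h2⟩))
          rintro rfl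
          exact hw₀' hv
    · rw [card_insert_of_notMem (by simp [hab, hLa]), card_insert_of_notMem hLb, hLc, hc]

end pair

/-- Every vertex lies in exactly two 5-cocliques. -/
theorem card_coc (u : T) : (univ.filter fun O : Finset T => IsC r O ∧ u ∈ O).card = 2 := by
  set A := univ.filter fun O : Finset T => IsC r O ∧ u ∈ O with hA
  set B := univ.filter fun v => v ≠ u ∧ ¬ r u v with hB
  have hBc : B.card = 8 := by
    have h1 : ∑ w, (1 - ri r u w) = 9 := by
      rw [sum_sub_distrib, deg h u]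
      simp [card_univ, h.card]
    have h2 : ∀ w, (1 - ri r u w) = (if w ≠ u ∧ ¬ r u w then 1 else 0) + (if w = u then 1 else 0) := by
      intro w
      by_cases h3 : w = u
      · subst h3
        simp [ri, h.irr]
      · by_cases h4 : r u w <;> simp [ri, h3, h4]
    rw [sum_congr rfl fun w _ => h2 w, sum_add_distrib, ← Finset.natCast_card_filter] at h1
    simp only [sum_ite_eq', mem_univ, if_true] at h1
    have h5 : ((univ.filter fun w => w ≠ u ∧ ¬ r u w).card : ℤ) = 8 := by linarith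
    rw [hB]
    exact_mod_cast h5
  have hdc := Finset.sum_card_bipartiteAbove_eq_sum_card_bipartiteBelow (s := A) (t := B)
    (fun O v => v ∈ O)
  have h1 : ∀ O ∈ A, (B.bipartiteAbove (fun O v => v ∈ O) O).card = 4 := by
    intro O hO
    obtain ⟨⟨hc, hco⟩, hu⟩ := (mem_filter.1 hO).2
    have h2 : B.bipartiteAbove (fun O v => v ∈ O) O = O.erase u := by
      ext v
      simp only [bipartiteAbove, mem_filter, mem_erase, hB, mem_univ, true_and]
      constructor
      · rintro ⟨⟨h3, _⟩, h4⟩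
        exact ⟨h3, h4⟩
      · rintro ⟨h3, h4⟩
        exact ⟨⟨h3, hco u hu v h4⟩, h4⟩
    rw [h2, card_erase_of_mem hu, hc]
  have h2 : ∀ v ∈ B, (A.bipartiteBelow (fun O v => v ∈ O) v).card = 1 := by
    intro v hv
    obtain ⟨hv1, hv2⟩ := (mem_filter.1 hv).2
    obtain ⟨O, ⟨hO1, hO2, hO3⟩, hO4⟩ := existsUnique_coc h hv1.symm hv2
    rw [card_eq_one]
    refine ⟨O, ?_⟩
    ext O'
    simp only [bipartiteBelow, mem_filter, hA, mem_univ, true_and, mem_singleton]
    constructor
    · rintro ⟨⟨h3, h4⟩, h5⟩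
      exact hO4 O' ⟨h3, h4, h5⟩
    · rintro rfl
      exact ⟨⟨hO1, hO2⟩, hO3⟩
  rw [sum_congr rfl h1, sum_congr rfl h2, sum_const, sum_const, hBc] at hdc
  simp only [smul_eq_mul] at hdc
  omega

end Cfsg.Agent.Lib.SRG77GQ
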