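import Mathlib

set_option autoImplicit false
set_option linter.unusedSectionVars false
set_option linter.unusedSimpArgs false
set_option linter.unusedVariables false

/-!
# The strongly regular graph with parameters (77, 16, 0, 4): the local Gram matrix

For a vertex `x`, an integer matrix `F` on the non-neighbours of `x` satisfies `F² = 48 F`.
Its diagonal entries are `4`; entries equal to `4` describe an equivalence relation with
classes of size `4`, each partitioning the neighbours of `x`.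
-/

namespace Cfsg.Agent.Lib.SRG77Gram
open Finset

variable {V : Type*} [Fintype V] [DecidableEq V] {G : SimpleGraph V} [DecidableRel G.Adj]

/-- Integer indicator of adjacency. -/
def ad (G : SimpleGraph V) [DecidableRel G.Adj] (u v : V) : ℤ := if G.Adj u v then 1 else 0

omit [Fintype V] [DecidableEq V] in
theorem ad_of {u v : V} (h : G.Adj u v) : ad G u v = 1 := by simp [ad, h]

omit [Fintype V] [DecidableEq V] in
theorem ad_of_not {u v : V} (h : ¬ G.Adj u v) : ad G u v = 0 := by simp [ad, h]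

omit [Fintype V] [DecidableEq V] in
theorem ad_comm (u v : V) : ad G u v = ad G v u := by
  simp only [ad, G.adj_comm]

omit [Fintype V] [DecidableEq V] in
theorem ad_self (u : V) : ad G u u = 0 := by simp [ad]

omit [Fintype V] [DecidableEq V] in
theorem ad_nonneg (u v : V) : 0 ≤ ad G u v := by unfold ad; split <;> norm_num

omit [Fintype V] [DecidableEq V] in
theorem ad_le_one (u v : V) : ad G u v ≤ 1 := by unfold ad; split <;> norm_num

omit [Fintype V] [DecidableEq V] in
theorem ad_sq (u v : V) : ad G u v * ad G u v = ad G u v := by unfold ad; split <;> norm_num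

/-- The facts used about the graph. -/
structure Facts (G : SimpleGraph V) [DecidableRel G.Adj] : Prop where
  card : Fintype.card V = 77
  sq : ∀ u v, ∑ w, ad G u w * ad G v w = if u = v then 16 else if G.Adj u v then 0 else 4

theorem facts_of_srg (h : G.IsSRGWith 77 16 0 4) : Facts G := by
  refine ⟨h.card, fun u v => ?_⟩
  have h1 : ∑ w, ad G u w * ad G v w = (univ.filter fun w => G.Adj u w ∧ G.Adj v w).card := by
    rw [Finset.natCast_card_filter]
    refine sum_congr rfl fun w _ => ?_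
    by_cases h2 : G.Adj u w <;> by_cases h3 : G.Adj v w <;> simp [ad, h2, h3]
  rw [h1]
  by_cases huv : u = v
  · subst huv
    rw [if_pos rfl]
    have h2 := h.regular u
    rw [← SimpleGraph.card_neighborFinset_eq_degree] at h2
    have h3 : (univ.filter fun w => G.Adj u w ∧ G.Adj u w) = G.neighborFinset u := by
      ext w
      simp
    rw [h3, h2]
    norm_num
  · rw [if_neg huv]
    by_cases hadj : G.Adj u v
    · rw [if_pos hadj]
      have h2 := h.of_adj u v hadj
      have h3 : Fintype.card (G.commonNeighbors u v) = (univ.filter fun w => G.Adj u w ∧ G.Adj v w).card :=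
        Fintype.card_of_subtype _ fun w => by simp [SimpleGraph.mem_commonNeighbors]
      rw [← h3, h2]
      norm_num
    · rw [if_neg hadj]
      have h2 := h.of_not_adj huv hadj
      have h3 : Fintype.card (G.commonNeighbors u v) = (univ.filter fun w => G.Adj u w ∧ G.Adj v w).card :=
        Fintype.card_of_subtype _ fun w => by simp [SimpleGraph.mem_commonNeighbors]
      rw [← h3, h2]
      norm_num

variable (hF : Facts G)
include hF

theorem deg (u : V) : ∑ w, ad G u w = 16 := by
  have := hF.sq u u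
  simp only [ad_sq, if_true] at this
  exact this

/-- Triangle-freeness. -/
theorem tri {u v w : V} (h1 : G.Adj u v) (h2 : G.Adj u w) : ¬ G.Adj v w := by
  intro h3
  have h4 := hF.sq u v
  rw [if_neg h1.ne, if_pos h1] at h4
  have h5 : ad G u w * ad G v w ≤ ∑ z, ad G u z * ad G v z :=
    Finset.single_le_sum (f := fun z => ad G u z * ad G v z)
      (fun z _ => mul_nonneg (ad_nonneg _ _) (ad_nonneg _ _)) (mem_univ w)
  rw [h4, ad_of h2, ad_of h3] at h5
  norm_num at h5

/-- Neighbours of `x`. -/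
def Nb (G : SimpleGraph V) [DecidableRel G.Adj] (x : V) : Finset V := univ.filter (G.Adj x)

/-- Non-neighbours of `x`, other than `x`. -/
def Y (G : SimpleGraph V) [DecidableRel G.Adj] (x : V) : Finset V :=
  univ.filter fun w => w ≠ x ∧ ¬ G.Adj x w

omit hF [Fintype V] [DecidableEq V] in
theorem mem_Nb [Fintype V] {x a : V} : a ∈ Nb G x ↔ G.Adj x a := by simp [Nb]

omit hF [Fintype V] [DecidableEq V] in
theorem mem_Y [Fintype V] [DecidableEq V] {x a : V} : a ∈ Y G x ↔ a ≠ x ∧ ¬ G.Adj x a := by simp [Y]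

omit hF in
theorem sum_split (x : V) (g : V → ℤ) : ∑ w, g w = g x + ∑ a ∈ Nb G x, g a + ∑ w ∈ Y G x, g w := by
  have h1 : ∀ w, g w = (if w = x then g w else 0) + (if G.Adj x w then g w else 0)
      + (if w ≠ x ∧ ¬ G.Adj x w then g w else 0) := by
    intro w
    by_cases h2 : w = x
    · subst h2
      simp
    · by_cases h3 : G.Adj x w <;> simp [h2, h3]
  conv_lhs => rw [sum_congr rfl fun w _ => h1 w]
  rw [sum_add_distrib, sum_add_distrib, Nb, Y, sum_filter, sum_filter]
  simp

theorem ad_nb_nb {x a b : V} (ha : a ∈ Nb G x) (hb : b ∈ Nb G x) : ad G a b = 0 :=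
  ad_of_not (tri hF (mem_Nb.1 ha) (mem_Nb.1 hb))

omit hF in
theorem ad_Y_x {x v : V} (hv : v ∈ Y G x) : ad G v x = 0 := by
  rw [ad_comm]
  exact ad_of_not (mem_Y.1 hv).2

omit hF in
theorem ne_of_nb_Y {x a v : V} (ha : a ∈ Nb G x) (hv : v ∈ Y G x) : a ≠ v := by
  rintro rfl
  exact (mem_Y.1 hv).2 (mem_Nb.1 ha)

/-- Size of the intersection of the traces on `N(x)`. -/
def C (G : SimpleGraph V) [DecidableRel G.Adj] (x y w : V) : ℤ := ∑ b ∈ Nb G x, ad G y b * ad G w b

/-- The Kronecker delta. -/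
def dl (y w : V) : ℤ := if y = w then 1 else 0

/-- The Gram matrix. -/
def F (G : SimpleGraph V) [DecidableRel G.Adj] (x y w : V) : ℤ :=
  12 * dl y w - 3 * C G x y w - 6 * ad G y w + 4

omit hF in
theorem C_comm (x y w : V) : C G x y w = C G x w y := by
  simp only [C, mul_comm]

omit hF in
theorem F_comm (x y w : V) : F G x y w = F G x w y := by
  simp only [F, C_comm x y w, ad_comm y w, dl, eq_comm]

omit hF in
theorem C_nonneg (x y w : V) : 0 ≤ C G x y w :=
  sum_nonneg fun _ _ => mul_nonneg (ad_nonneg _ _) (ad_nonneg _ _)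

theorem sum_Nb_ad {x v : V} (hv : v ∈ Y G x) : ∑ b ∈ Nb G x, ad G v b = 4 := by
  have h1 := hF.sq x v
  rw [if_neg (mem_Y.1 hv).1.symm, if_neg (mem_Y.1 hv).2] at h1
  rw [← h1, ← sum_filter_add_sum_filter_not univ (fun w => G.Adj x w)]
  have h2 : ∑ w ∈ univ.filter (fun w => ¬ G.Adj x w), ad G x w * ad G v w = 0 := by
    apply sum_eq_zero
    intro w hw
    rw [ad_of_not (mem_filter.1 hw).2, zero_mul]
  rw [h2, add_zero]
  apply sum_congr rfl
  intro w hw
  rw [ad_of (mem_filter.1 hw).2, one_mul]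

theorem C_self {x v : V} (hv : v ∈ Y G x) : C G x v v = 4 := by
  simp only [C, ad_sq]
  exact sum_Nb_ad hF hv

/-- The basic value of the square of the adjacency matrix. -/
theorem val_eq (u v : V) : (if u = v then (16 : ℤ) else if G.Adj u v then 0 else 4)
    = 12 * dl u v + 4 - 4 * ad G u v := by
  by_cases h1 : u = v
  · subst h1
    simp [dl, ad]
  · by_cases h2 : G.Adj u v <;> simp [dl, ad, h1, h2]

/-- The sum over `Y`. -/
theorem S_eq (x u v : V) : ∑ w ∈ Y G x, ad G u w * ad G v w
    = 12 * dl u v + 4 - 4 * ad G u v - ad G u x * ad G v x - C G x u v := by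
  have h1 := sum_split (G := G) x (fun w => ad G u w * ad G v w)
  rw [hF.sq u v, val_eq hF] at h1
  simp only [C] at *
  linarith

theorem C_nb_left {x a v : V} (ha : a ∈ Nb G x) : C G x a v = 0 := by
  apply sum_eq_zero
  intro b hb
  rw [ad_nb_nb hF ha hb, zero_mul]

theorem S_nb_nb {x a b : V} (ha : a ∈ Nb G x) (hb : b ∈ Nb G x) :
    ∑ w ∈ Y G x, ad G a w * ad G b w = 12 * dl a b + 3 := by
  rw [S_eq hF, C_nb_left hF ha, ad_nb_nb hF ha hb, ad_comm a x, ad_comm b x,
    ad_of (mem_Nb.1 ha), ad_of (mem_Nb.1 hb)]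
  ring

theorem S_nb_Y {x a v : V} (ha : a ∈ Nb G x) (hv : v ∈ Y G x) :
    ∑ w ∈ Y G x, ad G a w * ad G v w = 4 - 4 * ad G a v := by
  have hne : a ≠ v := ne_of_nb_Y ha hv
  rw [S_eq hF, C_nb_left hF ha, ad_Y_x hv]
  simp [dl, hne]

theorem S_Y_Y {x v z : V} (hv : v ∈ Y G x) :
    ∑ w ∈ Y G x, ad G v w * ad G z w = 12 * dl v z + 4 - 4 * ad G v z - C G x v z := by
  rw [S_eq hF, ad_Y_x hv]
  ring

theorem sum_Y_nb {x a : V} (ha : a ∈ Nb G x) : ∑ w ∈ Y G x, ad G a w = 15 := by
  have h1 := sum_split (G := G) x (fun w => ad G a w)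
  rw [deg hF a, ad_comm a x, ad_of (mem_Nb.1 ha), sum_eq_zero (s := Nb G x) fun b hb => ad_nb_nb hF ha hb] at h1
  linarith

theorem sum_Y_Y {x v : V} (hv : v ∈ Y G x) : ∑ w ∈ Y G x, ad G v w = 12 := by
  have h1 := sum_split (G := G) x (fun w => ad G v w)
  rw [deg hF v, ad_Y_x hv, sum_Nb_ad hF hv] at h1
  linarith

/-- Property (i) for the columns of `F`. -/
theorem F_i {x a z : V} (ha : a ∈ Nb G x) (hz : z ∈ Y G x) :
    ∑ w ∈ Y G x, ad G a w * F G x z w = 0 := by
  have h1 : ∀ w, ad G a w * F G x z w = 12 * (ad G a w * dl z w) - 3 * (ad G a w * C G x z w)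
      - 6 * (ad G a w * ad G z w) + 4 * ad G a w := by
    intro w
    simp only [F]
    ring
  rw [sum_congr rfl fun w _ => h1 w, sum_add_distrib, sum_sub_distrib, sum_sub_distrib,
    ← mul_sum, ← mul_sum, ← mul_sum, ← mul_sum, sum_Y_nb hF ha, S_nb_Y hF ha hz]
  have h2 : ∑ w ∈ Y G x, ad G a w * dl z w = ad G a z := by
    simp only [dl, mul_ite, mul_one, mul_zero]
    rw [sum_ite_eq, if_pos hz]
  have h3 : ∑ w ∈ Y G x, ad G a w * C G x z w = 12 + 12 * ad G a z := by
    simp only [C, mul_sum]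
    rw [sum_comm]
    have h4 : ∀ b ∈ Nb G x, ∑ w ∈ Y G x, ad G a w * (ad G z b * ad G w b)
        = ad G z b * (12 * dl a b + 3) := by
      intro b hb
      rw [← S_nb_nb hF ha hb, mul_sum]
      refine sum_congr rfl fun w _ => ?_
      rw [ad_comm w b]
      ring
    rw [sum_congr rfl h4]
    have h5 : ∀ b, ad G z b * (12 * dl a b + 3) = 12 * (ad G z b * dl a b) + 3 * ad G z b := by
      intro b; ring
    rw [sum_congr rfl fun b _ => h5 b, sum_add_distrib, ← mul_sum, ← mul_sum, sum_Nb_ad hF hz]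
    have h6 : ∑ b ∈ Nb G x, ad G z b * dl a b = ad G z a := by
      simp only [dl, mul_ite, mul_one, mul_zero]
      rw [sum_ite_eq, if_pos ha]
    rw [h6, ad_comm z a]
    ring
  rw [h2, h3]
  ring

/-- Property (ii) for the columns of `F`. -/
theorem F_ii {x v z : V} (hv : v ∈ Y G x) (hz : z ∈ Y G x) :
    ∑ w ∈ Y G x, ad G v w * F G x z w = -6 * F G x z v := by
  have h1 : ∀ w, ad G v w * F G x z w = 12 * (ad G v w * dl z w) - 3 * (ad G v w * C G x z w)
      - 6 * (ad G v w * ad G z w) + 4 * ad G v w := by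
    intro w
    simp only [F]
    ring
  rw [sum_congr rfl fun w _ => h1 w, sum_add_distrib, sum_sub_distrib, sum_sub_distrib,
    ← mul_sum, ← mul_sum, ← mul_sum, ← mul_sum, sum_Y_Y hF hv, S_Y_Y hF hv]
  have h2 : ∑ w ∈ Y G x, ad G v w * dl z w = ad G v z := by
    simp only [dl, mul_ite, mul_one, mul_zero]
    rw [sum_ite_eq, if_pos hz]
  have h3 : ∑ w ∈ Y G x, ad G v w * C G x z w = 16 - 4 * C G x z v := by
    simp only [C, mul_sum]
    rw [sum_comm]
    have h4 : ∀ b ∈ Nb G x, ∑ w ∈ Y G x, ad G v w * (ad G z b * ad G w b)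
        = ad G z b * (4 - 4 * ad G b v) := by
      intro b hb
      rw [← S_nb_Y hF hb hv, mul_sum]
      refine sum_congr rfl fun w _ => ?_
      rw [ad_comm w b]
      ring
    rw [sum_congr rfl h4]
    have h5 : ∀ b, ad G z b * (4 - 4 * ad G b v) = 4 * ad G z b - 4 * (ad G z b * ad G v b) := by
      intro b
      rw [ad_comm b v]
      ring
    rw [sum_congr rfl fun b _ => h5 b, sum_sub_distrib, ← mul_sum, ← mul_sum, sum_Nb_ad hF hz]
    ring
  rw [h2, h3]
  simp only [F, ad_comm z v, C_comm x z v, dl, eq_comm (a := z) (b := v)]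
  ring

/-- Sums over `Y` of functions killed by (i). -/
theorem sum_of_i {x : V} {f : V → ℤ} (hi : ∀ a ∈ Nb G x, ∑ w ∈ Y G x, ad G a w * f w = 0) :
    ∑ w ∈ Y G x, f w = 0 := by
  have h1 : ∑ b ∈ Nb G x, ∑ w ∈ Y G x, ad G b w * f w = 0 :=
    sum_eq_zero fun b hb => hi b hb
  rw [sum_comm] at h1
  have h2 : ∀ w ∈ Y G x, ∑ b ∈ Nb G x, ad G b w * f w = 4 * f w := by
    intro w hw
    rw [← sum_mul, ← sum_Nb_ad hF hw]
    congr 1
    exact sum_congr rfl fun b _ => ad_comm _ _
  rw [sum_congr rfl h2, ← mul_sum] at h1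
  linarith

/-- The main lemma: `F f = 48 f` for functions with properties (i), (ii). -/
theorem F_apply {x : V} {f : V → ℤ} (hi : ∀ a ∈ Nb G x, ∑ w ∈ Y G x, ad G a w * f w = 0)
    (hii : ∀ v ∈ Y G x, ∑ w ∈ Y G x, ad G v w * f w = -6 * f v) {y : V} (hy : y ∈ Y G x) :
    ∑ w ∈ Y G x, F G x y w * f w = 48 * f y := by
  have h1 : ∀ w, F G x y w * f w = 12 * (dl y w * f w) - 3 * (C G x y w * f w)
      - 6 * (ad G y w * f w) + 4 * f w := by
    intro w
    simp only [F]
    ring
  rw [sum_congr rfl fun w _ => h1 w, sum_add_distrib, sum_sub_distrib, sum_sub_distrib,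
    ← mul_sum, ← mul_sum, ← mul_sum, ← mul_sum, sum_of_i hF hi, hii y hy]
  have h2 : ∑ w ∈ Y G x, dl y w * f w = f y := by
    simp only [dl, ite_mul, one_mul, zero_mul]
    rw [sum_ite_eq, if_pos hy]
  have h3 : ∑ w ∈ Y G x, C G x y w * f w = 0 := by
    simp only [C, sum_mul]
    rw [sum_comm]
    apply sum_eq_zero
    intro b hb
    have h4 := hi b hb
    have h5 : ∀ w, ad G y b * ad G w b * f w = ad G y b * (ad G b w * f w) := by
      intro w
      rw [ad_comm w b]
      ring
    rw [sum_congr rfl fun w _ => h5 w, ← mul_sum, h4, mul_zero]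
  rw [h2, h3]
  ring

/-- The Gram identity. -/
theorem gram {x y z : V} (hy : y ∈ Y G x) (hz : z ∈ Y G x) :
    ∑ w ∈ Y G x, F G x y w * F G x z w = 48 * F G x z y :=
  F_apply hF (fun a ha => F_i hF ha hz) (fun v hv => F_ii hF hv hz) hy

theorem sum_F {x y : V} (hy : y ∈ Y G x) : ∑ w ∈ Y G x, F G x y w = 0 :=
  sum_of_i hF fun a ha => F_i hF ha hy

theorem F_self {x y : V} (hy : y ∈ Y G x) : F G x y y = 4 := by
  simp only [F, C_self hF hy, ad_self, dl, if_true]
  norm_num

/-- Lower bound for the entries. -/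
theorem F_ge {x y z : V} (hy : y ∈ Y G x) (hz : z ∈ Y G x) : -4 ≤ F G x y z := by
  have h1 : 0 ≤ ∑ w ∈ Y G x, (F G x y w + F G x z w) ^ 2 := sum_nonneg fun _ _ => sq_nonneg _
  have h2 : ∀ w, (F G x y w + F G x z w) ^ 2 = F G x y w * F G x y w + F G x z w * F G x z w
      + 2 * (F G x y w * F G x z w) := by
    intro w; ring
  rw [sum_congr rfl fun w _ => h2 w, sum_add_distrib, sum_add_distrib, ← mul_sum, gram hF hy hy,
    gram hF hz hz, gram hF hy hz, F_self hF hy, F_self hF hz, F_comm x z y] at h1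
  linarith

/-- Equal rows. -/
theorem rows_eq {x y z : V} (hy : y ∈ Y G x) (hz : z ∈ Y G x) (h : F G x y z = 4) {w : V}
    (hw : w ∈ Y G x) : F G x y w = F G x z w := by
  have h1 : ∑ w ∈ Y G x, (F G x y w - F G x z w) ^ 2 = 0 := by
    have h2 : ∀ w, (F G x y w - F G x z w) ^ 2 = F G x y w * F G x y w + F G x z w * F G x z w
        - 2 * (F G x y w * F G x z w) := by
      intro w; ring
    rw [sum_congr rfl fun w _ => h2 w, sum_sub_distrib, sum_add_distrib, ← mul_sum, gram hF hy hy,
      gram hF hz hz, gram hF hy hz, F_self hF hy, F_self hF hz, F_comm x z y, h]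
    norm_num
  have h3 := (sum_eq_zero_iff_of_nonneg (fun _ _ => sq_nonneg _)).1 h1 w hw
  have h4 := pow_eq_zero_iff (two_ne_zero) |>.1 h3
  linarith

theorem C_eq_zero_of_adj {x y z : V} (h : G.Adj y z) : C G x y z = 0 := by
  apply sum_eq_zero
  intro b _
  by_cases h1 : G.Adj y b
  · rw [ad_of_not (tri hF h h1 : ¬ G.Adj z b), mul_zero]
  · rw [ad_of_not h1, zero_mul]

theorem F_of_adj {x y z : V} (h : G.Adj y z) : F G x y z = -2 := by
  simp only [F, C_eq_zero_of_adj hF h, ad_of h, dl, h.ne, if_false]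
  norm_num

/-- Values of `F` for distinct arguments. -/
theorem F_ne {x y z : V} (hne : y ≠ z) (hna : ¬ G.Adj y z) : F G x y z = 4 - 3 * C G x y z := by
  simp only [F, ad_of_not hna, dl, hne, if_false]
  ring

/-- The possible values of `F`. -/
theorem F_vals {x y z : V} (hy : y ∈ Y G x) (hz : z ∈ Y G x) :
    F G x y z = 4 ∨ F G x y z = 1 ∨ F G x y z = -2 := by
  by_cases h1 : y = z
  · subst h1
    exact Or.inl (F_self hF hy)
  · by_cases h2 : G.Adj y z
    · exact Or.inr (Or.inr (F_of_adj hF h2))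
    · have h3 := F_ne hF (x := x) h1 h2
      have h4 := F_ge hF hy hz
      have h5 := C_nonneg (G := G) x y z
      omega

/-- The class of `y`. -/
def cl (G : SimpleGraph V) [DecidableRel G.Adj] (x y : V) : Finset V :=
  (Y G x).filter fun w => F G x y w = 4

omit hF in
theorem mem_cl {x y w : V} : w ∈ cl G x y ↔ w ∈ Y G x ∧ F G x y w = 4 := by simp [cl]

theorem card_Y (x : V) : (Y G x).card = 60 := by
  have h1 := sum_split (G := G) x (fun _ => (1 : ℤ))
  simp only [sum_const, nsmul_eq_mul, mul_one, card_univ, hF.card] at h1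
  have h2 : ((Nb G x).card : ℤ) = 16 := by
    rw [← deg hF x, Nb, Finset.natCast_card_filter]
    rfl
  rw [h2] at h1
  have h3 : ((Y G x).card : ℤ) = 60 := by
    push_cast at h1
    linarith
  exact_mod_cast h3

theorem card_Nb (x : V) : (Nb G x).card = 16 := by
  have h2 : ((Nb G x).card : ℤ) = 16 := by
    rw [← deg hF x, Nb, Finset.natCast_card_filter]
    rfl
  exact_mod_cast h2

theorem card_cl {x y : V} (hy : y ∈ Y G x) : (cl G x y).card = 4 := by
  have h1 : ∑ w ∈ Y G x, (F G x y w * F G x y w + F G x y w - 2) = 72 := by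
    rw [sum_sub_distrib, sum_add_distrib, gram hF hy hy, sum_F hF hy, F_self hF hy, sum_const,
      card_Y hF]
    norm_num
  have h2 : ∀ w ∈ Y G x, F G x y w * F G x y w + F G x y w - 2
      = if F G x y w = 4 then 18 else 0 := by
    intro w hw
    rcases F_vals hF hy hw with h3 | h3 | h3 <;> rw [h3] <;> norm_num
  rw [sum_congr rfl h2, ← sum_filter, sum_const] at h1
  change (cl G x y).card • (18 : ℤ) = 72 at h1
  simp only [nsmul_eq_mul] at h1
  have h3 : ((cl G x y).card : ℤ) = 4 := by linarith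
  exact_mod_cast h3

/-- Two elements of a class have the same class relation. -/
theorem F_trans {x y z w : V} (hy : y ∈ Y G x) (hz : z ∈ Y G x) (hw : w ∈ Y G x)
    (h1 : F G x y z = 4) (h2 : F G x y w = 4) : F G x z w = 4 := by
  rw [← rows_eq hF hy hz h1 hw, h2]

/-- The relation means disjoint traces. -/
theorem C_zero_of_F {x y z : V} (hne : y ≠ z) (hy : y ∈ Y G x) (h : F G x y z = 4) :
    C G x y z = 0 := by
  by_cases h2 : G.Adj y z
  · exact C_eq_zero_of_adj hF h2
  · have h3 := F_ne hF (x := x) hne h2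
    omega

theorem not_adj_of_F {x y z : V} (h : F G x y z = 4) : ¬ G.Adj y z := by
  intro h2
  rw [F_of_adj hF h2] at h
  norm_num at h

/-- Each point of `N(x)` lies in exactly one member of each class. -/
theorem cover {x y b : V} (hy : y ∈ Y G x) (hb : b ∈ Nb G x) : ∑ w ∈ cl G x y, ad G b w = 1 := by
  set p : V → ℤ := fun b => ∑ w ∈ cl G x y, ad G b w with hp
  have hclY : ∀ w ∈ cl G x y, w ∈ Y G x := fun w hw => (mem_cl.1 hw).1
  have h1 : ∑ b ∈ Nb G x, p b = 16 := by
    simp only [hp]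
    rw [sum_comm]
    have h2 : ∀ w ∈ cl G x y, ∑ b ∈ Nb G x, ad G b w = 4 := by
      intro w hw
      rw [← sum_Nb_ad hF (hclY w hw)]
      exact sum_congr rfl fun _ _ => ad_comm _ _
    rw [sum_congr rfl h2, sum_const, card_cl hF hy]
    norm_num
  have h2 : ∑ b ∈ Nb G x, p b * p b = 16 := by
    simp only [hp, sum_mul_sum]
    rw [sum_comm]
    have h3 : ∀ w ∈ cl G x y, ∑ b ∈ Nb G x, ∑ w' ∈ cl G x y, ad G b w * ad G b w'
        = ∑ w' ∈ cl G x y, C G x w w' := by
      intro w hw
      rw [sum_comm]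
      refine sum_congr rfl fun w' _ => ?_
      simp only [C]
      refine sum_congr rfl fun b _ => ?_
      rw [ad_comm b w, ad_comm b w']
    rw [sum_congr rfl h3]
    have h4 : ∀ w ∈ cl G x y, ∑ w' ∈ cl G x y, C G x w w' = 4 := by
      intro w hw
      have h5 : ∀ w' ∈ cl G x y, C G x w w' = if w = w' then 4 else 0 := by
        intro w' hw'
        by_cases h6 : w = w'
        · subst h6
          rw [if_pos rfl]
          exact C_self hF (hclY w hw)
        · rw [if_neg h6]
          exact C_zero_of_F hF h6 (hclY w hw)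
            (F_trans hF hy (hclY w hw) (hclY w' hw') (mem_cl.1 hw).2 (mem_cl.1 hw').2)
      rw [sum_congr rfl h5, sum_ite_eq, if_pos hw]
    rw [sum_congr rfl h4, sum_const, card_cl hF hy]
    norm_num
  have h3 : ∑ b ∈ Nb G x, (p b - 1) ^ 2 = 0 := by
    have h4 : ∀ b, (p b - 1) ^ 2 = p b * p b - 2 * p b + 1 := by
      intro b; ring
    rw [sum_congr rfl fun b _ => h4 b, sum_add_distrib, sum_sub_distrib, ← mul_sum, h1, h2,
      sum_const, card_Nb hF]
    norm_num
  have h4 := (sum_eq_zero_iff_of_nonneg (fun _ _ => sq_nonneg _)).1 h3 b hb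
  have h5 := pow_eq_zero_iff (two_ne_zero) |>.1 h4
  simp only [hp] at h5
  linarith

/-- The lemma on R-related vertices: some member of the other class is adjacent. -/
theorem exists_adj_of_R {x y z : V} (hy : y ∈ Y G x) (hz : z ∈ Y G x) (h : F G x y z = -2) :
    ∃ w ∈ cl G x z, G.Adj y w := by
  by_contra hcon
  push Not at hcon
  have hclY : ∀ w ∈ cl G x z, w ∈ Y G x := fun w hw => (mem_cl.1 hw).1
  have h1 : ∀ w ∈ cl G x z, C G x y w = 2 := by
    intro w hw
    have h2 : F G x y w = -2 := by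
      rw [F_comm, ← rows_eq hF hz (hclY w hw) (mem_cl.1 hw).2 hy, F_comm, h]
    have h3 : y ≠ w := by
      rintro rfl
      rw [F_self hF hy] at h2
      norm_num at h2
    have h4 := F_ne hF (x := x) h3 (hcon w hw)
    omega
  have h2 : ∑ w ∈ cl G x z, C G x y w = 4 := by
    simp only [C]
    rw [sum_comm]
    have h3 : ∀ b ∈ Nb G x, ∑ w ∈ cl G x z, ad G y b * ad G w b = ad G y b := by
      intro b hb
      have h4 := cover hF hz hb
      rw [← mul_sum]
      have h5 : ∑ w ∈ cl G x z, ad G w b = 1 := by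
        rw [← h4]
        exact sum_congr rfl fun _ _ => ad_comm _ _
      rw [h5, mul_one]
    rw [sum_congr rfl h3, sum_Nb_ad hF hy]
  rw [sum_congr rfl h1, sum_const, card_cl hF hz] at h2
  norm_num at h2

end Cfsg.Agent.Lib.SRG77Gram
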