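import Mathlib
import Cfsg.Prelude.Def_Sporadic_a
import Cfsg.Agent.Lib.SRG77GQ
import Cfsg.Agent.Lib.SRG77Gram

set_option autoImplicit false
set_option linter.unusedSectionVars false
set_option linter.unusedSimpArgs false
set_option linter.unusedVariables false

/-!
# The strongly regular graph with parameters (77, 16, 0, 4): cocliques of size 21

Two non-adjacent vertices lie in exactly two cocliques of size 21.
-/

namespace Cfsg.Agent.Lib.SRG77Coc
open Finset Cfsg.Agent.Lib.SRG77Gram Cfsg.Agent.Lib.SRG77GQ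

variable {V : Type*} [Fintype V] [DecidableEq V] {G : SimpleGraph V} [DecidableRel G.Adj]

/-- Cocliques of size 21. -/
def Coc (G : SimpleGraph V) [DecidableRel G.Adj] : Finset (Finset V) :=
  univ.filter fun K => K.card = 21 ∧ ∀ u ∈ K, ∀ v ∈ K, ¬ G.Adj u v

omit [Fintype V] in
theorem mem_Coc [Fintype V] {K : Finset V} : K ∈ Coc G ↔ K.card = 21 ∧ ∀ u ∈ K, ∀ v ∈ K, ¬ G.Adj u v := by
  simp [Coc]

variable (hF : Facts G)
include hF

/-- Every vertex off a 21-coclique has exactly 6 neighbours in it. -/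
theorem nb6 {K : Finset V} (hK : K ∈ Coc G) {u : V} (hu : u ∉ K) : ∑ k ∈ K, ad G u k = 6 := by
  obtain ⟨hc, hco⟩ := mem_Coc.1 hK
  set m : V → ℤ := fun u => ∑ k ∈ K, ad G u k with hm
  have h1 : ∑ u, m u = 336 := by
    simp only [hm]
    rw [sum_comm]
    have h2 : ∀ k ∈ K, ∑ u, ad G u k = 16 := by
      intro k _
      rw [← deg hF k]
      exact sum_congr rfl fun _ _ => ad_comm _ _
    rw [sum_congr rfl h2, sum_const, hc]
    norm_num
  have h2 : ∑ u, m u * m u = 2016 := by
    simp only [hm, sum_mul_sum]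
    rw [sum_comm]
    have h3 : ∀ s ∈ K, ∑ u, ∑ t ∈ K, ad G u s * ad G u t = 96 := by
      intro s hs
      rw [sum_comm]
      have h4 : ∀ t ∈ K, ∑ u, ad G u s * ad G u t = if s = t then 16 else 4 := by
        intro t ht
        have h5 := hF.sq s t
        rw [if_neg (hco s hs t ht)] at h5
        rw [← h5]
        exact sum_congr rfl fun u _ => by rw [ad_comm u s, ad_comm u t]
      rw [sum_congr rfl h4]
      have h6 : ∀ t, (if s = t then (16 : ℤ) else 4) = 4 + (if s = t then 12 else 0) := by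
        intro t
        by_cases h7 : s = t <;> simp [h7]
      rw [sum_congr rfl fun t _ => h6 t, sum_add_distrib, sum_ite_eq, if_pos hs, sum_const, hc]
      norm_num
    rw [sum_congr rfl h3, sum_const, hc]
    norm_num
  have h3 : ∑ u, (m u - 6) ^ 2 = 756 := by
    have h4 : ∀ u, (m u - 6) ^ 2 = m u * m u - 12 * m u + 36 := by
      intro u; ring
    rw [sum_congr rfl fun u _ => h4 u, sum_add_distrib, sum_sub_distrib, ← mul_sum, h1, h2, sum_const,
      card_univ, hF.card]
    norm_num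
  have h4 : ∑ u ∈ K, (m u - 6) ^ 2 = 756 := by
    have h5 : ∀ u ∈ K, (m u - 6) ^ 2 = 36 := by
      intro u hu
      have h6 : m u = 0 := by
        simp only [hm]
        exact sum_eq_zero fun k hk => ad_of_not (hco u hu k hk)
      rw [h6]
      norm_num
    rw [sum_congr rfl h5, sum_const, hc]
    norm_num
  have h5 : ∑ u ∈ univ \ K, (m u - 6) ^ 2 = 0 := by
    have := sum_sdiff (subset_univ K) (f := fun u => (m u - 6) ^ 2)
    rw [h3, h4] at this
    linarith
  have h6 := (sum_eq_zero_iff_of_nonneg (fun _ _ => sq_nonneg _)).1 h5 u (by simp [hu])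
  have h7 := pow_eq_zero_iff (two_ne_zero) |>.1 h6
  have h8 : m u = 6 := by linarith
  exact h8

/-- Indicator of a finite set. -/
def chi (K : Finset V) (w : V) : ℤ := if w ∈ K then 1 else 0

/-- Sums over `Y` against the indicator of a coclique. -/
theorem sum_Y_chi {K : Finset V} (hK : K ∈ Coc G) {x : V} (hx : x ∈ K) (g : V → ℤ) :
    ∑ w ∈ Y G x, g w * chi K w = ∑ k ∈ K, g k - g x := by
  obtain ⟨hc, hco⟩ := mem_Coc.1 hK
  have h1 : (Y G x).filter (fun w => w ∈ K) = K.erase x := by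
    ext w
    simp only [mem_filter, mem_erase, mem_Y]
    constructor
    · rintro ⟨⟨h1, h2⟩, h3⟩
      exact ⟨h1, h3⟩
    · rintro ⟨h1, h3⟩
      exact ⟨⟨h1, hco x hx w h3⟩, h3⟩
  have h2 : ∀ w, g w * chi K w = if w ∈ K then g w else 0 := by
    intro w
    simp only [chi]
    split <;> simp
  rw [sum_congr rfl fun w _ => h2 w, ← sum_filter, h1]
  have := add_sum_erase K g hx
  linarith

/-- The function `3 χ - 1` has property (i). -/
theorem chi_i {K : Finset V} (hK : K ∈ Coc G) {x a : V} (hx : x ∈ K) (ha : a ∈ Nb G x) :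
    ∑ w ∈ Y G x, ad G a w * (3 * chi K w - 1) = 0 := by
  obtain ⟨hc, hco⟩ := mem_Coc.1 hK
  have haK : a ∉ K := fun h => hco x hx a h (mem_Nb.1 ha)
  have h1 : ∀ w, ad G a w * (3 * chi K w - 1) = 3 * (ad G a w * chi K w) - ad G a w := by
    intro w; ring
  rw [sum_congr rfl fun w _ => h1 w, sum_sub_distrib, ← mul_sum, sum_Y_chi hF hK hx, nb6 hF hK haK,
    sum_Y_nb hF ha, ad_comm a x, ad_of (mem_Nb.1 ha)]
  norm_num

/-- The function `3 χ - 1` has property (ii). -/
theorem chi_ii {K : Finset V} (hK : K ∈ Coc G) {x v : V} (hx : x ∈ K) (hv : v ∈ Y G x) :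
    ∑ w ∈ Y G x, ad G v w * (3 * chi K w - 1) = -6 * (3 * chi K v - 1) := by
  obtain ⟨hc, hco⟩ := mem_Coc.1 hK
  have h1 : ∀ w, ad G v w * (3 * chi K w - 1) = 3 * (ad G v w * chi K w) - ad G v w := by
    intro w; ring
  rw [sum_congr rfl fun w _ => h1 w, sum_sub_distrib, ← mul_sum, sum_Y_chi hF hK hx,
    sum_Y_Y hF hv, ad_Y_x hv]
  by_cases hvK : v ∈ K
  · have h2 : ∑ k ∈ K, ad G v k = 0 := sum_eq_zero fun k hk => ad_of_not (hco v hvK k hk)
    rw [h2]
    simp [chi, hvK]
  · rw [nb6 hF hK hvK]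
    simp [chi, hvK]

/-- 21-cocliques through `x` are unions of classes. -/
theorem closure {K : Finset V} (hK : K ∈ Coc G) {x y z : V} (hx : x ∈ K) (hy : y ∈ Y G x)
    (hz : z ∈ Y G x) (h : F G x y z = 4) (hyK : y ∈ K) : z ∈ K := by
  have h1 := F_apply hF (fun a ha => chi_i hF hK hx ha) (fun v hv => chi_ii hF hK hx hv) hy
  have h2 := F_apply hF (fun a ha => chi_i hF hK hx ha) (fun v hv => chi_ii hF hK hx hv) hz
  have h3 : ∑ w ∈ Y G x, F G x y w * (3 * chi K w - 1) = ∑ w ∈ Y G x, F G x z w * (3 * chi K w - 1) :=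
    sum_congr rfl fun w hw => by rw [rows_eq hF hy hz h hw]
  rw [h1, h2] at h3
  by_contra hzK
  simp [chi, hyK, hzK] at h3

/-- The neighbours of `a` in `Y`: a transversal of the classes. -/
def Cl (G : SimpleGraph V) [DecidableRel G.Adj] (x a : V) : Finset V :=
  (Y G x).filter (G.Adj a)

omit hF in
theorem mem_Cl {x a c : V} : c ∈ Cl G x a ↔ c ∈ Y G x ∧ G.Adj a c := by simp [Cl]

/-- Two members of the transversal are not in the same class. -/
theorem eq_of_Cl {x a c d : V} (ha : a ∈ Nb G x) (hc : c ∈ Cl G x a) (hd : d ∈ Cl G x a)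
    (h : F G x c d = 4) : c = d := by
  by_contra hne
  have h1 := C_zero_of_F hF hne (mem_Cl.1 hc).1 h
  have h2 : ad G c a * ad G d a ≤ C G x c d :=
    single_le_sum (f := fun b => ad G c b * ad G d b)
      (fun b _ => mul_nonneg (ad_nonneg _ _) (ad_nonneg _ _)) ha
  rw [h1, ad_of (mem_Cl.1 hc).2.symm, ad_of (mem_Cl.1 hd).2.symm] at h2
  norm_num at h2

/-- Existence of a representative in the transversal. -/
theorem exists_rep {x a y : V} (ha : a ∈ Nb G x) (hy : y ∈ Y G x) :
    ∃ c ∈ Cl G x a, F G x y c = 4 := by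
  have h1 := cover hF hy ha
  by_contra hcon
  push Not at hcon
  rw [sum_eq_zero] at h1
  · norm_num at h1
  · intro w hw
    obtain ⟨hw1, hw2⟩ := mem_cl.1 hw
    apply ad_of_not
    intro h2
    exact hcon w (mem_Cl.2 ⟨hw1, h2⟩) hw2

omit hF in
theorem sum_Cl {x a : V} (g : V → ℤ) : ∑ c ∈ Cl G x a, g c = ∑ w ∈ Y G x, ad G a w * g w := by
  rw [Cl, sum_filter]
  refine sum_congr rfl fun w _ => ?_
  by_cases h : G.Adj a w <;> simp [ad, h]

/-- Sums of class-invariant functions. -/
theorem sum_inv {x a : V} (ha : a ∈ Nb G x) {g : V → ℤ}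
    (hg : ∀ w ∈ Y G x, ∀ w' ∈ Y G x, F G x w w' = 4 → g w = g w') :
    ∑ w ∈ Y G x, g w = 4 * ∑ c ∈ Cl G x a, g c := by
  have h1 : ∀ w ∈ Y G x, g w = ∑ c ∈ Y G x, (if F G x w c = 4 then ad G a c * g w else 0) := by
    intro w hw
    rw [← sum_filter]
    change g w = ∑ c ∈ cl G x w, ad G a c * g w
    rw [← sum_mul, cover hF hw ha, one_mul]
  rw [sum_congr rfl h1, sum_comm, sum_Cl, mul_sum]
  refine sum_congr rfl fun c hc => ?_
  have h2 : ∀ w ∈ Y G x, (if F G x w c = 4 then ad G a c * g w else 0)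
      = if F G x c w = 4 then ad G a c * g c else 0 := by
    intro w hw
    rw [F_comm x w c]
    by_cases h3 : F G x c w = 4
    · rw [if_pos h3, if_pos h3, hg c hc w hw h3]
    · rw [if_neg h3, if_neg h3]
  rw [sum_congr rfl h2, ← sum_filter, sum_const]
  change (cl G x c).card • _ = _
  rw [card_cl hF hc]
  simp only [nsmul_eq_mul]
  push_cast
  ring

/-- The Gram identity on the transversal. -/
theorem gram_Cl {x a c d : V} (ha : a ∈ Nb G x) (hc : c ∈ Y G x) (hd : d ∈ Y G x) :
    ∑ w ∈ Cl G x a, F G x c w * F G x d w = 12 * F G x d c := by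
  have h1 := sum_inv hF ha (g := fun w => F G x c w * F G x d w) (by
    intro w hw w' hw' h
    have h2 : ∀ e ∈ Y G x, F G x e w = F G x e w' := by
      intro e he
      rw [F_comm, rows_eq hF hw hw' h he, F_comm]
    simp only [h2 c hc, h2 d hd])
  rw [gram hF hc hd] at h1
  linarith

theorem sum_F_Cl {x a c : V} (ha : a ∈ Nb G x) (hc : c ∈ Y G x) :
    ∑ w ∈ Cl G x a, F G x c w = 0 := by
  rw [sum_Cl]
  exact F_i hF ha hc

theorem card_Cl {x a : V} (ha : a ∈ Nb G x) : (Cl G x a).card = 15 := by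
  have h1 := sum_Cl (G := G) (x := x) (a := a) (fun _ => (1 : ℤ))
  simp only [sum_const, nsmul_eq_mul, mul_one] at h1
  rw [sum_Y_nb hF ha] at h1
  exact_mod_cast h1

/-- The transversal as a type. -/
abbrev TT (G : SimpleGraph V) [DecidableRel G.Adj] (x a : V) : Type _ := {c // c ∈ Cl G x a}

/-- The relation on the transversal. -/
def RR (G : SimpleGraph V) [DecidableRel G.Adj] (x a : V) (c d : TT G x a) : Prop :=
  F G x c.1 d.1 = -2

instance instDecRR (x a : V) : DecidableRel (RR G x a) := fun _ _ => by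
  unfold RR
  infer_instance

/-- `F` on the transversal. -/
theorem F_TT {x a : V} (ha : a ∈ Nb G x) (c d : TT G x a) :
    F G x c.1 d.1 = 3 * (if c = d then 1 else 0) + 1 - 3 * ri (RR G x a) c d := by
  by_cases h1 : c = d
  · subst h1
    have h2 : ¬ RR G x a c c := by
      simp only [RR, F_self hF (mem_Cl.1 c.2).1]
      norm_num
    rw [F_self hF (mem_Cl.1 c.2).1, if_pos rfl, ri_of_not h2]
    norm_num
  · rw [if_neg h1]
    rcases F_vals hF (mem_Cl.1 c.2).1 (mem_Cl.1 d.2).1 with h2 | h2 | h2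
    · exact absurd (Subtype.ext (eq_of_Cl hF ha c.2 d.2 h2)) h1
    · have h3 : ¬ RR G x a c d := by
        simp only [RR, h2]
        norm_num
      rw [ri_of_not h3, h2]
      norm_num
    · have h3 : RR G x a c d := h2
      rw [ri_of h3, h2]
      norm_num

/-- The transversal satisfies the hypotheses of the lemma on (15,6,1,3)-graphs. -/
theorem hyp_TT {x a : V} (ha : a ∈ Nb G x) : Hyp (RR G x a) := by
  have hcomm : ∀ c d, ri (RR G x a) c d = ri (RR G x a) d c := by
    intro c d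
    simp only [ri, RR, F_comm x c.1 d.1]
  have hsum : ∀ g : V → ℤ, ∑ c : TT G x a, g c.1 = ∑ c ∈ Cl G x a, g c := fun g =>
    sum_coe_sort (Cl G x a) g
  have hcard : (univ : Finset (TT G x a)).card = 15 := by
    rw [card_univ, Fintype.card_coe, card_Cl hF ha]
  have hdeg : ∀ c : TT G x a, ∑ w, ri (RR G x a) c w = 6 := by
    intro c
    have h1 := sum_F_Cl hF ha (mem_Cl.1 c.2).1
    rw [← hsum] at h1
    rw [sum_congr rfl fun w _ => F_TT hF ha c w, sum_sub_distrib, sum_add_distrib, ← mul_sum,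
      ← mul_sum, sum_ite_eq, if_pos (mem_univ _), sum_const, hcard] at h1
    norm_num at h1
    rw [← univ_eq_attach] at h1
    linarith
  refine ⟨by rw [Fintype.card_coe, card_Cl hF ha], fun c d h => ?_, fun c => ?_, fun c d => ?_⟩
  · simp only [RR] at h ⊢
    rw [F_comm]
    exact h
  · simp only [RR, F_self hF (mem_Cl.1 c.2).1]
    norm_num
  · have h1 := gram_Cl hF ha (mem_Cl.1 c.2).1 (mem_Cl.1 d.2).1
    rw [← hsum (fun w => F G x c.1 w * F G x d.1 w), F_comm, F_TT hF ha c d] at h1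
    have h2 : ∀ w : TT G x a, F G x c.1 w.1 * F G x d.1 w.1
        = 9 * ((if c = w then 1 else 0) * (if d = w then 1 else 0))
          + 3 * (if c = w then 1 else 0) - 9 * (if c = w then ri (RR G x a) d c else 0)
          + 3 * (if d = w then 1 else 0) + 1 - 3 * ri (RR G x a) d w
          - 9 * (if d = w then ri (RR G x a) c d else 0) - 3 * ri (RR G x a) c w
          + 9 * (ri (RR G x a) c w * ri (RR G x a) d w) := by
      intro w
      rw [F_TT hF ha c w, F_TT hF ha d w]
      by_cases h3 : c = w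
      · subst h3
        by_cases h4 : d = c
        · subst h4
          simp
          ring
        · simp [h4]
          ring
      · by_cases h4 : d = w
        · subst h4
          simp [h3]
          ring
        · simp [h3, h4]
          ring
    rw [sum_congr rfl fun w _ => h2 w] at h1
    simp only [sum_add_distrib, sum_sub_distrib, ← mul_sum, sum_ite_eq, mem_univ, if_true, hdeg,
      sum_const, hcard] at h1
    have h3 : ∑ w : TT G x a, (if c = w then (1 : ℤ) else 0) * (if d = w then 1 else 0)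
        = if c = d then 1 else 0 := by
      by_cases h4 : c = d
      · subst h4
        simp
      · rw [if_neg h4]
        apply sum_eq_zero
        intro w _
        by_cases h5 : c = w
        · subst h5
          simp [Ne.symm h4]
        · simp [h5]
    rw [h3, hcomm d c] at h1
    norm_num at h1
    rw [← univ_eq_attach] at h1
    by_cases h4 : c = d
    · subst h4
      have h5 : ¬ RR G x a c c := by
        simp only [RR, F_self hF (mem_Cl.1 c.2).1]
        norm_num
      rw [ri_of_not h5] at h1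
      simp at h1 ⊢
      linarith
    · simp only [if_neg h4] at h1 ⊢
      by_cases h5 : RR G x a c d
      · rw [ri_of h5] at h1
        rw [if_pos h5]
        linarith
      · rw [ri_of_not h5] at h1
        rw [if_neg h5]
        linarith

/-- From cocliques to subsets of the transversal. -/
def toO (G : SimpleGraph V) [DecidableRel G.Adj] (x a : V) (K : Finset V) : Finset (TT G x a) :=
  univ.filter fun c => c.1 ∈ K

/-- From subsets of the transversal to cocliques. -/
def toK (G : SimpleGraph V) [DecidableRel G.Adj] (x a : V) (O : Finset (TT G x a)) : Finset V :=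
  insert x ((Y G x).filter fun w => ∃ c ∈ O, F G x c.1 w = 4)

omit hF in
theorem mem_toO {x a : V} {K : Finset V} {c : TT G x a} : c ∈ toO G x a K ↔ c.1 ∈ K := by
  simp [toO]

omit hF in
theorem mem_toK {x a : V} {O : Finset (TT G x a)} {w : V} :
    w ∈ toK G x a O ↔ w = x ∨ (w ∈ Y G x ∧ ∃ c ∈ O, F G x c.1 w = 4) := by
  simp only [toK, mem_insert, mem_filter]

theorem card_toO {x a : V} (ha : a ∈ Nb G x) {K : Finset V} (hK : K ∈ Coc G) (hx : x ∈ K) :
    (toO G x a K).card = 5 := by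
  obtain ⟨hc, hco⟩ := mem_Coc.1 hK
  have haK : a ∉ K := fun h => hco x hx a h (mem_Nb.1 ha)
  have h1 := nb6 hF hK haK
  have h2 : ∑ k ∈ K, ad G a k = (K.filter (G.Adj a)).card := by
    rw [natCast_card_filter]
    rfl
  rw [h2] at h1
  have h3 : (K.filter (G.Adj a)).card = 6 := by exact_mod_cast h1
  have h4 : ((toO G x a K).map (Function.Embedding.subtype _)) = (K.filter (G.Adj a)).erase x := by
    ext w
    simp only [mem_map, mem_toO, Function.Embedding.coe_subtype, Subtype.exists, exists_and_right,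
      exists_eq_right, mem_erase, mem_filter, mem_Cl, mem_Y]
    constructor
    · rintro ⟨⟨⟨h5, h6⟩, h7⟩, h8⟩
      exact ⟨h5, h8, h7⟩
    · rintro ⟨h5, h8, h7⟩
      exact ⟨⟨⟨h5, hco x hx w h8⟩, h7⟩, h8⟩
  have h5 : x ∈ K.filter (G.Adj a) := mem_filter.2 ⟨hx, (mem_Nb.1 ha).symm⟩
  have h6 := congrArg card h4
  rw [card_map, card_erase_of_mem h5, h3] at h6
  exact h6

theorem toO_mem {x a y : V} (ha : a ∈ Nb G x) {K : Finset V} (hK : K ∈ Coc G) (hx : x ∈ K)
    (hy : y ∈ K) (hyY : y ∈ Y G x) {u₀ : TT G x a} (hu₀ : F G x y u₀.1 = 4) :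
    IsC (RR G x a) (toO G x a K) ∧ u₀ ∈ toO G x a K := by
  obtain ⟨hc, hco⟩ := mem_Coc.1 hK
  refine ⟨⟨card_toO hF ha hK hx, ?_⟩, ?_⟩
  · intro c hc' d hd' hr
    have hcY := (mem_Cl.1 c.2).1
    have hdY := (mem_Cl.1 d.2).1
    obtain ⟨w, hw, hw'⟩ := exists_adj_of_R hF hcY hdY hr
    obtain ⟨hw1, hw2⟩ := mem_cl.1 hw
    exact hco c.1 (mem_toO.1 hc') w (closure hF hK hx hdY hw1 hw2 (mem_toO.1 hd')) hw'
  · exact mem_toO.2 (closure hF hK hx hyY (mem_Cl.1 u₀.2).1 hu₀ hy)

theorem toK_mem {x a y : V} (ha : a ∈ Nb G x) (hyY : y ∈ Y G x) {O : Finset (TT G x a)}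
    (hO : IsC (RR G x a) O) {u₀ : TT G x a} (hu : u₀ ∈ O) (hu₀ : F G x y u₀.1 = 4) :
    toK G x a O ∈ Coc G ∧ x ∈ toK G x a O ∧ y ∈ toK G x a O := by
  obtain ⟨hc, hco⟩ := hO
  refine ⟨mem_Coc.2 ⟨?_, ?_⟩, mem_toK.2 (Or.inl rfl),
    mem_toK.2 (Or.inr ⟨hyY, u₀, hu, by rw [F_comm]; exact hu₀⟩)⟩
  · have h1 : (Y G x).filter (fun w => ∃ c ∈ O, F G x c.1 w = 4)
        = O.biUnion fun c => cl G x c.1 := by
      ext w
      simp only [mem_filter, mem_biUnion, mem_cl]
      constructor
      · rintro ⟨h2, c, h3, h4⟩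
        exact ⟨c, h3, h2, h4⟩
      · rintro ⟨c, h3, h2, h4⟩
        exact ⟨h2, c, h3, h4⟩
    rw [toK, card_insert_of_notMem, h1, card_biUnion]
    · rw [sum_congr rfl fun c _ => card_cl hF (mem_Cl.1 c.2).1, sum_const, hc]
      norm_num
    · intro c _ d _ hne
      simp only [Function.onFun]
      rw [Finset.disjoint_left]
      intro w hw hw'
      obtain ⟨h2, h3⟩ := mem_cl.1 hw
      obtain ⟨h2', h3'⟩ := mem_cl.1 hw'
      apply hne
      apply Subtype.ext
      apply eq_of_Cl hF ha c.2 d.2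
      rw [rows_eq hF (mem_Cl.1 c.2).1 h2 h3 (mem_Cl.1 d.2).1, F_comm, h3']
    · simp only [mem_filter, not_and]
      intro h2
      exact absurd rfl (mem_Y.1 h2).1
  · intro u hu v hv hadj
    rcases mem_toK.1 hu with rfl | ⟨huY, c, hc', hcu⟩
    · rcases mem_toK.1 hv with rfl | ⟨hvY, d, hd', hdv⟩
      · exact hadj.ne rfl
      · exact (mem_Y.1 hvY).2 hadj
    · rcases mem_toK.1 hv with rfl | ⟨hvY, d, hd', hdv⟩
      · exact (mem_Y.1 huY).2 hadj.symm
      · apply hco c hc' d hd'
        have hcY := (mem_Cl.1 c.2).1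
        have hdY := (mem_Cl.1 d.2).1
        show F G x c.1 d.1 = -2
        rw [rows_eq hF hcY huY hcu hdY, F_comm, rows_eq hF hdY hvY hdv huY, F_comm]
        exact F_of_adj hF hadj

theorem toK_toO {x a : V} (ha : a ∈ Nb G x) {K : Finset V} (hK : K ∈ Coc G) (hx : x ∈ K) :
    toK G x a (toO G x a K) = K := by
  obtain ⟨hc, hco⟩ := mem_Coc.1 hK
  ext w
  rw [mem_toK]
  constructor
  · rintro (rfl | ⟨hw, c, hc', hcw⟩)
    · exact hx
    · exact closure hF hK hx (mem_Cl.1 c.2).1 hw hcw (mem_toO.1 hc')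
  · intro hw
    by_cases h1 : w = x
    · exact Or.inl h1
    · have hwY : w ∈ Y G x := mem_Y.2 ⟨h1, hco x hx w hw⟩
      obtain ⟨c, hc', hwc⟩ := exists_rep hF ha hwY
      refine Or.inr ⟨hwY, ⟨c, hc'⟩, mem_toO.2 (closure hF hK hx hwY (mem_Cl.1 hc').1 hwc hw), ?_⟩
      rw [F_comm]
      exact hwc

theorem toO_toK {x a : V} (ha : a ∈ Nb G x) (O : Finset (TT G x a)) :
    toO G x a (toK G x a O) = O := by
  ext c
  rw [mem_toO, mem_toK]
  have hcY := (mem_Cl.1 c.2).1
  constructor
  · rintro (h1 | ⟨h2, d, hd, hdc⟩)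
    · exact absurd h1 (mem_Y.1 hcY).1
    · have := eq_of_Cl hF ha d.2 c.2 hdc
      have h3 : d = c := Subtype.ext this
      rwa [← h3]
  · intro h1
    exact Or.inr ⟨hcY, c, h1, F_self hF hcY⟩

/-- Two non-adjacent vertices lie in exactly two 21-cocliques. -/
theorem pair_count {x y : V} (hy : y ∈ Y G x) :
    ((Coc G).filter fun K => x ∈ K ∧ y ∈ K).card = 2 := by
  have hpos : 0 < (Nb G x).card := by
    rw [card_Nb hF]
    norm_num
  obtain ⟨a, ha⟩ := card_pos.1 hpos
  obtain ⟨c, hc, hyc⟩ := exists_rep hF ha hy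
  set u₀ : TT G x a := ⟨c, hc⟩ with hu₀
  rw [← card_coc (hyp_TT hF ha) u₀]
  refine card_nbij' (toO G x a) (toK G x a) ?_ ?_ ?_ ?_
  · intro K hK
    simp only [coe_filter, Set.mem_ofPred_eq] at hK
    obtain ⟨hK1, hK2, hK3⟩ := hK
    simp only [coe_filter, mem_univ, true_and, Set.mem_ofPred_eq]
    exact toO_mem hF ha hK1 hK2 hK3 hy hyc
  · intro O hO
    simp only [coe_filter, mem_univ, true_and, Set.mem_ofPred_eq] at hO
    obtain ⟨hO1, hO2⟩ := hO
    simp only [coe_filter, Set.mem_ofPred_eq]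
    exact toK_mem hF ha hy hO1 hO2 hyc
  · intro K hK
    simp only [coe_filter, Set.mem_ofPred_eq] at hK
    exact toK_toO hF ha hK.1 hK.2.1
  · intro O _
    exact toO_toK hF ha O

/-- Each vertex lies in exactly six 21-cocliques. -/
theorem vertex_count (x : V) : ((Coc G).filter fun K => x ∈ K).card = 6 := by
  set A := (Coc G).filter fun K => x ∈ K with hA
  have hdc := sum_card_bipartiteAbove_eq_sum_card_bipartiteBelow (s := A) (t := Y G x)
    (fun K v => v ∈ K)
  have h1 : ∀ K ∈ A, ((Y G x).bipartiteAbove (fun K v => v ∈ K) K).card = 20 := by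
    intro K hK
    obtain ⟨hK1, hx⟩ := mem_filter.1 hK
    obtain ⟨hc, hco⟩ := mem_Coc.1 hK1
    have h2 : (Y G x).bipartiteAbove (fun K v => v ∈ K) K = K.erase x := by
      ext v
      simp only [bipartiteAbove, mem_filter, mem_erase, mem_Y]
      constructor
      · rintro ⟨⟨h3, _⟩, h4⟩
        exact ⟨h3, h4⟩
      · rintro ⟨h3, h4⟩
        exact ⟨⟨h3, hco x hx v h4⟩, h4⟩
    rw [h2, card_erase_of_mem hx, hc]
  have h2 : ∀ v ∈ Y G x, (A.bipartiteBelow (fun K v => v ∈ K) v).card = 2 := by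
    intro v hv
    rw [← pair_count hF hv]
    congr 1
    ext K
    simp only [bipartiteBelow, hA, mem_filter]
    tauto
  rw [sum_congr rfl h1, sum_congr rfl h2, sum_const, sum_const, card_Y hF] at hdc
  simp only [smul_eq_mul] at hdc
  omega

/-- There are exactly 22 cocliques of size 21. -/
theorem card_Coc : (Coc G).card = 22 := by
  have hdc := sum_card_bipartiteAbove_eq_sum_card_bipartiteBelow (s := Coc G) (t := (univ : Finset V))
    (fun K v => v ∈ K)
  have h1 : ∀ K ∈ Coc G, ((univ : Finset V).bipartiteAbove (fun K v => v ∈ K) K).card = 21 := by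
    intro K hK
    have h2 : (univ : Finset V).bipartiteAbove (fun K v => v ∈ K) K = K := by
      ext v
      simp [bipartiteAbove]
    rw [h2]
    exact (mem_Coc.1 hK).1
  have h2 : ∀ v ∈ (univ : Finset V), ((Coc G).bipartiteBelow (fun K v => v ∈ K) v).card = 6 := by
    intro v _
    exact vertex_count hF v
  rw [sum_congr rfl h1, sum_congr rfl h2, sum_const, sum_const, card_univ, hF.card] at hdc
  simp only [smul_eq_mul] at hdc
  omega

end Cfsg.Agent.Lib.SRG77Coc
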