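import Mathlib
import Cfsg.Prelude.Def_Sporadic_a
import Cfsg.Agent.Lib.SRG77Coc
import Cfsg.Agent.Lib.SteinerSearch
import Cfsg.Agent.Lib.Steiner3622

set_option autoImplicit false
set_option linter.unusedSectionVars false
set_option linter.unusedSimpArgs false
set_option linter.unusedVariables false

/-!
# The strongly regular graph with parameters (77, 16, 0, 4) is a block graph

The 22 cocliques of size 21 are the points, and the vertices give the blocks, of a Steiner
system S(3,6,22).
-/

namespace Cfsg.Agent.Lib.SRG77Steiner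
open Finset Cfsg Cfsg.Agent.Lib.SRG77Gram Cfsg.Agent.Lib.SRG77Coc

variable {V : Type*} [Fintype V] [DecidableEq V] {G : SimpleGraph V} [DecidableRel G.Adj]

/-- The points. -/
abbrev Pt (G : SimpleGraph V) [DecidableRel G.Adj] : Type _ := {K // K ∈ Coc G}

/-- The block of a vertex. -/
def bl (G : SimpleGraph V) [DecidableRel G.Adj] (v : V) : Finset (Pt G) :=
  univ.filter fun K => v ∈ K.1

theorem mem_bl {v : V} {K : Pt G} : K ∈ bl G v ↔ v ∈ K.1 := by simp [bl]

/-- The Steiner system. -/
def sys (G : SimpleGraph V) [DecidableRel G.Adj] : Set (Finset (Pt G)) := Set.range (bl G)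

section facts

variable (hF : Facts G)
include hF

theorem card_Pt : Fintype.card (Pt G) = 22 := by
  rw [Fintype.card_coe, card_Coc hF]

theorem card_filter_eq (P : Finset V → Prop) [DecidablePred P] :
    (univ.filter fun K : Pt G => P K.1).card = ((Coc G).filter P).card := by
  rw [← card_map (Function.Embedding.subtype _)]
  congr 1
  ext K
  simp only [mem_map, mem_filter, mem_univ, true_and, Function.Embedding.coe_subtype,
    Subtype.exists, exists_and_left, exists_eq_right_right]
  constructor
  · rintro ⟨a, h1, h2, rfl⟩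
    exact ⟨h2, h1⟩
  · rintro ⟨h1, h2⟩
    exact ⟨K, h2, h1, rfl⟩

theorem card_bl (v : V) : (bl G v).card = 6 := by
  rw [bl, card_filter_eq hF (fun K => v ∈ K)]
  exact vertex_count hF v

theorem bl_inter_nonadj {u v : V} (hne : u ≠ v) (hna : ¬ G.Adj u v) :
    (bl G u ∩ bl G v).card = 2 := by
  have h1 : bl G u ∩ bl G v = univ.filter fun K : Pt G => u ∈ K.1 ∧ v ∈ K.1 := by
    ext K
    simp [mem_bl]
  rw [h1, card_filter_eq hF (fun K => u ∈ K ∧ v ∈ K)]
  exact pair_count hF (mem_Y.2 ⟨hne.symm, hna⟩)

omit hF in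
theorem bl_disjoint {u v : V} (hadj : G.Adj u v) : Disjoint (bl G u) (bl G v) := by
  rw [Finset.disjoint_left]
  intro K hu hv
  exact (mem_Coc.1 K.2).2 u (mem_bl.1 hu) v (mem_bl.1 hv) hadj

theorem bl_inter_le {u v : V} (hne : u ≠ v) : (bl G u ∩ bl G v).card ≤ 2 := by
  by_cases h : G.Adj u v
  · rw [Finset.disjoint_iff_inter_eq_empty.1 (bl_disjoint h)]
    simp
  · exact (bl_inter_nonadj hF hne h).le

theorem bl_inj : Function.Injective (bl G) := by
  intro u v h
  by_contra hne
  have h1 := bl_inter_le hF hne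
  rw [h, inter_self, card_bl hF] at h1
  norm_num at h1

/-- Triples in a block: the families are pairwise disjoint, and they exhaust all triples. -/
theorem exists_bl (s : Finset (Pt G)) (hs : s.card = 3) : ∃ v, s ⊆ bl G v := by
  set A : V → Finset (Finset (Pt G)) := fun v => powersetCard 3 (bl G v) with hA
  have hdisj : ∀ u ∈ (univ : Finset V), ∀ v ∈ (univ : Finset V), u ≠ v → Disjoint (A u) (A v) := by
    intro u _ v _ hne
    rw [Finset.disjoint_left]
    intro t ht ht'
    obtain ⟨h1, h2⟩ := mem_powersetCard.1 ht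
    obtain ⟨h1', h2'⟩ := mem_powersetCard.1 ht'
    have h3 := card_le_card (subset_inter h1 h1')
    have h4 := bl_inter_le hF hne
    omega
  have hcard : ((univ : Finset V).biUnion A).card = 1540 := by
    rw [card_biUnion hdisj]
    have h1 : ∀ v ∈ (univ : Finset V), (A v).card = 20 := by
      intro v _
      simp only [hA]
      rw [card_powersetCard, card_bl hF]
      decide
    rw [sum_congr rfl h1, sum_const, card_univ, hF.card]
    norm_num
  have hsub : (univ : Finset V).biUnion A ⊆ powersetCard 3 (univ : Finset (Pt G)) := by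
    intro t ht
    obtain ⟨v, _, hv⟩ := mem_biUnion.1 ht
    exact mem_powersetCard.2 ⟨subset_univ _, (mem_powersetCard.1 hv).2⟩
  have heq : (univ : Finset V).biUnion A = powersetCard 3 (univ : Finset (Pt G)) := by
    apply eq_of_subset_of_card_le hsub
    rw [hcard, card_powersetCard, card_univ, card_Pt hF]
    decide
  have hs' : s ∈ powersetCard 3 (univ : Finset (Pt G)) := mem_powersetCard.2 ⟨subset_univ _, hs⟩
  rw [← heq] at hs'
  obtain ⟨v, _, hv⟩ := mem_biUnion.1 hs'
  exact ⟨v, (mem_powersetCard.1 hv).1⟩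

theorem steiner : IsSteinerSystem 3 6 (sys G) := by
  constructor
  · rintro _ ⟨v, rfl⟩
    exact card_bl hF v
  · intro s hs
    obtain ⟨v, hv⟩ := exists_bl hF s hs
    refine ⟨bl G v, ⟨⟨v, rfl⟩, hv⟩, ?_⟩
    rintro _ ⟨⟨u, rfl⟩, hu⟩
    by_contra hne
    have hne' : u ≠ v := fun h => hne (by rw [h])
    have h3 := card_le_card (subset_inter hu hv)
    have h4 := bl_inter_le hF hne'
    omega

/-- The graph is the block graph. -/
theorem iso_block : Nonempty (G ≃g blockGraph (sys G)) := by
  let φ : V → sys G := fun v => ⟨bl G v, ⟨v, rfl⟩⟩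
  have hinj : Function.Injective φ := fun u v h => bl_inj hF (congrArg Subtype.val h)
  have hsurj : Function.Surjective φ := by
    rintro ⟨_, ⟨v, rfl⟩⟩
    exact ⟨v, rfl⟩
  refine ⟨⟨Equiv.ofBijective φ ⟨hinj, hsurj⟩, ?_⟩⟩
  intro u v
  simp only [Equiv.ofBijective_apply, blockGraph, SimpleGraph.fromRel_adj]
  constructor
  · rintro ⟨h1, h2⟩
    have hne : u ≠ v := fun h => h1 (by rw [h])
    by_contra hna
    have h3 := bl_inter_nonadj hF hne hna
    have h4 : Disjoint (bl G u) (bl G v) := by
      rcases h2 with h2 | h2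
      · exact h2
      · exact h2.symm
    rw [Finset.disjoint_iff_inter_eq_empty.1 h4] at h3
    simp at h3
  · intro hadj
    exact ⟨fun h => hadj.ne (hinj h), Or.inl (bl_disjoint hadj)⟩

end facts

/-- Isomorphic set systems have isomorphic block graphs. -/
theorem block_congr {α β : Type*} [DecidableEq α] [DecidableEq β] {A : Set (Finset α)}
    {A' : Set (Finset β)} (h : SetSystemIso A A') : Nonempty (blockGraph A ≃g blockGraph A') := by
  obtain ⟨e, he⟩ := h
  have hmem : ∀ b, b ∈ A → b.image e ∈ A' := fun b hb => he ▸ Set.mem_image_of_mem _ hb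
  have hmem' : ∀ b, b ∈ A' → b.image e.symm ∈ A := by
    intro b hb
    rw [← he] at hb
    obtain ⟨c, hc, rfl⟩ := hb
    rwa [Finset.image_image, show (e.symm ∘ e : α → α) = id from funext e.symm_apply_apply,
      Finset.image_id]
  let eB : A ≃ A' :=
    { toFun := fun b => ⟨b.1.image e, hmem b.1 b.2⟩
      invFun := fun b => ⟨b.1.image e.symm, hmem' b.1 b.2⟩
      left_inv := fun b => by
        apply Subtype.ext
        simp only
        rw [Finset.image_image, show (e.symm ∘ e : α → α) = id from funext e.symm_apply_apply,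
          Finset.image_id]
      right_inv := fun b => by
        apply Subtype.ext
        simp only
        rw [Finset.image_image, show (e ∘ e.symm : β → β) = id from funext e.apply_symm_apply,
          Finset.image_id] }
  refine ⟨⟨eB, ?_⟩⟩
  intro b c
  simp only [blockGraph, SimpleGraph.fromRel_adj]
  have h1 : ∀ b c : A, Disjoint (eB b).1 (eB c).1 ↔ Disjoint b.1 c.1 := by
    intro b c
    exact Finset.disjoint_image e.injective
  rw [h1, h1, eB.injective.ne_iff]

/-- Uniqueness of the graph. -/
theorem unique {V W : Type*} [Fintype V] [Fintype W] {G : SimpleGraph V} {H : SimpleGraph W}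
    [DecidableRel G.Adj] [DecidableRel H.Adj] (hG : G.IsSRGWith 77 16 0 4)
    (hH : H.IsSRGWith 77 16 0 4) : Nonempty (G ≃g H) := by
  classical
  have fG := facts_of_srg hG
  have fH := facts_of_srg hH
  obtain ⟨e₁⟩ := iso_block fG
  obtain ⟨e₂⟩ := iso_block fH
  have hiso := SteinerSearch.iso_of_good Steiner3622.good (card_Pt fG) (card_Pt fH)
    (steiner fG) (steiner fH)
  obtain ⟨e₃⟩ := block_congr hiso
  exact ⟨e₁.trans (e₃.trans e₂.symm)⟩

end Cfsg.Agent.Lib.SRG77Steiner
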