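import Cfsg.Agent.Lib.SU3Herm

/-!
Coded computation over the fields with `9` and `25` elements: codes `r + p s` stand for `r + s i`, `i² = 2`.
The kernel computes with codes, and the results are transferred to any field with `p²` elements.
-/

set_option autoImplicit false
set_option linter.unusedSectionVars false
set_option linter.unusedVariables false
set_option linter.style.longLine false

namespace Cfsg.Agent.SU3C

open Matrix Cfsg Cfsg.Geo Cfsg.Agent.H97.Asch Cfsg.Agent.SU3H

/-- Addition of codes. -/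
def fadd (p x y : ℕ) : ℕ := (x % p + y % p) % p + p * ((x / p + y / p) % p)

/-- Multiplication of codes. -/
def fmul (p x y : ℕ) : ℕ :=
  (x % p * (y % p) + 2 * (x / p * (y / p))) % p + p * ((x % p * (y / p) + x / p * (y % p)) % p)

/-- The conjugate of a code. -/
def fcj (p x : ℕ) : ℕ := x % p + p * ((p - x / p % p) % p)

/-- Subtraction of codes. -/
def fsub (p x y : ℕ) : ℕ := fadd p x (fmul p (p - 1) y)

/-- An inverse of a nonzero code. -/
def finv (p x : ℕ) : ℕ :=
  fmul p (fcj p x) (fmul p (fcj p x) x ^ (p - 2) % p)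

/-- A vector of codes. -/
structure V3 where
  (x y z : ℕ)
  deriving DecidableEq

/-- A matrix of codes. -/
structure M3 where
  (a b c d e f g h i : ℕ)
  deriving DecidableEq

namespace M3

variable (p : ℕ)

/-- The product. -/
def mul (m n : M3) : M3 :=
  ⟨fadd p (fadd p (fmul p m.a n.a) (fmul p m.b n.d)) (fmul p m.c n.g),
   fadd p (fadd p (fmul p m.a n.b) (fmul p m.b n.e)) (fmul p m.c n.h),
   fadd p (fadd p (fmul p m.a n.c) (fmul p m.b n.f)) (fmul p m.c n.i),
   fadd p (fadd p (fmul p m.d n.a) (fmul p m.e n.d)) (fmul p m.f n.g),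
   fadd p (fadd p (fmul p m.d n.b) (fmul p m.e n.e)) (fmul p m.f n.h),
   fadd p (fadd p (fmul p m.d n.c) (fmul p m.e n.f)) (fmul p m.f n.i),
   fadd p (fadd p (fmul p m.g n.a) (fmul p m.h n.d)) (fmul p m.i n.g),
   fadd p (fadd p (fmul p m.g n.b) (fmul p m.h n.e)) (fmul p m.i n.h),
   fadd p (fadd p (fmul p m.g n.c) (fmul p m.h n.f)) (fmul p m.i n.i)⟩

/-- The identity. -/
def one : M3 := ⟨1, 0, 0, 0, 1, 0, 0, 0, 1⟩

/-- The transpose. -/
def tr (m : M3) : M3 := ⟨m.a, m.d, m.g, m.b, m.e, m.h, m.c, m.f, m.i⟩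

/-- Entrywise conjugate. -/
def cj (m : M3) : M3 :=
  ⟨fcj p m.a, fcj p m.b, fcj p m.c, fcj p m.d, fcj p m.e, fcj p m.f, fcj p m.g, fcj p m.h, fcj p m.i⟩

/-- The determinant. -/
def det (m : M3) : ℕ :=
  fsub p (fsub p (fadd p (fsub p (fsub p (fmul p m.a (fmul p m.e m.i)) (fmul p m.a (fmul p m.f m.h)))
    (fmul p m.b (fmul p m.d m.i))) (fmul p m.b (fmul p m.f m.g))) (fmul p m.c (fmul p m.e m.g))) 0
  |> fun r => fadd p r (fmul p m.c (fmul p m.d m.h))

/-- Matrix times vector. -/
def mulV (m : M3) (u : V3) : V3 :=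
  ⟨fadd p (fadd p (fmul p m.a u.x) (fmul p m.b u.y)) (fmul p m.c u.z),
   fadd p (fadd p (fmul p m.d u.x) (fmul p m.e u.y)) (fmul p m.f u.z),
   fadd p (fadd p (fmul p m.g u.x) (fmul p m.h u.y)) (fmul p m.i u.z)⟩

/-- Membership in the coded unitary group. -/
def isU (m : M3) : Bool := decide (mul p (tr m) (cj p m) = one) && decide (det p m = 1)

/-- A power. -/
def pow (m : M3) : ℕ → M3
  | 0 => one
  | k + 1 => mul p (pow m k) m

/-- The matrix with given columns. -/
def ofCols (u v w : V3) : M3 := ⟨u.x, v.x, w.x, u.y, v.y, w.y, u.z, v.z, w.z⟩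

end M3

namespace V3

variable (p : ℕ)

/-- Scalar multiple. -/
def scale (c : ℕ) (u : V3) : V3 := ⟨fmul p c u.x, fmul p c u.y, fmul p c u.z⟩

/-- The first nonzero coordinate. -/
def lead (u : V3) : ℕ := if u.x = 0 then (if u.y = 0 then u.z else u.y) else u.x

/-- The proportionality test: some coordinate of the cross product is nonzero. -/
def notProp (u v : V3) : Bool :=
  decide (fsub p (fmul p u.y v.z) (fmul p u.z v.y) ≠ 0) || decide (fsub p (fmul p u.z v.x) (fmul p u.x v.z) ≠ 0) ||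
    decide (fsub p (fmul p u.x v.y) (fmul p u.y v.x) ≠ 0)

end V3

section Points

variable (p : ℕ)

/-- One step of the invariance check. -/
def stp (pts : List V3) (m : M3) (u : V3) : Bool :=
  let r := M3.mulV p m u
  let l := V3.lead r
  decide (fmul p l (finv p l) = 1) && pts.contains (V3.scale p (finv p l) r)

/-- A matrix permuting the points. -/
def pres (pts : List V3) (m : M3) : Bool := pts.all (stp p pts m)

end Points

section Transfer

variable {F : Type*} [Field F] (p : ℕ) (i : F)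

/-- The context of the coding. -/
structure Cx : Prop where
  hp : p = 3 ∨ p = 5
  hz : (p : F) = 0
  hi : i * i = 2

/-- The value of a code. -/
def val (n : ℕ) : F := ((n % p : ℕ) : F) + ((n / p : ℕ) : F) * i

variable {p i}

theorem Cx.cast_mod (C : Cx p i) (n : ℕ) : ((n % p : ℕ) : F) = (n : F) := by
  have h : (n : F) = ((n % p : ℕ) : F) + (p : F) * ((n / p : ℕ) : F) := by
    have e := (Nat.mod_add_div n p).symm
    calc (n : F) = ((n % p + p * (n / p) : ℕ) : F) := congrArg _ e
      _ = _ := by push_cast; ring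
  rw [C.hz, zero_mul, add_zero] at h
  exact h.symm

theorem Cx.val_add (C : Cx p i) (x y : ℕ) : val p i (fadd p x y) = val p i x + val p i y := by
  unfold val fadd
  have e1 : ((x % p + y % p) % p + p * ((x / p + y / p) % p)) % p = (x % p + y % p) % p := by
    rcases C.hp with rfl | rfl <;> omega
  have e2 : ((x % p + y % p) % p + p * ((x / p + y / p) % p)) / p = (x / p + y / p) % p := by
    rcases C.hp with rfl | rfl <;> omega
  rw [e1, e2, C.cast_mod, C.cast_mod]
  push_cast
  ring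

theorem Cx.val_mul (C : Cx p i) (x y : ℕ) : val p i (fmul p x y) = val p i x * val p i y := by
  unfold val fmul
  have e1 : ((x % p * (y % p) + 2 * (x / p * (y / p))) % p +
      p * ((x % p * (y / p) + x / p * (y % p)) % p)) % p = (x % p * (y % p) + 2 * (x / p * (y / p))) % p := by
    rcases C.hp with rfl | rfl <;> omega
  have e2 : ((x % p * (y % p) + 2 * (x / p * (y / p))) % p +
      p * ((x % p * (y / p) + x / p * (y % p)) % p)) / p = (x % p * (y / p) + x / p * (y % p)) % p := by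
    rcases C.hp with rfl | rfl <;> omega
  rw [e1, e2, C.cast_mod, C.cast_mod]
  push_cast
  linear_combination (-(((x / p : ℕ) : F) * ((y / p : ℕ) : F))) * C.hi

theorem val_zero : val p i 0 = (0 : F) := by
  simp [val]

theorem Cx.val_one (C : Cx p i) : val p i 1 = (1 : F) := by
  unfold val
  have e1 : 1 % p = 1 := by rcases C.hp with rfl | rfl <;> rfl
  have e2 : 1 / p = 0 := by rcases C.hp with rfl | rfl <;> rfl
  rw [e1, e2]
  simp

theorem Cx.val_pm1 (C : Cx p i) : val p i (p - 1) = (-1 : F) := by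
  unfold val
  have e1 : (p - 1) % p = p - 1 := by rcases C.hp with rfl | rfl <;> rfl
  have e2 : (p - 1) / p = 0 := by rcases C.hp with rfl | rfl <;> rfl
  rw [e1, e2]
  have h1 : 1 ≤ p := by rcases C.hp with rfl | rfl <;> norm_num
  rw [Nat.cast_sub h1, C.hz]
  simp

theorem Cx.val_sub (C : Cx p i) (x y : ℕ) : val p i (fsub p x y) = val p i x - val p i y := by
  unfold fsub
  rw [C.val_add, C.val_mul, C.val_pm1]
  ring

theorem Cx.fadd_lt (C : Cx p i) (x y : ℕ) : fadd p x y < p * p := by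
  unfold fadd
  rcases C.hp with rfl | rfl <;> omega

theorem Cx.fmul_lt (C : Cx p i) (x y : ℕ) : fmul p x y < p * p := by
  unfold fmul
  rcases C.hp with rfl | rfl <;> omega

theorem Cx.fcj_lt (C : Cx p i) (x : ℕ) : fcj p x < p * p := by
  unfold fcj
  rcases C.hp with rfl | rfl <;> omega

theorem Cx.fsub_lt (C : Cx p i) (x y : ℕ) : fsub p x y < p * p := C.fadd_lt _ _

variable (p i)

/-- The matrix of a code. -/
def toM (m : M3) : Matrix (Fin 3) (Fin 3) F :=
  !![val p i m.a, val p i m.b, val p i m.c; val p i m.d, val p i m.e, val p i m.f; val p i m.g, val p i m.h, val p i m.i]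

/-- The vector of a code. -/
def toV (u : V3) : Fin 3 → F := ![val p i u.x, val p i u.y, val p i u.z]

variable {p i}

theorem Cx.toM_mul (C : Cx p i) (m n : M3) : toM p i (M3.mul p m n) = toM p i m * toM p i n := by
  ext a b
  fin_cases a <;> fin_cases b <;>
    simp [toM, M3.mul, C.val_add, C.val_mul, Matrix.mul_apply, Fin.sum_univ_three]

theorem Cx.toM_one (C : Cx p i) : toM p i M3.one = 1 := by
  ext a b
  fin_cases a <;> fin_cases b <;> simp [toM, M3.one, val_zero, C.val_one]

theorem toM_tr (m : M3) : toM p i (M3.tr m) = (toM p i m)ᵀ := by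
  ext a b
  fin_cases a <;> fin_cases b <;> simp [toM, M3.tr]

theorem Cx.toM_det (C : Cx p i) (m : M3) : (toM p i m).det = val p i (M3.det p m) := by
  rw [Matrix.det_fin_three]
  simp only [toM, M3.det, C.val_add, C.val_sub, C.val_mul, val_zero]
  simp
  ring

theorem Cx.toM_mulVec (C : Cx p i) (m : M3) (u : V3) : toM p i m *ᵥ toV p i u = toV p i (M3.mulV p m u) := by
  ext a
  fin_cases a <;>
    simp [toM, toV, M3.mulV, C.val_add, C.val_mul, Matrix.mulVec, dotProduct, Fin.sum_univ_three]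

theorem Cx.smul_toV (C : Cx p i) (c : ℕ) (u : V3) : val p i c • toV p i u = toV p i (V3.scale p c u) := by
  ext a
  fin_cases a <;> simp [toV, V3.scale, C.val_mul]

theorem toM_ofCols (u v w : V3) (j : Fin 3) : (fun a => toM p i (M3.ofCols u v w) a j) = toV p i (![u, v, w] j) := by
  ext a
  fin_cases a <;> fin_cases j <;> simp [toM, toV, M3.ofCols]

end Transfer

section Field

open Cfsg.Agent.Lib.HermForm Cfsg.Agent.Lib.FFNorm

variable {F : Type*} [Field F] [Fintype F] {p : ℕ} {i : F}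

theorem exists_cx (hp : p = 3 ∨ p = 5) (hF : Fintype.card F = p ^ 2) : ∃ i : F, Cx p i := by
  have hz : (p : F) = 0 := by
    have h : ((Fintype.card F : ℕ) : F) = 0 := Nat.cast_card_eq_zero F
    rw [hF] at h
    push_cast at h
    exact pow_eq_zero_iff (by norm_num) |>.mp h
  have h1 : (1 : F) ≠ 0 := one_ne_zero
  have h2 : (2 : F) ≠ 0 := by
    intro h
    apply h1
    rcases hp with rfl | rfl
    · push_cast at hz
      linear_combination hz - h
    · push_cast at hz
      linear_combination hz - 2 * h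
  have hc : ringChar F ≠ 2 := by
    intro h
    have := ringChar.Nat.cast_ringChar (R := F)
    rw [h] at this
    apply h2
    exact_mod_cast this
  have h3 : IsSquare (2 : F) := by
    rw [FiniteField.isSquare_iff hc h2, hF]
    rcases hp with rfl | rfl
    · have e : (3 ^ 2 / 2 : ℕ) = 4 := rfl
      rw [e]
      push_cast at hz
      linear_combination (5 : F) * hz
    · have e : (5 ^ 2 / 2 : ℕ) = 12 := rfl
      rw [e]
      push_cast at hz
      linear_combination (819 : F) * hz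
  obtain ⟨i, hi⟩ := h3
  exact ⟨i, hp, hz, hi.symm⟩

theorem Cx.charP (C : Cx p i) : CharP F p := by
  obtain ⟨r, hr⟩ := CharP.exists F
  have h1 : r ∣ p := (CharP.cast_eq_zero_iff F r p).mp C.hz
  have hpp : p.Prime := by
    rcases C.hp with rfl | rfl <;> norm_num
  have hr1 : r ≠ 1 := CharP.char_ne_one F r
  rcases (Nat.dvd_prime hpp).mp h1 with h | h
  · exact absurd h hr1
  · exact h ▸ hr

theorem natCast_pow (hF : Fintype.card F = p ^ 2) (n : ℕ) : ((n : ℕ) : F) ^ p = n := by
  have hp0 : p ≠ 0 := by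
    have := two_le hF
    omega
  induction n with
  | zero => simp [hp0]
  | succ k ih =>
    push_cast
    rw [add_pow_q hF, ih, one_pow]

theorem Cx.i_pow (C : Cx p i) : i ^ p = -i := by
  have hz := C.hz
  have hi := C.hi
  rcases C.hp with rfl | rfl
  · push_cast at hz
    linear_combination i * hi + i * hz
  · push_cast at hz
    linear_combination (i * i * i + 2 * i) * hi + i * hz

theorem Cx.val_cj (C : Cx p i) (hF : Fintype.card F = p ^ 2) (x : ℕ) : val p i (fcj p x) = (val p i x) ^ p := by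
  have e1 : fcj p x % p = x % p := by
    unfold fcj
    rcases C.hp with rfl | rfl <;> omega
  have e2 : fcj p x / p = (p - x / p % p) % p := by
    unfold fcj
    rcases C.hp with rfl | rfl <;> omega
  have e3 : (((p - x / p % p) % p : ℕ) : F) = -((x / p : ℕ) : F) := by
    have h1 : ((p - x / p % p) % p + x / p % p = 0) ∨ ((p - x / p % p) % p + x / p % p = p) := by
      rcases C.hp with rfl | rfl <;> omega
    have h2 : (((p - x / p % p) % p : ℕ) : F) + ((x / p % p : ℕ) : F) = 0 := by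
      rcases h1 with h | h
      · rw [← Nat.cast_add, h, Nat.cast_zero]
      · rw [← Nat.cast_add, h, C.hz]
    have h5 : ((x / p % p : ℕ) : F) = ((x / p : ℕ) : F) := C.cast_mod _
    rw [h5] at h2
    linear_combination h2
  unfold val
  rw [e1, e2, e3, add_pow_q hF, natCast_pow hF, mul_pow, natCast_pow hF, C.i_pow]
  ring

theorem Cx.val_inj (C : Cx p i) {x y : ℕ} (hx : x < p * p) (hy : y < p * p) (h : val p i x = val p i y) : x = y := by
  have hC := C.charP
  have ha : x % p < p := Nat.mod_lt _ (by rcases C.hp with rfl | rfl <;> norm_num)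
  have hc : y % p < p := Nat.mod_lt _ (by rcases C.hp with rfl | rfl <;> norm_num)
  have hb : x / p < p := Nat.div_lt_of_lt_mul hx
  have hd : y / p < p := Nat.div_lt_of_lt_mul hy
  unfold val at h
  obtain ⟨a, hA⟩ : ∃ a, a = x % p := ⟨_, rfl⟩
  obtain ⟨b, hB⟩ : ∃ b, b = x / p := ⟨_, rfl⟩
  obtain ⟨c, hC'⟩ : ∃ c, c = y % p := ⟨_, rfl⟩
  obtain ⟨d, hD⟩ : ∃ d, d = y / p := ⟨_, rfl⟩
  rw [← hA, ← hB, ← hC', ← hD] at h
  rw [← hA] at ha
  rw [← hB] at hb
  rw [← hC'] at hc
  rw [← hD] at hd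
  have h1 : ((a : F) - c) ^ 2 = 2 * ((d : F) - b) ^ 2 := by
    have h2 : (a : F) - c = ((d : F) - b) * i := by linear_combination h
    rw [h2, mul_pow, sq i, C.hi]
    ring
  have h3 : ((a * a + c * c + 4 * b * d : ℕ) : F) = ((2 * a * c + 2 * d * d + 2 * b * b : ℕ) : F) := by
    push_cast
    linear_combination h1
  have h4 := (CharP.natCast_eq_natCast F p).mp h3
  have hfin : a = c ∧ b = d := by
    unfold Nat.ModEq at h4
    rcases C.hp with rfl | rfl
    · have key : ∀ a b c d : Fin 3,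
          ((a : ℕ) * a + c * c + 4 * b * d) % 3 = (2 * a * c + 2 * d * d + 2 * b * b) % 3 →
            (a : ℕ) = c ∧ (b : ℕ) = d := by decide +kernel
      exact key ⟨a, ha⟩ ⟨b, hb⟩ ⟨c, hc⟩ ⟨d, hd⟩ h4
    · have key : ∀ a b c d : Fin 5,
          ((a : ℕ) * a + c * c + 4 * b * d) % 5 = (2 * a * c + 2 * d * d + 2 * b * b) % 5 →
            (a : ℕ) = c ∧ (b : ℕ) = d := by decide +kernel
      exact key ⟨a, ha⟩ ⟨b, hb⟩ ⟨c, hc⟩ ⟨d, hd⟩ h4
  have e1 := Nat.mod_add_div x p
  have e2 := Nat.mod_add_div y p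
  rw [← hA, ← hB] at e1
  rw [← hC', ← hD] at e2
  rw [← e1, ← e2, hfin.1, hfin.2]

theorem Cx.exists_code (C : Cx p i) (hF : Fintype.card F = p ^ 2) (z : F) : ∃ n, n < p * p ∧ val p i n = z := by
  let g : Fin (p * p) → F := fun n => val p i n
  have hg : Function.Injective g := fun a b hab => Fin.ext (C.val_inj a.2 b.2 hab)
  have hb : Function.Bijective g := by
    rw [Fintype.bijective_iff_injective_and_card]
    refine ⟨hg, ?_⟩
    rw [Fintype.card_fin, hF]
    ring
  obtain ⟨n, hn⟩ := hb.2 z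
  exact ⟨n, n.2, hn⟩

theorem Cx.exists_vec (C : Cx p i) (hF : Fintype.card F = p ^ 2) (x : Fin 3 → F) :
    ∃ u : V3, u.x < p * p ∧ u.y < p * p ∧ u.z < p * p ∧ x = toV p i u := by
  obtain ⟨a, ha, ea⟩ := C.exists_code hF (x 0)
  obtain ⟨b, hb, eb⟩ := C.exists_code hF (x 1)
  obtain ⟨c, hc, ec⟩ := C.exists_code hF (x 2)
  refine ⟨⟨a, b, c⟩, ha, hb, hc, ?_⟩
  ext k
  fin_cases k <;> simp [toV, ea, eb, ec]

theorem Cx.sg_toM (C : Cx p i) (hF : Fintype.card F = p ^ 2) (m : M3) : sg hF (toM p i m) = toM p i (M3.cj p m) := by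
  ext a b
  rw [sg_apply]
  fin_cases a <;> fin_cases b <;> simp [toM, M3.cj, C.val_cj hF]

theorem Cx.isU_spec (C : Cx p i) (hF : Fintype.card F = p ^ 2) {m : M3} (hm : M3.isU p m = true) :
    (toM p i m)ᵀ * sg hF (toM p i m) = 1 ∧ (toM p i m).det = 1 := by
  unfold M3.isU at hm
  rw [Bool.and_eq_true, decide_eq_true_eq, decide_eq_true_eq] at hm
  constructor
  · rw [C.sg_toM hF, ← toM_tr, ← C.toM_mul, hm.1, C.toM_one]
  · rw [C.toM_det, hm.2, C.val_one]

/-- Reduced matrices of codes. -/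
def M3.Red (p : ℕ) (r : M3) : Prop :=
  r.a < p * p ∧ r.b < p * p ∧ r.c < p * p ∧ r.d < p * p ∧ r.e < p * p ∧ r.f < p * p ∧ r.g < p * p ∧ r.h < p * p ∧ r.i < p * p

theorem Cx.red_one (C : Cx p i) : M3.Red p M3.one := by
  unfold M3.Red M3.one
  rcases C.hp with rfl | rfl <;> norm_num

theorem Cx.red_mul (C : Cx p i) (m n : M3) : M3.Red p (M3.mul p m n) :=
  ⟨C.fadd_lt _ _, C.fadd_lt _ _, C.fadd_lt _ _, C.fadd_lt _ _, C.fadd_lt _ _, C.fadd_lt _ _, C.fadd_lt _ _, C.fadd_lt _ _, C.fadd_lt _ _⟩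

theorem Cx.toM_inj (C : Cx p i) {r s : M3} (hr : M3.Red p r) (hs : M3.Red p s) (h : toM p i r = toM p i s) : r = s := by
  obtain ⟨r1, r2, r3, r4, r5, r6, r7, r8, r9⟩ := hr
  obtain ⟨s1, s2, s3, s4, s5, s6, s7, s8, s9⟩ := hs
  have e : ∀ a b, toM p i r a b = toM p i s a b := fun a b => by rw [h]
  have e1 := C.val_inj r1 s1 (e 0 0)
  have e2 := C.val_inj r2 s2 (e 0 1)
  have e3 := C.val_inj r3 s3 (e 0 2)
  have e4 := C.val_inj r4 s4 (e 1 0)
  have e5 := C.val_inj r5 s5 (e 1 1)
  have e6 := C.val_inj r6 s6 (e 1 2)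
  have e7 := C.val_inj r7 s7 (e 2 0)
  have e8 := C.val_inj r8 s8 (e 2 1)
  have e9 := C.val_inj r9 s9 (e 2 2)
  cases r
  cases s
  simp_all

theorem Cx.det_lt (C : Cx p i) (m : M3) : M3.det p m < p * p := C.fadd_lt _ _

theorem Cx.one_lt (C : Cx p i) : 1 < p * p := by
  rcases C.hp with rfl | rfl <;> norm_num

theorem Cx.isU_of (C : Cx p i) (hF : Fintype.card F = p ^ 2) {m : M3} (h1 : (toM p i m)ᵀ * sg hF (toM p i m) = 1)
    (h2 : (toM p i m).det = 1) : M3.isU p m = true := by
  unfold M3.isU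
  rw [Bool.and_eq_true, decide_eq_true_eq, decide_eq_true_eq]
  constructor
  · apply C.toM_inj (C.red_mul _ _) C.red_one
    rw [C.toM_mul, toM_tr, ← C.sg_toM hF, h1, C.toM_one]
  · apply C.val_inj (C.det_lt m) C.one_lt
    rw [← C.toM_det, h2, C.val_one]

/-- The group element of a code. -/
def Cx.toG (C : Cx p i) (hF : Fintype.card F = p ^ 2) (m : M3) (hm : M3.isU p m = true) : GL (Fin 3) F :=
  mkU hF (toM p i m) (C.isU_spec hF hm).1

@[simp] theorem Cx.toG_val (C : Cx p i) (hF : Fintype.card F = p ^ 2) (m : M3) (hm : M3.isU p m = true) :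
    (C.toG hF m hm : Matrix (Fin 3) (Fin 3) F) = toM p i m := rfl

theorem Cx.toG_mem (C : Cx p i) (hF : Fintype.card F = p ^ 2) (m : M3) (hm : M3.isU p m = true) :
    C.toG hF m hm ∈ GU 3 F p ⊓ specialLinear (Fin 3) F :=
  mkU_mem_SU hF _ _ (C.isU_spec hF hm).2

variable (p i)

/-- The set of nonzero multiples of a list of points. -/
def ptsSet (pts : List V3) : Set (Fin 3 → F) := {x | ∃ c : F, c ≠ 0 ∧ ∃ u ∈ pts, x = c • toV p i u}

variable {p i}

theorem Cx.val_ne (C : Cx p i) {l l' : ℕ} (h : fmul p l l' = 1) : val p i l ≠ 0 := by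
  intro h0
  have h1 := C.val_mul l l'
  rw [h, C.val_one, h0, zero_mul] at h1
  exact one_ne_zero h1

theorem Cx.pres_spec (C : Cx p i) {pts : List V3} {m : M3} (hm : pres p pts m = true) :
    ∀ x ∈ ptsSet p i pts, toM p i m *ᵥ x ∈ ptsSet p i pts := by
  rintro x ⟨c, hc, u, hu, rfl⟩
  have h1 := List.all_eq_true.mp hm u hu
  unfold stp at h1
  simp only [Bool.and_eq_true, decide_eq_true_eq, List.contains_iff_mem] at h1
  obtain ⟨h2, h3⟩ := h1
  obtain ⟨l, hl⟩ : ∃ l, l = V3.lead (M3.mulV p m u) := ⟨_, rfl⟩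
  rw [← hl] at h2 h3
  have hv := C.val_ne h2
  have hvi : val p i l * val p i (finv p l) = 1 := by rw [← C.val_mul, h2, C.val_one]
  refine ⟨c * val p i l, mul_ne_zero hc hv, _, h3, ?_⟩
  rw [Matrix.mulVec_smul, C.toM_mulVec, ← C.smul_toV, smul_smul, mul_assoc, hvi, mul_one]

theorem Cx.notProp_spec (C : Cx p i) {u q : V3} (h : V3.notProp p u q = true) (c : F) :
    toV p i u ≠ c • toV p i q := by
  intro he
  have hx : val p i u.x = c * val p i q.x := congrFun he 0
  have hy : val p i u.y = c * val p i q.y := congrFun he 1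
  have hz : val p i u.z = c * val p i q.z := congrFun he 2
  have key : ∀ a b : ℕ, val p i (fsub p a b) = 0 → fsub p a b = 0 := fun a b h0 =>
    C.val_inj (C.fsub_lt _ _) (by have := C.one_lt; omega) (by rw [h0, val_zero])
  unfold V3.notProp at h
  simp only [Bool.or_eq_true, decide_eq_true_eq] at h
  rcases h with (h | h) | h
  · apply h
    apply key
    rw [C.val_sub, C.val_mul, C.val_mul, hy, hz]
    ring
  · apply h
    apply key
    rw [C.val_sub, C.val_mul, C.val_mul, hx, hz]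
    ring
  · apply h
    apply key
    rw [C.val_sub, C.val_mul, C.val_mul, hx, hy]
    ring

/-- A matrix moving a point off the set. -/
theorem Cx.not_stab (C : Cx p i) {pts : List V3} {m : M3} {u₀ : V3} (hu₀ : u₀ ∈ pts)
    (h : pts.all (V3.notProp p (M3.mulV p m u₀)) = true) :
    ¬ ∀ x ∈ ptsSet p i pts, toM p i m *ᵥ x ∈ ptsSet p i pts := by
  intro hall
  have h1 : toV p i u₀ ∈ ptsSet p i pts := ⟨1, one_ne_zero, u₀, hu₀, by rw [one_smul]⟩
  obtain ⟨c, hc, q, hq, he⟩ := hall _ h1
  rw [C.toM_mulVec] at he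
  exact C.notProp_spec (List.all_eq_true.mp h q hq) c he

/-- The criterion for non-maximality, for a list of points. -/
theorem Cx.coded_no_max (C : Cx p i) (hF : Fintype.card F = p ^ 2) {H : Subgroup (GL (Fin 3) F)}
    (hmax : IsMaximalIn (GU 3 F p ⊓ specialLinear (Fin 3) F) H) (pts : List V3)
    (hX : ∀ h ∈ H, ∀ x ∈ ptsSet p i pts, (h : Matrix (Fin 3) (Fin 3) F) *ᵥ x ∈ ptsSet p i pts)
    {w t : M3} (hw : M3.isU p w = true) (hwp : pres p pts w = true) (hwH : C.toG hF w hw ∉ H)
    (ht : M3.isU p t = true) {u₀ : V3} (hu₀ : u₀ ∈ pts) (hmv : pts.all (V3.notProp p (M3.mulV p t u₀)) = true) : False :=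
  no_max hmax (ptsSet p i pts) hX (C.toG_mem hF w hw) (C.pres_spec hwp) hwH (C.toG_mem hF t ht) (C.not_stab hu₀ hmv)

end Field

end Cfsg.Agent.SU3C
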