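import Cfsg.Agent.Lib.SU3X5

/-!
The monomial group in `SU₃(5)` is not maximal.
-/

set_option autoImplicit false
set_option linter.unusedSectionVars false
set_option linter.unusedVariables false
set_option linter.style.longLine false

namespace Cfsg.Agent.SU3X5

open Matrix Cfsg Cfsg.Geo Cfsg.Agent.H97.Asch Cfsg.Agent.SU3H Cfsg.Agent.SU3C Cfsg.Agent.SU3R5
  Cfsg.Agent.Lib.HermForm Cfsg.Agent.Lib.FFNorm

variable {F : Type*} [Field F] [Fintype F] {i : F}

/-- The norm of a coordinate. -/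
def nn (v : Fin 3 → F) (j : Fin 3) : F := v j * v j ^ 5
/-- The form. -/
def hh (v : Fin 3 → F) : F := ∑ j, nn v j
/-- The sum of squares of norms. -/
def pp (v : Fin 3 → F) : F := ∑ j, nn v j ^ 2
/-- The square of the product. -/
def ss (v : Fin 3 → F) : F := (∏ j, v j) ^ 2
/-- The set of points, in monomial invariants. -/
def Xm (v : Fin 3 → F) : Prop :=
  hh v ≠ 0 ∧ ((ss v = 0 ∧ (pp v = hh v ^ 2 ∨ pp v = 3 * hh v ^ 2)) ∨ (ss v = 2 * hh v ∧ (pp v = hh v ^ 2 ∨ pp v = 2 * hh v ^ 2)) ∨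
    (ss v = 4 * hh v ∧ pp v = 3 * hh v ^ 2))

theorem val2 (C : Cx 5 i) : val 5 i 2 = (2 : F) := by
  unfold val
  norm_num

theorem val3 (C : Cx 5 i) : val 5 i 3 = (3 : F) := by
  unfold val
  norm_num

theorem val4 (C : Cx 5 i) : val 5 i 4 = (4 : F) := by
  unfold val
  norm_num

theorem nc_val (hF : Fintype.card F = 5 ^ 2) (C : Cx 5 i) (x : ℕ) : val 5 i (nc x) = val 5 i x * val 5 i x ^ 5 := by
  rw [nc, C.val_mul, C.val_cj hF]

theorem hc_val (hF : Fintype.card F = 5 ^ 2) (C : Cx 5 i) (u : V3) : hh (toV 5 i u) = val 5 i (hc u) := by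
  simp [hh, nn, hc, toV, C.val_add, nc_val hF C, Fin.sum_univ_three]

theorem pc_val (hF : Fintype.card F = 5 ^ 2) (C : Cx 5 i) (u : V3) : pp (toV 5 i u) = val 5 i (pc u) := by
  simp [pp, nn, pc, toV, C.val_add, C.val_mul, nc_val hF C, Fin.sum_univ_three, sq]

theorem sc_val (C : Cx 5 i) (u : V3) : ss (toV 5 i u) = val 5 i (sc u) := by
  simp [ss, sc, toV, C.val_mul, Fin.prod_univ_three, sq]

theorem val_eq_iff (C : Cx 5 i) {x y : ℕ} (hx : x < 25) (hy : y < 25) : val 5 i x = val 5 i y ↔ x = y :=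
  ⟨fun h => C.val_inj hx hy h, fun h => by rw [h]⟩

theorem val_eq_zero_iff (C : Cx 5 i) {x : ℕ} (hx : x < 25) : val 5 i x = 0 ↔ x = 0 := by
  rw [← val_zero (p := 5) (i := i)]
  exact val_eq_iff C hx (by norm_num)

theorem Xm_iff (hF : Fintype.card F = 5 ^ 2) (C : Cx 5 i) (u : V3) : Xm (toV 5 i u) ↔ xm u = true := by
  have hlt1 : ∀ a b, fadd 5 a b < 25 := fun a b => C.fadd_lt a b
  have hlt2 : ∀ a b, fmul 5 a b < 25 := fun a b => C.fmul_lt a b
  have e1 : (hh (toV 5 i u)) ^ 2 = val 5 i (fmul 5 (hc u) (hc u)) := by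
    rw [C.val_mul, hc_val hF C, sq]
  have e2 : 3 * (hh (toV 5 i u)) ^ 2 = val 5 i (fmul 5 3 (fmul 5 (hc u) (hc u))) := by
    rw [C.val_mul, ← e1, val3 C]
  have e3 : 2 * (hh (toV 5 i u)) ^ 2 = val 5 i (fmul 5 2 (fmul 5 (hc u) (hc u))) := by
    rw [C.val_mul, ← e1, val2 C]
  have e4 : 2 * (hh (toV 5 i u)) = val 5 i (fmul 5 2 (hc u)) := by
    rw [C.val_mul, hc_val hF C, val2 C]
  have e5 : 4 * (hh (toV 5 i u)) = val 5 i (fmul 5 4 (hc u)) := by
    rw [C.val_mul, hc_val hF C, val4 C]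
  unfold Xm xm xmAux
  rw [e2, e3, e1, e4, e5, hc_val hF C, pc_val hF C, sc_val C]
  have hh1 : hc u < 25 := hlt1 _ _
  have hp1 : pc u < 25 := hlt1 _ _
  have hs1 : sc u < 25 := hlt2 _ _
  rw [Ne, val_eq_zero_iff C hh1, val_eq_zero_iff C hs1, val_eq_iff C hp1 (hlt2 _ _), val_eq_iff C hp1 (hlt2 _ _),
    val_eq_iff C hp1 (hlt2 _ _), val_eq_iff C hs1 (hlt2 _ _), val_eq_iff C hs1 (hlt2 _ _)]
  simp only [Bool.and_eq_true, Bool.or_eq_true, decide_eq_true_eq, or_assoc]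

/-- A monomial unitary matrix of determinant one preserves the set. -/
theorem Xm_mono (hF : Fintype.card F = 5 ^ 2) {M : Matrix (Fin 3) (Fin 3) F} (π : Equiv.Perm (Fin 3)) (a : Fin 3 → F)
    (hM : ∀ j s, M j s = if j = π s then a s else 0) (hU : Mᵀ * sg hF M = 1) (hd : M.det = 1) {v : Fin 3 → F} (hv : Xm v) : Xm (M *ᵥ v) := by
  have hcol : ∀ j, (M *ᵥ v) j = a (π⁻¹ j) * v (π⁻¹ j) := by
    intro j
    simp only [Matrix.mulVec, dotProduct]
    rw [Finset.sum_eq_single (π⁻¹ j)]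
    · rw [hM]
      simp
    · intro s _ hs
      rw [hM, if_neg, zero_mul]
      rintro rfl
      apply hs
      simp
    · simp
  have hN : ∀ s, a s * a s ^ 5 = 1 := by
    intro s
    have h1 := congrFun (congrFun hU s) s
    rw [Matrix.mul_apply] at h1
    simp only [Matrix.transpose_apply, sg_apply, Matrix.one_apply_eq] at h1
    rw [Finset.sum_eq_single (π s)] at h1
    · simpa [hM] using h1
    · intro j _ hj
      simp [hM, hj]
    · simp
  have hnn : ∀ j, nn (M *ᵥ v) j = nn v (π⁻¹ j) := by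
    intro j
    unfold nn
    rw [hcol, mul_pow]
    calc a (π⁻¹ j) * v (π⁻¹ j) * (a (π⁻¹ j) ^ 5 * v (π⁻¹ j) ^ 5) = (a (π⁻¹ j) * a (π⁻¹ j) ^ 5) * (v (π⁻¹ j) * v (π⁻¹ j) ^ 5) := by ring
      _ = _ := by rw [hN, one_mul]
  have hh' : hh (M *ᵥ v) = hh v := by
    unfold hh
    simp only [hnn]
    exact Equiv.sum_comp π⁻¹ (nn v)
  have hp' : pp (M *ᵥ v) = pp v := by
    unfold pp
    simp only [hnn]
    exact Equiv.sum_comp π⁻¹ (fun j => nn v j ^ 2)
  have hdet : (∏ s, a s) ^ 2 = 1 := by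
    have h1 : (M.submatrix π id) = Matrix.diagonal a := by
      ext j s
      rw [Matrix.submatrix_apply, hM]
      by_cases hjs : j = s
      · subst hjs
        simp
      · have h2 : π j ≠ π s := fun h => hjs (π.injective h)
        simp [hjs, h2]
    have h2 := Matrix.det_permute π M
    rw [h1, Matrix.det_diagonal, hd, mul_one] at h2
    rw [h2]
    have h3 := Int.units_sq (Equiv.Perm.sign π)
    have h4 : ((((Equiv.Perm.sign π : ℤˣ) : ℤ) : F)) ^ 2 = (((((Equiv.Perm.sign π : ℤˣ) ^ 2 : ℤˣ) : ℤ)) : F) := by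
      push_cast
      ring
    rw [show ((Equiv.Perm.sign π : ℤˣ) : F) = (((Equiv.Perm.sign π : ℤˣ) : ℤ) : F) from rfl, h4, h3]
    simp
  have hs' : ss (M *ᵥ v) = ss v := by
    unfold ss
    have h1 : ∏ j, (M *ᵥ v) j = (∏ s, a s) * ∏ s, v s := by
      simp only [hcol, Finset.prod_mul_distrib]
      rw [Equiv.prod_comp π⁻¹ a, Equiv.prod_comp π⁻¹ v]
    rw [h1, mul_pow, hdet, one_mul]
  unfold Xm
  rw [hh', hp', hs']
  exact hv

section Frame

variable {q : ℕ}

/-- An orthonormal basis adapted to a frame. -/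
theorem exists_U_frame (hF : Fintype.card F = q ^ 2) {D : Fin 3 → Submodule F (Fin 3 → F)}
    (hD : IsNondegenerateMDecomposition (hermForm 3 F q) 1 D) :
    ∃ U : GL (Fin 3) F, U ∈ GU 3 F q ∧ ∀ s, D s = Submodule.span F {fun r => (U : Matrix (Fin 3) (Fin 3) F) r s} := by
  classical
  obtain ⟨b, hb⟩ := exists_basis_of_mdecomp1 hD.decomp
  have hbm : ∀ s, b s ∈ D s := fun s => by
    rw [hb]
    exact Submodule.mem_span_singleton_self _
  have horth : ∀ r s, r ≠ s → hermForm 3 F q (b r) (b s) = 0 := fun r s hrs => hD.orthogonal r s hrs _ (hbm r) _ (hbm s)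
  have hd : ∀ s, hermForm 3 F q (b s) (b s) ≠ 0 := by
    intro s hs
    obtain ⟨⟨x, hx, hx0⟩, -⟩ := hD.nondegenerate s (b s) (hbm s) (b.ne_zero s)
    rw [hb] at hx
    obtain ⟨t, rfl⟩ := Submodule.mem_span_singleton.mp hx
    apply hx0
    rw [hermForm_smul_left, hs, mul_zero]
  have hex : ∀ s, ∃ c : F, c ≠ 0 ∧ c ^ (q + 1) = (hermForm 3 F q (b s) (b s))⁻¹ := by
    intro s
    refine exists_norm_eq hF (inv_ne_zero (hd s)) ?_
    rw [inv_pow, hermForm_conj hF]
  choose c hc0 hc using hex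
  let Um : Matrix (Fin 3) (Fin 3) F := Matrix.of fun r s => (c s • b s) r
  have hUm : Umᵀ * sg hF Um = 1 := by
    ext r s
    have h1 : (Umᵀ * sg hF Um) r s = hermForm 3 F q (c r • b r) (c s • b s) := rfl
    rw [h1, hermForm_smul_left, hermForm_smul_right]
    by_cases hrs : r = s
    · subst hrs
      rw [Matrix.one_apply_eq]
      have h2 : c r * (c r ^ q * hermForm 3 F q (b r) (b r)) = c r ^ (q + 1) * hermForm 3 F q (b r) (b r) := by ring
      rw [h2, hc, inv_mul_cancel₀ (hd r)]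
    · rw [horth r s hrs, Matrix.one_apply_ne hrs]
      simp
  refine ⟨mkU hF Um hUm, mkU_mem hF Um hUm, fun s => ?_⟩
  rw [hb]
  have h3 : (fun r => ((mkU hF Um hUm : GL (Fin 3) F) : Matrix (Fin 3) (Fin 3) F) r s) = c s • b s := rfl
  rw [h3]
  ext x
  rw [Submodule.mem_span_singleton, Submodule.mem_span_singleton]
  constructor
  · rintro ⟨t, rfl⟩
    refine ⟨t * (c s)⁻¹, ?_⟩
    rw [smul_smul, mul_assoc, inv_mul_cancel₀ (hc0 s), mul_one]
  · rintro ⟨t, rfl⟩
    refine ⟨t * c s, ?_⟩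
    rw [smul_smul]

/-- An element of the conjugate of the stabiliser of a frame is monomial. -/
theorem mono_of_stab {U m : GL (Fin 3) F} {D : Fin 3 → Submodule F (Fin 3 → F)}
    (hD : ∀ s, D s = Submodule.span F {fun r => (U : Matrix (Fin 3) (Fin 3) F) r s})
    (hm : U * m * U⁻¹ ∈ decompositionStabilizer D) :
    ∃ (π : Equiv.Perm (Fin 3)) (a : Fin 3 → F), ∀ j s, (m : Matrix (Fin 3) (Fin 3) F) j s = if j = π s then a s else 0 := by
  classical
  obtain ⟨π, hπ⟩ := hm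
  obtain ⟨n, hn⟩ : ∃ n, n = U * m * U⁻¹ := ⟨_, rfl⟩
  rw [← hn] at hπ
  have h1 : n * U = U * m := by rw [hn]; group
  have hmat : (n : Matrix (Fin 3) (Fin 3) F) * U = U * m := by
    rw [← Units.val_mul, h1, Units.val_mul]
  have hex : ∀ s, ∃ a : F, (n : Matrix (Fin 3) (Fin 3) F) *ᵥ (fun r => (U : Matrix (Fin 3) (Fin 3) F) r s) =
      a • (fun r => (U : Matrix (Fin 3) (Fin 3) F) r (π s)) := by
    intro s
    have h2 : (n : Matrix (Fin 3) (Fin 3) F) *ᵥ (fun r => (U : Matrix (Fin 3) (Fin 3) F) r s) ∈ D (π s) := by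
      rw [← hπ s]
      refine ⟨_, ?_, Matrix.toLin'_apply _ _⟩
      rw [hD s]
      exact Submodule.mem_span_singleton_self _
    rw [hD (π s)] at h2
    obtain ⟨a, ha⟩ := Submodule.mem_span_singleton.mp h2
    exact ⟨a, ha.symm⟩
  choose a ha using hex
  refine ⟨π, a, fun j s => ?_⟩
  have h3 : (U : Matrix (Fin 3) (Fin 3) F) *ᵥ (fun t => (m : Matrix (Fin 3) (Fin 3) F) t s) =
      (U : Matrix (Fin 3) (Fin 3) F) *ᵥ (a s • Pi.single (π s) 1) := by
    have e1 : (U : Matrix (Fin 3) (Fin 3) F) *ᵥ (fun t => (m : Matrix (Fin 3) (Fin 3) F) t s) =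
        (n : Matrix (Fin 3) (Fin 3) F) *ᵥ (fun r => (U : Matrix (Fin 3) (Fin 3) F) r s) := by
      ext r
      have h5 := congrFun (congrFun hmat r) s
      exact h5.symm
    rw [e1, ha, Matrix.mulVec_smul, Matrix.mulVec_single_one]
    rfl
  have hinj : Function.Injective (fun x : Fin 3 → F => (U : Matrix (Fin 3) (Fin 3) F) *ᵥ x) := by
    intro x y hxy
    have h6 := congrArg (fun w => ((U⁻¹ : GL (Fin 3) F) : Matrix (Fin 3) (Fin 3) F) *ᵥ w) hxy
    simpa [Matrix.mulVec_mulVec, ← Units.val_mul] using h6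
  have h7 := congrFun (hinj h3) j
  simp only [Pi.smul_apply, Pi.single_apply, smul_eq_mul] at h7
  rw [h7]
  by_cases hj : j = π s <;> simp [hj]

end Frame

/-- The stabiliser of a frame is not maximal in `SU₃(5)`. -/
theorem no_frame5 (hF : Fintype.card F = 5 ^ 2) {D : Fin 3 → Submodule F (Fin 3 → F)}
    (hD : IsNondegenerateMDecomposition (hermForm 3 F 5) 1 D)
    (hmax : IsMaximalIn (GU 3 F 5 ⊓ specialLinear (Fin 3) F) (decompositionStabilizer D ⊓ (GU 3 F 5 ⊓ specialLinear (Fin 3) F))) : False := by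
  classical
  obtain ⟨i, C⟩ := exists_cx (p := 5) (Or.inr rfl) hF
  obtain ⟨U, hU, hDU⟩ := exists_U_frame hF hD
  have hmax' := max_conj hmax U (conj_mem_iff hU)
  have hlt1 : ∀ a b, fadd 5 a b < 25 := fun a b => C.fadd_lt a b
  refine no_max hmax' {v | Xm v} ?_ (C.toG_mem hF gR gR_U) ?_ ?_ (C.toG_mem hF gT gT_U) ?_
  · intro m hm x hx
    have hmG := hmax'.1.le hm
    obtain ⟨π, a, hπ⟩ := mono_of_stab hDU hm.1
    exact Xm_mono hF π a hπ ((mem_GU_iff hF m).mp hmG.1) ((mem_sl_iff m).mp hmG.2) hx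
  · intro x hx
    obtain ⟨u, h1, h2, h3, rfl⟩ := C.exists_vec hF x
    have h4 : xm u = true := (Xm_iff hF C u).mp hx
    have h5 := allV_spec xm_gR h1 h2 h3
    rw [h4] at h5
    simp only [Bool.not_true, Bool.false_or] at h5
    show Xm (toM 5 i gR *ᵥ toV 5 i u)
    rw [C.toM_mulVec]
    exact (Xm_iff hF C _).mpr h5
  · intro hm
    obtain ⟨π, a, hπ⟩ := mono_of_stab hDU hm.1
    have e0 := hπ 0 0
    have e1 := hπ 1 0
    simp only [Cx.toG_val] at e0 e1
    have v0 : toM 5 i gR 0 0 ≠ 0 := by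
      simp only [toM, gR]
      simp
      rw [C.val_one]
      exact one_ne_zero
    have v1 : toM 5 i gR 1 0 ≠ 0 := by
      simp only [toM, gR]
      simp
      rw [val4 C]
      intro h
      have h5 := five_zero C
      have h1 : (1 : F) = 0 := by linear_combination h5 - h
      exact one_ne_zero h1
    by_cases h : (0 : Fin 3) = π 0
    · have h' : (1 : Fin 3) ≠ π 0 := by rw [← h]; decide
      rw [if_neg h'] at e1
      exact v1 e1
    · rw [if_neg h] at e0
      exact v0 e0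
  · intro hall
    have h1 : Xm (toV 5 i u₁) := (Xm_iff hF C u₁).mpr xm_u₁
    have h2 := hall _ h1
    simp only [Cx.toG_val, C.toM_mulVec] at h2
    rw [Set.mem_setOf_eq, Xm_iff hF C, xm_gT] at h2
    exact absurd h2 (by decide)

end Cfsg.Agent.SU3X5
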