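import Cfsg.Agent.Lib.SU3Main

/-!
Matrix calculus of the standard hermitian form over the field with `q²` elements; conjugates of maximal subgroups;
a criterion for non-maximality through the stabiliser of a set of vectors.
-/

set_option autoImplicit false
set_option linter.unusedSectionVars false
set_option linter.unusedVariables false

namespace Cfsg.Agent.SU3H

open Matrix Cfsg Cfsg.Geo Cfsg.Agent.H97.Asch Cfsg.Agent.Lib.HermForm Cfsg.Agent.Lib.FFNorm

variable {n : ℕ} {F : Type*} [Field F] [Fintype F] {q : ℕ}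

/-- Coordinatewise `q`-th power of matrices. -/
def sg (hF : Fintype.card F = q ^ 2) : Matrix (Fin n) (Fin n) F →+* Matrix (Fin n) (Fin n) F := (frobQ hF).mapMatrix

theorem sg_apply (hF : Fintype.card F = q ^ 2) (A : Matrix (Fin n) (Fin n) F) (i j : Fin n) :
    sg hF A i j = (A i j) ^ q := rfl

theorem sg_transpose (hF : Fintype.card F = q ^ 2) (A : Matrix (Fin n) (Fin n) F) : sg hF Aᵀ = (sg hF A)ᵀ := rfl

/-- Coordinatewise `q`-th power of vectors. -/
def sgv (q : ℕ) (v : Fin n → F) : Fin n → F := fun i => (v i) ^ q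

theorem sgv_mulVec (hF : Fintype.card F = q ^ 2) (A : Matrix (Fin n) (Fin n) F) (v : Fin n → F) :
    sgv q (A *ᵥ v) = sg hF A *ᵥ sgv q v := by
  ext i
  exact RingHom.map_mulVec (frobQ hF) A v i

theorem herm_eq (u v : Fin n → F) : hermForm n F q u v = u ⬝ᵥ sgv q v := rfl

theorem herm_mulVec (hF : Fintype.card F = q ^ 2) (A B : Matrix (Fin n) (Fin n) F) (u v : Fin n → F) :
    hermForm n F q (A *ᵥ u) (B *ᵥ v) = u ⬝ᵥ ((Aᵀ * sg hF B) *ᵥ sgv q v) := by
  rw [herm_eq, sgv_mulVec hF, ← Matrix.mulVec_mulVec, Matrix.dotProduct_mulVec u Aᵀ, Matrix.vecMul_transpose]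

/-- The adjoint. -/
def adj (hF : Fintype.card F = q ^ 2) (A : Matrix (Fin n) (Fin n) F) : Matrix (Fin n) (Fin n) F := (sg hF A)ᵀ

theorem sg_sg (hF : Fintype.card F = q ^ 2) (A : Matrix (Fin n) (Fin n) F) : sg hF (sg hF A) = A := by
  ext i j
  rw [sg_apply, sg_apply]
  exact pow_pow_self hF _

theorem adj_adj (hF : Fintype.card F = q ^ 2) (A : Matrix (Fin n) (Fin n) F) : adj hF (adj hF A) = A := by
  unfold adj
  rw [sg_transpose, sg_sg hF, Matrix.transpose_transpose]

theorem herm_adj (hF : Fintype.card F = q ^ 2) (A : Matrix (Fin n) (Fin n) F) (u v : Fin n → F) :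
    hermForm n F q (A *ᵥ u) v = hermForm n F q u (adj hF A *ᵥ v) := by
  have h1 := herm_mulVec hF A 1 u v
  have h2' := herm_mulVec hF 1 (adj hF A) u v
  rw [Matrix.one_mulVec] at h1 h2'
  rw [h1, h2']
  congr 2
  unfold adj
  rw [sg_transpose, sg_sg hF, map_one, Matrix.transpose_one, Matrix.one_mul, Matrix.mul_one]

theorem adj_mul (hF : Fintype.card F = q ^ 2) (A B : Matrix (Fin n) (Fin n) F) :
    adj hF (A * B) = adj hF B * adj hF A := by
  unfold adj
  rw [map_mul, Matrix.transpose_mul]

theorem adj_add (hF : Fintype.card F = q ^ 2) (A B : Matrix (Fin n) (Fin n) F) :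
    adj hF (A + B) = adj hF A + adj hF B := by
  unfold adj
  rw [map_add, Matrix.transpose_add]

theorem adj_one (hF : Fintype.card F = q ^ 2) : adj hF (1 : Matrix (Fin n) (Fin n) F) = 1 := by
  unfold adj
  rw [map_one, Matrix.transpose_one]

theorem adj_zero (hF : Fintype.card F = q ^ 2) : adj hF (0 : Matrix (Fin n) (Fin n) F) = 0 := by
  unfold adj
  rw [map_zero, Matrix.transpose_zero]

theorem adj_smul_one (hF : Fintype.card F = q ^ 2) (c : F) :
    adj hF (c • (1 : Matrix (Fin n) (Fin n) F)) = c ^ q • 1 := by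
  ext i j
  simp only [adj, Matrix.transpose_apply, sg_apply, Matrix.smul_apply, Matrix.one_apply, smul_eq_mul]
  by_cases h : i = j
  · subst h
    simp
  · have h' : j ≠ i := Ne.symm h
    simp [h, h']
    exact (two_le hF |> fun h2 => by omega : q ≠ 0)

theorem trace_adj (hF : Fintype.card F = q ^ 2) (A : Matrix (Fin n) (Fin n) F) :
    Matrix.trace (adj hF A) = (Matrix.trace A) ^ q := by
  unfold adj
  rw [Matrix.trace_transpose]
  simp only [Matrix.trace, Matrix.diag, sg_apply]
  rw [sum_pow_q hF]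

theorem herm_nondeg {v : Fin n → F} (hF : Fintype.card F = q ^ 2) (h : ∀ u, hermForm n F q u v = 0) : v = 0 := by
  ext i
  have h1 := h (Pi.single i 1)
  rw [herm_eq, single_one_dotProduct] at h1
  have h2 : (v i) ^ q = 0 := h1
  exact pow_eq_zero_iff (by have := two_le hF; omega) |>.mp h2

theorem herm_right_inj (hF : Fintype.card F = q ^ 2) {x y : Fin n → F}
    (h : ∀ u, hermForm n F q u x = hermForm n F q u y) : x = y := by
  have h0 : x - y = 0 := by
    apply herm_nondeg hF
    intro u
    rw [hermForm_sub_right hF, h, sub_self]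
  exact sub_eq_zero.mp h0

/-- A matrix preserves the form iff its columns are orthonormal. -/
theorem pres_iff (hF : Fintype.card F = q ^ 2) (A : Matrix (Fin n) (Fin n) F) :
    (∀ u v, hermForm n F q (A *ᵥ u) (A *ᵥ v) = hermForm n F q u v) ↔ Aᵀ * sg hF A = 1 := by
  constructor
  · intro h
    ext i j
    have h1 := h (Pi.single i 1) (Pi.single j 1)
    rw [herm_mulVec hF] at h1
    have h2 : sgv q (Pi.single j 1 : Fin n → F) = Pi.single j 1 := by
      ext k
      by_cases hk : k = j
      · subst hk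
        simp [sgv]
      · have hq : q ≠ 0 := by
          have := two_le hF
          omega
        simp [sgv, hk, hq]
    rw [h2, single_one_dotProduct, Matrix.mulVec_single_one] at h1
    rw [show hermForm n F q (Pi.single i 1) (Pi.single j 1) = (1 : Matrix (Fin n) (Fin n) F) i j from ?_] at h1
    · exact h1
    · rw [herm_eq, h2, single_one_dotProduct, Matrix.one_apply]
      by_cases hk : i = j
      · subst hk
        simp
      · have hk' : j ≠ i := Ne.symm hk
        simp [hk, hk']
  · intro h u v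
    rw [herm_mulVec hF, h, Matrix.one_mulVec]
    rfl

theorem mem_GU_iff (hF : Fintype.card F = q ^ 2) (g : GL (Fin n) F) :
    g ∈ GU n F q ↔ (g : Matrix (Fin n) (Fin n) F)ᵀ * sg hF (g : Matrix (Fin n) (Fin n) F) = 1 := by
  rw [← pres_iff hF]
  rfl

/-- The determinant of a unitary matrix has norm one. -/
theorem det_norm (hF : Fintype.card F = q ^ 2) {A : Matrix (Fin n) (Fin n) F} (hA : Aᵀ * sg hF A = 1) :
    A.det * A.det ^ q = 1 := by
  have h1 := congrArg Matrix.det hA
  rw [Matrix.det_mul, Matrix.det_transpose, Matrix.det_one] at h1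
  have h2 : (sg hF A).det = A.det ^ q := by
    have := RingHom.map_det (frobQ hF) A
    simpa [sg, Matrix.map] using this.symm
  rwa [h2] at h1

section Groups

variable {G : Type*} [Group G]

/-- A conjugate of a maximal subgroup by an element normalising the ambient subgroup is maximal. -/
theorem max_conj {K H : Subgroup G} (hH : IsMaximalIn K H) (P : G) (hP : ∀ g, g ∈ K ↔ P * g * P⁻¹ ∈ K) :
    IsMaximalIn K (H.comap (MulAut.conj P).toMonoidHom) := by
  have hc : ∀ g, MulAut.conj P g = P * g * P⁻¹ := fun g => rfl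
  have hKc : K.comap (MulAut.conj P).toMonoidHom = K := by
    ext g
    exact (hP g).symm
  refine ⟨?_, ?_⟩
  · refine lt_of_le_of_ne ?_ ?_
    · intro g hg
      exact (hP g).mpr (hH.1.le hg)
    · intro h
      apply hH.1.ne
      have h2 : H.comap (MulAut.conj P).toMonoidHom = K.comap (MulAut.conj P).toMonoidHom := by rw [h, hKc]
      exact Subgroup.comap_injective (MulAut.conj P).surjective h2
  · intro M h1 h2
    have h3 : H ≤ M.comap (MulAut.conj P⁻¹).toMonoidHom := by
      intro g hg
      apply h1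
      show P * ((MulAut.conj P⁻¹) g) * P⁻¹ ∈ H
      simpa [mul_assoc] using hg
    have h4 : M.comap (MulAut.conj P⁻¹).toMonoidHom ≤ K := by
      intro g hg
      have h5 : MulAut.conj P⁻¹ g ∈ K := h2 hg
      rw [hP] at h5
      have h6 : P * (MulAut.conj P⁻¹ g) * P⁻¹ = g := by simp [mul_assoc]
      rwa [h6] at h5
    rcases hH.2 _ h3 h4 with h | h
    · left
      ext g
      constructor
      · intro hg
        show P * g * P⁻¹ ∈ H
        rw [← h]
        show MulAut.conj P⁻¹ (P * g * P⁻¹) ∈ M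
        simpa [mul_assoc] using hg
      · intro hg
        exact h1 hg
    · right
      apply le_antisymm h2
      intro g hg
      have h5 := (hP g).mp hg
      rw [← h] at h5
      have h6 : MulAut.conj P⁻¹ (P * g * P⁻¹) = g := by simp [hc, mul_assoc]
      have h7 : MulAut.conj P⁻¹ (P * g * P⁻¹) ∈ M := h5
      rwa [h6] at h7

end Groups

/-- The stabiliser in `G` of a set of vectors. -/
def stabF (X : Set (Fin n → F)) (G : Subgroup (GL (Fin n) F)) : Subgroup (GL (Fin n) F) where
  carrier := {g | g ∈ G ∧ ∀ x ∈ X, (g : Matrix (Fin n) (Fin n) F) *ᵥ x ∈ X}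
  mul_mem' := by
    rintro a b ⟨ha, ha'⟩ ⟨hb, hb'⟩
    refine ⟨G.mul_mem ha hb, fun x hx => ?_⟩
    rw [Units.val_mul, ← Matrix.mulVec_mulVec]
    exact ha' _ (hb' x hx)
  one_mem' := by
    refine ⟨G.one_mem, fun x hx => ?_⟩
    simpa using hx
  inv_mem' := by
    rintro a ⟨ha, ha'⟩
    refine ⟨G.inv_mem ha, ?_⟩
    have h1 : a * a ^ (orderOf a - 1) = 1 := by
      rw [← pow_succ', Nat.sub_add_cancel (orderOf_pos a), pow_orderOf_eq_one]
    have h2 : a⁻¹ = a ^ (orderOf a - 1) := inv_eq_of_mul_eq_one_right h1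
    rw [h2]
    have h3 : ∀ k : ℕ, ∀ x ∈ X, ((a ^ k : GL (Fin n) F) : Matrix (Fin n) (Fin n) F) *ᵥ x ∈ X := by
      intro k
      induction k with
      | zero =>
        intro x hx
        simpa using hx
      | succ k ih =>
        intro x hx
        rw [pow_succ, Units.val_mul, ← Matrix.mulVec_mulVec]
        exact ih _ (ha' x hx)
    exact h3 _

/-- A subgroup stabilising a set of vectors, with an element of the ambient group stabilising the set and lying
outside the subgroup, and an element of the ambient group moving the set, is not maximal. -/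
theorem no_max {G H : Subgroup (GL (Fin n) F)} (hmax : IsMaximalIn G H) (X : Set (Fin n → F))
    (hX : ∀ h ∈ H, ∀ x ∈ X, (h : Matrix (Fin n) (Fin n) F) *ᵥ x ∈ X) {w t : GL (Fin n) F}
    (hw : w ∈ G) (hwX : ∀ x ∈ X, (w : Matrix (Fin n) (Fin n) F) *ᵥ x ∈ X) (hwH : w ∉ H) (ht : t ∈ G)
    (htX : ¬ ∀ x ∈ X, (t : Matrix (Fin n) (Fin n) F) *ᵥ x ∈ X) : False := by
  have hHM : H ≤ stabF X G := fun h hh => ⟨hmax.1.le hh, hX h hh⟩
  have hMG : stabF X G ≤ G := fun g hg => hg.1
  rcases hmax.2 _ hHM hMG with hE | hE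
  · exact hwH (hE ▸ ⟨hw, hwX⟩)
  · have : t ∈ stabF X G := by rw [hE]; exact ht
    exact htX this.2

/-- Conjugation by a unitary element preserves `SU`. -/
theorem conj_mem_iff {P : GL (Fin n) F} (hP : P ∈ GU n F q) (g : GL (Fin n) F) :
    g ∈ GU n F q ⊓ specialLinear (Fin n) F ↔ P * g * P⁻¹ ∈ GU n F q ⊓ specialLinear (Fin n) F := by
  have hdet : (((P * g * P⁻¹ : GL (Fin n) F) : GL (Fin n) F) : Matrix (Fin n) (Fin n) F).det =
      (g : Matrix (Fin n) (Fin n) F).det := by
    rw [Units.val_mul, Units.val_mul, Matrix.det_mul, Matrix.det_mul, mul_comm (Matrix.det (P : Matrix (Fin n) (Fin n) F)),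
      mul_assoc, ← Matrix.det_mul, Units.mul_inv, Matrix.det_one, mul_one]
  constructor
  · rintro ⟨h1, h2⟩
    refine ⟨(GU n F q).mul_mem ((GU n F q).mul_mem hP h1) ((GU n F q).inv_mem hP), ?_⟩
    show P * g * P⁻¹ ∈ specialLinear (Fin n) F
    rw [mem_sl_iff, hdet]
    exact (mem_sl_iff g).mp h2
  · rintro ⟨h1, h2⟩
    refine ⟨?_, ?_⟩
    · have h3 := (GU n F q).mul_mem ((GU n F q).mul_mem ((GU n F q).inv_mem hP) h1) hP
      have h4 : P⁻¹ * (P * g * P⁻¹) * P = g := by group
      rwa [h4] at h3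
    · show g ∈ specialLinear (Fin n) F
      rw [mem_sl_iff, ← hdet]
      exact (mem_sl_iff _).mp h2

/-- A unitary matrix as an element of the general linear group. -/
def mkU (hF : Fintype.card F = q ^ 2) (A : Matrix (Fin n) (Fin n) F) (hA : Aᵀ * sg hF A = 1) : GL (Fin n) F where
  val := A
  inv := (sg hF A)ᵀ
  val_inv := by
    have h := congrArg Matrix.transpose hA
    rw [Matrix.transpose_mul, Matrix.transpose_transpose, Matrix.transpose_one] at h
    exact mul_eq_one_comm.mp h
  inv_val := by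
    have h := congrArg Matrix.transpose hA
    rwa [Matrix.transpose_mul, Matrix.transpose_transpose, Matrix.transpose_one] at h

@[simp] theorem mkU_val (hF : Fintype.card F = q ^ 2) (A : Matrix (Fin n) (Fin n) F) (hA : Aᵀ * sg hF A = 1) :
    (mkU hF A hA : Matrix (Fin n) (Fin n) F) = A := rfl

theorem mkU_mem (hF : Fintype.card F = q ^ 2) (A : Matrix (Fin n) (Fin n) F) (hA : Aᵀ * sg hF A = 1) :
    mkU hF A hA ∈ GU n F q := (mem_GU_iff hF _).mpr hA

theorem mkU_mem_SU (hF : Fintype.card F = q ^ 2) (A : Matrix (Fin n) (Fin n) F) (hA : Aᵀ * sg hF A = 1)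
    (hd : A.det = 1) : mkU hF A hA ∈ GU n F q ⊓ specialLinear (Fin n) F :=
  ⟨mkU_mem hF A hA, (mem_sl_iff _).mpr hd⟩

end Cfsg.Agent.SU3H
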