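import Cfsg.Agent.Lib.SU3C
import Cfsg.Agent.Lib.FieldModel

/-!
Normalisers of field subalgebras of degree three in `SU₃(p)`, `p = 3, 5`: a coded criterion for non-maximality.
An element of order seven of the field is unitary, with a prescribed cubic relation; any two unitary matrices with this
relation are conjugate under the unitary group, by a finite table.
-/

set_option autoImplicit false
set_option linter.unusedSectionVars false
set_option linter.unusedVariables false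
set_option linter.style.longLine false

namespace Cfsg.Agent.SU3K

open Matrix Cfsg Cfsg.Geo Cfsg.Agent.H97.Asch Cfsg.Agent.SU3H Cfsg.Agent.SU3C
  Cfsg.Agent.Lib.HermForm Cfsg.Agent.Lib.FFNorm

universe u

section Fld

variable {L : Type*} [Field L]

/-- An element of order seven, a root of the chosen cubic factor. -/
theorem exists_root [Fintype L] {η η' : L} (h7 : 7 ∣ Fintype.card L - 1) (e1 : η + η' = -1) (e2 : η * η' = 2) :
    ∃ s : L, s ^ 7 = 1 ∧ s ≠ 1 ∧ s ^ 3 = η * s ^ 2 - η' * s + 1 := by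
  classical
  have hcard : Fintype.card Lˣ = Fintype.card L - 1 := Fintype.card_units L
  have : Fact (Nat.Prime 7) := ⟨by norm_num⟩
  obtain ⟨g, hg⟩ := exists_prime_orderOf_dvd_card 7 (G := Lˣ) (by rw [hcard]; exact h7)
  have hg7 : (g : L) ^ 7 = 1 := by
    rw [← Units.val_pow_eq_pow_val, ← hg, pow_orderOf_eq_one, Units.val_one]
  have hg1 : (g : L) ≠ 1 := by
    intro h
    have h1 : g = 1 := Units.ext h
    rw [h1, orderOf_one] at hg
    omega
  obtain ⟨x, hx⟩ : ∃ x : L, x = g := ⟨_, rfl⟩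
  rw [← hx] at hg7 hg1
  have hx0 : x ≠ 0 := by
    rw [hx]
    exact g.ne_zero
  have hfac : (x - 1) * ((x ^ 3 - (η * x ^ 2 - η' * x + 1)) * (x ^ 3 - (η' * x ^ 2 - η * x + 1))) = 0 := by
    linear_combination hg7 + (x - 1) * ((-x ^ 5 + x ^ 4 - (η + η' - 1) * x ^ 3 + x ^ 2 - x) * e1 + (x ^ 4 + 2 * x ^ 3 + x ^ 2) * e2)
  have hx1 : x - 1 ≠ 0 := sub_ne_zero.mpr hg1
  rcases mul_eq_zero.mp ((mul_eq_zero.mp hfac).resolve_left hx1) with h | h
  · exact ⟨x, hg7, hg1, sub_eq_zero.mp h⟩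
  · refine ⟨x⁻¹, by rw [inv_pow, hg7, inv_one], fun h1 => hg1 (inv_eq_one.mp h1), ?_⟩
    have hxi : x * x⁻¹ = 1 := mul_inv_cancel₀ hx0
    have hmul : x ^ 3 * ((x⁻¹) ^ 3 - (η * (x⁻¹) ^ 2 - η' * x⁻¹ + 1)) = 0 := by
      generalize x⁻¹ = y at hxi
      have e3 : x ^ 3 * y ^ 3 = 1 := by rw [← mul_pow, hxi, one_pow]
      have e2' : x ^ 3 * y ^ 2 = x := by
        calc x ^ 3 * y ^ 2 = x * (x * y) ^ 2 := by ring
          _ = x := by rw [hxi]; ring
      have e1' : x ^ 3 * y = x ^ 2 := by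
        calc x ^ 3 * y = x ^ 2 * (x * y) := by ring
          _ = x ^ 2 := by rw [hxi]; ring
      linear_combination e3 - η * e2' + η' * e1' - h
    have := (mul_eq_zero.mp hmul).resolve_left (pow_ne_zero 3 hx0)
    exact sub_eq_zero.mp this

/-- The involution inverts the element of order seven. -/
theorem st_inv {st : L →+* L} (hst2 : ∀ a, st (st a) = a) {a b : L} (ha : st a = b) (hb : st b = a) (hne : a ≠ b)
    (h20 : (2 : L) ≠ 0) {s : L} (hs7 : s ^ 7 = 1) (hs1 : s ≠ 1) (hrel : s ^ 3 = a * s ^ 2 - b * s + 1) : st s * s = 1 := by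
  have : Fact (Nat.Prime 7) := ⟨by norm_num⟩
  have hord : orderOf s = 7 := orderOf_eq_prime hs7 hs1
  have hprim : IsPrimitiveRoot s 7 := hord ▸ IsPrimitiveRoot.orderOf s
  have hs0 : s ≠ 0 := by
    rintro rfl
    norm_num at hs7
  have ht7 : (st s) ^ 7 = 1 := by rw [← map_pow, hs7, map_one]
  obtain ⟨k, hk7, hk⟩ := hprim.eq_pow_of_pow_eq_one ht7
  have hkk : s ^ (k * k) = s := by
    have h1 : st (s ^ k) = s := by rw [hk, hst2]
    rw [map_pow, ← hk, ← pow_mul] at h1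
    exact h1
  have hk0 : k ≠ 0 := by
    rintro rfl
    exact hs1 (by simpa using hkk.symm)
  have hdvd : 7 ∣ k * k - 1 := by
    apply hprim.dvd_of_pow_eq_one
    have hkpos : 1 ≤ k * k := Nat.mul_pos (Nat.pos_of_ne_zero hk0) (Nat.pos_of_ne_zero hk0)
    have h2 : s * s ^ (k * k - 1) = s * 1 := by
      rw [← pow_succ', Nat.sub_add_cancel hkpos, hkk, mul_one]
    exact mul_left_cancel₀ hs0 h2
  interval_cases k
  · exact absurd rfl hk0
  · exfalso
    have hst : st s = s := by rw [← hk, pow_one]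
    have h3 := congrArg st hrel
    simp only [map_add, map_sub, map_mul, map_pow, map_one, hst, ha, hb] at h3
    have h4 : (a - b) * (s * (s + 1)) = 0 := by linear_combination h3 - hrel
    have h5 := (mul_eq_zero.mp h4).resolve_left (sub_ne_zero.mpr hne)
    have h6 := (mul_eq_zero.mp h5).resolve_left hs0
    have h7 : s = -1 := by linear_combination h6
    rw [h7] at hs7
    norm_num at hs7
    have h8 : (2 : L) = 0 := by
      have h9 : (-1 : L) ^ 7 = -1 := by norm_num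
      linear_combination -hs7
    exact h20 h8
  · norm_num at hdvd
  · norm_num at hdvd
  · norm_num at hdvd
  · norm_num at hdvd
  · rw [← hk, ← pow_succ]
    exact hs7

end Fld

section Model

variable {F L : Type u} [Field F] [Fintype F] [Field L] [Algebra F L] {q : ℕ}
  (φ : L →ₐ[F] Matrix (Fin 3) (Fin 3) F)

/-- The adjoint on the field. -/
theorem exists_st (hφ : Function.Injective φ) (hF : Fintype.card F = q ^ 2)
    (hstar : ∀ a, ∃ b, φ b = adj hF (φ a)) : ∃ st : L →+* L, ∀ a, φ (st a) = adj hF (φ a) := by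
  choose t ht using hstar
  refine ⟨{ toFun := t, map_one' := ?_, map_mul' := ?_, map_zero' := ?_, map_add' := ?_ }, ht⟩
  · apply hφ
    rw [ht, map_one, adj_one]
  · intro a b
    apply hφ
    rw [ht, map_mul, map_mul, adj_mul, ht, ht, ← ht a, ← ht b, ← map_mul, ← map_mul, mul_comm]
  · apply hφ
    rw [ht, map_zero, adj_zero]
  · intro a b
    apply hφ
    rw [ht, map_add, map_add, adj_add, ht, ht]

end Model

section Field

variable {F : Type u} [Field F] [Fintype F] {q : ℕ}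

/-- The element of order seven of an adjoint-closed field subalgebra of degree three. -/
theorem exists_S (hF : Fintype.card F = q ^ 2) {K : Subalgebra F (Matrix (Fin 3) (Fin 3) F)} (hK : IsFieldSubalgebra 3 K)
    (hadj : IsAdjointClosedFor (hermForm 3 F q) K) {a b : F} (h1 : a + b = -1) (h2 : a * b = 2) (h3 : a ^ q = b) (hne : a ≠ b)
    (h20 : (2 : F) ≠ 0) (h7 : 7 ∣ q ^ 6 - 1) :
    ∃ S : Matrix (Fin 3) (Fin 3) F, adj hF S * S = 1 ∧ S ^ 3 = a • S ^ 2 - b • S + 1 ∧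
      ∀ h ∈ subalgebraNormalizer K, ∃ k, k < 7 ∧ (h : Matrix (Fin 3) (Fin 3) F) * S = S ^ k * (h : Matrix (Fin 3) (Fin 3) F) := by
  classical
  obtain ⟨L, _, _, φ, hφ, hKφ, hfin⟩ := Cfsg.Agent.Lib.FieldModel.exists_model (by norm_num : (3 : ℕ) ≠ 0) hK
  have : FiniteDimensional F L := Module.finite_of_finrank_pos (by omega)
  have : Finite L := Module.finite_of_finite F
  let _ : Fintype L := Fintype.ofFinite L
  have hL : Fintype.card L = q ^ 6 := by
    rw [Module.card_eq_pow_finrank (K := F) (V := L), hF, hfin, ← pow_mul]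
  have hstar : ∀ a, ∃ b, φ b = adj hF (φ a) := by
    intro a
    obtain ⟨k', hk', hk⟩ := hadj (φ a) ((hKφ _).mpr ⟨a, rfl⟩)
    obtain ⟨b, rfl⟩ := (hKφ _).mp hk'
    refine ⟨b, ?_⟩
    apply Matrix.ext_of_mulVec_single
    intro i
    apply herm_right_inj hF
    intro u
    rw [← hk, herm_adj hF]
  obtain ⟨st, hst⟩ := exists_st φ hφ hF hstar
  have hstst : ∀ a, st (st a) = a := by
    intro a
    apply hφ
    rw [hst, hst, adj_adj hF]
  have hstalg : ∀ c : F, st (algebraMap F L c) = algebraMap F L (c ^ q) := by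
    intro c
    apply hφ
    rw [hst, AlgHom.commutes, AlgHom.commutes, Algebra.algebraMap_eq_smul_one, Algebra.algebraMap_eq_smul_one, adj_smul_one]
  have hsta : st (algebraMap F L a) = algebraMap F L b := by rw [hstalg, h3]
  have hstb : st (algebraMap F L b) = algebraMap F L a := by rw [hstalg, ← h3, pow_pow_self hF]
  have hneL : algebraMap F L a ≠ algebraMap F L b := fun h => hne ((algebraMap F L).injective h)
  have h20L : (2 : L) ≠ 0 := by
    intro h
    apply h20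
    apply (algebraMap F L).injective
    rw [map_ofNat, h, map_zero]
  have e1 : algebraMap F L a + algebraMap F L b = -1 := by rw [← map_add, h1, map_neg, map_one]
  have e2 : algebraMap F L a * algebraMap F L b = 2 := by rw [← map_mul, h2, map_ofNat]
  obtain ⟨s, hs7, hs1, hrel⟩ := exists_root (by rw [hL]; exact h7) e1 e2
  have hinv := st_inv hstst hsta hstb hneL h20L hs7 hs1 hrel
  have : Fact (Nat.Prime 7) := ⟨by norm_num⟩
  have hord : orderOf s = 7 := orderOf_eq_prime hs7 hs1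
  have hprim : IsPrimitiveRoot s 7 := hord ▸ IsPrimitiveRoot.orderOf s
  refine ⟨φ s, ?_, ?_, ?_⟩
  · rw [← hst, ← map_mul, hinv, map_one]
  · have h4 := congrArg φ hrel
    rw [map_pow, map_add, map_sub, ← Algebra.smul_def, ← Algebra.smul_def, map_smul, map_smul, map_one, map_pow] at h4
    exact h4
  · intro h hN
    have hmem : φ s ∈ K := (hKφ _).mpr ⟨s, rfl⟩
    obtain ⟨c, hc⟩ := (hKφ _).mp ((hN (φ s)).mp hmem)
    have hc7 : c ^ 7 = 1 := by
      apply hφ
      rw [map_pow, hc, map_one]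
      have h5 := Units.conj_pow h (φ s) 7
      rw [h5, ← map_pow, hs7, map_one, Matrix.mul_one, Units.mul_inv]
    obtain ⟨k, hk7, hk⟩ := hprim.eq_pow_of_pow_eq_one hc7
    refine ⟨k, hk7, ?_⟩
    have h5 : (h : Matrix (Fin 3) (Fin 3) F) * φ s * ((h⁻¹ : GL (Fin 3) F) : Matrix (Fin 3) (Fin 3) F) = φ s ^ k := by
      rw [← hc, ← hk, map_pow]
    calc (h : Matrix (Fin 3) (Fin 3) F) * φ s
        = ((h : Matrix (Fin 3) (Fin 3) F) * φ s * ((h⁻¹ : GL (Fin 3) F) : Matrix (Fin 3) (Fin 3) F)) * h := by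
          rw [Matrix.mul_assoc _ _ (h : Matrix (Fin 3) (Fin 3) F), Units.inv_mul, Matrix.mul_one]
      _ = _ := by rw [h5]

end Field

section Coded

/-- The companion matrix of the cubic. -/
def cmp (p et eb : ℕ) : M3 := ⟨0, 0, 1, 1, 0, fsub p 0 eb, 0, 1, et⟩
/-- The value of the form on the second power. -/
def g2c (p et eb g0 g1 : ℕ) : ℕ := fadd p (fsub p (fmul p et g1) (fmul p eb g0)) (fcj p g1)
/-- The Gram matrix of the basis of powers, from its first values. -/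
def gramC (p et eb g0 g1 : ℕ) : M3 :=
  ⟨g0, fcj p g1, fcj p (g2c p et eb g0 g1), g1, g0, fcj p g1, g2c p et eb g0 g1, g1, g0⟩
/-- The coded form. -/
def hpr (p : ℕ) (u v : V3) : ℕ :=
  fadd p (fadd p (fmul p u.x (fcj p v.x)) (fmul p u.y (fcj p v.y))) (fmul p u.z (fcj p v.z))
/-- The loop over vectors. -/
def allW (p : ℕ) (P : V3 → Bool) : Bool :=
  (List.range (p * p)).all fun x => (List.range (p * p)).all fun y => (List.range (p * p)).all fun z => P ⟨x, y, z⟩

theorem allW_spec {p : ℕ} {P : V3 → Bool} (h : allW p P = true) {u : V3} (hx : u.x < p * p) (hy : u.y < p * p) (hz : u.z < p * p) :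
    P u = true := by
  unfold allW at h
  simp only [List.all_eq_true, List.mem_range] at h
  exact h u.x hx u.y hy u.z hz

/-- The matrix determined by the image of the first vector. -/
def mkM (p : ℕ) (pk Ti : M3) (v : V3) : M3 :=
  M3.mul p (M3.ofCols v (M3.mulV p pk v) (M3.mulV p pk (M3.mulV p pk v))) Ti

/-- The check for one power. -/
def kstep (p : ℕ) (s₀ Ti : M3) (pts : List V3) (h1 : ℕ) (pk : M3) (v : V3) : Bool :=
  !(decide (hpr p (M3.mulV p pk v) v = h1)) || !(M3.isU p (mkM p pk Ti v)) ||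
    !(decide (M3.mul p (mkM p pk Ti v) s₀ = M3.mul p pk (mkM p pk Ti v))) || pres p pts (mkM p pk Ti v)

/-- The check for one vector. -/
def kchk (p : ℕ) (s₀ Ti : M3) (pts : List V3) (h0 h1 : ℕ) (pw : ℕ → M3) (v : V3) : Bool :=
  !(decide (hpr p v v = h0)) || (List.range 7).all fun k => kstep p s₀ Ti pts h1 (pw k) v

/-- The data of the criterion. -/
structure KChk (p et eb : ℕ) (s₀ : M3) (e₀ : V3) (Ti : M3) (h0 h1 : ℕ) (pw tb : ℕ → M3) (pts : List V3) (w t : M3) (u₀ : V3) : Prop where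
  het : fadd p et eb = p - 1
  hem : fmul p et eb = 2
  hcj : fcj p et = eb
  hlt : et < p * p ∧ eb < p * p ∧ et ≠ eb
  h7 : 7 ∣ p ^ 6 - 1
  hpw : ∀ k, k < 7 → pw k = M3.pow p s₀ k
  htb1 : ∀ g, g < p * p → M3.mul p (cmp p et eb) (tb g) = M3.mul p (tb g) s₀
  htb2 : ∀ g, g < p * p → M3.mul p (M3.mul p (M3.tr (tb g)) (gramC p et eb 1 g)) (M3.cj p (tb g)) = M3.one
  hTc : M3.mul p (M3.ofCols e₀ (M3.mulV p s₀ e₀) (M3.mulV p s₀ (M3.mulV p s₀ e₀))) Ti = M3.one
  hh0 : h0 = hpr p e₀ e₀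
  hh1 : h1 = hpr p (M3.mulV p s₀ e₀) e₀
  hch : allW p (kchk p s₀ Ti pts h0 h1 pw) = true
  hwU : M3.isU p w = true
  hwp : pres p pts w = true
  hwne : ∀ k, k < 7 → M3.mul p w s₀ ≠ M3.mul p (pw k) w
  htU : M3.isU p t = true
  hu₀ : u₀ ∈ pts
  hmv : pts.all (V3.notProp p (M3.mulV p t u₀)) = true

variable {F : Type*} [Field F] [Fintype F] {p : ℕ} {i : F}

theorem toM_pow (C : Cx p i) (m : M3) (k : ℕ) : toM p i (M3.pow p m k) = toM p i m ^ k := by
  induction k with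
  | zero => rw [pow_zero, ← C.toM_one]; rfl
  | succ k ih => rw [pow_succ, ← ih, ← C.toM_mul]; rfl

theorem herm_toV (C : Cx p i) (hF : Fintype.card F = p ^ 2) (u v : V3) :
    hermForm 3 F p (toV p i u) (toV p i v) = val p i (hpr p u v) := by
  simp [hermForm, toV, hpr, C.val_add, C.val_mul, C.val_cj hF, Fin.sum_univ_three]

theorem val_two (C : Cx p i) : val p i 2 = (2 : F) := by
  rcases C.hp with rfl | rfl <;> simp [val]

theorem two_ne (C : Cx p i) : (2 : F) ≠ 0 := by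
  intro h
  have h1 : (1 : F) ≠ 0 := one_ne_zero
  have hz := C.hz
  rcases C.hp with rfl | rfl
  · apply h1
    push_cast at hz
    linear_combination hz - h
  · apply h1
    push_cast at hz
    linear_combination hz - 2 * h

/-- Conjugacy under the unitary group, from the table. -/
theorem exists_P (C : Cx p i) (hF : Fintype.card F = p ^ 2) {S : Matrix (Fin 3) (Fin 3) F} (hU : adj hF S * S = 1)
    {et eb : ℕ} (hrel : S ^ 3 = val p i et • S ^ 2 - val p i eb • S + 1) {s₀ : M3} {tb : ℕ → M3}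
    (h1 : ∀ g, g < p * p → M3.mul p (cmp p et eb) (tb g) = M3.mul p (tb g) s₀)
    (h2 : ∀ g, g < p * p → M3.mul p (M3.mul p (M3.tr (tb g)) (gramC p et eb 1 g)) (M3.cj p (tb g)) = M3.one) :
    ∃ P : GL (Fin 3) F, P ∈ GU 3 F p ∧ S * (P : Matrix (Fin 3) (Fin 3) F) = (P : Matrix (Fin 3) (Fin 3) F) * toM p i s₀ := by
  classical
  have hpres : ∀ u v, hermForm 3 F p (S *ᵥ u) (S *ᵥ v) = hermForm 3 F p u v := by
    intro u v
    rw [herm_adj hF, Matrix.mulVec_mulVec, hU, Matrix.one_mulVec]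
  have hadjS : ∀ u v, hermForm 3 F p (adj hF S *ᵥ u) v = hermForm 3 F p u (S *ᵥ v) := by
    intro u v
    rw [herm_adj hF, adj_adj hF]
  have hS2 : S ^ 2 = val p i et • S - val p i eb • 1 + adj hF S := by
    have h3 : adj hF S * S ^ 3 = adj hF S * (val p i et • S ^ 2 - val p i eb • S + 1) := by rw [hrel]
    have e3 : adj hF S * S ^ 3 = S ^ 2 := by
      rw [pow_succ' S 2, ← Matrix.mul_assoc, hU, Matrix.one_mul]
    have e2 : adj hF S * S ^ 2 = S := by
      rw [pow_succ' S 1, ← Matrix.mul_assoc, hU, Matrix.one_mul, pow_one]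
    rw [e3, Matrix.mul_add, Matrix.mul_sub, Matrix.mul_smul, Matrix.mul_smul, e2, hU, Matrix.mul_one] at h3
    exact h3
  obtain ⟨e, he⟩ : ∃ e : Fin 3 → F, e = Pi.single 0 1 := ⟨_, rfl⟩
  obtain ⟨e1, he1⟩ : ∃ e1, e1 = S *ᵥ e := ⟨_, rfl⟩
  obtain ⟨e2, he2⟩ : ∃ e2, e2 = S *ᵥ e1 := ⟨_, rfl⟩
  have hee : hermForm 3 F p e e = 1 := by
    rw [he]
    simp [hermForm, Pi.single_apply, Fin.sum_univ_three]
  obtain ⟨g1, hg1lt, hg1⟩ := C.exists_code hF (hermForm 3 F p e1 e)
  have f11 : hermForm 3 F p e1 e1 = 1 := by rw [he1, hpres, hee]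
  have f22 : hermForm 3 F p e2 e2 = 1 := by rw [he2, hpres, f11]
  have f21 : hermForm 3 F p e2 e1 = val p i g1 := by
    calc hermForm 3 F p e2 e1 = hermForm 3 F p (S *ᵥ e1) (S *ᵥ e) := by rw [← he2, ← he1]
      _ = val p i g1 := by rw [hpres, hg1]
  have f01 : hermForm 3 F p e e1 = (val p i g1) ^ p := by rw [hg1, hermForm_conj hF]
  have f12 : hermForm 3 F p e1 e2 = (val p i g1) ^ p := by
    calc hermForm 3 F p e1 e2 = hermForm 3 F p (S *ᵥ e) (S *ᵥ e1) := by rw [← he2, ← he1]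
      _ = (val p i g1) ^ p := by rw [hpres, f01]
  have f20 : hermForm 3 F p e2 e = val p i (g2c p et eb 1 g1) := by
    have h3 : e2 = (S ^ 2) *ᵥ e := by rw [he2, he1, Matrix.mulVec_mulVec, sq]
    rw [h3, hS2, Matrix.add_mulVec, Matrix.sub_mulVec, Matrix.smul_mulVec, Matrix.smul_mulVec, Matrix.one_mulVec,
      hermForm_add_left, hermForm_sub_left, hermForm_smul_left, hermForm_smul_left, hadjS, ← he1, hee, ← hg1, f01]
    simp only [g2c, C.val_add, C.val_sub, C.val_mul, C.val_one, C.val_cj hF]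
  have f02 : hermForm 3 F p e e2 = (val p i (g2c p et eb 1 g1)) ^ p := by rw [← f20, hermForm_conj hF]
  -- the matrix of powers
  let Q : Matrix (Fin 3) (Fin 3) F := Matrix.of fun r c => (![e, e1, e2] c) r
  have hQ : Qᵀ * sg hF Q = toM p i (gramC p et eb 1 g1) := by
    ext r c
    have h3 : (Qᵀ * sg hF Q) r c = hermForm 3 F p (![e, e1, e2] r) (![e, e1, e2] c) := rfl
    rw [h3]
    fin_cases r <;> fin_cases c <;>
      simp [toM, gramC, hee, f11, f22, ← hg1, f21, f01, f12, f20, f02, C.val_one, C.val_cj hF]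
  have hS3 : S *ᵥ e2 = val p i et • e2 - val p i eb • e1 + e := by
    have h3 : S *ᵥ e2 = (S ^ 3) *ᵥ e := by
      rw [he2, he1, Matrix.mulVec_mulVec, Matrix.mulVec_mulVec, pow_succ, sq]
    rw [h3, hrel, Matrix.add_mulVec, Matrix.sub_mulVec, Matrix.smul_mulVec, Matrix.smul_mulVec, Matrix.one_mulVec, he2, he1,
      Matrix.mulVec_mulVec, sq]
  have hQC : S * Q = Q * toM p i (cmp p et eb) := by
    ext r c
    have h3 : (S * Q) r c = (S *ᵥ (![e, e1, e2] c)) r := rfl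
    rw [h3, Matrix.mul_apply, Fin.sum_univ_three]
    fin_cases c
    · simp [toM, cmp, Q, val_zero, C.val_one, ← he1]
    · simp [toM, cmp, Q, val_zero, C.val_one, ← he1, ← he2]
    · simp [toM, cmp, Q, val_zero, C.val_one, hS3, C.val_sub]
      ring
  obtain ⟨W, hW⟩ : ∃ W, W = tb g1 := ⟨_, rfl⟩
  have hW1 : M3.mul p (cmp p et eb) W = M3.mul p W s₀ := by rw [hW]; exact h1 g1 hg1lt
  have hW2 : M3.mul p (M3.mul p (M3.tr W) (gramC p et eb 1 g1)) (M3.cj p W) = M3.one := by rw [hW]; exact h2 g1 hg1lt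
  have hPm : (Q * toM p i W)ᵀ * sg hF (Q * toM p i W) = 1 := by
    rw [Matrix.transpose_mul, map_mul, C.sg_toM hF, ← toM_tr]
    have h3 : toM p i (M3.tr W) * Qᵀ * (sg hF Q * toM p i (M3.cj p W)) = toM p i (M3.tr W) * (Qᵀ * sg hF Q) * toM p i (M3.cj p W) := by
      simp only [Matrix.mul_assoc]
    rw [h3, hQ, ← C.toM_mul, ← C.toM_mul, hW2, C.toM_one]
  refine ⟨mkU hF _ hPm, mkU_mem hF _ hPm, ?_⟩
  rw [mkU_val, ← Matrix.mul_assoc, hQC, Matrix.mul_assoc, ← C.toM_mul, hW1, C.toM_mul, Matrix.mul_assoc]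

/-- Transport of the relation through the conjugation. -/
theorem conj_rel {P m : GL (Fin 3) F} {S s : Matrix (Fin 3) (Fin 3) F} (hSP : S * (P : Matrix (Fin 3) (Fin 3) F) = (P : Matrix (Fin 3) (Fin 3) F) * s) {k : ℕ}
    (h : ((P * m * P⁻¹ : GL (Fin 3) F) : Matrix (Fin 3) (Fin 3) F) * S = S ^ k * ((P * m * P⁻¹ : GL (Fin 3) F) : Matrix (Fin 3) (Fin 3) F)) :
    (m : Matrix (Fin 3) (Fin 3) F) * s = s ^ k * (m : Matrix (Fin 3) (Fin 3) F) := by
  obtain ⟨Pm, hPm⟩ : ∃ Pm : Matrix (Fin 3) (Fin 3) F, Pm = P := ⟨_, rfl⟩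
  obtain ⟨Pi, hPi⟩ : ∃ Pi : Matrix (Fin 3) (Fin 3) F, Pi = (P⁻¹ : GL (Fin 3) F) := ⟨_, rfl⟩
  obtain ⟨Mm, hMm⟩ : ∃ Mm : Matrix (Fin 3) (Fin 3) F, Mm = m := ⟨_, rfl⟩
  have h1 : Pi * Pm = 1 := by
    rw [hPm, hPi]
    exact Units.inv_mul P
  have h2 : Pm * Pi = 1 := by
    rw [hPm, hPi]
    exact Units.mul_inv P
  rw [← hPm] at hSP
  rw [Units.val_mul, Units.val_mul, ← hPm, ← hPi, ← hMm] at h
  rw [← hMm]
  have hpow : S ^ k * Pm = Pm * s ^ k := by
    have h3 : SemiconjBy Pm s S := hSP.symm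
    exact (h3.pow_right k).symm
  have h4 : Pm * (Mm * s) = Pm * (s ^ k * Mm) := by
    calc Pm * (Mm * s) = Pm * Mm * (Pi * Pm) * s := by rw [h1, Matrix.mul_one, Matrix.mul_assoc]
      _ = (Pm * Mm * Pi) * (Pm * s) := by simp only [Matrix.mul_assoc]
      _ = (Pm * Mm * Pi) * (S * Pm) := by rw [hSP]
      _ = ((Pm * Mm * Pi) * S) * Pm := (Matrix.mul_assoc _ _ _).symm
      _ = (S ^ k * (Pm * Mm * Pi)) * Pm := by rw [h]
      _ = S ^ k * Pm * Mm * (Pi * Pm) := by simp only [Matrix.mul_assoc]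
      _ = Pm * s ^ k * Mm := by rw [h1, Matrix.mul_one, hpow]
      _ = Pm * (s ^ k * Mm) := by rw [Matrix.mul_assoc]
  calc Mm * s = (Pi * Pm) * (Mm * s) := by rw [h1, Matrix.one_mul]
    _ = Pi * (Pm * (Mm * s)) := by rw [Matrix.mul_assoc]
    _ = Pi * (Pm * (s ^ k * Mm)) := by rw [h4]
    _ = (Pi * Pm) * (s ^ k * Mm) := by rw [Matrix.mul_assoc]
    _ = _ := by rw [h1, Matrix.one_mul]

theorem mul_toM_ofCols (C : Cx p i) {Mm : Matrix (Fin 3) (Fin 3) F} {u v w u' v' w' : V3} (hu : Mm *ᵥ toV p i u = toV p i u')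
    (hv : Mm *ᵥ toV p i v = toV p i v') (hw : Mm *ᵥ toV p i w = toV p i w') :
    Mm * toM p i (M3.ofCols u v w) = toM p i (M3.ofCols u' v' w') := by
  ext a j
  have h1 : (Mm * toM p i (M3.ofCols u v w)) a j = (Mm *ᵥ (fun b => toM p i (M3.ofCols u v w) b j)) a := rfl
  rw [h1, toM_ofCols]
  have h2 : toM p i (M3.ofCols u' v' w') a j = (fun b => toM p i (M3.ofCols u' v' w') b j) a := rfl
  rw [h2, toM_ofCols]
  fin_cases j
  · simp only [Fin.zero_eta, Fin.isValue, Matrix.cons_val_zero]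
    rw [hu]
  · simp only [Fin.mk_one, Fin.isValue, Matrix.cons_val_one, Matrix.cons_val_zero]
    rw [hv]
  · simp only [Fin.reduceFinMk, Fin.isValue, Matrix.cons_val]
    rw [hw]

/-- The main criterion. -/
theorem no_K {et eb : ℕ} {s₀ : M3} {e₀ : V3} {Ti : M3} {h0 h1 : ℕ} {pw tb : ℕ → M3} {pts : List V3} {w t : M3} {u₀ : V3}
    (D : KChk p et eb s₀ e₀ Ti h0 h1 pw tb pts w t u₀) (C : Cx p i) (hF : Fintype.card F = p ^ 2)
    {K : Subalgebra F (Matrix (Fin 3) (Fin 3) F)} (hK : IsFieldSubalgebra 3 K)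
    (hadj : IsAdjointClosedFor (hermForm 3 F p) K)
    (hmax : IsMaximalIn (GU 3 F p ⊓ specialLinear (Fin 3) F) (subalgebraNormalizer K ⊓ (GU 3 F p ⊓ specialLinear (Fin 3) F))) : False := by
  classical
  have hlt1 : ∀ u v, hpr p u v < p * p := fun a b => C.fadd_lt _ _
  have e1 : val p i et + val p i eb = -1 := by rw [← C.val_add, D.het, C.val_pm1]
  have e2 : val p i et * val p i eb = 2 := by rw [← C.val_mul, D.hem, val_two C]
  have e3 : val p i et ^ p = val p i eb := by rw [← C.val_cj hF, D.hcj]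
  have hne : val p i et ≠ val p i eb := fun h => D.hlt.2.2 (C.val_inj D.hlt.1 D.hlt.2.1 h)
  obtain ⟨S, hSU, hSrel, hSN⟩ := exists_S hF hK hadj e1 e2 e3 hne (two_ne C) D.h7
  obtain ⟨P, hP, hSP⟩ := exists_P C hF hSU hSrel D.htb1 D.htb2
  have hmax' := max_conj hmax P (conj_mem_iff hP)
  have hrel : ∀ m ∈ (subalgebraNormalizer K ⊓ (GU 3 F p ⊓ specialLinear (Fin 3) F)).comap (MulAut.conj P).toMonoidHom,
      ∃ k, k < 7 ∧ (m : Matrix (Fin 3) (Fin 3) F) * toM p i s₀ = toM p i (pw k) * (m : Matrix (Fin 3) (Fin 3) F) := by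
    intro m hm
    obtain ⟨k, hk7, hk⟩ := hSN _ hm.1
    refine ⟨k, hk7, ?_⟩
    have h3 := conj_rel hSP hk
    rw [D.hpw k hk7, toM_pow C]
    exact h3
  refine C.coded_no_max hF hmax' pts ?_ D.hwU D.hwp ?_ D.htU D.hu₀ D.hmv
  · intro m hm x hx
    obtain ⟨k, hk7, hk⟩ := hrel m hm
    have hmG := hmax'.1.le hm
    have hmU := (mem_GU_iff hF m).mp hmG.1
    have hmd := (mem_sl_iff m).mp hmG.2
    obtain ⟨Mm, hMm⟩ : ∃ Mm : Matrix (Fin 3) (Fin 3) F, Mm = m := ⟨_, rfl⟩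
    rw [← hMm] at hk hmU hmd ⊢
    have hpres := (pres_iff hF Mm).mpr hmU
    obtain ⟨v, hv1, hv2, hv3, hv⟩ := C.exists_vec hF (Mm *ᵥ toV p i e₀)
    obtain ⟨pk, hpk⟩ : ∃ pk, pk = pw k := ⟨_, rfl⟩
    rw [← hpk] at hk
    have hstep : ∀ x, Mm *ᵥ (toM p i s₀ *ᵥ x) = toM p i pk *ᵥ (Mm *ᵥ x) := by
      intro x
      rw [Matrix.mulVec_mulVec, Matrix.mulVec_mulVec, hk]
    have c0 : Mm *ᵥ toV p i e₀ = toV p i v := hv
    have c1 : Mm *ᵥ toV p i (M3.mulV p s₀ e₀) = toV p i (M3.mulV p pk v) := by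
      rw [← C.toM_mulVec, hstep, c0, C.toM_mulVec]
    have c2 : Mm *ᵥ toV p i (M3.mulV p s₀ (M3.mulV p s₀ e₀)) = toV p i (M3.mulV p pk (M3.mulV p pk v)) := by
      rw [← C.toM_mulVec, hstep, c1, C.toM_mulVec]
    have hMmk : Mm = toM p i (mkM p pk Ti v) := by
      have h3 : Mm * toM p i (M3.ofCols e₀ (M3.mulV p s₀ e₀) (M3.mulV p s₀ (M3.mulV p s₀ e₀))) = _ := mul_toM_ofCols C c0 c1 c2
      have h4 : toM p i (M3.ofCols e₀ (M3.mulV p s₀ e₀) (M3.mulV p s₀ (M3.mulV p s₀ e₀))) * toM p i Ti = 1 := by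
        rw [← C.toM_mul, D.hTc, C.toM_one]
      rw [mkM, C.toM_mul, ← h3, Matrix.mul_assoc, h4, Matrix.mul_one]
    have hf1 : hpr p v v = h0 := by
      apply C.val_inj (hlt1 _ _) (by rw [D.hh0]; exact hlt1 _ _)
      rw [← herm_toV C hF, D.hh0, ← herm_toV C hF, ← c0, hpres]
    have hf2 : hpr p (M3.mulV p pk v) v = h1 := by
      apply C.val_inj (hlt1 _ _) (by rw [D.hh1]; exact hlt1 _ _)
      rw [← herm_toV C hF, D.hh1, ← herm_toV C hF, ← c1, ← c0, hpres]
    have hU' : M3.isU p (mkM p pk Ti v) = true := by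
      apply C.isU_of hF
      · rw [← hMmk]
        exact hmU
      · rw [← hMmk]
        exact hmd
    have hint : M3.mul p (mkM p pk Ti v) s₀ = M3.mul p pk (mkM p pk Ti v) := by
      apply C.toM_inj (C.red_mul _ _) (C.red_mul _ _)
      rw [C.toM_mul, C.toM_mul, ← hMmk]
      exact hk
    have hchk := allW_spec D.hch hv1 hv2 hv3
    unfold kchk at hchk
    rw [hf1] at hchk
    simp only [decide_true, Bool.not_true, Bool.false_or, List.all_eq_true, List.mem_range] at hchk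
    have hchk2 := hchk k hk7
    rw [← hpk] at hchk2
    unfold kstep at hchk2
    rw [hf2, hU', hint] at hchk2
    simp only [decide_true, Bool.not_true, Bool.false_or] at hchk2
    rw [hMmk]
    exact C.pres_spec hchk2 x hx
  · intro hm
    obtain ⟨k, hk7, hk⟩ := hrel _ hm
    rw [Cx.toG_val] at hk
    apply D.hwne k hk7
    apply C.toM_inj (C.red_mul _ _) (C.red_mul _ _)
    rw [C.toM_mul, C.toM_mul]
    exact hk

end Coded

end Cfsg.Agent.SU3K
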