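import Cfsg.Agent.Lib.SU3K

/-!
The data of the criterion for field subalgebras of degree three in `SU₃(3)`.
-/

set_option autoImplicit false
set_option linter.style.longLine false
set_option maxRecDepth 100000

namespace Cfsg.Agent.SU3K3

open Cfsg Cfsg.Geo Cfsg.Agent.SU3C Cfsg.Agent.SU3K

/-- The element of order seven. -/
def s0 : M3 := ⟨4, 0, 4, 5, 0, 7, 0, 2, 0⟩
/-- The first vector. -/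
def e0 : V3 := ⟨1, 0, 0⟩
/-- The inverse of the matrix of powers. -/
def Ti : M3 := ⟨1, 3, 0, 0, 4, 6, 0, 0, 8⟩
/-- The powers. -/
def pw : ℕ → M3
  | 0 => ⟨1, 0, 0, 0, 1, 0, 0, 0, 1⟩
  | 1 => ⟨4, 0, 4, 5, 0, 7, 0, 2, 0⟩
  | 2 => ⟨6, 8, 6, 1, 5, 1, 7, 0, 5⟩
  | 3 => ⟨6, 3, 8, 7, 2, 1, 2, 7, 2⟩
  | 4 => ⟨3, 4, 2, 6, 2, 4, 5, 1, 2⟩
  | 5 => ⟨3, 1, 4, 5, 8, 0, 3, 1, 8⟩
  | 6 => ⟨7, 8, 0, 0, 0, 2, 7, 4, 0⟩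
  | _ => M3.one
/-- The table of conjugators. -/
def tb : ℕ → M3
  | 0 => ⟨1, 6, 0, 0, 0, 3, 8, 0, 0⟩
  | 1 => ⟨1, 8, 0, 0, 7, 4, 3, 0, 5⟩
  | 2 => ⟨0, 2, 8, 1, 1, 0, 7, 4, 5⟩
  | 3 => ⟨0, 6, 8, 1, 7, 5, 4, 4, 8⟩
  | 4 => ⟨0, 4, 0, 0, 1, 8, 1, 0, 2⟩
  | 5 => ⟨0, 7, 8, 1, 0, 4, 6, 4, 3⟩
  | 6 => ⟨1, 4, 0, 0, 6, 8, 5, 0, 3⟩
  | 7 => ⟨1, 1, 8, 1, 4, 1, 6, 4, 2⟩
  | 8 => ⟨0, 5, 8, 1, 6, 6, 3, 4, 6⟩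
  | _ => M3.one
/-- The points. -/
def pts : List V3 := [⟨0, 1, 6⟩, ⟨1, 0, 6⟩, ⟨1, 1, 4⟩, ⟨1, 1, 5⟩, ⟨1, 1, 7⟩, ⟨1, 1, 8⟩, ⟨1, 2, 0⟩, ⟨1, 3, 5⟩, ⟨1, 4, 2⟩, ⟨1, 4, 3⟩, ⟨1, 4, 5⟩, ⟨1, 5, 3⟩, ⟨1, 5, 7⟩, ⟨1, 5, 8⟩, ⟨1, 6, 4⟩, ⟨1, 7, 1⟩, ⟨1, 7, 3⟩, ⟨1, 7, 4⟩, ⟨1, 8, 3⟩, ⟨1, 8, 7⟩, ⟨1, 8, 8⟩]
/-- The overgroup element. -/
def w : M3 := ⟨4, 4, 0, 1, 2, 8, 6, 3, 7⟩
/-- The moving element. -/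
def t : M3 := ⟨1, 4, 1, 6, 1, 8, 8, 1, 6⟩
/-- The moved point. -/
def u0 : V3 := ⟨0, 1, 6⟩

/-- The main check. -/
theorem chk_main : allW 3 (kchk 3 s0 Ti pts 1 4 pw) = true := by decide +kernel

/-- The checks. -/
theorem chk : KChk 3 4 7 s0 e0 Ti 1 4 pw tb pts w t u0 where
  het := by decide +kernel
  hem := by decide +kernel
  hcj := by decide +kernel
  hlt := by decide +kernel
  h7 := by norm_num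
  hpw := by decide +kernel
  htb1 := by decide +kernel
  htb2 := by decide +kernel
  hTc := by decide +kernel
  hh0 := by decide +kernel
  hh1 := by decide +kernel
  hch := chk_main
  hwU := by decide +kernel
  hwp := by decide +kernel
  hwne := by decide +kernel
  htU := by decide +kernel
  hu₀ := by decide +kernel
  hmv := by decide +kernel

end Cfsg.Agent.SU3K3
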