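import Cfsg.Agent.Lib.H97Uni5
import Cfsg.Agent.Lib.H97J3

/-!
The Aschbacher reduction for maximal subgroups of `SU₃(q)`, `q ≥ 3`, with equalities.
-/

set_option autoImplicit false
set_option linter.unusedSectionVars false
set_option linter.unusedSimpArgs false
set_option linter.unusedVariables false

namespace Cfsg.Agent.SU3Main

open Matrix Cfsg Cfsg.Geo Cfsg.Agent.H97.Asch
open scoped MatrixGroups commutatorElement

section Frame

variable {ι : Type} [Fintype ι] [DecidableEq ι] {F : Type*} [Field F]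
  {f : (ι → F) → (ι → F) → F} {σ : F ≃+* F} {K : Subgroup (GL ι F)}

/-- Orthogonal frames of three lines are not stabilised, when the fixed field has at least three elements. -/
theorem not_le_frame3 (C : UCtx σ f K) (hz : ∀ a : F, σ a = a → ∃ z, σ z = z ∧ z ≠ 0 ∧ z ≠ a)
    (b : Module.Basis (Fin 3) F (ι → F)) (horth : ∀ i j, i ≠ j → f (b i) (b j) = 0)
    (hd : ∀ i, f (b i) (b i) ≠ 0) :
    ¬ K ≤ decompositionStabilizer (fun i => Submodule.span F {b i}) := by
  classical
  intro hle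
  have hU := C.unitary
  have hS := sesq_of_unitary hU
  have hfix : ∀ i, σ (f (b i) (b i)) = f (b i) (b i) := fun i => herm_self_fixed hU _
  have h01 : (0 : Fin 3) ≠ 1 := by decide
  have h02 : (0 : Fin 3) ≠ 2 := by decide
  have h12 : (1 : Fin 3) ≠ 2 := by decide
  obtain ⟨d₁, hd₁⟩ : ∃ d, d = f (b 0) (b 0) := ⟨_, rfl⟩
  obtain ⟨d₂, hd₂⟩ : ∃ d, d = f (b 1) (b 1) := ⟨_, rfl⟩
  obtain ⟨d₃, hd₃⟩ : ∃ d, d = f (b 2) (b 2) := ⟨_, rfl⟩
  have hd₁0 : d₁ ≠ 0 := hd₁ ▸ hd 0
  have hd₂0 : d₂ ≠ 0 := hd₂ ▸ hd 1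
  have hd₃0 : d₃ ≠ 0 := hd₃ ▸ hd 2
  have hσ₁ : σ d₁ = d₁ := by rw [hd₁]; exact hfix 0
  have hσ₂ : σ d₂ = d₂ := by rw [hd₂]; exact hfix 1
  have hσ₃ : σ d₃ = d₃ := by rw [hd₃]; exact hfix 2
  obtain ⟨z, hz1, hz0, hza⟩ := hz (-d₃) (by rw [map_neg, hσ₃])
  have hne : -d₃ - z ≠ 0 := fun h => hza (by linear_combination -h)
  obtain ⟨x₁, hx₁0, hx₁⟩ := C.norm (z / d₁) (div_ne_zero hz0 hd₁0) (by rw [map_div₀, hz1, hσ₁])
  obtain ⟨x₂, hx₂0, hx₂⟩ := C.norm ((-d₃ - z) / d₂) (div_ne_zero hne hd₂0)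
    (by rw [map_div₀, map_sub, map_neg, hz1, hσ₂, hσ₃])
  let a : ι → F := x₁ • b 0 + x₂ • b 1 + b 2
  have e1 : f (b 0) a = σ x₁ * d₁ := by
    simp only [a]
    rw [hS.add_right, hS.add_right, hS.smul_right, hS.smul_right, horth _ _ h01, horth _ _ h02, ← hd₁]
    simp
  have e2 : f (b 1) a = σ x₂ * d₂ := by
    simp only [a]
    rw [hS.add_right, hS.add_right, hS.smul_right, hS.smul_right, horth _ _ h01.symm, horth _ _ h12, ← hd₂]
    simp
  have e3 : f (b 2) a = d₃ := by
    simp only [a]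
    rw [hS.add_right, hS.add_right, hS.smul_right, hS.smul_right, horth _ _ h02.symm, horth _ _ h12.symm, ← hd₃]
    simp
  have ha : f a a = 0 := by
    calc f a a = f (x₁ • b 0 + x₂ • b 1 + b 2) a := rfl
      _ = x₁ * (σ x₁ * d₁) + x₂ * (σ x₂ * d₂) + d₃ := by
        rw [hS.add_left, hS.add_left, hS.smul_left, hS.smul_left, e1, e2, e3]
      _ = 0 := by
        have h1 : x₁ * (σ x₁ * d₁) = z := by
          rw [← mul_assoc, hx₁]
          field_simp
        have h2 : x₂ * (σ x₂ * d₂) = -d₃ - z := by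
          rw [← mul_assoc, hx₂]
          field_simp
        rw [h1, h2]
        ring
  obtain ⟨c, hc0, hc⟩ := C.exists_c
  obtain ⟨π, hπ⟩ := hle (C.tv a c (uDual_self hU c ha) ha hc)
  have h1 := hπ 0
  have h2 : ((tvG (uDual_self hU c ha) : GL ι F) : Matrix ι ι F) *ᵥ b 0 ∈ Submodule.span F {b (π 0)} := by
    simp only at h1
    rw [← h1]
    refine ⟨b 0, Submodule.mem_span_singleton_self _, ?_⟩
    simp [Matrix.toLin'_apply]
  rw [tvG_mulVec, uDual_apply, e1] at h2
  obtain ⟨e, he⟩ := Submodule.mem_span_singleton.mp h2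
  have hσx : σ x₁ ≠ 0 := (map_ne_zero σ).mpr hx₁0
  have hμ : c * (σ x₁ * d₁) ≠ 0 := mul_ne_zero hc0 (mul_ne_zero hσx hd₁0)
  have e4 := congrArg (fun u => b.repr u 1) he
  have e5 := congrArg (fun u => b.repr u 2) he
  simp only [a, map_smul, Finsupp.smul_apply, smul_eq_mul, map_add, Finsupp.add_apply, Module.Basis.repr_self,
    Finsupp.single_apply, h01, h02, h12, h01.symm, h02.symm, h12.symm,
    if_false, if_true, add_zero, zero_add, mul_zero, mul_one] at e4 e5
  by_cases hj : π 0 = 1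
  · rw [hj] at e5
    have e6 : c * (σ x₁ * d₁) = 0 := by simpa [h12] using e5
    exact hμ e6
  · have e6 : c * (σ x₁ * d₁) * x₂ = 0 := by simpa [hj] using e4
    exact mul_ne_zero hμ hx₂0 e6

end Frame

section Nrm

variable {ι : Type} [Fintype ι] [DecidableEq ι] {F : Type*} [Field F] [Fintype F]

/-- A transvection of order prime to `6` does not normalise a group of order `27` acting absolutely irreducibly. -/
theorem tv_not_nrm3 {p : ℕ} (hp : p.Prime) (hp2 : p ≠ 2) (hp3 : p ≠ 3) (hchar : (p : F) = 0)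
    {R : Subgroup (GL ι F)} (hcard : Nat.card R = 27) (hZ : Nat.card (Subgroup.center R) = 3)
    (habs : ActsAbsolutelyIrreducibly (matrixSet R)) {φ : Module.Dual F (ι → F)} {a : ι → F}
    (h : φ a = 0) (ha0 : a ≠ 0) (hφ : φ ≠ 0) : tvG h ∉ subgroupNormalizer R := by
  classical
  intro ht
  have : Fact p.Prime := ⟨hp⟩
  obtain ⟨t, htt⟩ : ∃ t, t = tvG h := ⟨_, rfl⟩
  rw [← htt] at ht
  have htv : ∀ v, (t : Matrix ι ι F) *ᵥ v = v + φ v • a := fun v => by rw [htt, tvG_mulVec]
  have hpow : ∀ (k : ℕ) v, ((t ^ k : GL ι F) : Matrix ι ι F) *ᵥ v = v + (k : F) • φ v • a := by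
    intro k
    induction k with
    | zero => intro v; simp
    | succ k ih =>
      intro v
      rw [pow_succ, Units.val_mul, ← Matrix.mulVec_mulVec, htv, ih, map_add, map_smul, h]
      push_cast
      simp only [smul_eq_mul, mul_zero, add_zero, add_smul, one_smul]
      abel
  have htp : t ^ p = 1 := by
    apply Units.ext
    apply Matrix.ext_of_mulVec_single
    intro i
    rw [hpow, hchar, zero_smul, add_zero, Units.val_one, Matrix.one_mulVec]
  have hnorm : ∀ x, x ∈ R ↔ t * x * t⁻¹ ∈ R := Subgroup.mem_normalizer_iff.mp ht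
  have : Fintype R := Fintype.ofFinite R
  -- the action on `R`
  let g : Function.End R := fun r => ⟨t * r * t⁻¹, (hnorm r).mp r.2⟩
  have hgk : ∀ (k : ℕ) (r : R), (((g ^ k : Function.End R) r : R) : GL ι F) = t ^ k * r * (t ^ k)⁻¹ := by
    intro k
    induction k with
    | zero => intro r; simp; rfl
    | succ k ih =>
      intro r
      rw [pow_succ', Function.End.mul_def]
      show t * (((g ^ k : Function.End R) r : R) : GL ι F) * t⁻¹ = _
      rw [ih, pow_succ', _root_.mul_inv_rev]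
      group
  have hgp : g ^ p ^ 1 = 1 := by
    rw [pow_one]
    funext r
    apply Subtype.ext
    rw [hgk, htp]
    simp
    rfl
  have hmod := Equiv.Perm.card_fixedPoints_modEq hgp
  let S : Subgroup R := (Subgroup.centralizer ({t} : Set (GL ι F))).subgroupOf R
  have hS : ∀ r : R, r ∈ S ↔ g r = r := by
    intro r
    have e : r ∈ S ↔ (r : GL ι F) ∈ Subgroup.centralizer ({t} : Set (GL ι F)) := Subgroup.mem_subgroupOf
    rw [e, Subgroup.mem_centralizer_singleton_iff, Subtype.ext_iff]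
    show _ ↔ t * r * t⁻¹ = r
    constructor
    · intro h1
      rw [← h1]
      simp
    · intro h1
      nth_rewrite 1 [← h1]
      simp
  have hcardS : Fintype.card (Function.fixedPoints g) = Nat.card S := by
    rw [← Nat.card_eq_fintype_card]
    apply Nat.card_congr
    exact Equiv.subtypeEquivRight fun r => (hS r).symm
  rw [hcardS, ← Nat.card_eq_fintype_card, hcard] at hmod
  have hd27 : Nat.card S ∣ 27 := by
    rw [← hcard]
    exact Subgroup.card_subgroup_dvd_card S
  have hZS : Subgroup.center R ≤ S := by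
    intro z hz
    have h1 : ∀ x ∈ R, (z : GL ι F) * x = x * z := by
      intro x hx
      have := (Subgroup.mem_center_iff.mp hz) ⟨x, hx⟩
      have h2 := congrArg Subtype.val this
      exact h2.symm
    have h3 := scalars_of_absIrred habs h1
    obtain ⟨c, hc⟩ := (mem_scalars_iff _).mp h3
    refine (Subgroup.mem_subgroupOf).mpr (Subgroup.mem_centralizer_singleton_iff.mpr ?_)
    apply Units.ext
    rw [Units.val_mul, Units.val_mul, hc]
    simp
  have hd3 : 3 ∣ Nat.card S := by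
    rw [← hZ]
    exact Subgroup.card_dvd_of_le hZS
  have hall : Nat.card S = 27 := by
    have h27 : (27 : ℕ) = 3 ^ 3 := by norm_num
    rw [h27] at hd27
    obtain ⟨k, hk, hk2⟩ := (Nat.dvd_prime_pow Nat.prime_three).mp hd27
    interval_cases k
    · rw [hk2] at hd3
      omega
    · exfalso
      rw [hk2] at hmod
      have h1 : p ∣ 24 := (Nat.modEq_iff_dvd' (by norm_num)).mp hmod.symm
      have h24 : (24 : ℕ) = 2 ^ 3 * 3 := by norm_num
      rw [h24] at h1
      rcases (Nat.Prime.dvd_mul hp).mp h1 with h2 | h2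
      · exact hp2 ((Nat.prime_dvd_prime_iff_eq hp Nat.prime_two).mp (hp.dvd_of_dvd_pow h2))
      · exact hp3 ((Nat.prime_dvd_prime_iff_eq hp Nat.prime_three).mp h2)
    · exfalso
      rw [hk2] at hmod
      have h1 : p ∣ 18 := (Nat.modEq_iff_dvd' (by norm_num)).mp hmod.symm
      have h24 : (18 : ℕ) = 2 * 3 ^ 2 := by norm_num
      rw [h24] at h1
      rcases (Nat.Prime.dvd_mul hp).mp h1 with h2 | h2
      · exact hp2 ((Nat.prime_dvd_prime_iff_eq hp Nat.prime_two).mp h2)
      · exact hp3 ((Nat.prime_dvd_prime_iff_eq hp Nat.prime_three).mp (hp.dvd_of_dvd_pow h2))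
    · rw [hk2]
      norm_num
  have htop : S = ⊤ := by
    apply Subgroup.eq_top_of_card_eq
    rw [hall, hcard]
  have hcomm : ∀ x ∈ R, t * x = x * t := by
    intro x hx
    have h1 : (⟨x, hx⟩ : R) ∈ S := by rw [htop]; trivial
    have h2 := (Subgroup.mem_subgroupOf.mp h1)
    exact (Subgroup.mem_centralizer_singleton_iff.mp h2).symm
  obtain ⟨c, hc⟩ := (mem_scalars_iff _).mp (scalars_of_absIrred habs hcomm)
  have hta := htv a
  rw [h, zero_smul, add_zero, hc, Matrix.smul_mulVec, Matrix.one_mulVec] at hta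
  have hc1 : (c : F) = 1 := by
    have : ((c : F) - 1) • a = 0 := by rw [sub_smul, hta, one_smul, sub_self]
    rcases smul_eq_zero.mp this with h0 | h0
    · exact sub_eq_zero.mp h0
    · exact absurd h0 ha0
  obtain ⟨v, hv⟩ : ∃ v, φ v ≠ 0 := by
    by_contra hall
    push Not at hall
    exact hφ (LinearMap.ext hall)
  have hv2 := htv v
  rw [hc, hc1, one_smul, Matrix.one_mulVec] at hv2
  have h0 : φ v • a = 0 := by
    have := congrArg (fun w => w - v) hv2
    simpa using this.symm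
  rcases smul_eq_zero.mp h0 with h1 | h1
  · exact hv h1
  · exact ha0 h1

end Nrm

section Main

variable {F : Type*} [Field F] [Fintype F] {σ : F ≃+* F} {f : (Fin 3 → F) → (Fin 3 → F) → F}
  {K : Subgroup (GL (Fin 3) F)}

/-- The fixed field has at least three elements. -/
theorem exists_fixed_ne (C : UCtx σ f K) {q : ℕ} (hF : Fintype.card F = q ^ 2) (hq : ∀ x, σ x = x ^ q) (hq3 : 3 ≤ q)
    (a : F) : ∃ z, σ z = z ∧ z ≠ 0 ∧ z ≠ a := by
  by_contra hall
  push Not at hall
  have SC : SUCtx σ q f := ⟨C.unitary, hq, hF⟩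
  have h1 := SC.card_fixF
  have h2 : ((SUCtx.fixF σ : Subfield F) : Set F) ⊆ {0, a} := by
    intro z hz
    by_cases h0 : z = 0
    · exact Or.inl h0
    · exact Or.inr (hall z hz h0)
  have h3 : Set.ncard ((SUCtx.fixF σ : Subfield F) : Set F) ≤ Set.ncard ({0, a} : Set F) :=
    Set.ncard_le_ncard h2 (Set.toFinite _)
  have h4 : Set.ncard ({0, a} : Set F) ≤ 2 := Set.ncard_insert_le _ _ |>.trans (by simp)
  have h5 : Nat.card (SUCtx.fixF σ) = Set.ncard ((SUCtx.fixF σ : Subfield F) : Set F) := rfl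
  omega

/-- The extraspecial branch. -/
theorem es_branch3 (C : UCtx σ f K) (q : ℕ) (hF : Fintype.card F = q ^ 2) (hq : ∀ x, σ x = x ^ q) (hq3 : 3 ≤ q)
    (hdet : K ≤ specialLinear (Fin 3) F) {H N : Subgroup (GL (Fin 3) F)}
    (hH : IsMaximalIn K H) (hNH : N ≤ H) (hnrm : Nrm H N) (hirr : Irr N) (hnc : ∃ a ∈ N, ∃ b ∈ N, a * b ≠ b * a)
    (hder : ⁅N, N⁆ ≤ scalars (Fin 3) F) :
    (∃ (F₁ : Subfield F) (r : ℕ) (P' : GL (Fin 3) F), r.Prime ∧ Odd r ∧ Fintype.card F = Nat.card F₁ ^ r ∧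
        IsFormRationalStructure f F₁ 1 P' ∧ H = subfieldSubgroup F₁ P' ⊓ K) ∨
    (Odd q ∧ ∃ (F₁ : Subfield F) (P' : GL (Fin 3) F), Fintype.card F = Nat.card F₁ ^ 2 ∧
        IsFormRationalStructure f F₁ 1 P' ∧ H = subfieldSubgroup F₁ P' ⊓ K) ∨
    (∃ (p e : ℕ) (R : Subgroup (GL (Fin 3) F)), 3 ≠ p ∧ IsMinimalFieldFor 3 p e F ∧ IsSymplecticTypeGroup 3 R ∧
        ActsAbsolutelyIrreducibly (matrixSet R) ∧ R ≤ K ∧ Nat.card R = 3 ^ 3 ∧ Nat.card (Subgroup.center R) = 3 ∧
        ESCtx R ∧ H = subgroupNormalizer R ⊓ K) := by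
  classical
  have hn : (3 : ℕ).Prime := Nat.prime_three
  have hodd : Odd 3 := by decide
  have hnp' : (Fintype.card (Fin 3)).Prime := by simpa using hn
  have hU := C.unitary
  have hHK : H ≤ K := hH.1.le
  have hdetN : ∀ g ∈ N, (g : Matrix (Fin 3) (Fin 3) F).det = 1 := fun g hg =>
    (mem_sl_iff g).mp (hdet (hHK (hNH hg)))
  have E : ESCtx N := ⟨hn, hodd, hirr, hnc, hder, hdetN⟩
  obtain ⟨a, ha, b, hb, hab⟩ := hnc
  obtain ⟨ξ, v, P, hz⟩ := E.exists_pair ha hb hab
  have habs : ∀ M : Matrix (Fin 3) (Fin 3) F, (∀ g ∈ N, M * (g : Matrix (Fin 3) (Fin 3) F) = (g : Matrix (Fin 3) (Fin 3) F) * M) →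
      ∃ c : F, M = c • 1 := fun M hM => absIrr_of_noncomm hnp' hirr E.noncomm hM
  have hnorm : ∀ h ∈ H, ∀ g ∈ N, h * g * h⁻¹ ∈ N := hnrm
  have hnotEven : ¬ Even (Fintype.card (Fin 3)) := by
    rw [Fintype.card_fin]
    exact Nat.not_even_iff_odd.mpr hodd
  rcases field_min P.prim hn with ⟨F₀, hF₀, hξF₀⟩ | ⟨p, e, hnp, hmin⟩
  · obtain ⟨B, hB⟩ := E.exists_rational P hz ha hb
    rcases C.subfield_branch q hF hq hnotEven (by simp) hH hNH hnorm habs hirr hF₀ (hB F₀ hξF₀) with h | h
    · left; exact h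
    · right; left; exact h
  · right; right
    have hcN := E.card_eq P rfl hz ha hb
    have hcZ := E.card_center P rfl hz ha hb
    refine ⟨p, e, N, hnp, hmin, E.isSymplecticType, actsAbsIrr_of_noncomm hnp' hirr E.noncomm, fun g hg => hHK (hNH hg),
      hcN, hcZ, E, ?_⟩
    refine maximal_eq' hH ?_ ?_
    · intro h hh
      show h ∈ Subgroup.normalizer _
      rw [Subgroup.mem_normalizer_iff]
      intro g
      constructor
      · exact fun hg => hnorm h hh g hg
      · intro hg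
        have := Nrm.inv hnrm hh hg
        simpa [mul_assoc] using this
    · intro hle
      have : Fact (Nat.Prime 3) := ⟨hn⟩
      obtain ⟨k, hk0, hqk, hdvd, -, -⟩ := min_field_q hF hmin
      have hk1 : k = 1 := by
        have h6 : 2 * k ∣ 2 := hdvd
        have hle := Nat.le_of_dvd (by norm_num) h6
        omega
      subst hk1
      have hqp : q = p := by simpa using hqk
      obtain ⟨hpp, hcp, -⟩ := hmin
      have hchar : (p : F) = 0 := (CharP.cast_eq_zero_iff F p p).mpr dvd_rfl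
      obtain ⟨a₀, ha₀, hiso⟩ := C.exists_iso
      obtain ⟨c, hc0, hc⟩ := C.exists_c
      have hφ : uDual hU a₀ c ≠ 0 := by
        intro h0
        obtain ⟨x, hx⟩ := (hU.nondegenerate a₀ ha₀).1
        have h1 := LinearMap.congr_fun h0 x
        rw [uDual_apply] at h1
        simp only [LinearMap.zero_apply] at h1
        exact mul_ne_zero hc0 hx h1
      exact tv_not_nrm3 hpp (by omega) (fun h => hnp h.symm) hchar (by rw [hcN]; norm_num) hcZ
        (actsAbsIrr_of_noncomm hnp' hirr E.noncomm) (uDual_self hU c hiso) ha₀ hφ (hle (C.tv a₀ c _ hiso hc))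

/-- The Aschbacher theorem for `SU₃(q)`, `q ≥ 3`. -/
theorem su3_main (C : UCtx σ f K) (q : ℕ) (hF : Fintype.card F = q ^ 2) (hq : ∀ x, σ x = x ^ q) (hq3 : 3 ≤ q)
    (hdet : K ≤ specialLinear (Fin 3) F) {H : Subgroup (GL (Fin 3) F)} (hH : IsMaximalIn K H) :
    (∃ W : Submodule F (Fin 3 → F), W ≠ ⊥ ∧ IsTotallySingularFor f W ∧ H = subspaceStabilizer W ⊓ K) ∨
    (∃ W : Submodule F (Fin 3 → F), W ≠ ⊥ ∧ IsNondegenerateOn f W ∧ 2 * Module.finrank F W < 3 ∧ H = subspaceStabilizer W ⊓ K) ∨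
    (∃ D : Fin 3 → Submodule F (Fin 3 → F), IsNondegenerateMDecomposition f 1 D ∧ H = decompositionStabilizer D ⊓ K) ∨
    (∃ A : Subalgebra F (Matrix (Fin 3) (Fin 3) F), IsFieldSubalgebra 3 A ∧ IsAdjointClosedFor f A ∧ H = subalgebraNormalizer A ⊓ K) ∨
    (∃ (F₀ : Subfield F) (r : ℕ) (P : GL (Fin 3) F), r.Prime ∧ Odd r ∧ Fintype.card F = Nat.card F₀ ^ r ∧
        IsFormRationalStructure f F₀ 1 P ∧ H = subfieldSubgroup F₀ P ⊓ K) ∨
    (Odd q ∧ ∃ (F₀ : Subfield F) (P : GL (Fin 3) F), Fintype.card F = Nat.card F₀ ^ 2 ∧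
        IsFormRationalStructure f F₀ 1 P ∧ H = subfieldSubgroup F₀ P ⊓ K) ∨
    (∃ (p e : ℕ) (R : Subgroup (GL (Fin 3) F)), 3 ≠ p ∧ IsMinimalFieldFor 3 p e F ∧ IsSymplecticTypeGroup 3 R ∧
        ActsAbsolutelyIrreducibly (matrixSet R) ∧ R ≤ K ∧ Nat.card R = 3 ^ 3 ∧ Nat.card (Subgroup.center R) = 3 ∧
        ESCtx R ∧ H = subgroupNormalizer R ⊓ K) ∨
    InUnitaryResidualClass H := by
  classical
  have hn : (3 : ℕ).Prime := Nat.prime_three
  have hodd : Odd 3 := by decide
  have hU := C.unitary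
  have hS := sesq_of_unitary hU
  have hnp' : (Fintype.card (Fin 3)).Prime := by simpa using hn
  have hn3' : 3 ≤ Fintype.card (Fin 3) := by simp
  have hne : Nonempty (Fin 3) := ⟨⟨0, hn.pos⟩⟩
  have hnotEven : ¬ Even (Fintype.card (Fin 3)) := by
    rw [Fintype.card_fin]
    exact Nat.not_even_iff_odd.mpr hodd
  have hHK : H ≤ K := hH.1.le
  have hfixH : ∀ g ∈ H, ∀ u v, f ((g : Matrix (Fin 3) (Fin 3) F) *ᵥ u) ((g : Matrix (Fin 3) (Fin 3) F) *ᵥ v) = f u v :=
    fun g hg => C.fix g (hHK hg)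
  by_cases hirr : Irr H
  · rcases tri hnp' hirr with ⟨N, hNH, hnrm, hns, hcomm⟩ | ⟨N, hNH, hnrm, hNirr, hnc, hder⟩ | ⟨P, hP⟩
    · -- abelian
      rcases irr_or_diag hnp' hirr hnrm with hNirr | hD
      · right; right; right; left
        have hK := isFieldSubalgebra_algOf hnp' hNirr hcomm
        rw [Fintype.card_fin] at hK
        refine ⟨algOf N, hK, adjoint_closed_algOf hU (fun g hg => hfixH g (hNH hg)), ?_⟩
        refine maximal_eq' hH ?_ (C.not_le_field (by omega) hn3' hK)
        intro h hh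
        exact mem_normalizer_algOf (hnrm h hh) (fun x hx => Nrm.inv hnrm hh hx)
      · right; right; left
        have hns' : ∃ g ∈ N, g ∉ scalars (Fin 3) F := by
          by_contra hall
          push Not at hall
          exact hns hall
        obtain ⟨b, hb1, hb2, hb3⟩ := diag_basis hnp' hirr hnrm hD hns'
        obtain ⟨horth, hd⟩ := frame_orth hU hnotEven hNH hfixH hirr b hb1 hb2 hb3
        refine ⟨fun i => Submodule.span F {b i}, ⟨isMDecomposition_of_basis (by omega) b, ?_, ?_⟩, ?_⟩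
        · intro i w hw hw0
          obtain ⟨c, rfl⟩ := Submodule.mem_span_singleton.mp hw
          have hc0 : c ≠ 0 := by
            rintro rfl
            exact hw0 (zero_smul _ _)
          refine ⟨⟨b i, Submodule.mem_span_singleton_self _, ?_⟩, ⟨b i, Submodule.mem_span_singleton_self _, ?_⟩⟩
          · rw [hS.smul_right]
            exact mul_ne_zero ((map_ne_zero σ).mpr hc0) (hd i)
          · rw [hS.smul_left]
            exact mul_ne_zero hc0 (hd i)
        · intro i j hij u hu v hv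
          obtain ⟨c, rfl⟩ := Submodule.mem_span_singleton.mp hu
          obtain ⟨d, rfl⟩ := Submodule.mem_span_singleton.mp hv
          rw [hS.smul_left, hS.smul_right, horth i j hij]
          simp
        · exact maximal_eq' hH (fun h hh => mem_decompositionStabilizer_of_basis b h (hb2 h hh))
            (not_le_frame3 C (fun a _ => exists_fixed_ne C hF hq hq3 a) b horth hd)
    · -- extraspecial
      rcases es_branch3 C q hF hq hq3 hdet hH hNH hnrm hNirr hnc hder with h | h | h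
      · right; right; right; right; left; exact h
      · right; right; right; right; right; left; exact h
      · right; right; right; right; right; right; left; exact h
    · -- almost simple
      have habs := habs_of_matrixSet hP.absIrred
      have hPirr : Irr P := (actsIrreducibly_iff P).mp hP.absIrred.1
      by_cases hsub : ∃ F₀ : Subfield F, F₀ ≠ ⊤ ∧ RealisableOver F₀ (matrixSet P)
      · obtain ⟨F₀, hF₀, B, hB⟩ := hsub
        rcases C.subfield_branch q hF hq hnotEven hn3' hH hP.le hP.normal habs hPirr hF₀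
          (fun s hs i j => hB _ ⟨s, hs, rfl⟩ i j) with h | h
        · right; right; right; right; left; exact h
        · right; right; right; right; right; left; exact h
      · push Not at hsub
        right; right; right; right; right; right; right
        refine ⟨P, hP.toCore hsub, ?_, ?_⟩
        · rintro ⟨Q, hQ, hfix⟩
          obtain ⟨F₀, hF₀, hreal⟩ := descent hU C.norm habs (fun g hg => hfixH g (hP.le hg))
            (sesq_of_bilinear hQ.polar_bilinear) (fun v hv => (hQ.nondegenerate v hv).1)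
            (fun g hg u v => fixes_polar (fun w => hfix _ ⟨g, hg, rfl⟩ w) u v)
          exact hsub F₀ hF₀ hreal
        · rintro ⟨f', hf', -⟩
          exact hnotEven (IsSymplecticForm.even hf')
  · unfold Irr at hirr
    push Not at hirr
    obtain ⟨W, hW, h0, h1⟩ := hirr
    rcases C.reducible_case hnotEven hH hW h0 h1 with h | ⟨W', h2, h3, h4, h5⟩
    · left; exact h
    · right; left
      refine ⟨W', h2, h3, ?_, h5⟩
      simpa using h4

end Main

end Cfsg.Agent.SU3Main
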