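import Cfsg.Agent.Lib.SU3F5

/-!
Symmetric forms over the fields with `3` and `5` elements, up to similarity; orthonormal bases adapted to rational structures of
index two in `SU₃(q)`, `q = 3, 5`.
-/

set_option autoImplicit false
set_option linter.unusedSectionVars false
set_option linter.unusedVariables false
set_option linter.style.longLine false

namespace Cfsg.Agent.SU3O

open Matrix Cfsg Cfsg.Geo Cfsg.Agent.H97.Asch Cfsg.Agent.SU3H Cfsg.Agent.SU3C
  Cfsg.Agent.Lib.HermForm Cfsg.Agent.Lib.FFNorm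

section Sim

variable {K : Type*} [Field K] [Fintype K]

theorem K_char (hK : Fintype.card K = 3 ∨ Fintype.card K = 5) : (3 : K) = 0 ∨ (5 : K) = 0 := by
  have h : ((Fintype.card K : ℕ) : K) = 0 := Nat.cast_card_eq_zero K
  rcases hK with hK | hK
  · rw [hK] at h
    left
    exact_mod_cast h
  · rw [hK] at h
    right
    exact_mod_cast h

theorem two_ne (hK : Fintype.card K = 3 ∨ Fintype.card K = 5) : (2 : K) ≠ 0 := by
  intro h
  have h1 : (1 : K) ≠ 0 := one_ne_zero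
  rcases K_char hK with h3 | h3
  · exact h1 (by linear_combination h3 - h)
  · exact h1 (by linear_combination h3 - 2 * h)

/-- Every nonzero element is a square or twice a square. -/
theorem exists_scale (hK : Fintype.card K = 3 ∨ Fintype.card K = 5) {x : K} (hx : x ≠ 0) :
    ∃ a : K, a ≠ 0 ∧ (x * a ^ 2 = 1 ∨ x * a ^ 2 = 2) := by
  have hpow := FiniteField.pow_card x
  have h20 := two_ne hK
  rcases hK with hK | hK
  · rw [hK] at hpow
    have h3 : (3 : K) = 0 := by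
      have h : ((Fintype.card K : ℕ) : K) = 0 := Nat.cast_card_eq_zero K
      rw [hK] at h
      exact_mod_cast h
    have h1 : x * ((x - 1) * (x - 2)) = 0 := by linear_combination hpow - x * x * h3 + x * h3 - x * h3 + (x) * h3 - x * h3 + x * h3
    have h2 := (mul_eq_zero.mp h1).resolve_left hx
    rcases mul_eq_zero.mp h2 with h4 | h4
    · exact ⟨1, one_ne_zero, Or.inl (by linear_combination h4)⟩
    · exact ⟨1, one_ne_zero, Or.inr (by linear_combination h4)⟩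
  · rw [hK] at hpow
    have h5 : (5 : K) = 0 := by
      have h : ((Fintype.card K : ℕ) : K) = 0 := Nat.cast_card_eq_zero K
      rw [hK] at h
      exact_mod_cast h
    have h1 : x * ((x - 1) * ((x - 2) * ((x - 3) * (x - 4)))) = 0 := by
      linear_combination hpow + (-2 * x ^ 4 + 7 * x ^ 3 - 10 * x ^ 2 + 5 * x) * h5
    have h2 := (mul_eq_zero.mp h1).resolve_left hx
    rcases mul_eq_zero.mp h2 with h4 | h4
    · exact ⟨1, one_ne_zero, Or.inl (by linear_combination h4)⟩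
    have h2' := h4
    rcases mul_eq_zero.mp h2' with h4 | h4
    · exact ⟨1, one_ne_zero, Or.inr (by linear_combination h4)⟩
    rcases mul_eq_zero.mp h4 with h4 | h4
    · exact ⟨2, h20, Or.inr (by linear_combination 4 * h4 + 2 * h5)⟩
    · exact ⟨2, h20, Or.inl (by linear_combination 4 * h4 + 3 * h5)⟩

/-- Diagonal forms over the small fields are similar to the sum of squares. -/
theorem diag_to_scalar (hK : Fintype.card K = 3 ∨ Fintype.card K = 5) (M₀ : Matrix (Fin 3) (Fin 3) K)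
    (A₁ : GL (Fin 3) K) (d : Fin 3 → K) (hd : ∀ s, d s ≠ 0) (hA : (A₁ : Matrix (Fin 3) (Fin 3) K)ᵀ * M₀ * A₁ = Matrix.diagonal d) :
    ∃ (A₀ : GL (Fin 3) K) (c : K), c ≠ 0 ∧ (A₀ : Matrix (Fin 3) (Fin 3) K)ᵀ * M₀ * A₀ = c • 1 := by
  have h20 := two_ne hK
  have hex := fun s => exists_scale hK (hd s)
  choose a ha0 ha using hex
  -- scaling
  have hdet_S : (Matrix.diagonal a).det ≠ 0 := by
    rw [Matrix.det_diagonal]
    exact Finset.prod_ne_zero_iff.mpr fun s _ => ha0 s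
  let A₂ : Matrix (Fin 3) (Fin 3) K := (A₁ : Matrix (Fin 3) (Fin 3) K) * Matrix.diagonal a
  have hA₂det : A₂.det ≠ 0 := by
    rw [Matrix.det_mul]
    refine mul_ne_zero ?_ hdet_S
    exact ((Matrix.isUnit_iff_isUnit_det _).mp A₁.isUnit).ne_zero
  let e : Fin 3 → K := fun s => d s * a s ^ 2
  have hA₂ : A₂ᵀ * M₀ * A₂ = Matrix.diagonal e := by
    simp only [A₂, Matrix.transpose_mul, Matrix.diagonal_transpose]
    calc Matrix.diagonal a * (A₁ : Matrix (Fin 3) (Fin 3) K)ᵀ * M₀ * ((A₁ : Matrix (Fin 3) (Fin 3) K) * Matrix.diagonal a)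
        = Matrix.diagonal a * ((A₁ : Matrix (Fin 3) (Fin 3) K)ᵀ * M₀ * A₁) * Matrix.diagonal a := by
          simp only [Matrix.mul_assoc]
      _ = Matrix.diagonal e := by
          rw [hA, Matrix.diagonal_mul_diagonal, Matrix.diagonal_mul_diagonal]
          congr 1
          ext s
          simp only [e]
          ring
  have key : ∀ (E : Matrix (Fin 3) (Fin 3) K) (c : K), Eᵀ * Matrix.diagonal e * E = c • 1 → E.det ≠ 0 → c ≠ 0 →
      ∃ (A₀ : GL (Fin 3) K) (c : K), c ≠ 0 ∧ (A₀ : Matrix (Fin 3) (Fin 3) K)ᵀ * M₀ * A₀ = c • 1 := by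
    intro E c hE hEd hc
    have hdet : (A₂ * E).det ≠ 0 := by
      rw [Matrix.det_mul]
      exact mul_ne_zero hA₂det hEd
    refine ⟨Matrix.GeneralLinearGroup.mkOfDetNeZero (A₂ * E) hdet, c, hc, ?_⟩
    show (A₂ * E)ᵀ * M₀ * (A₂ * E) = c • 1
    rw [← hE, ← hA₂, Matrix.transpose_mul]
    simp only [Matrix.mul_assoc]
  have e0 := ha 0
  have e1 := ha 1
  have e2 := ha 2
  have hc4 : (4 : K) ≠ 0 := by
    have : (4 : K) = 2 * 2 := by norm_num
    rw [this]
    exact mul_ne_zero h20 h20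
  have hv : ∀ s, e s = d s * a s ^ 2 := fun s => rfl
  rcases e0 with e0 | e0 <;> rcases e1 with e1 | e1 <;> rcases e2 with e2 | e2
  · refine key 1 1 ?_ (by simp) one_ne_zero
    ext r s
    fin_cases r <;> fin_cases s <;> simp [hv, e0, e1, e2]
  · refine key !![1, 1, 0; 1, -1, 0; 0, 0, 1] 2 ?_ ?_ h20
    · ext r s
      fin_cases r <;> fin_cases s <;> simp [Matrix.mul_apply, Fin.sum_univ_three, hv, e0, e1, e2] <;> norm_num
    · rw [Matrix.det_fin_three]
      simp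
      intro h
      exact h20 (by linear_combination -h)
  · refine key !![1, 0, 1; 0, 1, 0; 1, 0, -1] 2 ?_ ?_ h20
    · ext r s
      fin_cases r <;> fin_cases s <;> simp [Matrix.mul_apply, Fin.sum_univ_three, hv, e0, e1, e2] <;> norm_num
    · rw [Matrix.det_fin_three]
      simp
      intro h
      exact h20 (by linear_combination -h)
  · refine key !![2, 0, 0; 0, 1, 1; 0, 1, -1] 4 ?_ ?_ hc4
    · ext r s
      fin_cases r <;> fin_cases s <;> simp [Matrix.mul_apply, Fin.sum_univ_three, hv, e0, e1, e2] <;> norm_num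
    · rw [Matrix.det_fin_three]
      simp
      intro h
      exact hc4 (by linear_combination -h)
  · refine key !![1, 0, 0; 0, 1, 1; 0, 1, -1] 2 ?_ ?_ h20
    · ext r s
      fin_cases r <;> fin_cases s <;> simp [Matrix.mul_apply, Fin.sum_univ_three, hv, e0, e1, e2] <;> norm_num
    · rw [Matrix.det_fin_three]
      simp
      intro h
      exact h20 (by linear_combination -h)
  · refine key !![1, 0, 1; 0, 2, 0; 1, 0, -1] 4 ?_ ?_ hc4
    · ext r s
      fin_cases r <;> fin_cases s <;> simp [Matrix.mul_apply, Fin.sum_univ_three, hv, e0, e1, e2] <;> norm_num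
    · rw [Matrix.det_fin_three]
      simp
      intro h
      exact hc4 (by linear_combination -h)
  · refine key !![1, 1, 0; 1, -1, 0; 0, 0, 2] 4 ?_ ?_ hc4
    · ext r s
      fin_cases r <;> fin_cases s <;> simp [Matrix.mul_apply, Fin.sum_univ_three, hv, e0, e1, e2] <;> norm_num
    · rw [Matrix.det_fin_three]
      simp
      intro h
      exact hc4 (by linear_combination -h)
  · refine key 1 2 ?_ (by simp) h20
    ext r s
    fin_cases r <;> fin_cases s <;> simp [hv, e0, e1, e2]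

/-- Symmetric nondegenerate forms in dimension three over the small fields are similar to the sum of squares. -/
theorem exists_similar (hK : Fintype.card K = 3 ∨ Fintype.card K = 5) (M₀ : Matrix (Fin 3) (Fin 3) K) (hs : M₀ᵀ = M₀) (hd : M₀.det ≠ 0) :
    ∃ (A₀ : GL (Fin 3) K) (c : K), c ≠ 0 ∧ (A₀ : Matrix (Fin 3) (Fin 3) K)ᵀ * M₀ * A₀ = c • 1 := by
  classical
  letI : Invertible (2 : K) := invertibleOfNonzero (two_ne hK)
  let B : LinearMap.BilinForm K (Fin 3 → K) := Matrix.toBilin' M₀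
  have hB : ∀ x y, B x y = x ⬝ᵥ M₀ *ᵥ y := fun x y => Matrix.toBilin'_apply' M₀ x y
  have hsym : LinearMap.BilinForm.IsSymm B := by
    refine ⟨fun x y => ?_⟩
    rw [hB, hB, Matrix.dotProduct_mulVec, dotProduct_comm, ← Matrix.mulVec_transpose, hs]
  obtain ⟨v, hv⟩ := LinearMap.BilinForm.exists_orthogonal_basis (LinearMap.BilinForm.isSymm_iff.mp hsym)
  have hn : Module.finrank K (Fin 3 → K) = 3 := by simp
  let v' : Module.Basis (Fin 3) K (Fin 3 → K) := v.reindex (finCongr hn)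
  have hv'o : ∀ r s, r ≠ s → B (v' r) (v' s) = 0 := by
    intro r s hrs
    have h1 : (finCongr hn).symm r ≠ (finCongr hn).symm s := fun h => hrs ((finCongr hn).symm.injective h)
    have h2 := hv h1
    simpa [v'] using h2
  let Am : Matrix (Fin 3) (Fin 3) K := Matrix.of fun i s => v' s i
  have hAm : IsUnit Am := by
    rw [← Matrix.linearIndependent_cols_iff_isUnit]
    exact v'.linearIndependent
  have hAmdet : Am.det ≠ 0 := ((Matrix.isUnit_iff_isUnit_det _).mp hAm).ne_zero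
  have hG : Amᵀ * M₀ * Am = Matrix.diagonal (fun s => B (v' s) (v' s)) := by
    ext r s
    have h1 : (Amᵀ * M₀ * Am) r s = B (v' r) (v' s) := by
      rw [hB, Matrix.mul_assoc]
      rfl
    rw [h1]
    by_cases hrs : r = s
    · subst hrs
      simp
    · rw [hv'o r s hrs]
      simp [hrs]
  have hd' : ∀ s, B (v' s) (v' s) ≠ 0 := by
    intro s hs0
    have h2 := congrArg Matrix.det hG
    rw [Matrix.det_mul, Matrix.det_mul, Matrix.det_transpose, Matrix.det_diagonal, Finset.prod_eq_zero (Finset.mem_univ s) hs0] at h2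
    exact mul_ne_zero (mul_ne_zero hAmdet hd) hAmdet h2
  exact diag_to_scalar hK M₀ (Matrix.GeneralLinearGroup.mkOfDetNeZero Am hAmdet) _ hd' hG

end Sim

section Orth

variable {F : Type*} [Field F] [Fintype F] {q : ℕ}

theorem fixed_of_mem {F₀ : Subfield F} (hF₀ : Nat.card F₀ = q) {x : F} (hx : x ∈ F₀) : x ^ q = x := by
  classical
  haveI : Fintype F₀ := Fintype.ofFinite _
  have h := FiniteField.pow_card (⟨x, hx⟩ : F₀)
  rw [Fintype.card_eq_nat_card, hF₀] at h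
  exact congrArg Subtype.val h

theorem sgv_single (hF : Fintype.card F = q ^ 2) (j : Fin 3) : sgv q (Pi.single j 1 : Fin 3 → F) = Pi.single j 1 := by
  have hq : q ≠ 0 := by
    have := Cfsg.Agent.Lib.FFNorm.two_le hF
    omega
  ext k
  by_cases hk : k = j
  · subst hk
    simp [sgv]
  · simp [sgv, hk, hq]

theorem sg_smul (hF : Fintype.card F = q ^ 2) (a : F) (X : Matrix (Fin 3) (Fin 3) F) : sg hF (a • X) = a ^ q • sg hF X := by
  ext r s
  simp [sg_apply, mul_pow]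

/-- Coordinates in which an index-two rational structure is the standard one, up to scalars. -/
theorem exists_U_orth (hq : q = 3 ∨ q = 5) (hF : Fintype.card F = q ^ 2) {F₀ : Subfield F}
    (hF₀ : Fintype.card F = Nat.card F₀ ^ 2) {P : GL (Fin 3) F}
    (hP : IsFormRationalStructure (hermForm 3 F q) F₀ 1 P) :
    ∃ U : GL (Fin 3) F, U ∈ GU 3 F q ∧ ∀ m : GL (Fin 3) F, U * m * U⁻¹ ∈ subfieldSubgroup F₀ P →
      ∃ (l : F) (g : GL (Fin 3) F₀), l ≠ 0 ∧
        (m : Matrix (Fin 3) (Fin 3) F) = l • (F₀.subtype).mapMatrix (g : Matrix (Fin 3) (Fin 3) F₀) := by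
  classical
  have hc0 : Nat.card F₀ = q := by
    have h1 : Nat.card F₀ ^ 2 = q ^ 2 := by rw [← hF₀, hF]
    exact Nat.pow_left_injective (n := 2) (by norm_num) h1
  haveI : Fintype F₀ := Fintype.ofFinite _
  have hcard : Fintype.card F₀ = 3 ∨ Fintype.card F₀ = 5 := by
    rw [Fintype.card_eq_nat_card, hc0]
    exact hq
  have hfix : ∀ {x : F}, x ∈ F₀ → x ^ q = x := fun hx => fixed_of_mem hc0 hx
  obtain ⟨Pm, hPm⟩ : ∃ Pm : Matrix (Fin 3) (Fin 3) F, Pm = P := ⟨_, rfl⟩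
  obtain ⟨Mg, hMg⟩ : ∃ Mg : Matrix (Fin 3) (Fin 3) F, Mg = Pmᵀ * sg hF Pm := ⟨_, rfl⟩
  have hMent : ∀ r s, Mg r s ∈ F₀ := by
    intro r s
    have h0 : ∀ j (t : Fin 3), (Pi.single j 1 : Fin 3 → F) t ∈ F₀ := by
      intro j t
      by_cases hk : t = j
      · subst hk
        simpa using F₀.one_mem
      · simpa [hk] using F₀.zero_mem
    have h1 := hP (Pi.single r 1) (Pi.single s 1) (h0 r) (h0 s)
    rw [one_mul, herm_mulVec hF, sgv_single hF, single_one_dotProduct, Matrix.mulVec_single_one, ← hPm, ← hMg] at h1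
    exact h1
  let M₀ : Matrix (Fin 3) (Fin 3) F₀ := fun r s => ⟨Mg r s, hMent r s⟩
  have hM₀ : (F₀.subtype).mapMatrix M₀ = Mg := rfl
  have hMsym : Mgᵀ = Mg := by
    have h1 : Mgᵀ = sg hF Mg := by
      rw [hMg, Matrix.transpose_mul, Matrix.transpose_transpose, map_mul, sg_transpose, sg_sg hF]
    rw [h1]
    ext r s
    rw [sg_apply]
    exact hfix (hMent r s)
  have hs : M₀ᵀ = M₀ := by
    ext r s
    exact congrFun (congrFun hMsym r) s
  have hPd : Pm.det ≠ 0 := by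
    rw [hPm]
    exact ((Matrix.isUnit_iff_isUnit_det _).mp P.isUnit).ne_zero
  have hMd : Mg.det ≠ 0 := by
    rw [hMg, Matrix.det_mul, Matrix.det_transpose]
    refine mul_ne_zero hPd ?_
    have h2 : (sg hF Pm).det = Pm.det ^ q := by
      have := RingHom.map_det (frobQ hF) Pm
      simpa [sg, Matrix.map] using this.symm
    rw [h2]
    exact pow_ne_zero _ hPd
  have hd : M₀.det ≠ 0 := by
    intro h0
    apply hMd
    rw [← hM₀, ← RingHom.map_det, h0, map_zero]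
  obtain ⟨A₀, c, hc, hA⟩ := exists_similar hcard M₀ hs hd
  obtain ⟨Am, hAm⟩ : ∃ Am : Matrix (Fin 3) (Fin 3) F, Am = (F₀.subtype).mapMatrix (A₀ : Matrix (Fin 3) (Fin 3) F₀) := ⟨_, rfl⟩
  have hsgA : sg hF Am = Am := by
    ext r s
    rw [sg_apply, hAm]
    exact hfix (A₀.val r s).2
  have hA' : Amᵀ * Mg * Am = (c : F) • 1 := by
    have h1 := congrArg (F₀.subtype).mapMatrix hA
    rw [map_mul, map_mul, hM₀, ← hAm] at h1
    have h2 : (F₀.subtype).mapMatrix ((A₀ : Matrix (Fin 3) (Fin 3) F₀)ᵀ) = Amᵀ := by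
      rw [hAm]
      rfl
    rw [h2] at h1
    rw [h1]
    ext r s
    by_cases hrs : r = s
    · subst hrs
      simp
    · simp [hrs]
  have hcF : (c : F) ≠ 0 := by
    intro h0
    exact hc (Subtype.ext h0)
  obtain ⟨a, ha0, ha⟩ := exists_norm_eq hF (inv_ne_zero hcF) (by rw [inv_pow, hfix c.2])
  obtain ⟨Um, hUm⟩ : ∃ Um : Matrix (Fin 3) (Fin 3) F, Um = a • (Pm * Am) := ⟨_, rfl⟩
  have hUn : Umᵀ * sg hF Um = 1 := by
    rw [hUm, sg_smul, Matrix.transpose_smul, map_mul, hsgA, Matrix.transpose_mul, Matrix.smul_mul, Matrix.mul_smul, smul_smul]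
    have h1 : Amᵀ * Pmᵀ * (sg hF Pm * Am) = Amᵀ * Mg * Am := by
      rw [hMg]
      simp only [Matrix.mul_assoc]
    rw [h1, hA', smul_smul]
    have h2 : a * a ^ q * (c : F) = 1 := by
      have h3 : a * a ^ q = (c : F)⁻¹ := by rw [← ha]; ring
      rw [h3, inv_mul_cancel₀ hcF]
    rw [h2, one_smul]
  refine ⟨mkU hF Um hUn, mkU_mem hF Um hUn, fun m hm => ?_⟩
  obtain ⟨y, hy, hyt⟩ := hm
  have hy' : y ∈ ((((Matrix.GeneralLinearGroup.map (F₀.subtype : F₀ →+* F)).range ⊔ scalars (Fin 3) F : Subgroup _)) : Set _) := hy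
  rw [Subgroup.mul_normal] at hy'
  obtain ⟨r, hr, s, hs', hrs⟩ := Set.mem_mul.mp hy'
  obtain ⟨G₀, rfl⟩ := hr
  obtain ⟨d, hd'⟩ := (mem_scalars_iff s).mp hs'
  have hyt' : P * y * P⁻¹ = mkU hF Um hUn * m * (mkU hF Um hUn)⁻¹ := hyt
  have hAu : Am * (F₀.subtype).mapMatrix ((A₀⁻¹ : GL (Fin 3) F₀) : Matrix (Fin 3) (Fin 3) F₀) = 1 := by
    rw [hAm, ← map_mul, ← Units.val_mul, mul_inv_cancel, Units.val_one, map_one]
  have hAu' : (F₀.subtype).mapMatrix ((A₀⁻¹ : GL (Fin 3) F₀) : Matrix (Fin 3) (Fin 3) F₀) * Am = 1 := by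
    rw [hAm, ← map_mul, ← Units.val_mul, inv_mul_cancel, Units.val_one, map_one]
  refine ⟨(d : F), A₀⁻¹ * G₀ * A₀, d.ne_zero, ?_⟩
  have hym : (y : Matrix (Fin 3) (Fin 3) F) = (F₀.subtype).mapMatrix (G₀ : Matrix (Fin 3) (Fin 3) F₀) * ((d : F) • 1) := by
    rw [← hrs, Units.val_mul, hd']
    rfl
  -- cancel
  have e1 : P * y = mkU hF Um hUn * m * (mkU hF Um hUn)⁻¹ * P := by
    rw [← hyt']
    group
  have e2 : (mkU hF Um hUn)⁻¹ * P * y = m * (mkU hF Um hUn)⁻¹ * P := by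
    calc (mkU hF Um hUn)⁻¹ * P * y = (mkU hF Um hUn)⁻¹ * (P * y) := by group
      _ = (mkU hF Um hUn)⁻¹ * (mkU hF Um hUn * m * (mkU hF Um hUn)⁻¹ * P) := by rw [e1]
      _ = _ := by group
  -- matrix form of `U⁻¹ P`
  obtain ⟨Q, hQ⟩ : ∃ Q, Q = (mkU hF Um hUn)⁻¹ * P := ⟨_, rfl⟩
  have e3 : Q * y = m * Q := by
    rw [hQ, e2]
    group
  have hQm : (Q : Matrix (Fin 3) (Fin 3) F) = a⁻¹ • (F₀.subtype).mapMatrix ((A₀⁻¹ : GL (Fin 3) F₀) : Matrix (Fin 3) (Fin 3) F₀) := by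
    have h1 : (mkU hF Um hUn : Matrix (Fin 3) (Fin 3) F) * (a⁻¹ • (F₀.subtype).mapMatrix ((A₀⁻¹ : GL (Fin 3) F₀) : Matrix (Fin 3) (Fin 3) F₀)) = P := by
      rw [mkU_val, hUm, Matrix.mul_smul, Matrix.smul_mul, smul_smul, inv_mul_cancel₀ ha0, one_smul, Matrix.mul_assoc, hAu, Matrix.mul_one, hPm]
    have h2 : mkU hF Um hUn * Q = P := by
      rw [hQ]
      group
    have h3 : ((mkU hF Um hUn * Q : GL (Fin 3) F) : Matrix (Fin 3) (Fin 3) F) = (mkU hF Um hUn : Matrix (Fin 3) (Fin 3) F) * (a⁻¹ • (F₀.subtype).mapMatrix ((A₀⁻¹ : GL (Fin 3) F₀) : Matrix (Fin 3) (Fin 3) F₀)) := by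
      rw [h2, h1]
    rw [Units.val_mul] at h3
    exact (mkU hF Um hUn).isUnit.mul_left_cancel h3
  have e4 : (Q : Matrix (Fin 3) (Fin 3) F) * y = m * (Q : Matrix (Fin 3) (Fin 3) F) := by
    rw [← Units.val_mul, e3, Units.val_mul]
  rw [hQm] at e4
  obtain ⟨Ai, hAi⟩ : ∃ Ai, Ai = (F₀.subtype).mapMatrix ((A₀⁻¹ : GL (Fin 3) F₀) : Matrix (Fin 3) (Fin 3) F₀) := ⟨_, rfl⟩
  rw [← hAi] at e4 hAu'
  have e6 : (F₀.subtype).mapMatrix (((A₀⁻¹ * G₀ * A₀ : GL (Fin 3) F₀)) : Matrix (Fin 3) (Fin 3) F₀) =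
      Ai * (F₀.subtype).mapMatrix (G₀ : Matrix (Fin 3) (Fin 3) F₀) * Am := by
    rw [Units.val_mul, Units.val_mul, map_mul, map_mul, ← hAi, ← hAm]
  rw [e6]
  calc (m : Matrix (Fin 3) (Fin 3) F) = m * ((a⁻¹ • Ai) * (a • Am)) := by
        have h1 : (a⁻¹ • Ai) * (a • Am) = 1 := by
          rw [Matrix.mul_smul, Matrix.smul_mul, smul_smul, mul_inv_cancel₀ ha0, one_smul, hAu']
        rw [h1, Matrix.mul_one]
    _ = (m * (a⁻¹ • Ai)) * (a • Am) := (Matrix.mul_assoc _ _ _).symm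
    _ = ((a⁻¹ • Ai) * y) * (a • Am) := by rw [← e4]
    _ = _ := by
        rw [hym]
        simp only [Matrix.smul_mul, Matrix.mul_smul, Matrix.mul_one, smul_smul]
        congr 1
        field_simp

/-- The scalar of a similarity. -/
theorem orth_facts {F₀ : Subfield F} (hc0 : Nat.card F₀ = q) (hF : Fintype.card F = q ^ 2)
    {m : Matrix (Fin 3) (Fin 3) F} {l : F} {g : GL (Fin 3) F₀} (hl : l ≠ 0)
    {Gm : Matrix (Fin 3) (Fin 3) F} (hGm : Gm = (F₀.subtype).mapMatrix (g : Matrix (Fin 3) (Fin 3) F₀))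
    (hm : m = l • Gm) (hU : mᵀ * sg hF m = 1) (hd : m.det = 1) :
    sg hF Gm = Gm ∧ ∃ μ : F, μ ∈ F₀ ∧ μ ≠ 0 ∧ l ^ (q + 1) * μ = 1 ∧ Gmᵀ * Gm = μ • 1 ∧ l ^ 6 * μ ^ 3 = 1 ∧
      Gm.det ^ 2 = μ ^ 3 ∧ Gm.det ∈ F₀ ∧ Gm.det ≠ 0 := by
  classical
  have hfix : ∀ {x : F}, x ∈ F₀ → x ^ q = x := fun hx => fixed_of_mem hc0 hx
  have hsg : sg hF Gm = Gm := by
    ext r s
    rw [sg_apply, hGm]
    exact hfix (g.val r s).2
  refine ⟨hsg, ?_⟩
  have hlq : l ^ (q + 1) ≠ 0 := pow_ne_zero _ hl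
  have h1 : l ^ (q + 1) • (Gmᵀ * Gm) = 1 := by
    rw [hm, sg_smul, hsg, Matrix.transpose_smul, Matrix.smul_mul, Matrix.mul_smul, smul_smul] at hU
    rw [← hU]
    congr 1
    ring
  have h2 : Gmᵀ * Gm = (l ^ (q + 1))⁻¹ • 1 := by
    rw [← h1, smul_smul, inv_mul_cancel₀ hlq, one_smul]
  have hdG : Gm.det = ((g : Matrix (Fin 3) (Fin 3) F₀).det : F) := by
    rw [hGm]
    exact (RingHom.map_det F₀.subtype _).symm
  have hd0 : Gm.det ≠ 0 := by
    intro h0
    rw [hm, Matrix.det_smul, h0, mul_zero] at hd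
    exact zero_ne_one hd
  have hdet2 : Gm.det ^ 2 = ((l ^ (q + 1))⁻¹) ^ 3 := by
    have h3 := congrArg Matrix.det h2
    rw [Matrix.det_mul, Matrix.det_transpose, Matrix.det_smul, Matrix.det_one, mul_one] at h3
    simpa [sq] using h3
  refine ⟨(l ^ (q + 1))⁻¹, ?_, inv_ne_zero hlq, mul_inv_cancel₀ hlq, h2, ?_, hdet2, ?_, hd0⟩
  · have h4 := congrFun (congrFun h2 0) 0
    simp only [Matrix.smul_apply, Matrix.one_apply_eq, smul_eq_mul, mul_one] at h4
    rw [← h4, Matrix.mul_apply]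
    refine F₀.sum_mem fun t _ => F₀.mul_mem ?_ ?_
    · rw [Matrix.transpose_apply, hGm]
      exact (g.val t 0).2
    · rw [hGm]
      exact (g.val t 0).2
  · have h5 : l ^ 3 * Gm.det = 1 := by
      have h6 := hd
      rw [hm, Matrix.det_smul] at h6
      simpa using h6
    rw [← hdet2]
    calc l ^ 6 * Gm.det ^ 2 = (l ^ 3 * Gm.det) ^ 2 := by ring
      _ = 1 := by rw [h5]; ring
  · rw [hdG]
    exact SetLike.coe_mem _

end Orth

section Five

open Cfsg.Agent.SU3X5 Cfsg.Agent.SU3R5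

variable {F : Type*} [Field F] [Fintype F] {i : F}

/-- The quadratic form. -/
def qq (v : Fin 3 → F) : F := v ⬝ᵥ v

/-- The set of points, in orthogonal invariants. -/
def Xo (v : Fin 3 → F) : Prop :=
  hh v ≠ 0 ∧ (qq v = 0 ∨ qq v ^ 3 = 2 * hh v ∨ qq v ^ 3 = 4 * hh v ∨ (qq v ^ 3 = hh v ∧ ∃ c : F, sgv 5 v = c • v))

theorem qc_val (C : Cx 5 i) (u : V3) : qq (toV 5 i u) = val 5 i (qc u) := by
  simp [qq, qc, toV, dotProduct, C.val_add, C.val_mul, Fin.sum_univ_three]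

theorem q3c_val (C : Cx 5 i) (u : V3) : qq (toV 5 i u) ^ 3 = val 5 i (q3c u) := by
  rw [q3c, C.val_mul, C.val_mul, qc_val C]
  ring

theorem cjV_val (hF : Fintype.card F = 5 ^ 2) (C : Cx 5 i) (u : V3) : sgv 5 (toV 5 i u) = toV 5 i (cjV u) := by
  ext j
  fin_cases j <;> simp [sgv, toV, cjV, C.val_cj hF]

theorem ratc_iff (hF : Fintype.card F = 5 ^ 2) (C : Cx 5 i) (u : V3) :
    (∃ c : F, sgv 5 (toV 5 i u) = c • toV 5 i u) ↔ ratc u = true := by
  have hlt2 : ∀ a b, fmul 5 a b < 25 := fun a b => C.fmul_lt a b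
  have hlt3 : ∀ a, fcj 5 a < 25 := fun a => C.fcj_lt a
  unfold ratc
  rw [List.any_eq_true]
  constructor
  · rintro ⟨c, hc⟩
    obtain ⟨n, hn, rfl⟩ := C.exists_code hF c
    refine ⟨n, List.mem_range.mpr hn, ?_⟩
    rw [cjV_val hF C, C.smul_toV] at hc
    rw [decide_eq_true_eq]
    exact toV_inj5 C (hlt3 _) (hlt3 _) (hlt3 _) (hlt2 _ _) (hlt2 _ _) (hlt2 _ _) hc
  · rintro ⟨n, -, hn⟩
    rw [decide_eq_true_eq] at hn
    refine ⟨val 5 i n, ?_⟩
    rw [cjV_val hF C, C.smul_toV, hn]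

theorem Xo_iff (hF : Fintype.card F = 5 ^ 2) (C : Cx 5 i) (u : V3) : Xo (toV 5 i u) ↔ xo u = true := by
  have hlt1 : ∀ a b, fadd 5 a b < 25 := fun a b => C.fadd_lt a b
  have hlt2 : ∀ a b, fmul 5 a b < 25 := fun a b => C.fmul_lt a b
  have e4 : 2 * (hh (toV 5 i u)) = val 5 i (fmul 5 2 (hc u)) := by
    rw [C.val_mul, hc_val hF C, val2 C]
  have e5 : 4 * (hh (toV 5 i u)) = val 5 i (fmul 5 4 (hc u)) := by
    rw [C.val_mul, hc_val hF C, val4 C]
  unfold Xo xo xoAux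
  rw [ratc_iff hF C, e4, e5, q3c_val C, qc_val C, hc_val hF C]
  have hh1 : hc u < 25 := hlt1 _ _
  have hq1 : qc u < 25 := hlt1 _ _
  have hq3 : q3c u < 25 := hlt2 _ _
  rw [Ne, val_eq_zero_iff C hh1, val_eq_zero_iff C hq1, val_eq_iff C hq3 (hlt2 _ _), val_eq_iff C hq3 (hlt2 _ _), val_eq_iff C hq3 hh1]
  simp only [Bool.and_eq_true, Bool.or_eq_true, decide_eq_true_eq, or_assoc]

/-- The set of points is invariant under similarities of determinant one. -/
theorem Xo_orth (hF : Fintype.card F = 5 ^ 2) {m Gm : Matrix (Fin 3) (Fin 3) F} {l μ : F} (hl : l ≠ 0) (hm : m = l • Gm)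
    (hU : mᵀ * sg hF m = 1) (hsg : sg hF Gm = Gm) (hG : Gmᵀ * Gm = μ • 1) (h6 : l ^ 6 * μ ^ 3 = 1) {v : Fin 3 → F} (hv : Xo v) :
    Xo (m *ᵥ v) := by
  have hh' : hh (m *ᵥ v) = hh v := (pres_iff hF m).mpr hU v v
  have hq' : qq (m *ᵥ v) = l ^ 2 * μ * qq v := by
    unfold qq
    have h : (Gm *ᵥ v) ⬝ᵥ (Gm *ᵥ v) = μ * (v ⬝ᵥ v) := by
      have h0 : (Gm *ᵥ v) ⬝ᵥ (Gm *ᵥ v) = (v ᵥ* Gmᵀ) ⬝ᵥ (Gm *ᵥ v) := by rw [Matrix.vecMul_transpose]
      rw [h0, ← Matrix.dotProduct_mulVec, Matrix.mulVec_mulVec, hG, Matrix.smul_mulVec, Matrix.one_mulVec, dotProduct_smul, smul_eq_mul]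
    rw [hm, Matrix.smul_mulVec, smul_dotProduct, dotProduct_smul, h, smul_eq_mul, smul_eq_mul]
    ring
  have hq3 : qq (m *ᵥ v) ^ 3 = qq v ^ 3 := by
    rw [hq']
    calc (l ^ 2 * μ * qq v) ^ 3 = (l ^ 6 * μ ^ 3) * qq v ^ 3 := by ring
      _ = _ := by rw [h6, one_mul]
  unfold Xo
  rw [hq3, hh']
  obtain ⟨h1, h2⟩ := hv
  refine ⟨h1, ?_⟩
  rcases h2 with h2 | h2 | h2 | ⟨h2, c, hc⟩
  · left
    rw [hq', h2, mul_zero]
  · exact Or.inr (Or.inl h2)
  · exact Or.inr (Or.inr (Or.inl h2))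
  · refine Or.inr (Or.inr (Or.inr ⟨h2, l ^ 5 * c * l⁻¹, ?_⟩))
    rw [sgv_mulVec hF, hc, hm, sg_smul, hsg, Matrix.smul_mulVec, Matrix.mulVec_smul, Matrix.smul_mulVec, smul_smul, smul_smul]
    congr 1
    field_simp

/-- The rational subgroups of index two in `SU₃(5)` are not maximal. -/
theorem no_orth5 (hF : Fintype.card F = 5 ^ 2) {F₀ : Subfield F} (hF₀ : Fintype.card F = Nat.card F₀ ^ 2) {P : GL (Fin 3) F}
    (hP : IsFormRationalStructure (hermForm 3 F 5) F₀ 1 P)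
    (hmax : IsMaximalIn (GU 3 F 5 ⊓ specialLinear (Fin 3) F) (subfieldSubgroup F₀ P ⊓ (GU 3 F 5 ⊓ specialLinear (Fin 3) F))) : False := by
  classical
  obtain ⟨i, C⟩ := exists_cx (p := 5) (Or.inr rfl) hF
  have hc0 : Nat.card F₀ = 5 := by
    have h1 : Nat.card F₀ ^ 2 = 5 ^ 2 := by rw [← hF₀, hF]
    exact Nat.pow_left_injective (n := 2) (by norm_num) h1
  obtain ⟨U, hU, hUs⟩ := exists_U_orth (Or.inr rfl) hF hF₀ hP
  have hmax' := max_conj hmax U (conj_mem_iff hU)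
  refine no_max hmax' {v | Xo v} ?_ (C.toG_mem hF gD gD_U) ?_ ?_ (C.toG_mem hF gT gT_U) ?_
  · intro m hm x hx
    have hmG := hmax'.1.le hm
    obtain ⟨l, g, hl, hlg⟩ := hUs m hm.1
    obtain ⟨Gm, hGm⟩ : ∃ Gm, Gm = (F₀.subtype).mapMatrix (g : Matrix (Fin 3) (Fin 3) F₀) := ⟨_, rfl⟩
    rw [← hGm] at hlg
    have hmU := (mem_GU_iff hF m).mp hmG.1
    have hmd := (mem_sl_iff m).mp hmG.2
    obtain ⟨hsg, μ, -, -, -, hG, h6, -⟩ := orth_facts hc0 hF hl hGm hlg hmU hmd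
    exact Xo_orth hF hl hlg hmU hsg hG h6 hx
  · intro x hx
    obtain ⟨u, h1, h2, h3, rfl⟩ := C.exists_vec hF x
    have h4 : xo u = true := (Xo_iff hF C u).mp hx
    have h5 := allV_spec xo_gD h1 h2 h3
    rw [h4] at h5
    simp only [Bool.not_true, Bool.false_or] at h5
    show Xo (toM 5 i gD *ᵥ toV 5 i u)
    rw [C.toM_mulVec]
    exact (Xo_iff hF C _).mpr h5
  · intro hm
    obtain ⟨l, g, hl, hlg⟩ := hUs _ hm.1
    rw [Cx.toG_val] at hlg
    have e0 := congrFun (congrFun hlg 0) 0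
    have e2 := congrFun (congrFun hlg 2) 2
    have v2 : toM 5 i gD 2 2 = 1 := by
      simp only [toM, gD]
      simp
      exact C.val_one
    rw [v2] at e2
    simp only [Matrix.smul_apply, smul_eq_mul] at e0 e2
    have hg2 : (F₀.subtype).mapMatrix (g : Matrix (Fin 3) (Fin 3) F₀) 2 2 ∈ F₀ := (g.val 2 2).2
    have hg0 : (F₀.subtype).mapMatrix (g : Matrix (Fin 3) (Fin 3) F₀) 0 0 ∈ F₀ := (g.val 0 0).2
    obtain ⟨a, ha⟩ : ∃ a, a = (F₀.subtype).mapMatrix (g : Matrix (Fin 3) (Fin 3) F₀) 2 2 := ⟨_, rfl⟩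
    obtain ⟨b, hb⟩ : ∃ b, b = (F₀.subtype).mapMatrix (g : Matrix (Fin 3) (Fin 3) F₀) 0 0 := ⟨_, rfl⟩
    rw [← ha] at e2 hg2
    rw [← hb] at e0 hg0
    have ha0 : a ≠ 0 := by
      rintro rfl
      rw [mul_zero] at e2
      exact one_ne_zero e2
    have hl' : l = a⁻¹ := eq_inv_of_mul_eq_one_left e2.symm
    have hmemb : toM 5 i gD 0 0 ∈ F₀ := by
      rw [e0, hl']
      exact F₀.mul_mem (F₀.inv_mem hg2) hg0
    have hfx := fixed_of_mem hc0 hmemb
    have v0 : toM 5 i gD 0 0 = val 5 i 18 := by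
      simp only [toM, gD]
      simp
    rw [v0, ← C.val_cj hF] at hfx
    have h18 := C.val_inj (C.fcj_lt 18) (by norm_num) hfx
    exact absurd h18 (by decide)
  · intro hall
    have h1 : Xo (toV 5 i u₁) := (Xo_iff hF C u₁).mpr xo_u₁
    have h2 := hall _ h1
    simp only [Cx.toG_val, C.toM_mulVec] at h2
    rw [Set.mem_setOf_eq, Xo_iff hF C, xo_gT] at h2
    exact absurd h2 (by decide)

end Five

section Three

variable {F : Type*} [Field F] [Fintype F]

/-- Over the field with three elements, orthonormal vectors have exactly one nonzero coordinate. -/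
theorem col_mono {F₀ : Subfield F} (hc0 : Nat.card F₀ = 3) {a b c : F} (ha : a ∈ F₀) (hb : b ∈ F₀) (hc : c ∈ F₀)
    (h3 : (3 : F) = 0) (h : a * a + b * b + c * c = 1) : (b = 0 ∧ c = 0) ∨ (a = 0 ∧ c = 0) ∨ (a = 0 ∧ b = 0) := by
  have key : ∀ {x : F}, x ∈ F₀ → x = 0 ∨ x * x = 1 := by
    intro x hx
    have h1 := fixed_of_mem hc0 hx
    by_cases h0 : x = 0
    · exact Or.inl h0
    · right
      apply mul_left_cancel₀ h0
      linear_combination h1
  have h10 : (1 : F) ≠ 0 := one_ne_zero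
  rcases key ha with ha' | ha' <;> rcases key hb with hb' | hb' <;> rcases key hc with hc' | hc'
  · subst ha' hb' hc'
    simp at h
  · subst ha' hb'
    exact Or.inr (Or.inr ⟨rfl, rfl⟩)
  · subst ha' hc'
    exact Or.inr (Or.inl ⟨rfl, rfl⟩)
  · subst ha'
    exfalso
    apply h10
    linear_combination h - hb' - hc'
  · subst hb' hc'
    exact Or.inl ⟨rfl, rfl⟩
  · subst hb'
    exfalso
    apply h10
    linear_combination h - ha' - hc'
  · subst hc'
    exfalso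
    apply h10
    linear_combination h - ha' - hb'
  · exfalso
    apply h10
    linear_combination h3 - h + ha' + hb' + hc'

/-- Index-two rational subgroups of `SU₃(3)` are frame stabilisers. -/
theorem orth3 (hF : Fintype.card F = 3 ^ 2) {F₀ : Subfield F} (hF₀ : Fintype.card F = Nat.card F₀ ^ 2) {P : GL (Fin 3) F}
    (hP : IsFormRationalStructure (hermForm 3 F 3) F₀ 1 P) {H : Subgroup (GL (Fin 3) F)}
    (hmax : IsMaximalIn (GU 3 F 3 ⊓ specialLinear (Fin 3) F) H)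
    (hH : H = subfieldSubgroup F₀ P ⊓ (GU 3 F 3 ⊓ specialLinear (Fin 3) F)) :
    ∃ D : Fin 3 → Submodule F (Fin 3 → F), IsNondegenerateMDecomposition (hermForm 3 F 3) 1 D ∧
      H = decompositionStabilizer D ⊓ (GU 3 F 3 ⊓ specialLinear (Fin 3) F) := by
  classical
  have C := herm_ctx (n := 3) hF (by norm_num)
  have hc0 : Nat.card F₀ = 3 := by
    have h1 : Nat.card F₀ ^ 2 = 3 ^ 2 := by rw [← hF₀, hF]
    exact Nat.pow_left_injective (n := 2) (by norm_num) h1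
  obtain ⟨i, CC⟩ := exists_cx (p := 3) (Or.inl rfl) hF
  have h3 : (3 : F) = 0 := by exact_mod_cast CC.hz
  obtain ⟨U, hU, hUs⟩ := exists_U_orth (Or.inl rfl) hF hF₀ hP
  have hUU := (mem_GU_iff hF U).mp hU
  -- the basis
  have hUunit : IsUnit (U : Matrix (Fin 3) (Fin 3) F) := U.isUnit
  have hli : LinearIndependent F (U : Matrix (Fin 3) (Fin 3) F).col := Matrix.linearIndependent_cols_of_isUnit hUunit
  let b : Module.Basis (Fin 3) F (Fin 3 → F) :=
    basisOfLinearIndependentOfCardEqFinrank hli (by simp)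
  have hb : ∀ s, b s = (U : Matrix (Fin 3) (Fin 3) F) *ᵥ Pi.single s 1 := by
    intro s
    rw [Matrix.mulVec_single_one]
    simp [b]
  have hgram : ∀ r s, hermForm 3 F 3 (b r) (b s) = (1 : Matrix (Fin 3) (Fin 3) F) r s := by
    intro r s
    rw [hb, hb, herm_mulVec hF, hUU, Matrix.one_mulVec, sgv_single hF, single_one_dotProduct]
    by_cases hk : r = s
    · subst hk
      simp
    · have hk' : s ≠ r := Ne.symm hk
      simp [hk, hk']
  have horth : ∀ r s, r ≠ s → hermForm 3 F 3 (b r) (b s) = 0 := fun r s hrs => by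
    rw [hgram, Matrix.one_apply_ne hrs]
  have hd : ∀ s, hermForm 3 F 3 (b s) (b s) ≠ 0 := fun s => by
    rw [hgram, Matrix.one_apply_eq]
    exact one_ne_zero
  have hS := sesq_of_unitary C.unitary
  refine ⟨fun s => Submodule.span F {b s}, ⟨isMDecomposition_of_basis (by omega) b, ?_, ?_⟩, ?_⟩
  · intro s w hw hw0
    obtain ⟨c, rfl⟩ := Submodule.mem_span_singleton.mp hw
    have hc0 : c ≠ 0 := by
      rintro rfl
      exact hw0 (zero_smul _ _)
    refine ⟨⟨b s, Submodule.mem_span_singleton_self _, ?_⟩, ⟨b s, Submodule.mem_span_singleton_self _, ?_⟩⟩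
    · rw [hS.smul_right]
      exact mul_ne_zero ((map_ne_zero _).mpr hc0) (hd s)
    · rw [hS.smul_left]
      exact mul_ne_zero hc0 (hd s)
  · intro r s hrs u hu v hv
    obtain ⟨c, rfl⟩ := Submodule.mem_span_singleton.mp hu
    obtain ⟨d, rfl⟩ := Submodule.mem_span_singleton.mp hv
    rw [hS.smul_left, hS.smul_right, horth r s hrs]
    simp
  · refine maximal_eq' hmax (fun h hh => mem_decompositionStabilizer_of_basis b h ?_)
      (Cfsg.Agent.SU3Main.not_le_frame3 C (fun a _ => Cfsg.Agent.SU3Main.exists_fixed_ne C hF (fun _ => rfl) (by norm_num) a) b horth hd)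
    intro s
    rw [hH] at hh
    obtain ⟨hh1, hhG⟩ := hh
    -- the conjugate
    obtain ⟨m, hm⟩ : ∃ m, m = U⁻¹ * h * U := ⟨_, rfl⟩
    have hUm : U * m * U⁻¹ = h := by
      rw [hm]
      group
    have hmG : m ∈ GU 3 F 3 ⊓ specialLinear (Fin 3) F := by
      rw [conj_mem_iff hU, hUm]
      exact hhG
    obtain ⟨l, g, hl, hlg⟩ := hUs m (by rw [hUm]; exact hh1)
    obtain ⟨Gm, hGm⟩ : ∃ Gm, Gm = (F₀.subtype).mapMatrix (g : Matrix (Fin 3) (Fin 3) F₀) := ⟨_, rfl⟩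
    rw [← hGm] at hlg
    have hmU := (mem_GU_iff hF m).mp hmG.1
    have hmd := (mem_sl_iff m).mp hmG.2
    obtain ⟨hsg, μ, hμ, hμ0, -, hG, h6, hdet2, hdetm, hdet0⟩ := orth_facts hc0 hF hl hGm hlg hmU hmd
    have hsq : ∀ {x : F}, x ∈ F₀ → x ≠ 0 → x ^ 2 = 1 := by
      intro x hx hx0
      have h1 := fixed_of_mem hc0 hx
      apply mul_left_cancel₀ hx0
      linear_combination h1
    have hμ1 : μ = 1 := by
      have h1 := hsq hμ hμ0
      have h2 := hsq hdetm hdet0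
      rw [h2] at hdet2
      linear_combination -hdet2 - μ * h1
    rw [hμ1, one_smul] at hG
    have hcol := congrFun (congrFun hG s) s
    rw [Matrix.mul_apply, Fin.sum_univ_three, Matrix.one_apply_eq] at hcol
    simp only [Matrix.transpose_apply] at hcol
    have hent : ∀ r t, Gm r t ∈ F₀ := by
      intro r t
      rw [hGm]
      exact (g.val r t).2
    have hex : ∃ (r : Fin 3) (c : F), Gm *ᵥ Pi.single s 1 = c • Pi.single r 1 := by
      have hv : Gm *ᵥ Pi.single s 1 = fun t => Gm t s := Matrix.mulVec_single_one _ _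
      rcases col_mono hc0 (hent 0 s) (hent 1 s) (hent 2 s) h3 hcol with ⟨e1, e2⟩ | ⟨e1, e2⟩ | ⟨e1, e2⟩
      · refine ⟨0, Gm 0 s, ?_⟩
        rw [hv]
        ext t
        fin_cases t <;> simp [e1, e2]
      · refine ⟨1, Gm 1 s, ?_⟩
        rw [hv]
        ext t
        fin_cases t <;> simp [e1, e2]
      · refine ⟨2, Gm 2 s, ?_⟩
        rw [hv]
        ext t
        fin_cases t <;> simp [e1, e2]
    obtain ⟨r, c, hrc⟩ := hex
    refine ⟨r, l * c, ?_⟩
    have hmat : (h : Matrix (Fin 3) (Fin 3) F) * U = U * m := by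
      rw [← Units.val_mul, ← Units.val_mul]
      congr 1
      rw [← hUm]
      group
    rw [hb, hb, Matrix.mulVec_mulVec, hmat, ← Matrix.mulVec_mulVec, hlg, Matrix.smul_mulVec, hrc, smul_smul, Matrix.mulVec_smul]

end Three

end Cfsg.Agent.SU3O
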