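import Cfsg.Agent.Lib.SU3R5

/-!
The normaliser of the extraspecial group of order `27` in `SU₃(5)` is not maximal: the transfer.
-/

set_option autoImplicit false
set_option linter.unusedSectionVars false
set_option linter.unusedVariables false
set_option linter.style.longLine false

namespace Cfsg.Agent.SU3R5

open Matrix Cfsg Cfsg.Geo Cfsg.Agent.H97.Asch Cfsg.Agent.SU3H Cfsg.Agent.SU3C Cfsg.Agent.Lib.HermForm Cfsg.Agent.Lib.FFNorm
open scoped MatrixGroups commutatorElement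

variable {F : Type*} [Field F] [Fintype F] {i : F}

theorem val17 (C : Cx 5 i) : val 5 i 17 = 2 + 3 * i := by
  unfold val
  norm_num

theorem val12 (C : Cx 5 i) : val 5 i 12 = 2 + 2 * i := by
  unfold val
  norm_num

theorem five_zero (C : Cx 5 i) : (5 : F) = 0 := by
  have := C.hz
  push_cast at this
  exact this

theorem om_sq (C : Cx 5 i) : val 5 i 17 * val 5 i 17 = val 5 i 12 := by
  rw [val17 C, val12 C]
  linear_combination 9 * C.hi + (4 + 2 * i) * five_zero C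

theorem om_mul (C : Cx 5 i) : val 5 i 17 * val 5 i 12 = 1 := by
  rw [val17 C, val12 C]
  linear_combination 6 * C.hi + (2 * i + 3) * five_zero C

theorem om_sum (C : Cx 5 i) : val 5 i 17 + val 5 i 12 = -1 := by
  rw [val17 C, val12 C]
  linear_combination (1 + i) * five_zero C

/-- A pair of generators with the commutator `ω`. -/
theorem exists_pair_om (C : Cx 5 i) {R : Subgroup (GL (Fin 3) F)} (E : ESCtx R) :
    ∃ a ∈ R, ∃ b ∈ R, ∃ v, ESPair a b (val 5 i 17) v ∧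
      ((⁅a, b⁆ : GL (Fin 3) F) : Matrix (Fin 3) (Fin 3) F) = val 5 i 17 • 1 := by
  obtain ⟨a, ha, b, hb, hab⟩ := E.noncomm
  obtain ⟨ξ, v, P, hz⟩ := E.exists_pair ha hb hab
  have hξ3 : ξ ^ 3 = 1 := P.prim.pow_eq_one
  have hξ1 : ξ ≠ 1 := P.prim.ne_one (by norm_num)
  have h0 : (ξ - 1) * (ξ * ξ + ξ + 1) = 0 := by linear_combination hξ3
  have h1 : ξ * ξ + ξ + 1 = 0 := (mul_eq_zero.mp h0).resolve_left (sub_ne_zero.mpr hξ1)
  have h2 : (ξ - val 5 i 17) * (ξ - val 5 i 12) = 0 := by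
    linear_combination h1 + (-ξ) * om_sum C + om_mul C
  rcases mul_eq_zero.mp h2 with h3 | h3
  · have h4 : ξ = val 5 i 17 := sub_eq_zero.mp h3
    subst h4
    exact ⟨a, ha, b, hb, v, P, hz⟩
  · have h4 : ξ = val 5 i 12 := sub_eq_zero.mp h3
    subst h4
    obtain ⟨ξ', v', P', hz'⟩ := E.exists_pair hb ha hab.symm
    have hu : IsUnit ((a : Matrix (Fin 3) (Fin 3) F) * b) := (a * b).isUnit
    have h5 : (val 5 i 12 * ξ') • ((a : Matrix (Fin 3) (Fin 3) F) * b) = (1 : F) • ((a : Matrix (Fin 3) (Fin 3) F) * b) := by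
      rw [one_smul]
      calc (val 5 i 12 * ξ') • ((a : Matrix (Fin 3) (Fin 3) F) * b)
          = val 5 i 12 • (ξ' • ((a : Matrix (Fin 3) (Fin 3) F) * b)) := by rw [smul_smul]
        _ = val 5 i 12 • ((b : Matrix (Fin 3) (Fin 3) F) * a) := by rw [← P'.rel]
        _ = (a : Matrix (Fin 3) (Fin 3) F) * b := by rw [← P.rel]
    have h6 : val 5 i 12 * ξ' = 1 := by
      have h7 : (val 5 i 12 * ξ' - 1) • ((a : Matrix (Fin 3) (Fin 3) F) * b) = 0 := by
        rw [sub_smul, h5, sub_self]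
      rcases smul_eq_zero.mp h7 with h8 | h8
      · exact sub_eq_zero.mp h8
      · rw [h8] at hu
        exact absurd hu not_isUnit_zero
    have h9 : ξ' = val 5 i 17 := by
      calc ξ' = (val 5 i 17 * val 5 i 12) * ξ' := by rw [om_mul C, one_mul]
        _ = val 5 i 17 * (val 5 i 12 * ξ') := by ring
        _ = val 5 i 17 := by rw [h6, mul_one]
    subst h9
    exact ⟨b, hb, a, ha, v', P', hz'⟩

section Std

variable {a b : GL (Fin 3) F} {v : Fin 3 → F}

/-- The matrix with columns `v, b v, b² v`. -/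
noncomputable def Wm (b : GL (Fin 3) F) (v : Fin 3 → F) : Matrix (Fin 3) (Fin 3) F :=
  Matrix.of fun r s => Ev b v s r

theorem Wm_col (r : Fin 3) (s : Fin 3) : Wm b v r s = Ev b v s r := rfl

theorem Wm_unit (C : Cx 5 i) (P : ESPair a b (val 5 i 17) v) : IsUnit (Wm b v) := by
  rw [← Matrix.linearIndependent_cols_iff_isUnit]
  exact P.Ev_indep

theorem a_Wm (C : Cx 5 i) (P : ESPair a b (val 5 i 17) v) :
    (a : Matrix (Fin 3) (Fin 3) F) * Wm b v = Wm b v * toM 5 i A₀ := by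
  ext r s
  have h1 : ((a : Matrix (Fin 3) (Fin 3) F) * Wm b v) r s = ((a : Matrix (Fin 3) (Fin 3) F) *ᵥ Ev b v s) r := rfl
  rw [h1, P.x_Ev]
  fin_cases s
  · simp [Matrix.mul_apply, Fin.sum_univ_three, toM, A₀, val_zero, C.val_one, Wm_col]
  · simp [Matrix.mul_apply, Fin.sum_univ_three, toM, A₀, val_zero, Wm_col, mul_comm]
  · simp [Matrix.mul_apply, Fin.sum_univ_three, toM, A₀, val_zero, Wm_col, mul_comm, ← om_sq C, sq]

theorem Ev_three (P : ESPair a b (val 5 i 17) v) : Ev b v 3 = v := by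
  unfold Ev
  rw [P.yn]
  simp

theorem b_Wm (C : Cx 5 i) (P : ESPair a b (val 5 i 17) v) :
    (b : Matrix (Fin 3) (Fin 3) F) * Wm b v = Wm b v * toM 5 i B₀ := by
  ext r s
  have h1 : ((b : Matrix (Fin 3) (Fin 3) F) * Wm b v) r s = ((b : Matrix (Fin 3) (Fin 3) F) *ᵥ Ev b v s) r := rfl
  rw [h1, P.y_Ev]
  fin_cases s
  · simp [Matrix.mul_apply, Fin.sum_univ_three, toM, B₀, val_zero, C.val_one, Wm_col]
  · simp [Matrix.mul_apply, Fin.sum_univ_three, toM, B₀, val_zero, C.val_one, Wm_col]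
  · simp [Matrix.mul_apply, Fin.sum_univ_three, toM, B₀, val_zero, C.val_one, Wm_col, Ev_three P, P.Ev_zero]

theorem om_ne (C : Cx 5 i) : val 5 i 17 ≠ 1 := by
  intro h
  have h1 : val 5 i 17 = val 5 i 1 := by rw [h, C.val_one]
  have := C.val_inj (by norm_num) (by norm_num) h1
  omega

theorem om2_ne (C : Cx 5 i) : val 5 i 12 ≠ 1 := by
  intro h
  have h1 : val 5 i 12 = val 5 i 1 := by rw [h, C.val_one]
  have := C.val_inj (by norm_num) (by norm_num) h1
  omega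

theorem om_cube (C : Cx 5 i) : val 5 i 17 ^ 3 = 1 := by
  have h1 := om_sq C
  have h2 := om_mul C
  rw [← h1] at h2
  linear_combination h2

theorem fix_zero {x y μ : F} (h : μ ≠ 1) (he : x = μ * x) : x = 0 := by
  have h1 : (μ - 1) * x = 0 := by linear_combination -he
  exact (mul_eq_zero.mp h1).resolve_left (sub_ne_zero.mpr h)

theorem om_pow_ne (C : Cx 5 i) (n : ℕ) (h : n % 3 ≠ 0) : val 5 i 17 ^ n ≠ 1 := by
  rw [pow_eq_pow_mod n (om_cube C)]
  have h1 : n % 3 = 1 ∨ n % 3 = 2 := by omega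
  rcases h1 with h1 | h1
  · rw [h1, pow_one]
    exact om_ne C
  · rw [h1, sq, om_sq C]
    exact om2_ne C

theorem Ev_orth (hF : Fintype.card F = 5 ^ 2) (C : Cx 5 i) (P : ESPair a b (val 5 i 17) v) (ha : a ∈ GU 3 F 5) :
    ∀ j k : Fin 3, j ≠ k → hermForm 3 F 5 (Ev b v j) (Ev b v k) = 0 := by
  intro j k hjk
  have h1 : hermForm 3 F 5 ((a : Matrix (Fin 3) (Fin 3) F) *ᵥ Ev b v j) ((a : Matrix (Fin 3) (Fin 3) F) *ᵥ Ev b v k) =
      hermForm 3 F 5 (Ev b v j) (Ev b v k) := ha _ _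
  rw [P.x_Ev, P.x_Ev, hermForm_smul_left, hermForm_smul_right] at h1
  have hdec : ∀ j k : Fin 3, j ≠ k → ((j : ℕ) + (k : ℕ) * 5) % 3 ≠ 0 := by decide
  refine fix_zero (y := (0 : F)) (om_pow_ne C _ (hdec j k hjk)) ?_
  rw [pow_add, pow_mul]
  linear_combination -h1

theorem Ev_norm (hb : b ∈ GU 3 F 5) (k : ℕ) : hermForm 3 F 5 (Ev b v k) (Ev b v k) = hermForm 3 F 5 v v :=
  (GU 3 F 5).pow_mem hb k v v

theorem gram (hF : Fintype.card F = 5 ^ 2) (C : Cx 5 i) (P : ESPair a b (val 5 i 17) v) (ha : a ∈ GU 3 F 5) (hb : b ∈ GU 3 F 5) :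
    (Wm b v)ᵀ * sg hF (Wm b v) = hermForm 3 F 5 v v • (1 : Matrix (Fin 3) (Fin 3) F) := by
  ext r s
  have h1 : ((Wm b v)ᵀ * sg hF (Wm b v)) r s = hermForm 3 F 5 (Ev b v r) (Ev b v s) := rfl
  rw [h1]
  by_cases hrs : r = s
  · subst hrs
    simp [Ev_norm hb]
  · rw [Ev_orth hF C P ha r s hrs]
    simp [hrs]

theorem exists_U (hF : Fintype.card F = 5 ^ 2) (C : Cx 5 i) (P : ESPair a b (val 5 i 17) v) (ha : a ∈ GU 3 F 5) (hb : b ∈ GU 3 F 5) :
    ∃ U : GL (Fin 3) F, U ∈ GU 3 F 5 ∧ (a : Matrix (Fin 3) (Fin 3) F) * U = U * toM 5 i A₀ ∧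
      (b : Matrix (Fin 3) (Fin 3) F) * U = U * toM 5 i B₀ := by
  obtain ⟨d, hd⟩ : ∃ d, d = hermForm 3 F 5 v v := ⟨_, rfl⟩
  have hG := gram hF C P ha hb
  rw [← hd] at hG
  have hd0 : d ≠ 0 := by
    rintro rfl
    rw [zero_smul] at hG
    have hu := Wm_unit C P
    have h1 : IsUnit (sg hF (Wm b v)) := hu.map (sg hF)
    have h2 : IsUnit ((Wm b v)ᵀ) := by
      rw [Matrix.isUnit_iff_isUnit_det, Matrix.det_transpose, ← Matrix.isUnit_iff_isUnit_det]
      exact hu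
    have h3 := h2.mul h1
    rw [hG] at h3
    exact not_isUnit_zero h3
  have hd5 : d ^ 5 = d := by
    rw [hd]
    exact hermForm_conj hF v v
  obtain ⟨c, hc0, hc⟩ := exists_norm_eq hF (inv_ne_zero hd0) (by rw [inv_pow, hd5])
  have hU : (c • Wm b v)ᵀ * sg hF (c • Wm b v) = 1 := by
    have e : sg hF (c • Wm b v) = c ^ 5 • sg hF (Wm b v) := by
      ext r s
      simp [sg_apply, mul_pow]
    rw [e, Matrix.transpose_smul, Matrix.smul_mul, Matrix.mul_smul, hG, smul_smul, smul_smul]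
    have h6 : c * c ^ 5 * d = 1 := by
      have : c * c ^ 5 = c ^ (5 + 1) := by ring
      rw [this, hc, inv_mul_cancel₀ hd0]
    rw [h6, one_smul]
  refine ⟨mkU hF _ hU, mkU_mem hF _ hU, ?_, ?_⟩
  · rw [mkU_val, Matrix.mul_smul, Matrix.smul_mul, a_Wm C P]
  · rw [mkU_val, Matrix.mul_smul, Matrix.smul_mul, b_Wm C P]

end Std

section Rel

variable {U : GL (Fin 3) F}

theorem toV_inj5 (C : Cx 5 i) {u u' : V3} (h1 : u.x < 25) (h2 : u.y < 25) (h3 : u.z < 25) (h1' : u'.x < 25) (h2' : u'.y < 25)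
    (h3' : u'.z < 25) (h : toV 5 i u = toV 5 i u') : u = u' := by
  have e1 := C.val_inj (x := u.x) (y := u'.x) h1 h1' (congrFun h 0)
  have e2 := C.val_inj (x := u.y) (y := u'.y) h2 h2' (congrFun h 1)
  have e3 := C.val_inj (x := u.z) (y := u'.z) h3 h3' (congrFun h 2)
  cases u
  cases u'
  simp_all

theorem pow_rel (C : Cx 5 i) {x : GL (Fin 3) F} {X : M3} (h : (x : Matrix (Fin 3) (Fin 3) F) * U = U * toM 5 i X) (k : ℕ) :
    ((x ^ k : GL (Fin 3) F) : Matrix (Fin 3) (Fin 3) F) * U = U * toM 5 i (M3.pow 5 X k) := by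
  induction k with
  | zero =>
    simp [M3.pow, C.toM_one]
  | succ k ih =>
    rw [pow_succ, Units.val_mul, Matrix.mul_assoc, h, ← Matrix.mul_assoc, ih]
    simp only [M3.pow, C.toM_mul, Matrix.mul_assoc]

theorem Z_rel (C : Cx 5 i) {z : GL (Fin 3) F} (hz : (z : Matrix (Fin 3) (Fin 3) F) = val 5 i 17 • 1) :
    (z : Matrix (Fin 3) (Fin 3) F) * U = U * toM 5 i Z₀ := by
  have e : toM 5 i Z₀ = val 5 i 17 • 1 := by
    ext r s
    fin_cases r <;> fin_cases s <;> simp [toM, Z₀, val_zero]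
  rw [hz, e, Matrix.smul_mul, Matrix.mul_smul, Matrix.one_mul, Matrix.mul_one]

theorem rr_rel (C : Cx 5 i) {z x y : GL (Fin 3) F} (hz : (z : Matrix (Fin 3) (Fin 3) F) * U = U * toM 5 i Z₀)
    (hx : (x : Matrix (Fin 3) (Fin 3) F) * U = U * toM 5 i A₀) (hy : (y : Matrix (Fin 3) (Fin 3) F) * U = U * toM 5 i B₀) (s j k : ℕ) :
    ((z ^ s * x ^ j * y ^ k : GL (Fin 3) F) : Matrix (Fin 3) (Fin 3) F) * U = U * toM 5 i (rr s j k) := by
  have h1 := pow_rel C hz s
  have h2 := pow_rel C hx j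
  have h3 := pow_rel C hy k
  calc ((z ^ s * x ^ j * y ^ k : GL (Fin 3) F) : Matrix (Fin 3) (Fin 3) F) * U
      = ((z ^ s : GL (Fin 3) F) : Matrix (Fin 3) (Fin 3) F) * (((x ^ j : GL (Fin 3) F) : Matrix (Fin 3) (Fin 3) F) * (((y ^ k : GL (Fin 3) F) : Matrix (Fin 3) (Fin 3) F) * U)) := by
        simp only [Units.val_mul, Matrix.mul_assoc]
    _ = U * toM 5 i (rr s j k) := by
        rw [h3, ← Matrix.mul_assoc ((x ^ j : GL (Fin 3) F) : Matrix (Fin 3) (Fin 3) F), h2, Matrix.mul_assoc (U : Matrix (Fin 3) (Fin 3) F),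
          ← Matrix.mul_assoc ((z ^ s : GL (Fin 3) F) : Matrix (Fin 3) (Fin 3) F), h1]
        simp only [rr, C.toM_mul, Matrix.mul_assoc]

/-- The relation transported by a conjugate. -/
theorem conj_step {a m n : GL (Fin 3) F} {X Y : Matrix (Fin 3) (Fin 3) F} (hn : n = U * m * U⁻¹)
    (hX : (a : Matrix (Fin 3) (Fin 3) F) * U = U * X)
    (hY : ((n * a * n⁻¹ : GL (Fin 3) F) : Matrix (Fin 3) (Fin 3) F) * U = U * Y) :
    (m : Matrix (Fin 3) (Fin 3) F) * X = Y * (m : Matrix (Fin 3) (Fin 3) F) := by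
  have h1 : n * U = U * m := by rw [hn]; group
  have h2 : (n : Matrix (Fin 3) (Fin 3) F) * U = U * m := by
    rw [← Units.val_mul, h1, Units.val_mul]
  have h3 : ((n * a * n⁻¹ : GL (Fin 3) F) : Matrix (Fin 3) (Fin 3) F) * n = n * a := by
    have e : n * a * n⁻¹ * n = n * a := by group
    rw [← Units.val_mul, e, Units.val_mul]
  have h4 : (U : Matrix (Fin 3) (Fin 3) F) * (Y * m) = U * (m * X) := by
    calc (U : Matrix (Fin 3) (Fin 3) F) * (Y * m) = (U * Y) * m := by rw [Matrix.mul_assoc]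
      _ = ((n * a * n⁻¹ : GL (Fin 3) F) : Matrix (Fin 3) (Fin 3) F) * (U * m) := by rw [← hY, Matrix.mul_assoc]
      _ = ((n * a * n⁻¹ : GL (Fin 3) F) : Matrix (Fin 3) (Fin 3) F) * (n * U) := by rw [h2]
      _ = (((n * a * n⁻¹ : GL (Fin 3) F) : Matrix (Fin 3) (Fin 3) F) * n) * U := by rw [Matrix.mul_assoc]
      _ = n * (a * U) := by rw [h3, Matrix.mul_assoc]
      _ = (n * U) * X := by rw [hX, Matrix.mul_assoc]
      _ = U * (m * X) := by rw [h2, Matrix.mul_assoc]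
  exact ((Units.mul_right_inj U).mp h4).symm

end Rel

section Cand

theorem nrm_toV (hF : Fintype.card F = 5 ^ 2) (C : Cx 5 i) (u : V3) : hermForm 3 F 5 (toV 5 i u) (toV 5 i u) = val 5 i (nrm u) := by
  simp [hermForm, toV, nrm, C.val_add, C.val_mul, C.val_cj hF, Fin.sum_univ_three]

/-- An element of the group with the relations lies among the candidates, and permutes the points. -/
theorem cand (hF : Fintype.card F = 5 ^ 2) (C : Cx 5 i) {m : GL (Fin 3) F} (hm : m ∈ GU 3 F 5 ⊓ specialLinear (Fin 3) F) {r r' : M3}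
    (hr : r ∈ R0) (hr' : r' ∈ R0) (hA : (m : Matrix (Fin 3) (Fin 3) F) * toM 5 i A₀ = toM 5 i r * m)
    (hB : (m : Matrix (Fin 3) (Fin 3) F) * toM 5 i B₀ = toM 5 i r' * m) :
    ∀ x ∈ ptsSet 5 i X1, (m : Matrix (Fin 3) (Fin 3) F) *ᵥ x ∈ ptsSet 5 i X1 := by
  have hm1 := (mem_GU_iff hF m).mp hm.1
  have hm2 : (m : Matrix (Fin 3) (Fin 3) F).det = 1 := (mem_sl_iff m).mp hm.2
  obtain ⟨M, hM⟩ : ∃ M, M = (m : Matrix (Fin 3) (Fin 3) F) := ⟨_, rfl⟩
  rw [← hM] at hm1 hm2 hA hB ⊢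
  have hcol : ∀ s : Fin 3, ∃ w : Fin 3 → F, w = fun t => M t s := fun s => ⟨_, rfl⟩
  obtain ⟨u, hux, huy, huz, hu⟩ := C.exists_vec hF (fun t => M t 0)
  -- the columns
  have hc0 : (fun t => M t 0) = toM 5 i r *ᵥ (fun t => M t 0) := by
    ext t
    have e : (M * toM 5 i A₀) t 0 = M t 0 := by
      simp [Matrix.mul_apply, Fin.sum_univ_three, toM, A₀, val_zero, C.val_one]
    calc M t 0 = (M * toM 5 i A₀) t 0 := e.symm
      _ = (toM 5 i r * M) t 0 := by rw [hA]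
      _ = _ := rfl
  have hc1 : (fun t => M t 1) = toM 5 i r' *ᵥ (fun t => M t 0) := by
    ext t
    have e : (M * toM 5 i B₀) t 0 = M t 1 := by
      simp [Matrix.mul_apply, Fin.sum_univ_three, toM, B₀, val_zero, C.val_one]
    calc M t 1 = (M * toM 5 i B₀) t 0 := e.symm
      _ = (toM 5 i r' * M) t 0 := by rw [hB]
      _ = _ := rfl
  have hc2 : (fun t => M t 2) = toM 5 i r' *ᵥ (fun t => M t 1) := by
    ext t
    have e : (M * toM 5 i B₀) t 1 = M t 2 := by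
      simp [Matrix.mul_apply, Fin.sum_univ_three, toM, B₀, val_zero, C.val_one]
    calc M t 2 = (M * toM 5 i B₀) t 1 := e.symm
      _ = (toM 5 i r' * M) t 1 := by rw [hB]
      _ = _ := rfl
  have hlt : ∀ a b, fadd 5 a b < 25 := fun a b => C.fadd_lt a b
  -- the norm of the first column
  have hnu : nrm u = 1 := by
    have h1 := congrFun (congrFun hm1 0) 0
    have h2 : (Mᵀ * sg hF M) 0 0 = hermForm 3 F 5 (fun t => M t 0) (fun t => M t 0) := rfl
    rw [h2, hu, nrm_toV hF C] at h1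
    apply C.val_inj (hlt _ _) (by norm_num)
    show val 5 i (nrm u) = val 5 i 1
    rw [h1, C.val_one]
    simp
  have hfix : M3.mulV 5 r u = u := by
    rw [hu, C.toM_mulVec] at hc0
    exact (toV_inj5 C hux huy huz (hlt _ _) (hlt _ _) (hlt _ _) hc0).symm
  have hr1 : r ≠ M3.one := by
    rintro rfl
    rw [C.toM_one, Matrix.one_mul] at hA
    have hMu : IsUnit M := by
      rw [hM]
      exact m.isUnit
    have h1 : toM 5 i A₀ = 1 := by
      obtain ⟨N, hN⟩ := hMu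
      have h2 := congrArg (fun X => ((N⁻¹ : (Matrix (Fin 3) (Fin 3) F)ˣ) : Matrix (Fin 3) (Fin 3) F) * X) hA
      simp only [← hN, ← Matrix.mul_assoc, Units.inv_mul, Matrix.one_mul] at h2
      exact h2
    have h3 := congrFun (congrFun h1 1) 1
    simp [toM, A₀] at h3
    exact om_ne C h3
  have huE : u ∈ El := by
    have h1 := allV_spec chkEl_all hux huy huz
    unfold chkEl at h1
    simp only [Bool.or_eq_true, Bool.not_eq_true', decide_eq_false_iff_not, List.all_eq_true] at h1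
    rcases h1 with h1 | h1
    · exact absurd hnu h1
    · have h2 := h1 r hr
      simp only [Bool.or_eq_true, Bool.not_eq_true', decide_eq_true_eq, decide_eq_false_iff_not, List.contains_iff_mem] at h2
      rcases h2 with (h2 | h2) | h2
      · exact absurd h2 hr1
      · exact absurd hfix h2
      · exact h2
  -- the matrix
  obtain ⟨c, hc⟩ : ∃ c, c = M3.ofCols u (M3.mulV 5 r' u) (M3.mulV 5 r' (M3.mulV 5 r' u)) := ⟨_, rfl⟩
  have hMc : M = toM 5 i c := by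
    have hv1 : (fun t => M t 1) = toV 5 i (M3.mulV 5 r' u) := by rw [hc1, hu, C.toM_mulVec]
    have hv2 : (fun t => M t 2) = toV 5 i (M3.mulV 5 r' (M3.mulV 5 r' u)) := by rw [hc2, hv1, C.toM_mulVec]
    ext t s
    rw [hc]
    fin_cases s
    · exact (congrFun hu t).trans (congrFun (toM_ofCols (p := 5) (i := i) u (M3.mulV 5 r' u) (M3.mulV 5 r' (M3.mulV 5 r' u)) 0) t).symm
    · exact (congrFun hv1 t).trans (congrFun (toM_ofCols (p := 5) (i := i) u (M3.mulV 5 r' u) (M3.mulV 5 r' (M3.mulV 5 r' u)) 1) t).symm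
    · exact (congrFun hv2 t).trans (congrFun (toM_ofCols (p := 5) (i := i) u (M3.mulV 5 r' u) (M3.mulV 5 r' (M3.mulV 5 r' u)) 2) t).symm
  have hU : M3.isU 5 c = true := by
    rw [hMc] at hm1 hm2
    exact C.isU_of hF hm1 hm2
  have hP : pres 5 X1 c = true := by
    have h1 := chkCand_ok
    unfold chkCand at h1
    simp only [List.all_eq_true, Bool.or_eq_true, Bool.not_eq_true'] at h1
    rcases h1 u huE r' hr' with h2 | h2
    · rw [← hc, hU] at h2
      exact absurd h2 (by decide)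
    · rw [← hc] at h2
      exact h2
  rw [hMc]
  exact C.pres_spec hP

end Cand

/-- The normaliser of the extraspecial group of order `27` is not maximal in `SU₃(5)`. -/
theorem no_R5 (hF : Fintype.card F = 5 ^ 2) {R : Subgroup (GL (Fin 3) F)} (E : ESCtx R)
    (hRG : R ≤ GU 3 F 5 ⊓ specialLinear (Fin 3) F)
    (hmax : IsMaximalIn (GU 3 F 5 ⊓ specialLinear (Fin 3) F) (subgroupNormalizer R ⊓ (GU 3 F 5 ⊓ specialLinear (Fin 3) F))) : False := by
  classical
  obtain ⟨i, C⟩ := exists_cx (p := 5) (Or.inr rfl) hF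
  obtain ⟨a, ha, b, hb, v, P, hz⟩ := exists_pair_om C E
  obtain ⟨U, hU, hUa, hUb⟩ := exists_U hF C P (hRG ha).1 (hRG hb).1
  have hzU := Z_rel (U := U) C hz
  have hrel : ∀ w ∈ R, ∃ r ∈ R0, (w : Matrix (Fin 3) (Fin 3) F) * U = U * toM 5 i r := by
    intro w hw
    obtain ⟨s, hs, j, hj, k, hk, rfl⟩ := E.exists_Phi P hz ha hb hw
      (fun t j => R.mul_mem (R.pow_mem ha _) (R.pow_mem hb _))
    exact ⟨rr s j k, rr_mem ⟨s, hs⟩ ⟨j, hj⟩ ⟨k, hk⟩, rr_rel C hzU hUa hUb s j k⟩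
  have hmax' := max_conj hmax U (conj_mem_iff hU)
  have hnrm : ∀ m ∈ (subgroupNormalizer R ⊓ (GU 3 F 5 ⊓ specialLinear (Fin 3) F)).comap (MulAut.conj U).toMonoidHom,
      ∀ x ∈ R, ∃ r ∈ R0, (((U * m * U⁻¹) * x * (U * m * U⁻¹)⁻¹ : GL (Fin 3) F) : Matrix (Fin 3) (Fin 3) F) * U = U * toM 5 i r := by
    intro m hm x hx
    have h1 : U * m * U⁻¹ ∈ subgroupNormalizer R := hm.1
    exact hrel _ ((Subgroup.mem_normalizer_iff.mp h1 x).mp hx)
  refine C.coded_no_max hF hmax' X1 ?_ w1_U w1_pres ?_ t1_U u0_mem t1_mv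
  · intro m hm
    obtain ⟨r, hr, hr1⟩ := hnrm m hm a ha
    obtain ⟨r', hr', hr2⟩ := hnrm m hm b hb
    have hmG : m ∈ GU 3 F 5 ⊓ specialLinear (Fin 3) F := hmax'.1.le hm
    exact cand hF C hmG hr hr' (conj_step rfl hUa hr1) (conj_step rfl hUb hr2)
  · intro hm
    obtain ⟨r, hr, hr1⟩ := hnrm _ hm a ha
    have h1 := conj_step rfl hUa hr1
    rw [Cx.toG_val, ← C.toM_mul, ← C.toM_mul] at h1
    exact w1_not r hr (C.toM_inj (C.red_mul _ _) (C.red_mul _ _) h1)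

end Cfsg.Agent.SU3R5
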