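import Cfsg.Agent.Lib.SU3R5B

/-!
The set of `105` points of `A₇` in `PSU₃(5)`, described by two predicates: through the monomial invariants, and through
the invariants of the orthogonal group.
-/

set_option autoImplicit false
set_option linter.unusedSectionVars false
set_option linter.unusedVariables false
set_option linter.style.longLine false
set_option maxRecDepth 100000

namespace Cfsg.Agent.SU3X5

open Matrix Cfsg Cfsg.Geo Cfsg.Agent.H97.Asch Cfsg.Agent.SU3H Cfsg.Agent.SU3C Cfsg.Agent.SU3R5

/-- The coded norm. -/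
def nc (x : ℕ) : ℕ := fmul 5 x (fcj 5 x)
/-- The coded form. -/
def hc (u : V3) : ℕ := fadd 5 (fadd 5 (nc u.x) (nc u.y)) (nc u.z)
/-- The coded sum of squares of norms. -/
def pc (u : V3) : ℕ := fadd 5 (fadd 5 (fmul 5 (nc u.x) (nc u.x)) (fmul 5 (nc u.y) (nc u.y))) (fmul 5 (nc u.z) (nc u.z))
/-- The coded square of the product. -/
def sc (u : V3) : ℕ := fmul 5 (fmul 5 (fmul 5 u.x u.y) u.z) (fmul 5 (fmul 5 u.x u.y) u.z)
/-- The coded quadratic form. -/
def qc (u : V3) : ℕ := fadd 5 (fadd 5 (fmul 5 u.x u.x) (fmul 5 u.y u.y)) (fmul 5 u.z u.z)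
/-- The coded cube of the quadratic form. -/
def q3c (u : V3) : ℕ := fmul 5 (qc u) (fmul 5 (qc u) (qc u))
/-- The conjugate vector. -/
def cjV (u : V3) : V3 := ⟨fcj 5 u.x, fcj 5 u.y, fcj 5 u.z⟩

/-- The predicate, coded, in monomial invariants. -/
def xmAux (h p s hh : ℕ) : Bool :=
  decide (h ≠ 0) && ((decide (s = 0) && (decide (p = hh) || decide (p = fmul 5 3 hh))) ||
    (decide (s = fmul 5 2 h) && (decide (p = hh) || decide (p = fmul 5 2 hh))) ||
    (decide (s = fmul 5 4 h) && decide (p = fmul 5 3 hh)))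

/-- The predicate, coded, in monomial invariants. -/
def xm (u : V3) : Bool := xmAux (hc u) (pc u) (sc u) (fmul 5 (hc u) (hc u))

/-- The rationality test. -/
def ratc (u : V3) : Bool := (List.range 25).any fun c => decide (cjV u = V3.scale 5 c u)

/-- The predicate, coded, in orthogonal invariants. -/
def xoAux (u : V3) (h q q3 : ℕ) : Bool :=
  decide (h ≠ 0) && (decide (q = 0) || decide (q3 = fmul 5 2 h) || decide (q3 = fmul 5 4 h) || (decide (q3 = h) && ratc u))

/-- The predicate, coded, in orthogonal invariants. -/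
def xo (u : V3) : Bool := xoAux u (hc u) (qc u) (q3c u)

/-- A rational matrix preserving the points, not monomial. -/
def gR : M3 := ⟨1, 1, 3, 4, 3, 1, 2, 1, 4⟩
/-- A diagonal matrix preserving the points, not rational. -/
def gD : M3 := ⟨18, 0, 0, 0, 13, 0, 0, 0, 1⟩
/-- A matrix moving the points. -/
def gT : M3 := ⟨1, 0, 0, 0, 7, 24, 0, 21, 22⟩
/-- The point moved. -/
def u₁ : V3 := ⟨0, 0, 1⟩

theorem gR_U : M3.isU 5 gR = true := by decide +kernel
theorem gD_U : M3.isU 5 gD = true := by decide +kernel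
theorem gT_U : M3.isU 5 gT = true := by decide +kernel
theorem xm_gR : allV (fun u => !(xm u) || xm (M3.mulV 5 gR u)) = true := by decide +kernel
theorem xo_gD : allV (fun u => !(xo u) || xo (M3.mulV 5 gD u)) = true := by decide +kernel
theorem xm_u₁ : xm u₁ = true := by decide +kernel
theorem xm_gT : xm (M3.mulV 5 gT u₁) = false := by decide +kernel
theorem xo_u₁ : xo u₁ = true := by decide +kernel
theorem xo_gT : xo (M3.mulV 5 gT u₁) = false := by decide +kernel

end Cfsg.Agent.SU3X5
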