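import Cfsg.Agent.Lib.SU5TwoE
import Cfsg.Agent.Lib.FieldModel
import Cfsg.Agent.Lib.FFNorm
import Cfsg.Agent.Lib.H97F3
import Cfsg.Prelude.Def_LieClassical

/-!
Abstract part: a field subalgebra of degree five of `M₅(F)`, `|F| = 4`, closed under the adjoint of the unitary form.
-/

set_option autoImplicit false
set_option linter.unusedSectionVars false

namespace Cfsg.Agent.SU5Two

open Matrix Cfsg Cfsg.Geo
open Cfsg.Agent.Lib.FieldModel

section Emb

variable {F : Type*} [Field F]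

theorem two_eq_zero_of_card [Fintype F] (hF : Fintype.card F = 4) : (2 : F) = 0 := by
  have h := FiniteField.cast_card_eq_zero F
  rw [hF] at h
  have h2 : (2 : F) * 2 = 0 := by
    have : ((4 : ℕ) : F) = 2 * 2 := by norm_num
    rw [← this, h]
  simpa using h2

theorem exists_omega [Fintype F] (hF : Fintype.card F = 4) : ∃ ω : F, ω * ω = ω + 1 := by
  classical
  have h2 := two_eq_zero_of_card hF
  have hex : ∃ x : F, x ∉ ({0, 1} : Finset F) := by
    by_contra h
    push Not at h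
    have : (Finset.univ : Finset F) ⊆ {0, 1} := fun x _ => h x
    have hle := Finset.card_le_card this
    rw [Finset.card_univ, hF] at hle
    have h3 : ({0, 1} : Finset F).card ≤ 2 := Finset.card_le_two
    omega
  obtain ⟨x, hx⟩ := hex
  simp only [Finset.mem_insert, Finset.mem_singleton, not_or] at hx
  refine ⟨x, ?_⟩
  have h3 : x ^ 3 = 1 := by
    have := FiniteField.pow_card_sub_one_eq_one x hx.1
    rwa [hF] at this
  have h4 : (x - 1) * (x * x + x + 1) = 0 := by linear_combination h3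
  have h5 : x * x + x + 1 = 0 := (mul_eq_zero.mp h4).resolve_left (sub_ne_zero.mpr hx.2)
  linear_combination h5 - (x + 1) * h2

/-- The map from the explicit field. -/
def embFun (ω : F) : E4 → F
  | E4.z => 0
  | E4.o => 1
  | E4.w => ω
  | E4.v => ω + 1

/-- The embedding of the explicit field. -/
def emb (ω : F) (h2 : (2 : F) = 0) (hω : ω * ω = ω + 1) : E4 →+* F where
  toFun := embFun ω
  map_one' := rfl
  map_zero' := rfl
  map_add' := by
    intro a b
    cases a <;> cases b <;> show embFun ω (E4.add _ _) = _ <;> simp only [E4.add, embFun] <;> grind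
  map_mul' := by
    intro a b
    cases a <;> cases b <;> show embFun ω (E4.mul _ _) = _ <;> simp only [E4.mul, embFun] <;> grind

theorem emb_sq (ω : F) (h2 : (2 : F) = 0) (hω : ω * ω = ω + 1) (a : E4) :
    emb ω h2 hω (E4.sq a) = (emb ω h2 hω a) ^ 2 := by
  show embFun ω (E4.sq a) = (embFun ω a) ^ 2
  cases a <;> simp only [E4.sq, embFun] <;> grind

theorem emb_injective (ω : F) (h2 : (2 : F) = 0) (hω : ω * ω = ω + 1) : Function.Injective (emb ω h2 hω) := by
  have h01 : (0 : F) ≠ 1 := zero_ne_one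
  have h1 : ∀ a b : E4, embFun ω a = embFun ω b → a = b := by
    intro a b h
    cases a <;> cases b <;> first | rfl | (exfalso; simp only [embFun] at h; grind)
  exact fun a b h => h1 a b h

theorem emb_surjective [Fintype F] (hF : Fintype.card F = 4) (ω : F) (h2 : (2 : F) = 0) (hω : ω * ω = ω + 1) :
    Function.Surjective (emb ω h2 hω) :=
  ((Fintype.bijective_iff_injective_and_card _).mpr ⟨emb_injective ω h2 hω, by rw [hF, E4.card_E4]⟩).2

end Emb

section Form

variable {F : Type*} [Field F]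

/-- Squaring, a ring homomorphism in characteristic two. -/
def frob2 (h2 : (2 : F) = 0) : F →+* F where
  toFun x := x ^ 2
  map_one' := one_pow _
  map_zero' := by simp
  map_add' x y := by linear_combination x * y * h2
  map_mul' x y := mul_pow x y 2

theorem frob2_apply (h2 : (2 : F) = 0) (x : F) : frob2 h2 x = x ^ 2 := rfl

/-- Coordinatewise squaring of matrices. -/
def sg (h2 : (2 : F) = 0) : Matrix (Fin 5) (Fin 5) F →+* Matrix (Fin 5) (Fin 5) F := (frob2 h2).mapMatrix

theorem sg_apply (h2 : (2 : F) = 0) (A : Matrix (Fin 5) (Fin 5) F) (i j : Fin 5) : sg h2 A i j = (A i j) ^ 2 := rfl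

theorem sg_transpose (h2 : (2 : F) = 0) (A : Matrix (Fin 5) (Fin 5) F) : sg h2 Aᵀ = (sg h2 A)ᵀ := rfl

/-- Coordinatewise squaring of vectors. -/
def sgv (v : Fin 5 → F) : Fin 5 → F := fun i => (v i) ^ 2

theorem sgv_mulVec (h2 : (2 : F) = 0) (A : Matrix (Fin 5) (Fin 5) F) (v : Fin 5 → F) :
    sgv (A *ᵥ v) = sg h2 A *ᵥ sgv v := by
  ext i
  exact RingHom.map_mulVec (frob2 h2) A v i

theorem herm_eq (u v : Fin 5 → F) : hermForm 5 F 2 u v = u ⬝ᵥ sgv v := rfl

theorem herm_mulVec (h2 : (2 : F) = 0) (A B : Matrix (Fin 5) (Fin 5) F) (u v : Fin 5 → F) :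
    hermForm 5 F 2 (A *ᵥ u) (B *ᵥ v) = u ⬝ᵥ ((Aᵀ * sg h2 B) *ᵥ sgv v) := by
  rw [herm_eq, sgv_mulVec h2, ← Matrix.mulVec_mulVec, Matrix.dotProduct_mulVec u Aᵀ, Matrix.vecMul_transpose]

/-- The adjoint. -/
def adj (h2 : (2 : F) = 0) (A : Matrix (Fin 5) (Fin 5) F) : Matrix (Fin 5) (Fin 5) F := (sg h2 A)ᵀ

theorem sg_sg [Fintype F] (hF : Fintype.card F = 4) (h2 : (2 : F) = 0) (A : Matrix (Fin 5) (Fin 5) F) :
    sg h2 (sg h2 A) = A := by
  ext i j
  rw [sg_apply, sg_apply, ← pow_mul]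
  have := FiniteField.pow_card (A i j)
  rwa [hF] at this

theorem adj_adj [Fintype F] (hF : Fintype.card F = 4) (h2 : (2 : F) = 0) (A : Matrix (Fin 5) (Fin 5) F) :
    adj h2 (adj h2 A) = A := by
  unfold adj
  rw [sg_transpose, sg_sg hF, Matrix.transpose_transpose]

theorem herm_adj [Fintype F] (hF : Fintype.card F = 4) (h2 : (2 : F) = 0) (A : Matrix (Fin 5) (Fin 5) F)
    (u v : Fin 5 → F) : hermForm 5 F 2 (A *ᵥ u) v = hermForm 5 F 2 u (adj h2 A *ᵥ v) := by
  have h1 := herm_mulVec h2 A 1 u v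
  have h2' := herm_mulVec h2 1 (adj h2 A) u v
  rw [Matrix.one_mulVec] at h1 h2'
  rw [h1, h2']
  congr 2
  unfold adj
  rw [sg_transpose, sg_sg hF, map_one, Matrix.transpose_one, Matrix.one_mul, Matrix.mul_one]

theorem herm_symm [Fintype F] (hF : Fintype.card F = 4) (u v : Fin 5 → F) :
    hermForm 5 F 2 u v = (hermForm 5 F 2 v u) ^ 2 := by
  have h2 := two_eq_zero_of_card hF
  show _ = ((∑ i, v i * (u i) ^ 2) ^ 2)
  rw [← frob2_apply h2, map_sum]
  refine Finset.sum_congr rfl fun i _ => ?_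
  rw [frob2_apply, mul_pow, ← pow_mul]
  have := FiniteField.pow_card (u i)
  rw [hF] at this
  rw [this, mul_comm]

theorem herm_add_left (u u' v : Fin 5 → F) :
    hermForm 5 F 2 (u + u') v = hermForm 5 F 2 u v + hermForm 5 F 2 u' v := by
  simp only [herm_eq, add_dotProduct]

theorem herm_smul_left (c : F) (u v : Fin 5 → F) :
    hermForm 5 F 2 (c • u) v = c * hermForm 5 F 2 u v := by
  simp only [herm_eq, smul_dotProduct, smul_eq_mul]

theorem herm_nondeg {v : Fin 5 → F} (h : ∀ u, hermForm 5 F 2 u v = 0) : v = 0 := by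
  ext i
  have := h (Pi.single i 1)
  rw [herm_eq, single_one_dotProduct] at this
  simpa [sgv] using this

end Form

section Fld

variable {L : Type*} [Field L] [Fintype L]

/-- An involution of the field with `1024` elements which is not the identity is `x ↦ x ^ 32`. -/
theorem invol_eq_pow (h2 : (2 : L) = 0) (hL : Fintype.card L = 1024) (ϕ : L →+* L) (hϕ : ∀ x, ϕ (ϕ x) = x) {x₀ : L}
    (hx₀ : ϕ x₀ ≠ x₀) (x : L) : ϕ x = x ^ 32 := by
  classical
  have : CharP L 2 := CharTwo.of_one_ne_zero_of_two_eq_zero one_ne_zero h2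
  have hc := Cfsg.Agent.H97.Asch.card_fixed_invol ϕ hϕ hx₀
  rw [Nat.card_eq_fintype_card, hL] at hc
  have hc32 : Nat.card {x : L // ϕ x = x} = 32 := by
    have h : (Nat.card {x : L // ϕ x = x}) ^ 2 = 32 ^ 2 := by rw [← hc]; norm_num
    exact Nat.pow_left_injective (n := 2) (by norm_num) h
  let S : Subfield L := ϕ.eqLocusField (RingHom.id L)
  have hScard : Nat.card S = 32 := by
    rw [← hc32]
    apply Nat.card_congr
    exact Equiv.subtypeEquivRight fun x => ⟨fun h => h, fun h => h⟩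
  have hfix : ∀ y : L, ϕ y = y → y ^ 32 = y := by
    intro y hy
    have hyS : y ∈ S := hy
    let _ : Fintype S := Fintype.ofFinite S
    have h1 := FiniteField.pow_card (⟨y, hyS⟩ : S)
    rw [← Nat.card_eq_fintype_card, hScard] at h1
    exact congrArg Subtype.val h1
  have hpow : ∀ a b : L, (a + b) ^ 32 = a ^ 32 + b ^ 32 := fun a b => add_pow_char_pow (R := L) (p := 2) (n := 5) a b
  have hmulpow : ∀ a b : L, (a * b) ^ 32 = a ^ 32 * b ^ 32 := fun a b => mul_pow a b 32
  have hne : (x ^ 32 - x) * (x ^ 32 - ϕ x) = 0 := by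
    have ht : (x + ϕ x) ^ 32 = x + ϕ x := hfix _ (by rw [map_add, hϕ, add_comm])
    have hn : (x * ϕ x) ^ 32 = x * ϕ x := hfix _ (by rw [map_mul, hϕ, mul_comm])
    have h0 : x ^ 2 + (x + ϕ x) * x + x * ϕ x = 0 := by linear_combination (x ^ 2 + x * ϕ x) * h2
    have h1 : (x ^ 2 + (x + ϕ x) * x + x * ϕ x) ^ 32 = 0 := by rw [h0]; norm_num
    rw [hpow, hpow, hmulpow (x + ϕ x) x, ht, hn] at h1
    linear_combination h1 - (x * x ^ 32 + ϕ x * x ^ 32) * h2
  rcases mul_eq_zero.mp hne with h | h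
  · have hx : x ^ 32 = x := sub_eq_zero.mp h
    have hxS : x ∈ S := Cfsg.Agent.H97.Asch.mem_subfield_of_pow_card S (by rw [hScard]; exact hx)
    have : ϕ x = x := hxS
    rw [this, hx]
  · exact (sub_eq_zero.mp h).symm

/-- The existence of an element of order eleven which is a root of the chosen factor. -/
theorem exists_root (h2 : (2 : L) = 0) (hL : Fintype.card L = 1024) {ω : L} (hω : ω * ω = ω + 1) :
    ∃ s : L, s ^ 11 = 1 ∧ s ≠ 1 ∧ s ^ 5 = ω * s ^ 4 + s ^ 3 + s ^ 2 + (ω + 1) * s + 1 := by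
  classical
  have hcard : Fintype.card Lˣ = 1023 := by
    rw [Fintype.card_units, hL]
  have : Fact (Nat.Prime 11) := ⟨by norm_num⟩
  obtain ⟨g, hg⟩ := exists_prime_orderOf_dvd_card 11 (G := Lˣ) (by rw [hcard]; norm_num)
  have hg11 : (g : L) ^ 11 = 1 := by
    rw [← Units.val_pow_eq_pow_val, ← hg, pow_orderOf_eq_one, Units.val_one]
  have hg1 : (g : L) ≠ 1 := by
    intro h
    have : g = 1 := Units.ext h
    rw [this, orderOf_one] at hg
    omega
  set x : L := (g : L) with hx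
  have hx0 : x ≠ 0 := g.ne_zero
  have hfac : (x + 1) * ((x ^ 5 - (ω * x ^ 4 + x ^ 3 + x ^ 2 + (ω + 1) * x + 1)) *
      (x ^ 5 - ((ω + 1) * x ^ 4 + x ^ 3 + x ^ 2 + ω * x + 1))) = 0 := by
    have h3 : x ^ 11 + 1 = 0 := by rw [hg11]; linear_combination h2
    grind
  have hx1 : x + 1 ≠ 0 := by
    intro h
    apply hg1
    linear_combination h - h2
  rcases mul_eq_zero.mp ((mul_eq_zero.mp hfac).resolve_left hx1) with h | h
  · exact ⟨x, hg11, hg1, sub_eq_zero.mp h⟩
  · refine ⟨x⁻¹, by rw [inv_pow, hg11, inv_one], fun h1 => hg1 (inv_eq_one.mp h1), ?_⟩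
    have hxi : x * x⁻¹ = 1 := mul_inv_cancel₀ hx0
    have hmul : x ^ 5 * ((x⁻¹) ^ 5 - (ω * (x⁻¹) ^ 4 + (x⁻¹) ^ 3 + (x⁻¹) ^ 2 + (ω + 1) * x⁻¹ + 1)) = 0 := by
      generalize x⁻¹ = y at hxi
      have e5 : x ^ 5 * y ^ 5 = 1 := by rw [← mul_pow, hxi, one_pow]
      have e4 : x ^ 5 * y ^ 4 = x := by
        calc x ^ 5 * y ^ 4 = x * (x * y) ^ 4 := by ring
          _ = x := by rw [hxi]; ring
      have e3 : x ^ 5 * y ^ 3 = x ^ 2 := by
        calc x ^ 5 * y ^ 3 = x ^ 2 * (x * y) ^ 3 := by ring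
          _ = x ^ 2 := by rw [hxi]; ring
      have e2 : x ^ 5 * y ^ 2 = x ^ 3 := by
        calc x ^ 5 * y ^ 2 = x ^ 3 * (x * y) ^ 2 := by ring
          _ = x ^ 3 := by rw [hxi]; ring
      have e1 : x ^ 5 * y = x ^ 4 := by
        calc x ^ 5 * y = x ^ 4 * (x * y) := by ring
          _ = x ^ 4 := by rw [hxi]; ring
      linear_combination e5 - ω * e4 - e3 - e2 - (ω + 1) * e1 - h + (-(ω + 1) * x ^ 4 - x ^ 3 - x ^ 2 - ω * x) * h2
    have := (mul_eq_zero.mp hmul).resolve_left (pow_ne_zero 5 hx0)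
    exact sub_eq_zero.mp this

end Fld

section Model

universe u

variable {F L : Type u} [Field F] [Fintype F] [Field L] [Algebra F L]
  (φ : L →ₐ[F] Matrix (Fin 5) (Fin 5) F)

theorem adj_mul (h2 : (2 : F) = 0) (A B : Matrix (Fin 5) (Fin 5) F) : adj h2 (A * B) = adj h2 B * adj h2 A := by
  unfold adj
  rw [map_mul, Matrix.transpose_mul]

theorem adj_add (h2 : (2 : F) = 0) (A B : Matrix (Fin 5) (Fin 5) F) : adj h2 (A + B) = adj h2 A + adj h2 B := by
  unfold adj
  rw [map_add, Matrix.transpose_add]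

theorem adj_one (h2 : (2 : F) = 0) : adj h2 (1 : Matrix (Fin 5) (Fin 5) F) = 1 := by
  unfold adj
  rw [map_one, Matrix.transpose_one]

theorem adj_zero (h2 : (2 : F) = 0) : adj h2 (0 : Matrix (Fin 5) (Fin 5) F) = 0 := by
  unfold adj
  rw [map_zero, Matrix.transpose_zero]

theorem adj_smul_one (h2 : (2 : F) = 0) (c : F) : adj h2 (c • (1 : Matrix (Fin 5) (Fin 5) F)) = c ^ 2 • 1 := by
  ext i j
  simp only [adj, Matrix.transpose_apply, sg_apply, Matrix.smul_apply, Matrix.one_apply, smul_eq_mul]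
  by_cases h : i = j
  · subst h; simp
  · have h' : j ≠ i := Ne.symm h
    simp [h, h']

/-- The adjoint on the field. -/
theorem exists_st (hφ : Function.Injective φ) (h2 : (2 : F) = 0)
    (hstar : ∀ a, ∃ b, φ b = adj h2 (φ a)) : ∃ st : L →+* L, ∀ a, φ (st a) = adj h2 (φ a) := by
  choose t ht using hstar
  refine ⟨{ toFun := t, map_one' := ?_, map_mul' := ?_, map_zero' := ?_, map_add' := ?_ }, ht⟩
  · apply hφ
    rw [ht, map_one, adj_one]
  · intro a b
    apply hφ
    rw [ht, map_mul, map_mul, adj_mul, ht, ht, ← ht a, ← ht b, ← map_mul, ← map_mul, mul_comm]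
  · apply hφ
    rw [ht, map_zero, adj_zero]
  · intro a b
    apply hφ
    rw [ht, map_add, map_add, adj_add, ht, ht]

/-- The trace on the field. -/
noncomputable def trL : L →ₗ[F] F := (Matrix.traceLinearMap (Fin 5) F F) ∘ₗ φ.toLinearMap

theorem trL_apply (a : L) : trL φ a = Matrix.trace (φ a) := rfl

theorem trL_one (h2 : (2 : F) = 0) : trL φ 1 = 1 := by
  rw [trL_apply, map_one, Matrix.trace_one]
  simp only [Fintype.card_fin]
  push_cast
  linear_combination 2 * h2

theorem trace_adj (h2 : (2 : F) = 0) (A : Matrix (Fin 5) (Fin 5) F) : Matrix.trace (adj h2 A) = (Matrix.trace A) ^ 2 := by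
  unfold adj
  rw [Matrix.trace_transpose]
  simp only [Matrix.trace, Matrix.diag, sg_apply]
  rw [← frob2_apply h2, map_sum]
  rfl

theorem tr_nondeg (h2 : (2 : F) = 0) {c : L} (h : ∀ z, trL φ (c * z) = 0) : c = 0 := by
  by_contra hc
  have := h c⁻¹
  rw [mul_inv_cancel₀ hc, trL_one φ h2] at this
  exact one_ne_zero this

theorem exists_c [FiniteDimensional F L] (h2 : (2 : F) = 0) (ℓ : L →ₗ[F] F) : ∃ c, ∀ z, ℓ z = trL φ (c * z) := by
  let P : L →ₗ[F] Module.Dual F L :=
    { toFun := fun c => trL φ ∘ₗ LinearMap.mulLeft F c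
      map_add' := fun a b => by
        ext z
        simp [add_mul]
      map_smul' := fun c a => by
        ext z
        simp }
  have hinj : Function.Injective P := by
    rw [← LinearMap.ker_eq_bot, LinearMap.ker_eq_bot']
    intro c hc
    exact tr_nondeg φ h2 fun z => by
      have := LinearMap.congr_fun hc z
      simpa [P] using this
  have hsurj : Function.Surjective P :=
    (LinearMap.injective_iff_surjective_of_finrank_eq_finrank (Subspace.dual_finrank_eq).symm).mp hinj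
  obtain ⟨c, hc⟩ := hsurj ℓ
  refine ⟨c, fun z => ?_⟩
  rw [← hc]
  simp [P]

/-- A vector normalised with respect to the trace. -/
theorem exists_normal [Fintype L] (hF : Fintype.card F = 4) (hL : Fintype.card L = 1024)
    (hfin : Module.finrank F L = 5) (h2 : (2 : F) = 0) (hφ : Function.Injective φ) (st : L →+* L)
    (hst : ∀ a, φ (st a) = adj h2 (φ a)) (hstpow : ∀ a, st a = a ^ 32) :
    ∃ e : Fin 5 → F, e ≠ 0 ∧ ∀ z, hermForm 5 F 2 (φ z *ᵥ e) e = trL φ z := by
  have hc : Module.finrank F L = Fintype.card (Fin 5) := by simpa using hfin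
  have hcr : Module.finrank F L ≠ 0 := by omega
  have : FiniteDimensional F L := Module.finite_of_finrank_pos (by omega)
  obtain ⟨e₁, he₁⟩ := exists_ne_zero_vec (ι := Fin 5) (F := F) hc hcr
  have hstst : ∀ a, st (st a) = a := by
    intro a
    apply hφ
    rw [hst, hst, adj_adj hF]
  let ℓ : L →ₗ[F] F :=
    { toFun := fun z => hermForm 5 F 2 (φ z *ᵥ e₁) e₁
      map_add' := fun a b => by rw [map_add, Matrix.add_mulVec, herm_add_left]
      map_smul' := fun c a => by
        rw [map_smul, Matrix.smul_mulVec, herm_smul_left, RingHom.id_apply, smul_eq_mul] }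
  have hℓ : ∀ z, ℓ z = hermForm 5 F 2 (φ z *ᵥ e₁) e₁ := fun z => rfl
  obtain ⟨c, hc'⟩ := exists_c φ h2 ℓ
  have hc0 : c ≠ 0 := by
    rintro rfl
    apply he₁
    apply herm_nondeg
    intro x
    obtain ⟨z, rfl⟩ := exists_mulVec_eq φ hc he₁ x
    rw [← hℓ, hc', zero_mul, map_zero]
  have key : ∀ y, trL φ (c * st y) = trL φ (st c * st y) := by
    intro y
    rw [← hc' (st y), hℓ, hst, herm_adj hF h2, adj_adj hF, herm_symm hF, ← hℓ, hc' y, trL_apply, ← trace_adj h2,
      ← hst, trL_apply, map_mul st]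
  have hcst : st c = c := by
    have h0 : c - st c = 0 := by
      apply tr_nondeg φ h2
      intro z
      have h1 := key (st z)
      rw [hstst] at h1
      rw [sub_mul, map_sub, h1, sub_self]
    exact (sub_eq_zero.mp h0).symm
  have hL' : Fintype.card L = 32 ^ 2 := by rw [hL]; norm_num
  have hμ : (c⁻¹) ^ 32 = c⁻¹ := by
    rw [← hstpow, map_inv₀, hcst]
  obtain ⟨u, hu0, hu⟩ := Cfsg.Agent.Lib.FFNorm.exists_norm_eq hL' (inv_ne_zero hc0) hμ
  refine ⟨φ u *ᵥ e₁, mulVec_ne_zero φ hu0 he₁, fun z => ?_⟩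
  have h1 : φ u = adj h2 (φ (st u)) := by rw [← hst, hstst]
  have h3 : st u * (z * u) * c = z := by
    have hu' : st u * u = c⁻¹ := by
      rw [hstpow, ← hu]
      ring
    calc st u * (z * u) * c = (st u * u) * c * z := by ring
      _ = z := by rw [hu', inv_mul_cancel₀ hc0, one_mul]
  calc hermForm 5 F 2 (φ z *ᵥ φ u *ᵥ e₁) (φ u *ᵥ e₁)
      = hermForm 5 F 2 (φ z *ᵥ φ u *ᵥ e₁) (adj h2 (φ (st u)) *ᵥ e₁) := by rw [← h1]
    _ = hermForm 5 F 2 (φ (st u) *ᵥ φ z *ᵥ φ u *ᵥ e₁) e₁ := by rw [herm_adj hF h2 (φ (st u))]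
    _ = hermForm 5 F 2 (φ (st u * (z * u)) *ᵥ e₁) e₁ := by
      simp only [map_mul, Matrix.mulVec_mulVec]
    _ = trL φ z := by
      rw [← hℓ, hc', mul_comm, h3]

/-- The minimal polynomial of an element of order eleven has degree five. -/
theorem natDegree_minpoly [FiniteDimensional F L] (hF : Fintype.card F = 4)
    (hfin : Module.finrank F L = 5) {s : L} (hs11 : s ^ 11 = 1) (hs1 : s ≠ 1) : (minpoly F s).natDegree = 5 := by
  have hd := minpoly.degree_dvd (K := F) (L := L) (x := s) (Algebra.IsIntegral.isIntegral s)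
  rw [hfin] at hd
  rcases (Nat.dvd_prime (by norm_num)).mp hd with h | h
  · exfalso
    obtain ⟨c, hc⟩ := minpoly.natDegree_eq_one_iff.mp h
    apply hs1
    rw [← hc] at hs11 ⊢
    have hc11 : c ^ 11 = 1 := by
      apply (algebraMap F L).injective
      rw [map_pow, hs11, map_one]
    have hc0 : c ≠ 0 := by
      rintro rfl
      simp at hc11
    have hc3 : c ^ 3 = 1 := by
      have := FiniteField.pow_card_sub_one_eq_one c hc0
      rwa [hF] at this
    have hc1 : c = 1 := by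
      calc c = c ^ 11 * c := by rw [hc11, one_mul]
        _ = (c ^ 3) ^ 4 := by ring
        _ = 1 := by rw [hc3, one_pow]
    rw [hc1, map_one]
  · exact h

/-- The matrix with columns `s ^ j e`. -/
def Qm (s : L) (e : Fin 5 → F) : Matrix (Fin 5) (Fin 5) F :=
  Matrix.of fun i j => (φ (s ^ (j : ℕ)) *ᵥ e) i

theorem Qm_col (s : L) (e : Fin 5 → F) (j : Fin 5) : (fun i => Qm φ s e i j) = φ (s ^ (j : ℕ)) *ᵥ e := rfl

theorem Qm_unit [FiniteDimensional F L] (hF : Fintype.card F = 4)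
    (hfin : Module.finrank F L = 5) {s : L} (hs11 : s ^ 11 = 1) (hs1 : s ≠ 1) {e : Fin 5 → F} (he : e ≠ 0) :
    IsUnit (Qm φ s e) := by
  have hd := natDegree_minpoly hF hfin hs11 hs1
  have h1 := (linearIndependent_pow (K := F) s).comp (Fin.cast hd.symm) (Fin.cast_injective _)
  have h2 := h1.map' (evalMap φ e) (LinearMap.ker_eq_bot.mpr (evalMap_injective φ he))
  rw [← Matrix.linearIndependent_cols_iff_isUnit]
  exact h2

end Model

end Cfsg.Agent.SU5Two
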