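import Cfsg.Agent.Lib.SU5TwoA

/-!
Coordinates: the frame `s ^ j e` of the space and the transfer of the explicit matrices of `SU5TwoE`.
-/

set_option autoImplicit false
set_option linter.unusedSectionVars false

namespace Cfsg.Agent.SU5Two

open Matrix Cfsg Cfsg.Geo
open Cfsg.Agent.Lib.FieldModel

universe u

variable {F L : Type u} [Field F] [Fintype F] [Field L] [Algebra F L]
  (φ : L →ₐ[F] Matrix (Fin 5) (Fin 5) F)

section Basic

variable {ω : F} {h2 : (2 : F) = 0} {hω : ω * ω = ω + 1}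

@[simp] theorem emb_z : emb ω h2 hω E4.z = 0 := rfl
@[simp] theorem emb_o : emb ω h2 hω E4.o = 1 := rfl
@[simp] theorem emb_w : emb ω h2 hω E4.w = ω := rfl
@[simp] theorem emb_v : emb ω h2 hω E4.v = ω + 1 := rfl

theorem Qm_mulVec (s : L) (e x : Fin 5 → F) : Qm φ s e *ᵥ x = ∑ j, x j • (φ (s ^ (j : ℕ)) *ᵥ e) := by
  ext i
  simp only [Matrix.mulVec, dotProduct, Finset.sum_apply, Pi.smul_apply, smul_eq_mul]
  refine Finset.sum_congr rfl fun j _ => ?_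
  rw [mul_comm]
  rfl

theorem Q_comm {s : L} {e : Fin 5 → F}
    (hrel : s ^ 5 = algebraMap F L ω * s ^ 4 + s ^ 3 + s ^ 2 + (algebraMap F L ω + 1) * s + 1) :
    φ s * Qm φ s e = Qm φ s e * C₀.map (emb ω h2 hω) := by
  have hrel' : φ (s ^ 5) *ᵥ e = ω • (φ (s ^ 4) *ᵥ e) + φ (s ^ 3) *ᵥ e + φ (s ^ 2) *ᵥ e + (ω + 1) • (φ s *ᵥ e) + e := by
    have hω' : φ (algebraMap F L ω) = ω • 1 := by rw [AlgHom.commutes, Algebra.algebraMap_eq_smul_one]
    rw [hrel]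
    simp only [map_add, map_mul, hω', map_one, Matrix.add_mulVec, Matrix.one_mulVec,
      Matrix.smul_mulVec, Matrix.smul_mul, Matrix.one_mul, add_smul, one_smul, Matrix.add_mul]
  have hcol : ∀ j : Fin 5, φ (s ^ ((j : ℕ) + 1)) *ᵥ e =
      ∑ k : Fin 5, (emb ω h2 hω (C₀ k j)) • (φ (s ^ (k : ℕ)) *ᵥ e) := by
    intro j
    fin_cases j <;> simp [Fin.sum_univ_five, C₀]
    simp only [map_pow] at hrel'
    rw [hrel']
    abel
  ext i j
  have h1 : (φ s * Qm φ s e) i j = (φ (s ^ ((j : ℕ) + 1)) *ᵥ e) i := by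
    rw [pow_succ', map_mul, ← Matrix.mulVec_mulVec]
    rfl
  have h3 : (Qm φ s e * C₀.map (emb ω h2 hω)) i j =
      (∑ k : Fin 5, (emb ω h2 hω (C₀ k j)) • (φ (s ^ (k : ℕ)) *ᵥ e)) i := by
    simp only [Matrix.mul_apply, Finset.sum_apply, Pi.smul_apply, smul_eq_mul, Matrix.map_apply]
    refine Finset.sum_congr rfl fun k _ => ?_
    rw [mul_comm]
    rfl
  rw [h1, h3, hcol]

theorem Q_single (s : L) (e : Fin 5 → F) : Qm φ s e *ᵥ (Pi.single 0 1) = e := by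
  rw [Qm_mulVec, Fin.sum_univ_five]
  simp

/-- Transfer of a vector. -/
def tv (ι : E4 →+* F) (x : Fin 5 → E4) : Fin 5 → F := fun i => ι (x i)

theorem tv_mulVec (ι : E4 →+* F) (M : Matrix (Fin 5) (Fin 5) E4) (x : Fin 5 → E4) :
    M.map ι *ᵥ tv ι x = tv ι (M *ᵥ x) := by
  ext i
  exact (RingHom.map_mulVec ι M x i).symm

theorem tv_add (ι : E4 →+* F) (x y : Fin 5 → E4) : tv ι (x + y) = tv ι x + tv ι y := by
  ext i
  simp [tv]

theorem tv_smul (ι : E4 →+* F) (c : E4) (x : Fin 5 → E4) : tv ι (c • x) = ι c • tv ι x := by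
  ext i
  simp [tv]

theorem tv_zero (ι : E4 →+* F) : tv ι 0 = 0 := by
  ext i
  simp [tv]

theorem tv_single (ι : E4 →+* F) : tv ι (Pi.single 0 1) = Pi.single 0 1 := by
  ext i
  by_cases h : i = 0
  · subst h; simp [tv]
  · simp [tv, h]

/-- The point index of a natural number. -/
def pt (n : ℕ) : Fin 12 := ⟨n % 11, by omega⟩

/-- The vectors attached to the twelve points. -/
def ue (ι : E4 →+* F) (Q : Matrix (Fin 5) (Fin 5) F) (a : Fin 12) : Fin 5 → F := Q *ᵥ tv ι (u₀ a)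

theorem ue_last (ι : E4 →+* F) (Q : Matrix (Fin 5) (Fin 5) F) : ue ι Q 11 = 0 := by
  unfold ue
  rw [u0_last, tv_zero, Matrix.mulVec_zero]

theorem ue_pow {s : L} {e : Fin 5 → F}
    (hrel : s ^ 5 = algebraMap F L ω * s ^ 4 + s ^ 3 + s ^ 2 + (algebraMap F L ω + 1) * s + 1) (n : ℕ) :
    φ (s ^ n) *ᵥ e = ue (emb ω h2 hω) (Qm φ s e) (pt n) := by
  induction n with
  | zero =>
    unfold ue
    have : pt 0 = 0 := rfl
    rw [this, u0_zero, tv_single, Q_single]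
    simp
  | succ n ih =>
    rw [pow_succ', map_mul, ← Matrix.mulVec_mulVec, ih]
    unfold ue
    rw [Matrix.mulVec_mulVec, Q_comm φ (h2 := h2) (hω := hω) hrel, ← Matrix.mulVec_mulVec, tv_mulVec]
    congr 2
    have h := C0_u ⟨n % 11, by omega⟩
    have h3 : (⟨n % 11, by omega⟩ : Fin 11).castSucc = pt n := rfl
    rw [h3] at h
    rw [h]
    congr 1
    apply Fin.ext
    show (n % 11 + 1) % 11 = (n + 1) % 11
    omega

theorem trace_map_emb (ι : E4 →+* F) (M : Matrix (Fin 5) (Fin 5) E4) : Matrix.trace (M.map ι) = ι (Matrix.trace M) := by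
  simp [Matrix.trace, map_sum]

theorem trace_pow {s : L} {e : Fin 5 → F}
    (hrel : s ^ 5 = algebraMap F L ω * s ^ 4 + s ^ 3 + s ^ 2 + (algebraMap F L ω + 1) * s + 1)
    (hs11 : s ^ 11 = 1) {Qi : Matrix (Fin 5) (Fin 5) F} (h1 : Qm φ s e * Qi = 1) (h3 : Qi * Qm φ s e = 1) (n : ℕ) :
    Matrix.trace (φ (s ^ n)) = emb ω h2 hω (trt ⟨n % 11, by omega⟩) := by
  set Q := Qm φ s e with hQ
  set ι := emb ω h2 hω with hι
  have hs : ∀ m : ℕ, φ (s ^ m) = Q * (C₀ ^ m).map ι * Qi := by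
    intro m
    induction m with
    | zero => simp [h1]
    | succ m ih =>
      have hc : (C₀ ^ (m + 1)).map ι = C₀.map ι * (C₀ ^ m).map ι := by
        rw [pow_succ']
        exact Matrix.map_mul
      rw [pow_succ', map_mul, ih, hc]
      have hcomm := Q_comm φ (s := s) (e := e) (h2 := h2) (hω := hω) hrel
      calc φ s * (Q * (C₀ ^ m).map ι * Qi) = (φ s * Q) * (C₀ ^ m).map ι * Qi := by
            simp only [Matrix.mul_assoc]
        _ = Q * (C₀.map ι * (C₀ ^ m).map ι) * Qi := by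
            rw [hcomm]
            simp only [Matrix.mul_assoc]
            rfl
  have hn : s ^ n = s ^ (n % 11) := by
    conv_lhs => rw [← Nat.div_add_mod n 11, pow_add, pow_mul, hs11, one_pow, one_mul]
  have hlt : n % 11 < 11 := Nat.mod_lt _ (by norm_num)
  rw [hn, hs, Matrix.trace_mul_comm, ← Matrix.mul_assoc, h3, Matrix.one_mul, trace_map_emb]
  congr 1
  exact trace_C0_pow ⟨n % 11, hlt⟩

end Basic

section Conj

variable {h2 : (2 : F) = 0}

theorem sg_map (ι : E4 →+* F) (hι : ∀ a, ι (E4.sq a) = (ι a) ^ 2) (M : Matrix (Fin 5) (Fin 5) E4) :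
    sg h2 (M.map ι) = (fr₀ M).map ι := by
  ext i j
  rw [sg_apply]
  exact (hι _).symm

theorem conj_unitary (ι : E4 →+* F) (hι : ∀ a, ι (E4.sq a) = (ι a) ^ 2) {Q Qi : Matrix (Fin 5) (Fin 5) F}
    (h1 : Q * Qi = 1) (hG : Qᵀ * sg h2 Q = G₀.map ι) {M₀ : Matrix (Fin 5) (Fin 5) E4}
    (hM : M₀ᵀ * G₀ * fr₀ M₀ = G₀) :
    (Q * M₀.map ι * Qi)ᵀ * sg h2 (Q * M₀.map ι * Qi) = 1 := by
  have hM' : (M₀.map ι)ᵀ * G₀.map ι * sg h2 (M₀.map ι) = G₀.map ι := by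
    rw [sg_map ι hι, ← Matrix.transpose_map, ← Matrix.map_mul, ← Matrix.map_mul, hM]
  simp only [map_mul, Matrix.transpose_mul]
  calc Qiᵀ * ((M₀.map ι)ᵀ * Qᵀ) * (sg h2 Q * sg h2 (M₀.map ι) * sg h2 Qi)
      = Qiᵀ * ((M₀.map ι)ᵀ * (Qᵀ * sg h2 Q) * sg h2 (M₀.map ι)) * sg h2 Qi := by
        simp only [Matrix.mul_assoc]
    _ = Qiᵀ * (Qᵀ * sg h2 Q) * sg h2 Qi := by
        rw [hG, hM']
    _ = (Q * Qi)ᵀ * sg h2 (Q * Qi) := by
        rw [map_mul, Matrix.transpose_mul]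
        simp only [Matrix.mul_assoc]
    _ = 1 := by
        rw [h1, map_one, Matrix.transpose_one, Matrix.mul_one]

variable {ω : F} {hω : ω * ω = ω + 1}

theorem gram {s : L} {e : Fin 5 → F} (hF : Fintype.card F = 4)
    (hrel : s ^ 5 = algebraMap F L ω * s ^ 4 + s ^ 3 + s ^ 2 + (algebraMap F L ω + 1) * s + 1)
    (hs11 : s ^ 11 = 1) {Qi : Matrix (Fin 5) (Fin 5) F} (h1 : Qm φ s e * Qi = 1) (h3 : Qi * Qm φ s e = 1)
    (hφ : Function.Injective φ) (st : L →+* L) (hst : ∀ a, φ (st a) = adj h2 (φ a)) (hstpow : ∀ a, st a = a ^ 32)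
    (hnorm : ∀ z, hermForm 5 F 2 (φ z *ᵥ e) e = trL φ z) :
    (Qm φ s e)ᵀ * sg h2 (Qm φ s e) = G₀.map (emb ω h2 hω) := by
  ext i j
  have hL : ((Qm φ s e)ᵀ * sg h2 (Qm φ s e)) i j =
      hermForm 5 F 2 (φ (s ^ (i : ℕ)) *ᵥ e) (φ (s ^ (j : ℕ)) *ᵥ e) := by
    simp only [Matrix.mul_apply, Matrix.transpose_apply, sg_apply]
    rfl
  have hstst : ∀ a, st (st a) = a := by
    intro a
    apply hφ
    rw [hst, hst, adj_adj hF]
  have hy : φ (s ^ (j : ℕ)) = adj h2 (φ (st (s ^ (j : ℕ)))) := by rw [← hst, hstst]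
  rw [hL, hy, ← herm_adj hF h2, Matrix.mulVec_mulVec, ← map_mul, hnorm, trL_apply, hstpow, ← pow_mul, ← pow_add,
    trace_pow φ (h2 := h2) (hω := hω) hrel hs11 h1 h3, Matrix.map_apply, G0_eq]
  congr 2
  apply Fin.ext
  show ((j : ℕ) * 32 + (i : ℕ)) % 11 = ((i : ℕ) + 10 * (j : ℕ)) % 11
  omega

end Conj

end Cfsg.Agent.SU5Two
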