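import Cfsg.Agent.Lib.SU5TwoB
import Cfsg.Agent.Lib.H97Sl

/-!
No maximal subgroup of `SU₅(2)` is the normaliser of a field subalgebra of degree five: it lies in `L₂(11)`.
-/

set_option autoImplicit false
set_option linter.unusedSectionVars false

namespace Cfsg.Agent.SU5Two

open Matrix Cfsg Cfsg.Geo
open Cfsg.Agent.Lib.FieldModel

universe u

variable {F L : Type u} [Field F] [Fintype F] [Field L] [Algebra F L]
  (φ : L →ₐ[F] Matrix (Fin 5) (Fin 5) F)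

/-- The stabiliser of a set of vectors in a subgroup. -/
def stabSub (X : Set (Fin 5 → F)) (G : Subgroup (GL (Fin 5) F)) : Subgroup (GL (Fin 5) F) where
  carrier := {g | g ∈ G ∧ ∀ x ∈ X, ((g : Matrix (Fin 5) (Fin 5) F) *ᵥ x ∈ X ∧ ((g⁻¹ : GL (Fin 5) F) : Matrix (Fin 5) (Fin 5) F) *ᵥ x ∈ X)}
  mul_mem' := by
    rintro a b ⟨ha, ha'⟩ ⟨hb, hb'⟩
    refine ⟨G.mul_mem ha hb, fun x hx => ⟨?_, ?_⟩⟩
    · rw [Units.val_mul, ← Matrix.mulVec_mulVec]
      exact (ha' _ (hb' x hx).1).1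
    · rw [_root_.mul_inv_rev, Units.val_mul, ← Matrix.mulVec_mulVec]
      exact (hb' _ (ha' x hx).2).2
  one_mem' := by
    refine ⟨G.one_mem, fun x hx => ?_⟩
    simpa using hx
  inv_mem' := by
    rintro a ⟨ha, ha'⟩
    refine ⟨G.inv_mem ha, fun x hx => ⟨(ha' x hx).2, ?_⟩⟩
    rw [inv_inv]
    exact (ha' x hx).1

section Act

variable {K : Subalgebra F (Matrix (Fin 5) (Fin 5) F)} {ω : F} {h2 : (2 : F) = 0}

/-- Elements of the normaliser act on the field. -/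
theorem exists_conj (hKφ : ∀ k, k ∈ K ↔ ∃ a, φ a = k) {h : GL (Fin 5) F} (hN : h ∈ subalgebraNormalizer K) (a : L) :
    ∃ b, (h : Matrix (Fin 5) (Fin 5) F) * φ a * ((h⁻¹ : GL (Fin 5) F) : Matrix (Fin 5) (Fin 5) F) = φ b := by
  have h1 : φ a ∈ K := (hKφ _).mpr ⟨a, rfl⟩
  obtain ⟨b, hb⟩ := (hKφ _).mp ((hN (φ a)).mp h1)
  exact ⟨b, hb.symm⟩

theorem exists_pow_of_conj [Fintype L] (hφ : Function.Injective φ) (hKφ : ∀ k, k ∈ K ↔ ∃ a, φ a = k) {s : L}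
    (hs11 : s ^ 11 = 1) (hs1 : s ≠ 1) {h : GL (Fin 5) F} (hN : h ∈ subalgebraNormalizer K) :
    ∃ k : ℕ, (h : Matrix (Fin 5) (Fin 5) F) * φ s * ((h⁻¹ : GL (Fin 5) F) : Matrix (Fin 5) (Fin 5) F) = φ (s ^ k) := by
  obtain ⟨b, hb⟩ := exists_conj φ hKφ hN s
  have hb11 : b ^ 11 = 1 := by
    apply hφ
    rw [map_pow, ← hb, map_one]
    have := Units.conj_pow h (φ s) 11
    rw [this, ← map_pow, hs11, map_one, Matrix.mul_one, Units.mul_inv]
  have : Fact (Nat.Prime 11) := ⟨by norm_num⟩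
  have hord : orderOf s = 11 := orderOf_eq_prime hs11 hs1
  have hprim : IsPrimitiveRoot s 11 := hord ▸ IsPrimitiveRoot.orderOf s
  obtain ⟨i, -, hi⟩ := hprim.eq_pow_of_pow_eq_one hb11
  exact ⟨i, by rw [hi, hb]⟩

theorem exists_pow_of_33 {ω : F} (hω : ω * ω = ω + 1) (h2 : (2 : F) = 0) {s : L}
    (hs11 : s ^ 11 = 1) (hs1 : s ≠ 1) {u : L} (hu : u ^ 33 = 1) :
    ∃ m : ℕ, u = algebraMap F L (ω ^ m) * s ^ m := by
  have : Fact (Nat.Prime 11) := ⟨by norm_num⟩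
  have : Fact (Nat.Prime 3) := ⟨by norm_num⟩
  have hω3 : ω ^ 3 = 1 := by linear_combination (ω + 1) * hω + ω * h2
  have hω1 : ω ≠ 1 := by
    rintro rfl
    have h1 : (1 : F) = 0 := by linear_combination -hω
    exact one_ne_zero h1
  have ho3 : orderOf (algebraMap F L ω) = 3 := by
    apply orderOf_eq_prime
    · rw [← map_pow, hω3, map_one]
    · intro h
      apply hω1
      apply (algebraMap F L).injective
      rw [h, map_one]
  have ho11 : orderOf s = 11 := orderOf_eq_prime hs11 hs1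
  have hr : orderOf (algebraMap F L ω * s) = 33 := by
    rw [(Commute.all _ _).orderOf_mul_eq_mul_orderOf_of_coprime (by rw [ho3, ho11]; norm_num), ho3, ho11]
  have hprim : IsPrimitiveRoot (algebraMap F L ω * s) 33 := hr ▸ IsPrimitiveRoot.orderOf _
  obtain ⟨i, -, hi⟩ := hprim.eq_pow_of_pow_eq_one hu
  exact ⟨i, by rw [← hi, mul_pow, map_pow]⟩

theorem exists_unit_of_norm [Fintype L] (hF : Fintype.card F = 4) (hfin : Module.finrank F L = 5) (hKφ : ∀ k, k ∈ K ↔ ∃ a, φ a = k)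
    (hφ : Function.Injective φ) (st : L →+* L) (hst : ∀ a, φ (st a) = adj h2 (φ a)) (hstpow : ∀ a, st a = a ^ 32)
    {e : Fin 5 → F} (he : e ≠ 0) (hnorm : ∀ z, hermForm 5 F 2 (φ z *ᵥ e) e = trL φ z)
    {h : GL (Fin 5) F} (hN : h ∈ subalgebraNormalizer K)
    (hU : ∀ x y, hermForm 5 F 2 ((h : Matrix (Fin 5) (Fin 5) F) *ᵥ x) ((h : Matrix (Fin 5) (Fin 5) F) *ᵥ y) = hermForm 5 F 2 x y) :
    ∃ u : L, φ u *ᵥ e = (h : Matrix (Fin 5) (Fin 5) F) *ᵥ e ∧ u ^ 33 = 1 := by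
  have hc : Module.finrank F L = Fintype.card (Fin 5) := by simpa using hfin
  obtain ⟨u, hu⟩ := exists_mulVec_eq φ hc he ((h : Matrix (Fin 5) (Fin 5) F) *ᵥ e)
  refine ⟨u, hu, ?_⟩
  have hstst : ∀ a, st (st a) = a := by
    intro a
    apply hφ
    rw [hst, hst, adj_adj hF]
  have hy : φ u = adj h2 (φ (st u)) := by rw [← hst, hstst]
  have htr : ∀ z, trL φ (st u * z * u) = trL φ z := by
    intro z
    obtain ⟨z', hz'⟩ := exists_conj φ hKφ (Subgroup.inv_mem _ hN) z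
    rw [inv_inv] at hz'
    have hhi : (h : Matrix (Fin 5) (Fin 5) F) * ((h⁻¹ : GL (Fin 5) F) : Matrix (Fin 5) (Fin 5) F) = 1 := Units.mul_inv h
    have hih : ((h⁻¹ : GL (Fin 5) F) : Matrix (Fin 5) (Fin 5) F) * (h : Matrix (Fin 5) (Fin 5) F) = 1 := Units.inv_mul h
    have h1 : φ z * (h : Matrix (Fin 5) (Fin 5) F) = (h : Matrix (Fin 5) (Fin 5) F) * φ z' := by
      rw [← hz', ← Matrix.mul_assoc, ← Matrix.mul_assoc, hhi, Matrix.one_mul]
    calc trL φ (st u * z * u)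
        = hermForm 5 F 2 (φ (st u) *ᵥ (φ z *ᵥ (φ u *ᵥ e))) e := by
          rw [← hnorm]
          simp only [map_mul, Matrix.mulVec_mulVec, Matrix.mul_assoc]
      _ = hermForm 5 F 2 (φ z *ᵥ (φ u *ᵥ e)) (φ u *ᵥ e) := by
          rw [herm_adj hF h2 (φ (st u)), ← hy]
      _ = hermForm 5 F 2 ((h : Matrix (Fin 5) (Fin 5) F) *ᵥ (φ z' *ᵥ e)) ((h : Matrix (Fin 5) (Fin 5) F) *ᵥ e) := by
          rw [hu, Matrix.mulVec_mulVec, h1, ← Matrix.mulVec_mulVec]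
      _ = trL φ z := by
          rw [hU, hnorm, trL_apply, trL_apply, ← hz', Matrix.trace_mul_comm, ← Matrix.mul_assoc, hhi, Matrix.one_mul]
  have h0 : st u * u - 1 = 0 := by
    apply tr_nondeg φ h2
    intro z
    have h3 := htr z
    rw [sub_mul, one_mul, map_sub, sub_eq_zero, ← h3]
    congr 1
    ring
  rw [hstpow] at h0
  have h4 : u ^ 32 * u = u ^ 33 := by ring
  rw [h4] at h0
  exact sub_eq_zero.mp h0

/-- The action of an element of the normaliser on the twelve points. -/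
theorem action_points [Fintype L] (hF : Fintype.card F = 4) (hfin : Module.finrank F L = 5) (hKφ : ∀ k, k ∈ K ↔ ∃ a, φ a = k)
    (hφ : Function.Injective φ) (st : L →+* L) (hst : ∀ a, φ (st a) = adj h2 (φ a)) (hstpow : ∀ a, st a = a ^ 32)
    {e : Fin 5 → F} (he : e ≠ 0) (hnorm : ∀ z, hermForm 5 F 2 (φ z *ᵥ e) e = trL φ z)
    {hω : ω * ω = ω + 1} {s : L} (hs11 : s ^ 11 = 1) (hs1 : s ≠ 1)
    (hrel : s ^ 5 = algebraMap F L ω * s ^ 4 + s ^ 3 + s ^ 2 + (algebraMap F L ω + 1) * s + 1)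
    {h : GL (Fin 5) F} (hN : h ∈ subalgebraNormalizer K)
    (hU : ∀ x y, hermForm 5 F 2 ((h : Matrix (Fin 5) (Fin 5) F) *ᵥ x) ((h : Matrix (Fin 5) (Fin 5) F) *ᵥ y) = hermForm 5 F 2 x y) :
    ∃ c : F, c ≠ 0 ∧ ∃ π : Fin 12 → Fin 12, ∀ a, (h : Matrix (Fin 5) (Fin 5) F) *ᵥ ue (emb ω h2 hω) (Qm φ s e) a =
      c • ue (emb ω h2 hω) (Qm φ s e) (π a) := by
  obtain ⟨k, hk⟩ := exists_pow_of_conj φ hφ hKφ hs11 hs1 hN
  obtain ⟨u, hu, hu33⟩ := exists_unit_of_norm φ hF hfin hKφ hφ st hst hstpow he hnorm hN hU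
  obtain ⟨m, rfl⟩ := exists_pow_of_33 hω h2 hs11 hs1 hu33
  have hω0 : ω ≠ 0 := by
    rintro rfl
    have : (1 : F) = 0 := by linear_combination -hω
    exact one_ne_zero this
  refine ⟨ω ^ m, pow_ne_zero m hω0, fun a => if (a : ℕ) = 11 then 11 else pt (k * (a : ℕ) + m), fun a => ?_⟩
  have hih : ((h⁻¹ : GL (Fin 5) F) : Matrix (Fin 5) (Fin 5) F) * (h : Matrix (Fin 5) (Fin 5) F) = 1 := Units.inv_mul h
  have hcomm : ∀ n : ℕ, (h : Matrix (Fin 5) (Fin 5) F) * φ (s ^ n) = φ (s ^ (k * n)) * (h : Matrix (Fin 5) (Fin 5) F) := by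
    intro n
    rw [pow_mul, map_pow, map_pow, ← hk, Units.conj_pow, Matrix.mul_assoc _ _ (h : Matrix (Fin 5) (Fin 5) F), hih, Matrix.mul_one]
  have hact : ∀ n : ℕ, (h : Matrix (Fin 5) (Fin 5) F) *ᵥ (φ (s ^ n) *ᵥ e) = ω ^ m • (φ (s ^ (k * n + m)) *ᵥ e) := by
    intro n
    rw [Matrix.mulVec_mulVec, hcomm, ← Matrix.mulVec_mulVec, ← hu, map_mul, AlgHom.commutes, Algebra.algebraMap_eq_smul_one,
      Matrix.smul_mul, Matrix.one_mul, Matrix.smul_mulVec, Matrix.mulVec_smul, Matrix.mulVec_mulVec, ← map_mul, pow_add]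
  by_cases ha : (a : ℕ) = 11
  · have ha' : a = 11 := Fin.ext ha
    subst ha'
    simp only [ha, if_true, ue_last, Matrix.mulVec_zero, smul_zero]
  · have hpt : pt (a : ℕ) = a := by
      apply Fin.ext
      show (a : ℕ) % 11 = (a : ℕ)
      have := a.2
      omega
    have e1 : ue (emb ω h2 hω) (Qm φ s e) a = φ (s ^ (a : ℕ)) *ᵥ e := by
      rw [ue_pow φ (h2 := h2) (hω := hω) hrel, hpt]
    simp only [ha, if_false]
    rw [e1, hact, ue_pow φ (h2 := h2) (hω := hω) hrel]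

end Act

section Final

/-- The set of vectors preserved by `L₂(11)`. -/
def Xs (ι : E4 →+* F) (Q : Matrix (Fin 5) (Fin 5) F) : Set (Fin 5 → F) :=
  {x | ∃ c : F, c ≠ 0 ∧ ∃ a b : Fin 12, x = c • (ue ι Q a + ue ι Q b)}

theorem Xs_of_pairs (ι : E4 →+* F) (Q A : Matrix (Fin 5) (Fin 5) F)
    (h : ∀ a b, A *ᵥ (ue ι Q a + ue ι Q b) ∈ Xs ι Q) {x : Fin 5 → F} (hx : x ∈ Xs ι Q) : A *ᵥ x ∈ Xs ι Q := by
  obtain ⟨c, hc, a, b, rfl⟩ := hx
  obtain ⟨d, hd, a', b', h'⟩ := h a b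
  refine ⟨c * d, mul_ne_zero hc hd, a', b', ?_⟩
  rw [Matrix.mulVec_smul, h', smul_smul]

/-- An involution from the explicit group. -/
def mkGL {ι : E4 →+* F} {Q Qi : Matrix (Fin 5) (Fin 5) F} (h3 : Qi * Q = 1) (h1 : Q * Qi = 1) {M₀ : Matrix (Fin 5) (Fin 5) E4}
    (hM : M₀ * M₀ = 1) : GL (Fin 5) F where
  val := Q * M₀.map ι * Qi
  inv := Q * M₀.map ι * Qi
  val_inv := by
    have h4 : M₀.map ι * M₀.map ι = 1 := by
      rw [← Matrix.map_mul, hM]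
      simp
    calc Q * M₀.map ι * Qi * (Q * M₀.map ι * Qi) = Q * (M₀.map ι * (Qi * Q) * M₀.map ι) * Qi := by
          simp only [Matrix.mul_assoc]
      _ = 1 := by rw [h3, Matrix.mul_one, h4, Matrix.mul_one, h1]
  inv_val := by
    have h4 : M₀.map ι * M₀.map ι = 1 := by
      rw [← Matrix.map_mul, hM]
      simp
    calc Q * M₀.map ι * Qi * (Q * M₀.map ι * Qi) = Q * (M₀.map ι * (Qi * Q) * M₀.map ι) * Qi := by
          simp only [Matrix.mul_assoc]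
      _ = 1 := by rw [h3, Matrix.mul_one, h4, Matrix.mul_one, h1]

theorem mkGL_mem {h2 : (2 : F) = 0} {ι : E4 →+* F} (hι : ∀ a, ι (E4.sq a) = (ι a) ^ 2) {Q Qi : Matrix (Fin 5) (Fin 5) F} (h3 : Qi * Q = 1) (h1 : Q * Qi = 1)
    (hG : Qᵀ * sg h2 Q = G₀.map ι)  {M₀ : Matrix (Fin 5) (Fin 5) E4}
    (hM : M₀ * M₀ = 1) (hMf : M₀ᵀ * G₀ * fr₀ M₀ = G₀) :
    mkGL (ι := ι) h3 h1 hM ∈ GU 5 F 2 ⊓ specialLinear (Fin 5) F := by
  refine ⟨?_, ?_⟩
  · intro u v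
    show hermForm 5 F 2 ((Q * M₀.map ι * Qi) *ᵥ u) ((Q * M₀.map ι * Qi) *ᵥ v) = _
    rw [herm_mulVec h2, conj_unitary ι hι h1 hG hMf, Matrix.one_mulVec]
    rfl
  · show mkGL (ι := ι) h3 h1 hM ∈ specialLinear (Fin 5) F
    rw [Cfsg.Agent.H97.Asch.mem_sl_iff]
    have h5 : ((mkGL (ι := ι) h3 h1 hM : GL (Fin 5) F) : Matrix (Fin 5) (Fin 5) F).det *
        ((mkGL (ι := ι) h3 h1 hM : GL (Fin 5) F) : Matrix (Fin 5) (Fin 5) F).det = 1 := by
      rw [← Matrix.det_mul]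
      have : ((mkGL (ι := ι) h3 h1 hM : GL (Fin 5) F) : Matrix (Fin 5) (Fin 5) F) *
          ((mkGL (ι := ι) h3 h1 hM : GL (Fin 5) F) : Matrix (Fin 5) (Fin 5) F) = 1 :=
        (mkGL (ι := ι) h3 h1 hM).val_inv
      rw [this, Matrix.det_one]
    generalize ((mkGL (ι := ι) h3 h1 hM : GL (Fin 5) F) : Matrix (Fin 5) (Fin 5) F).det = d at h5
    have h6 : (d - 1) * (d - 1) = 0 := by linear_combination h5 + (1 - d) * h2
    have h7 := mul_self_eq_zero.mp h6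
    exact sub_eq_zero.mp h7

theorem mkGL_ue {ι : E4 →+* F} {Q Qi : Matrix (Fin 5) (Fin 5) F} (h3 : Qi * Q = 1) (h1 : Q * Qi = 1) {M₀ : Matrix (Fin 5) (Fin 5) E4}
    (hM : M₀ * M₀ = 1) (a : Fin 12) :
    ((mkGL (ι := ι) h3 h1 hM : GL (Fin 5) F) : Matrix (Fin 5) (Fin 5) F) *ᵥ ue ι Q a = Q *ᵥ tv ι (M₀ *ᵥ u₀ a) := by
  show (Q * M₀.map ι * Qi) *ᵥ (Q *ᵥ tv ι (u₀ a)) = _
  rw [Matrix.mulVec_mulVec]
  have : Q * M₀.map ι * Qi * Q = Q * M₀.map ι := by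
    rw [Matrix.mul_assoc, h3, Matrix.mul_one]
  rw [this, ← Matrix.mulVec_mulVec, tv_mulVec]

theorem W_in_Xs {h2 : (2 : F) = 0} {ι : E4 →+* F} {Q Qi : Matrix (Fin 5) (Fin 5) F} (h3 : Qi * Q = 1) (h1 : Q * Qi = 1) (a b : Fin 12) :
    ((mkGL (ι := ι) h3 h1 W0_sq : GL (Fin 5) F) : Matrix (Fin 5) (Fin 5) F) *ᵥ (ue ι Q a + ue ι Q b) ∈ Xs ι Q := by
  refine ⟨1, one_ne_zero, ρ₀ a, ρ₀ b, ?_⟩
  rw [Matrix.mulVec_add, mkGL_ue, mkGL_ue, W0_u, W0_u, tv_add, tv_add, one_smul, Matrix.mulVec_add, Matrix.mulVec_add]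
  unfold ue
  generalize Q *ᵥ tv ι (u₀ 0) = y
  generalize Q *ᵥ tv ι (u₀ (ρ₀ a)) = y₁
  generalize Q *ᵥ tv ι (u₀ (ρ₀ b)) = y₂
  have hy : y + y = 0 := by
    ext i
    simp only [Pi.add_apply, Pi.zero_apply]
    linear_combination y i * h2
  calc y₁ + y + (y₂ + y) = y₁ + y₂ + (y + y) := by abel
    _ = y₁ + y₂ := by rw [hy, add_zero]

theorem herm_right_inj (hF : Fintype.card F = 4) {x y : Fin 5 → F} (h : ∀ u, hermForm 5 F 2 u x = hermForm 5 F 2 u y) : x = y := by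
  ext i
  have h1 := h (Pi.single i 1)
  rw [herm_eq, herm_eq, single_one_dotProduct, single_one_dotProduct] at h1
  have hx := FiniteField.pow_card (x i)
  have hy := FiniteField.pow_card (y i)
  rw [hF] at hx hy
  have h4 : x i ^ 2 = y i ^ 2 := h1
  calc x i = (x i ^ 2) ^ 2 := by rw [← pow_mul]; exact hx.symm
    _ = (y i ^ 2) ^ 2 := by rw [h4]
    _ = y i := by rw [← pow_mul]; exact hy

theorem T_not_in {ι : E4 →+* F} (hι : Function.Injective ι) (hι' : Function.Surjective ι) {Q Qi : Matrix (Fin 5) (Fin 5) F}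
    (h3 : Qi * Q = 1) (h1 : Q * Qi = 1) :
    ¬ ((mkGL (ι := ι) h3 h1 T0_sq : GL (Fin 5) F) : Matrix (Fin 5) (Fin 5) F) *ᵥ (ue ι Q 0 + ue ι Q 11) ∈ Xs ι Q := by
  rintro ⟨c, hc, a, b, hab⟩
  obtain ⟨c₀, rfl⟩ := hι' c
  have hc₀ : c₀ ≠ 0 := by
    rintro rfl
    exact hc (map_zero ι)
  rw [ue_last, add_zero, mkGL_ue] at hab
  have h4 : ue ι Q a + ue ι Q b = Q *ᵥ tv ι (u₀ a + u₀ b) := by
    unfold ue
    rw [tv_add, Matrix.mulVec_add]
  rw [h4, ← Matrix.mulVec_smul] at hab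
  have h5 := congrArg (fun x => Qi *ᵥ x) hab
  simp only [Matrix.mulVec_mulVec, h3, Matrix.one_mulVec] at h5
  rw [← tv_smul] at h5
  apply T0_u c₀ a b hc₀
  funext i
  exact hι (congrFun h5 i)

theorem W_not_normal {ω : F} {h2 : (2 : F) = 0} {hω : ω * ω = ω + 1} {K : Subalgebra F (Matrix (Fin 5) (Fin 5) F)}
    (hKφ : ∀ k, k ∈ K ↔ ∃ a, φ a = k) (hι : Function.Injective (emb ω h2 hω)) {s : L} {e : Fin 5 → F}
    (hrel : s ^ 5 = algebraMap F L ω * s ^ 4 + s ^ 3 + s ^ 2 + (algebraMap F L ω + 1) * s + 1)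
    {Qi : Matrix (Fin 5) (Fin 5) F} (h3 : Qi * Qm φ s e = 1) (h1 : Qm φ s e * Qi = 1) :
    mkGL (ι := emb ω h2 hω) h3 h1 W0_sq ∉ subalgebraNormalizer K := by
  intro hN
  obtain ⟨b, hb⟩ := exists_conj φ hKφ hN s
  set Q := Qm φ s e with hQ
  set ι := emb ω h2 hω with hιdef
  have hcomm : φ s * Q = Q * C₀.map ι := Q_comm φ (s := s) (e := e) (h2 := h2) (hω := hω) hrel
  have hs : φ s = Q * C₀.map ι * Qi := by
    rw [← hcomm, Matrix.mul_assoc, h1, Matrix.mul_one]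
  have hb' : Q * (W₀.map ι * C₀.map ι * W₀.map ι) * Qi = φ b := by
    rw [← hb]
    show _ = (Q * W₀.map ι * Qi) * φ s * (Q * W₀.map ι * Qi)
    rw [hs]
    calc Q * (W₀.map ι * C₀.map ι * W₀.map ι) * Qi
        = Q * W₀.map ι * 1 * C₀.map ι * 1 * W₀.map ι * Qi := by simp only [Matrix.mul_one, Matrix.mul_assoc]
      _ = _ := by
        rw [← h3]
        simp only [Matrix.mul_assoc]
  have hc : φ b * φ s = φ s * φ b := by
    rw [← map_mul, ← map_mul, mul_comm]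
  rw [← hb', hs] at hc
  have h5 : (W₀ * C₀ * W₀ * C₀).map ι = (C₀ * (W₀ * C₀ * W₀)).map ι := by
    simp only [Matrix.map_mul]
    have h6 := congrArg (fun x => Qi * x * Q) hc
    calc W₀.map ι * C₀.map ι * W₀.map ι * C₀.map ι
        = (Qi * Q) * (W₀.map ι * C₀.map ι * W₀.map ι) * (Qi * Q) * C₀.map ι * (Qi * Q) := by
          rw [h3]; simp only [Matrix.mul_one, Matrix.one_mul]
      _ = Qi * (Q * (W₀.map ι * C₀.map ι * W₀.map ι) * Qi * (Q * C₀.map ι * Qi)) * Q := by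
          simp only [Matrix.mul_assoc]
      _ = Qi * (Q * C₀.map ι * Qi * (Q * (W₀.map ι * C₀.map ι * W₀.map ι) * Qi)) * Q := h6
      _ = (Qi * Q) * C₀.map ι * (Qi * Q) * (W₀.map ι * C₀.map ι * W₀.map ι) * (Qi * Q) := by
          simp only [Matrix.mul_assoc]
      _ = _ := by
          rw [h3]; simp only [Matrix.mul_one, Matrix.one_mul, Matrix.mul_assoc]
  exact W0_C0 (Matrix.map_injective hι h5)

/-- The normaliser of a field subalgebra of degree five is not maximal in `SU₅(2)`. -/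
theorem no_field_max (hF : Fintype.card F = 4) {K : Subalgebra F (Matrix (Fin 5) (Fin 5) F)}
    (hK : IsFieldSubalgebra 5 K) (hadj : IsAdjointClosedFor (hermForm 5 F 2) K)
    (hmax : IsMaximalIn (GU 5 F 2 ⊓ specialLinear (Fin 5) F)
      (subalgebraNormalizer K ⊓ (GU 5 F 2 ⊓ specialLinear (Fin 5) F))) : False := by
  classical
  have h2 := two_eq_zero_of_card hF
  obtain ⟨ω, hω⟩ := exists_omega hF
  obtain ⟨L, _, _, φ, hφ, hKφ, hfin⟩ := Cfsg.Agent.Lib.FieldModel.exists_model (by norm_num : (5 : ℕ) ≠ 0) hK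
  have : FiniteDimensional F L := Module.finite_of_finrank_pos (by omega)
  have : Finite L := Module.finite_of_finite F
  let _ : Fintype L := Fintype.ofFinite L
  have hL : Fintype.card L = 1024 := by
    rw [Module.card_eq_pow_finrank (K := F) (V := L), hF, hfin]
    norm_num
  have h2L : (2 : L) = 0 := by
    rw [← map_ofNat (algebraMap F L) 2, h2, map_zero]
  have hstar : ∀ a, ∃ b, φ b = adj h2 (φ a) := by
    intro a
    obtain ⟨k', hk', hk⟩ := hadj (φ a) ((hKφ _).mpr ⟨a, rfl⟩)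
    obtain ⟨b, rfl⟩ := (hKφ _).mp hk'
    refine ⟨b, ?_⟩
    apply Matrix.ext_of_mulVec_single
    intro i
    apply herm_right_inj hF
    intro u
    rw [← hk, herm_adj hF h2]
  obtain ⟨st, hst⟩ := exists_st φ hφ h2 hstar
  have hstst : ∀ a, st (st a) = a := by
    intro a
    apply hφ
    rw [hst, hst, adj_adj hF]
  have hω0 : ω ≠ 0 := by
    rintro rfl
    have : (1 : F) = 0 := by linear_combination -hω
    exact one_ne_zero this
  have hstne : st (algebraMap F L ω) ≠ algebraMap F L ω := by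
    intro h
    have h3 := congrArg φ h
    rw [hst, AlgHom.commutes, Algebra.algebraMap_eq_smul_one, adj_smul_one] at h3
    have h4 := congrFun (congrFun h3 0) 0
    simp only [Matrix.smul_apply, Matrix.one_apply_eq, smul_eq_mul, mul_one] at h4
    have : (1 : F) = 0 := by linear_combination h4 - hω + ω * h2 - ω * h2
    exact one_ne_zero this
  have hstpow := invol_eq_pow h2L hL st hstst hstne
  obtain ⟨e, he, hnorm⟩ := exists_normal φ hF hL hfin h2 hφ st hst hstpow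
  have hωL : algebraMap F L ω * algebraMap F L ω = algebraMap F L ω + 1 := by
    rw [← map_mul, hω, map_add, map_one]
  obtain ⟨s, hs11, hs1, hrel⟩ := exists_root h2L hL hωL
  obtain ⟨Qu, hQu⟩ := Qm_unit φ hF hfin hs11 hs1 he
  set Q := Qm φ s e with hQ
  have h1 : Q * (Qu⁻¹ : GL (Fin 5) F).val = 1 := by
    rw [← hQu]
    exact Qu.mul_inv
  have h3 : (Qu⁻¹ : GL (Fin 5) F).val * Q = 1 := by
    rw [← hQu]
    exact Qu.inv_mul
  set Qi := (Qu⁻¹ : GL (Fin 5) F).val with hQi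
  set ι := emb ω h2 hω with hι
  have hιinj := emb_injective ω h2 hω
  have hιsurj := emb_surjective hF ω h2 hω
  have hιsq : ∀ a, ι (E4.sq a) = (ι a) ^ 2 := emb_sq ω h2 hω
  have hG : Qᵀ * sg h2 Q = G₀.map ι := gram φ hF hrel hs11 h1 h3 hφ st hst hstpow hnorm
  let G := GU 5 F 2 ⊓ specialLinear (Fin 5) F
  have hWG : mkGL (ι := ι) h3 h1 W0_sq ∈ G := mkGL_mem hιsq h3 h1 hG W0_sq W0_form
  have hTG : mkGL (ι := ι) h3 h1 T0_sq ∈ G := mkGL_mem hιsq h3 h1 hG T0_sq T0_form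
  let M : Subgroup (GL (Fin 5) F) := stabSub (Xs ι Q) G
  have hHM : subalgebraNormalizer K ⊓ G ≤ M := by
    have hact : ∀ h ∈ subalgebraNormalizer K ⊓ G, ∀ x ∈ Xs ι Q, (h : Matrix (Fin 5) (Fin 5) F) *ᵥ x ∈ Xs ι Q := by
      rintro h ⟨hN, hhG⟩ x hx
      obtain ⟨c, hc, π, hπ⟩ := action_points φ (K := K) (ω := ω) (h2 := h2) (hω := hω) hF hfin hKφ hφ st hst hstpow he hnorm
        hs11 hs1 hrel hN hhG.1
      refine Xs_of_pairs ι Q _ (fun a b => ?_) hx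
      refine ⟨c, hc, π a, π b, ?_⟩
      rw [Matrix.mulVec_add, hπ, hπ, smul_add]
    intro h hh
    exact ⟨hh.2, fun x hx => ⟨hact h hh x hx, hact _ (Subgroup.inv_mem _ hh) x hx⟩⟩
  have hMG : M ≤ G := fun g hg => hg.1
  rcases hmax.2 M hHM hMG with hE | hE
  · have hWM : mkGL (ι := ι) h3 h1 W0_sq ∈ M := by
      refine ⟨hWG, fun x hx => ?_⟩
      have h5 : (mkGL (ι := ι) h3 h1 W0_sq : GL (Fin 5) F) *ᵥ x ∈ Xs ι Q :=
        Xs_of_pairs ι Q _ (fun a b => W_in_Xs (h2 := h2) h3 h1 a b) hx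
      exact ⟨h5, h5⟩
    rw [hE] at hWM
    exact W_not_normal φ hKφ hιinj hrel h3 h1 hWM.1
  · rw [hE] at hMG
    have hTM : mkGL (ι := ι) h3 h1 T0_sq ∈ M := by
      rw [hE]; exact hTG
    refine T_not_in hιinj hιsurj h3 h1 (hTM.2 _ ?_).1
    exact ⟨1, one_ne_zero, 0, 11, by rw [one_smul]⟩

end Final

end Cfsg.Agent.SU5Two
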