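import Mathlib

/-!
The field with four elements as an explicit type, and the explicit matrices of `L₂(11)` inside `SU₅(2)`:
the group generated by the companion matrix `C₀` of `x⁵ + ωx⁴ + x³ + x² + ω²x + 1`, by `x ↦ x⁴` and by the involution `W₀`,
written in the basis `1, s, ..., s⁴` of the field with `4⁵` elements.
-/

set_option autoImplicit false

namespace Cfsg.Agent.SU5Two

/-- The field with four elements: zero, one, `w` and `v = w²`. -/
inductive E4 : Type
  | z | o | w | v
  deriving DecidableEq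

namespace E4

/-- Addition. -/
def add : E4 → E4 → E4
  | z, a => a
  | a, z => a
  | o, o => z
  | o, w => v
  | o, v => w
  | w, o => v
  | w, w => z
  | w, v => o
  | v, o => w
  | v, w => o
  | v, v => z

/-- Multiplication. -/
def mul : E4 → E4 → E4
  | z, _ => z
  | _, z => z
  | o, a => a
  | a, o => a
  | w, w => v
  | w, v => o
  | v, w => o
  | v, v => w

instance : Add E4 := ⟨add⟩
instance : Mul E4 := ⟨mul⟩
instance : Zero E4 := ⟨z⟩
instance : One E4 := ⟨o⟩
instance : Neg E4 := ⟨id⟩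
instance : Sub E4 := ⟨add⟩

instance : CommRing E4 where
  add_assoc := by intro a b c; cases a <;> cases b <;> cases c <;> rfl
  zero_add := by intro a; cases a <;> rfl
  add_zero := by intro a; cases a <;> rfl
  nsmul := nsmulRec
  add_comm := by intro a b; cases a <;> cases b <;> rfl
  left_distrib := by intro a b c; cases a <;> cases b <;> cases c <;> rfl
  right_distrib := by intro a b c; cases a <;> cases b <;> cases c <;> rfl
  zero_mul := by intro a; cases a <;> rfl
  mul_zero := by intro a; cases a <;> rfl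
  mul_assoc := by intro a b c; cases a <;> cases b <;> cases c <;> rfl
  one_mul := by intro a; cases a <;> rfl
  mul_one := by intro a; cases a <;> rfl
  sub_eq_add_neg := by intro a b; rfl
  zsmul := zsmulRec
  neg_add_cancel := by intro a; cases a <;> rfl
  mul_comm := by intro a b; cases a <;> cases b <;> rfl

/-- Frobenius. -/
def sq : E4 → E4
  | z => z
  | o => o
  | w => v
  | v => w

instance : Fintype E4 := ⟨{z, o, w, v}, by intro a; cases a <;> decide⟩

theorem card_E4 : Fintype.card E4 = 4 := rfl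

theorem add_def (a b : E4) : a + b = add a b := rfl
theorem mul_def (a b : E4) : a * b = mul a b := rfl
theorem zero_def : (0 : E4) = z := rfl
theorem one_def : (1 : E4) = o := rfl

end E4

open E4 Matrix

/-- The companion matrix. -/
def C₀ : Matrix (Fin 5) (Fin 5) E4 :=
  fun i j => ![![z, z, z, z, o], ![o, z, z, z, v], ![z, o, z, z, o], ![z, z, o, z, o], ![z, z, z, o, w]] i j

/-- The Gram matrix. -/
def G₀ : Matrix (Fin 5) (Fin 5) E4 :=
  fun i j => ![![o, v, w, v, v], ![w, o, v, w, v], ![v, w, o, v, w], ![w, v, w, o, v], ![w, w, v, w, o]] i j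

/-- The involution. -/
def W₀ : Matrix (Fin 5) (Fin 5) E4 :=
  fun i j => ![![o, w, z, v, o], ![z, o, v, v, w], ![z, o, o, w, v], ![z, w, o, v, w], ![z, o, w, z, v]] i j

/-- A transvection. -/
def T₀ : Matrix (Fin 5) (Fin 5) E4 :=
  fun i j => ![![o, z, z, z, z], ![z, o, z, z, z], ![v, z, o, z, z], ![w, z, z, o, z], ![z, z, z, z, o]] i j

/-- The traces of the powers of the companion matrix. -/
def trt : Fin 11 → E4 := ![o, w, v, w, w, w, v, v, v, w, v]

/-- The 12 points: the powers of `s` applied to the first basis vector, and zero. -/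
def u₀ : Fin 12 → Fin 5 → E4 :=
  ![![o, z, z, z, z], ![z, o, z, z, z], ![z, z, o, z, z], ![z, z, z, o, z], ![z, z, z, z, o], ![o, v, o, o, w],
    ![w, z, o, v, w], ![w, v, w, v, z], ![z, w, v, w, v], ![v, w, o, z, v], ![v, o, o, w, o], ![z, z, z, z, z]]

/-- The action of the involution on the points `x ↦ -1/x`. -/
def ρ₀ : Fin 12 → Fin 12 := ![11, 10, 5, 7, 8, 2, 9, 3, 4, 6, 1, 0]

/-- Coordinatewise Frobenius of a matrix. -/
def fr₀ (M : Matrix (Fin 5) (Fin 5) E4) : Matrix (Fin 5) (Fin 5) E4 := fun i j => sq (M i j)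

theorem C0_pow_eleven : C₀ ^ 11 = 1 := by decide +kernel

theorem trace_C0_pow : ∀ n : Fin 11, Matrix.trace (C₀ ^ (n : ℕ)) = trt n := by decide +kernel

/-- The exponent of `s` in the Gram matrix. -/
def gidx (i j : Fin 5) : Fin 11 := ⟨((i : ℕ) + 10 * (j : ℕ)) % 11, Nat.mod_lt _ (by norm_num)⟩

theorem G0_eq' : G₀ = Matrix.of (fun i j => trt (gidx i j)) := by decide +kernel

theorem G0_eq (i j : Fin 5) : G₀ i j = trt (gidx i j) := by rw [G0_eq']; rfl

theorem C0_u : ∀ a : Fin 11, C₀ *ᵥ u₀ a.castSucc = u₀ ⟨(a + 1) % 11, by omega⟩ := by decide +kernel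

theorem u0_last : u₀ 11 = 0 := by decide +kernel

theorem u0_zero : u₀ 0 = Pi.single 0 1 := by decide +kernel

theorem W0_sq : W₀ * W₀ = 1 := by decide +kernel

theorem T0_sq : T₀ * T₀ = 1 := by decide +kernel

theorem W0_form : W₀ᵀ * G₀ * fr₀ W₀ = G₀ := by decide +kernel

theorem T0_form : T₀ᵀ * G₀ * fr₀ T₀ = G₀ := by decide +kernel

theorem W0_C0 : (W₀ * C₀ * W₀) * C₀ ≠ C₀ * (W₀ * C₀ * W₀) := by decide +kernel

theorem W0_u : ∀ a, W₀ *ᵥ u₀ a = u₀ (ρ₀ a) + u₀ 0 := by decide +kernel

theorem T0_u1 : ∀ (a b : Fin 12), T₀ *ᵥ u₀ 0 ≠ o • (u₀ a + u₀ b) := by decide +kernel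
theorem T0_u2 : ∀ (a b : Fin 12), T₀ *ᵥ u₀ 0 ≠ w • (u₀ a + u₀ b) := by decide +kernel
theorem T0_u3 : ∀ (a b : Fin 12), T₀ *ᵥ u₀ 0 ≠ v • (u₀ a + u₀ b) := by decide +kernel

theorem T0_u (c : E4) (a b : Fin 12) (hc : c ≠ 0) : T₀ *ᵥ u₀ 0 ≠ c • (u₀ a + u₀ b) := by
  cases c
  · exact absurd rfl hc
  · exact T0_u1 a b
  · exact T0_u2 a b
  · exact T0_u3 a b

end Cfsg.Agent.SU5Two
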