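import Cfsg.Agent.Lib.HermN

/-!
In `SU₆(2)` the stabiliser of an orthogonal frame is not maximal: it preserves, together with a transvection,
a set of `126` isotropic lines (the reduction of the Mitchell reflection group, `3·U₄(3)·2`).
-/

set_option autoImplicit false
set_option linter.unusedSectionVars false

namespace Cfsg.Agent.SU6Two

open Matrix Cfsg Cfsg.Geo
open Cfsg.Agent.SU5Two (E4 emb emb_sq emb_injective emb_surjective two_eq_zero_of_card exists_omega)
open Cfsg.Agent.HermN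

section Concrete

/-- The vector set: support of size two, or full support and product one. -/
def Xf {R : Type*} [CommRing R] [DecidableEq R] (x : Fin 6 → R) : Prop :=
  (Finset.univ.filter (fun i => x i ≠ 0)).card = 2 ∨ ((∀ i, x i ≠ 0) ∧ ∏ i, x i = 1)

instance (x : Fin 6 → E4) : Decidable (Xf x) := by
  unfold Xf
  infer_instance

/-- All-ones transvection. -/
def T1 : Matrix (Fin 6) (Fin 6) E4 := fun i j => if i = j then 0 else 1

/-- The transvection at a vector of support four. -/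
def T2 : Matrix (Fin 6) (Fin 6) E4 := fun i j =>
  ![![0, 1, 1, 1, 0, 0], ![1, 0, 1, 1, 0, 0], ![1, 1, 0, 1, 0, 0], ![1, 1, 1, 0, 0, 0], ![0, 0, 0, 0, 1, 0], ![0, 0, 0, 0, 0, 1]] i j

/-- Coordinatewise Frobenius of a matrix. -/
def frE (M : Matrix (Fin 6) (Fin 6) E4) : Matrix (Fin 6) (Fin 6) E4 := fun i j => E4.sq (M i j)

theorem T1_sq : T1 * T1 = 1 := by decide +kernel
theorem T2_sq : T2 * T2 = 1 := by decide +kernel
theorem T1_fr : T1ᵀ * frE T1 = 1 := by decide +kernel
theorem T2_fr : T2ᵀ * frE T2 = 1 := by decide +kernel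

/-- The witness vector. -/
def y0 : Fin 6 → E4 := ![1, 0, 0, E4.w, 0, 0]

theorem Xf_y0 : Xf y0 := by decide +kernel

theorem not_Xf_T2 : ¬ Xf (T2 *ᵥ y0) := by decide +kernel

theorem T1_X : ∀ a b c d e f : E4, Xf ![a, b, c, d, e, f] → Xf (T1 *ᵥ ![a, b, c, d, e, f]) := by decide +kernel

theorem T1_X' (x : Fin 6 → E4) (h : Xf x) : Xf (T1 *ᵥ x) := by
  have e : x = ![x 0, x 1, x 2, x 3, x 4, x 5] := by
    ext i
    fin_cases i <;> rfl
  rw [e] at h ⊢
  exact T1_X _ _ _ _ _ _ h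

end Concrete

section Frame

variable {F : Type*} [Field F] [Fintype F]

theorem Xf_tv [DecidableEq F] {ι : E4 →+* F} (hinj : Function.Injective ι) (x : Fin 6 → E4) : Xf (tv ι x) ↔ Xf x := by
  have h0 : ∀ a : E4, ι a ≠ 0 ↔ a ≠ 0 := fun a => by
    rw [Ne, Ne, map_eq_zero_iff ι hinj]
  have h1 : ∀ a : E4, ι a = 1 ↔ a = 1 := fun a => by
    constructor
    · intro h
      apply hinj
      rw [h, map_one]
    · rintro rfl
      exact map_one ι
  unfold Xf tv
  simp only [h0, ← map_prod, h1]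

theorem exists_frame_basis (hF : Fintype.card F = 4) {D : Fin 6 → Submodule F (Fin 6 → F)}
    (hD : IsNondegenerateMDecomposition (hermForm 6 F 2) 1 D) :
    ∃ b : Fin 6 → Fin 6 → F, (∀ i, D i = Submodule.span F {b i}) ∧
      ∀ i j, hermForm 6 F 2 (b i) (b j) = if i = j then 1 else 0 := by
  have h1 : ∀ i, ∃ v : Fin 6 → F, D i = Submodule.span F {v} ∧ hermForm 6 F 2 v v = 1 := by
    intro i
    obtain ⟨v, hv0, hv⟩ := finrank_eq_one_iff'.mp (hD.decomp.finrank_eq i)
    have hv0' : (v : Fin 6 → F) ≠ 0 := fun h => hv0 (Subtype.ext h)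
    have hspan : D i = Submodule.span F {(v : Fin 6 → F)} := by
      apply le_antisymm
      · intro w hw
        obtain ⟨c, hc⟩ := hv ⟨w, hw⟩
        have : w = c • (v : Fin 6 → F) := (congrArg Subtype.val hc).symm
        rw [this]
        exact Submodule.smul_mem _ _ (Submodule.mem_span_singleton_self _)
      · rw [Submodule.span_singleton_le_iff_mem]
        exact v.2
    refine ⟨v, hspan, ?_⟩
    obtain ⟨⟨x, hx, hxv⟩, -⟩ := hD.nondegenerate i v v.2 hv0'
    obtain ⟨c, hc⟩ := hv ⟨x, hx⟩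
    have hxe : x = c • (v : Fin 6 → F) := (congrArg Subtype.val hc).symm
    rw [hxe, herm_smul_left] at hxv
    have hne : hermForm 6 F 2 (v : Fin 6 → F) v ≠ 0 := right_ne_zero_of_mul hxv
    have hsq := herm_symm hF (v : Fin 6 → F) v
    have h3 : hermForm 6 F 2 (v : Fin 6 → F) v * (hermForm 6 F 2 (v : Fin 6 → F) v - 1) = 0 := by
      linear_combination -hsq
    exact sub_eq_zero.mp ((mul_eq_zero.mp h3).resolve_left hne)
  choose b hb hb1 using h1
  refine ⟨b, hb, fun i j => ?_⟩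
  by_cases h : i = j
  · subst h
    simp [hb1]
  · rw [if_neg h]
    apply hD.orthogonal i j h
    · rw [hb]
      exact Submodule.mem_span_singleton_self _
    · rw [hb]
      exact Submodule.mem_span_singleton_self _

/-- The monomial form of an element of a frame stabiliser. -/
theorem monomial_form (h2 : (2 : F) = 0) {b : Fin 6 → Fin 6 → F} {D : Fin 6 → Submodule F (Fin 6 → F)}
    (hb : ∀ i, D i = Submodule.span F {b i}) {P : Matrix (Fin 6) (Fin 6) F} (hP : ∀ i j, P i j = b j i) (hPu : IsUnit P)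
    {g : GL (Fin 6) F} (hg : g ∈ decompositionStabilizer D) (hdet : (g : Matrix (Fin 6) (Fin 6) F).det = 1) :
    ∃ (π : Equiv.Perm (Fin 6)) (c : Fin 6 → F), (∀ i, c i ≠ 0) ∧ ∏ i, c i = 1 ∧
      ∀ x : Fin 6 → F, ∃ y : Fin 6 → F, (g : Matrix (Fin 6) (Fin 6) F) *ᵥ (P *ᵥ x) = P *ᵥ y ∧ ∀ i, y (π i) = c i * x i := by
  classical
  obtain ⟨π, hπ⟩ := hg
  have h1 : ∀ i, ∃ c : F, (g : Matrix (Fin 6) (Fin 6) F) *ᵥ b i = c • b (π i) := by
    intro i
    have h3 : (g : Matrix (Fin 6) (Fin 6) F) *ᵥ b i ∈ D (π i) := by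
      rw [← hπ]
      exact ⟨b i, by rw [hb]; exact Submodule.mem_span_singleton_self _, by simp [Matrix.toLin'_apply]⟩
    rw [hb] at h3
    obtain ⟨c, hc⟩ := Submodule.mem_span_singleton.mp h3
    exact ⟨c, hc.symm⟩
  choose c hc using h1
  let N : Matrix (Fin 6) (Fin 6) F := fun j i => if j = π i then c i else 0
  have hcol : ∀ i, b i = P *ᵥ Pi.single i 1 := by
    intro i
    ext k
    rw [Matrix.mulVec_single_one]
    exact (hP k i).symm
  have hNP : (g : Matrix (Fin 6) (Fin 6) F) * P = P * N := by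
    ext k i
    have h3 : ((g : Matrix (Fin 6) (Fin 6) F) * P) k i = ((g : Matrix (Fin 6) (Fin 6) F) *ᵥ b i) k := by
      simp only [Matrix.mul_apply, Matrix.mulVec, dotProduct, hP]
    have h4 : (P * N) k i = (c i • b (π i)) k := by
      rw [Matrix.mul_apply, Finset.sum_eq_single (π i)]
      · show P k (π i) * (if π i = π i then c i else 0) = _
        simp [hP, mul_comm]
      · intro j _ hj
        show P k j * (if j = π i then c i else 0) = 0
        simp [hj]
      · simp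
    rw [h3, h4, hc]
  have hsub : N.submatrix π id = Matrix.diagonal c := by
    ext i j
    show (if π i = π j then c j else 0) = _
    rw [Matrix.diagonal_apply]
    by_cases h : i = j
    · subst h
      simp
    · simp [h, π.injective.ne h]
  have hdetN : N.det = ∏ i, c i := by
    have h3 := Matrix.det_permute π N
    rw [hsub, Matrix.det_diagonal] at h3
    rw [h3]
    rcases Int.units_eq_one_or (Equiv.Perm.sign π) with h | h
    · simp [h]
    · simp only [h, Units.val_neg, Units.val_one, Int.cast_neg, Int.cast_one]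
      linear_combination N.det * h2
  have hdP : P.det ≠ 0 := by
    have := (Matrix.isUnit_iff_isUnit_det P).mp hPu
    exact this.ne_zero
  have hprod : ∏ i, c i = 1 := by
    have h3 := congrArg Matrix.det hNP
    rw [Matrix.det_mul, Matrix.det_mul, hdet, one_mul, hdetN] at h3
    exact (mul_left_cancel₀ hdP (by rw [mul_one]; exact h3.symm : P.det * ∏ i, c i = P.det * 1))
  have hc0 : ∀ i, c i ≠ 0 := by
    intro i h0
    have h5 : ∏ i, c i = 0 := Finset.prod_eq_zero (Finset.mem_univ i) h0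
    rw [hprod] at h5
    exact one_ne_zero h5
  refine ⟨π, c, hc0, hprod, fun x => ⟨N *ᵥ x, ?_, fun i => ?_⟩⟩
  · rw [Matrix.mulVec_mulVec, hNP, Matrix.mulVec_mulVec]
  · simp only [Matrix.mulVec, dotProduct, N]
    rw [Finset.sum_eq_single i]
    · simp
    · intro j _ hji
      have : π i ≠ π j := fun h => hji (π.injective h).symm
      simp [this]
    · simp

theorem Xf_monomial [DecidableEq F] {π : Equiv.Perm (Fin 6)} {c : Fin 6 → F} (hc : ∀ i, c i ≠ 0) (hprod : ∏ i, c i = 1)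
    {x y : Fin 6 → F} (hy : ∀ i, y (π i) = c i * x i) (hx : Xf x) : Xf y := by
  have h0 : ∀ i, y (π i) ≠ 0 ↔ x i ≠ 0 := fun i => by
    rw [hy]
    simp [hc i]
  rcases hx with h | ⟨h3, h4⟩
  · left
    rw [← h]
    symm
    apply Finset.card_bijective π π.bijective
    intro i
    simp [h0]
  · right
    refine ⟨fun j => ?_, ?_⟩
    · obtain ⟨i, rfl⟩ := π.surjective j
      exact (h0 i).mpr (h3 i)
    · rw [← Equiv.prod_comp π]
      simp only [hy, Finset.prod_mul_distrib, hprod, h4, one_mul]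

/-- The frame stabiliser is not maximal in `SU₆(2)`. -/
theorem frame_not_max (hF : Fintype.card F = 4) {D : Fin 6 → Submodule F (Fin 6 → F)}
    (hD : IsNondegenerateMDecomposition (hermForm 6 F 2) 1 D)
    (hmax : IsMaximalIn (GU 6 F 2 ⊓ specialLinear (Fin 6) F)
      (decompositionStabilizer D ⊓ (GU 6 F 2 ⊓ specialLinear (Fin 6) F))) : False := by
  classical
  have h2 := two_eq_zero_of_card hF
  obtain ⟨ω, hω⟩ := exists_omega hF
  obtain ⟨b, hb, hbb⟩ := exists_frame_basis hF hD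
  let P : Matrix (Fin 6) (Fin 6) F := Matrix.of fun i j => b j i
  have hPent : ∀ i j, P i j = b j i := fun _ _ => rfl
  have hPf : Pᵀ * sg h2 P = 1 := by
    ext i j
    rw [Matrix.one_apply, ← hbb]
    simp only [Matrix.mul_apply, Matrix.transpose_apply, sg_apply]
    rfl
  let Pv : Matrix (Fin 6) (Fin 6) F := (sg h2 P)ᵀ
  have h3 : Pv * P = 1 := by
    have := congrArg Matrix.transpose hPf
    simpa [Matrix.transpose_mul, Pv] using this
  have h1 : P * Pv = 1 := mul_eq_one_comm.mp h3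
  have hPu : IsUnit P := by
    rw [Matrix.isUnit_iff_isUnit_det]
    exact IsUnit.of_mul_eq_one _ (by rw [← Matrix.det_mul, h1, Matrix.det_one])
  set ι := emb ω h2 hω with hι
  have hιinj : Function.Injective ι := emb_injective ω h2 hω
  have hιsurj : Function.Surjective ι := emb_surjective hF ω h2 hω
  have hsgmap : ∀ M : Matrix (Fin 6) (Fin 6) E4, sg h2 (M.map ι) = (frE M).map ι := by
    intro M
    ext i j
    rw [sg_apply]
    exact (emb_sq ω h2 hω _).symm
  have hM1s : T1.map ι * T1.map ι = 1 := by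
    rw [← Matrix.map_mul, T1_sq]
    simp
  have hM2s : T2.map ι * T2.map ι = 1 := by
    rw [← Matrix.map_mul, T2_sq]
    simp
  have hM1f : (T1.map ι)ᵀ * 1 * sg h2 (T1.map ι) = 1 := by
    rw [Matrix.mul_one, hsgmap, ← Matrix.transpose_map, ← Matrix.map_mul, T1_fr]
    simp
  have hM2f : (T2.map ι)ᵀ * 1 * sg h2 (T2.map ι) = 1 := by
    rw [Matrix.mul_one, hsgmap, ← Matrix.transpose_map, ← Matrix.map_mul, T2_fr]
    simp
  let G := GU 6 F 2 ⊓ specialLinear (Fin 6) F
  have hwG : mkGL h3 h1 hM1s ∈ G := mkGL_mem h3 h1 hPf hM1s hM1f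
  have htG : mkGL h3 h1 hM2s ∈ G := mkGL_mem h3 h1 hPf hM2s hM2f
  let X : Set (Fin 6 → F) := {y | ∃ x, Xf x ∧ y = P *ᵥ x}
  let M : Subgroup (GL (Fin 6) F) := stabSub X G
  have hHM : decompositionStabilizer D ⊓ G ≤ M := by
    have hact : ∀ h ∈ decompositionStabilizer D ⊓ G, ∀ y ∈ X, (h : Matrix (Fin 6) (Fin 6) F) *ᵥ y ∈ X := by
      rintro h ⟨hN, hhG⟩ y ⟨x, hx, rfl⟩
      have hdet : (h : Matrix (Fin 6) (Fin 6) F).det = 1 := (Cfsg.Agent.H97.Asch.mem_sl_iff h).mp hhG.2
      obtain ⟨π, c, hc, hprod, hN⟩ := monomial_form h2 hb hPent hPu hN hdet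
      obtain ⟨z, hz1, hz2⟩ := hN x
      exact ⟨z, Xf_monomial hc hprod hz2 hx, hz1⟩
    intro h hh
    exact ⟨hh.2, fun x hx => ⟨hact h hh x hx, hact _ (Subgroup.inv_mem _ hh) x hx⟩⟩
  have hMG : M ≤ G := fun g hg => hg.1
  rcases hmax.2 M hHM hMG with hE | hE
  · have hWM : mkGL h3 h1 hM1s ∈ M := by
      refine ⟨hwG, fun y hy => ?_⟩
      obtain ⟨x, hx, rfl⟩ := hy
      obtain ⟨x₀, rfl⟩ := tv_bij hιsurj x
      have h5 : ((mkGL h3 h1 hM1s : GL (Fin 6) F) : Matrix (Fin 6) (Fin 6) F) *ᵥ (P *ᵥ tv ι x₀) ∈ X := by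
        rw [mkGL_mulVec, tv_mulVec]
        exact ⟨_, (Xf_tv hιinj _).mpr (T1_X' _ ((Xf_tv hιinj _).mp hx)), rfl⟩
      exact ⟨h5, h5⟩
    rw [hE] at hWM
    obtain ⟨π, hπ⟩ := hWM.1
    have hcol : ∀ i, b i = P *ᵥ Pi.single i 1 := by
      intro i
      ext k
      rw [Matrix.mulVec_single_one]
      rfl
    have h5 : ((mkGL h3 h1 hM1s : GL (Fin 6) F) : Matrix (Fin 6) (Fin 6) F) *ᵥ b 0 ∈ D (π 0) := by
      rw [← hπ]
      exact ⟨b 0, by rw [hb]; exact Submodule.mem_span_singleton_self _, by simp [Matrix.toLin'_apply]⟩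
    rw [hb] at h5
    obtain ⟨c, hc⟩ := Submodule.mem_span_singleton.mp h5
    rw [hcol (π 0), hcol 0, mkGL_mulVec, ← Matrix.mulVec_smul] at hc
    have hcancel : ∀ y, Pv *ᵥ (P *ᵥ y) = y := fun y => by rw [Matrix.mulVec_mulVec, h3, Matrix.one_mulVec]
    have h6 := congrArg (fun x => Pv *ᵥ x) hc
    simp only [hcancel] at h6
    have hex : ∃ i : Fin 6, i ≠ 0 ∧ i ≠ π 0 := by
      by_cases h : π 0 = 1
      · exact ⟨2, by decide, by rw [h]; decide⟩
      · exact ⟨1, by decide, fun h' => h h'.symm⟩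
    obtain ⟨i, hi0, hi1⟩ := hex
    have h7 := congrFun h6 i
    have h8 : (T1.map ι *ᵥ Pi.single 0 1) i = 1 := by
      rw [Matrix.mulVec_single_one]
      show ι (T1 i 0) = 1
      simp [T1, hi0]
    rw [h8] at h7
    simp [hi1] at h7
  · have htM : mkGL h3 h1 hM2s ∈ M := by
      rw [hE]
      exact htG
    have hy : P *ᵥ tv ι y0 ∈ X := ⟨_, (Xf_tv hιinj _).mpr Xf_y0, rfl⟩
    have h5 := (htM.2 _ hy).1
    rw [mkGL_mulVec, tv_mulVec] at h5
    obtain ⟨x, hx, hxe⟩ := h5
    have hcancel : ∀ y, Pv *ᵥ (P *ᵥ y) = y := fun y => by rw [Matrix.mulVec_mulVec, h3, Matrix.one_mulVec]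
    have h6 := congrArg (fun x => Pv *ᵥ x) hxe
    simp only [hcancel] at h6
    rw [← h6] at hx
    exact not_Xf_T2 ((Xf_tv hιinj _).mp hx)

end Frame

end Cfsg.Agent.SU6Two
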