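import Cfsg.Agent.Lib.SU6TwoA

/-!
In `SU₆(2)` the normaliser of a field subalgebra of degree three lies in the subfield group of symplectic type.
-/

set_option autoImplicit false
set_option linter.unusedSectionVars false

namespace Cfsg.Agent.SU6Two

open Matrix Cfsg Cfsg.Geo
open Cfsg.Agent.SU5Two (E4 emb emb_sq emb_injective emb_surjective two_eq_zero_of_card exists_omega)
open Cfsg.Agent.HermN
open Cfsg.Agent.Lib.FieldModel

universe u

section Fld

variable {L : Type*} [Field L] [Fintype L]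

/-- An involution of the field with `64` elements which is not the identity is `x ↦ x ^ 8`. -/
theorem invol_eq_pow8 (h2 : (2 : L) = 0) (hL : Fintype.card L = 64) (ϕ : L →+* L) (hϕ : ∀ x, ϕ (ϕ x) = x) {x₀ : L}
    (hx₀ : ϕ x₀ ≠ x₀) (x : L) : ϕ x = x ^ 8 := by
  classical
  have : CharP L 2 := CharTwo.of_one_ne_zero_of_two_eq_zero one_ne_zero h2
  have hc := Cfsg.Agent.H97.Asch.card_fixed_invol ϕ hϕ hx₀
  rw [Nat.card_eq_fintype_card, hL] at hc
  have hc32 : Nat.card {x : L // ϕ x = x} = 8 := by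
    have h : (Nat.card {x : L // ϕ x = x}) ^ 2 = 8 ^ 2 := by rw [← hc]; norm_num
    exact Nat.pow_left_injective (n := 2) (by norm_num) h
  let S : Subfield L := ϕ.eqLocusField (RingHom.id L)
  have hScard : Nat.card S = 8 := by
    rw [← hc32]
    apply Nat.card_congr
    exact Equiv.subtypeEquivRight fun x => ⟨fun h => h, fun h => h⟩
  have hfix : ∀ y : L, ϕ y = y → y ^ 8 = y := by
    intro y hy
    have hyS : y ∈ S := hy
    let _ : Fintype S := Fintype.ofFinite S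
    have h1 := FiniteField.pow_card (⟨y, hyS⟩ : S)
    rw [← Nat.card_eq_fintype_card, hScard] at h1
    exact congrArg Subtype.val h1
  have hpow : ∀ a b : L, (a + b) ^ 8 = a ^ 8 + b ^ 8 := fun a b => add_pow_char_pow (R := L) (p := 2) (n := 3) a b
  have hmulpow : ∀ a b : L, (a * b) ^ 8 = a ^ 8 * b ^ 8 := fun a b => mul_pow a b 8
  have hne : (x ^ 8 - x) * (x ^ 8 - ϕ x) = 0 := by
    have ht : (x + ϕ x) ^ 8 = x + ϕ x := hfix _ (by rw [map_add, hϕ, add_comm])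
    have hn : (x * ϕ x) ^ 8 = x * ϕ x := hfix _ (by rw [map_mul, hϕ, mul_comm])
    have h0 : x ^ 2 + (x + ϕ x) * x + x * ϕ x = 0 := by linear_combination (x ^ 2 + x * ϕ x) * h2
    have h1 : (x ^ 2 + (x + ϕ x) * x + x * ϕ x) ^ 8 = 0 := by rw [h0]; norm_num
    rw [hpow, hpow, hmulpow (x + ϕ x) x, ht, hn] at h1
    linear_combination h1 - (x * x ^ 8 + ϕ x * x ^ 8) * h2
  rcases mul_eq_zero.mp hne with h | h
  · have hx : x ^ 8 = x := sub_eq_zero.mp h
    have hxS : x ∈ S := Cfsg.Agent.H97.Asch.mem_subfield_of_pow_card S (by rw [hScard]; exact hx)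
    have : ϕ x = x := hxS
    rw [this, hx]
  · exact (sub_eq_zero.mp h).symm

end Fld

section Trace

variable {F L : Type*} [Field F] [Fintype F] [Field L] [Fintype L] [Algebra F L]

/-- The trace from the field with `64` elements to the one with `4`. -/
theorem exists_trace (hF : Fintype.card F = 4) (hL : Fintype.card L = 64) (h2L : (2 : L) = 0) :
    ∃ tr : L →ₗ[F] F, ∀ z, algebraMap F L (tr z) = z + z ^ 4 + z ^ 16 := by
  classical
  have : CharP L 2 := CharTwo.of_one_ne_zero_of_two_eq_zero one_ne_zero h2L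
  have hpow4 : ∀ a b : L, (a + b) ^ 4 = a ^ 4 + b ^ 4 := fun a b => add_pow_char_pow (R := L) (p := 2) (n := 2) a b
  have hpow16 : ∀ a b : L, (a + b) ^ 16 = a ^ 16 + b ^ 16 := fun a b => add_pow_char_pow (R := L) (p := 2) (n := 4) a b
  let R : Subfield L := (algebraMap F L).fieldRange
  have hRcard : Nat.card R = 4 := by
    rw [← hF, ← Nat.card_eq_fintype_card]
    exact (Nat.card_congr (RingHom.rangeRestrictFieldEquiv (algebraMap F L)).toEquiv).symm
  have h64 : ∀ z : L, z ^ 64 = z := fun z => by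
    have := FiniteField.pow_card z
    rwa [hL] at this
  have hex : ∀ z : L, ∃ c : F, algebraMap F L c = z + z ^ 4 + z ^ 16 := by
    intro z
    have hmem : z + z ^ 4 + z ^ 16 ∈ R := by
      apply Cfsg.Agent.H97.Asch.mem_subfield_of_pow_card R
      rw [hRcard, hpow4, hpow4, ← pow_mul, ← pow_mul]
      norm_num
      rw [h64]
      ring
    exact hmem
  choose t ht using hex
  have hc4 : ∀ c : F, c ^ 4 = c := fun c => by
    have := FiniteField.pow_card c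
    rwa [hF] at this
  have hinj := (algebraMap F L).injective
  refine ⟨{ toFun := t, map_add' := ?_, map_smul' := ?_ }, ht⟩
  · intro a b
    apply hinj
    rw [map_add, ht, ht, ht, hpow4, hpow16]
    ring
  · intro c z
    apply hinj
    rw [RingHom.id_apply, smul_eq_mul, map_mul, ht, ht, Algebra.smul_def, mul_pow, mul_pow]
    have h1 : (algebraMap F L c) ^ 4 = algebraMap F L c := by rw [← map_pow, hc4]
    have h3 : (algebraMap F L c) ^ 16 = algebraMap F L c := by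
      calc (algebraMap F L c) ^ 16 = ((algebraMap F L c) ^ 4) ^ 4 := by ring
        _ = _ := by rw [h1, h1]
    rw [h1, h3]
    ring

end Trace

section Ctx

variable {F L : Type u} [Field F] [Fintype F] [Field L] [Algebra F L]

/-- The context: a field of degree three, its involution, its trace and the hermitian form with values in the field. -/
structure BCtx (φ : L →ₐ[F] Matrix (Fin 6) (Fin 6) F) (h2 : (2 : F) = 0) (st : L →+* L) (tr : L →ₗ[F] F)
    (h : (Fin 6 → F) → (Fin 6 → F) → L) : Prop where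
  hF : Fintype.card F = 4
  hfin : Module.finrank F L = 3
  hφ : Function.Injective φ
  hst : ∀ a, φ (st a) = adj h2 (φ a)
  hpow : ∀ a, st a = a ^ 8
  tr1 : tr 1 = 1
  trst : ∀ z, tr (st z) = (tr z) ^ 2
  hh : ∀ x y z, hermForm 6 F 2 (φ z *ᵥ x) y = tr (h x y * z)

theorem exists_c_tr [FiniteDimensional F L] (tr : L →ₗ[F] F) (h1 : tr 1 = 1) (ℓ : L →ₗ[F] F) : ∃ c, ∀ z, ℓ z = tr (c * z) := by
  let P : L →ₗ[F] Module.Dual F L :=
    { toFun := fun c => tr ∘ₗ LinearMap.mulLeft F c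
      map_add' := fun a b => by
        ext z
        simp [add_mul]
      map_smul' := fun c a => by
        ext z
        simp }
  have hinj : Function.Injective P := by
    rw [← LinearMap.ker_eq_bot, LinearMap.ker_eq_bot']
    intro c hc
    by_contra hc0
    have h3 := LinearMap.congr_fun hc c⁻¹
    have h4 : tr (c * c⁻¹) = 0 := by simpa [P] using h3
    rw [mul_inv_cancel₀ hc0, h1] at h4
    exact one_ne_zero h4
  have hsurj : Function.Surjective P :=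
    (LinearMap.injective_iff_surjective_of_finrank_eq_finrank (Subspace.dual_finrank_eq).symm).mp hinj
  obtain ⟨c, hc⟩ := hsurj ℓ
  refine ⟨c, fun z => ?_⟩
  rw [← hc]
  simp [P]

variable {φ : L →ₐ[F] Matrix (Fin 6) (Fin 6) F} {h2 : (2 : F) = 0} {st : L →+* L} {tr : L →ₗ[F] F}
  {h : (Fin 6 → F) → (Fin 6 → F) → L}

namespace BCtx

variable (C : BCtx φ h2 st tr h)
include C

theorem stst (a : L) : st (st a) = a := by
  apply C.hφ
  rw [C.hst, C.hst, adj_adj C.hF]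

theorem uniq {a b : L} (hab : ∀ z, tr (a * z) = tr (b * z)) : a = b := by
  by_contra hne
  have h0 := hab (a - b)⁻¹
  have h3 : tr ((a - b) * (a - b)⁻¹) = 0 := by
    rw [sub_mul, map_sub, h0, sub_self]
  rw [mul_inv_cancel₀ (sub_ne_zero.mpr hne), C.tr1] at h3
  exact one_ne_zero h3

theorem h_smul_left (a : L) (x y : Fin 6 → F) : h (φ a *ᵥ x) y = a * h x y := by
  apply C.uniq
  intro z
  rw [← C.hh, Matrix.mulVec_mulVec, ← map_mul, C.hh]
  congr 1
  ring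

theorem h_add_left (x x' y : Fin 6 → F) : h (x + x') y = h x y + h x' y := by
  apply C.uniq
  intro z
  rw [← C.hh, Matrix.mulVec_add, herm_add_left, C.hh, C.hh, add_mul, map_add]

theorem h_symm (x y : Fin 6 → F) : h y x = st (h x y) := by
  apply C.uniq
  intro z
  calc tr (h y x * z) = hermForm 6 F 2 (φ z *ᵥ y) x := (C.hh _ _ _).symm
    _ = hermForm 6 F 2 y (φ (st z) *ᵥ x) := by rw [herm_adj C.hF h2, C.hst]
    _ = (hermForm 6 F 2 (φ (st z) *ᵥ x) y) ^ 2 := herm_symm C.hF _ _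
    _ = (tr (h x y * st z)) ^ 2 := by rw [C.hh]
    _ = tr (st (h x y * st z)) := (C.trst _).symm
    _ = tr (st (h x y) * z) := by rw [map_mul, C.stst]

theorem h_smul_right (a : L) (x y : Fin 6 → F) : h x (φ a *ᵥ y) = st a * h x y := by
  rw [C.h_symm (φ a *ᵥ y) x, C.h_smul_left, map_mul, ← C.h_symm]

theorem h_add_right (x y y' : Fin 6 → F) : h x (y + y') = h x y + h x y' := by
  rw [C.h_symm (y + y') x, C.h_add_left, map_add, ← C.h_symm, ← C.h_symm]

theorem h_self_fixed (x : Fin 6 → F) : st (h x x) = h x x := (C.h_symm x x).symm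

theorem herm_eq_tr (x y : Fin 6 → F) : hermForm 6 F 2 x y = tr (h x y) := by
  have := C.hh x y 1
  rwa [map_one, Matrix.one_mulVec, mul_one] at this

theorem h_nondeg {x : Fin 6 → F} (hx : ∀ y, h x y = 0) : x = 0 := by
  apply herm_nondeg
  intro y
  rw [herm_symm C.hF, C.herm_eq_tr, hx, map_zero]
  simp

theorem h_zero_right (x : Fin 6 → F) : h x 0 = 0 := by
  have := C.h_smul_right 0 x 0
  simpa using this

theorem finDim : FiniteDimensional F L := Module.finite_of_finrank_pos (by rw [C.hfin]; norm_num)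

/-- Two independent vectors span. -/
theorem span_two {x y : Fin 6 → F} (hind : ∀ a b : L, φ a *ᵥ x + φ b *ᵥ y = 0 → a = 0 ∧ b = 0) (v : Fin 6 → F) :
    ∃ a b : L, v = φ a *ᵥ x + φ b *ᵥ y := by
  have := C.finDim
  let Ψ : (L × L) →ₗ[F] (Fin 6 → F) := (evalMap φ x).coprod (evalMap φ y)
  have hΨ : ∀ p : L × L, Ψ p = φ p.1 *ᵥ x + φ p.2 *ᵥ y := fun p => rfl
  have hinj : Function.Injective Ψ := by
    rw [← LinearMap.ker_eq_bot, LinearMap.ker_eq_bot']
    rintro ⟨a, b⟩ hab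
    obtain ⟨rfl, rfl⟩ := hind a b hab
    rfl
  have hfr : Module.finrank F (L × L) = Module.finrank F (Fin 6 → F) := by
    rw [Module.finrank_prod, C.hfin]
    simp
  obtain ⟨⟨a, b⟩, hab⟩ := (LinearMap.injective_iff_surjective_of_finrank_eq_finrank hfr).mp hinj v
  exact ⟨a, b, by rw [← hab, hΨ]⟩

/-- A vector outside a line over the field. -/
theorem exists_not_line (x : Fin 6 → F) : ∃ y : Fin 6 → F, ∀ a : L, y ≠ φ a *ᵥ x := by
  have := C.finDim
  by_contra hcon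
  push Not at hcon
  have hsurj : Function.Surjective (evalMap φ x) := by
    intro y
    obtain ⟨a, ha⟩ := hcon y
    exact ⟨a, ha.symm⟩
  have hle := LinearMap.finrank_le_finrank_of_surjective hsurj
  rw [C.hfin] at hle
  simp at hle

theorem exists_iso [Fintype L] (hL : Fintype.card L = 64) (h2L : (2 : L) = 0) : ∃ e : Fin 6 → F, e ≠ 0 ∧ h e e = 0 := by
  have := C.finDim
  have hc : Module.finrank F L = Fintype.card (Fin 3) := by simpa using C.hfin
  have hne : ∃ x : Fin 6 → F, x ≠ 0 := ⟨Pi.single 0 1, by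
    intro h0
    have := congrFun h0 0
    simp at this⟩
  obtain ⟨x, hx⟩ := hne
  by_cases hxx : h x x = 0
  · exact ⟨x, hx, hxx⟩
  obtain ⟨y, hy⟩ := C.exists_not_line x
  set y' : Fin 6 → F := y - φ (h y x * (h x x)⁻¹) *ᵥ x with hy'
  have hy'x : h y' x = 0 := by
    have e1 : y = y' + φ (h y x * (h x x)⁻¹) *ᵥ x := by rw [hy']; abel
    have e2 := C.h_add_left y' (φ (h y x * (h x x)⁻¹) *ᵥ x) x
    rw [← e1, C.h_smul_left, mul_assoc, inv_mul_cancel₀ hxx, mul_one] at e2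
    exact (add_eq_right.mp e2.symm)
  have hy'0 : y' ≠ 0 := by
    intro h0
    apply hy (h y x * (h x x)⁻¹)
    exact sub_eq_zero.mp h0
  have hxy' : h x y' = 0 := by rw [C.h_symm y' x, hy'x, map_zero]
  have hind : ∀ a b : L, φ a *ᵥ x + φ b *ᵥ y' = 0 → a = 0 ∧ b = 0 := by
    intro a b hab
    have e1 := congrArg (fun v => h v x) hab
    simp only [C.h_add_left, C.h_smul_left, hy'x, mul_zero, add_zero] at e1
    have h0x : h 0 x = 0 := by
      have := C.h_smul_left 0 x x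
      simpa using this
    rw [h0x] at e1
    have ha : a = 0 := (mul_eq_zero.mp e1).resolve_right hxx
    subst ha
    rw [map_zero, Matrix.zero_mulVec, zero_add] at hab
    refine ⟨rfl, ?_⟩
    by_contra hb
    exact mulVec_ne_zero φ hb hy'0 hab
  have hy'y' : h y' y' ≠ 0 := by
    intro h0
    apply hy'0
    apply C.h_nondeg
    intro v
    obtain ⟨a, b, rfl⟩ := C.span_two hind v
    rw [C.h_add_right, C.h_smul_right, C.h_smul_right, hy'x, h0]
    simp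
  have hL' : Fintype.card L = 8 ^ 2 := by rw [hL]; norm_num
  have hμ0 : h x x * (h y' y')⁻¹ ≠ 0 := mul_ne_zero hxx (inv_ne_zero hy'y')
  have hμ8 : (h x x * (h y' y')⁻¹) ^ 8 = h x x * (h y' y')⁻¹ := by
    rw [← C.hpow, map_mul, map_inv₀, C.h_self_fixed, C.h_self_fixed]
  obtain ⟨l, hl0, hl⟩ := Cfsg.Agent.Lib.FFNorm.exists_norm_eq hL' hμ0 hμ8
  refine ⟨x + φ l *ᵥ y', ?_, ?_⟩
  · intro h0
    have := (hind 1 l (by rw [map_one, Matrix.one_mulVec]; exact h0)).1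
    exact one_ne_zero this
  · rw [C.h_add_left, C.h_add_right, C.h_add_right, C.h_smul_left, C.h_smul_left, C.h_smul_right, C.h_smul_right, hy'x, hxy',
      C.hpow]
    have h3 : l * (l ^ 8 * h y' y') = h x x := by
      have : l * (l ^ 8 * h y' y') = l ^ (8 + 1) * h y' y' := by ring
      rw [this, hl, mul_assoc, inv_mul_cancel₀ hy'y', mul_one]
    rw [h3]
    simp only [mul_zero, add_zero, zero_add]
    linear_combination h x x * h2L

/-- A hyperbolic pair over the field. -/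
theorem exists_hyp [Fintype L] (hL : Fintype.card L = 64) (h2L : (2 : L) = 0) {ω : F}
    (hstω : st (algebraMap F L ω) = algebraMap F L ω + 1) :
    ∃ e₁ e₂ : Fin 6 → F, h e₁ e₁ = 0 ∧ h e₂ e₂ = 0 ∧ h e₁ e₂ = 1 := by
  obtain ⟨e, he, hee⟩ := C.exists_iso hL h2L
  have hex : ∃ y, h e y ≠ 0 := by
    by_contra hcon
    push Not at hcon
    exact he (C.h_nondeg hcon)
  obtain ⟨y, hy⟩ := hex
  obtain ⟨y₁, hy₁⟩ : ∃ y₁, y₁ = φ ((st (h e y))⁻¹) *ᵥ y := ⟨_, rfl⟩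
  have he1 : h e y₁ = 1 := by
    rw [hy₁, C.h_smul_right, map_inv₀, C.stst, inv_mul_cancel₀ hy]
  have h1e : h y₁ e = 1 := by
    rw [C.h_symm e y₁, he1, map_one]
  obtain ⟨ν, hν⟩ : ∃ ν, ν = algebraMap F L ω := ⟨_, rfl⟩
  rw [← hν] at hstω
  obtain ⟨μ, hμ⟩ : ∃ μ, μ = h y₁ y₁ * ν := ⟨_, rfl⟩
  have hμ1 : μ + st μ = h y₁ y₁ := by
    rw [hμ, map_mul, C.h_self_fixed, hstω]
    linear_combination (h y₁ y₁ * ν) * h2L
  refine ⟨e, y₁ + φ μ *ᵥ e, hee, ?_, ?_⟩
  · rw [C.h_add_left, C.h_add_right, C.h_add_right, C.h_smul_left, C.h_smul_left, C.h_smul_right, C.h_smul_right, hee, he1, h1e]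
    simp only [mul_zero, mul_one, add_zero]
    linear_combination hμ1 + h y₁ y₁ * h2L
  · rw [C.h_add_right, C.h_smul_right, hee, he1]
    simp

section Pair

variable {e₁ e₂ : Fin 6 → F} (h11 : h e₁ e₁ = 0) (h22 : h e₂ e₂ = 0) (h12 : h e₁ e₂ = 1)
include h11 h22 h12

theorem h21 : h e₂ e₁ = 1 := by
  rw [C.h_symm e₁ e₂, h12, map_one]

theorem pair_ind (a b : L) (hab : φ a *ᵥ e₁ + φ b *ᵥ e₂ = 0) : a = 0 ∧ b = 0 := by
  have h0x : ∀ x, h 0 x = 0 := fun x => by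
    have := C.h_smul_left 0 x x
    simpa using this
  have e1 := congrArg (fun v => h v e₂) hab
  have e3 := congrArg (fun v => h v e₁) hab
  simp only [C.h_add_left, C.h_smul_left, h22, h12, h0x, mul_zero, add_zero, mul_one] at e1
  simp only [C.h_add_left, C.h_smul_left, h11, C.h21 h11 h22 h12, h0x, mul_zero, zero_add, mul_one] at e3
  exact ⟨e1, e3⟩

theorem pair_expand (v : Fin 6 → F) : v = φ (h v e₂) *ᵥ e₁ + φ (h v e₁) *ᵥ e₂ := by
  obtain ⟨a, b, hv⟩ := C.span_two (C.pair_ind h11 h22 h12) v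
  have e1 : h v e₂ = a := by
    rw [hv, C.h_add_left, C.h_smul_left, C.h_smul_left, h22, h12]
    simp
  have e3 : h v e₁ = b := by
    rw [hv, C.h_add_left, C.h_smul_left, C.h_smul_left, h11, C.h21 h11 h22 h12]
    simp
  rw [e1, e3]
  exact hv

theorem h_W (a b a' b' : L) : h (φ a *ᵥ e₁ + φ b *ᵥ e₂) (φ a' *ᵥ e₁ + φ b' *ᵥ e₂) = a * st b' + b * st a' := by
  simp only [C.h_add_left, C.h_add_right, C.h_smul_left, C.h_smul_right, h11, h22, h12, C.h21 h11 h22 h12]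
  ring

/-- A vector isotropic over the field is a multiple of a rational one. -/
theorem iso_form {v : Fin 6 → F} (hv0 : v ≠ 0) (hv : h v v = 0) (h2L : (2 : L) = 0) :
    ∃ c a b : L, c ≠ 0 ∧ st a = a ∧ st b = b ∧ v = φ c *ᵥ (φ a *ᵥ e₁ + φ b *ᵥ e₂) := by
  have he := C.pair_expand h11 h22 h12 v
  set a' := h v e₂ with ha'
  set b' := h v e₁ with hb'
  have hnorm : a' * st b' + b' * st a' = 0 := by
    rw [← C.h_W h11 h22 h12 a' b' a' b', ← he, hv]
  by_cases hb : b' = 0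
  · have ha : a' ≠ 0 := by
      intro ha
      apply hv0
      rw [he, ha, hb]
      simp
    refine ⟨a', 1, 0, ha, map_one st, map_zero st, ?_⟩
    rw [Matrix.mulVec_add, Matrix.mulVec_mulVec, Matrix.mulVec_mulVec, ← map_mul, ← map_mul, mul_one, mul_zero, he, hb]
  · refine ⟨b', a' * b'⁻¹, 1, hb, ?_, map_one st, ?_⟩
    · rw [map_mul, map_inv₀]
      have hsb : st b' ≠ 0 := (map_ne_zero st).mpr hb
      field_simp
      linear_combination -hnorm + b' * st a' * h2L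
    · rw [Matrix.mulVec_add, Matrix.mulVec_mulVec, Matrix.mulVec_mulVec, ← map_mul, ← map_mul, mul_one, mul_comm b',
        inv_mul_cancel_right₀ hb]
      exact he

end Pair

theorem st_alg (c : F) : st (algebraMap F L c) = algebraMap F L (c ^ 2) := by
  apply C.hφ
  rw [C.hst, AlgHom.commutes, AlgHom.commutes, Algebra.algebraMap_eq_smul_one, Algebra.algebraMap_eq_smul_one, adj_smul_one]

/-- Adjoint of a unitary matrix. -/
theorem adj_mul_self {g : Matrix (Fin 6) (Fin 6) F}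
    (hU : ∀ x y, hermForm 6 F 2 (g *ᵥ x) (g *ᵥ y) = hermForm 6 F 2 x y) : adj h2 g * g = 1 := by
  apply Matrix.ext_of_mulVec_single
  intro i
  apply herm_right_inj C.hF
  intro u
  rw [← Matrix.mulVec_mulVec, ← herm_adj C.hF h2, hU, Matrix.one_mulVec]

section GroupElt

variable {K : Subalgebra F (Matrix (Fin 6) (Fin 6) F)} (hKφ : ∀ k, k ∈ K ↔ ∃ a, φ a = k)
  {g : GL (Fin 6) F} (hN : g ∈ subalgebraNormalizer K)
  (hU : ∀ x y, hermForm 6 F 2 ((g : Matrix (Fin 6) (Fin 6) F) *ᵥ x) ((g : Matrix (Fin 6) (Fin 6) F) *ᵥ y) = hermForm 6 F 2 x y)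
include hKφ hN

omit C in
theorem exists_conj_left (a : L) : ∃ b, (g : Matrix (Fin 6) (Fin 6) F) * φ a = φ b * (g : Matrix (Fin 6) (Fin 6) F) := by
  have h1 : φ a ∈ K := (hKφ _).mpr ⟨a, rfl⟩
  obtain ⟨b, hb⟩ := (hKφ _).mp ((hN (φ a)).mp h1)
  refine ⟨b, ?_⟩
  rw [hb, Matrix.mul_assoc, Units.inv_mul, Matrix.mul_one]

omit C in
theorem exists_conj_right (a : L) : ∃ b, φ a * (g : Matrix (Fin 6) (Fin 6) F) = (g : Matrix (Fin 6) (Fin 6) F) * φ b := by
  obtain ⟨b, hb⟩ := exists_conj_left hKφ (Subgroup.inv_mem _ hN) a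
  refine ⟨b, ?_⟩
  have h3 : (g : Matrix (Fin 6) (Fin 6) F) * (((g⁻¹ : GL (Fin 6) F) : Matrix (Fin 6) (Fin 6) F) * φ a) * (g : Matrix (Fin 6) (Fin 6) F)
      = (g : Matrix (Fin 6) (Fin 6) F) * (φ b * ((g⁻¹ : GL (Fin 6) F) : Matrix (Fin 6) (Fin 6) F)) * (g : Matrix (Fin 6) (Fin 6) F) := by
    rw [hb]
  have hhi : (g : Matrix (Fin 6) (Fin 6) F) * ((g⁻¹ : GL (Fin 6) F) : Matrix (Fin 6) (Fin 6) F) = 1 := Units.mul_inv g
  have hih : ((g⁻¹ : GL (Fin 6) F) : Matrix (Fin 6) (Fin 6) F) * (g : Matrix (Fin 6) (Fin 6) F) = 1 := Units.inv_mul g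
  calc φ a * (g : Matrix (Fin 6) (Fin 6) F)
      = (g : Matrix (Fin 6) (Fin 6) F) * (((g⁻¹ : GL (Fin 6) F) : Matrix (Fin 6) (Fin 6) F) * φ a) * (g : Matrix (Fin 6) (Fin 6) F) := by
        rw [← Matrix.mul_assoc _ _ (φ a), hhi, Matrix.one_mul]
    _ = (g : Matrix (Fin 6) (Fin 6) F) * (φ b * ((g⁻¹ : GL (Fin 6) F) : Matrix (Fin 6) (Fin 6) F)) * (g : Matrix (Fin 6) (Fin 6) F) := h3
    _ = _ := by
        rw [Matrix.mul_assoc, Matrix.mul_assoc, hih, Matrix.mul_one]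

include hU

theorem fixed_conj {a a' : L} (ha : st a = a) (haa : (g : Matrix (Fin 6) (Fin 6) F) * φ a = φ a' * (g : Matrix (Fin 6) (Fin 6) F)) : st a' = a' := by
  apply C.hφ
  have hag := C.adj_mul_self hU
  have hga : (g : Matrix (Fin 6) (Fin 6) F) * adj h2 (g : Matrix (Fin 6) (Fin 6) F) = 1 := mul_eq_one_comm.mp hag
  have h3 := congrArg (adj h2) haa
  rw [adj_mul, adj_mul, ← C.hst, ← C.hst, ha] at h3
  calc φ (st a') = (g : Matrix (Fin 6) (Fin 6) F) * adj h2 (g : Matrix (Fin 6) (Fin 6) F) * φ (st a') * (g : Matrix (Fin 6) (Fin 6) F) *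
        ((g⁻¹ : GL (Fin 6) F) : Matrix (Fin 6) (Fin 6) F) := by
        rw [hga, Matrix.one_mul, Matrix.mul_assoc, Units.mul_inv, Matrix.mul_one]
    _ = (g : Matrix (Fin 6) (Fin 6) F) * (adj h2 (g : Matrix (Fin 6) (Fin 6) F) * φ (st a')) * (g : Matrix (Fin 6) (Fin 6) F) *
        ((g⁻¹ : GL (Fin 6) F) : Matrix (Fin 6) (Fin 6) F) := by simp only [Matrix.mul_assoc]
    _ = (g : Matrix (Fin 6) (Fin 6) F) * (φ a * adj h2 (g : Matrix (Fin 6) (Fin 6) F)) * (g : Matrix (Fin 6) (Fin 6) F) *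
        ((g⁻¹ : GL (Fin 6) F) : Matrix (Fin 6) (Fin 6) F) := by rw [h3]
    _ = (g : Matrix (Fin 6) (Fin 6) F) * φ a * (adj h2 (g : Matrix (Fin 6) (Fin 6) F) * (g : Matrix (Fin 6) (Fin 6) F)) *
        ((g⁻¹ : GL (Fin 6) F) : Matrix (Fin 6) (Fin 6) F) := by simp only [Matrix.mul_assoc]
    _ = φ a' * ((g : Matrix (Fin 6) (Fin 6) F) * ((g⁻¹ : GL (Fin 6) F) : Matrix (Fin 6) (Fin 6) F)) := by
        rw [hag, Matrix.mul_one, haa, Matrix.mul_assoc]
    _ = φ a' := by rw [Units.mul_inv, Matrix.mul_one]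

theorem h_g_iso {x : Fin 6 → F} (hx : h x x = 0) : h ((g : Matrix (Fin 6) (Fin 6) F) *ᵥ x) ((g : Matrix (Fin 6) (Fin 6) F) *ᵥ x) = 0 := by
  apply C.uniq
  intro z
  obtain ⟨z', hz'⟩ := exists_conj_right hKφ hN z
  rw [← C.hh, Matrix.mulVec_mulVec, hz', ← Matrix.mulVec_mulVec, hU, C.hh, hx]
  simp

theorem h_g_pair {x y : Fin 6 → F} (hxy : h x y = 1) :
    st (h ((g : Matrix (Fin 6) (Fin 6) F) *ᵥ x) ((g : Matrix (Fin 6) (Fin 6) F) *ᵥ y)) =
      h ((g : Matrix (Fin 6) (Fin 6) F) *ᵥ x) ((g : Matrix (Fin 6) (Fin 6) F) *ᵥ y) ∧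
      h ((g : Matrix (Fin 6) (Fin 6) F) *ᵥ x) ((g : Matrix (Fin 6) (Fin 6) F) *ᵥ y) ≠ 0 := by
  have hyx : h y x = 1 := by rw [C.h_symm x y, hxy, map_one]
  constructor
  · apply C.uniq
    intro z
    obtain ⟨z', hz'⟩ := exists_conj_right hKφ hN z
    rw [← C.h_symm, ← C.hh, ← C.hh, Matrix.mulVec_mulVec, Matrix.mulVec_mulVec, hz', ← Matrix.mulVec_mulVec,
      ← Matrix.mulVec_mulVec, hU, hU, C.hh, C.hh, hxy, hyx]
  · intro h0
    have h3 := C.hh ((g : Matrix (Fin 6) (Fin 6) F) *ᵥ x) ((g : Matrix (Fin 6) (Fin 6) F) *ᵥ y) 1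
    rw [map_one, Matrix.one_mulVec, hU, h0, zero_mul, map_zero, C.herm_eq_tr, hxy, C.tr1] at h3
    exact one_ne_zero h3

end GroupElt

/-- An element of the normaliser of the field carries the rational vectors to multiples of rational vectors. -/
theorem g_action {e₁ e₂ : Fin 6 → F} (h11 : h e₁ e₁ = 0) (h22 : h e₂ e₂ = 0) (h12 : h e₁ e₂ = 1) (h2L : (2 : L) = 0)
    {K : Subalgebra F (Matrix (Fin 6) (Fin 6) F)} (hKφ : ∀ k, k ∈ K ↔ ∃ a, φ a = k)
    {g : GL (Fin 6) F} (hN : g ∈ subalgebraNormalizer K)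
    (hU : ∀ x y, hermForm 6 F 2 ((g : Matrix (Fin 6) (Fin 6) F) *ᵥ x) ((g : Matrix (Fin 6) (Fin 6) F) *ᵥ y) = hermForm 6 F 2 x y) :
    ∃ c₁ : L, c₁ ≠ 0 ∧ ∀ a b : L, st a = a → st b = b → ∃ a' b' : L, st a' = a' ∧ st b' = b' ∧
      (g : Matrix (Fin 6) (Fin 6) F) *ᵥ (φ a *ᵥ e₁ + φ b *ᵥ e₂) = φ c₁ *ᵥ (φ a' *ᵥ e₁ + φ b' *ᵥ e₂) := by
  obtain ⟨hDfix, hD0⟩ := C.h_g_pair hKφ hN hU h12
  have h0x : ∀ x, h 0 x = 0 := fun x => by
    have := C.h_smul_left 0 x x
    simpa using this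
  obtain ⟨v₁, hv₁⟩ : ∃ v₁, v₁ = (g : Matrix (Fin 6) (Fin 6) F) *ᵥ e₁ := ⟨_, rfl⟩
  obtain ⟨v₂, hv₂⟩ : ∃ v₂, v₂ = (g : Matrix (Fin 6) (Fin 6) F) *ᵥ e₂ := ⟨_, rfl⟩
  rw [← hv₁, ← hv₂] at hDfix hD0
  have hv₁0 : v₁ ≠ 0 := by
    rintro rfl
    exact hD0 (h0x _)
  have hv₂0 : v₂ ≠ 0 := by
    rintro rfl
    exact hD0 (C.h_zero_right _)
  have hv₁i : h v₁ v₁ = 0 := by rw [hv₁]; exact C.h_g_iso hKφ hN hU h11
  have hv₂i : h v₂ v₂ = 0 := by rw [hv₂]; exact C.h_g_iso hKφ hN hU h22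
  obtain ⟨c₁, a₁, b₁, hc₁, ha₁, hb₁, hv₁e⟩ := C.iso_form h11 h22 h12 hv₁0 hv₁i h2L
  obtain ⟨c₂, a₂, b₂, hc₂, ha₂, hb₂, hv₂e⟩ := C.iso_form h11 h22 h12 hv₂0 hv₂i h2L
  have hDe : h v₁ v₂ = c₁ * st c₂ * (a₁ * b₂ + b₁ * a₂) := by
    rw [hv₁e, hv₂e, C.h_smul_left, C.h_smul_right, C.h_W h11 h22 h12, hb₂, ha₂]
    ring
  have hd0 : a₁ * b₂ + b₁ * a₂ ≠ 0 := by
    intro h0
    rw [h0, mul_zero] at hDe
    exact hD0 hDe
  have hdfix : st (a₁ * b₂ + b₁ * a₂) = a₁ * b₂ + b₁ * a₂ := by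
    rw [map_add, map_mul, map_mul, ha₁, hb₁, ha₂, hb₂]
  have hstc₁ : st c₁ ≠ 0 := (map_ne_zero st).mpr hc₁
  -- the ratio of the two multipliers is rational
  obtain ⟨r₂, hr₂, hc₂e⟩ : ∃ r₂, st r₂ = r₂ ∧ c₂ = c₁ * r₂ := by
    refine ⟨h v₁ v₂ * (a₁ * b₂ + b₁ * a₂)⁻¹ * (c₁ * st c₁)⁻¹, ?_, ?_⟩
    · rw [map_mul, map_mul, map_inv₀, map_inv₀, hDfix, hdfix, map_mul, C.stst, mul_comm (st c₁)]
    · have h3 : st (h v₁ v₂) = st c₁ * c₂ * (a₁ * b₂ + b₁ * a₂) := by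
        rw [hDe, map_mul, map_mul, C.stst, hdfix]
      rw [hDfix] at h3
      rw [h3]
      field_simp
  have hfix : ∀ a a' : L, st a = a → (g : Matrix (Fin 6) (Fin 6) F) * φ a = φ a' * (g : Matrix (Fin 6) (Fin 6) F) → st a' = a' :=
    fun a a' ha haa => C.fixed_conj hKφ hN hU ha haa
  refine ⟨c₁, hc₁, fun a b ha hb => ?_⟩
  obtain ⟨a', haa⟩ := exists_conj_left hKφ hN a
  obtain ⟨b', hbb⟩ := exists_conj_left hKφ hN b
  have ha' := hfix a a' ha haa
  have hb' := hfix b b' hb hbb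
  refine ⟨a' * a₁ + b' * r₂ * a₂, a' * b₁ + b' * r₂ * b₂, ?_, ?_, ?_⟩
  · simp only [map_add, map_mul, ha', hb', hr₂, ha₁, ha₂]
  · simp only [map_add, map_mul, ha', hb', hr₂, hb₁, hb₂]
  · have e1 : (g : Matrix (Fin 6) (Fin 6) F) *ᵥ (φ a *ᵥ e₁) = φ a' *ᵥ v₁ := by
      rw [Matrix.mulVec_mulVec, haa, ← Matrix.mulVec_mulVec, hv₁]
    have e2 : (g : Matrix (Fin 6) (Fin 6) F) *ᵥ (φ b *ᵥ e₂) = φ b' *ᵥ v₂ := by
      rw [Matrix.mulVec_mulVec, hbb, ← Matrix.mulVec_mulVec, hv₂]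
    rw [Matrix.mulVec_add, e1, e2, hv₁e, hv₂e, hc₂e]
    simp only [Matrix.mulVec_add, Matrix.mulVec_mulVec, ← map_mul, map_add, Matrix.add_mulVec, mul_add]
    have e3 : a' * (c₁ * a₁) = c₁ * (a' * a₁) := by ring
    have e4 : a' * (c₁ * b₁) = c₁ * (a' * b₁) := by ring
    have e5 : b' * (c₁ * r₂ * a₂) = c₁ * (b' * r₂ * a₂) := by ring
    have e6 : b' * (c₁ * r₂ * b₂) = c₁ * (b' * r₂ * b₂) := by ring
    rw [e3, e4, e5, e6]
    abel

end BCtx

end Ctx

end Cfsg.Agent.SU6Two
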