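import Cfsg.Agent.Lib.SU6TwoB

/-!
The normaliser of a field of degree three in `SU₆(2)`: determinant of the field elements, rational coordinates.
-/

set_option autoImplicit false
set_option linter.unusedSectionVars false

namespace Cfsg.Agent.SU6Two

open Matrix Cfsg Cfsg.Geo
open Cfsg.Agent.SU5Two (frob2 frob2_apply)
open Cfsg.Agent.HermN
open Cfsg.Agent.Lib.FieldModel

universe u

section Fld

variable {F L : Type*} [Field F] [Fintype F] [Field L] [Fintype L] [Algebra F L]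

theorem mem_alg (hF : Fintype.card F = 4) {x : L} (hx : x ^ 4 = x) : ∃ c : F, algebraMap F L c = x := by
  let R : Subfield L := (algebraMap F L).fieldRange
  have hRcard : Nat.card R = 4 := by
    rw [← hF, ← Nat.card_eq_fintype_card]
    exact (Nat.card_congr (RingHom.rangeRestrictFieldEquiv (algebraMap F L)).toEquiv).symm
  have hmem : x ∈ R := by
    apply Cfsg.Agent.H97.Asch.mem_subfield_of_pow_card R
    rwa [hRcard]
  exact hmem

omit [Fintype L] in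
theorem alg_pow4 (hF : Fintype.card F = 4) (c : F) : (algebraMap F L c) ^ 4 = algebraMap F L c := by
  rw [← map_pow]
  have := FiniteField.pow_card c
  rw [hF] at this
  rw [this]

omit [Fintype F] [Fintype L] in
/-- Powers of an element outside the small field are independent. -/
theorem indep3 (hfin : Module.finrank F L = 3) {u : L} (hu : ∀ c : F, algebraMap F L c ≠ u) {c₀ c₁ c₂ : F}
    (h : algebraMap F L c₀ + algebraMap F L c₁ * u + algebraMap F L c₂ * u ^ 2 = 0) : c₀ = 0 ∧ c₁ = 0 ∧ c₂ = 0 := by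
  have : FiniteDimensional F L := Module.finite_of_finrank_pos (by omega)
  have hint : IsIntegral F u := Algebra.IsIntegral.isIntegral u
  have hdvd := minpoly.degree_dvd hint
  rw [hfin] at hdvd
  have hne : (minpoly F u).natDegree ≠ 1 := by
    intro h1
    obtain ⟨c, hc⟩ := minpoly.natDegree_eq_one_iff.mp h1
    exact hu c hc
  have h3 : (minpoly F u).natDegree = 3 := by
    rcases (Nat.dvd_prime (by norm_num : Nat.Prime 3)).mp hdvd with h' | h'
    · exact absurd h' hne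
    · exact h'
  have key : ∀ n, n = (minpoly F u).natDegree → LinearIndependent F fun i : Fin n => u ^ (i : ℕ) := by
    rintro n rfl
    exact linearIndependent_pow u
  have hli := key 3 h3.symm
  rw [Fintype.linearIndependent_iff] at hli
  have h4 := hli ![c₀, c₁, c₂] (by
    rw [Fin.sum_univ_three]
    simp only [Matrix.cons_val_zero, Matrix.cons_val_one, Matrix.cons_val, Fin.val_zero, Fin.val_one, Fin.val_two, pow_zero, pow_one,
      Algebra.smul_def, mul_one]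
    exact h)
  exact ⟨h4 0, h4 1, h4 2⟩

/-- The generator of the multiplicative group. -/
theorem exists_gen (hL : Fintype.card L = 64) :
    ∃ g : L, g ≠ 0 ∧ orderOf g = 63 ∧ ∀ x : L, x ≠ 0 → ∃ i : ℕ, x = g ^ i := by
  classical
  obtain ⟨g, hg⟩ := IsCyclic.exists_generator (α := Lˣ)
  have hcard : Fintype.card Lˣ = 63 := by
    rw [Fintype.card_units, hL]
  have hord : orderOf g = 63 := by
    rw [← hcard]
    exact orderOf_eq_card_of_forall_mem_zpowers hg |>.trans (Nat.card_eq_fintype_card)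
  refine ⟨g, g.ne_zero, by rw [orderOf_units]; exact hord, fun x hx => ?_⟩
  have hx' := hg (Units.mk0 x hx)
  obtain ⟨i, hi⟩ := (mem_powers_iff_mem_zpowers).mpr hx'
  refine ⟨i, ?_⟩
  have := congrArg Units.val hi
  simpa using this.symm

end Fld

section DetMono

variable {F : Type*} [Field F]

/-- Monomial matrices in characteristic two. -/
theorem det_mono {n : ℕ} (h2 : (2 : F) = 0) (π : Equiv.Perm (Fin n)) (c : Fin n → F) :
    (Matrix.of fun j i => if j = π i then c i else 0 : Matrix (Fin n) (Fin n) F).det = ∏ i, c i := by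
  classical
  set N : Matrix (Fin n) (Fin n) F := Matrix.of fun j i => if j = π i then c i else 0 with hN
  have hsub : N.submatrix π id = Matrix.diagonal c := by
    ext i j
    show (if π i = π j then c j else 0) = _
    rw [Matrix.diagonal_apply]
    by_cases h : i = j
    · subst h
      simp
    · simp [h, π.injective.ne h]
  have h3 := Matrix.det_permute π N
  rw [hsub, Matrix.det_diagonal] at h3
  rw [h3]
  rcases Int.units_eq_one_or (Equiv.Perm.sign π) with h | h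
  · simp [h]
  · simp only [h, Units.val_neg, Units.val_one, Int.cast_neg, Int.cast_one]
    linear_combination N.det * h2

end DetMono

section Q

variable {F L : Type*} [Field F] [Field L] [Algebra F L]
  (φ : L →ₐ[F] Matrix (Fin 6) (Fin 6) F)

/-- The matrix with columns `e₁, u e₁, u² e₁, e₂, u e₂, u² e₂`. -/
noncomputable def Qu (u : L) (e₁ e₂ : Fin 6 → F) : Matrix (Fin 6) (Fin 6) F :=
  Matrix.of fun i j => (![e₁, φ u *ᵥ e₁, φ (u ^ 2) *ᵥ e₁, e₂, φ u *ᵥ e₂, φ (u ^ 2) *ᵥ e₂] j) i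

/-- The field element with coordinates `x₀, x₁, x₂`. -/
noncomputable def lf (u : L) (x₀ x₁ x₂ : F) : L := algebraMap F L x₀ + algebraMap F L x₁ * u + algebraMap F L x₂ * u ^ 2

theorem Qu_mulVec (u : L) (e₁ e₂ x : Fin 6 → F) :
    Qu φ u e₁ e₂ *ᵥ x = φ (lf u (x 0) (x 1) (x 2)) *ᵥ e₁ + φ (lf u (x 3) (x 4) (x 5)) *ᵥ e₂ := by
  have e3 : ∀ (c : F) (w : L) (v : Fin 6 → F), φ (algebraMap F L c * w) *ᵥ v = c • (φ w *ᵥ v) := by
    intro c w v
    rw [map_mul, AlgHom.commutes, Algebra.algebraMap_eq_smul_one, Matrix.smul_mul, Matrix.one_mul, Matrix.smul_mulVec]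
  have e4 : ∀ (c : F) (v : Fin 6 → F), φ (algebraMap F L c) *ᵥ v = c • v := by
    intro c v
    rw [AlgHom.commutes, Algebra.algebraMap_eq_smul_one, Matrix.smul_mulVec, Matrix.one_mulVec]
  unfold lf
  simp only [map_add, Matrix.add_mulVec, e3, e4]
  ext i
  rw [show (Qu φ u e₁ e₂ *ᵥ x) i = ∑ j, Qu φ u e₁ e₂ i j * x j from rfl, Fin.sum_univ_six]
  simp only [Pi.add_apply, Pi.smul_apply, smul_eq_mul, Qu, Matrix.of_apply, Matrix.cons_val]
  ring

end Q

section F2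

variable {F : Type*} [Field F]

/-- The prime field in characteristic two. -/
def F2 (h2 : (2 : F) = 0) : Subfield F := (frob2 h2).eqLocusField (RingHom.id F)

theorem mem_F2 (h2 : (2 : F) = 0) (x : F) : x ∈ F2 h2 ↔ x ^ 2 = x := Iff.rfl

theorem eq_zero_or_one_of_sq {x : F} (hx : x ^ 2 = x) : x = 0 ∨ x = 1 := by
  have h3 : x * (x - 1) = 0 := by linear_combination hx
  rcases mul_eq_zero.mp h3 with h | h
  · exact Or.inl h
  · exact Or.inr (sub_eq_zero.mp h)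

theorem card_F2 (h2 : (2 : F) = 0) : Nat.card (F2 h2) = 2 := by
  rw [Nat.card_eq_two_iff]
  refine ⟨0, 1, ?_, ?_⟩
  · intro h
    have := congrArg Subtype.val h
    exact zero_ne_one this
  · ext ⟨x, hx⟩
    simp only [Set.mem_insert_iff, Set.mem_singleton_iff, Set.mem_univ, iff_true]
    rcases eq_zero_or_one_of_sq ((mem_F2 h2 x).mp hx) with h | h
    · left
      exact Subtype.ext h
    · right
      exact Subtype.ext h

end F2

section Main

variable {F L : Type u} [Field F] [Fintype F] [Field L] [Fintype L] [Algebra F L]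
  {φ : L →ₐ[F] Matrix (Fin 6) (Fin 6) F} {h2 : (2 : F) = 0} {st : L →+* L} {tr : L →ₗ[F] F}
  {h : (Fin 6 → F) → (Fin 6 → F) → L}

namespace BCtx

variable (C : BCtx φ h2 st tr h)
include C

section Pair

variable {e₁ e₂ : Fin 6 → F} (h11 : h e₁ e₁ = 0) (h22 : h e₂ e₂ = 0) (h12 : h e₁ e₂ = 1)
include h11 h22 h12

theorem Qu_unit {u : L} (hu : ∀ c : F, algebraMap F L c ≠ u) : IsUnit (Qu φ u e₁ e₂) := by
  rw [← Matrix.mulVec_injective_iff_isUnit]
  intro x y hxy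
  have hxy' : Qu φ u e₁ e₂ *ᵥ (x - y) = 0 := by
    rw [Matrix.mulVec_sub, sub_eq_zero]
    exact hxy
  rw [Qu_mulVec] at hxy'
  obtain ⟨ha, hb⟩ := C.pair_ind h11 h22 h12 _ _ hxy'
  obtain ⟨h0, h1, h2'⟩ := indep3 C.hfin hu ha
  obtain ⟨h3, h4, h5⟩ := indep3 C.hfin hu hb
  have : x - y = 0 := by
    ext i
    fin_cases i
    · exact h0
    · exact h1
    · exact h2'
    · exact h3
    · exact h4
    · exact h5
  exact sub_eq_zero.mp this

/-- The determinant of an element whose cube is in the small field. -/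
theorem det_s {s : L} {ω' : F} (hs : s ^ 3 = algebraMap F L ω') (hu : ∀ c : F, algebraMap F L c ≠ s) :
    (φ s).det = ω' ^ 2 := by
  classical
  let π : Equiv.Perm (Fin 6) := ⟨![1, 2, 0, 4, 5, 3], ![2, 0, 1, 5, 3, 4], by decide, by decide⟩
  let c : Fin 6 → F := ![1, 1, ω', 1, 1, ω']
  let N : Matrix (Fin 6) (Fin 6) F := Matrix.of fun j i => if j = π i then c i else 0
  have hNx : ∀ x : Fin 6 → F, N *ᵥ x = ![ω' * x 2, x 0, x 1, ω' * x 5, x 3, x 4] := by
    intro x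
    have hπ : ∀ i, π i = (![1, 2, 0, 4, 5, 3] : Fin 6 → Fin 6) i := fun _ => rfl
    ext j
    rw [show (N *ᵥ x) j = ∑ i, N j i * x i from rfl, Fin.sum_univ_six]
    simp only [N, Matrix.of_apply, hπ]
    fin_cases j <;> simp [c]
  have hlf : ∀ x₀ x₁ x₂ : F, lf s (ω' * x₂) x₀ x₁ = s * lf s x₀ x₁ x₂ := by
    intro x₀ x₁ x₂
    unfold lf
    rw [map_mul, ← hs]
    ring
  have hcomm : φ s * Qu φ s e₁ e₂ = Qu φ s e₁ e₂ * N := by
    apply Matrix.mulVec_injective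
    funext x
    rw [← Matrix.mulVec_mulVec, ← Matrix.mulVec_mulVec, hNx, Qu_mulVec, Qu_mulVec]
    simp only [Matrix.cons_val]
    rw [hlf, hlf, Matrix.mulVec_add, Matrix.mulVec_mulVec, Matrix.mulVec_mulVec, ← map_mul, ← map_mul]
  have hdQ : (Qu φ s e₁ e₂).det ≠ 0 :=
    ((Matrix.isUnit_iff_isUnit_det _).mp (C.Qu_unit h11 h22 h12 hu)).ne_zero
  have h3 := congrArg Matrix.det hcomm
  rw [Matrix.det_mul, Matrix.det_mul, mul_comm] at h3
  have h4 := mul_left_cancel₀ hdQ h3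
  rw [h4]
  have h5 : N.det = ∏ i, c i := det_mono h2 π c
  rw [h5, Fin.prod_univ_six]
  simp only [c, Matrix.cons_val]
  ring

/-- The kernel of the determinant on the field. -/
theorem norm21 (hL : Fintype.card L = 64) {c₁ : L} (hc₁ : c₁ ≠ 0) (hd : (φ c₁).det = 1) : c₁ ^ 21 = 1 := by
  have hF := C.hF
  obtain ⟨g, hg0, hord, hgen⟩ := exists_gen hL
  have hg63 : g ^ 63 = 1 := by
    rw [← hord]
    exact pow_orderOf_eq_one g
  obtain ⟨ω', hω'⟩ : ∃ c : F, algebraMap F L c = (g ^ 7) ^ 3 := by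
    apply mem_alg hF
    calc ((g ^ 7) ^ 3) ^ 4 = g ^ 63 * g ^ 21 := by ring
      _ = (g ^ 7) ^ 3 := by rw [hg63]; ring
  have hg21 : g ^ 21 ≠ 1 := by
    intro h0
    have := orderOf_dvd_of_pow_eq_one h0
    rw [hord] at this
    norm_num at this
  have hω1 : ω' ≠ 1 := by
    rintro rfl
    rw [map_one] at hω'
    apply hg21
    rw [hω']
    ring
  have hu : ∀ c : F, algebraMap F L c ≠ g ^ 7 := by
    intro c hc
    have h4 := alg_pow4 (L := L) hF c
    rw [hc] at h4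
    have h5 : (g ^ 7) * ((g ^ 7) ^ 3 - 1) = 0 := by linear_combination h4
    rcases mul_eq_zero.mp h5 with h6 | h6
    · exact pow_ne_zero 7 hg0 h6
    · apply hg21
      have h7 := sub_eq_zero.mp h6
      rw [← h7]
      ring
  have hds := C.det_s h11 h22 h12 hω'.symm hu
  have hδ0 : (φ g).det ≠ 0 := by
    intro h0
    have h3 : (φ (g ^ 7)).det = 0 := by
      rw [map_pow, Matrix.det_pow, h0]
      norm_num
    have h4 : (φ (g ^ 63)).det = 0 := by
      rw [map_pow, Matrix.det_pow, h0]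
      norm_num
    rw [hg63, map_one, Matrix.det_one] at h4
    exact one_ne_zero h4
  have hδ4 : (φ g).det ^ 4 = (φ g).det := by
    have := FiniteField.pow_card (φ g).det
    rwa [hF] at this
  have hδ3 : (φ g).det ^ 3 = 1 := by
    have h5 : (φ g).det * ((φ g).det ^ 3 - 1) = 0 := by linear_combination hδ4
    exact sub_eq_zero.mp ((mul_eq_zero.mp h5).resolve_left hδ0)
  have hδ1 : (φ g).det ≠ 1 := by
    intro h1
    rw [map_pow, Matrix.det_pow, h1, one_pow] at hds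
    have h5 : (ω' - 1) * (ω' - 1) = 0 := by linear_combination -hds + (1 - ω') * h2
    exact hω1 (sub_eq_zero.mp (mul_self_eq_zero.mp h5))
  have : Fact (Nat.Prime 3) := ⟨by norm_num⟩
  have hoδ : orderOf (φ g).det = 3 := orderOf_eq_prime hδ3 hδ1
  obtain ⟨i, rfl⟩ := hgen c₁ hc₁
  rw [map_pow, Matrix.det_pow] at hd
  have h3i : 3 ∣ i := by
    rw [← hoδ]
    exact orderOf_dvd_of_pow_eq_one hd
  obtain ⟨k, rfl⟩ := h3i
  calc (g ^ (3 * k)) ^ 21 = (g ^ 63) ^ k := by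
        rw [← pow_mul, ← pow_mul]
        congr 1
        ring
    _ = 1 := by rw [hg63, one_pow]

end Pair

theorem fixed_lf {t : L} (ht : st t = t) {x₀ x₁ x₂ : F} (h0 : x₀ ^ 2 = x₀) (h1 : x₁ ^ 2 = x₁) (h3 : x₂ ^ 2 = x₂) :
    st (lf t x₀ x₁ x₂) = lf t x₀ x₁ x₂ := by
  unfold lf
  simp only [map_add, map_mul, map_pow, C.st_alg, ht, h0, h1, h3]

theorem exists_rep (hL : Fintype.card L = 64) {t : L} (ht : st t = t) (ht' : ∀ c : F, algebraMap F L c ≠ t)
    {a : L} (ha : st a = a) :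
    ∃ x₀ x₁ x₂ : F, x₀ ^ 2 = x₀ ∧ x₁ ^ 2 = x₁ ∧ x₂ ^ 2 = x₂ ∧ a = lf t x₀ x₁ x₂ := by
  have hstne : ∃ x₀, st x₀ ≠ x₀ := by
    obtain ⟨g, hg0, hord, -⟩ := exists_gen hL
    refine ⟨g, ?_⟩
    rw [C.hpow]
    intro h8
    have h7 : g ^ 7 = 1 := by
      have h5 : g * (g ^ 7 - 1) = 0 := by linear_combination h8
      exact sub_eq_zero.mp ((mul_eq_zero.mp h5).resolve_left hg0)
    have := orderOf_dvd_of_pow_eq_one h7
    rw [hord] at this
    norm_num at this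
  obtain ⟨x₀, hx₀⟩ := hstne
  have hc := Cfsg.Agent.H97.Asch.card_fixed_invol st C.stst hx₀
  rw [Nat.card_eq_fintype_card, hL] at hc
  have hc8 : Nat.card {x : L // st x = x} = 8 := by
    have h : (Nat.card {x : L // st x = x}) ^ 2 = 8 ^ 2 := by rw [← hc]; norm_num
    exact Nat.pow_left_injective (n := 2) (by norm_num) h
  let f : (F2 h2) × (F2 h2) × (F2 h2) → {x : L // st x = x} := fun p =>
    ⟨lf t (p.1 : F) (p.2.1 : F) (p.2.2 : F), C.fixed_lf ht p.1.2 p.2.1.2 p.2.2.2⟩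
  have hinj : Function.Injective f := by
    rintro ⟨⟨a₀, ha₀⟩, ⟨a₁, ha₁⟩, ⟨a₂, ha₂⟩⟩ ⟨⟨b₀, hb₀⟩, ⟨b₁, hb₁⟩, ⟨b₂, hb₂⟩⟩ hab
    have h3 : lf t a₀ a₁ a₂ = lf t b₀ b₁ b₂ := congrArg Subtype.val hab
    have h4 : algebraMap F L (a₀ - b₀) + algebraMap F L (a₁ - b₁) * t + algebraMap F L (a₂ - b₂) * t ^ 2 = 0 := by
      unfold lf at h3
      rw [map_sub, map_sub, map_sub]
      linear_combination h3
    obtain ⟨h5, h6, h7⟩ := indep3 C.hfin ht' h4
    have e0 := sub_eq_zero.mp h5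
    have e1 := sub_eq_zero.mp h6
    have e3 := sub_eq_zero.mp h7
    subst e0 e1 e3
    rfl
  have hbij : Function.Bijective f := by
    apply hinj.bijective_of_nat_card_le
    rw [hc8, Nat.card_prod, Nat.card_prod, card_F2]
  obtain ⟨⟨x₀', x₁', x₂'⟩, hx⟩ := hbij.2 ⟨a, ha⟩
  exact ⟨x₀', x₁', x₂', x₀'.2, x₁'.2, x₂'.2, (congrArg Subtype.val hx).symm⟩

section Rat

variable {e₁ e₂ : Fin 6 → F} {t : L}

omit C in
theorem rat_of (C : BCtx φ h2 st tr h) (ht : st t = t) {x : Fin 6 → F} (hx : ∀ i, x i ∈ F2 h2) :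
    ∃ a b : L, st a = a ∧ st b = b ∧ Qu φ t e₁ e₂ *ᵥ x = φ a *ᵥ e₁ + φ b *ᵥ e₂ :=
  ⟨_, _, C.fixed_lf ht (hx 0) (hx 1) (hx 2), C.fixed_lf ht (hx 3) (hx 4) (hx 5), Qu_mulVec φ t e₁ e₂ x⟩

omit C in
theorem of_rat (C : BCtx φ h2 st tr h) (hL : Fintype.card L = 64) (ht : st t = t) (ht' : ∀ c : F, algebraMap F L c ≠ t)
    {a b : L} (ha : st a = a) (hb : st b = b) :
    ∃ x : Fin 6 → F, (∀ i, x i ∈ F2 h2) ∧ Qu φ t e₁ e₂ *ᵥ x = φ a *ᵥ e₁ + φ b *ᵥ e₂ := by
  obtain ⟨x₀, x₁, x₂, h0, h1, h3, hax⟩ := C.exists_rep hL ht ht' ha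
  obtain ⟨y₀, y₁, y₂, h4, h5, h6, hby⟩ := C.exists_rep hL ht ht' hb
  refine ⟨![x₀, x₁, x₂, y₀, y₁, y₂], ?_, ?_⟩
  · intro i
    fin_cases i
    · exact h0
    · exact h1
    · exact h3
    · exact h4
    · exact h5
    · exact h6
  · rw [Qu_mulVec, hax, hby]
    rfl

/-- The rationality of the form. -/
theorem form_rat (h11 : h e₁ e₁ = 0) (h22 : h e₂ e₂ = 0) (h12 : h e₁ e₂ = 1) (ht : st t = t) {u v : Fin 6 → F}
    (hu : ∀ i, u i ∈ F2 h2) (hv : ∀ i, v i ∈ F2 h2) :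
    hermForm 6 F 2 (Qu φ t e₁ e₂ *ᵥ u) (Qu φ t e₁ e₂ *ᵥ v) ∈ F2 h2 := by
  obtain ⟨a, b, ha, hb, hab⟩ := rat_of (e₁ := e₁) (e₂ := e₂) C ht hu
  obtain ⟨a', b', ha', hb', hab'⟩ := rat_of (e₁ := e₁) (e₂ := e₂) C ht hv
  rw [mem_F2, hab, hab', C.herm_eq_tr, C.h_W h11 h22 h12, ← C.trst, map_add, map_mul, map_mul, C.stst, C.stst, ha, hb, ha', hb']

theorem form_iso (h11 : h e₁ e₁ = 0) (h22 : h e₂ e₂ = 0) (h12 : h e₁ e₂ = 1) (h2L : (2 : L) = 0) (ht : st t = t) {u : Fin 6 → F}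
    (hu : ∀ i, u i ∈ F2 h2) : hermForm 6 F 2 (Qu φ t e₁ e₂ *ᵥ u) (Qu φ t e₁ e₂ *ᵥ u) = 0 := by
  obtain ⟨a, b, ha, hb, hab⟩ := rat_of (e₁ := e₁) (e₂ := e₂) C ht hu
  rw [hab, C.herm_eq_tr, C.h_W h11 h22 h12, ha, hb]
  have : a * b + b * a = 0 := by linear_combination a * b * h2L
  rw [this, map_zero]

/-- The normaliser of the field in the special unitary group lies in the subfield group. -/
theorem mem_subfield (h11 : h e₁ e₁ = 0) (h22 : h e₂ e₂ = 0) (h12 : h e₁ e₂ = 1) (h2L : (2 : L) = 0)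
    (hL : Fintype.card L = 64) (ht : st t = t) (ht' : ∀ c : F, algebraMap F L c ≠ t)
    {P : GL (Fin 6) F} (hP : (P : Matrix (Fin 6) (Fin 6) F) = Qu φ t e₁ e₂)
    {K : Subalgebra F (Matrix (Fin 6) (Fin 6) F)} (hKφ : ∀ k, k ∈ K ↔ ∃ a, φ a = k)
    {g : GL (Fin 6) F} (hN : g ∈ subalgebraNormalizer K)
    (hU : ∀ x y, hermForm 6 F 2 ((g : Matrix (Fin 6) (Fin 6) F) *ᵥ x) ((g : Matrix (Fin 6) (Fin 6) F) *ᵥ y) = hermForm 6 F 2 x y)
    (hdet : (g : Matrix (Fin 6) (Fin 6) F).det = 1) : g ∈ subfieldSubgroup (F2 h2) P := by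
  obtain ⟨c₁, hc₁, hact⟩ := C.g_action h11 h22 h12 h2L hKφ hN hU
  obtain ⟨Pin, hPin⟩ : ∃ Pin, Pin = ((P⁻¹ : GL (Fin 6) F) : Matrix (Fin 6) (Fin 6) F) := ⟨_, rfl⟩
  have hPinP : Pin * (P : Matrix (Fin 6) (Fin 6) F) = 1 := by
    rw [hPin]
    exact Units.inv_mul P
  have hPPi : (P : Matrix (Fin 6) (Fin 6) F) * Pin = 1 := by
    rw [hPin]
    exact Units.mul_inv P
  have hcancel : ∀ y, Pin *ᵥ ((P : Matrix (Fin 6) (Fin 6) F) *ᵥ y) = y := fun y => by
    rw [Matrix.mulVec_mulVec, hPinP, Matrix.one_mulVec]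
  have hsingle : ∀ (l i : Fin 6), ((Pi.single l 1 : Fin 6 → F) i) ∈ F2 h2 := by
    intro l i
    by_cases hli : i = l
    · subst hli
      simp only [Pi.single_eq_same]
      exact (F2 h2).one_mem
    · simp only [Pi.single_eq_of_ne hli]
      exact (F2 h2).zero_mem
  -- the action on rational vectors
  have hstep : ∀ x : Fin 6 → F, (∀ i, x i ∈ F2 h2) → ∃ a' b' : L, st a' = a' ∧ st b' = b' ∧
      (g : Matrix (Fin 6) (Fin 6) F) *ᵥ ((P : Matrix (Fin 6) (Fin 6) F) *ᵥ x) = φ c₁ *ᵥ (φ a' *ᵥ e₁ + φ b' *ᵥ e₂) := by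
    intro x hx
    obtain ⟨a, b, ha, hb, hab⟩ := rat_of (e₁ := e₁) (e₂ := e₂) C ht hx
    rw [hP, hab]
    exact hact a b ha hb
  -- the determinant of the multiplier is one
  have hdc₁ : (φ c₁).det = 1 := by
    obtain ⟨M₁, hM₁⟩ : ∃ M₁, M₁ = Pin * φ c₁⁻¹ * (g : Matrix (Fin 6) (Fin 6) F) * (P : Matrix (Fin 6) (Fin 6) F) := ⟨_, rfl⟩
    have hφinv : φ c₁⁻¹ * φ c₁ = 1 := by
      rw [← map_mul, inv_mul_cancel₀ hc₁, map_one]
    have hM₁x : ∀ l, ∃ x' : Fin 6 → F, (∀ i, x' i ∈ F2 h2) ∧ M₁ *ᵥ Pi.single l 1 = x' := by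
      intro l
      obtain ⟨a', b', ha', hb', hab⟩ := hstep _ (hsingle l)
      obtain ⟨x', hx', hxe⟩ := of_rat (e₁ := e₁) (e₂ := e₂) C hL ht ht' ha' hb'
      refine ⟨x', hx', ?_⟩
      rw [hM₁, ← Matrix.mulVec_mulVec, ← Matrix.mulVec_mulVec, hab, ← Matrix.mulVec_mulVec, Matrix.mulVec_mulVec _ (φ c₁⁻¹) (φ c₁), hφinv,
        Matrix.one_mulVec, ← hxe, ← hP, hcancel]
    have hsg : sg h2 M₁ = M₁ := by
      ext k l
      obtain ⟨x', hx', hxe⟩ := hM₁x l
      have e1 : M₁ k l = x' k := by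
        rw [← hxe, Matrix.mulVec_single_one]
        rfl
      rw [sg_apply, e1]
      exact hx' k
    have hd2 : M₁.det ^ 2 = M₁.det := by
      have := RingHom.map_det (frob2 h2) M₁
      rw [frob2_apply] at this
      rw [this]
      exact congrArg Matrix.det hsg
    have hdm : M₁.det * (φ c₁).det = 1 := by
      have e2 : (φ c₁⁻¹).det * (φ c₁).det = 1 := by rw [← Matrix.det_mul, hφinv, Matrix.det_one]
      have e3 : Pin.det * (P : Matrix (Fin 6) (Fin 6) F).det = 1 := by rw [← Matrix.det_mul, hPinP, Matrix.det_one]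
      rw [hM₁, Matrix.det_mul, Matrix.det_mul, Matrix.det_mul, hdet]
      linear_combination e2 * Pin.det * (P : Matrix (Fin 6) (Fin 6) F).det + e3
    have hd0 : M₁.det ≠ 0 := left_ne_zero_of_mul_eq_one hdm
    rcases eq_zero_or_one_of_sq hd2 with h0 | h1
    · exact absurd h0 hd0
    · rw [h1, one_mul] at hdm
      exact hdm
  have h21 : c₁ ^ 21 = 1 := C.norm21 h11 h22 h12 hL hc₁ hdc₁
  obtain ⟨y, hy⟩ : ∃ y, y = c₁ ^ 7 := ⟨_, rfl⟩
  have hy3 : y ^ 3 = 1 := by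
    rw [hy, ← pow_mul]
    exact h21
  obtain ⟨c', hc'⟩ : ∃ c' : F, algebraMap F L c' = y := by
    apply mem_alg C.hF
    rw [show y ^ 4 = y ^ 3 * y by ring, hy3, one_mul]
  have hy0 : y ≠ 0 := by
    rw [hy]
    exact pow_ne_zero 7 hc₁
  have hc'0 : c' ≠ 0 := by
    rintro rfl
    rw [map_zero] at hc'
    exact hy0 hc'.symm
  obtain ⟨r, hr⟩ : ∃ r, r = c₁ * y⁻¹ := ⟨_, rfl⟩
  have hr7 : r ^ 7 = 1 := by
    rw [hr, mul_pow, inv_pow, ← hy]
    have : y ^ 7 = y := by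
      rw [show y ^ 7 = (y ^ 3) ^ 2 * y by ring, hy3, one_pow, one_mul]
    rw [this, mul_inv_cancel₀ hy0]
  have hstr : st r = r := by
    rw [C.hpow, show r ^ 8 = r ^ 7 * r by ring, hr7, one_mul]
  have hc₁e : c₁ = algebraMap F L c' * r := by
    rw [hc', hr]
    field_simp
  have hφc₁ : φ c₁ = c' • φ r := by
    rw [hc₁e, map_mul, AlgHom.commutes, Algebra.algebraMap_eq_smul_one, Matrix.smul_mul, Matrix.one_mul]
  -- the entries of the conjugate
  obtain ⟨A, hA⟩ : ∃ A : GL (Fin 6) F, A = P⁻¹ * g * P := ⟨_, rfl⟩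
  have hAm : (A : Matrix (Fin 6) (Fin 6) F) = Pin * (g : Matrix (Fin 6) (Fin 6) F) * (P : Matrix (Fin 6) (Fin 6) F) := by
    rw [hA, hPin]
    rfl
  have hent : ∀ k l, (c'⁻¹ • (A : Matrix (Fin 6) (Fin 6) F)) k l ∈ F2 h2 := by
    intro k l
    obtain ⟨a', b', ha', hb', hab⟩ := hstep _ (hsingle l)
    have hra : st (r * a') = r * a' := by rw [map_mul, hstr, ha']
    have hrb : st (r * b') = r * b' := by rw [map_mul, hstr, hb']
    obtain ⟨x', hx', hxe⟩ := of_rat (e₁ := e₁) (e₂ := e₂) C hL ht ht' hra hrb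
    have e1 : (A : Matrix (Fin 6) (Fin 6) F) *ᵥ Pi.single l 1 = c' • x' := by
      rw [hAm, ← Matrix.mulVec_mulVec, ← Matrix.mulVec_mulVec, hab, hφc₁, Matrix.smul_mulVec, Matrix.mulVec_smul, Matrix.mulVec_add,
        Matrix.mulVec_mulVec, Matrix.mulVec_mulVec, ← map_mul, ← map_mul, ← hxe, ← hP, hcancel]
    have e2 : (A : Matrix (Fin 6) (Fin 6) F) k l = c' * x' k := by
      have := congrFun e1 k
      rw [Matrix.mulVec_single_one] at this
      simpa using this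
    rw [Matrix.smul_apply, e2, smul_eq_mul, inv_mul_cancel_left₀ hc'0]
    exact hx' k
  refine ⟨A, Cfsg.Agent.H97.Asch.mem_range_sup_scalars (inv_ne_zero hc'0) hent, ?_⟩
  show P * A * P⁻¹ = g
  rw [hA]
  group

end Rat

end BCtx

end Main

end Cfsg.Agent.SU6Two
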