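import Cfsg.Agent.Lib.SU6TwoC

/-!
The normaliser of a field of degree three in `SU₆(2)` lies in a subfield group of symplectic type.
-/

set_option autoImplicit false
set_option linter.unusedSectionVars false

namespace Cfsg.Agent.SU6Two

open Matrix Cfsg Cfsg.Geo
open Cfsg.Agent.SU5Two (frob2 frob2_apply two_eq_zero_of_card exists_omega)
open Cfsg.Agent.HermN
open Cfsg.Agent.Lib.FieldModel

universe u

variable {F L : Type u} [Field F] [Fintype F] [Field L] [Algebra F L]

theorem exists_st6 (φ : L →ₐ[F] Matrix (Fin 6) (Fin 6) F) (hφ : Function.Injective φ) (h2 : (2 : F) = 0)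
    (hstar : ∀ a, ∃ b, φ b = adj h2 (φ a)) : ∃ st : L →+* L, ∀ a, φ (st a) = adj h2 (φ a) := by
  choose t ht using hstar
  refine ⟨{ toFun := t, map_one' := ?_, map_mul' := ?_, map_zero' := ?_, map_add' := ?_ }, ht⟩
  · apply hφ
    rw [ht, map_one, adj_one]
  · intro a b
    apply hφ
    rw [ht, map_mul, map_mul, adj_mul, ht, ht, ← ht a, ← ht b, ← map_mul, ← map_mul, mul_comm]
  · apply hφ
    rw [ht, map_zero, adj_zero]
  · intro a b
    apply hφ
    rw [ht, map_add, map_add, adj_add, ht, ht]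

/-- The normaliser of an adjoint-closed field of degree three in `SU₆(2)` lies in a subfield group of symplectic type. -/
theorem field_three (hF : Fintype.card F = 4) (h2 : (2 : F) = 0) {K : Subalgebra F (Matrix (Fin 6) (Fin 6) F)}
    (hK : IsFieldSubalgebra 3 K) (hadj : IsAdjointClosedFor (hermForm 6 F 2) K) :
    ∃ P : GL (Fin 6) F, IsFormRationalStructure (hermForm 6 F 2) (F2 h2) 1 P ∧
      (∀ u : Fin 6 → F, (∀ i, u i ∈ F2 h2) →
        hermForm 6 F 2 ((P : Matrix (Fin 6) (Fin 6) F) *ᵥ u) ((P : Matrix (Fin 6) (Fin 6) F) *ᵥ u) = 0) ∧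
      subalgebraNormalizer K ⊓ (GU 6 F 2 ⊓ specialLinear (Fin 6) F) ≤ subfieldSubgroup (F2 h2) P := by
  classical
  obtain ⟨ω, hω⟩ := exists_omega hF
  obtain ⟨L, _, _, φ, hφ, hKφ, hfin⟩ := Cfsg.Agent.Lib.FieldModel.exists_model (by norm_num : (3 : ℕ) ≠ 0) hK
  have : FiniteDimensional F L := Module.finite_of_finrank_pos (by omega)
  have : Finite L := Module.finite_of_finite F
  let _ : Fintype L := Fintype.ofFinite L
  have hL : Fintype.card L = 64 := by
    rw [Module.card_eq_pow_finrank (K := F) (V := L), hF, hfin]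
    norm_num
  have h2L : (2 : L) = 0 := by
    rw [← map_ofNat (algebraMap F L) 2, h2, map_zero]
  have hstar : ∀ a, ∃ b, φ b = adj h2 (φ a) := by
    intro a
    obtain ⟨k', hk', hk⟩ := hadj (φ a) ((hKφ _).mpr ⟨a, rfl⟩)
    obtain ⟨b, rfl⟩ := (hKφ _).mp hk'
    refine ⟨b, ?_⟩
    apply Matrix.ext_of_mulVec_single
    intro i
    apply herm_right_inj hF
    intro u
    rw [← hk, herm_adj hF h2]
  obtain ⟨st, hst⟩ := exists_st6 φ hφ h2 hstar
  have hstst : ∀ a, st (st a) = a := by
    intro a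
    apply hφ
    rw [hst, hst, adj_adj hF]
  have hstω : st (algebraMap F L ω) = algebraMap F L ω + 1 := by
    apply hφ
    rw [hst, AlgHom.commutes, Algebra.algebraMap_eq_smul_one, adj_smul_one, map_add, map_one, AlgHom.commutes,
      Algebra.algebraMap_eq_smul_one, sq, hω, add_smul, one_smul]
  have hstne : st (algebraMap F L ω) ≠ algebraMap F L ω := by
    intro h
    rw [hstω] at h
    exact one_ne_zero (add_eq_left.mp h)
  have hstpow := invol_eq_pow8 h2L hL st hstst hstne
  obtain ⟨tr, htr⟩ := exists_trace hF hL h2L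
  have hinj := (algebraMap F L).injective
  have : CharP L 2 := CharTwo.of_one_ne_zero_of_two_eq_zero one_ne_zero h2L
  have tr1 : tr 1 = 1 := by
    apply hinj
    rw [htr, map_one]
    linear_combination h2L
  have h64 : ∀ z : L, z ^ 64 = z := fun z => by
    have := FiniteField.pow_card z
    rwa [hL] at this
  have trst : ∀ z, tr (st z) = (tr z) ^ 2 := by
    intro z
    apply hinj
    rw [map_pow, htr, htr, hstpow]
    have e1 : (z ^ 8) ^ 16 = z ^ 2 := by
      calc (z ^ 8) ^ 16 = (z ^ 64) ^ 2 := by ring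
        _ = _ := by rw [h64]
    rw [e1]
    linear_combination (-(z * z ^ 4) - z * z ^ 16 - z ^ 4 * z ^ 16) * h2L
  have hex : ∀ x y : Fin 6 → F, ∃ c, ∀ z, hermForm 6 F 2 (φ z *ᵥ x) y = tr (c * z) := by
    intro x y
    refine exists_c_tr tr tr1 { toFun := fun z => hermForm 6 F 2 (φ z *ᵥ x) y, map_add' := ?_, map_smul' := ?_ }
    · intro a b
      simp only [map_add, Matrix.add_mulVec, herm_add_left]
    · intro c a
      simp only [map_smul, Matrix.smul_mulVec, herm_smul_left, RingHom.id_apply, smul_eq_mul]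
  choose h hh using hex
  have C : BCtx φ h2 st tr h := ⟨hF, hfin, hφ, hst, hstpow, tr1, trst, hh⟩
  obtain ⟨e₁, e₂, h11, h22, h12⟩ := C.exists_hyp hL h2L hstω
  obtain ⟨g, hg0, hord, -⟩ := exists_gen hL
  have hg63 : g ^ 63 = 1 := by
    rw [← hord]
    exact pow_orderOf_eq_one g
  obtain ⟨t, ht⟩ : ∃ t, t = g ^ 9 := ⟨_, rfl⟩
  have ht0 : t ≠ 0 := by
    rw [ht]
    exact pow_ne_zero 9 hg0
  have ht7 : t ^ 7 = 1 := by
    rw [ht, ← pow_mul]
    exact hg63
  have hstt : st t = t := by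
    rw [hstpow, show t ^ 8 = t ^ 7 * t by ring, ht7, one_mul]
  have ht' : ∀ c : F, algebraMap F L c ≠ t := by
    intro c hc
    have h4 := alg_pow4 (L := L) hF c
    rw [hc] at h4
    have h5 : t * (t ^ 3 - 1) = 0 := by linear_combination h4
    have h3 : t ^ 3 = 1 := sub_eq_zero.mp ((mul_eq_zero.mp h5).resolve_left ht0)
    have h1 : t = 1 := by
      calc t = (t ^ 3) ^ 2 * t := by rw [h3]; ring
        _ = t ^ 7 := by ring
        _ = 1 := ht7
    rw [ht] at h1
    have := orderOf_dvd_of_pow_eq_one h1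
    rw [hord] at this
    norm_num at this
  obtain ⟨P, hP⟩ := C.Qu_unit h11 h22 h12 ht'
  refine ⟨P, ?_, ?_, ?_⟩
  · intro u v hu hv
    rw [one_mul, hP]
    exact C.form_rat h11 h22 h12 hstt hu hv
  · intro u hu
    rw [hP]
    exact C.form_iso h11 h22 h12 h2L hstt hu
  · rintro x ⟨hN, hGU, hSL⟩
    exact C.mem_subfield h11 h22 h12 h2L hL hstt ht' hP hKφ hN hGU ((Cfsg.Agent.H97.Asch.mem_sl_iff x).mp hSL)

end Cfsg.Agent.SU6Two
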