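import Mathlib
import Cfsg.Agent.Lib.GUOrderP
import Cfsg.Agent.Lib.RegNil

/-!
# Regular unipotent classes of special unitary groups
-/

set_option autoImplicit false
set_option linter.unusedSectionVars false
set_option linter.unusedSimpArgs false
set_option linter.unusedVariables false

namespace Cfsg.Agent.Lib.SURegUnip

open Matrix Cfsg Cfsg.Agent.Lib.RegNil Cfsg.Agent.Lib.UnitaryConjGU Cfsg.Agent.Lib.UnitarySU
  Cfsg.Agent.Lib.HermCount Cfsg.Agent.Lib.UnitaryBasic Cfsg.Agent.Lib.GUOrderP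

universe u

variable {K : Type u} [Field K] [Fintype K] {q n : ℕ}

/-- The matrix of an element of `GU`. -/
abbrev MG (g : ↥(GU n K q)) : Matrix (Fin n) (Fin n) K := ((g : GL (Fin n) K) : Matrix (Fin n) (Fin n) K)

theorem MG_mul (g h : ↥(GU n K q)) : MG (g * h) = MG g * MG h := rfl

theorem MG_one : MG (1 : ↥(GU n K q)) = 1 := rfl

theorem comm_det (hK : Fintype.card K = q ^ 2) {u₀ τ : ↥(GU n K q)} (hreg : IsReg (MG u₀ - 1) n) (hτ : τ * u₀ = u₀ * τ) :
    ∃ c : K, nrm q c = 1 ∧ (MG τ).det = c ^ n := by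
  obtain ⟨N, hNdef⟩ : ∃ N, N = MG u₀ - 1 := ⟨_, rfl⟩
  rw [← hNdef] at hreg
  have hN : MG τ * N = N * MG τ := by
    have h : MG τ * MG u₀ = MG u₀ * MG τ := congrArg MG hτ
    rw [hNdef, mul_sub, sub_mul, h, mul_one, one_mul]
  obtain ⟨c, hc⟩ := commutant hreg hN
  obtain ⟨k, rfl⟩ : ∃ k, n = k + 1 := ⟨n - 1, by have := hreg.hpos; omega⟩
  obtain ⟨Y, hY⟩ : ∃ Y, Y = poly N (fun i : Fin k => c i.succ) := ⟨_, rfl⟩
  have h1 : MG τ = c 0 • 1 + N * Y := by rw [hc, poly_eq_const_add, hY]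
  have hYc : Y * N = N * Y := by
    rw [hY]
    exact poly_comm _ _
  refine ⟨c 0, ?_, ?_⟩
  · obtain ⟨v, hv⟩ := exists_vec hreg
    obtain ⟨e, he⟩ : ∃ e, e = N ^ (k + 1 - 1) *ᵥ v := ⟨_, rfl⟩
    rw [← he] at hv
    have hNe : N *ᵥ e = 0 := by
      rw [he, Matrix.mulVec_mulVec, ← pow_succ']
      have : k + 1 - 1 + 1 = k + 1 := by omega
      rw [this, hreg.hnil, Matrix.zero_mulVec]
    have hτe : MG τ *ᵥ e = c 0 • e := by
      rw [h1, Matrix.add_mulVec, Matrix.smul_mulVec, Matrix.one_mulVec, ← hYc, ← Matrix.mulVec_mulVec, hNe, Matrix.mulVec_zero, add_zero]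
    have hst := st_mul_self_of_mem hK τ.2
    have hst0 := st_mul_self_of_mem hK u₀.2
    have hu : MG u₀ *ᵥ e = e := by
      have h2 : (MG u₀ - 1) *ᵥ e = 0 := by rw [← hNdef, hNe]
      rw [Matrix.sub_mulVec, Matrix.one_mulVec, sub_eq_zero] at h2
      exact h2
    have hstu : st q (MG u₀) *ᵥ e = e := by
      have h2 : (st q (MG u₀) * MG u₀) *ᵥ e = e := by
        rw [hst0, Matrix.one_mulVec]
      rw [← Matrix.mulVec_mulVec, hu] at h2
      exact h2
    have hstN : st q N *ᵥ e = 0 := by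
      rw [hNdef, st_sub_one hK, Matrix.sub_mulVec, hstu, Matrix.one_mulVec, sub_self]
    have hstτ : st q (MG τ) *ᵥ e = c 0 ^ q • e := by
      rw [h1, st_add hK, st_smul_one hK, st_mul hK, Matrix.add_mulVec, Matrix.smul_mulVec, Matrix.one_mulVec,
        ← Matrix.mulVec_mulVec, hstN, Matrix.mulVec_zero, add_zero]
    have h2 : (st q (MG τ) * MG τ) *ᵥ e = e := by
      rw [hst, Matrix.one_mulVec]
    rw [← Matrix.mulVec_mulVec, hτe, Matrix.mulVec_smul, hstτ, smul_smul] at h2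
    have h3 : (c 0 * c 0 ^ q - 1) • e = 0 := by
      rw [sub_smul, one_smul, h2, sub_self]
    rcases smul_eq_zero.1 h3 with h | h
    · show c 0 * c 0 ^ q = 1
      exact sub_eq_zero.1 h
    · exact absurd h hv
  · rw [h1, det_const_add_nil, hreg.hcard]
    exact ⟨k + 1, isNilpotent_mul_comm hreg.hnil hYc⟩

theorem exists_det (hK : Fintype.card K = q ^ 2) (hn : 1 ≤ n) {c : K} (hc : nrm q c = 1) :
    ∃ g : ↥(GU n K q), (MG g).det = c := by
  have h1 : ∀ k : Fin n, nrm q ((fun k : Fin n => if (k : ℕ) = 0 then c else 1) k) = 1 := by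
    intro k
    by_cases h : (k : ℕ) = 0
    · simp only [h, if_true]
      exact hc
    · simp only [h, if_false]
      show (1 : K) * 1 ^ q = 1
      simp
  refine ⟨GUofMatrix hK (Matrix.diagonal fun k : Fin n => if (k : ℕ) = 0 then c else 1) (diagonal_unitary h1), ?_⟩
  show (Matrix.diagonal _ : Matrix (Fin n) (Fin n) K).det = c
  rw [Matrix.det_diagonal, Finset.prod_eq_single (⟨0, by omega⟩ : Fin n)]
  · simp
  · intro b _ hb
    rw [if_neg]
    intro h
    exact hb (Fin.ext h)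
  · simp

/-- Scalars in `GU`. -/
noncomputable def zG (hK : Fintype.card K = q ^ 2) {c : K} (hc : nrm q c = 1) : ↥(GU n K q) :=
  GUofMatrix hK (Matrix.diagonal fun _ : Fin n => c) (diagonal_unitary fun _ => hc)

theorem MG_zG (hK : Fintype.card K = q ^ 2) {c : K} (hc : nrm q c = 1) :
    MG (zG (n := n) hK hc) = c • 1 := by
  show Matrix.diagonal _ = _
  rw [Matrix.smul_one_eq_diagonal]

theorem zG_comm (hK : Fintype.card K = q ^ 2) {c : K} (hc : nrm q c = 1) (y : ↥(GU n K q)) :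
    zG hK hc * y = y * zG hK hc := by
  apply Subtype.ext
  apply Units.ext
  show MG (zG hK hc) * MG y = MG y * MG (zG hK hc)
  rw [MG_zG, smul_mul_assoc, one_mul, mul_smul_comm, mul_one]

theorem main (hK : Fintype.card K = q ^ 2) (hn : 1 ≤ n) :
    Nat.card {C : ConjClasses ↥(SU n K q) // ∃ u : ↥(SU n K q), ConjClasses.mk u = C ∧
      (((u : GL (Fin n) K) : Matrix (Fin n) (Fin n) K) - 1) ^ n = 0 ∧
      (((u : GL (Fin n) K) : Matrix (Fin n) (Fin n) K) - 1).rank = n - 1} = Nat.gcd n (q + 1) := by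
  classical
  obtain ⟨p, hp⟩ := CharP.exists K
  haveI := hp
  haveI : Fact p.Prime := ⟨CharP.char_is_prime K p⟩
  have hreg0 := isReg_shift (F := K) hn
  obtain ⟨S₀, hS₀⟩ : ∃ S₀, S₀ = shift n K := ⟨_, rfl⟩
  rw [← hS₀] at hreg0
  have hnil0 : IsNilpotent S₀ := ⟨n, hreg0.hnil⟩
  obtain ⟨A, hA⟩ : ∃ A : GL (Fin n) K, (A : Matrix (Fin n) (Fin n) K) = 1 + S₀ := hnil0.isUnit_one_add
  obtain ⟨u₀, hu₀⟩ := exists_GU p hK A (by rw [hA, add_sub_cancel_left]; exact hnil0)
  have hreg : IsReg (MG u₀ - 1) n := by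
    obtain ⟨c, hc⟩ := isConj_iff.1 hu₀
    have h1 : MG u₀ - 1 = (c : Matrix (Fin n) (Fin n) K) * S₀ * ((c⁻¹ : GL (Fin n) K) : Matrix (Fin n) (Fin n) K) := by
      have h2 : MG u₀ = (c : Matrix (Fin n) (Fin n) K) * (1 + S₀) * ((c⁻¹ : GL (Fin n) K) : Matrix (Fin n) (Fin n) K) := by
        rw [← hA]
        exact (congrArg (fun x : GL (Fin n) K => (x : Matrix (Fin n) (Fin n) K)) hc).symm
      have h3 : (c : Matrix (Fin n) (Fin n) K) * ((c⁻¹ : GL (Fin n) K) : Matrix (Fin n) (Fin n) K) = 1 := Units.mul_inv c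
      rw [h2, mul_add, add_mul, mul_one, h3, add_sub_cancel_left]
    rw [h1]
    exact isReg_conj hreg0 (Units.mul_inv c) (Units.inv_mul c)
  have hdet0 : detGU n K q u₀ = 1 := by
    apply Units.ext
    rw [detGU_val, Units.val_one]
    have h1 := det_const_add_nil (A := MG u₀ - 1) ⟨n, hreg.hnil⟩ (1 : K)
    rw [one_smul, add_sub_cancel, one_pow] at h1
    exact h1
  -- conjugates of the base point
  let cGU : ↥(GU n K q) → ↥(GU n K q) := fun g => g * u₀ * g⁻¹
  have hdetc : ∀ g, detGU n K q (cGU g) = 1 := by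
    intro g
    simp only [cGU, map_mul, map_inv, hdet0, mul_one, mul_inv_cancel]
  let cU : ↥(GU n K q) → ↥(SU n K q) := fun g => SUofMatrix (MG (cGU g))
    (by
      have := congrArg (fun x : Kˣ => (x : K)) (hdetc g)
      simpa [detGU_val] using this)
    (fun u v => (cGU g).2 u v)
  have hcU : ∀ g, (((cU g : ↥(SU n K q)) : GL (Fin n) K) : Matrix (Fin n) (Fin n) K) = MG (cGU g) := fun g => rfl
  have hcUreg : ∀ g, IsReg (((cU g : ↥(SU n K q)) : GL (Fin n) K) - 1 : Matrix (Fin n) (Fin n) K) n := by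
    intro g
    have h1 : (((cU g : ↥(SU n K q)) : GL (Fin n) K) : Matrix (Fin n) (Fin n) K) - 1 = MG g * (MG u₀ - 1) * MG g⁻¹ := by
      rw [hcU]
      have h3 : MG g * MG g⁻¹ = 1 := by
        rw [← MG_mul, mul_inv_cancel, MG_one]
      have h4 : MG (cGU g) = MG g * MG u₀ * MG g⁻¹ := rfl
      rw [h4, mul_sub, sub_mul, mul_one, h3]
    rw [h1]
    refine isReg_conj hreg ?_ ?_
    · rw [← MG_mul, mul_inv_cancel, MG_one]
    · rw [← MG_mul, inv_mul_cancel, MG_one]
  -- passing from `SU` to `GU`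
  let toG : ↥(SU n K q) → ↥(GU n K q) := fun u => GUofMatrix hK ((u : GL (Fin n) K) : Matrix (Fin n) (Fin n) K) (fun a b => u.2 a b)
  have htoG : ∀ u : ↥(SU n K q), MG (toG u) = ((u : GL (Fin n) K) : Matrix (Fin n) (Fin n) K) := fun u => rfl
  have htoGdet : ∀ u : ↥(SU n K q), (MG (toG u)).det = 1 := fun u => u.1.2
  -- every regular element is such a conjugate
  have hall : ∀ u : ↥(SU n K q), (((u : GL (Fin n) K) : Matrix (Fin n) (Fin n) K) - 1) ^ n = 0 →
      (((u : GL (Fin n) K) : Matrix (Fin n) (Fin n) K) - 1).rank = n - 1 → ∃ g, u = cU g := by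
    intro u h1 h2
    have hr : IsReg (((u : GL (Fin n) K) : Matrix (Fin n) (Fin n) K) - 1) n := ⟨Fintype.card_fin n, hn, h1, h2⟩
    obtain ⟨g, g', hgg', hg'g, hgN⟩ := conj_of_isReg hreg hr
    have hc : IsConj (u₀ : GL (Fin n) K) (toG u : GL (Fin n) K) := by
      refine isConj_iff.2 ⟨⟨g, g', hgg', hg'g⟩, ?_⟩
      apply Units.ext
      show g * MG u₀ * g' = MG (toG u)
      have h3 : g * MG u₀ = MG (toG u) * g := by
        rw [htoG]
        have e1 : MG u₀ = 1 + (MG u₀ - 1) := by abel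
        have e2 : ((u : GL (Fin n) K) : Matrix (Fin n) (Fin n) K) = 1 + (((u : GL (Fin n) K) : Matrix (Fin n) (Fin n) K) - 1) := by abel
        rw [e1, e2, mul_add, add_mul, mul_one, one_mul, hgN]
      rw [h3, mul_assoc, hgg', mul_one]
    obtain ⟨g₀, hg₀⟩ := isConj_iff.1 (isConj_GU_of_GL hK u₀ (toG u) hc)
    refine ⟨g₀, ?_⟩
    apply Subtype.ext
    apply Subtype.ext
    show ((u : GL (Fin n) K) : Matrix (Fin n) (Fin n) K) = MG (cGU g₀)
    rw [← htoG, ← hg₀]
  -- the norm one group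
  obtain ⟨R, hR⟩ : ∃ R : Subgroup Kˣ, R = (detGU n K q).range := ⟨_, rfl⟩
  have hRcard : Nat.card R = q + 1 := by
    rw [hR]
    exact detGU_range_card hK hn
  have hRmem : ∀ g, detGU n K q g ∈ R := fun g => by
    rw [hR]
    exact ⟨g, rfl⟩
  let δ : ↥(GU n K q) → R := fun g => ⟨detGU n K q g, hRmem g⟩
  have hδ : ∀ g : ↥(GU n K q), ((δ g : R) : Kˣ) = detGU n K q g := fun g => rfl
  have hδmul : ∀ g g', δ (g * g') = δ g * δ g' := fun g g' => Subtype.ext (map_mul _ _ _)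
  have hδinv : ∀ g, δ g⁻¹ = (δ g)⁻¹ := fun g => Subtype.ext (map_inv _ _)
  let P : Subgroup R := (powMonoidHom n : R →* R).range
  have hkey : ∀ g₁ g₂ : ↥(GU n K q), IsConj (cU g₁) (cU g₂) ↔ (δ g₁)⁻¹ * δ g₂ ∈ P := by
    intro g₁ g₂
    constructor
    · intro h
      obtain ⟨s, hs⟩ := isConj_iff.mp h
      rw [mul_inv_eq_iff_eq_mul] at hs
      have hs' : toG s * cGU g₁ = cGU g₂ * toG s := by
        apply Subtype.ext
        apply Units.ext
        exact congrArg (fun x : ↥(SU n K q) => ((x : GL (Fin n) K) : Matrix (Fin n) (Fin n) K)) hs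
      have hτ : (g₂⁻¹ * toG s * g₁) * u₀ = u₀ * (g₂⁻¹ * toG s * g₁) := by
        have e : toG s * (g₁ * u₀ * g₁⁻¹) = (g₂ * u₀ * g₂⁻¹) * toG s := hs'
        calc (g₂⁻¹ * toG s * g₁) * u₀ = g₂⁻¹ * (toG s * (g₁ * u₀ * g₁⁻¹)) * g₁ := by group
          _ = g₂⁻¹ * ((g₂ * u₀ * g₂⁻¹) * toG s) * g₁ := by rw [e]
          _ = u₀ * (g₂⁻¹ * toG s * g₁) := by group
      obtain ⟨c, hc1, hc2⟩ := comm_det hK hreg hτ
      obtain ⟨w, hw⟩ := exists_det (n := n) hK hn hc1
      have hd : δ (g₂⁻¹ * toG s * g₁) = (δ g₂)⁻¹ * δ g₁ := by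
        have e : δ (toG s) = 1 := by
          apply Subtype.ext
          apply Units.ext
          exact htoGdet s
        rw [hδmul, hδmul, hδinv, e, mul_one]
      have hd2 : δ (g₂⁻¹ * toG s * g₁) = (δ w) ^ n := by
        apply Subtype.ext
        apply Units.ext
        show (MG (g₂⁻¹ * toG s * g₁)).det = ((δ w : Kˣ) : K) ^ n
        rw [hc2, ← hw]
        rfl
      have hmem : (δ g₂)⁻¹ * δ g₁ ∈ P := by
        rw [← hd, hd2]
        exact ⟨δ w, rfl⟩
      have e : (δ g₁)⁻¹ * δ g₂ = ((δ g₂)⁻¹ * δ g₁)⁻¹ := by group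
      rw [e]
      exact P.inv_mem hmem
    · rintro ⟨r, hr⟩
      rw [powMonoidHom_apply] at hr
      obtain ⟨w, hw⟩ : ∃ w, δ w = r := by
        obtain ⟨d, hd⟩ := r
        have hd' := hd
        rw [hR] at hd'
        obtain ⟨w, hw⟩ := hd'
        exact ⟨w, Subtype.ext hw⟩
      have hnw : nrm q (((δ w : R) : Kˣ) : K)⁻¹ = 1 := by
        have h1 : nrm q (((δ w : R) : Kˣ) : K) = 1 := nrm_det hK fun u v => w.2 u v
        have h2 : nrm q (((δ w : R) : Kˣ) : K)⁻¹ = (nrm q (((δ w : R) : Kˣ) : K))⁻¹ := by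
          show _ * _ = (_ * _)⁻¹
          rw [inv_pow, mul_inv]
        rw [h2, h1, inv_one]
      let z : ↥(GU n K q) := zG hK hnw
      have hzdet : δ z = (δ w ^ n)⁻¹ := by
        apply Subtype.ext
        apply Units.ext
        show (MG z).det = _
        rw [MG_zG, Matrix.det_smul, Fintype.card_fin, Matrix.det_one, mul_one]
        simp
      let σ : ↥(GU n K q) := g₂ * g₁⁻¹ * z
      have hσ : δ σ = 1 := by
        simp only [σ, hδmul, hδinv, hzdet]
        rw [hw, hr, mul_comm (δ g₂)]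
        exact mul_inv_cancel _
      have hσdet : (MG σ).det = 1 := by
        have := congrArg (fun x : R => ((x : Kˣ) : K)) hσ
        exact this
      let s : ↥(SU n K q) := SUofMatrix (MG σ) hσdet (fun u v => σ.2 u v)
      refine isConj_iff.mpr ⟨s, ?_⟩
      rw [mul_inv_eq_iff_eq_mul]
      apply Subtype.ext
      apply Subtype.ext
      have e : σ * cGU g₁ = cGU g₂ * σ := by
        have hz := zG_comm (n := n) hK hnw (g₁ * u₀ * g₁⁻¹)
        calc σ * cGU g₁ = g₂ * g₁⁻¹ * (z * (g₁ * u₀ * g₁⁻¹)) := by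
              simp only [σ, cGU]
              group
          _ = g₂ * g₁⁻¹ * ((g₁ * u₀ * g₁⁻¹) * z) := by rw [hz]
          _ = cGU g₂ * σ := by
              simp only [σ, cGU]
              group
      exact congrArg MG e
  -- a section of the determinant
  have hsurj : ∀ r : R, ∃ w, δ w = r := by
    rintro ⟨d, hd⟩
    have hd' := hd
    rw [hR] at hd'
    obtain ⟨w, hw⟩ := hd'
    exact ⟨w, Subtype.ext hw⟩
  choose gd hgd using hsurj
  -- the bijection
  let S := {C : ConjClasses ↥(SU n K q) // ∃ u : ↥(SU n K q), ConjClasses.mk u = C ∧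
      (((u : GL (Fin n) K) : Matrix (Fin n) (Fin n) K) - 1) ^ n = 0 ∧
      (((u : GL (Fin n) K) : Matrix (Fin n) (Fin n) K) - 1).rank = n - 1}
  let Φ₀ : R → S := fun d => ⟨ConjClasses.mk (cU (gd d)), cU (gd d), rfl, (hcUreg _).hnil, (hcUreg _).hrank⟩
  have hΦ₀ : ∀ a b : R, Φ₀ a = Φ₀ b ↔ a⁻¹ * b ∈ P := by
    intro a b
    rw [Subtype.ext_iff]
    show ConjClasses.mk (cU (gd a)) = ConjClasses.mk (cU (gd b)) ↔ _
    rw [ConjClasses.mk_eq_mk_iff_isConj, hkey, hgd, hgd]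
  let Φ : R ⧸ P → S := Quotient.lift Φ₀ (by
    intro a b hab
    exact (hΦ₀ a b).mpr (QuotientGroup.leftRel_apply.mp hab))
  have hΦbij : Function.Bijective Φ := by
    constructor
    · intro x y
      refine Quotient.inductionOn₂ x y ?_
      intro a b hab
      exact QuotientGroup.eq.mpr ((hΦ₀ a b).mp hab)
    · rintro ⟨C, u, rfl, h1, h2⟩
      obtain ⟨g, rfl⟩ := hall u h1 h2
      refine ⟨(QuotientGroup.mk (δ g) : R ⧸ P), ?_⟩
      apply Subtype.ext
      show ConjClasses.mk (cU (gd (δ g))) = ConjClasses.mk (cU g)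
      rw [ConjClasses.mk_eq_mk_iff_isConj, hkey, hgd]
      simp only [inv_mul_cancel]
      exact one_mem _
  have hcard : Nat.card S = Nat.card (R ⧸ P) := (Nat.card_eq_of_bijective Φ hΦbij).symm
  show Nat.card S = _
  rw [hcard, ← Subgroup.index_eq_card]
  have h5 : P.index = Nat.gcd (Nat.card R) n := IsCyclic.index_powMonoidHom_range R n
  rw [h5, hRcard, Nat.gcd_comm]

end Cfsg.Agent.Lib.SURegUnip
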