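import Mathlib
import Cfsg.Agent.Lib.SchurStem

/-!
# Central `r`-extensions: lifts of `r'`-elements

Abstract lemmas on a surjection `σ : Γ →* G` with central `r`-group kernel: the subgroup `Ogen σ r Y`
generated by the `r'`-elements of `Γ` above a subgroup `Y ≤ G`, transfer to a subgroup of index prime to `r`,
and the commutator computation for `H = A⟨y⟩`.
-/

set_option autoImplicit false

namespace Cfsg.Agent.Lib.SUrpA79

open Subgroup
open scoped commutatorElement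

universe u v

variable {Γ : Type u} {G : Type v} [Group Γ] [Group G]

/-- The hypotheses on the extension. -/
structure Ctx (σ : Γ →* G) (r : ℕ) : Prop where
  surj : Function.Surjective σ
  cen : σ.ker ≤ center Γ
  pg : IsPGroup r σ.ker
  hr : r.Prime

variable {σ : Γ →* G} {r : ℕ}

/-- The subgroup generated by the `r'`-elements above `Y`. -/
def Ogen (σ : Γ →* G) (r : ℕ) (Y : Subgroup G) : Subgroup Γ :=
  closure {x | σ x ∈ Y ∧ (orderOf x).Coprime r}

/-- `Y` is generated by its `r'`-elements. -/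
def RGen (r : ℕ) (Y : Subgroup G) : Prop :=
  Y ≤ closure {g | g ∈ Y ∧ (orderOf g).Coprime r}

/-- `σ` is injective on `Ogen σ r Y`. -/
def Good (σ : Γ →* G) (r : ℕ) (Y : Subgroup G) : Prop :=
  ∀ x ∈ Ogen σ r Y, σ x = 1 → x = 1

theorem coprime_of_pow_eq_one {x : Γ} {m : ℕ} (hm : m.Coprime r) (h : x ^ m = 1) :
    (orderOf x).Coprime r :=
  Nat.Coprime.coprime_dvd_left (orderOf_dvd_of_pow_eq_one h) hm

/-- An element of the kernel which is killed by a number prime to `r` is trivial. -/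
theorem ker_eq_one_of_pow (hc : Ctx σ r) {k : Γ} (hk : σ k = 1) {m : ℕ} (hm : m.Coprime r) (h : k ^ m = 1) :
    k = 1 := by
  obtain ⟨b, hb⟩ := hc.pg ⟨k, hk⟩
  have hb' : k ^ (r ^ b) = 1 := by simpa using congrArg Subtype.val hb
  have h1 : orderOf k ∣ m := orderOf_dvd_of_pow_eq_one h
  have h2 : orderOf k ∣ r ^ b := orderOf_dvd_of_pow_eq_one hb'
  have h3 : Nat.Coprime m (r ^ b) := Nat.Coprime.pow_right b hm
  have h4 : orderOf k = 1 := Nat.eq_one_of_dvd_coprimes h3 h1 h2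
  exact orderOf_eq_one_iff.1 h4

/-- `r'`-elements lift to `r'`-elements. -/
theorem exists_lift (hc : Ctx σ r) {g : G} (hg : (orderOf g).Coprime r) :
    ∃ x, σ x = g ∧ (orderOf x).Coprime r := by
  obtain ⟨x₀, hx₀⟩ := hc.surj g
  have hu : σ (x₀ ^ orderOf g) = 1 := by rw [map_pow, hx₀, pow_orderOf_eq_one]
  obtain ⟨b, hb⟩ := hc.pg ⟨x₀ ^ orderOf g, hu⟩
  have hb' : (x₀ ^ orderOf g) ^ (r ^ b) = 1 := by simpa using congrArg Subtype.val hb
  by_cases h1 : orderOf g = 1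
  · refine ⟨1, ?_, by simp⟩
    rw [map_one, orderOf_eq_one_iff.1 h1]
  have hgt : 1 < orderOf g := by
    have hpos : 0 < orderOf g := Nat.pos_of_ne_zero (fun h0 => by
      rw [h0] at hg
      have := hc.hr.one_lt
      simp [Nat.Coprime] at hg
      omega)
    omega
  obtain ⟨e, he⟩ := Nat.exists_mul_mod_eq_one_of_coprime (Nat.Coprime.pow_right b hg).symm hgt
  refine ⟨x₀ ^ (r ^ b * e), ?_, ?_⟩
  · rw [map_pow, hx₀, ← pow_mod_orderOf, he.2, pow_one]
  · apply coprime_of_pow_eq_one hg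
    rw [← pow_mul]
    have : r ^ b * e * orderOf g = orderOf g * r ^ b * e := by ring
    rw [this, pow_mul, pow_mul, hb', one_pow]

/-- `r'`-elements with the same image are equal. -/
theorem eq_of_coprime (hc : Ctx σ r) {x y : Γ} (hxy : σ x = σ y) (hx : (orderOf x).Coprime r)
    (hy : (orderOf y).Coprime r) : x = y := by
  have hk : σ (x⁻¹ * y) = 1 := by rw [map_mul, map_inv, hxy, inv_mul_cancel]
  have hcen : x⁻¹ * y ∈ center Γ := hc.cen hk
  have hcomm : Commute x (x⁻¹ * y) := Subgroup.mem_center_iff.1 hcen x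
  have h1 : (x⁻¹ * y) ^ (orderOf x * orderOf y) = 1 := by
    have hy' : y = x * (x⁻¹ * y) := by group
    have h2 : y ^ (orderOf x * orderOf y) = 1 := by rw [mul_comm, pow_mul, pow_orderOf_eq_one, one_pow]
    rw [hy', hcomm.mul_pow, pow_mul x, pow_orderOf_eq_one, one_pow, one_mul] at h2
    convert h2 using 3
    group
  have := ker_eq_one_of_pow hc hk (Nat.Coprime.mul_left hx hy) h1
  have h3 : y = x * (x⁻¹ * y) := by group
  rw [h3, this, mul_one]

/-- An element whose image commutes with the image of an `r'`-element commutes with it. -/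
theorem commute_of_coprime (hc : Ctx σ r) {a x : Γ} (hax : Commute (σ a) (σ x)) (hx : (orderOf x).Coprime r) :
    Commute a x := by
  have h1 : σ (a * x * a⁻¹) = σ x := by
    rw [map_mul, map_mul, map_inv, hax.eq]
    group
  have h2 : (orderOf (a * x * a⁻¹)).Coprime r := by
    have : orderOf (a * x * a⁻¹) = orderOf x := by
      have := orderOf_injective (MulAut.conj a).toMonoidHom (MulAut.conj a).injective x
      simpa using this
    rw [this]; exact hx
  have h3 := eq_of_coprime hc h1 h2 hx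
  rw [Commute, SemiconjBy]
  calc a * x = a * x * a⁻¹ * a := by group
    _ = x * a := by rw [h3]

theorem map_Ogen_le (Y : Subgroup G) : (Ogen σ r Y).map σ ≤ Y := by
  rw [Ogen, MonoidHom.map_closure, closure_le]
  rintro _ ⟨x, hx, rfl⟩
  exact hx.1

theorem mem_of_mem_Ogen {Y : Subgroup G} {x : Γ} (hx : x ∈ Ogen σ r Y) : σ x ∈ Y :=
  map_Ogen_le Y ⟨x, hx, rfl⟩

theorem le_map_Ogen (hc : Ctx σ r) {Y : Subgroup G} (hY : RGen r Y) : Y ≤ (Ogen σ r Y).map σ := by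
  refine hY.trans ?_
  rw [closure_le]
  rintro g ⟨hgY, hg⟩
  obtain ⟨x, hx, hxc⟩ := exists_lift hc hg
  exact ⟨x, Subgroup.subset_closure ⟨by rw [hx]; exact hgY, hxc⟩, hx⟩

theorem exists_mem_Ogen (hc : Ctx σ r) {Y : Subgroup G} (hY : RGen r Y) {y : G} (hy : y ∈ Y) :
    ∃ x ∈ Ogen σ r Y, σ x = y := by
  obtain ⟨x, hx, rfl⟩ := le_map_Ogen hc hY hy
  exact ⟨x, hx, rfl⟩

/-- `a` commutes with `Ogen Y` when `σ a` commutes with `Y`. -/
theorem commute_Ogen (hc : Ctx σ r) {Y : Subgroup G} {a : Γ} (ha : ∀ y ∈ Y, Commute (σ a) y) :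
    ∀ x ∈ Ogen σ r Y, Commute a x := by
  intro x hx
  induction hx using closure_induction with
  | mem x hx => exact commute_of_coprime hc (ha _ hx.1) hx.2
  | one => exact Commute.one_right a
  | mul x y _ _ hx hy => exact hx.mul_right hy
  | inv x _ hx => exact hx.inv_right

/-- `Ogen` is carried to itself by elements normalizing `Y`. -/
theorem conj_mem_Ogen {Y : Subgroup G} {b x : Γ} (hb : ∀ y ∈ Y, σ b * y * (σ b)⁻¹ ∈ Y) (hx : x ∈ Ogen σ r Y) :
    b * x * b⁻¹ ∈ Ogen σ r Y := by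
  induction hx using closure_induction with
  | mem x hx =>
    apply Subgroup.subset_closure
    refine ⟨?_, ?_⟩
    · rw [map_mul, map_mul, map_inv]
      exact hb _ hx.1
    · have : orderOf (b * x * b⁻¹) = orderOf x := by
        have := orderOf_injective (MulAut.conj b).toMonoidHom (MulAut.conj b).injective x
        simpa using this
      rw [this]; exact hx.2
  | one => simp [one_mem]
  | mul x y _ _ hx hy =>
    have : b * (x * y) * b⁻¹ = (b * x * b⁻¹) * (b * y * b⁻¹) := by group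
    rw [this]
    exact mul_mem hx hy
  | inv x _ hx =>
    have : b * x⁻¹ * b⁻¹ = (b * x * b⁻¹)⁻¹ := by group
    rw [this]
    exact inv_mem hx

/-- In a group generated by `r'`-elements, every element of `r`-power order is a product of commutators. -/
theorem mem_commutator_of_gen {Q : Type*} [Group Q] (hr : r.Prime) {S : Set Q} (hS : closure S = ⊤)
    (hS' : ∀ x ∈ S, (orderOf x).Coprime r) {k : Q} {b : ℕ} (hk : k ^ (r ^ b) = 1) : k ∈ commutator Q := by
  classical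
  let π : Q →* Abelianization Q := Abelianization.of
  have hall : ∀ x : Q, ∃ m : ℕ, m.Coprime r ∧ π x ^ m = 1 := by
    intro x
    have hx : x ∈ closure S := by rw [hS]; trivial
    induction hx using closure_induction with
    | mem x hx =>
      refine ⟨orderOf x, hS' x hx, ?_⟩
      rw [← map_pow, pow_orderOf_eq_one, map_one]
    | one => exact ⟨1, Nat.coprime_one_left r, by simp⟩
    | mul x y _ _ hx hy =>
      obtain ⟨m₁, hm₁, h₁⟩ := hx
      obtain ⟨m₂, hm₂, h₂⟩ := hy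
      refine ⟨m₁ * m₂, Nat.Coprime.mul_left hm₁ hm₂, ?_⟩
      rw [map_mul, mul_pow, pow_mul, h₁, one_pow, one_mul, mul_comm, pow_mul, h₂, one_pow]
    | inv x _ hx =>
      obtain ⟨m, hm, h⟩ := hx
      exact ⟨m, hm, by rw [map_inv, inv_pow, h, inv_one]⟩
  obtain ⟨m, hm, hk'⟩ := hall k
  have h2 : π k ^ (r ^ b) = 1 := by rw [← map_pow, hk, map_one]
  have h3 : orderOf (π k) = 1 :=
    Nat.eq_one_of_dvd_coprimes (Nat.Coprime.pow_right b hm) (orderOf_dvd_of_pow_eq_one hk')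
      (orderOf_dvd_of_pow_eq_one h2)
  have h4 : π k = 1 := orderOf_eq_one_iff.1 h3
  have h5 : k ∈ π.ker := h4
  have h6 : π.ker = commutator Q := by
    change (QuotientGroup.mk' (commutator Q)).ker = commutator Q
    exact QuotientGroup.ker_mk' _
  rwa [h6] at h5

/-- The statement "multiplier has no `r`-part" for a group `S`, in universe `u`. -/
def NoRPart (r : ℕ) (S : Type v) [Group S] : Prop :=
  ∀ (Q : Type u) [Group Q] [Finite Q] (τ : Q →* S), Function.Surjective τ → τ.ker ≤ center Q →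
    IsPGroup r τ.ker → τ.ker ≤ commutator Q → τ.ker = ⊥

theorem good_of_noRPart [Finite Γ] (hc : Ctx σ r) {S : Type v} [Group S] (hS : NoRPart.{u, v} r S)
    (ι : S →* G) (hι : Function.Injective ι) {Y : Subgroup G} (hY : ι.range = Y) (hR : RGen r Y) :
    Good σ r Y := by
  classical
  subst hY
  intro x hx hx1
  let Q := Ogen σ r ι.range
  have hrange : ∀ z : Q, σ z.1 ∈ ι.range := fun z => mem_of_mem_Ogen z.2
  -- the map to `S`
  let e : S ≃* ι.range := MonoidHom.ofInjective hι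
  let τ : Q →* S := (e.symm.toMonoidHom).comp ((σ.comp Q.subtype).codRestrict ι.range hrange)
  have hτ : ∀ z : Q, ι (τ z) = σ z.1 := by
    intro z
    have : e (τ z) = ⟨σ z.1, hrange z⟩ := e.apply_symm_apply _
    have h2 := congrArg Subtype.val this
    exact h2
  have hker : ∀ z : Q, τ z = 1 ↔ σ z.1 = 1 := by
    intro z
    rw [← hτ z]
    constructor
    · intro h; rw [h, map_one]
    · intro h; exact hι (by rw [h, map_one])
  have hsurj : Function.Surjective τ := by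
    intro s
    obtain ⟨z, hz, hzs⟩ := exists_mem_Ogen hc hR (⟨s, rfl⟩ : ι s ∈ ι.range)
    refine ⟨⟨z, hz⟩, hι ?_⟩
    rw [hτ]
    exact hzs
  have hcen : τ.ker ≤ center Q := by
    intro z hz
    have h1 : z.1 ∈ σ.ker := (hker z).1 hz
    have h2 : z.1 ∈ center Γ := hc.cen h1
    rw [Subgroup.mem_center_iff] at h2 ⊢
    intro w
    exact Subtype.ext (h2 w.1)
  have hpg : IsPGroup r τ.ker := by
    intro z
    have h1 : z.1.1 ∈ σ.ker := (hker z.1).1 z.2
    obtain ⟨b, hb⟩ := hc.pg ⟨z.1.1, h1⟩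
    refine ⟨b, ?_⟩
    have hb' : z.1.1 ^ (r ^ b) = 1 := by simpa using congrArg Subtype.val hb
    apply Subtype.ext
    apply Subtype.ext
    simpa using hb'
  have hcomm : τ.ker ≤ commutator Q := by
    intro z hz
    have h1 : z.1 ∈ σ.ker := (hker z).1 hz
    obtain ⟨b, hb⟩ := hc.pg ⟨z.1, h1⟩
    have hb' : z ^ (r ^ b) = 1 := by
      apply Subtype.ext
      simpa using congrArg Subtype.val hb
    -- `Q` is generated by `r'`-elements
    let S' : Set Q := {w | σ w.1 ∈ ι.range ∧ (orderOf w).Coprime r}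
    have hS' : closure S' = ⊤ := by
      rw [eq_top_iff]
      rintro ⟨w, hw⟩ _
      have key : ∀ w (hw : w ∈ Ogen σ r ι.range), (⟨w, hw⟩ : Q) ∈ closure S' := by
        intro w hw
        induction hw using closure_induction with
        | mem w hw =>
          apply Subgroup.subset_closure
          refine ⟨hw.1, ?_⟩
          rw [← Subgroup.orderOf_coe]
          exact hw.2
        | one => exact one_mem _
        | mul a b ha hb ih1 ih2 => exact mul_mem ih1 ih2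
        | inv a ha ih => exact inv_mem ih
      exact key w hw
    exact mem_commutator_of_gen hc.hr hS' (fun w hw => hw.2) hb'
  have hbot := hS Q τ hsurj hcen hpg hcomm
  have : (⟨x, hx⟩ : Q) ∈ τ.ker := (hker ⟨x, hx⟩).2 hx1
  rw [hbot, Subgroup.mem_bot] at this
  exact congrArg Subtype.val this

theorem rgen_sup {Y₁ Y₂ : Subgroup G} (h₁ : RGen r Y₁) (h₂ : RGen r Y₂) : RGen r (Y₁ ⊔ Y₂) := by
  apply sup_le
  · refine h₁.trans (closure_mono ?_)
    rintro g ⟨hg, hgc⟩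
    exact ⟨(le_sup_left : Y₁ ≤ Y₁ ⊔ Y₂) hg, hgc⟩
  · refine h₂.trans (closure_mono ?_)
    rintro g ⟨hg, hgc⟩
    exact ⟨(le_sup_right : Y₂ ≤ Y₁ ⊔ Y₂) hg, hgc⟩

/-- Elements of the join of commuting subgroups are products. -/
theorem exists_mul_of_mem_sup {T : Type*} [Group T] {A B : Subgroup T} (hAB : ∀ a ∈ A, ∀ b ∈ B, Commute a b)
    {x : T} (hx : x ∈ A ⊔ B) : ∃ a ∈ A, ∃ b ∈ B, x = a * b := by
  rw [sup_eq_closure] at hx
  induction hx using closure_induction with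
  | mem x hx =>
    rcases hx with hx | hx
    · exact ⟨x, hx, 1, one_mem _, by simp⟩
    · exact ⟨1, one_mem _, x, hx, by simp⟩
  | one => exact ⟨1, one_mem _, 1, one_mem _, by simp⟩
  | mul x y _ _ hx hy =>
    obtain ⟨a, ha, b, hb, rfl⟩ := hx
    obtain ⟨a', ha', b', hb', rfl⟩ := hy
    refine ⟨a * a', mul_mem ha ha', b * b', mul_mem hb hb', ?_⟩
    have := (hAB a' ha' b hb).eq
    calc a * b * (a' * b') = a * (b * a') * b' := by group
      _ = a * (a' * b) * b' := by rw [this]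
      _ = a * a' * (b * b') := by group
  | inv x _ hx =>
    obtain ⟨a, ha, b, hb, rfl⟩ := hx
    refine ⟨a⁻¹, inv_mem ha, b⁻¹, inv_mem hb, ?_⟩
    rw [mul_inv_rev]
    exact ((hAB a ha b hb).inv_inv).eq.symm

/-- `Good` and commuting, trivially intersecting subgroups. -/
theorem good_sup (hc : Ctx σ r) {Y₁ Y₂ : Subgroup G} (hcomm : ∀ a ∈ Y₁, ∀ b ∈ Y₂, Commute a b)
    (hinf : Y₁ ⊓ Y₂ = ⊥) (h₁ : Good σ r Y₁) (h₂ : Good σ r Y₂) (r₁ : RGen r Y₁) (r₂ : RGen r Y₂) :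
    Good σ r (Y₁ ⊔ Y₂) := by
  classical
  have hOcomm : ∀ a ∈ Ogen σ r Y₁, ∀ b ∈ Ogen σ r Y₂, Commute a b := by
    intro a ha b hb
    refine commute_Ogen hc (fun y hy => ?_) b hb
    exact hcomm _ (mem_of_mem_Ogen ha) y hy
  let M := Ogen σ r Y₁ ⊔ Ogen σ r Y₂
  have hinj : ∀ m ∈ M, σ m = 1 → m = 1 := by
    intro m hm hm1
    obtain ⟨a, ha, b, hb, rfl⟩ := exists_mul_of_mem_sup hOcomm hm
    rw [map_mul] at hm1
    have h1 : σ a = (σ b)⁻¹ := eq_inv_of_mul_eq_one_left hm1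
    have h2 : σ a ∈ Y₁ ⊓ Y₂ := by
      refine Subgroup.mem_inf.2 ⟨mem_of_mem_Ogen ha, ?_⟩
      rw [h1]
      exact inv_mem (mem_of_mem_Ogen hb)
    rw [hinf, Subgroup.mem_bot] at h2
    have h3 : a = 1 := h₁ a ha h2
    have h4 : σ b = 1 := by
      rw [h2] at hm1
      simpa using hm1
    have h5 : b = 1 := h₂ b hb h4
    rw [h3, h5, mul_one]
  have hle : Ogen σ r (Y₁ ⊔ Y₂) ≤ M := by
    rw [Ogen, closure_le]
    rintro x ⟨hxY, hxc⟩
    obtain ⟨y₁, hy₁, y₂, hy₂, hxy⟩ := exists_mul_of_mem_sup hcomm hxY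
    obtain ⟨a, ha, ha'⟩ := exists_mem_Ogen hc r₁ hy₁
    obtain ⟨b, hb, hb'⟩ := exists_mem_Ogen hc r₂ hy₂
    have hx' : a * b ∈ M := mul_mem ((le_sup_left : _ ≤ M) ha) ((le_sup_right : _ ≤ M) hb)
    have hσ : σ (a * b) = σ x := by rw [map_mul, ha', hb', hxy]
    have hord : (orderOf (a * b)).Coprime r := by
      have hdvd : (a * b) ^ orderOf (σ x) = 1 := by
        apply hinj _ (pow_mem hx' _)
        rw [map_pow, hσ, pow_orderOf_eq_one]
      refine Nat.Coprime.coprime_dvd_left (orderOf_dvd_of_pow_eq_one hdvd) ?_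
      exact Nat.Coprime.coprime_dvd_left (orderOf_map_dvd σ x) hxc
    have := eq_of_coprime hc hσ hord hxc
    rw [← this]
    exact hx'
  intro x hx hx1
  exact hinj x (hle hx) hx1

/-- Transfer to a subgroup of index prime to `r`. -/
theorem ker_eq_bot_of_transfer [Finite Γ] (hc : Ctx σ r) (hcomm : σ.ker ≤ commutator Γ) (X : Subgroup G)
    (hX : ¬ r ∣ X.index)
    (H : ∀ k : Γ, σ k = 1 → ∀ h : k ∈ X.comap σ, (⟨k, h⟩ : X.comap σ) ∈ commutator (X.comap σ) → k = 1) :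
    σ.ker = ⊥ := by
  rw [eq_bot_iff]
  intro k hk
  rw [Subgroup.mem_bot]
  obtain ⟨h, hm⟩ := SchurStem.pow_index_mem_commutator (X.comap σ) (hc.cen hk) (hcomm hk)
  have hσ : σ (k ^ (X.comap σ).index) = 1 := by
    rw [map_pow, (show σ k = 1 from hk), one_pow]
  have h1 := H _ hσ h hm
  have hi : (X.comap σ).index = X.index := Subgroup.index_comap_of_surjective X hc.surj
  rw [hi] at h1
  have hcop : (X.index).Coprime r := ((Nat.Prime.coprime_iff_not_dvd hc.hr).2 hX).symm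
  exact ker_eq_one_of_pow hc hk hcop h1

/-! ### The commutator of `A⟨y⟩` -/

/-- `H = A⟨y⟩` with `A` normal commutative: the derived group consists of the `⁅a, y⁆`. -/
theorem commutator_of_comm {H : Type*} [Group H] (A : Subgroup H) [hA : A.Normal]
    (hcomm : ∀ a ∈ A, ∀ b ∈ A, Commute a b) (y : H) (hH : ∀ h : H, ∃ a ∈ A, ∃ i : ℕ, h = a * y ^ i)
    {x : H} (hx : x ∈ commutator H) : ∃ a ∈ A, x = ⁅a, y⁆ := by
  have hy : ∀ a ∈ A, y * a * y⁻¹ ∈ A := fun a ha => hA.conj_mem a ha y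
  have hmem : ∀ a ∈ A, ⁅a, y⁆ ∈ A := by
    intro a ha
    rw [commutatorElement_def]
    have := hy a⁻¹ (inv_mem ha)
    have h2 : a * y * a⁻¹ * y⁻¹ = a * (y * a⁻¹ * y⁻¹) := by group
    rw [h2]
    exact mul_mem ha this
  let S : Subgroup H :=
    { carrier := {x | ∃ a ∈ A, x = ⁅a, y⁆}
      one_mem' := ⟨1, one_mem _, by simp⟩
      mul_mem' := by
        rintro _ _ ⟨a, ha, rfl⟩ ⟨b, hb, rfl⟩
        refine ⟨a * b, mul_mem ha hb, ?_⟩
        simp only [commutatorElement_def]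
        have ha' := hy a⁻¹ (inv_mem ha)
        have hb' := hy b⁻¹ (inv_mem hb)
        have h1 := (hcomm _ ha' b hb).eq
        have h2 := (hcomm _ ha' _ hb').eq
        calc a * y * a⁻¹ * y⁻¹ * (b * y * b⁻¹ * y⁻¹)
            = a * ((y * a⁻¹ * y⁻¹) * b) * (y * b⁻¹ * y⁻¹) := by group
          _ = a * b * ((y * a⁻¹ * y⁻¹) * (y * b⁻¹ * y⁻¹)) := by rw [h1]; group
          _ = a * b * ((y * b⁻¹ * y⁻¹) * (y * a⁻¹ * y⁻¹)) := by rw [h2]
          _ = a * b * y * (a * b)⁻¹ * y⁻¹ := by group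
      inv_mem' := by
        rintro _ ⟨a, ha, rfl⟩
        refine ⟨a⁻¹, inv_mem ha, ?_⟩
        simp only [commutatorElement_def]
        have ha' := hy a⁻¹ (inv_mem ha)
        have h1 := (hcomm _ ha' a⁻¹ (inv_mem ha)).eq
        calc (a * y * a⁻¹ * y⁻¹)⁻¹ = (y * a * y⁻¹) * a⁻¹ := by group
          _ = (y * a⁻¹ * y⁻¹)⁻¹ * a⁻¹ := by group
          _ = a⁻¹ * (y * a⁻¹ * y⁻¹)⁻¹ :=
            ((hcomm _ (inv_mem ha') a⁻¹ (inv_mem ha)).eq)
          _ = a⁻¹ * y * a⁻¹⁻¹ * y⁻¹ := by group }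
  have hSmem : ∀ {x}, x ∈ S ↔ ∃ a ∈ A, x = ⁅a, y⁆ := Iff.rfl
  have hconjy : ∀ x ∈ S, y * x * y⁻¹ ∈ S := by
    rintro _ ⟨a, ha, rfl⟩
    refine ⟨y * a * y⁻¹, hy a ha, ?_⟩
    simp only [commutatorElement_def]
    group
  have hconjypow : ∀ (i : ℕ), ∀ x ∈ S, y ^ i * x * (y ^ i)⁻¹ ∈ S := by
    intro i
    induction i with
    | zero => intro x hx; simpa using hx
    | succ i ih =>
      intro x hx
      have := ih _ (hconjy x hx)
      have e : y ^ (i + 1) * x * (y ^ (i + 1))⁻¹ = y ^ i * (y * x * y⁻¹) * (y ^ i)⁻¹ := by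
        rw [pow_succ]; group
      rw [e]; exact this
  have hconjA : ∀ b ∈ A, ∀ x ∈ S, b * x * b⁻¹ ∈ S := by
    rintro b hb _ ⟨a, ha, rfl⟩
    have := (hcomm b hb _ (hmem a ha)).eq
    rw [this, mul_inv_cancel_right]
    exact ⟨a, ha, rfl⟩
  have hSn : S.Normal := by
    constructor
    intro x hx h
    obtain ⟨b, hb, i, rfl⟩ := hH h
    have e : b * y ^ i * x * (b * y ^ i)⁻¹ = b * (y ^ i * x * (y ^ i)⁻¹) * b⁻¹ := by group
    rw [e]
    exact hconjA b hb _ (hconjypow i x hx)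
  let π := QuotientGroup.mk' S
  have hkerπ : ∀ z, π z = 1 ↔ z ∈ S := by
    intro z
    exact QuotientGroup.eq_one_iff z
  have hAA : ∀ a ∈ A, ∀ b ∈ A, Commute (π a) (π b) := fun a ha b hb =>
    (hcomm a ha b hb).map π
  have hAy : ∀ a ∈ A, Commute (π a) (π y) := by
    intro a ha
    have h1 : π ⁅a, y⁆ = 1 := (hkerπ _).2 ⟨a, ha, rfl⟩
    rw [commutatorElement_def] at h1
    simp only [map_mul, map_inv] at h1
    rw [Commute, SemiconjBy]
    have h2 : π a * π y = (π a * π y * (π a)⁻¹ * (π y)⁻¹) * (π y * π a) := by group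
    rw [h2, h1, one_mul]
  have hab : ∀ u v : H, Commute (π u) (π v) := by
    intro u v
    obtain ⟨a, ha, i, rfl⟩ := hH u
    obtain ⟨b, hb, j, rfl⟩ := hH v
    simp only [map_mul, map_pow]
    apply Commute.mul_left
    · apply Commute.mul_right (hAA a ha b hb)
      exact (hAy a ha).pow_right j
    · apply Commute.mul_right
      · exact ((hAy b hb).symm).pow_left i
      · exact (Commute.refl (π y)).pow_pow i j
  have hle : commutator H ≤ S := by
    rw [commutator_def, Subgroup.commutator_le]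
    intro u _ v _
    rw [← hkerπ, commutatorElement_def]
    simp only [map_mul, map_inv]
    have := (hab u v).eq
    rw [this]
    group
  exact hle hx

/-- `H = A⟨y⟩` with `A, L` normal, `[A, A] ≤ L ≤ A`. -/
theorem commutator_mod {H : Type*} [Group H] (A L : Subgroup H) [hA : A.Normal] [hL : L.Normal]
    (hAL : ∀ a ∈ A, ∀ b ∈ A, ⁅a, b⁆ ∈ L) (y : H) (hH : ∀ h : H, ∃ a ∈ A, ∃ i : ℕ, h = a * y ^ i)
    {x : H} (hx : x ∈ commutator H) : ∃ a ∈ A, ∃ l ∈ L, x = ⁅a, y⁆ * l := by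
  let π := QuotientGroup.mk' L
  have hπ : Function.Surjective π := QuotientGroup.mk'_surjective L
  have hker : ∀ z, π z = 1 ↔ z ∈ L := fun z => QuotientGroup.eq_one_iff z
  have hAn : (A.map π).Normal := Subgroup.Normal.map hA π hπ
  have hcomm : ∀ a ∈ A.map π, ∀ b ∈ A.map π, Commute a b := by
    rintro _ ⟨a, ha, rfl⟩ _ ⟨b, hb, rfl⟩
    have h1 : π ⁅a, b⁆ = 1 := (hker _).2 (hAL a ha b hb)
    rw [commutatorElement_def] at h1
    simp only [map_mul, map_inv] at h1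
    rw [Commute, SemiconjBy]
    have h2 : π a * π b = (π a * π b * (π a)⁻¹ * (π b)⁻¹) * (π b * π a) := by group
    rw [h2, h1, one_mul]
  have hH' : ∀ h : H ⧸ L, ∃ a ∈ A.map π, ∃ i : ℕ, h = a * (π y) ^ i := by
    intro h
    obtain ⟨h, rfl⟩ := hπ h
    obtain ⟨a, ha, i, rfl⟩ := hH h
    exact ⟨π a, ⟨a, ha, rfl⟩, i, by simp⟩
  have hx' : π x ∈ commutator (H ⧸ L) := by
    have : (commutator H).map π ≤ commutator (H ⧸ L) := by
      rw [commutator_def, commutator_def, Subgroup.map_commutator]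
      exact Subgroup.commutator_mono le_top le_top
    exact this ⟨x, hx, rfl⟩
  obtain ⟨_, ⟨a, ha, rfl⟩, hxa⟩ := commutator_of_comm (A.map π) hcomm (π y) hH' hx'
  refine ⟨a, ha, ⁅a, y⁆⁻¹ * x, ?_, by group⟩
  rw [← hker, map_mul, map_inv, hxa, map_commutatorElement, inv_mul_cancel]

/-- The abstract block theorem. `X` has index prime to `r`, `X = D⟨y⟩`, `D₀ ≤ D` normal in `X`, `D₀` is
`Good`, `D = T D₀`, the preimage of `T` is commutative and for `a ∈ D` with `⁅a, y⁆ ∈ D₀`, `a` is `c d` with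
`d ∈ D₀` and every lift of `c` commuting with `ỹ`. Then `ker σ = 1`. -/
theorem ker_eq_bot_of_block [Finite Γ] (hc : Ctx σ r) (hcomm : σ.ker ≤ commutator Γ)
    (X D D₀ T : Subgroup G) (hX : ¬ r ∣ X.index) (hDX : D ≤ X) (hD₀D : D₀ ≤ D)
    (hDn : ∀ g ∈ X, ∀ a ∈ D, g * a * g⁻¹ ∈ D) (hD₀n : ∀ g ∈ X, ∀ a ∈ D₀, g * a * g⁻¹ ∈ D₀)
    (hgood : Good σ r D₀) (hrgen : RGen r D₀)
    (hTD : ∀ a ∈ D, ∃ t ∈ T, ∃ d ∈ D₀, a = t * d)
    (hTcomm : ∀ x y : Γ, σ x ∈ T → σ y ∈ T → Commute x y)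
    (y : Γ) (hyX : σ y ∈ X) (hXD : ∀ g ∈ X, ∃ a ∈ D, ∃ i : ℕ, g = a * (σ y) ^ i)
    (hfix : ∀ a ∈ D, ⁅a, σ y⁆ ∈ D₀ → ∃ x : Γ, ∃ d ∈ D₀, a = σ x * d ∧ ∀ x', σ x' = σ x → Commute x' y) :
    σ.ker = ⊥ := by
  classical
  apply ker_eq_bot_of_transfer hc hcomm X hX
  intro k hk hkH hkc
  set Hh := X.comap σ with hHh
  have hyH : y ∈ Hh := hyX
  let y' : Hh := ⟨y, hyH⟩
  let A : Subgroup Hh := (D.comap σ).subgroupOf Hh
  let L₀ : Subgroup Γ := Ogen σ r D₀
  let L : Subgroup Hh := L₀.subgroupOf Hh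
  have hL₀D : ∀ l ∈ L₀, σ l ∈ D₀ := fun l hl => mem_of_mem_Ogen hl
  have hAn : A.Normal := by
    constructor
    intro a ha g
    have h1 : σ a.1 ∈ D := ha
    change σ (g.1 * a.1 * g.1⁻¹) ∈ D
    rw [map_mul, map_mul, map_inv]
    exact hDn _ g.2 _ h1
  have hLn : L.Normal := by
    constructor
    intro a ha g
    change g.1 * a.1 * g.1⁻¹ ∈ L₀
    refine conj_mem_Ogen (fun d hd => hD₀n _ g.2 _ hd) ha
  -- factorisation in `A`
  have hfact : ∀ a : Γ, σ a ∈ D → ∃ t l : Γ, σ t ∈ T ∧ l ∈ L₀ ∧ a = t * l := by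
    intro a ha
    obtain ⟨t, ht, d, hd, hatd⟩ := hTD _ ha
    obtain ⟨l, hl, hld⟩ := exists_mem_Ogen hc hrgen hd
    refine ⟨a * l⁻¹, l, ?_, hl, by group⟩
    have : σ (a * l⁻¹) = t := by rw [map_mul, map_inv, hld, hatd]; group
    rw [this]; exact ht
  have hAL : ∀ a ∈ A, ∀ b ∈ A, ⁅a, b⁆ ∈ L := by
    intro a ha b hb
    let π := QuotientGroup.mk' L
    have hker : ∀ z, π z = 1 ↔ z ∈ L := fun z => QuotientGroup.eq_one_iff z
    rw [← hker]
    obtain ⟨t, l, ht, hl, hatl⟩ := hfact a.1 ha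
    obtain ⟨t', l', ht', hl', hbtl⟩ := hfact b.1 hb
    have hlH : l ∈ Hh := hDX (hD₀D (hL₀D l hl))
    have hlH' : l' ∈ Hh := hDX (hD₀D (hL₀D l' hl'))
    have htH : t ∈ Hh := by
      have : t = a.1 * l⁻¹ := by rw [hatl]; group
      rw [this]; exact mul_mem a.2 (inv_mem hlH)
    have htH' : t' ∈ Hh := by
      have : t' = b.1 * l'⁻¹ := by rw [hbtl]; group
      rw [this]; exact mul_mem b.2 (inv_mem hlH')
    have ha' : a = ⟨t, htH⟩ * ⟨l, hlH⟩ := Subtype.ext hatl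
    have hb' : b = ⟨t', htH'⟩ * ⟨l', hlH'⟩ := Subtype.ext hbtl
    have hl1 : π ⟨l, hlH⟩ = 1 := (hker _).2 hl
    have hl2 : π ⟨l', hlH'⟩ = 1 := (hker _).2 hl'
    have htt : Commute (⟨t, htH⟩ : Hh) ⟨t', htH'⟩ := by
      rw [Commute, SemiconjBy]
      exact Subtype.ext (hTcomm t t' ht ht').eq
    have htt' := htt.map π
    rw [map_commutatorElement, ha', hb', map_mul, map_mul, hl1, hl2, mul_one, mul_one,
      commutatorElement_def, htt'.eq]
    group
  have hHfact : ∀ h : Hh, ∃ a ∈ A, ∃ i : ℕ, h = a * y' ^ i := by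
    intro h
    obtain ⟨a, ha, i, hi⟩ := hXD _ h.2
    refine ⟨h * (y' ^ i)⁻¹, ?_, i, by group⟩
    change σ (h.1 * ((y' ^ i)⁻¹).1) ∈ D
    have : σ (h.1 * ((y' ^ i)⁻¹).1) = a := by
      simp only [map_mul, InvMemClass.coe_inv, map_inv, SubmonoidClass.coe_pow, map_pow, y']
      rw [hi]; group
    rw [this]; exact ha
  obtain ⟨a, ha, l, hl, hkal⟩ := commutator_mod A L hAL y' hHfact hkc
  -- apply `σ`
  have hval : k = ⁅a.1, y⁆ * l.1 := congrArg Subtype.val hkal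
  have h1 : ⁅σ a.1, σ y⁆ ∈ D₀ := by
    have h2 : σ k = ⁅σ a.1, σ y⁆ * σ l.1 := by
      rw [hval, map_mul, map_commutatorElement]
    rw [hk] at h2
    have h3 : ⁅σ a.1, σ y⁆ = (σ l.1)⁻¹ := eq_inv_of_mul_eq_one_left h2.symm
    rw [h3]
    exact inv_mem (hL₀D _ hl)
  obtain ⟨x, d, hd, hax, hxcomm⟩ := hfix (σ a.1) ha h1
  obtain ⟨l₂, hl₂, hl₂d⟩ := exists_mem_Ogen hc hrgen hd
  -- `c̃ = a l₂⁻¹`
  have hc' : σ (a.1 * l₂⁻¹) = σ x := by rw [map_mul, map_inv, hl₂d, hax]; group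
  have hcomm' := hxcomm _ hc'
  have hl₂H : l₂ ∈ Hh := hDX (hD₀D (hL₀D l₂ hl₂))
  -- `⁅a, y⁆ = c̃ ⁅l₂, y⁆ c̃⁻¹` lies in `L₀`
  have hm : ⁅a.1, y⁆ ∈ L₀ := by
    set c := a.1 * l₂⁻¹ with hcdef
    have hca : a.1 = c * l₂ := by rw [hcdef]; group
    have hyl : y * l₂⁻¹ * y⁻¹ ∈ L₀ :=
      conj_mem_Ogen (fun d hd => hD₀n _ hyX _ hd) (inv_mem hl₂)
    have hcH : c ∈ Hh := mul_mem a.2 (inv_mem hl₂H)
    have e : ⁅a.1, y⁆ = c * (l₂ * (y * l₂⁻¹ * y⁻¹)) * c⁻¹ := by
      rw [commutatorElement_def, hca]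
      have := hcomm'.eq
      calc c * l₂ * y * (c * l₂)⁻¹ * y⁻¹ = c * l₂ * y * l₂⁻¹ * (y⁻¹ * (y * c⁻¹ * y⁻¹)) := by group
        _ = c * l₂ * y * l₂⁻¹ * (y⁻¹ * (c⁻¹ * y * y⁻¹)) := by
            have h2 : y * c⁻¹ = c⁻¹ * y := (hcomm'.inv_left).eq.symm
            rw [h2]
        _ = c * (l₂ * (y * l₂⁻¹ * y⁻¹)) * c⁻¹ := by group
    rw [e]
    exact conj_mem_Ogen (fun d hd => hD₀n _ hcH _ hd) (mul_mem hl₂ hyl)
  have hkL : k ∈ L₀ := by
    rw [hval]
    exact mul_mem hm hl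
  exact hgood k hkL hk

end Cfsg.Agent.Lib.SUrpA79
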