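import Mathlib
import Cfsg.Agent.Lib.SUrpA79
import Cfsg.Agent.Lib.SUGen
import Cfsg.Agent.Lib.UnitaryConjGU

/-!
# Coordinate blocks in `SU_n`

Diagonal projectors `P S`, the parts `part S A = A P S + (1 - P S)` of a matrix commuting with `P S`, the
subgroups `Fx S` of elements trivial outside the coordinates `S`, their identification with `SU_{|S|}`.
-/

set_option autoImplicit false
set_option linter.unusedSectionVars false
set_option linter.unusedVariables false
set_option linter.style.haveILetI false
set_option linter.unusedSimpArgs false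

namespace Cfsg.Agent.Lib.SUrpB79

open Module Matrix Cfsg Cfsg.Agent.Lib.UnitaryBasic Cfsg.Agent.Lib.UnitarySU Cfsg.Agent.Lib.UnitaryConjGU
  Cfsg.Agent.Lib.SUGen Cfsg.Agent.Lib.SUrpA79

universe u v

variable {F : Type v} [Field F] [Fintype F] {q n m : ℕ}

/-- The matrix of an element. -/
def mat (g : SU n F q) : Matrix (Fin n) (Fin n) F :=
  ((g : Matrix.SpecialLinearGroup (Fin n) F) : Matrix (Fin n) (Fin n) F)

@[simp] lemma mat_mul (g h : SU n F q) : mat (g * h) = mat g * mat h := rfl
@[simp] lemma mat_one : mat (1 : SU n F q) = 1 := rfl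
lemma mat_inj {g h : SU n F q} (e : mat g = mat h) : g = h := Subtype.ext (Subtype.ext e)
lemma det_mat (g : SU n F q) : (mat g).det = 1 := g.1.2
lemma mat_pow (g : SU n F q) (k : ℕ) : mat (g ^ k) = mat g ^ k := by
  induction k with
  | zero => simp
  | succ k ih => rw [pow_succ, pow_succ, mat_mul, ih]

lemma act_eq_mat (g : SU n F q) (x : Fin n → F) : act g x = mat g *ᵥ x := rfl

lemma mat_inv_mul (g : SU n F q) : mat g⁻¹ * mat g = 1 := by
  rw [← mat_mul, inv_mul_cancel, mat_one]
lemma mat_mul_inv (g : SU n F q) : mat g * mat g⁻¹ = 1 := by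
  rw [← mat_mul, mul_inv_cancel, mat_one]

section

variable (hF : Fintype.card F = q ^ 2)
include hF

lemma q_ne_zero : q ≠ 0 := by
  have := HermCount.two_le_q hF
  omega

lemma st_mul_of_preserve {A : Matrix (Fin n) (Fin n) F}
    (hA : ∀ u v, hermForm n F q (A *ᵥ u) (A *ᵥ v) = hermForm n F q u v) : st q A * A = 1 := by
  have h1 := transpose_mul_map_sigma hF hA
  have h2 : st q (A.transpose * A.map (sigma hF)) = st q 1 := by rw [h1]
  rw [st_mul hF, st_one hF] at h2
  have h3 : st q (Aᵀ) = A.map (sigma hF) := by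
    ext i j
    rfl
  have h4 : st q (A.map (sigma hF)) = Aᵀ := by
    ext i j
    rw [st_apply]
    exact HermCount.pow_q_pow_q hF _
  rw [h3, h4] at h2
  have h5 : st q A = (A.map (sigma hF))ᵀ := rfl
  rw [h5]
  have h6 := congrArg Matrix.transpose h2
  simp only [Matrix.transpose_mul, Matrix.transpose_transpose, Matrix.transpose_one] at h6
  exact h6

lemma preserve_of_st_mul {A : Matrix (Fin n) (Fin n) F} (hg : st q A * A = 1) (u v : Fin n → F) :
    hermForm n F q (A *ᵥ u) (A *ᵥ v) = hermForm n F q u v := by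
  have hherm : ∀ a b : Fin n → F, hermForm n F q a b = a ⬝ᵥ (fun i => sigma hF (b i)) := fun a b => rfl
  have hmul : (fun i => sigma hF ((A *ᵥ v) i)) = A.map (sigma hF) *ᵥ fun i => sigma hF (v i) := by
    funext i
    exact RingHom.map_mulVec (sigma hF) A v i
  rw [hherm, hherm, hmul]
  have h1 : A * st q A = 1 := mul_eq_one_comm.mp hg
  have h2 : A.map (sigma hF) * Aᵀ = 1 := by
    have := congrArg Matrix.transpose h1
    simp only [Matrix.transpose_mul, Matrix.transpose_one] at this
    exact this
  have h3 : Aᵀ * A.map (sigma hF) = 1 := mul_eq_one_comm.mp h2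
  rw [← Matrix.vecMul_transpose, ← Matrix.dotProduct_mulVec, Matrix.mulVec_mulVec, h3, Matrix.one_mulVec]

/-- An element of `SU` with given matrix. -/
def mkSU (A : Matrix (Fin n) (Fin n) F) (hU : st q A * A = 1) (hd : A.det = 1) : SU n F q :=
  SUofMatrix A hd (preserve_of_st_mul hF hU)

omit hF in
@[simp] lemma mat_mkSU (hF : Fintype.card F = q ^ 2) (A : Matrix (Fin n) (Fin n) F) (hU : st q A * A = 1)
    (hd : A.det = 1) : mat (mkSU hF A hU hd) = A := rfl

lemma st_mat_mul (g : SU n F q) : st q (mat g) * mat g = 1 := st_mul_of_preserve hF g.2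

lemma mat_mul_st (g : SU n F q) : mat g * st q (mat g) = 1 := mul_eq_one_comm.mp (st_mat_mul hF g)

lemma mat_inv (g : SU n F q) : mat g⁻¹ = st q (mat g) := by
  calc mat g⁻¹ = mat g⁻¹ * (mat g * st q (mat g)) := by rw [mat_mul_st hF, mul_one]
    _ = st q (mat g) := by rw [← mul_assoc, mat_inv_mul, one_mul]

end

/-! ### Projectors -/

/-- The diagonal projector on the coordinates in `S`. -/
def P (F : Type v) [Field F] (S : Finset (Fin n)) : Matrix (Fin n) (Fin n) F :=
  Matrix.diagonal (fun i => if i ∈ S then 1 else 0)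

lemma P_apply (S : Finset (Fin n)) (i j : Fin n) :
    P F S i j = if i = j then (if i ∈ S then 1 else 0) else 0 := by
  simp [P, Matrix.diagonal_apply]

lemma P_mul_self (S : Finset (Fin n)) : P F S * P F S = P F S := by
  simp only [P, Matrix.diagonal_mul_diagonal]
  congr 1
  funext i
  split_ifs <;> simp

lemma P_mul_P (S T : Finset (Fin n)) : P F S * P F T = P F (S ∩ T) := by
  simp only [P, Matrix.diagonal_mul_diagonal]
  congr 1
  funext i
  by_cases h1 : i ∈ S <;> by_cases h2 : i ∈ T <;> simp [h1, h2]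

lemma P_empty : P F (∅ : Finset (Fin n)) = 0 := by
  simp [P]

lemma P_mul_disjoint {S T : Finset (Fin n)} (h : Disjoint S T) : P F S * P F T = 0 := by
  rw [P_mul_P, Finset.disjoint_iff_inter_eq_empty.1 h, P_empty]

lemma P_univ : P F (Finset.univ : Finset (Fin n)) = 1 := by
  simp [P]

lemma P_union {S T : Finset (Fin n)} (h : Disjoint S T) : P F (S ∪ T) = P F S + P F T := by
  simp only [P, Matrix.diagonal_add]
  congr 1
  funext i
  by_cases h1 : i ∈ S <;> by_cases h2 : i ∈ T <;> simp [h1, h2]
  exact (Finset.disjoint_left.1 h h1 h2).elim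

lemma P_compl (S : Finset (Fin n)) : P F Sᶜ = 1 - P F S := by
  have := P_union (F := F) (disjoint_compl_right : Disjoint S Sᶜ)
  rw [Finset.union_compl, P_univ] at this
  rw [this]
  abel

lemma st_P (hF : Fintype.card F = q ^ 2) (S : Finset (Fin n)) : st q (P F S) = P F S := by
  ext i j
  rw [st_apply, P_apply, P_apply]
  have hq := q_ne_zero hF
  by_cases h : i = j
  · subst h
    by_cases h1 : i ∈ S <;> simp [h1, hq]
  · simp [h, Ne.symm h, hq]

lemma st_one_sub_P (hF : Fintype.card F = q ^ 2) (S : Finset (Fin n)) : st q (1 - P F S) = 1 - P F S := by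
  rw [← P_compl, st_P hF]

/-! ### Parts -/

/-- The part of a matrix on the coordinates `S`. -/
def part (S : Finset (Fin n)) (A : Matrix (Fin n) (Fin n) F) : Matrix (Fin n) (Fin n) F :=
  A * P F S + (1 - P F S)

lemma part_one (S : Finset (Fin n)) : part S (1 : Matrix (Fin n) (Fin n) F) = 1 := by
  simp [part]

lemma part_univ (A : Matrix (Fin n) (Fin n) F) : part Finset.univ A = A := by
  simp [part, P_univ]

lemma part_empty (A : Matrix (Fin n) (Fin n) F) : part ∅ A = 1 := by
  simp [part, P_empty]

lemma part_apply (S : Finset (Fin n)) (A : Matrix (Fin n) (Fin n) F) (i j : Fin n) :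
    part S A i j = (if j ∈ S then A i j else 0) + (if i = j ∧ i ∉ S then 1 else 0) := by
  simp only [part, P, Matrix.add_apply, Matrix.mul_diagonal, Matrix.sub_apply, Matrix.diagonal_apply,
    Matrix.one_apply]
  by_cases hij : i = j
  · subst hij
    by_cases h : i ∈ S <;> simp [h]
  · by_cases h : j ∈ S <;> simp [h, hij]

lemma part_mul_aux {R : Type*} [Ring R] {p a b : R} (hp : p * p = p) (hb : b * p = p * b) :
    (a * b) * p + (1 - p) = (a * p + (1 - p)) * (b * p + (1 - p)) := by
  have h1 : (a * p) * (b * p) = a * b * p := by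
    calc a * p * (b * p) = a * (p * b) * p := by noncomm_ring
      _ = a * (b * p) * p := by rw [hb]
      _ = a * b * (p * p) := by noncomm_ring
      _ = a * b * p := by rw [hp]
  have h2 : (a * p) * (1 - p) = 0 := by rw [mul_sub, mul_one, mul_assoc, hp, sub_self]
  have h3 : (1 - p) * (b * p) = 0 := by rw [sub_mul, one_mul, ← mul_assoc, ← hb, mul_assoc, hp, sub_self]
  have h4 : (1 - p) * (1 - p) = 1 - p := by
    rw [mul_sub, mul_one, sub_mul, one_mul, hp, sub_self, sub_zero]
  rw [add_mul, mul_add, mul_add, h1, h2, h3, h4]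
  simp

lemma part_mul (S : Finset (Fin n)) (A : Matrix (Fin n) (Fin n) F) {B : Matrix (Fin n) (Fin n) F}
    (hB : B * P F S = P F S * B) : part S (A * B) = part S A * part S B :=
  part_mul_aux (P_mul_self S) hB

lemma part_union_aux {R : Type*} [Ring R] {p p' a : R} (hp : p * p' = 0) (ha : a * p = p * a) :
    (a * p + (1 - p)) * (a * p' + (1 - p')) = a * (p + p') + (1 - (p + p')) := by
  have h1 : (a * p) * (a * p') = 0 := by
    calc a * p * (a * p') = a * (p * a) * p' := by noncomm_ring
      _ = a * (a * p) * p' := by rw [ha]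
      _ = a * a * (p * p') := by noncomm_ring
      _ = 0 := by rw [hp, mul_zero]
  have h2 : (a * p) * (1 - p') = a * p := by rw [mul_sub, mul_one, mul_assoc, hp, mul_zero, sub_zero]
  have h3 : (1 - p) * (a * p') = a * p' := by
    rw [sub_mul, one_mul, ← mul_assoc, ← ha, mul_assoc, hp, mul_zero, sub_zero]
  have h4 : (1 - p) * (1 - p') = 1 - (p + p') := by
    rw [mul_sub, mul_one, sub_mul, one_mul, hp]
    abel
  rw [add_mul, mul_add, mul_add, h1, h2, h3, h4]
  noncomm_ring

lemma part_union {S T : Finset (Fin n)} (h : Disjoint S T) (A : Matrix (Fin n) (Fin n) F)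
    (hA : A * P F S = P F S * A) : part (S ∪ T) A = part S A * part T A := by
  rw [part, P_union h, part, part, part_union_aux (P_mul_disjoint h) hA]

lemma part_comm (S : Finset (Fin n)) {A : Matrix (Fin n) (Fin n) F} (hA : A * P F S = P F S * A) :
    part S A * P F S = P F S * part S A := by
  have h1 : (A * P F S + (1 - P F S)) * P F S = A * P F S * P F S + (1 - P F S) * P F S := by
    rw [add_mul]
  have h2 : P F S * (A * P F S + (1 - P F S)) = P F S * (A * P F S) + P F S * (1 - P F S) := by
    rw [mul_add]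
  simp only [part]
  rw [h1, h2, mul_assoc, P_mul_self, sub_mul, mul_sub, one_mul, mul_one, P_mul_self, ← mul_assoc, ← hA,
    mul_assoc, P_mul_self]

lemma st_comm (hF : Fintype.card F = q ^ 2) (S : Finset (Fin n)) {A : Matrix (Fin n) (Fin n) F}
    (hA : A * P F S = P F S * A) : st q A * P F S = P F S * st q A := by
  have := congrArg (st q) hA
  rw [st_mul hF, st_mul hF, st_P hF] at this
  exact this.symm

lemma st_part (hF : Fintype.card F = q ^ 2) (S : Finset (Fin n)) {A : Matrix (Fin n) (Fin n) F}
    (hA : A * P F S = P F S * A) : st q (part S A) = part S (st q A) := by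
  rw [part, st_add hF, st_mul hF, st_one_sub_P hF, st_P hF, part, st_comm hF S hA]

lemma part_isU (hF : Fintype.card F = q ^ 2) (S : Finset (Fin n)) {A : Matrix (Fin n) (Fin n) F}
    (hA : A * P F S = P F S * A) (hU : st q A * A = 1) : st q (part S A) * part S A = 1 := by
  rw [st_part hF S hA, ← part_mul S _ hA, hU, part_one]

/-- A matrix commuting with `P S` is the product of its parts. -/
lemma part_mul_part_compl (S : Finset (Fin n)) {A : Matrix (Fin n) (Fin n) F}
    (hA : A * P F S = P F S * A) : part S A * part Sᶜ A = A := by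
  rw [← part_union disjoint_compl_right A hA, Finset.union_compl, part_univ]

/-! ### The subgroup of elements supported on `S` -/

/-- Elements trivial outside the coordinates in `S`. -/
def Fx (hF : Fintype.card F = q ^ 2) (S : Finset (Fin n)) : Subgroup (SU n F q) where
  carrier := {g | ∀ i j, (i ∉ S ∨ j ∉ S) → mat g i j = (1 : Matrix (Fin n) (Fin n) F) i j}
  one_mem' := fun i j _ => rfl
  mul_mem' := by
    intro a b ha hb i j hij
    rw [mat_mul, Matrix.mul_apply]
    rcases Classical.em (j ∈ S) with hj | hj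
    · have hi : i ∉ S := by
        rcases hij with h | h
        · exact h
        · exact (h hj).elim
      simp_rw [ha i _ (Or.inl hi), Matrix.one_apply]
      simp
      exact hb i j (Or.inl hi)
    · simp_rw [hb _ j (Or.inr hj), Matrix.one_apply]
      simp
      have := ha i j (Or.inr hj)
      rw [this, Matrix.one_apply]
  inv_mem' := by
    intro a ha i j hij
    rw [mat_inv hF, st_apply, ha j i hij.symm, Matrix.one_apply, Matrix.one_apply]
    have hq := q_ne_zero hF
    by_cases h : i = j
    · subst h; simp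
    · simp [h, Ne.symm h, hq]

lemma mem_Fx {hF : Fintype.card F = q ^ 2} {S : Finset (Fin n)} {g : SU n F q} :
    g ∈ Fx hF S ↔ ∀ i j, (i ∉ S ∨ j ∉ S) → mat g i j = (1 : Matrix (Fin n) (Fin n) F) i j := Iff.rfl

/-- Commuting of elements with disjoint supports. -/
lemma commute_Fx {hF : Fintype.card F = q ^ 2} {S T : Finset (Fin n)} (h : Disjoint S T) {a b : SU n F q}
    (ha : a ∈ Fx hF S) (hb : b ∈ Fx hF T) : Commute a b := by
  have ha₀ : ∀ i j, (i ∉ S ∨ j ∉ S) → (mat a - 1) i j = 0 := by
    intro i j hij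
    rw [Matrix.sub_apply, ha i j hij, sub_self]
  have hb₀ : ∀ i j, (i ∉ T ∨ j ∉ T) → (mat b - 1) i j = 0 := by
    intro i j hij
    rw [Matrix.sub_apply, hb i j hij, sub_self]
  have h1 : (mat a - 1) * (mat b - 1) = 0 := by
    ext i j
    rw [Matrix.mul_apply]
    apply Finset.sum_eq_zero
    intro k _
    by_cases hk : k ∈ S
    · rw [hb₀ k j (Or.inl (Finset.disjoint_left.1 h hk)), mul_zero]
    · rw [ha₀ i k (Or.inr hk), zero_mul]
  have h2 : (mat b - 1) * (mat a - 1) = 0 := by
    ext i j
    rw [Matrix.mul_apply]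
    apply Finset.sum_eq_zero
    intro k _
    by_cases hk : k ∈ S
    · rw [hb₀ i k (Or.inr (Finset.disjoint_left.1 h hk)), zero_mul]
    · rw [ha₀ k j (Or.inl hk), mul_zero]
  apply mat_inj
  rw [mat_mul, mat_mul]
  have e1 : mat a * mat b = (mat a - 1) * (mat b - 1) + mat a + mat b - 1 := by noncomm_ring
  have e2 : mat b * mat a = (mat b - 1) * (mat a - 1) + mat a + mat b - 1 := by noncomm_ring
  rw [e1, e2, h1, h2]

lemma Fx_inf {hF : Fintype.card F = q ^ 2} {S T : Finset (Fin n)} (h : Disjoint S T) :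
    Fx hF S ⊓ Fx hF T = ⊥ := by
  rw [eq_bot_iff]
  intro a ha
  rw [Subgroup.mem_bot]
  obtain ⟨h1, h2⟩ := Subgroup.mem_inf.1 ha
  apply mat_inj
  ext i j
  rw [mat_one]
  by_cases hj : j ∈ S
  · exact h2 i j (Or.inr (Finset.disjoint_left.1 h hj))
  · exact h1 i j (Or.inr hj)

lemma Fx_mono {hF : Fintype.card F = q ^ 2} {S T : Finset (Fin n)} (h : S ⊆ T) : Fx hF S ≤ Fx hF T := by
  intro a ha i j hij
  apply ha
  rcases hij with h1 | h1
  · exact Or.inl (fun h2 => h1 (h h2))
  · exact Or.inr (fun h2 => h1 (h h2))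

/-- An element of `Fx S` commutes with `P S`. -/
lemma comm_P_of_Fx {hF : Fintype.card F = q ^ 2} {S T : Finset (Fin n)} {a : SU n F q} (ha : a ∈ Fx hF S)
    (hST : S ⊆ T ∨ Disjoint S T) : mat a * P F T = P F T * mat a := by
  ext i j
  simp only [P, Matrix.mul_diagonal, Matrix.diagonal_mul]
  by_cases h1 : i ∈ T <;> by_cases h2 : j ∈ T <;> simp [h1, h2]
  · -- `i ∈ T`, `j ∉ T`
    rcases hST with h | h
    · rw [ha i j (Or.inr (fun h3 => h2 (h h3))), Matrix.one_apply]
      have : i ≠ j := fun e => h2 (e ▸ h1)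
      simp [this]
    · rw [ha i j (Or.inl (fun h3 => Finset.disjoint_left.1 h h3 h1)), Matrix.one_apply]
      have : i ≠ j := fun e => h2 (e ▸ h1)
      simp [this]
  · rcases hST with h | h
    · rw [ha i j (Or.inl (fun h3 => h1 (h h3))), Matrix.one_apply]
      have : i ≠ j := fun e => h1 (e ▸ h2)
      simp [this]
    · rw [ha i j (Or.inr (fun h3 => Finset.disjoint_left.1 h h3 h2)), Matrix.one_apply]
      have : i ≠ j := fun e => h1 (e ▸ h2)
      simp [this]

/-- The part of an element of `Fx S` on `S` is the element. -/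
lemma part_of_Fx {hF : Fintype.card F = q ^ 2} {S : Finset (Fin n)} {a : SU n F q} (ha : a ∈ Fx hF S) :
    part S (mat a) = mat a := by
  ext i j
  rw [part_apply]
  by_cases hj : j ∈ S
  · by_cases hi : i ∈ S
    · simp [hj, hi]
    · have : i ≠ j := fun e => hi (e ▸ hj)
      simp [hj, this]
  · rw [ha i j (Or.inr hj), Matrix.one_apply]
    by_cases hij : i = j
    · subst hij
      simp [hj]
    · simp [hj, hij]

/-- The part on a disjoint set is trivial. -/
lemma part_of_Fx_disjoint {hF : Fintype.card F = q ^ 2} {S T : Finset (Fin n)} (h : Disjoint S T) {a : SU n F q}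
    (ha : a ∈ Fx hF S) : part T (mat a) = 1 := by
  ext i j
  rw [part_apply, Matrix.one_apply]
  by_cases hj : j ∈ T
  · have h1 : j ∉ S := fun h2 => Finset.disjoint_left.1 h h2 hj
    rw [ha i j (Or.inr h1), Matrix.one_apply]
    by_cases hij : i = j
    · subst hij
      simp [hj]
    · simp [hj, hij]
  · by_cases hij : i = j
    · subst hij
      simp [hj]
    · simp [hj, hij]

/-- Membership of a part in `Fx`. -/
lemma part_mem_Fx (hF : Fintype.card F = q ^ 2) (S : Finset (Fin n)) {A : Matrix (Fin n) (Fin n) F}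
    (hA : A * P F S = P F S * A) (hU : st q (part S A) * part S A = 1) (hd : (part S A).det = 1) :
    mkSU hF (part S A) hU hd ∈ Fx hF S := by
  intro i j hij
  rw [mat_mkSU, part_apply, Matrix.one_apply]
  rcases hij with h | h
  · by_cases hj : j ∈ S
    · have h1 := congrFun (congrFun hA i) j
      simp only [P, Matrix.mul_diagonal, Matrix.diagonal_mul] at h1
      rw [if_pos hj, if_neg h] at h1
      have hne : i ≠ j := fun e => h (e ▸ hj)
      simp only [hj, if_true, hne, if_false]
      simpa using h1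
    · by_cases hh : i = j
      · subst hh; simp [hj]
      · simp [hj, hh]
  · by_cases hh : i = j
    · subst hh; simp [h]
    · simp [h, hh]

/-! ### Embedding of `SU_m` -/

section emb

variable (f : Fin m → Fin n) (hf : Function.Injective f)

/-- Coordinates of `Fin n` adapted to `f`. -/
noncomputable def phi : Fin m ⊕ ↥(Set.range f)ᶜ ≃ Fin n :=
  (Equiv.sumCongr (Equiv.ofInjective f hf) (Equiv.refl _)).trans (Equiv.Set.sumCompl (Set.range f))

@[simp] lemma phi_inl (a : Fin m) : phi f hf (Sum.inl a) = f a := rfl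
@[simp] lemma phi_inr (b : ↥(Set.range f)ᶜ) : phi f hf (Sum.inr b) = b.1 := rfl

/-- The block matrix. -/
noncomputable def emb (A : Matrix (Fin m) (Fin m) F) : Matrix (Fin n) (Fin n) F :=
  (Matrix.fromBlocks A 0 0 (1 : Matrix ↥(Set.range f)ᶜ ↥(Set.range f)ᶜ F)).submatrix
    (phi f hf).symm (phi f hf).symm

lemma emb_phi (A : Matrix (Fin m) (Fin m) F) (x y) :
    emb f hf A (phi f hf x) (phi f hf y) =
      Matrix.fromBlocks A 0 0 (1 : Matrix ↥(Set.range f)ᶜ ↥(Set.range f)ᶜ F) x y := by
  simp [emb]

lemma emb_apply (A : Matrix (Fin m) (Fin m) F) (a b : Fin m) : emb f hf A (f a) (f b) = A a b := by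
  have := emb_phi f hf A (Sum.inl a) (Sum.inl b)
  simpa using this

lemma emb_mul (A B : Matrix (Fin m) (Fin m) F) : emb f hf (A * B) = emb f hf A * emb f hf B := by
  simp only [emb]
  rw [Matrix.submatrix_mul_equiv, Matrix.fromBlocks_multiply]
  simp

lemma emb_one : emb f hf (1 : Matrix (Fin m) (Fin m) F) = 1 := by
  simp only [emb]
  rw [Matrix.fromBlocks_one, Matrix.submatrix_one_equiv]

lemma emb_det (A : Matrix (Fin m) (Fin m) F) : (emb f hf A).det = A.det := by
  simp only [emb]
  rw [Matrix.det_submatrix_equiv_self, Matrix.det_fromBlocks_zero₁₂]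
  simp

lemma emb_inj {A B : Matrix (Fin m) (Fin m) F} (h : emb f hf A = emb f hf B) : A = B := by
  ext a b
  rw [← emb_apply f hf A, ← emb_apply f hf B, h]

lemma emb_st (hF : Fintype.card F = q ^ 2) (A : Matrix (Fin m) (Fin m) F) :
    st q (emb f hf A) = emb f hf (st q A) := by
  have hq := q_ne_zero hF
  ext i j
  obtain ⟨x, rfl⟩ := (phi f hf).surjective i
  obtain ⟨y, rfl⟩ := (phi f hf).surjective j
  rw [st_apply, emb_phi, emb_phi]
  rcases x with a | b <;> rcases y with a' | b'
  · simp [st_apply]
  · simp [hq]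
  · simp [hq]
  · simp only [Matrix.fromBlocks_apply₂₂, Matrix.one_apply]
    by_cases h : b = b'
    · subst h; simp
    · simp [h, Ne.symm h, hq]

/-- The embedding `SU_m → SU_n`. -/
noncomputable def iota (hF : Fintype.card F = q ^ 2) : SU m F q →* SU n F q where
  toFun g := mkSU hF (emb f hf (mat g))
    (by rw [emb_st f hf hF, ← emb_mul, st_mat_mul hF, emb_one])
    (by rw [emb_det, det_mat])
  map_one' := by
    apply mat_inj
    simp [emb_one]
  map_mul' a b := by
    apply mat_inj
    simp [emb_mul]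

lemma mat_iota (hF : Fintype.card F = q ^ 2) (g : SU m F q) : mat (iota f hf hF g) = emb f hf (mat g) := rfl

lemma iota_injective (hF : Fintype.card F = q ^ 2) : Function.Injective (iota f hf hF) := by
  intro a b h
  apply mat_inj
  apply emb_inj f hf
  rw [← mat_iota f hf hF, ← mat_iota f hf hF, h]

lemma emb_notin (A : Matrix (Fin m) (Fin m) F) (i j : Fin n) (hij : i ∉ Finset.univ.image f ∨ j ∉ Finset.univ.image f) :
    emb f hf A i j = (1 : Matrix (Fin n) (Fin n) F) i j := by
  obtain ⟨x, rfl⟩ := (phi f hf).surjective i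
  obtain ⟨y, rfl⟩ := (phi f hf).surjective j
  rw [emb_phi]
  have hinj := (phi f hf).injective
  rcases x with a | b <;> rcases y with a' | b'
  · rcases hij with h | h <;> simp at h
  · simp only [Matrix.fromBlocks_apply₁₂, Matrix.zero_apply, Matrix.one_apply]
    rw [if_neg]
    intro h
    have := hinj h
    simp at this
  · simp only [Matrix.fromBlocks_apply₂₁, Matrix.zero_apply, Matrix.one_apply]
    rw [if_neg]
    intro h
    have := hinj h
    simp at this
  · simp only [Matrix.fromBlocks_apply₂₂, Matrix.one_apply]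
    by_cases h : b = b'
    · subst h; simp
    · rw [if_neg h, if_neg]
      intro h2
      exact h (Sum.inr.inj (hinj h2))

lemma range_iota (hF : Fintype.card F = q ^ 2) : (iota f hf hF).range = Fx hF (Finset.univ.image f) := by
  classical
  apply le_antisymm
  · rintro _ ⟨g, rfl⟩
    intro i j hij
    rw [mat_iota]
    exact emb_notin f hf _ i j hij
  · intro g hg
    have hemb : mat g = emb f hf ((mat g).submatrix f f) := by
      ext i j
      by_cases hij : i ∉ Finset.univ.image f ∨ j ∉ Finset.univ.image f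
      · rw [hg i j hij, emb_notin f hf _ i j hij]
      · push Not at hij
        obtain ⟨hi, hj⟩ := hij
        obtain ⟨a, -, rfl⟩ := Finset.mem_image.1 hi
        obtain ⟨b, -, rfl⟩ := Finset.mem_image.1 hj
        rw [emb_apply]
        rfl
    have hU : st q ((mat g).submatrix f f) * (mat g).submatrix f f = 1 := by
      apply emb_inj f hf
      rw [emb_mul, ← emb_st f hf hF, ← hemb, emb_one, st_mat_mul hF]
    have hd : ((mat g).submatrix f f).det = 1 := by
      rw [← emb_det f hf, ← hemb, det_mat]
    refine ⟨mkSU hF _ hU hd, ?_⟩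
    apply mat_inj
    rw [mat_iota, mat_mkSU, ← hemb]

end emb

/-! ### Generation by `r'`-elements -/

/-- Root elements have `p`-power order. -/
lemma IsE_pow_eq_one (hF : Fintype.card F = q ^ 2) {p : ℕ} [CharP F p] (hp : p.Prime) {A : SU n F q}
    {v y : Fin n → F} {s : F} (hA : IsE A v y s) : A ^ (p ^ 2) = 1 := by
  have step : ∀ {B : SU n F q} {y' : Fin n → F} {s' : F}, IsE B v y' s' → ∀ k : ℕ, ∃ c, IsE (B ^ k) v ((k : F) • y') c := by
    intro B y' s' hB k
    induction k with
    | zero =>
      refine ⟨0, ?_⟩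
      refine ⟨hB.hvv, ?_, ?_, ?_⟩
      · simp [HermForm.hermForm_zero_left]
      · have hq := q_ne_zero hF
        simp [HermForm.hermForm_zero_left, hq]
      · intro x
        simp [act_one, HermForm.hermForm_zero_right hF]
    | succ k ih =>
      obtain ⟨c, hc⟩ := ih
      have := hc.mul hF hB
      have e : ((k + 1 : ℕ) : F) • y' = ((k : F) • y') + y' := by
        push_cast
        rw [add_smul, one_smul]
      rw [pow_succ, e]
      exact ⟨_, this⟩
  have hpF : ((p : ℕ) : F) = 0 := CharP.cast_eq_zero F p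
  obtain ⟨c, hc⟩ := step hA p
  rw [hpF, zero_smul] at hc
  -- now `A ^ p` is a transvection
  obtain ⟨c', hc'⟩ : ∃ c', c' = (0 : F) ∧ IsE ((A ^ p) ^ p) v 0 ((p : F) * c) := by
    have step2 : ∀ k : ℕ, IsE ((A ^ p) ^ k) v 0 ((k : F) * c) := by
      intro k
      induction k with
      | zero =>
        refine ⟨hc.hvv, ?_, ?_, ?_⟩
        · simp [HermForm.hermForm_zero_left]
        · have hq := q_ne_zero hF
          simp [HermForm.hermForm_zero_left, hq]
        · intro x
          simp [act_one, HermForm.hermForm_zero_right hF]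
      | succ k ih =>
        rw [pow_succ]
        have := ih.mul hF hc
        have e : (((k + 1 : ℕ) : F) * c) = (k : F) * c + c - hermForm n F q 0 0 := by
          push_cast
          rw [HermForm.hermForm_zero_left]
          ring
        rw [e]
        simpa using this
    exact ⟨0, rfl, step2 p⟩
  rw [hpF, zero_mul] at hc'
  have h1 := hc'.2
  apply SU_ext
  intro x
  rw [sq, pow_mul, h1.act_eq, act_one]
  simp [HermForm.hermForm_zero_right hF]

lemma IsE_coprime (hF : Fintype.card F = q ^ 2) {p r : ℕ} [CharP F p] (hp : p.Prime) (hr : r.Prime) (hrp : r ≠ p)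
    {A : SU n F q} {v y : Fin n → F} {s : F} (hA : IsE A v y s) : (orderOf A).Coprime r := by
  apply coprime_of_pow_eq_one (m := p ^ 2) _ (IsE_pow_eq_one hF hp hA)
  apply Nat.Coprime.pow_left
  exact (Nat.coprime_primes hp hr).2 (Ne.symm hrp)

/-- `SU_m` is generated by `r'`-elements. -/
lemma rgen_top (hF : Fintype.card F = q ^ 2) {p r : ℕ} [CharP F p] (hp : p.Prime) (hr : r.Prime) (hrp : r ≠ p) (m : ℕ) :
    RGen r (⊤ : Subgroup (SU m F q)) := by
  intro g _
  by_cases hm : 2 ≤ m
  · have hg : g ∈ RR m F q := by rw [RR_eq_top hF hm]; trivial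
    refine (Subgroup.closure_mono ?_) hg
    rintro A ⟨v, y, s, hA⟩
    exact ⟨trivial, IsE_coprime hF hp hr hrp hA⟩
  · -- `SU_m` is trivial
    have hg : g = 1 := by
      apply mat_inj
      have hm' : m = 0 ∨ m = 1 := by omega
      rcases hm' with rfl | rfl
      · ext i; exact i.elim0
      · have h1 := det_mat g
        rw [Matrix.det_fin_one] at h1
        ext i j
        have hi : i = 0 := Subsingleton.elim _ _
        have hj : j = 0 := Subsingleton.elim _ _
        subst hi hj
        simpa using h1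
    rw [hg]
    exact one_mem _

lemma rgen_map {G₁ G₂ : Type*} [Group G₁] [Group G₂] {r : ℕ} (ι : G₁ →* G₂) (h : RGen r (⊤ : Subgroup G₁)) :
    RGen r ι.range := by
  rintro _ ⟨g, rfl⟩
  have hg := h (Subgroup.mem_top g)
  have := Subgroup.mem_map_of_mem ι hg
  rw [MonoidHom.map_closure] at this
  refine (Subgroup.closure_mono ?_) this
  rintro _ ⟨x, ⟨-, hx⟩, rfl⟩
  exact ⟨⟨x, rfl⟩, Nat.Coprime.coprime_dvd_left (orderOf_map_dvd ι x) hx⟩

/-- A subset of coordinates as the image of an embedding. -/
lemma exists_emb (S : Finset (Fin n)) :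
    ∃ f : Fin S.card → Fin n, Function.Injective f ∧ Finset.univ.image f = S := by
  refine ⟨S.orderEmbOfFin rfl, (S.orderEmbOfFin rfl).injective, ?_⟩
  exact Finset.image_orderEmbOfFin_univ S rfl

lemma rgen_Fx (hF : Fintype.card F = q ^ 2) {p r : ℕ} [CharP F p] (hp : p.Prime) (hr : r.Prime) (hrp : r ≠ p)
    (S : Finset (Fin n)) : RGen r (Fx hF S) := by
  obtain ⟨f, hf, hS⟩ := exists_emb S
  rw [← hS, ← range_iota f hf hF]
  exact rgen_map _ (rgen_top hF hp hr hrp _)

/-- `Good` for blocks. -/
lemma good_Fx {Γ : Type u} [Group Γ] [Finite Γ] {σ : Γ →* SU n F q} {r p : ℕ} (hF : Fintype.card F = q ^ 2)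
    [CharP F p] (hp : p.Prime) (hrp : r ≠ p) (hc : Ctx σ r) (S : Finset (Fin n))
    (hT : NoRPart.{u, v} r (SU S.card F q)) : Good σ r (Fx hF S) := by
  obtain ⟨f, hf, hS⟩ := exists_emb S
  have hR := rgen_Fx hF hp hc.hr hrp S
  exact good_of_noRPart hc hT (iota f hf hF) (iota_injective f hf hF) (by rw [range_iota, hS]) hR

end Cfsg.Agent.Lib.SUrpB79
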