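import Mathlib
import Cfsg.Agent.Lib.SUrpB79

/-!
# Colourings of coordinates, block determinants
-/

set_option autoImplicit false
set_option linter.unusedSectionVars false
set_option linter.unusedVariables false
set_option linter.style.haveILetI false
set_option linter.unusedSimpArgs false

namespace Cfsg.Agent.Lib.SUrpC79

open Module Matrix Cfsg Cfsg.Agent.Lib.UnitaryBasic Cfsg.Agent.Lib.UnitarySU Cfsg.Agent.Lib.UnitaryConjGU
  Cfsg.Agent.Lib.SUGen Cfsg.Agent.Lib.SUrpA79 Cfsg.Agent.Lib.SUrpB79 Cfsg.Agent.Lib.HermCount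

universe u v

variable {F : Type v} [Field F] [Fintype F] {q n : ℕ} {J : Type} [AddCommGroup J] [Fintype J] [DecidableEq J]

/-- Colour classes. -/
def cls (c : Fin n → J) (j : J) : Finset (Fin n) := Finset.univ.filter (fun i => c i = j)

@[simp] lemma mem_cls {c : Fin n → J} {j : J} {i : Fin n} : i ∈ cls c j ↔ c i = j := by simp [cls]

/-- Unions of colour classes. -/
def clsU (c : Fin n → J) (I : Finset J) : Finset (Fin n) := Finset.univ.filter (fun i => c i ∈ I)

@[simp] lemma mem_clsU {c : Fin n → J} {I : Finset J} {i : Fin n} : i ∈ clsU c I ↔ c i ∈ I := by simp [clsU]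

lemma clsU_empty (c : Fin n → J) : clsU c ∅ = ∅ := by
  ext i; simp

lemma clsU_univ (c : Fin n → J) : clsU c Finset.univ = Finset.univ := by
  ext i; simp

lemma clsU_insert (c : Fin n → J) (j : J) (I : Finset J) : clsU c (insert j I) = cls c j ∪ clsU c I := by
  ext i; simp

lemma disjoint_cls_clsU (c : Fin n → J) {j : J} {I : Finset J} (h : j ∉ I) : Disjoint (cls c j) (clsU c I) := by
  rw [Finset.disjoint_left]
  intro i hi hi'
  rw [mem_cls] at hi
  rw [mem_clsU, hi] at hi'
  exact h hi'

lemma disjoint_cls (c : Fin n → J) {j j' : J} (h : j ≠ j') : Disjoint (cls c j) (cls c j') := by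
  rw [Finset.disjoint_left]
  intro i hi hi'
  rw [mem_cls] at hi hi'
  exact h (hi.symm.trans hi')

/-- `g` carries the class `j` to the class `j + s`. -/
def Shift (c : Fin n → J) (g : SU n F q) (s : J) : Prop :=
  ∀ j, mat g * P F (cls c j) = P F (cls c (j + s)) * mat g

lemma Shift.one (c : Fin n → J) : Shift c (1 : SU n F q) 0 := by
  intro j
  simp

lemma Shift.mul {c : Fin n → J} {g h : SU n F q} {s s' : J} (hg : Shift c g s) (hh : Shift c h s') :
    Shift c (g * h) (s + s') := by
  intro j
  rw [mat_mul, mul_assoc, hh j, ← mul_assoc, hg, mul_assoc]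
  congr 3
  abel

lemma Shift.inv {c : Fin n → J} {g : SU n F q} {s : J} (hg : Shift c g s) : Shift c g⁻¹ (-s) := by
  intro j
  have h := hg (j + -s)
  have e : j + -s + s = j := by abel
  rw [e] at h
  calc mat g⁻¹ * P F (cls c j) = mat g⁻¹ * (P F (cls c j) * (mat g * mat g⁻¹)) := by
        rw [mat_mul_inv, mul_one]
    _ = mat g⁻¹ * ((P F (cls c j) * mat g) * mat g⁻¹) := by rw [mul_assoc (P F (cls c j))]
    _ = mat g⁻¹ * ((mat g * P F (cls c (j + -s))) * mat g⁻¹) := by rw [h]
    _ = (mat g⁻¹ * mat g) * P F (cls c (j + -s)) * mat g⁻¹ := by noncomm_ring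
    _ = P F (cls c (j + -s)) * mat g⁻¹ := by rw [mat_inv_mul, one_mul]

lemma Shift.pow {c : Fin n → J} {g : SU n F q} {s : J} (hg : Shift c g s) (i : ℕ) : Shift c (g ^ i) (i • s) := by
  induction i with
  | zero => simpa using Shift.one c
  | succ i ih =>
    rw [pow_succ, succ_nsmul]
    exact ih.mul hg

/-- Elements permuting the classes by a shift. -/
def Xc (c : Fin n → J) : Subgroup (SU n F q) where
  carrier := {g | ∃ s, Shift c g s}
  one_mem' := ⟨0, Shift.one c⟩
  mul_mem' := by
    rintro a b ⟨s, hs⟩ ⟨s', hs'⟩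
    exact ⟨_, hs.mul hs'⟩
  inv_mem' := by
    rintro a ⟨s, hs⟩
    exact ⟨_, hs.inv⟩

/-- Elements preserving the classes. -/
def Dc (c : Fin n → J) : Subgroup (SU n F q) where
  carrier := {g | Shift c g 0}
  one_mem' := Shift.one c
  mul_mem' := by
    intro a b ha hb
    have := Shift.mul ha hb
    rwa [add_zero] at this
  inv_mem' := by
    intro a ha
    have := Shift.inv ha
    rwa [neg_zero] at this

lemma Dc_le_Xc (c : Fin n → J) : Dc (F := F) (q := q) c ≤ Xc c := fun g hg => ⟨0, hg⟩

lemma mem_Dc_iff {c : Fin n → J} {g : SU n F q} : g ∈ Dc c ↔ ∀ j, mat g * P F (cls c j) = P F (cls c j) * mat g := by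
  change Shift c g 0 ↔ _
  simp [Shift]

/-- Block-shaped entries. -/
def BlockEnt (c : Fin n → J) (A : Matrix (Fin n) (Fin n) F) : Prop := ∀ u v, c u ≠ c v → A u v = 0

lemma comm_of_ent {c : Fin n → J} {S : Finset (Fin n)} (hS : ∀ u v, c u = c v → (u ∈ S ↔ v ∈ S))
    {A : Matrix (Fin n) (Fin n) F} (hA : BlockEnt c A) : A * P F S = P F S * A := by
  ext a b
  simp only [P, Matrix.mul_diagonal, Matrix.diagonal_mul]
  by_cases h1 : a ∈ S <;> by_cases h2 : b ∈ S <;> simp [h1, h2]
  · exact (hA a b (fun h3 => h2 ((hS a b h3).1 h1))).symm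
  · exact hA a b (fun h3 => h1 ((hS a b h3).2 h2))

lemma blockEnt_of_mem {c : Fin n → J} {g : SU n F q} (hg : g ∈ Dc c) : BlockEnt c (mat g) := by
  intro a b hab
  have h := (mem_Dc_iff.1 hg) (c b)
  have h1 := congrFun (congrFun h a) b
  simpa [P, Matrix.mul_diagonal, Matrix.diagonal_mul, hab] using h1

lemma comm_cls {c : Fin n → J} {g : SU n F q} (hg : g ∈ Dc c) (j : J) :
    mat g * P F (cls c j) = P F (cls c j) * mat g := mem_Dc_iff.1 hg j

lemma comm_clsU {c : Fin n → J} {g : SU n F q} (hg : g ∈ Dc c) (I : Finset J) :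
    mat g * P F (clsU c I) = P F (clsU c I) * mat g :=
  comm_of_ent (fun u v h => by simp [h]) (blockEnt_of_mem hg)

/-- Block determinant. -/
def dl (c : Fin n → J) (j : J) (A : Matrix (Fin n) (Fin n) F) : F := (part (cls c j) A).det

lemma dl_mul {c : Fin n → J} (j : J) {a b : SU n F q} (hb : b ∈ Dc c) :
    dl c j (mat (a * b)) = dl c j (mat a) * dl c j (mat b) := by
  rw [dl, mat_mul, part_mul _ _ (comm_cls hb j), Matrix.det_mul]
  rfl

lemma dl_one (c : Fin n → J) (j : J) : dl c j (mat (1 : SU n F q)) = 1 := by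
  rw [dl, mat_one, part_one, Matrix.det_one]

lemma dl_inv {c : Fin n → J} (j : J) {a : SU n F q} (ha : a ∈ Dc c) :
    dl c j (mat a⁻¹) * dl c j (mat a) = 1 := by
  rw [← dl_mul j ha, inv_mul_cancel, dl_one]

lemma part_conj {R : Type*} [Ring R] {G G' A p p' : R} (h1 : G * G' = 1) (h2 : G' * G = 1) (h : G * p = p' * G) :
    (G * A * G') * p' + (1 - p') = G * (A * p + (1 - p)) * G' := by
  have h3 : G' * p' = p * G' := by
    calc G' * p' = G' * p' * (G * G') := by rw [h1, mul_one]
      _ = G' * (p' * G) * G' := by noncomm_ring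
      _ = G' * (G * p) * G' := by rw [h]
      _ = (G' * G) * p * G' := by noncomm_ring
      _ = p * G' := by rw [h2, one_mul]
  have h4 : G * p * G' = p' := by
    rw [h, mul_assoc, h1, mul_one]
  calc (G * A * G') * p' + (1 - p') = G * A * (G' * p') + (1 - p') := by noncomm_ring
    _ = G * A * (p * G') + (1 - p') := by rw [h3]
    _ = G * A * p * G' + G * G' - G * p * G' := by
        rw [h1, h4]; noncomm_ring
    _ = G * (A * p + (1 - p)) * G' := by noncomm_ring

lemma dl_conj {c : Fin n → J} {g a : SU n F q} {s : J} (hg : Shift c g s) (j : J) :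
    dl c (j + s) (mat (g * a * g⁻¹)) = dl c j (mat a) := by
  have h := part_conj (A := mat a) (mat_mul_inv g) (mat_inv_mul g) (hg j)
  simp only [dl, mat_mul, part]
  rw [h, Matrix.det_mul, Matrix.det_mul, det_mat, det_mat]
  simp

lemma Dc_conj {c : Fin n → J} {g a : SU n F q} (hg : g ∈ Xc c) (ha : a ∈ Dc c) : g * a * g⁻¹ ∈ Dc c := by
  obtain ⟨s, hs⟩ := hg
  have := (hs.mul ha).mul hs.inv
  change Shift c _ 0
  have e : s + 0 + -s = 0 := by abel
  rwa [e] at this

/-- The subgroup of block determinants one. -/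
def D0 (c : Fin n → J) : Subgroup (SU n F q) where
  carrier := {g | g ∈ Dc c ∧ ∀ j, dl c j (mat g) = 1}
  one_mem' := ⟨one_mem _, fun j => dl_one c j⟩
  mul_mem' := by
    rintro a b ⟨ha, ha'⟩ ⟨hb, hb'⟩
    refine ⟨mul_mem ha hb, fun j => ?_⟩
    rw [dl_mul j hb, ha', hb', one_mul]
  inv_mem' := by
    rintro a ⟨ha, ha'⟩
    refine ⟨inv_mem ha, fun j => ?_⟩
    have := dl_inv j ha
    rwa [ha', mul_one] at this

lemma D0_le_Dc (c : Fin n → J) : D0 (F := F) (q := q) c ≤ Dc c := fun g hg => hg.1

lemma D0_conj {c : Fin n → J} {g a : SU n F q} (hg : g ∈ Xc c) (ha : a ∈ D0 c) : g * a * g⁻¹ ∈ D0 c := by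
  refine ⟨Dc_conj hg ha.1, fun j => ?_⟩
  obtain ⟨s, hs⟩ := hg
  have := dl_conj (a := a) hs (j + -s)
  have e : j + -s + s = j := by abel
  rw [e] at this
  rw [this]
  exact ha.2 _

section fx

variable (hF : Fintype.card F = q ^ 2)

lemma part_clsU_insert {c : Fin n → J} {g : SU n F q} (hg : g ∈ Dc c) {j : J} {I : Finset J} (hj : j ∉ I) :
    part (clsU c (insert j I)) (mat g) = part (cls c j) (mat g) * part (clsU c I) (mat g) := by
  rw [clsU_insert, part_union (disjoint_cls_clsU c hj) _ (comm_cls hg j)]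

/-- The determinant is the product of block determinants. -/
lemma prod_dl {c : Fin n → J} {g : SU n F q} (hg : g ∈ Dc c) : ∏ j, dl c j (mat g) = 1 := by
  have key : ∀ I : Finset J, (part (clsU c I) (mat g)).det = ∏ j ∈ I, dl c j (mat g) := by
    intro I
    induction I using Finset.induction_on with
    | empty => simp [clsU_empty, part_empty]
    | insert j I hj ih =>
      rw [part_clsU_insert hg hj, Matrix.det_mul, ih, Finset.prod_insert hj]
      rfl
  have := key Finset.univ
  rw [clsU_univ, part_univ, det_mat] at this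
  exact this.symm

include hF

lemma nrm_dl {c : Fin n → J} {g : SU n F q} (hg : g ∈ Dc c) (j : J) : nrm q (dl c j (mat g)) = 1 := by
  apply nrm_det hF
  apply preserve_of_st_mul hF
  exact part_isU hF _ (comm_cls hg j) (st_mat_mul hF g)

/-- The join of the block subgroups. -/
theorem D0_le_iSup {c : Fin n → J} {g : SU n F q} (hg : g ∈ D0 c) : g ∈ ⨆ j, Fx hF (cls c j) := by
  have key : ∀ I : Finset J, ∃ b ∈ ⨆ j, Fx hF (cls c j), mat b = part (clsU c I) (mat g) := by
    intro I
    induction I using Finset.induction_on with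
    | empty => exact ⟨1, one_mem _, by simp [clsU_empty, part_empty]⟩
    | insert j I hj ih =>
      obtain ⟨b, hb, hb'⟩ := ih
      have hU := part_isU hF (cls c j) (comm_cls hg.1 j) (st_mat_mul hF g)
      have hd : (part (cls c j) (mat g)).det = 1 := hg.2 j
      have hm := part_mem_Fx hF (cls c j) (comm_cls hg.1 j) hU hd
      refine ⟨mkSU hF _ hU hd * b, mul_mem ?_ hb, ?_⟩
      · exact (le_iSup (fun j => Fx hF (cls c j)) j) hm
      · rw [mat_mul, mat_mkSU, hb', part_clsU_insert hg.1 hj]
  obtain ⟨b, hb, hb'⟩ := key Finset.univ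
  rw [clsU_univ, part_univ] at hb'
  have : b = g := mat_inj hb'
  rwa [this] at hb

theorem Fx_le_D0 (c : Fin n → J) (j : J) : Fx hF (cls c j) ≤ D0 (F := F) (q := q) c := by
  intro b hb
  have hcomm : ∀ i, mat b * P F (cls c i) = P F (cls c i) * mat b := by
    intro i
    apply comm_P_of_Fx hb
    by_cases h : j = i
    · subst h
      exact Or.inl (Finset.Subset.refl _)
    · exact Or.inr (disjoint_cls c h)
  refine ⟨mem_Dc_iff.2 hcomm, fun i => ?_⟩
  rw [dl]
  by_cases h : j = i
  · subst h
    rw [part_of_Fx hb, det_mat]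
  · rw [part_of_Fx_disjoint (disjoint_cls c h) hb, Matrix.det_one]

theorem D0_eq_iSup (c : Fin n → J) : D0 (F := F) (q := q) c = ⨆ j, Fx hF (cls c j) :=
  le_antisymm (fun _ hg => D0_le_iSup hF hg) (iSup_le (fun j => Fx_le_D0 hF c j))

/-- Goodness of the block determinant one subgroup. -/
theorem good_D0 {Γ : Type u} [Group Γ] [Finite Γ] {σ : Γ →* SU n F q} {r p : ℕ}
    [CharP F p] (hp : p.Prime) (hrp : r ≠ p) (hc : Ctx σ r) (c : Fin n → J)
    (hT : ∀ j, NoRPart.{u, v} r (SU (cls c j).card F q)) :
    Good σ r (D0 (F := F) (q := q) c) ∧ RGen r (D0 (F := F) (q := q) c) := by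
  have key : ∀ I : Finset J, Good σ r (⨆ j ∈ I, Fx hF (cls c j)) ∧ RGen r (⨆ j ∈ I, Fx hF (cls c j)) ∧
      (⨆ j ∈ I, Fx hF (cls c j)) ≤ Fx hF (clsU c I) := by
    intro I
    induction I using Finset.induction_on with
    | empty =>
      simp only [Finset.notMem_empty, iSup_false, iSup_bot, bot_le, and_true]
      constructor
      · intro x hx hx1
        have h1 : ∀ y ∈ Ogen σ r (⊥ : Subgroup (SU n F q)), y = 1 := by
          intro y hy
          induction hy using Subgroup.closure_induction with
          | mem y hy =>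
            exact ker_eq_one_of_pow hc (Subgroup.mem_bot.1 hy.1) hy.2 (pow_orderOf_eq_one y)
          | one => rfl
          | mul a b _ _ ha hb => rw [ha, hb, one_mul]
          | inv a _ ha => rw [ha, inv_one]
        exact h1 x hx
      · intro y hy
        rw [Subgroup.mem_bot.1 hy]
        exact one_mem _
    | insert j I hj ih =>
      obtain ⟨h1, h2, h3⟩ := ih
      rw [Finset.iSup_insert]
      have hdisj := disjoint_cls_clsU c hj
      have hY : (Fx hF (cls c j) ⊔ ⨆ j ∈ I, Fx hF (cls c j)) ≤ Fx hF (clsU c (insert j I)) := by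
        apply sup_le
        · apply Fx_mono
          rw [clsU_insert]
          exact Finset.subset_union_left
        · refine h3.trans (Fx_mono ?_)
          rw [clsU_insert]
          exact Finset.subset_union_right
      refine ⟨?_, ?_, hY⟩
      · apply good_sup hc
        · intro a ha b hb
          exact commute_Fx hdisj ha (h3 hb)
        · rw [eq_bot_iff, ← Fx_inf (hF := hF) hdisj]
          exact inf_le_inf_left _ h3
        · exact good_Fx hF hp hrp hc _ (hT j)
        · exact h1
        · exact rgen_Fx hF hp hc.hr hrp _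
        · exact h2
      · exact rgen_sup (rgen_Fx hF hp hc.hr hrp _) h2
  obtain ⟨h1, h2, -⟩ := key Finset.univ
  simp only [Finset.mem_univ, iSup_pos] at h1 h2
  rw [D0_eq_iSup hF c]
  exact ⟨h1, h2⟩

end fx

/-! ### The torus on base points -/

section torus

variable (c : Fin n → J) (u : J → Fin n)

/-- The diagonal entries. -/
def tauD (t : J → F) (i : Fin n) : F := if i = u (c i) then t (c i) else 1

/-- The diagonal matrix with `t j` at the base point of the class `j`. -/
def tauMat (t : J → F) : Matrix (Fin n) (Fin n) F := Matrix.diagonal (tauD c u t)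

lemma tauMat_mul (t t' : J → F) : tauMat c u t * tauMat c u t' = tauMat c u (t * t') := by
  simp only [tauMat, Matrix.diagonal_mul_diagonal]
  congr 1
  funext i
  simp only [tauD, Pi.mul_apply]
  split_ifs <;> simp

lemma tauMat_one : tauMat c u (1 : J → F) = 1 := by
  simp only [tauMat]
  have : tauD c u (1 : J → F) = fun _ => 1 := by
    funext i
    simp [tauD]
  rw [this, Matrix.diagonal_one]

variable {c u} (hu : ∀ j, c (u j) = j)
include hu

lemma det_tauMat (t : J → F) : (tauMat c u t).det = ∏ j, t j := by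
  rw [tauMat, Matrix.det_diagonal, ← Finset.prod_fiberwise Finset.univ c]
  apply Finset.prod_congr rfl
  intro j _
  have : ∀ i ∈ Finset.univ.filter (fun i => c i = j), tauD c u t i = if i = u j then t j else 1 := by
    intro i hi
    have hi' : c i = j := (Finset.mem_filter.1 hi).2
    simp [tauD, hi']
  rw [Finset.prod_congr rfl this, Finset.prod_ite_eq']
  simp [hu]

lemma part_diagonal (S : Finset (Fin n)) (d : Fin n → F) :
    part S (Matrix.diagonal d) = Matrix.diagonal (fun i => if i ∈ S then d i else 1) := by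
  ext a b
  rw [part_apply]
  by_cases hab : a = b
  · subst hab
    by_cases h : a ∈ S <;> simp [h]
  · simp [hab, Matrix.diagonal_apply]

lemma dl_tauMat (t : J → F) (j : J) : dl c j (tauMat c u t) = t j := by
  rw [dl, tauMat, part_diagonal hu, Matrix.det_diagonal]
  have : ∀ i, (if i ∈ cls c j then tauD c u t i else 1) = if i = u j then t j else 1 := by
    intro i
    by_cases h : c i = j
    · simp [tauD, h]
    · have : i ≠ u j := fun e => h (by rw [e, hu])
      simp [h, this]
  simp only [this]
  rw [Finset.prod_ite_eq']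
  simp

omit hu in
lemma tauMat_isU (hF : Fintype.card F = q ^ 2) {t : J → F} (ht : ∀ j, nrm q (t j) = 1) :
    st q (tauMat c u t) * tauMat c u t = 1 := by
  have hq := q_ne_zero hF
  ext a b
  rw [Matrix.mul_apply, Finset.sum_eq_single b]
  · by_cases hab : a = b
    · subst hab
      rw [st_apply]
      have e : tauMat c u t a a = tauD c u t a := by simp [tauMat]
      rw [e, Matrix.one_apply_eq]
      simp only [tauD]
      split_ifs
      · have := ht (c a)
        rw [nrm] at this
        rw [mul_comm]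
        exact this
      · simp
    · have e : tauMat c u t b a = 0 := by simp [tauMat, Matrix.diagonal_apply, Ne.symm hab]
      rw [st_apply, e, Matrix.one_apply_ne hab]
      simp [hq]
  · intro k _ hk
    simp [tauMat, Matrix.diagonal_apply, hk]
  · simp

omit hu in
lemma tauMat_ent (t : J → F) : BlockEnt c (tauMat c u t) := by
  intro a b hab
  have : a ≠ b := fun e => hab (by rw [e])
  simp [tauMat, Matrix.diagonal_apply, this]

end torus

end Cfsg.Agent.Lib.SUrpC79
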