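import Mathlib
import Cfsg.Agent.Lib.SUrpC79

/-!
# The torus on base points and the two block theorems
-/

set_option autoImplicit false
set_option linter.unusedSectionVars false
set_option linter.unusedVariables false
set_option linter.style.haveILetI false
set_option linter.unusedSimpArgs false

namespace Cfsg.Agent.Lib.SUrpD79

open Module Matrix Cfsg Cfsg.Agent.Lib.UnitaryBasic Cfsg.Agent.Lib.UnitarySU Cfsg.Agent.Lib.UnitaryConjGU
  Cfsg.Agent.Lib.SUGen Cfsg.Agent.Lib.SUrpA79 Cfsg.Agent.Lib.SUrpB79 Cfsg.Agent.Lib.HermCount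
  Cfsg.Agent.Lib.SUrpC79
open scoped commutatorElement

universe u v

variable {F : Type v} [Field F] [Fintype F] {q n : ℕ} {J : Type} [AddCommGroup J] [Fintype J] [DecidableEq J]

lemma nrm_ne_zero {x : F} (hx : nrm q x = 1) : x ≠ 0 := by
  rintro rfl
  have hq : (0 : F) * 0 ^ q = 1 := hx
  simp at hq

lemma nrm_inv {x : F} (hx : nrm q x = 1) : nrm q x⁻¹ = 1 := by
  have h0 := nrm_ne_zero hx
  have : x * x ^ q = 1 := hx
  change x⁻¹ * (x⁻¹) ^ q = 1
  rw [inv_pow, ← mul_inv, this, inv_one]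

section torus

variable (c : Fin n → J) (u : J → Fin n)

/-- The torus on the base points. -/
def Tc (hF : Fintype.card F = q ^ 2) : Subgroup (SU n F q) where
  carrier := {g | ∃ t : J → F, (∀ j, nrm q (t j) = 1) ∧ mat g = tauMat c u t}
  one_mem' := ⟨1, fun j => nrm_one, (tauMat_one c u).symm⟩
  mul_mem' := by
    rintro a b ⟨t, ht, hta⟩ ⟨t', ht', htb⟩
    refine ⟨t * t', fun j => ?_, ?_⟩
    · rw [Pi.mul_apply, nrm_mul', ht, ht', one_mul]
    · rw [mat_mul, hta, htb, tauMat_mul]
  inv_mem' := by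
    rintro a ⟨t, ht, hta⟩
    refine ⟨t⁻¹, fun j => ?_, ?_⟩
    · rw [Pi.inv_apply]; exact nrm_inv (ht j)
    · have h1 : tauMat c u t * tauMat c u t⁻¹ = 1 := by
        rw [tauMat_mul]
        have : t * t⁻¹ = 1 := by
          funext j
          simp [nrm_ne_zero (ht j)]
        rw [this, tauMat_one]
      calc mat a⁻¹ = mat a⁻¹ * (tauMat c u t * tauMat c u t⁻¹) := by rw [h1, mul_one]
        _ = tauMat c u t⁻¹ := by rw [← hta, ← mul_assoc, mat_inv_mul, one_mul]

variable {c u} (hF : Fintype.card F = q ^ 2) (hu : ∀ j, c (u j) = j)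

omit hu in
lemma Tc_le_Dc : Tc (F := F) c u hF ≤ Dc c := by
  rintro g ⟨t, ht, hg⟩
  rw [mem_Dc_iff]
  intro j
  rw [hg]
  exact comm_of_ent (fun a b h => by simp [h]) (tauMat_ent t)

include hu

/-- An element of the torus from its parameters. -/
def tauEl (t : J → F) (ht : ∀ j, nrm q (t j) = 1) (hd : ∏ j, t j = 1) : SU n F q :=
  mkSU hF (tauMat c u t) (tauMat_isU hF ht) (by rw [det_tauMat hu, hd])

lemma tauEl_mem (t : J → F) (ht : ∀ j, nrm q (t j) = 1) (hd : ∏ j, t j = 1) :
    tauEl hF hu t ht hd ∈ Tc c u hF := ⟨t, ht, rfl⟩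

/-- Factorisation of `Dc` as torus times `D0`. -/
theorem Dc_factor {a : SU n F q} (ha : a ∈ Dc c) :
    ∃ d ∈ D0 c, a = tauEl hF hu (fun j => dl c j (mat a)) (fun j => nrm_dl hF ha j) (prod_dl ha) * d := by
  set τ := tauEl hF hu (fun j => dl c j (mat a)) (fun j => nrm_dl hF ha j) (prod_dl ha) with hτ
  have hτD : τ ∈ Dc c := Tc_le_Dc hF (tauEl_mem hF hu _ _ _)
  have hdl : ∀ j, dl c j (mat τ) = dl c j (mat a) := fun j => dl_tauMat hu _ j
  refine ⟨τ⁻¹ * a, ⟨mul_mem (inv_mem hτD) ha, fun j => ?_⟩, by group⟩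
  rw [dl_mul j ha]
  have := dl_inv j hτD
  rwa [hdl] at this

/-- Elements above the torus: the generators. -/
def tA (j : J) (s : F) : J → F := Pi.mulSingle j s * Pi.mulSingle 0 s⁻¹

omit hF hu in
lemma nrm_tA {j : J} {s : F} (hs : nrm q s = 1) (i : J) : nrm q (tA j s i) = 1 := by
  simp only [tA, Pi.mul_apply, nrm_mul', Pi.mulSingle_apply]
  split_ifs <;> simp [nrm_one, hs, nrm_inv hs]

omit hF hu in
lemma prod_tA {j : J} {s : F} (hs : nrm q s = 1) : ∏ i, tA j s i = 1 := by
  have h0 := nrm_ne_zero hs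
  simp only [tA, Pi.mul_apply, Finset.prod_mul_distrib]
  rw [Fintype.prod_eq_single j, Fintype.prod_eq_single (0 : J)]
  · simp [h0]
  · intro i hi; simp [hi]
  · intro i hi; simp [hi]

/-- The generators of the torus. -/
def al (j : J) (s : F) (hs : nrm q s = 1) : SU n F q :=
  tauEl hF hu (tA j s) (nrm_tA hs) (prod_tA hs)

lemma mat_al (j : J) (s : F) (hs : nrm q s = 1) : mat (al hF hu j s hs) = tauMat c u (tA j s) := rfl

/-- The torus is generated by the `al`. -/
theorem Tc_le_closure (hJ0 : True) :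
    Tc (F := F) c u hF ≤ Subgroup.closure {g | ∃ j s, ∃ hs : nrm q s = 1, j ≠ 0 ∧ g = al hF hu j s hs} := by
  rintro g ⟨t, ht, hg⟩
  set C := Subgroup.closure {g : SU n F q | ∃ j s, ∃ hs : nrm q s = 1, j ≠ 0 ∧ g = al hF hu j s hs} with hC
  -- the partial products
  have key : ∀ I : Finset J, (0 : J) ∉ I → ∃ b ∈ C, mat b =
      tauMat c u (fun j => if j ∈ I then t j else if j = 0 then (∏ i ∈ I, t i)⁻¹ else 1) := by
    intro I
    induction I using Finset.induction_on with
    | empty =>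
      intro _
      refine ⟨1, one_mem _, ?_⟩
      rw [mat_one, ← tauMat_one c u]
      congr 1
      funext j
      simp
    | insert l I hl ih =>
      intro h0
      have hl0 : l ≠ 0 := fun e => h0 (by rw [e]; exact Finset.mem_insert_self _ _)
      have h0I : (0 : J) ∉ I := fun e => h0 (Finset.mem_insert_of_mem e)
      obtain ⟨b, hb, hbm⟩ := ih h0I
      refine ⟨b * al hF hu l (t l) (ht l), mul_mem hb (Subgroup.subset_closure ⟨l, t l, ht l, hl0, rfl⟩), ?_⟩
      rw [mat_mul, hbm, mat_al, tauMat_mul]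
      congr 1
      funext j
      have htl := nrm_ne_zero (ht l)
      simp only [Pi.mul_apply, tA, Finset.mem_insert, Pi.mulSingle_apply]
      by_cases hjl : j = l
      · subst hjl
        simp [hl, hl0]
      · by_cases hjI : j ∈ I
        · have hj0 : j ≠ 0 := fun e => h0I (e ▸ hjI)
          simp [hjl, hjI, hj0]
        · by_cases hj0 : j = 0
          · subst hj0
            simp [hl, hjI, hl0, Ne.symm hl0, Finset.prod_insert hl, mul_comm]
          · simp [hjl, hjI, hj0]
  obtain ⟨b, hb, hbm⟩ := key (Finset.univ.erase 0) (by simp)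
  have hprod : ∏ j, t j = 1 := by
    have := det_mat g
    rwa [hg, det_tauMat hu] at this
  have hprod' : (∏ i ∈ Finset.univ.erase (0 : J), t i)⁻¹ = t 0 := by
    have h1 : t 0 * ∏ i ∈ Finset.univ.erase (0 : J), t i = ∏ j, t j :=
      Finset.mul_prod_erase _ _ (Finset.mem_univ _)
    rw [hprod] at h1
    exact inv_eq_of_mul_eq_one_left h1
  have : g = b := by
    apply mat_inj
    rw [hbm, hg]
    congr 1
    funext j
    by_cases hj0 : j = 0
    · subst hj0
      simp [hprod']
    · simp [hj0]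
  rw [this]
  exact hb

omit hF hu in
lemma tA_mul (j : J) (s s' : F) : tA j (s * s') = tA j s * tA j s' := by
  funext i
  simp only [tA, Pi.mul_apply, Pi.mulSingle_apply]
  split_ifs <;> simp [mul_comm, mul_left_comm, mul_assoc]

lemma al_mul (j : J) {s s' : F} (hs : nrm q s = 1) (hs' : nrm q s' = 1) (hss : nrm q (s * s') = 1) :
    al hF hu j (s * s') hss = al hF hu j s hs * al hF hu j s' hs' := by
  apply mat_inj
  rw [mat_mul, mat_al, mat_al, mat_al, tauMat_mul, tA_mul]

/-- Lifts of the same root torus commute. -/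
theorem comm_same {Γ : Type u} [Group Γ] {σ : Γ →* SU n F q} (hs : Function.Surjective σ) (hcen : σ.ker ≤ Subgroup.center Γ)
    (j : J) {x y : Γ} {s s' : F} (h1 : nrm q s = 1) (h2 : nrm q s' = 1) (hx : σ x = al hF hu j s h1)
    (hy : σ y = al hF hu j s' h2) : Commute x y := by
  classical
  let μ : Subgroup Fˣ :=
    { carrier := {v | nrm q (v : F) = 1}
      one_mem' := nrm_one
      mul_mem' := by
        intro a b ha hb
        change nrm q ((a : F) * (b : F)) = 1
        rw [nrm_mul', ha, hb, one_mul]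
      inv_mem' := by
        intro a ha
        change nrm q ((a⁻¹ : Fˣ) : F) = 1
        rw [Units.val_inv_eq_inv_val]
        exact nrm_inv ha }
  let φ : μ →* SU n F q :=
    { toFun := fun v => al hF hu j (v.1 : F) v.2
      map_one' := by
        apply mat_inj
        have : tA j (1 : F) = (1 : J → F) := by
          funext i
          simp [tA]
        rw [mat_al]
        simp [this, tauMat_one]
      map_mul' := fun a b => al_mul hF hu j a.2 b.2 _ }
  obtain ⟨g₀, hg₀⟩ := IsCyclic.exists_generator (α := μ)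
  have hmem : ∀ v : μ, φ v ∈ Subgroup.zpowers (φ g₀) := by
    intro v
    obtain ⟨i, hi⟩ := Subgroup.mem_zpowers_iff.1 (hg₀ v)
    exact Subgroup.mem_zpowers_iff.2 ⟨i, by rw [← hi, map_zpow]⟩
  have hcomm := SchurStem.comap_comm_of_zpowers σ hs hcen (φ g₀)
  have hx' : x ∈ (Subgroup.zpowers (φ g₀)).comap σ := by
    rw [Subgroup.mem_comap, hx]
    have := hmem ⟨Units.mk0 s (nrm_ne_zero h1), h1⟩
    exact this
  have hy' : y ∈ (Subgroup.zpowers (φ g₀)).comap σ := by
    rw [Subgroup.mem_comap, hy]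
    have := hmem ⟨Units.mk0 s' (nrm_ne_zero h2), h2⟩
    exact this
  exact hcomm x hx' y hy'

end torus

section swap

lemma swapMat_mul_diagonal (i i' : Fin n) (d : Fin n → F) :
    swapMat i i' * Matrix.diagonal d = Matrix.diagonal (d ∘ Equiv.swap i i') * swapMat i i' := by
  ext a b
  simp only [Matrix.mul_diagonal, Matrix.diagonal_mul, swapMat, Matrix.submatrix_apply, id, Function.comp]
  by_cases h : a = Equiv.swap i i' b
  · rw [h]
    simp
  · have : Matrix.diagonal (fun k => if k = i' then (-1 : F) else 1) a (Equiv.swap i i' b) = 0 :=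
      Matrix.diagonal_apply_ne _ h
    simp [this]

variable {c : Fin n → J} {u : J → Fin n}

lemma tauD_swap (hu : ∀ j, c (u j) = j) (t : J → F) (j l : J) :
    tauD c u t ∘ Equiv.swap (u j) (u l) = tauD c u (t ∘ Equiv.swap j l) := by
  have hinj : Function.Injective u := fun a b h => by rw [← hu a, ← hu b, h]
  funext i
  simp only [Function.comp, tauD]
  by_cases h1 : i = u j
  · subst h1
    simp [hu]
  · by_cases h2 : i = u l
    · subst h2
      simp [hu]
    · rw [Equiv.swap_apply_of_ne_of_ne h1 h2]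
      by_cases h3 : i = u (c i)
      · have h4 : c i ≠ j := fun e => h1 (by rw [h3, e])
        have h5 : c i ≠ l := fun e => h2 (by rw [h3, e])
        rw [if_pos h3, if_pos h3, Equiv.swap_apply_of_ne_of_ne h4 h5]
      · rw [if_neg h3, if_neg h3]

end swap

/-- The sign argument. -/
theorem sign_comm {Γ G : Type*} [Group Γ] [Group G] {σ : Γ →* G} {r : ℕ} (hc : Ctx σ r) (hr2 : Nat.Coprime 2 r) {x y z w : Γ}
    (hxy : Commute (σ x) (σ y)) (hxz : Commute x z) (h1 : σ (w * x * w⁻¹) = (σ x)⁻¹)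
    (h2 : σ (w * y * w⁻¹) = σ y * (σ z)⁻¹) : Commute x y := by
  have hk : σ ⁅x, y⁆ = 1 := by
    rw [map_commutatorElement, commutatorElement_def, hxy.eq]
    group
  have hkc : ⁅x, y⁆ ∈ Subgroup.center Γ := hc.cen hk
  have hcen : ∀ (a : Γ), a ∈ σ.ker → a ∈ Subgroup.center Γ := fun a ha => hc.cen ha
  set k := ⁅x, y⁆ with hkdef
  -- conjugating
  have h3 : ⁅w * x * w⁻¹, w * y * w⁻¹⁆ = k := by
    have e : ⁅w * x * w⁻¹, w * y * w⁻¹⁆ = w * k * w⁻¹ := by
      simp only [hkdef, commutatorElement_def]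
      group
    rw [e]
    have := (Subgroup.mem_center_iff.1 hkc) w
    rw [this]
    group
  -- `k₁`, `k₂`
  have hk₁ : x * (w * x * w⁻¹) ∈ σ.ker := by
    rw [MonoidHom.mem_ker, map_mul, h1, mul_inv_cancel]
  have hk₂ : (y * z⁻¹)⁻¹ * (w * y * w⁻¹) ∈ σ.ker := by
    rw [MonoidHom.mem_ker, map_mul, h2, map_inv, map_mul, map_inv]
    group
  have e1 : w * x * w⁻¹ = x⁻¹ * (x * (w * x * w⁻¹)) := by group
  have e2 : w * y * w⁻¹ = (y * z⁻¹) * ((y * z⁻¹)⁻¹ * (w * y * w⁻¹)) := by group
  have h4 : ⁅x⁻¹, y * z⁻¹⁆ = k := by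
    rw [← h3, e1, e2, SchurStem.commutatorElement_mul_central_left _ _ _ (hcen _ hk₁),
      SchurStem.commutatorElement_mul_central_right _ _ _ (hcen _ hk₂)]
  -- computing
  have hzx : z⁻¹ * x * z = x := by
    have := hxz.eq
    calc z⁻¹ * x * z = z⁻¹ * (x * z) := by group
      _ = z⁻¹ * (z * x) := by rw [this]
      _ = x := by group
  have h5 : ⁅x⁻¹, y * z⁻¹⁆ = k⁻¹ := by
    have e : ⁅x⁻¹, y * z⁻¹⁆ = x⁻¹ * y * (z⁻¹ * x * z) * y⁻¹ := by
      simp only [commutatorElement_def]
      group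
    rw [e, hzx]
    have e' : x⁻¹ * y * x * y⁻¹ = x⁻¹ * k⁻¹ * x := by
      simp only [hkdef, commutatorElement_def]
      group
    rw [e']
    have hinv : k⁻¹ ∈ Subgroup.center Γ := inv_mem hkc
    have := (Subgroup.mem_center_iff.1 hinv) x⁻¹
    rw [this]
    group
  have h6 : k ^ 2 = 1 := by
    rw [sq]
    nth_rw 2 [← h4]
    rw [h5, mul_inv_cancel]
  have h7 : k = 1 := ker_eq_one_of_pow hc hk hr2 h6
  rw [Commute, SemiconjBy]
  have := commutatorElement_eq_one_iff_mul_comm.1 h7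
  exact this

section comm

variable {c : Fin n → J} {u : J → Fin n} (hF : Fintype.card F = q ^ 2) (hu : ∀ j, c (u j) = j)

include hF hu

/-- Lifts of the torus commute. -/
theorem Tc_comm {Γ : Type u} [Group Γ] {σ : Γ →* SU n F q} {r : ℕ} (hc : Ctx σ r)
    (hJ : ∀ j l : J, j ≠ 0 → l ≠ 0 → j ≠ l → Nat.Coprime 2 r) (x y : Γ) (hx : σ x ∈ Tc c u hF)
    (hy : σ y ∈ Tc c u hF) : Commute x y := by
  classical
  have hinj : Function.Injective u := fun a b h => by rw [← hu a, ← hu b, h]
  let 𝒯 : Set Γ := {x | ∃ j s, ∃ hs : nrm q s = 1, j ≠ 0 ∧ σ x = al hF hu j s hs}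
  have h𝒯 : ∀ x ∈ 𝒯, ∀ y ∈ 𝒯, x * y = y * x := by
    rintro x ⟨j, s, hs, hj, hx⟩ y ⟨l, s', hs', hl, hy⟩
    by_cases hjl : j = l
    · subst hjl
      exact comm_same hF hu hc.surj hc.cen j hs hs' hx hy
    · have hr2 := hJ j l hj hl hjl
      let W : SU n F q := SUofMatrix (swapMat (u j) (u 0))
        (swapMat_det (fun e => hj (hinj e))) (swapMat_unitary hF _ _)
      obtain ⟨w, hw⟩ := hc.surj W
      obtain ⟨z, hz⟩ := hc.surj (al hF hu j s' hs')
      have hxy : Commute (σ x) (σ y) := by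
        rw [hx, hy, Commute, SemiconjBy]
        apply mat_inj
        rw [mat_mul, mat_mul, mat_al, mat_al, tauMat_mul, tauMat_mul, mul_comm]
      have hxz : Commute x z := comm_same hF hu hc.surj hc.cen j hs hs' hx hz
      have hWconj : ∀ (g : SU n F q) (t : J → F), mat g = tauMat c u t →
          mat (W * g * W⁻¹) = tauMat c u (t ∘ Equiv.swap j 0) := by
        intro g t hg
        have hW : mat W = swapMat (u j) (u 0) := rfl
        have h1 : mat W * mat g = tauMat c u (t ∘ Equiv.swap j 0) * mat W := by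
          rw [hg, hW, tauMat, swapMat_mul_diagonal, tauD_swap hu, tauMat]
        rw [mat_mul, mat_mul, h1, mul_assoc, mat_mul_inv, mul_one]
      have h1 : σ (w * x * w⁻¹) = (σ x)⁻¹ := by
        rw [map_mul, map_mul, map_inv, hw, hx]
        rw [eq_inv_iff_mul_eq_one]
        apply mat_inj
        rw [mat_mul, hWconj _ _ (mat_al hF hu j s hs), mat_al, tauMat_mul, mat_one, ← tauMat_one c u]
        congr 1
        have h0 := nrm_ne_zero hs
        funext i
        simp only [Pi.mul_apply, tA, Function.comp, Pi.mulSingle_apply, Pi.one_apply]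
        by_cases h1 : i = j
        · subst h1
          simp [hj, Ne.symm hj, h0]
        · by_cases h2 : i = 0
          · subst h2
            simp [hj, Ne.symm hj, h0]
          · rw [Equiv.swap_apply_of_ne_of_ne h1 h2]
            simp [h1, h2]
      have h2 : σ (w * y * w⁻¹) = σ y * (σ z)⁻¹ := by
        rw [map_mul, map_mul, map_inv, hw, hy, hz]
        rw [eq_mul_inv_iff_mul_eq]
        apply mat_inj
        rw [mat_mul, hWconj _ _ (mat_al hF hu l s' hs'), mat_al, tauMat_mul, mat_al]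
        congr 1
        have h0 := nrm_ne_zero hs'
        funext i
        simp only [Pi.mul_apply, tA, Function.comp, Pi.mulSingle_apply]
        by_cases h1 : i = j
        · subst h1
          simp [hj, hjl, Ne.symm hl, h0]
        · by_cases h2 : i = 0
          · subst h2
            simp [hj, hjl, Ne.symm hj, Ne.symm hl, hl, h0]
          · rw [Equiv.swap_apply_of_ne_of_ne h1 h2]
            simp [h1, h2]
      exact sign_comm hc hr2 hxy hxz h1 h2
  have hle : Tc (F := F) c u hF ≤ Subgroup.closure (σ '' 𝒯) := by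
    refine (Tc_le_closure hF hu trivial).trans (Subgroup.closure_mono ?_)
    rintro g ⟨j, s, hs, hj, rfl⟩
    obtain ⟨x, hx⟩ := hc.surj (al hF hu j s hs)
    exact ⟨x, ⟨j, s, hs, hj, hx⟩, hx⟩
  exact SchurStem.comap_comm_of_lifts σ hc.cen 𝒯 h𝒯 _ hle x hx y hy

end comm

/-- Block subgroups are proper when there is another colour. -/
lemma card_cls_lt {c : Fin n → J} {u : J → Fin n} (hu : ∀ j, c (u j) = j) (j j' : J) (h : j' ≠ j) :
    (cls c j).card < n := by
  have : (cls c j).card < Fintype.card (Fin n) := by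
    apply Finset.card_lt_univ_of_notMem (x := u j')
    rw [mem_cls, hu]
    exact h
  simpa using this

/-- **The theorem for `Dc`.** -/
theorem ker_bot_of_Dc {Γ : Type u} [Group Γ] [Finite Γ] {σ : Γ →* SU n F q} {r p : ℕ}
    (hF : Fintype.card F = q ^ 2) [CharP F p] (hp : p.Prime) (hrp : r ≠ p) (hc : Ctx σ r)
    (hcomm : σ.ker ≤ commutator Γ) (c : Fin n → J) (u : J → Fin n) (hu : ∀ j, c (u j) = j)
    (hT : ∀ m < n, NoRPart.{u, v} r (SU m F q))
    (hJ : ∀ j l : J, j ≠ 0 → l ≠ 0 → j ≠ l → Nat.Coprime 2 r) (hJ2 : ∃ j : J, j ≠ 0)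
    (hX : ¬ r ∣ (Dc (F := F) (q := q) c).index) : σ.ker = ⊥ := by
  classical
  obtain ⟨j₁, hj₁⟩ := hJ2
  have hT' : ∀ j, NoRPart.{u, v} r (SU (cls c j).card F q) := by
    intro j
    apply hT
    exact card_cls_lt hu j (j + j₁) (by simpa using hj₁)
  obtain ⟨hgood, hrgen⟩ := good_D0 hF hp hrp hc c hT'
  refine ker_eq_bot_of_block hc hcomm (Dc c) (Dc c) (D0 c) (Tc c u hF) hX le_rfl (D0_le_Dc c)
    (fun g hg a ha => Dc_conj (Dc_le_Xc c hg) ha) (fun g hg a ha => D0_conj (Dc_le_Xc c hg) ha) hgood hrgen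
    ?_ (fun x y hx hy => Tc_comm hF hu hc hJ x y hx hy) 1 (by simp [one_mem]) ?_ ?_
  · intro a ha
    obtain ⟨d, hd, had⟩ := Dc_factor hF hu ha
    exact ⟨_, tauEl_mem hF hu _ _ _, d, hd, had⟩
  · intro g hg
    exact ⟨g, hg, 0, by simp⟩
  · intro a ha _
    obtain ⟨x, hx⟩ := hc.surj a
    exact ⟨x, 1, one_mem _, by simp [hx], fun x' _ => Commute.one_right x'⟩

end Cfsg.Agent.Lib.SUrpD79
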