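import Mathlib
import Cfsg.Agent.Lib.SUrpD79

/-!
# The theorem for cyclically permuted blocks
-/

set_option autoImplicit false
set_option linter.unusedSectionVars false
set_option linter.unusedVariables false
set_option linter.style.haveILetI false
set_option linter.unusedSimpArgs false

namespace Cfsg.Agent.Lib.SUrpE79

open Module Matrix Cfsg Cfsg.Agent.Lib.UnitaryBasic Cfsg.Agent.Lib.UnitarySU Cfsg.Agent.Lib.UnitaryConjGU
  Cfsg.Agent.Lib.SUGen Cfsg.Agent.Lib.SUrpA79 Cfsg.Agent.Lib.SUrpB79 Cfsg.Agent.Lib.HermCount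
  Cfsg.Agent.Lib.SUrpC79 Cfsg.Agent.Lib.SUrpD79
open scoped commutatorElement

universe u v

variable {F : Type v} [Field F] [Fintype F] {q n : ℕ}

/-- The permutation matrix. -/
def permM (F : Type v) [Field F] (π : Equiv.Perm (Fin n)) : Matrix (Fin n) (Fin n) F :=
  Matrix.of fun a b => if a = π b then 1 else 0

lemma permM_isU (hF : Fintype.card F = q ^ 2) (π : Equiv.Perm (Fin n)) :
    st q (permM F π) * permM F π = 1 := by
  have hq := q_ne_zero hF
  ext a b
  rw [Matrix.mul_apply, Finset.sum_eq_single (π a)]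
  · simp only [st_apply, permM, Matrix.of_apply, if_true, one_pow, one_mul, Matrix.one_apply]
    by_cases h : a = b
    · subst h; simp
    · simp [h]
  · intro k _ hk
    simp [st_apply, permM, hk, hq]
  · simp

lemma permM_mul_P {S T : Finset (Fin n)} (π : Equiv.Perm (Fin n)) (h : ∀ b, π b ∈ T ↔ b ∈ S) :
    permM F π * P F S = P F T * permM F π := by
  ext a b
  simp only [P, Matrix.mul_diagonal, Matrix.diagonal_mul, permM, Matrix.of_apply]
  by_cases hab : a = π b
  · subst hab
    simp [h]
  · simp [hab]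

lemma diagonal_comm_P (S : Finset (Fin n)) (d : Fin n → F) :
    Matrix.diagonal d * P F S = P F S * Matrix.diagonal d := by
  simp only [P, Matrix.diagonal_mul_diagonal]
  congr 1
  funext i
  ring

lemma diag_isU (hF : Fintype.card F = q ^ 2) {d : Fin n → F} (hd : ∀ i, nrm q (d i) = 1) :
    st q (Matrix.diagonal d) * Matrix.diagonal d = 1 := by
  have hq := q_ne_zero hF
  ext a b
  rw [Matrix.mul_apply, Finset.sum_eq_single b]
  · by_cases hab : a = b
    · subst hab
      rw [st_apply, Matrix.diagonal_apply_eq, Matrix.one_apply_eq, mul_comm]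
      exact hd a
    · rw [st_apply, Matrix.diagonal_apply_ne _ (Ne.symm hab), Matrix.one_apply_ne hab]
      simp [hq]
  · intro k _ hk
    simp [Matrix.diagonal_apply, hk]
  · simp

lemma part_diagonal' (S : Finset (Fin n)) (d : Fin n → F) :
    part S (Matrix.diagonal d) = Matrix.diagonal (fun i => if i ∈ S then d i else 1) := by
  ext a b
  rw [part_apply]
  by_cases hab : a = b
  · subst hab
    by_cases h : a ∈ S <;> simp [h]
  · simp [hab, Matrix.diagonal_apply]

/-- Correcting the determinant of a part by a diagonal matrix. -/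
lemma exists_correct (hF : Fintype.card F = q ^ 2) (S : Finset (Fin n)) {A : Matrix (Fin n) (Fin n) F}
    (hA : A * P F S = P F S * A) (hU : st q A * A = 1) :
    ∃ d : Fin n → F, (∀ i, nrm q (d i) = 1) ∧ (∀ i, i ∉ S → d i = 1) ∧
      (part S (A * Matrix.diagonal d)).det = 1 := by
  classical
  by_cases hS : S = ∅
  · subst hS
    exact ⟨fun _ => 1, fun _ => nrm_one, fun _ _ => rfl, by rw [part_empty, Matrix.det_one]⟩
  · obtain ⟨v, hv⟩ := Finset.nonempty_iff_ne_empty.2 hS
    have hξ : nrm q (part S A).det = 1 := nrm_det hF (preserve_of_st_mul hF (part_isU hF S hA hU))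
    set ξ := (part S A).det with hξdef
    have h0 := nrm_ne_zero hξ
    let d : Fin n → F := fun i => if i = v then ξ⁻¹ else 1
    refine ⟨d, fun i => ?_, fun i hi => ?_, ?_⟩
    · simp only [d]
      split_ifs
      · exact nrm_inv hξ
      · exact nrm_one
    · have : i ≠ v := fun e => hi (e ▸ hv)
      simp [d, this]
    · rw [part_mul _ _ (diagonal_comm_P S d), Matrix.det_mul, ← hξdef, part_diagonal', Matrix.det_diagonal]
      have : ∀ i, (if i ∈ S then d i else 1) = d i := by
        intro i
        by_cases hi : i ∈ S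
        · simp [hi]
        · have : i ≠ v := fun e => hi (e ▸ hv)
          simp [hi, d, this]
      simp only [this, d]
      rw [Finset.prod_ite_eq']
      simp [h0]



lemma zmod2_aux : ∀ j l : ZMod 2, j ≠ 0 → l ≠ 0 → j = l := by decide

section main

variable {r : ℕ} [hrf : Fact r.Prime] {c : Fin n → ZMod r} {u : ZMod r → Fin n}

/-- The base points. -/
def baseS (c : Fin n → ZMod r) (u : ZMod r → Fin n) : Finset (Fin n) := Finset.univ.filter (fun i => i = u (c i))

lemma mem_baseS {i : Fin n} : i ∈ baseS c u ↔ i = u (c i) := by simp [baseS]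

lemma tauMat_const (t : F) : tauMat c u (fun _ => t) = t • P F (baseS c u) + (1 - P F (baseS c u)) := by
  ext a b
  by_cases hab : a = b
  · subst hab
    have e1 : tauMat c u (fun _ => t) a a = if a = u (c a) then t else 1 := by simp [tauMat, tauD]
    have e2 : P F (baseS c u) a a = if a = u (c a) then 1 else 0 := by simp [P, mem_baseS]
    rw [Matrix.add_apply, Matrix.smul_apply, Matrix.sub_apply, e1, e2, Matrix.one_apply_eq]
    by_cases h : a = u (c a)
    · rw [if_pos h, if_pos h]; simp
    · rw [if_neg h, if_neg h]; simp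
  · simp [tauMat, P, Matrix.diagonal_apply, hab]

/-- The shifting element. -/
theorem exists_shift (hF : Fintype.card F = q ^ 2) (hu : ∀ j, c (u j) = j) (π : Equiv.Perm (Fin n))
    (hπ : ∀ i, c (π i) = c i + 1) (hπu : ∀ j, π (u j) = u (j + 1)) :
    ∃ y : SU n F q, Shift c y 1 ∧ y ∈ Fx hF (baseS c u) ⊔ Fx hF (baseS c u)ᶜ := by
  classical
  have hinj : Function.Injective u := fun a b h => by rw [← hu a, ← hu b, h]
  set S := baseS c u with hS
  have hAS : permM F π * P F S = P F S * permM F π := by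
    apply permM_mul_P
    intro b
    rw [hS, mem_baseS, mem_baseS, hπ]
    constructor
    · intro h
      apply π.injective
      rw [hπu]
      exact h
    · intro h
      rw [← hπu, ← h]
  have hAS' : permM F π * P F Sᶜ = P F Sᶜ * permM F π := by
    rw [P_compl, mul_sub, sub_mul, mul_one, one_mul, hAS]
  have hAU := permM_isU (F := F) hF π
  obtain ⟨d₁, hd₁, hd₁', hd₁''⟩ := exists_correct hF S hAS hAU
  obtain ⟨d₂, hd₂, hd₂', hd₂''⟩ := exists_correct hF Sᶜ hAS' hAU
  let D₁ := Matrix.diagonal d₁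
  let D₂ := Matrix.diagonal d₂
  let Y := permM F π * D₁ * D₂
  have hY' : Y = permM F π * D₂ * D₁ := by
    simp only [Y, mul_assoc]
    congr 1
    simp only [D₁, D₂, Matrix.diagonal_mul_diagonal]
    congr 1
    funext i
    ring
  have hU : st q Y * Y = 1 := by
    simp only [Y]
    rw [st_mul hF, st_mul hF]
    have h1 := diag_isU hF hd₁
    have h2 := diag_isU hF hd₂
    calc st q D₂ * (st q D₁ * st q (permM F π)) * (permM F π * D₁ * D₂)
        = st q D₂ * (st q D₁ * (st q (permM F π) * permM F π) * D₁) * D₂ := by noncomm_ring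
      _ = 1 := by rw [hAU, mul_one]; simp only [D₁, D₂]; rw [h1, mul_one, h2]
  have hYS : Y * P F S = P F S * Y := by
    simp only [Y]
    rw [mul_assoc, diagonal_comm_P, ← mul_assoc, mul_assoc (permM F π), diagonal_comm_P, ← mul_assoc, hAS]
    noncomm_ring
  have hYS' : Y * P F Sᶜ = P F Sᶜ * Y := by
    rw [P_compl, mul_sub, sub_mul, mul_one, one_mul, hYS]
  have hd1 : (part S Y).det = 1 := by
    have h1 : part S D₂ = 1 := by
      simp only [D₂]
      rw [part_diagonal', ← Matrix.diagonal_one]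
      congr 1
      funext i
      by_cases hi : i ∈ S
      · simp [hi, hd₂' i (by simpa using hi)]
      · simp [hi]
    simp only [Y]
    rw [part_mul _ _ (diagonal_comm_P S d₂), h1, mul_one]
    exact hd₁''
  have hd2 : (part Sᶜ Y).det = 1 := by
    have h1 : part Sᶜ D₁ = 1 := by
      simp only [D₁]
      rw [part_diagonal', ← Matrix.diagonal_one]
      congr 1
      funext i
      by_cases hi : i ∈ Sᶜ
      · have : i ∉ S := by simpa using hi
        simp [hi, hd₁' i this]
      · simp [hi]
    rw [hY', part_mul _ _ (diagonal_comm_P Sᶜ d₁), h1, mul_one]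
    exact hd₂''
  have hfac : part S Y * part Sᶜ Y = Y := part_mul_part_compl S hYS
  have hdet : Y.det = 1 := by
    rw [← hfac, Matrix.det_mul, hd1, hd2, one_mul]
  have hU1 := part_isU hF S hYS hU
  have hU2 := part_isU hF Sᶜ hYS' hU
  refine ⟨mkSU hF Y hU hdet, ?_, ?_⟩
  · intro j
    rw [mat_mkSU]
    have h1 : permM F π * P F (cls c j) = P F (cls c (j + 1)) * permM F π := by
      apply permM_mul_P
      intro b
      simp [hπ]
    simp only [Y]
    rw [mul_assoc, diagonal_comm_P, ← mul_assoc, mul_assoc (permM F π), diagonal_comm_P, ← mul_assoc, h1]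
    noncomm_ring
  · have h1 := part_mem_Fx hF S hYS hU1 hd1
    have h2 := part_mem_Fx hF Sᶜ hYS' hU2 hd2
    have e : mkSU hF Y hU hdet = mkSU hF _ hU1 hd1 * mkSU hF _ hU2 hd2 := by
      apply mat_inj
      rw [mat_mul, mat_mkSU, mat_mkSU, mat_mkSU, hfac]
    rw [e]
    exact mul_mem ((le_sup_left : Fx hF S ≤ _) h1) ((le_sup_right : Fx hF Sᶜ ≤ _) h2)

/-- **The theorem for cyclically permuted blocks.** -/
theorem ker_bot_of_Xc {Γ : Type u} [Group Γ] [Finite Γ] {σ : Γ →* SU n F q} {p : ℕ}
    (hF : Fintype.card F = q ^ 2) [CharP F p] (hp : p.Prime) (hrp : r ≠ p) (hc : Ctx σ r)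
    (hcomm : σ.ker ≤ commutator Γ) (hu : ∀ j, c (u j) = j) (π : Equiv.Perm (Fin n))
    (hπ : ∀ i, c (π i) = c i + 1) (hπu : ∀ j, π (u j) = u (j + 1))
    (hT : ∀ m < n, NoRPart.{u, v} r (SU m F q))
    (hX : ¬ r ∣ (Xc (F := F) (q := q) c).index) : σ.ker = ⊥ := by
  classical
  have hrp' : r.Prime := hrf.out
  have hT' : ∀ j, NoRPart.{u, v} r (SU (cls c j).card F q) := by
    intro j
    apply hT
    apply card_cls_lt hu j (j + 1)
    have : (1 : ZMod r) ≠ 0 := by
      haveI : Fact (1 < r) := ⟨hrp'.one_lt⟩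
      exact one_ne_zero
    simpa using this
  obtain ⟨hgood, hrgen⟩ := good_D0 hF hp hrp hc c hT'
  have hJ : ∀ j l : ZMod r, j ≠ 0 → l ≠ 0 → j ≠ l → Nat.Coprime 2 r := by
    intro j l hj hl hjl
    by_cases h2 : r = 2
    · subst h2
      exact (hjl (zmod2_aux j l hj hl)).elim
    · exact (Nat.coprime_primes Nat.prime_two hrp').2 (Ne.symm h2)
  obtain ⟨y, hy, hyC⟩ := exists_shift (F := F) hF hu π hπ hπu
  set S := baseS c u with hS
  have hRC : RGen r (Fx hF S ⊔ Fx hF Sᶜ) := rgen_sup (rgen_Fx hF hp hc.hr hrp _) (rgen_Fx hF hp hc.hr hrp _)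
  obtain ⟨yt, hyt, hyty⟩ := exists_mem_Ogen hc hRC hyC
  refine ker_eq_bot_of_block hc hcomm (Xc c) (Dc c) (D0 c) (Tc c u hF) hX (Dc_le_Xc c) (D0_le_Dc c)
    (fun g hg a ha => Dc_conj hg ha) (fun g hg a ha => D0_conj hg ha) hgood hrgen
    ?_ (fun x y hx hy => Tc_comm hF hu hc hJ x y hx hy) yt ⟨1, by rw [hyty]; exact hy⟩ ?_ ?_
  · intro a ha
    obtain ⟨d, hd, had⟩ := Dc_factor hF hu ha
    exact ⟨_, tauEl_mem hF hu _ _ _, d, hd, had⟩
  · rintro g ⟨s, hs⟩
    rw [hyty]
    refine ⟨g * (y ^ s.val)⁻¹, ?_, s.val, by group⟩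
    have h1 := hs.mul (hy.pow s.val).inv
    have h2 : s + -(s.val • (1 : ZMod r)) = 0 := by
      rw [nsmul_one, ZMod.natCast_zmod_val]
      abel
    rw [h2] at h1
    exact h1
  · intro a ha hcm
    rw [hyty] at hcm
    -- block determinants are equal
    have hstep : ∀ j, dl c (j + 1) (mat a) = dl c j (mat a) := by
      intro j
      have hyX : y ∈ Xc c := ⟨1, hy⟩
      have hh : y * a⁻¹ * y⁻¹ ∈ Dc c := Dc_conj hyX (inv_mem ha)
      have e : ⁅a, y⁆ = a * (y * a⁻¹ * y⁻¹) := by
        rw [commutatorElement_def]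
        group
      have h1 := hcm.2 (j + 1)
      rw [e, dl_mul (j + 1) hh, dl_conj hy j] at h1
      have h2 := dl_inv j ha
      have h3 : dl c j (mat a⁻¹) ≠ 0 := by
        intro h0
        rw [h0, zero_mul] at h2
        exact zero_ne_one h2
      apply mul_right_cancel₀ h3
      rw [h1, mul_comm, h2]
    have hall : ∀ i : ℕ, dl c (i : ZMod r) (mat a) = dl c 0 (mat a) := by
      intro i
      induction i with
      | zero => simp
      | succ i ih =>
        push_cast
        rw [hstep, ih]
    have hconst : ∀ j, dl c j (mat a) = dl c 0 (mat a) := by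
      intro j
      have := hall j.val
      rwa [ZMod.natCast_zmod_val] at this
    set t := dl c 0 (mat a) with ht
    obtain ⟨d, hd, had⟩ := Dc_factor hF hu ha
    set τ := tauEl hF hu (fun j => dl c j (mat a)) (fun j => nrm_dl hF ha j) (prod_dl ha) with hτ
    have hτm : mat τ = t • P F S + (1 - P F S) := by
      have : mat τ = tauMat c u (fun j => dl c j (mat a)) := rfl
      rw [this, ← tauMat_const]
      congr 1
      funext j
      exact hconst j
    obtain ⟨x, hx⟩ := hc.surj τ
    refine ⟨x, d, hd, by rw [hx]; exact had, ?_⟩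
    intro x' hx'
    have hσ : σ x' = τ := hx'.trans hx
    have hτFx : τ ∈ Fx hF S := by
      intro i j hij
      rw [hτm]
      by_cases hijeq : i = j
      · subst hijeq
        have hi : i ∉ S := by
          rcases hij with h | h <;> exact h
        simp [P, hi]
      · simp [P, Matrix.diagonal_apply, hijeq]
    have hcomm1 : ∀ b ∈ Fx hF S, Commute τ b := by
      intro b hb
      rw [Commute, SemiconjBy]
      apply mat_inj
      have h1 := comm_P_of_Fx hb (T := S) (Or.inl (Finset.Subset.refl _))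
      rw [mat_mul, mat_mul, hτm, add_mul, mul_add, smul_mul_assoc, mul_smul_comm, sub_mul, mul_sub, h1]
      simp
    have hcomm2 : ∀ b ∈ Fx hF Sᶜ, Commute τ b := fun b hb =>
      commute_Fx disjoint_compl_right hτFx hb
    have hcomm12 : ∀ a ∈ Fx hF S, ∀ b ∈ Fx hF Sᶜ, Commute a b := fun a ha b hb =>
      commute_Fx disjoint_compl_right ha hb
    refine commute_Ogen hc ?_ yt hyt
    intro b hb
    obtain ⟨b₁, hb₁, b₂, hb₂, rfl⟩ := exists_mul_of_mem_sup hcomm12 hb
    rw [hσ]
    exact (hcomm1 b₁ hb₁).mul_right (hcomm2 b₂ hb₂)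

end main

end Cfsg.Agent.Lib.SUrpE79
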