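import Mathlib
import Cfsg.Agent.Lib.SUrpE79

/-!
# From orthogonal decompositions to coordinates
-/

set_option autoImplicit false
set_option linter.unusedSectionVars false
set_option linter.unusedVariables false
set_option linter.style.haveILetI false
set_option linter.unusedSimpArgs false

namespace Cfsg.Agent.Lib.SUrpF79

open Module Matrix Cfsg Cfsg.Agent.Lib.UnitaryBasic Cfsg.Agent.Lib.UnitarySU Cfsg.Agent.Lib.UnitaryConjGU
  Cfsg.Agent.Lib.SUGen Cfsg.Agent.Lib.SUrpA79 Cfsg.Agent.Lib.SUrpB79 Cfsg.Agent.Lib.HermCount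
  Cfsg.Agent.Lib.SUrpC79 Cfsg.Agent.Lib.SUrpD79 Cfsg.Agent.Lib.SUrpE79 Cfsg.Agent.Lib.HermOrtho
open scoped commutatorElement

universe u v

variable {F : Type v} [Field F] [Fintype F] {q n : ℕ} {J : Type} [AddCommGroup J] [Fintype J] [DecidableEq J]

section conj

variable (hF : Fintype.card F = q ^ 2) (C : Matrix (Fin n) (Fin n) F) (hC : st q C * C = 1)

include hF hC

lemma conj_isU (g : SU n F q) : st q (st q C * mat g * C) * (st q C * mat g * C) = 1 := by
  have h1 : C * st q C = 1 := mul_eq_one_comm.mp hC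
  rw [st_mul hF, st_mul hF, st_st hF]
  calc st q C * (st q (mat g) * C) * (st q C * mat g * C)
      = st q C * (st q (mat g) * (C * st q C) * mat g) * C := by noncomm_ring
    _ = 1 := by rw [h1, mul_one, st_mat_mul hF, mul_one, hC]

lemma conj_det (g : SU n F q) : (st q C * mat g * C).det = 1 := by
  rw [Matrix.det_mul, Matrix.det_mul, det_mat, mul_one, ← Matrix.det_mul, hC, Matrix.det_one]

/-- Conjugation by a unitary matrix. -/
def conjC : SU n F q →* SU n F q where
  toFun g := mkSU hF (st q C * mat g * C) (conj_isU hF C hC g) (conj_det hF C hC g)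
  map_one' := by
    apply mat_inj
    simp [hC]
  map_mul' a b := by
    apply mat_inj
    have h1 : C * st q C = 1 := mul_eq_one_comm.mp hC
    simp only [mat_mul, mat_mkSU]
    calc st q C * (mat a * mat b) * C = st q C * mat a * 1 * mat b * C := by noncomm_ring
      _ = st q C * mat a * (C * st q C) * mat b * C := by rw [h1]
      _ = st q C * mat a * C * (st q C * mat b * C) := by noncomm_ring

lemma mat_conjC (g : SU n F q) : mat (conjC hF C hC g) = st q C * mat g * C := rfl

lemma conjC_injective : Function.Injective (conjC hF C hC) := by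
  intro a b h
  apply mat_inj
  have h1 : C * st q C = 1 := mul_eq_one_comm.mp hC
  have h2 := congrArg mat h
  rw [mat_conjC, mat_conjC] at h2
  calc mat a = (C * st q C) * mat a * (C * st q C) := by rw [h1, one_mul, mul_one]
    _ = C * (st q C * mat a * C) * st q C := by noncomm_ring
    _ = C * (st q C * mat b * C) * st q C := by rw [h2]
    _ = (C * st q C) * mat b * (C * st q C) := by noncomm_ring
    _ = mat b := by rw [h1, one_mul, mul_one]

lemma conjC_surjective : Function.Surjective (conjC hF C hC) := by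
  intro g
  have h1 : C * st q C = 1 := mul_eq_one_comm.mp hC
  have h2 : st q (st q C) * st q C = 1 := by rw [st_st hF, h1]
  refine ⟨conjC hF (st q C) h2 g, ?_⟩
  apply mat_inj
  rw [mat_conjC, mat_conjC, st_st hF]
  calc st q C * (C * mat g * st q C) * C = (st q C * C) * mat g * (st q C * C) := by noncomm_ring
    _ = mat g := by rw [hC, one_mul, mul_one]

omit hF hC in
lemma herm_eq_dot (x y : Fin n → F) : hermForm n F q x y = ∑ k, x k * y k ^ q := rfl

lemma conjC_apply (g : SU n F q) (a b : Fin n) :
    mat (conjC hF C hC g) a b = hermForm n F q (act g (fun k => C k b)) (fun k => C k a) := by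
  rw [mat_conjC, mul_assoc, Matrix.mul_apply, herm_eq_dot]
  apply Finset.sum_congr rfl
  intro k _
  rw [st_apply, mul_comm]
  congr 1

end conj

/-- A homomorphic reduction: composing with an automorphism of the target. -/
lemma ctx_comp {Γ G : Type*} [Group Γ] [Group G] {σ : Γ →* G} {r : ℕ} (hc : Ctx σ r) (α : G →* G)
    (hi : Function.Injective α) (hs : Function.Surjective α) : Ctx (α.comp σ) r ∧ (α.comp σ).ker = σ.ker := by
  have hker : (α.comp σ).ker = σ.ker := by
    ext x
    simp only [MonoidHom.mem_ker, MonoidHom.comp_apply]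
    constructor
    · intro h
      exact hi (by rw [h, map_one])
    · intro h
      rw [h, map_one]
  refine ⟨⟨hs.comp hc.surj, ?_, ?_, hc.hr⟩, hker⟩
  · rw [hker]; exact hc.cen
  · rw [hker]; exact hc.pg

lemma shift_of_ent {c : Fin n → J} {g : SU n F q} {s : J} (h : ∀ a b, c a ≠ c b + s → mat g a b = 0) :
    Shift c g s := by
  intro j
  ext a b
  simp only [P, Matrix.mul_diagonal, Matrix.diagonal_mul, mem_cls]
  by_cases hab : c a = c b + s
  · have : c a = j + s ↔ c b = j := by
      rw [hab]
      simp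
    by_cases h2 : c b = j
    · simp [h2, this.2 h2]
    · have h3 : ¬ c a = j + s := fun e => h2 (this.1 e)
      simp [h2, h3]
  · simp [h a b hab]

section frame

variable (hF : Fintype.card F = q ^ 2)

/-- The unitary matrix of an orthonormal frame. -/
def frameM {ι : Type*} (e : Fin n ≃ ι) (b : ι → Fin n → F) : Matrix (Fin n) (Fin n) F :=
  Matrix.of fun k a => b (e a) k

include hF

lemma frameM_isU {ι : Type*} [DecidableEq ι] (e : Fin n ≃ ι) {b : ι → Fin n → F}
    (hb : ∀ x y, hermForm n F q (b x) (b y) = if x = y then 1 else 0) :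
    st q (frameM e b) * frameM e b = 1 := by
  ext a a'
  rw [Matrix.mul_apply]
  simp only [st_apply, frameM, Matrix.of_apply]
  have h1 := hb (e a') (e a)
  rw [herm_eq_dot] at h1
  have h2 : ∑ x, b (e a) x ^ q * b (e a') x = ∑ k, b (e a') k * b (e a) k ^ q :=
    Finset.sum_congr rfl (fun k _ => mul_comm _ _)
  rw [h2, h1, Matrix.one_apply]
  by_cases h : a = a'
  · subst h; simp
  · have : e a' ≠ e a := fun e' => h (e.injective e').symm
    simp [h, this]

/-- Transporting the shift condition to coordinates. -/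
lemma shift_frame {ι : Type*} [DecidableEq ι] (e : Fin n ≃ ι) {b : ι → Fin n → F}
    (hb : ∀ x y, hermForm n F q (b x) (b y) = if x = y then 1 else 0) (col : ι → J) (W : J → Submodule F (Fin n → F))
    (hbW : ∀ x, b x ∈ W (col x)) (hW : ∀ i j, i ≠ j → ∀ v ∈ W i, ∀ w ∈ W j, hermForm n F q v w = 0)
    {g : SU n F q} {s : J} (hg : ∀ j, ∀ v ∈ W j, act g v ∈ W (j + s)) :
    Shift (fun a => col (e a)) (conjC hF (frameM e b) (frameM_isU hF e hb) g) s := by
  apply shift_of_ent
  intro a a' hne
  rw [conjC_apply]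
  exact hW _ _ (Ne.symm hne) _ (hg _ _ (hbW (e a'))) _ (hbW (e a))

end frame

section thm

variable {Γ : Type u} [Group Γ] [Finite Γ] {σ : Γ →* SU n F q} {r p : ℕ}
  (hF : Fintype.card F = q ^ 2) [CharP F p] (hp : p.Prime) (hrp : r ≠ p) (hc : Ctx σ r)
  (hcomm : σ.ker ≤ commutator Γ) (hT : ∀ m < n, NoRPart.{u, v} r (SU m F q))

include hF hp hrp hc hcomm hT

/-- **Case (A)**: an invariant nondegenerate proper subspace. -/
theorem ker_bot_of_invariant (R : Subgroup (SU n F q)) (hR : ¬ r ∣ R.index) (W : Submodule F (Fin n → F))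
    (hWnd : ND q W) (hW0 : W ≠ ⊥) (hWt : W ≠ ⊤) (hinv : ∀ g ∈ R, ∀ v ∈ W, act g v ∈ W) : σ.ker = ⊥ := by
  set k := finrank F W with hk
  have hk0 : 0 < k := by
    rw [hk]
    exact Module.finrank_pos_iff.2 (Submodule.nontrivial_iff_ne_bot.2 hW0)
  have hkn : k < n := by
    have h1 := Submodule.finrank_lt hWt
    simpa using h1
  obtain ⟨hdim, hpnd⟩ := perp_props hF hWnd hk.symm
  obtain ⟨b₁, hb₁, hb₁o⟩ := exists_orthonormal hF k W rfl hWnd
  obtain ⟨b₂, hb₂, hb₂o⟩ := exists_orthonormal hF (n - k) (perp (q := q) W) hdim hpnd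
  let b : Fin k ⊕ Fin (n - k) → Fin n → F := Sum.elim b₁ b₂
  have hbo : ∀ x y, hermForm n F q (b x) (b y) = if x = y then 1 else 0 := by
    rintro (x | x) (y | y)
    · simp [b, hb₁o]
    · simp only [b, Sum.elim_inl, Sum.elim_inr, reduceCtorEq, if_false]
      exact conj_zero hF (hb₂ y _ (hb₁ x))
    · simp only [b, Sum.elim_inl, Sum.elim_inr, reduceCtorEq, if_false]
      exact hb₂ x _ (hb₁ y)
    · simp [b, hb₂o]
  have hcard : Fintype.card (Fin n) = Fintype.card (Fin k ⊕ Fin (n - k)) := by
    simp
    omega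
  let e : Fin n ≃ Fin k ⊕ Fin (n - k) := Fintype.equivOfCardEq hcard
  let col : Fin k ⊕ Fin (n - k) → ZMod 2 := Sum.elim (fun _ => 0) (fun _ => 1)
  let W' : ZMod 2 → Submodule F (Fin n → F) := fun j => if j = 0 then W else perp (q := q) W
  have hW0' : W' 0 = W := by simp [W']
  have hW1' : W' 1 = perp (q := q) W := by simp [W']
  have hcases : ∀ j : ZMod 2, j = 0 ∨ j = 1 := by decide
  have hbW : ∀ x, b x ∈ W' (col x) := by
    rintro (x | x)
    · simp only [b, col, Sum.elim_inl, hW0']; exact hb₁ x
    · simp only [b, col, Sum.elim_inr, hW1']; exact hb₂ x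
  have hWperp : ∀ i j, i ≠ j → ∀ v ∈ W' i, ∀ w ∈ W' j, hermForm n F q v w = 0 := by
    intro i j hij v hv w hw
    rcases hcases i with rfl | rfl <;> rcases hcases j with rfl | rfl
    · exact (hij rfl).elim
    · rw [hW0'] at hv
      rw [hW1'] at hw
      exact conj_zero hF (hw v hv)
    · rw [hW1'] at hv
      rw [hW0'] at hw
      exact hv w hw
    · exact (hij rfl).elim
  have hbo' := hbo
  set C := frameM e b with hCdef
  have hC : st q C * C = 1 := frameM_isU hF e hbo
  let α := conjC hF C hC
  have hαi := conjC_injective hF C hC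
  have hαs := conjC_surjective hF C hC
  obtain ⟨hc', hker⟩ := ctx_comp hc α hαi hαs
  let c : Fin n → ZMod 2 := fun a => col (e a)
  let u : ZMod 2 → Fin n := fun j => if j = 0 then e.symm (Sum.inl ⟨0, hk0⟩) else e.symm (Sum.inr ⟨0, by omega⟩)
  have hu : ∀ j, c (u j) = j := by
    intro j
    rcases hcases j with rfl | rfl
    · simp [c, u, col]
    · simp [c, u, col]
  have hRle : R ≤ (Dc (F := F) (q := q) c).comap α := by
    intro g hg
    change Shift c (conjC hF C hC g) 0
    apply shift_frame hF e hbo col W' hbW hWperp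
    intro j v hv
    rw [add_zero]
    rcases hcases j with rfl | rfl
    · rw [hW0'] at hv ⊢
      exact hinv g hg v hv
    · rw [hW1'] at hv ⊢
      intro w hw
      have h1 := herm_act g v (act g⁻¹ w)
      rw [act_act_inv] at h1
      rw [h1]
      exact hv _ (hinv _ (inv_mem hg) w hw)
  have hidx : ¬ r ∣ (Dc (F := F) (q := q) c).index := by
    intro h
    rw [← Subgroup.index_comap_of_surjective _ hαs] at h
    exact hR (h.trans (Subgroup.index_dvd_of_le hRle))
  have hmain := ker_bot_of_Dc (σ := α.comp σ) hF hp hrp hc' (by rw [hker]; exact hcomm) c u hu hT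
    (by
      intro j l hj hl hjl
      exfalso
      rcases hcases j with rfl | rfl
      · exact hj rfl
      · rcases hcases l with rfl | rfl
        · exact hl rfl
        · exact hjl rfl)
    ⟨1, by decide⟩ hidx
  rw [hker] at hmain
  exact hmain

/-- **Case (C)**: cyclically permuted blocks. -/
theorem ker_bot_of_shift [hrf : Fact r.Prime] (R : Subgroup (SU n F q)) (hR : ¬ r ∣ R.index)
    (W : ZMod r → Submodule F (Fin n → F)) (hWnd : ∀ j, ND q (W j))
    (hWp : ∀ i j, i ≠ j → ∀ v ∈ W i, ∀ w ∈ W j, hermForm n F q v w = 0)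
    (hWs : ⨆ j, W j = ⊤) (d : ℕ) (hd : 0 < d) (hWd : ∀ j, finrank F (W j) = d)
    (hinv : ∀ g ∈ R, ∃ s, ∀ j, ∀ v ∈ W j, act g v ∈ W (j + s)) : σ.ker = ⊥ := by
  choose b hb hbo using fun j => exists_orthonormal hF d (W j) (hWd j) (hWnd j)
  let bb : Fin d × ZMod r → Fin n → F := fun x => b x.2 x.1
  have hbbo : ∀ x y, hermForm n F q (bb x) (bb y) = if x = y then 1 else 0 := by
    rintro ⟨l, j⟩ ⟨l', j'⟩
    by_cases hj : j = j'
    · subst hj
      simp [bb, hbo]
    · have := hWp j j' hj _ (hb j l) _ (hb j' l')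
      simp [bb, this, hj]
  have hli : LinearIndependent F bb := by
    rw [Fintype.linearIndependent_iff]
    intro g' hg' i
    have h1 := congrArg (fun z => hermForm n F q z (bb i)) hg'
    simp only [herm_sum_left, HermForm.hermForm_smul_left, HermForm.hermForm_zero_left] at h1
    have h2 : ∑ x, g' x * hermForm n F q (bb x) (bb i) = g' i := by
      rw [Finset.sum_eq_single i]
      · simp [hbbo]
      · intro x _ hx
        simp [hbbo, hx]
      · simp
    rw [← h2]
    exact h1
  have hspan : Submodule.span F (Set.range bb) = ⊤ := by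
    rw [eq_top_iff, ← hWs]
    apply iSup_le
    intro j
    rw [← span_orthonormal hF (hWd j) (hb j) (hbo j)]
    apply Submodule.span_mono
    rintro _ ⟨l, rfl⟩
    exact ⟨(l, j), rfl⟩
  have hcard : Fintype.card (Fin n) = Fintype.card (Fin d × ZMod r) := by
    have h1 := finrank_span_eq_card hli
    rw [hspan, finrank_top] at h1
    simpa using h1
  let e : Fin n ≃ Fin d × ZMod r := Fintype.equivOfCardEq hcard
  have hC : st q (frameM e bb) * frameM e bb = 1 := frameM_isU hF e hbbo
  set C := frameM e bb with hCdef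
  let α := conjC hF C hC
  have hαi := conjC_injective hF C hC
  have hαs := conjC_surjective hF C hC
  obtain ⟨hc', hker⟩ := ctx_comp hc α hαi hαs
  let col : Fin d × ZMod r → ZMod r := fun x => x.2
  let c : Fin n → ZMod r := fun a => col (e a)
  let u : ZMod r → Fin n := fun j => e.symm (⟨0, hd⟩, j)
  have hu : ∀ j, c (u j) = j := by
    intro j
    simp [c, u, col]
  let π : Equiv.Perm (Fin n) :=
    (e.trans (Equiv.prodCongr (Equiv.refl _) (Equiv.addRight (1 : ZMod r)))).trans e.symm
  have hπ : ∀ i, c (π i) = c i + 1 := by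
    intro i
    simp only [c, π, col, Equiv.trans_apply, Equiv.apply_symm_apply]
    rfl
  have hπu : ∀ j, π (u j) = u (j + 1) := by
    intro j
    simp only [π, u, Equiv.trans_apply, Equiv.apply_symm_apply]
    rfl
  have hRle : R ≤ (Xc (F := F) (q := q) c).comap α := by
    intro g hg
    obtain ⟨s, hs⟩ := hinv g hg
    refine ⟨s, ?_⟩
    exact shift_frame hF e hbbo col W (fun x => hb x.2 x.1) hWp hs
  have hidx : ¬ r ∣ (Xc (F := F) (q := q) c).index := by
    intro h
    rw [← Subgroup.index_comap_of_surjective _ hαs] at h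
    exact hR (h.trans (Subgroup.index_dvd_of_le hRle))
  have hmain := ker_bot_of_Xc (σ := α.comp σ) hF hp hrp hc' (by rw [hker]; exact hcomm) hu π hπ hπu hT hidx
  rw [hker] at hmain
  exact hmain

end thm

end Cfsg.Agent.Lib.SUrpF79
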