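import Mathlib
import Cfsg.Agent.Lib.SUrpF79

/-!
# Fixed spaces and the decomposition attached to a pair `(a, z)`
-/

set_option autoImplicit false
set_option linter.unusedSectionVars false
set_option linter.unusedVariables false
set_option linter.style.haveILetI false
set_option linter.unusedSimpArgs false

namespace Cfsg.Agent.Lib.SUrpG79

open Module Matrix Cfsg Cfsg.Agent.Lib.UnitaryBasic Cfsg.Agent.Lib.UnitarySU Cfsg.Agent.Lib.UnitaryConjGU
  Cfsg.Agent.Lib.SUGen Cfsg.Agent.Lib.SUrpA79 Cfsg.Agent.Lib.SUrpB79 Cfsg.Agent.Lib.HermCount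
  Cfsg.Agent.Lib.SUrpC79 Cfsg.Agent.Lib.SUrpD79 Cfsg.Agent.Lib.SUrpE79 Cfsg.Agent.Lib.HermOrtho
  Cfsg.Agent.Lib.SUrpF79
open scoped commutatorElement

universe u v

variable {F : Type v} [Field F] [Fintype F] {q n : ℕ}

lemma act_sum {ι : Type*} (g : SU n F q) (s : Finset ι) (f : ι → Fin n → F) :
    act g (∑ i ∈ s, f i) = ∑ i ∈ s, act g (f i) :=
  Matrix.mulVec_sum _ _ _

/-- The fixed space. -/
def fixS (g : SU n F q) : Submodule F (Fin n → F) where
  carrier := {v | act g v = v}
  add_mem' := by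
    intro a b ha hb
    change act g (a + b) = a + b
    rw [act_add, show act g a = a from ha, show act g b = b from hb]
  zero_mem' := act_zero g
  smul_mem' := by
    intro c a ha
    change act g (c • a) = c • a
    rw [act_smul, show act g a = a from ha]

@[simp] lemma mem_fixS {g : SU n F q} {v : Fin n → F} : v ∈ fixS g ↔ act g v = v := Iff.rfl

lemma act_pow_of_fix {g : SU n F q} {v : Fin n → F} (h : act g v = v) (k : ℕ) : act (g ^ k) v = v := by
  induction k with
  | zero => simpa using act_one v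
  | succ k ih => rw [pow_succ, act_mul, h, ih]

lemma act_inv_of_fix {g : SU n F q} {v : Fin n → F} (h : act g v = v) : act g⁻¹ v = v := by
  have := act_inv_act g v
  rwa [h] at this

/-- The orbit sum is fixed. -/
lemma orbit_fix {g : SU n F q} {m : ℕ} (hm : g ^ m = 1) (w : Fin n → F) :
    act g (∑ k ∈ Finset.range m, act (g ^ k) w) = ∑ k ∈ Finset.range m, act (g ^ k) w := by
  rw [act_sum]
  have h1 : ∀ k, act g (act (g ^ k) w) = act (g ^ (k + 1)) w := by
    intro k
    rw [← act_mul, pow_succ']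
  simp only [h1]
  have h2 := Finset.sum_range_succ (fun k => act (g ^ k) w) m
  have h3 := Finset.sum_range_succ' (fun k => act (g ^ k) w) m
  rw [h3] at h2
  simp only [pow_zero, hm] at h2
  exact add_right_cancel h2

section

variable (hF : Fintype.card F = q ^ 2)
include hF

/-- The fixed space of an element of order invertible in `F` is nondegenerate. -/
lemma nd_fix {g : SU n F q} {m : ℕ} (hm : g ^ m = 1) (hm0 : (m : F) ≠ 0) : ND q (fixS g) := by
  intro u hu huv
  by_contra hu0
  obtain ⟨w, hw⟩ := HermForm.exists_hermForm_ne_zero hF hu0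
  have h1 := huv _ (orbit_fix hm w)
  rw [herm_sum_right hF] at h1
  have h2 : ∀ k, hermForm n F q u (act (g ^ k) w) = hermForm n F q u w := by
    intro k
    conv_lhs => rw [← act_pow_of_fix (v := u) hu k]
    exact herm_act _ _ _
  simp only [h2, Finset.sum_const, Finset.card_range, nsmul_eq_mul] at h1
  rcases mul_eq_zero.1 h1 with h3 | h3
  · exact hm0 h3
  · exact hw h3

end

section pair

variable {r : ℕ} [hrf : Fact r.Prime] {a z : SU n F q}

lemma pow_mod_r (hz : z ^ r = 1) (m : ℕ) : z ^ (m % r) = z ^ m := by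
  conv_rhs => rw [← Nat.mod_add_div m r, pow_add, pow_mul, hz, one_pow, mul_one]

lemma zp_add (hz : z ^ r = 1) (i j : ZMod r) : z ^ (i + j).val = z ^ i.val * z ^ j.val := by
  rw [ZMod.val_add, pow_mod_r hz, pow_add]

lemma zp_mul (hz : z ^ r = 1) (i j : ZMod r) : z ^ (i * j).val = (z ^ i.val) ^ j.val := by
  rw [ZMod.val_mul, pow_mod_r hz, pow_mul]

lemma zp_one (hz : z ^ r = 1) : z ^ (1 : ZMod r).val = z := by
  haveI : Fact (1 < r) := ⟨hrf.out.one_lt⟩
  rw [ZMod.val_one, pow_one]

lemma zp_natCast (hz : z ^ r = 1) (s : ℕ) : z ^ ((s : ZMod r)).val = z ^ s := by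
  rw [ZMod.val_natCast, pow_mod_r hz]

lemma pow_r_zp (hz : z ^ r = 1) (i : ZMod r) : (z ^ i.val) ^ r = 1 := by
  rw [← pow_mul, mul_comm, pow_mul, hz, one_pow]

/-- The elements `a z^i`. -/
def xx (a z : SU n F q) (i : ZMod r) : SU n F q := a * z ^ i.val

lemma xx_comm (haz : Commute a z) (i j : ZMod r) : Commute (xx a z i) (xx a z j) := by
  simp only [xx]
  apply Commute.mul_left
  · apply Commute.mul_right (Commute.refl a)
    exact haz.pow_right _
  · apply Commute.mul_right
    · exact (haz.symm.pow_left _)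
    · exact (Commute.refl z).pow_pow _ _

lemma xx_pow (haz : Commute a z) (i : ZMod r) (k : ℕ) : xx a z i ^ k = a ^ k * (z ^ i.val) ^ k := by
  simp only [xx]
  exact (haz.pow_right _).mul_pow k

lemma xx_pow_r (haz : Commute a z) (ha : a ^ r = 1) (hz : z ^ r = 1) (i : ZMod r) : xx a z i ^ r = 1 := by
  rw [xx_pow haz, ha, pow_r_zp hz, one_mul]

variable (hF : Fintype.card F = q ^ 2)

/-- `Σ z^i v` vanishes when `z` has no fixed vectors. -/
lemma sum_zp_eq_zero (hz : z ^ r = 1) (hfz : fixS z = ⊥) (v : Fin n → F) :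
    ∑ i : ZMod r, act (z ^ i.val) v = 0 := by
  have h1 : ∑ i : ZMod r, act (z ^ i.val) v ∈ fixS z := by
    rw [mem_fixS, act_sum]
    have : ∀ i : ZMod r, act z (act (z ^ i.val) v) = act (z ^ (i + 1).val) v := by
      intro i
      rw [zp_add hz, zp_one hz, ← act_mul, (Commute.refl z).pow_left _ |>.eq]
    simp only [this]
    exact Equiv.sum_comp (Equiv.addRight (1 : ZMod r)) (fun i => act (z ^ i.val) v)
  rw [hfz, Submodule.mem_bot] at h1
  exact h1

/-- The basic identity. -/
lemma sum_sum_eq (haz : Commute a z) (hz : z ^ r = 1) (hfz : fixS z = ⊥) (v : Fin n → F) :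
    ∑ i : ZMod r, ∑ k ∈ Finset.range r, act (xx a z i ^ k) v = (r : F) • v := by
  have hr := hrf.out
  rw [Finset.sum_comm, Finset.sum_eq_single 0]
  · simp [act_one, Finset.sum_const, Finset.card_univ, ZMod.card, Nat.cast_smul_eq_nsmul]
  · intro k hk hk0
    have hkr : k < r := Finset.mem_range.1 hk
    have hk' : (k : ZMod r) ≠ 0 := by
      intro h0
      rw [ZMod.natCast_eq_zero_iff] at h0
      exact hk0 (Nat.eq_zero_of_dvd_of_lt h0 hkr)
    have h1 : ∀ i : ZMod r, act (xx a z i ^ k) v = act (a ^ k) (act (z ^ (i * (k : ZMod r)).val) v) := by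
      intro i
      rw [← act_mul, xx_pow haz, zp_mul hz, ZMod.val_natCast, Nat.mod_eq_of_lt hkr]
    simp only [h1]
    rw [← act_sum]
    have h2 : ∑ i : ZMod r, act (z ^ (i * (k : ZMod r)).val) v = ∑ i : ZMod r, act (z ^ i.val) v :=
      Equiv.sum_comp (Equiv.mulRight₀ (k : ZMod r) hk') (fun i => act (z ^ i.val) v)
    rw [h2, sum_zp_eq_zero hz hfz, act_zero]
  · intro h
    exact (h (Finset.mem_range.2 hr.pos)).elim

/-- The spaces `fix (a z^i)` span. -/
lemma iSup_fix_eq_top (haz : Commute a z) (ha : a ^ r = 1) (hz : z ^ r = 1) (hfz : fixS z = ⊥) (hr0 : (r : F) ≠ 0) :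
    ⨆ i : ZMod r, fixS (xx a z i) = ⊤ := by
  rw [eq_top_iff]
  intro v _
  have h1 := sum_sum_eq haz hz hfz v
  have h2 : (r : F) • v ∈ ⨆ i : ZMod r, fixS (xx a z i) := by
    rw [← h1]
    apply Submodule.sum_mem
    intro i _
    apply Submodule.mem_iSup_of_mem i
    exact orbit_fix (xx_pow_r haz ha hz i) v
  have h3 := Submodule.smul_mem _ ((r : F)⁻¹) h2
  rwa [smul_smul, inv_mul_cancel₀ hr0, one_smul] at h3

/-- Fixed vectors of a nontrivial power of `z` are fixed by `z`. -/
lemma fix_zp {m : ZMod r} (hz : z ^ r = 1) (hm : m ≠ 0) {v : Fin n → F} (h : act (z ^ m.val) v = v) : act z v = v := by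
  have h1 := act_pow_of_fix h (m⁻¹).val
  rw [← zp_mul hz, mul_inv_cancel₀ hm, zp_one hz] at h1
  exact h1

include hF in
/-- Orthogonality. -/
lemma fix_orth (haz : Commute a z) (ha : a ^ r = 1) (hz : z ^ r = 1) (hfz : fixS z = ⊥) (hr0 : (r : F) ≠ 0)
    {i j : ZMod r} (hij : i ≠ j) {u w : Fin n → F} (hu : u ∈ fixS (xx a z i)) (hw : w ∈ fixS (xx a z j)) :
    hermForm n F q u w = 0 := by
  set w' := ∑ k ∈ Finset.range r, act (xx a z i ^ k) w with hw'
  have h1 : act (xx a z i) w' = w' := orbit_fix (xx_pow_r haz ha hz i) w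
  have h2 : act (xx a z j) w' = w' := by
    rw [hw', act_sum]
    apply Finset.sum_congr rfl
    intro k _
    rw [← act_mul, ((xx_comm haz j i).pow_right k).eq, act_mul, show act (xx a z j) w = w from hw]
  have h3 : xx a z i = xx a z j * z ^ (i - j).val := by
    simp only [xx]
    have : i = j + (i - j) := by ring
    conv_lhs => rw [this, zp_add hz]
    rw [mul_assoc]
  have h4 : act (z ^ (i - j).val) w' = w' := by
    have : z ^ (i - j).val = (xx a z j)⁻¹ * xx a z i := by rw [h3]; group
    rw [this, act_mul, h1, act_inv_of_fix h2]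
  have h5 : act z w' = w' := fix_zp hz (sub_ne_zero.2 hij) h4
  have h6 : w' = 0 := by
    have : w' ∈ fixS z := h5
    rwa [hfz, Submodule.mem_bot] at this
  have h7 : hermForm n F q u w' = (r : F) * hermForm n F q u w := by
    rw [hw', herm_sum_right hF]
    have : ∀ k, hermForm n F q u (act (xx a z i ^ k) w) = hermForm n F q u w := by
      intro k
      conv_lhs => rw [← act_pow_of_fix (v := u) hu k]
      exact herm_act _ _ _
    simp only [this, Finset.sum_const, Finset.card_range, nsmul_eq_mul]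
  rw [h6, HermForm.hermForm_zero_right hF] at h7
  rcases mul_eq_zero.1 h7.symm with h8 | h8
  · exact (hr0 h8).elim
  · exact h8

/-- The shift. -/
lemma fix_shift (hz : z ^ r = 1) {g : SU n F q} (hgz : Commute g z) {s : ℕ} (hs : g * a * g⁻¹ = a * z ^ s) (j : ZMod r)
    {v : Fin n → F} (hv : v ∈ fixS (xx a z j)) : act g v ∈ fixS (xx a z (j + (s : ZMod r))) := by
  rw [mem_fixS, ← act_mul]
  have h1 : xx a z (j + (s : ZMod r)) * g = g * xx a z j := by
    simp only [xx]
    rw [zp_add hz, zp_natCast hz]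
    have h2 : g * a = a * z ^ s * g := by
      rw [← hs]; group
    calc a * (z ^ j.val * z ^ s) * g = a * z ^ s * z ^ j.val * g := by
          rw [((Commute.refl z).pow_pow j.val s).eq]; group
      _ = a * z ^ s * (z ^ j.val * g) := by group
      _ = a * z ^ s * (g * z ^ j.val) := by rw [((hgz.pow_right j.val).eq)]
      _ = (a * z ^ s * g) * z ^ j.val := by group
      _ = g * (a * z ^ j.val) := by rw [← h2]; group
  rw [h1, act_mul, show act (xx a z j) v = v from hv]

end pair

section thm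

variable {Γ : Type u} [Group Γ] [Finite Γ] {σ : Γ →* SU n F q} {r p : ℕ}
  (hF : Fintype.card F = q ^ 2) [CharP F p] (hp : p.Prime) (hrp : r ≠ p) (hc : Ctx σ r)
  (hcomm : σ.ker ≤ commutator Γ) (hT : ∀ m < n, NoRPart.{u, v} r (SU m F q))

omit [Fintype F] in
lemma cast_r_ne_zero {r p : ℕ} [CharP F p] (hp : p.Prime) (hr : r.Prime) (hrp : r ≠ p) : (r : F) ≠ 0 := by
  intro h
  rw [CharP.cast_eq_zero_iff F p] at h
  exact hrp ((Nat.prime_dvd_prime_iff_eq hp hr).1 h).symm

include hF hp hrp hc hcomm hT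

/-- A central element of order `r` with nonzero fixed vectors gives case (A). -/
theorem ker_bot_of_central (R : Subgroup (SU n F q)) (hR : ¬ r ∣ R.index) {z : SU n F q} (hz1 : z ≠ 1)
    (hzr : z ^ r = 1) (hzc : ∀ g ∈ R, Commute g z) (hfz : fixS z ≠ ⊥) : σ.ker = ⊥ := by
  have hr0 : (r : F) ≠ 0 := cast_r_ne_zero hp hc.hr hrp
  refine ker_bot_of_invariant hF hp hrp hc hcomm hT R hR (fixS z) (nd_fix hF hzr hr0) hfz ?_ ?_
  · intro h
    apply hz1
    apply SU_ext
    intro x
    have : x ∈ fixS z := by rw [h]; trivial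
    rw [act_one]
    exact this
  · intro g hg v hv
    rw [mem_fixS, ← act_mul, ← (hzc g hg).eq, act_mul, show act z v = v from hv]

/-- The theorem for a pair `(a, z)`. -/
theorem ker_bot_of_pair [hrf : Fact r.Prime] (R : Subgroup (SU n F q)) (hR : ¬ r ∣ R.index) {a z : SU n F q}
    (hz1 : z ≠ 1) (hzr : z ^ r = 1) (har : a ^ r = 1) (haz : Commute a z)
    (hazp : ∀ i : ℕ, a ≠ (z ^ i)⁻¹)
    (hzc : ∀ g ∈ R, Commute g z) (hga : ∀ g ∈ R, ∃ s : ℕ, g * a * g⁻¹ = a * z ^ s) : σ.ker = ⊥ := by
  classical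
  have hr := hrf.out
  have hr0 : (r : F) ≠ 0 := cast_r_ne_zero hp hc.hr hrp
  by_cases hfz : fixS z = ⊥
  swap
  · exact ker_bot_of_central hF hp hrp hc hcomm hT R hR hz1 hzr hzc hfz
  set W : ZMod r → Submodule F (Fin n → F) := fun i => fixS (xx a z i) with hWdef
  have hWnd : ∀ j, ND q (W j) := fun j => nd_fix hF (xx_pow_r haz har hzr j) hr0
  have hWp : ∀ i j, i ≠ j → ∀ v ∈ W i, ∀ w ∈ W j, hermForm n F q v w = 0 :=
    fun i j hij v hv w hw => fix_orth hF haz har hzr hfz hr0 hij hv hw
  have hWs : ⨆ j, W j = ⊤ := iSup_fix_eq_top haz har hzr hfz hr0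
  have hV : (⊤ : Submodule F (Fin n → F)) ≠ ⊥ := by
    intro h
    apply hz1
    apply SU_ext
    intro x
    have hx : x ∈ (⊤ : Submodule F (Fin n → F)) := trivial
    rw [h, Submodule.mem_bot] at hx
    rw [hx, act_zero, act_one]
  have hW1 : ∀ j, W j ≠ ⊤ := by
    intro j h
    have h1 : xx a z j = 1 := by
      apply SU_ext
      intro x
      have : x ∈ W j := by rw [h]; trivial
      rw [act_one]
      exact this
    apply hazp j.val
    simp only [xx] at h1
    exact eq_inv_of_mul_eq_one_left h1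
  by_cases hinv : ∀ g ∈ R, ∀ s : ℕ, g * a * g⁻¹ = a * z ^ s → (s : ZMod r) = 0
  · -- every block is invariant
    obtain ⟨j, hj⟩ : ∃ j, W j ≠ ⊥ := by
      by_contra hall
      push Not at hall
      apply hV
      rw [← hWs, iSup_eq_bot]
      exact hall
    refine ker_bot_of_invariant hF hp hrp hc hcomm hT R hR (W j) (hWnd j) hj (hW1 j) ?_
    intro g hg v hv
    obtain ⟨s, hs⟩ := hga g hg
    have := fix_shift hzr (hzc g hg) hs j hv
    rwa [hinv g hg s hs, add_zero] at this
  · push Not at hinv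
    obtain ⟨g₀, hg₀, s₀, hs₀, hs₀ne⟩ := hinv
    have hstep : ∀ j, finrank F (W j) ≤ finrank F (W (j + (s₀ : ZMod r))) := by
      intro j
      let f : W j →ₗ[F] W (j + (s₀ : ZMod r)) :=
        { toFun := fun v => ⟨act g₀ v.1, fix_shift hzr (hzc g₀ hg₀) hs₀ j v.2⟩
          map_add' := fun x y => Subtype.ext (act_add _ _ _)
          map_smul' := fun c x => Subtype.ext (act_smul _ _ _) }
      apply LinearMap.finrank_le_finrank_of_injective (f := f)
      intro x y hxy
      apply Subtype.ext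
      exact act_inj g₀ (congrArg Subtype.val hxy)
    have hiter : ∀ (k : ℕ) (j : ZMod r), finrank F (W j) ≤ finrank F (W (j + (k : ZMod r) * (s₀ : ZMod r))) := by
      intro k
      induction k with
      | zero =>
        intro j
        have e : j + ((0 : ℕ) : ZMod r) * (s₀ : ZMod r) = j := by simp
        rw [e]
      | succ k ih =>
        intro j
        refine (ih j).trans ?_
        have := hstep (j + (k : ZMod r) * (s₀ : ZMod r))
        have e : j + (k : ZMod r) * (s₀ : ZMod r) + (s₀ : ZMod r) = j + ((k + 1 : ℕ) : ZMod r) * (s₀ : ZMod r) := by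
          push_cast
          ring
        rwa [e] at this
    have hle : ∀ i j, finrank F (W j) ≤ finrank F (W i) := by
      intro i j
      have := hiter ((i - j) * (s₀ : ZMod r)⁻¹).val j
      rw [ZMod.natCast_zmod_val] at this
      have e : j + (i - j) * (s₀ : ZMod r)⁻¹ * (s₀ : ZMod r) = i := by
        field_simp
        ring
      rwa [e] at this
    have hd : ∀ j, finrank F (W j) = finrank F (W 0) := fun j => le_antisymm (hle 0 j) (hle j 0)
    have hd0 : 0 < finrank F (W 0) := by
      by_contra h0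
      have h1 : ∀ j, W j = ⊥ := by
        intro j
        apply Submodule.finrank_eq_zero.1
        rw [hd j]
        omega
      apply hV
      rw [← hWs, iSup_eq_bot]
      exact h1
    refine ker_bot_of_shift hF hp hrp hc hcomm hT R hR W hWnd hWp hWs _ hd0 hd ?_
    intro g hg
    obtain ⟨s, hs⟩ := hga g hg
    exact ⟨(s : ZMod r), fun j v hv => fix_shift hzr (hzc g hg) hs j hv⟩

/-- The cyclic case. -/
theorem ker_bot_of_cyclic (R : Subgroup (SU n F q)) (hR : ¬ r ∣ R.index) (hcy : IsCyclic R) : σ.ker = ⊥ := by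
  obtain ⟨g₀, hg₀⟩ := IsCyclic.exists_generator (α := R)
  have hcm : ∀ x ∈ R.comap σ, ∀ y ∈ R.comap σ, x * y = y * x := by
    have hle : R ≤ Subgroup.zpowers (g₀ : SU n F q) := by
      intro x hx
      obtain ⟨k, hk⟩ := hg₀ ⟨x, hx⟩
      refine ⟨k, ?_⟩
      have := congrArg Subtype.val hk
      simpa using this
    intro x hx y hy
    exact SchurStem.comap_comm_of_zpowers σ hc.surj hc.cen g₀ x (hle hx) y (hle hy)
  apply ker_eq_bot_of_transfer hc hcomm R hR
  intro k hk h hkc
  have hbot : commutator (R.comap σ) ≤ ⊥ := by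
    rw [commutator_def, Subgroup.commutator_le]
    intro x _ y _
    rw [Subgroup.mem_bot, commutatorElement_eq_one_iff_mul_comm]
    exact Subtype.ext (hcm x.1 x.2 y.1 y.2)
  have := hbot hkc
  rw [Subgroup.mem_bot] at this
  exact congrArg Subtype.val this

end thm

end Cfsg.Agent.Lib.SUrpG79
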