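import Mathlib
import Cfsg.Agent.Lib.KulakoffSylow
import Cfsg.Agent.Lib.MaxClass
import Cfsg.Agent.Lib.HuaC
import Cfsg.Agent.Lib.OddPGroup

/-!
# Normal elementary abelian subgroups of order `p²` in noncyclic `p`-groups, `p` odd
-/

set_option autoImplicit false
set_option linter.unusedSectionVars false
set_option linter.unusedVariables false
set_option linter.style.haveILetI false
set_option linter.unusedSimpArgs false

namespace Cfsg.Agent.Lib.SUrpH79

open Subgroup Cfsg.Agent.Lib.KulakoffOdd Cfsg.Agent.Lib.KulakoffSylow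

universe u

variable {T : Type u} [Group T] [Finite T] {p : ℕ} [hp : Fact p.Prime]

/-- A noncyclic `p`-group, `p` odd, has a normal elementary abelian subgroup of order `p²`. -/
theorem exists_normal_sq (hp2 : p ≠ 2) (hT : IsPGroup p T) (hnc : ¬ IsCyclic T) :
    ∃ N : Subgroup T, N.Normal ∧ Nat.card N = p ^ 2 ∧ ∀ x ∈ N, x ^ p = 1 := by
  classical
  have hpp : p.Prime := hp.out
  obtain ⟨m, hm⟩ := IsPGroup.iff_card.1 hT
  have hm2 : 1 < m := by
    by_contra h
    have hm' : m = 0 ∨ m = 1 := by omega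
    rcases hm' with rfl | rfl
    · apply hnc
      rw [pow_zero] at hm
      have : Subsingleton T := (Nat.card_eq_one_iff_unique.1 hm).1
      infer_instance
    · apply hnc
      rw [pow_one] at hm
      exact isCyclic_of_prime_card hm
  have hnt : Nontrivial T := by
    apply Finite.one_lt_card_iff_nontrivial.1
    rw [hm]
    exact Nat.one_lt_pow (by omega) hpp.one_lt
  have hcen : Nontrivial (center T) := hT.center_nontrivial
  have hdiv : p ∣ Nat.card (center T) := by
    obtain ⟨n, hn0, hn⟩ := (IsPGroup.nontrivial_iff_card (hT.to_subgroup (center T))).mp hcen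
    rw [hn]
    exact dvd_pow_self p hn0.ne'
  obtain ⟨z₀, hz₀⟩ := exists_prime_orderOf_dvd_card' p hdiv
  set z : T := (z₀ : T) with hzdef
  have hzo : orderOf z = p := by
    rw [hzdef, Subgroup.orderOf_coe]; exact hz₀
  have hzc : z ∈ center T := z₀.2
  set Z := zpowers z with hZdef
  have hZ : Nat.card Z = p := by rw [Nat.card_zpowers, hzo]
  have hcomm : ∀ a : T, ∀ b ∈ Z, a * b = b * a := by
    intro a b hb
    obtain ⟨n, rfl⟩ := Subgroup.mem_zpowers_iff.mp hb
    have h2 : Commute a z := (Subgroup.mem_center_iff.mp hzc) a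
    exact (h2.zpow_right n).eq
  haveI hZn : Z.Normal := by
    constructor
    intro n hn g
    rw [hcomm g n hn, mul_inv_cancel_right]
    exact hn
  -- the subgroups of order `p²` containing `z`
  let Q : Subgroup T → Prop := fun E => z ∈ E ∧ Nat.card E = p ^ 2 ∧ ∀ e ∈ E, e ^ p = 1
  let 𝒰 := {E : Subgroup T // Q E}
  -- `H ⊔ Z`
  have hsup : ∀ H : Subgroup T, Nat.card H = p → H ≠ Z → Q (H ⊔ Z) := by
    intro H hH hne
    have hd := Cfsg.Agent.Lib.HuaN.inf_eq_bot_of_lines hpp hH hZ hne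
    have hcard := Cfsg.Agent.Lib.CoprimeInv.card_sup_mul_card_inf (H := H) (N := Z) (by
      rw [normalizer_eq_top_iff.mpr hZn]; exact le_top)
    rw [hd, Subgroup.card_bot, mul_one, hH, hZ] at hcard
    refine ⟨(le_sup_right : Z ≤ H ⊔ Z) (mem_zpowers z), by rw [hcard, sq], ?_⟩
    intro e he
    rw [Subgroup.mem_sup_of_normal_right] at he
    obtain ⟨x, hx, y, hy, rfl⟩ := he
    have hc : Commute x y := hcomm x y hy
    rw [hc.mul_pow]
    have h1 : x ^ p = 1 := by
      rw [← hH]
      have := pow_card_eq_one' (x := (⟨x, hx⟩ : H))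
      exact congrArg Subtype.val this
    have h2 : y ^ p = 1 := by
      rw [← hZ]
      have := pow_card_eq_one' (x := (⟨y, hy⟩ : Z))
      exact congrArg Subtype.val this
    rw [h1, h2, mul_one]
  -- the count
  let 𝒮 := {H : Subgroup T // Nat.card H = p ∧ ¬ H = Z}
  let φ : 𝒮 → 𝒰 := fun H => ⟨H.1 ⊔ Z, hsup H.1 H.2.1 H.2.2⟩
  have hfib : ∀ E : 𝒰, Nat.card {H : 𝒮 // φ H = E} = p := by
    intro E
    have hEZ : Z ≤ E.1 := (zpowers_le).2 E.2.1
    have h1 : Nat.card {H : 𝒮 // φ H = E} = Nat.card {H : Subgroup T // (H ≤ E.1 ∧ Nat.card H = p) ∧ ¬ H = Z} := by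
      apply Nat.card_congr
      refine
        { toFun := fun H => ⟨H.1.1, ⟨?_, H.1.2.1⟩, H.1.2.2⟩
          invFun := fun H => ⟨⟨H.1, H.2.1.2, H.2.2⟩, ?_⟩
          left_inv := fun H => rfl
          right_inv := fun H => rfl }
      · have : H.1.1 ≤ (φ H.1).1 := le_sup_left
        rw [H.2] at this
        exact this
      · -- `H ⊔ Z` has the order of `E`
        apply Subtype.ext
        apply Subgroup.eq_of_le_of_card_ge (sup_le H.2.1.1 hEZ)
        rw [E.2.2.1, (hsup H.1 H.2.1.2 H.2.2).2.1]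
    rw [h1]
    have h2 := card_split (α := Subgroup T) (fun H => H ≤ E.1 ∧ Nat.card H = p) (fun H => H = Z)
    have h3 : Nat.card {H : Subgroup T // (H ≤ E.1 ∧ Nat.card H = p) ∧ H = Z} = 1 := by
      have : Unique {H : Subgroup T // (H ≤ E.1 ∧ Nat.card H = p) ∧ H = Z} :=
        { default := ⟨Z, ⟨hEZ, hZ⟩, rfl⟩
          uniq := fun H => Subtype.ext H.2.2 }
      exact Nat.card_unique
    have h4 : Nat.card {H : Subgroup T // H ≤ E.1 ∧ Nat.card H = p} = p + 1 := by
      have h5 := cnt_coe E.1 p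
      rw [cnt] at h5
      have h6 : ¬ IsCyclic E.1 := by
        intro hcy
        obtain ⟨g, hg⟩ := IsCyclic.exists_generator (α := E.1)
        have h7 : orderOf g = Nat.card E.1 := orderOf_eq_card_of_forall_mem_zpowers hg
        have h8 : g ^ p = 1 := Subtype.ext (E.2.2.2 _ g.2)
        have h9 := orderOf_dvd_of_pow_eq_one h8
        rw [h7, E.2.2.1] at h9
        have := Nat.le_of_dvd hpp.pos h9
        have h10 := hpp.two_le
        nlinarith
      have h7 := Cfsg.Agent.Lib.MaxClass.card_subgroups_order_p (p := p) E.1 E.2.2.1 h6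
      rw [h7] at h5
      exact h5.symm
    omega
  haveI : Fintype 𝒰 := Fintype.ofFinite _
  have htotal : Nat.card 𝒮 = Nat.card 𝒰 * p := by
    rw [← Nat.card_congr (Equiv.sigmaFiberEquiv φ), Nat.card_sigma,
      Finset.sum_congr rfl (fun S _ => hfib S), Finset.sum_const, smul_eq_mul,
      Finset.card_univ, Nat.card_eq_fintype_card (α := 𝒰)]
  have hk := kulakoff_odd hp2 m T hm hnc 1 le_rfl hm2
  rw [pow_one] at hk
  have hsplit := card_split (α := Subgroup T) (fun H => Nat.card H = p) (fun H => H = Z)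
  have h3 : Nat.card {H : Subgroup T // Nat.card H = p ∧ H = Z} = 1 := by
    have : Unique {H : Subgroup T // Nat.card H = p ∧ H = Z} :=
      { default := ⟨Z, hZ, rfl⟩
        uniq := fun H => Subtype.ext H.2.2 }
    exact Nat.card_unique
  have hcnt : cnt T p = 1 + Nat.card 𝒰 * p := by
    rw [cnt, hsplit, h3, ← htotal]
  -- `|𝒰| ≡ 1 mod p`
  have hU : Nat.card 𝒰 ≡ 1 [MOD p] := by
    rw [hcnt] at hk
    have h1 : Nat.card 𝒰 * p ≡ p [MOD p ^ 2] := Nat.ModEq.add_left_cancel' 1 hk
    have h2 : Nat.card 𝒰 * p ≡ 1 * p [MOD p * p] := by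
      rw [one_mul, ← sq]
      exact h1
    exact Nat.ModEq.mul_right_cancel' hpp.ne_zero h2
  -- the conjugation action
  have hcj : ∀ (t : T) (E : 𝒰), Q (cj t E.1) := by
    intro t E
    refine ⟨?_, ?_, ?_⟩
    · rw [mem_cj]
      have h1 : t⁻¹ * z * t = z := by
        have := (Subgroup.mem_center_iff.mp hzc) t⁻¹
        rw [this]
        group
      rw [h1]
      exact E.2.1
    · rw [card_cj]
      exact E.2.2.1
    · intro e he
      rw [mem_cj] at he
      have := E.2.2.2 _ he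
      have h2 : (t⁻¹ * e * t) ^ p = t⁻¹ * e ^ p * t := by
        have := conj_pow (a := t⁻¹) (b := e) (i := p)
        simpa using this
      rw [h2] at this
      have h3 : e ^ p = t * (t⁻¹ * e ^ p * t) * t⁻¹ := by group
      rw [h3, this]
      group
  letI : MulAction T 𝒰 :=
    { smul := fun t H => ⟨cj t H.1, hcj t H⟩
      one_smul := fun H => Subtype.ext (cj_one H.1)
      mul_smul := fun s t H => Subtype.ext (cj_mul s t H.1) }
  have hfp := hT.card_modEq_card_fixedPoints 𝒰
  have hne : Nat.card (MulAction.fixedPoints T 𝒰) ≠ 0 := by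
    intro h0
    rw [h0] at hfp
    have h1 : 1 ≡ 0 [MOD p] := hU.symm.trans hfp
    have h2 : p ∣ 1 := (Nat.modEq_zero_iff_dvd).1 h1
    exact hpp.one_lt.ne' (Nat.dvd_one.1 h2)
  have hnonempty : Nonempty (MulAction.fixedPoints T 𝒰) := (Nat.card_ne_zero.1 hne).1
  obtain ⟨⟨E, hE⟩⟩ := hnonempty
  refine ⟨E.1, ?_, E.2.2.1, E.2.2.2⟩
  constructor
  intro x hx g
  have h1 : (g • E).1 = E.1 := congrArg Subtype.val (hE g)
  have h2 : g * x * g⁻¹ ∈ cj g E.1 := conj_mem_cj hx
  have h3 : cj g E.1 = E.1 := h1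
  rwa [h3] at h2

/-- From a normal subgroup of exponent `p`, not of order at most `p`, to a pair `(a, z)`. -/
theorem exists_pair_of_normal (hT : IsPGroup p T) (N : Subgroup T) (hNn : N.Normal) (hNc : Nat.card N = p ^ 2)
    (hNp : ∀ x ∈ N, x ^ p = 1) :
    ∃ a z : T, z ≠ 1 ∧ z ^ p = 1 ∧ a ^ p = 1 ∧ z ∈ center T ∧ (∀ i : ℕ, a ≠ (z ^ i)⁻¹) ∧
      ∀ g : T, ∃ s : ℕ, g * a * g⁻¹ = a * z ^ s := by
  classical
  have hpp : p.Prime := hp.out
  have hNbot : N ≠ ⊥ := by
    rintro rfl
    rw [Subgroup.card_bot] at hNc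
    have := Nat.one_lt_pow (n := 2) (by norm_num) hpp.one_lt
    omega
  obtain ⟨z, hzN, hz1, hzc⟩ := Cfsg.Agent.Lib.OddPGroup.exists_central_of_normal hT N hNn hNbot
  have hzp := hNp z hzN
  have hzo : orderOf z = p := orderOf_eq_prime hzp hz1
  set Z := zpowers z with hZdef
  have hZ : Nat.card Z = p := by rw [Nat.card_zpowers, hzo]
  have hcomm : ∀ a : T, ∀ b ∈ Z, a * b = b * a := by
    intro a b hb
    obtain ⟨n, rfl⟩ := Subgroup.mem_zpowers_iff.mp hb
    have h2 : Commute a z := (Subgroup.mem_center_iff.mp hzc) a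
    exact (h2.zpow_right n).eq
  haveI hZn : Z.Normal := by
    constructor
    intro n hn g
    rw [hcomm g n hn, mul_inv_cancel_right]
    exact hn
  let π := QuotientGroup.mk' Z
  have hπ : Function.Surjective π := QuotientGroup.mk'_surjective Z
  have hker : ∀ x, π x = 1 ↔ x ∈ Z := fun x => QuotientGroup.eq_one_iff x
  have hQp : IsPGroup p (T ⧸ Z) := hT.to_quotient Z
  have hNZ : ¬ N ≤ Z := by
    intro h
    have := Subgroup.card_le_of_le h
    rw [hNc, hZ] at this
    have h2 := hpp.two_le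
    nlinarith
  have hmap : N.map π ≠ ⊥ := by
    intro h
    apply hNZ
    intro x hx
    rw [← hker]
    have : π x ∈ N.map π := ⟨x, hx, rfl⟩
    rw [h, Subgroup.mem_bot] at this
    exact this
  obtain ⟨c, ⟨a, haN, rfl⟩, hc1, hcc⟩ := Cfsg.Agent.Lib.OddPGroup.exists_central_of_normal hQp (N.map π)
    (hNn.map π hπ) hmap
  refine ⟨a, z, hz1, hzp, hNp a haN, hzc, ?_, ?_⟩
  · intro i h
    apply hc1
    rw [hker, h]
    exact inv_mem (pow_mem (mem_zpowers z) i)
  · intro g
    have h1 : π (a⁻¹ * (g * a * g⁻¹)) = 1 := by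
      have h2 := (Subgroup.mem_center_iff.1 hcc) (π g)
      simp only [map_mul, map_inv]
      rw [h2]
      group
    rw [hker] at h1
    have hfin : IsOfFinOrder z := isOfFinOrder_of_finite z
    obtain ⟨k, hk⟩ : ∃ k : ℕ, z ^ k = a⁻¹ * (g * a * g⁻¹) := by
      have h3 : a⁻¹ * (g * a * g⁻¹) ∈ Submonoid.powers z := hfin.mem_powers_iff_mem_zpowers.2 h1
      exact (Submonoid.mem_powers_iff _ _).1 h3
    refine ⟨k, ?_⟩
    rw [hk]
    group

end Cfsg.Agent.Lib.SUrpH79
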