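import Mathlib
import Cfsg.Agent.Lib.SUrpG79
import Cfsg.Agent.Lib.SUrpH79
import Cfsg.Agent.Lib.UniqueSub
import Cfsg.Agent.Lib.NormalKlein

/-!
# Central extensions of `SU_n(q)` by `r`-groups, `r` not the characteristic

If `σ : Γ → SU_n(q)` is surjective with kernel a central `r`-group inside the derived group of `Γ`, `r` a prime
different from the characteristic, then `σ` is injective (all `n`, `q`).
-/

set_option autoImplicit false
set_option linter.unusedSectionVars false
set_option linter.unusedVariables false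
set_option linter.style.haveILetI false
set_option linter.unusedSimpArgs false

namespace Cfsg.Agent.Lib.SUSchurRp79

open Module Matrix Cfsg Cfsg.Agent.Lib.UnitaryBasic Cfsg.Agent.Lib.UnitarySU Cfsg.Agent.Lib.UnitaryConjGU
  Cfsg.Agent.Lib.SUGen Cfsg.Agent.Lib.SUrpA79 Cfsg.Agent.Lib.SUrpB79 Cfsg.Agent.Lib.HermCount
  Cfsg.Agent.Lib.SUrpC79 Cfsg.Agent.Lib.SUrpD79 Cfsg.Agent.Lib.SUrpE79 Cfsg.Agent.Lib.HermOrtho
  Cfsg.Agent.Lib.SUrpF79 Cfsg.Agent.Lib.SUrpG79 Cfsg.Agent.Lib.SUrpH79
open scoped commutatorElement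

universe u v

variable {F : Type v} [Field F] [Fintype F] {q n : ℕ}

lemma good_bot {Γ G : Type*} [Group Γ] [Group G] {σ : Γ →* G} {r : ℕ} (hc : Ctx σ r) :
    Good σ r (⊥ : Subgroup G) := by
  intro x hx hx1
  have h1 : ∀ y ∈ Ogen σ r (⊥ : Subgroup G), y = 1 := by
    intro y hy
    induction hy using Subgroup.closure_induction with
    | mem y hy =>
      exact ker_eq_one_of_pow hc (Subgroup.mem_bot.1 hy.1) hy.2 (pow_orderOf_eq_one y)
    | one => rfl
    | mul a b _ _ ha hb => rw [ha, hb, one_mul]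
    | inv a _ ha => rw [ha, inv_one]
  exact h1 x hx

lemma rgen_bot {G : Type*} [Group G] {r : ℕ} : RGen r (⊥ : Subgroup G) := by
  intro y hy
  rw [Subgroup.mem_bot.1 hy]
  exact one_mem _

/-- Involutions in `SU_2`. -/
lemma two_by_two {g : SU 2 F q} (h2 : (2 : F) ≠ 0) (h : g ^ 2 = 1) : mat g = 1 ∨ mat g = -1 := by
  have hd := det_mat g
  rw [Matrix.det_fin_two] at hd
  have hm : mat g * mat g = 1 := by
    rw [← mat_mul, ← sq, h, mat_one]
  have e00 := congrFun (congrFun hm 0) 0
  have e01 := congrFun (congrFun hm 0) 1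
  have e10 := congrFun (congrFun hm 1) 0
  have e11 := congrFun (congrFun hm 1) 1
  simp only [Matrix.mul_apply, Fin.sum_univ_two, Matrix.one_apply_eq, Matrix.one_apply_ne (zero_ne_one),
    Matrix.one_apply_ne (one_ne_zero)] at e00 e01 e10 e11
  set a := mat g 0 0
  set b := mat g 0 1
  set c := mat g 1 0
  set d := mat g 1 1
  have hs : a + d ≠ 0 := by
    intro h0
    have hda : d = -a := by linear_combination h0
    apply h2
    rw [hda] at hd
    linear_combination -e00 - hd
  have hb : b = 0 := by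
    have : b * (a + d) = 0 := by linear_combination e01
    exact (mul_eq_zero.1 this).resolve_right hs
  have hc : c = 0 := by
    have : c * (a + d) = 0 := by linear_combination e10
    exact (mul_eq_zero.1 this).resolve_right hs
  rw [hb, hc] at hd e00
  have hdd : d = a := by
    have h3 : a * a = 1 := by linear_combination e00
    have h4 : a * d = 1 := by linear_combination hd
    calc d = a * a * d := by rw [h3, one_mul]
      _ = a * (a * d) := by ring
      _ = a := by rw [h4, mul_one]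
  have h5 : (a - 1) * (a + 1) = 0 := by linear_combination e00
  rcases mul_eq_zero.1 h5 with h6 | h6
  · left
    have ha1 : a = 1 := by linear_combination h6
    ext i j
    fin_cases i <;> fin_cases j
    · simpa using ha1
    · simpa using hb
    · simpa using hc
    · simpa [ha1] using hdd.trans ha1
  · right
    have ha1 : a = -1 := by linear_combination h6
    ext i j
    fin_cases i <;> fin_cases j
    · simpa using ha1
    · simpa using hb
    · simpa using hc
    · simpa [ha1] using hdd.trans ha1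

lemma commute_of_mat_scalar {g b : SU n F q} (h : mat g = 1 ∨ mat g = -1) : Commute g b := by
  rw [Commute, SemiconjBy]
  apply mat_inj
  rw [mat_mul, mat_mul]
  rcases h with h | h <;> simp [h]

section thm

variable {Γ : Type u} [Group Γ] [Finite Γ] {σ : Γ →* SU n F q} {r p : ℕ}
  (hF : Fintype.card F = q ^ 2) [CharP F p] (hp : p.Prime) (hrp : r ≠ p) (hc : Ctx σ r)
  (hcomm : σ.ker ≤ commutator Γ) (hT : ∀ m < n, NoRPart.{u, v} r (SU m F q))

include hF hp hrp hc hcomm hT

/-- Applying a normal elementary abelian subgroup of order `r²` in `R`. -/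
theorem ker_bot_of_normal [hrf : Fact r.Prime] (R : Subgroup (SU n F q)) (hR : ¬ r ∣ R.index) (hRp : IsPGroup r R)
    (N : Subgroup R) (hNn : N.Normal) (hNc : Nat.card N = r ^ 2) (hNp : ∀ x ∈ N, x ^ r = 1) : σ.ker = ⊥ := by
  obtain ⟨a, z, hz1, hzr, har, hzc, hazp, hga⟩ := exists_pair_of_normal hRp N hNn hNc hNp
  refine ker_bot_of_pair hF hp hrp hc hcomm hT R hR (a := a.1) (z := z.1) ?_ ?_ ?_ ?_ ?_ ?_ ?_
  · exact fun h => hz1 (Subtype.ext h)
  · simpa using congrArg Subtype.val hzr
  · simpa using congrArg Subtype.val har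
  · have := (Subgroup.mem_center_iff.1 hzc) a
    have h2 := congrArg Subtype.val this
    rw [Commute, SemiconjBy]
    exact h2
  · intro i h
    apply hazp i
    apply Subtype.ext
    simpa using h
  · intro g hg
    have := (Subgroup.mem_center_iff.1 hzc) ⟨g, hg⟩
    have h2 := congrArg Subtype.val this
    rw [Commute, SemiconjBy]
    exact h2
  · intro g hg
    obtain ⟨s, hs⟩ := hga ⟨g, hg⟩
    refine ⟨s, ?_⟩
    simpa using congrArg Subtype.val hs

end thm

/-- The structure of a generalized quaternion group. -/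
theorem quat_structure {R : Type*} [Group R] {k : ℕ} (e : R ≃* QuaternionGroup (2 ^ k)) :
    ∃ (C : Subgroup R) (y A : R), C.Normal ∧ C ≤ Subgroup.zpowers A ∧ (∀ g, ∃ c ∈ C, ∃ i : ℕ, g = c * y ^ i) ∧
      ∀ c ∈ C, y * c * y⁻¹ = c⁻¹ := by
  classical
  let m := 2 ^ k
  haveI : NeZero (2 * m) := ⟨by positivity⟩
  let C₀ : Subgroup (QuaternionGroup m) :=
    { carrier := {w | ∃ i, w = QuaternionGroup.a i}
      one_mem' := ⟨0, rfl⟩
      mul_mem' := by
        rintro _ _ ⟨i, rfl⟩ ⟨j, rfl⟩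
        exact ⟨i + j, QuaternionGroup.a_mul_a i j⟩
      inv_mem' := by
        rintro _ ⟨i, rfl⟩
        exact ⟨-i, rfl⟩ }
  have hinva : ∀ i : ZMod (2 * m), (QuaternionGroup.a i : QuaternionGroup m)⁻¹ = QuaternionGroup.a (-i) := fun _ => rfl
  have hinvxa : ∀ i : ZMod (2 * m), (QuaternionGroup.xa i : QuaternionGroup m)⁻¹ = QuaternionGroup.xa ((m : ZMod (2 * m)) + i) :=
    fun _ => rfl
  have hC₀n : C₀.Normal := by
    constructor
    rintro _ ⟨i, rfl⟩ w
    rcases w with j | j
    · refine ⟨j + i - j, ?_⟩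
      simp [QuaternionGroup.a_mul_a, hinva, sub_eq_add_neg]
    · refine ⟨(m : ZMod (2 * m)) + (m + j) - (j + i), ?_⟩
      simp [QuaternionGroup.xa_mul_a, QuaternionGroup.xa_mul_xa, hinvxa]
  refine ⟨C₀.comap e.toMonoidHom, e.symm (QuaternionGroup.xa 0), e.symm (QuaternionGroup.a 1), ?_, ?_, ?_, ?_⟩
  · exact hC₀n.comap _
  · rintro g ⟨i, hi⟩
    have hi' : e g = QuaternionGroup.a i := hi
    refine Subgroup.mem_zpowers_iff.2 ⟨(i.val : ℤ), ?_⟩
    apply e.injective
    rw [zpow_natCast, map_pow, MulEquiv.apply_symm_apply, QuaternionGroup.a_one_pow, hi', ZMod.natCast_zmod_val]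
  · intro g
    rcases h : e g with i | i
    · refine ⟨g, ⟨i, h⟩, 0, by simp⟩
    · refine ⟨e.symm (QuaternionGroup.a (-i)), ⟨-i, ?_⟩, 1, ?_⟩
      · simp
      · apply e.injective
        simp [h, QuaternionGroup.a_mul_xa]
  · rintro c ⟨i, hi⟩
    have hi' : e c = QuaternionGroup.a i := hi
    apply e.injective
    rw [map_mul, map_mul, map_inv, map_inv, MulEquiv.apply_symm_apply, hi']
    have h2m : ((2 * m : ℕ) : ZMod (2 * m)) = 0 := ZMod.natCast_self _
    push_cast at h2m
    rw [hinvxa, hinva, QuaternionGroup.xa_mul_a, QuaternionGroup.xa_mul_xa]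
    congr 1
    linear_combination h2m

/-- The case `n = 2`, `r = 2`. -/
theorem ker_bot_two {Γ : Type u} [Group Γ] [Finite Γ] {σ : Γ →* SU 2 F q} {p : ℕ}
    (hF : Fintype.card F = q ^ 2) [CharP F p] (hp : p.Prime) (hrp : 2 ≠ p) (hc : Ctx σ 2)
    (hcomm : σ.ker ≤ commutator Γ) (hT : ∀ m < 2, NoRPart.{u, v} 2 (SU m F q)) : σ.ker = ⊥ := by
  classical
  haveI hf2 : Fact (Nat.Prime 2) := ⟨Nat.prime_two⟩
  have h2 : (2 : F) ≠ 0 := by
    have := cast_r_ne_zero (F := F) hp Nat.prime_two hrp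
    simpa using this
  obtain ⟨R, hR, hRp⟩ : ∃ R : Subgroup (SU 2 F q), ¬ 2 ∣ R.index ∧ IsPGroup 2 R := by
    obtain ⟨S⟩ : Nonempty (Sylow 2 (SU 2 F q)) := Sylow.nonempty
    exact ⟨S, S.not_dvd_index, S.isPGroup'⟩
  -- involutions of `SU_2`
  have hinv : ∀ x : R, x ^ 2 = 1 → x ≠ 1 → mat x.1 = -1 := by
    intro x hx hx1
    have h3 : (x.1) ^ 2 = 1 := by simpa using congrArg Subtype.val hx
    rcases two_by_two h2 h3 with h4 | h4
    · exact (hx1 (Subtype.ext (mat_inj h4))).elim
    · exact h4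
  have hpow : ∀ H : Subgroup R, Nat.card H = 2 → ∀ x ∈ H, x ^ 2 = 1 := by
    intro H hH x hx
    have := pow_card_eq_one' (x := (⟨x, hx⟩ : H))
    rw [hH] at this
    exact congrArg Subtype.val this
  have hsub : ∀ H K : Subgroup R, Nat.card H = 2 → Nat.card K = 2 → H ≤ K := by
    intro H K hH hK x hx
    rcases Subgroup.bot_or_exists_ne_one K with hb | ⟨t, htK, ht1⟩
    · rw [hb, Subgroup.card_bot] at hK
      omega
    · by_cases hx1 : x = 1
      · rw [hx1]
        exact one_mem _
      · have h1 := hinv x (hpow H hH x hx) hx1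
        have h3 := hinv t (hpow K hK t htK) ht1
        have : x = t := Subtype.ext (mat_inj (h1.trans h3.symm))
        rw [this]
        exact htK
  have huniq : ∀ H K : Subgroup R, Nat.card H = 2 → Nat.card K = 2 → H = K :=
    fun H K hH hK => le_antisymm (hsub H K hH hK) (hsub K H hK hH)
  rcases Cfsg.Agent.Lib.UniqueSub.main 2 hRp huniq with hcy | ⟨-, k, ⟨e⟩⟩
  · exact ker_bot_of_cyclic hF hp hrp hc hcomm hT R hR hcy
  obtain ⟨C, y, A, hCn, hCA, hgen, hCinv⟩ := quat_structure e
  let D : Subgroup (SU 2 F q) := C.map R.subtype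
  have hDR : D ≤ R := Subgroup.map_subtype_le C
  have hDA : D ≤ Subgroup.zpowers (A : SU 2 F q) := by
    rintro _ ⟨c, hc', rfl⟩
    obtain ⟨i, hi⟩ := Subgroup.mem_zpowers_iff.1 (hCA hc')
    refine Subgroup.mem_zpowers_iff.2 ⟨i, ?_⟩
    rw [← hi]
    simp
  obtain ⟨yt, hyt, hyty⟩ := exists_mem_Ogen hc (rgen_top hF hp Nat.prime_two hrp 2) (Subgroup.mem_top (y : SU 2 F q))
  have hTc : ∀ x₁ x₂ : Γ, σ x₁ ∈ D → σ x₂ ∈ D → Commute x₁ x₂ := by
    intro x₁ x₂ h₁ h₂
    exact SchurStem.comap_comm_of_zpowers σ hc.surj hc.cen (A : SU 2 F q) x₁ (hDA h₁) x₂ (hDA h₂)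
  refine ker_eq_bot_of_block hc hcomm R D ⊥ D hR hDR bot_le ?_ ?_ (good_bot hc) rgen_bot ?_ hTc yt ?_ ?_ ?_
  · rintro g hg _ ⟨c, hc', rfl⟩
    let g' : R := ⟨g, hg⟩
    have hmem := hCn.conj_mem c hc' g'
    refine ⟨_, hmem, ?_⟩
    simp [g']
  · intro g hg a ha
    rw [Subgroup.mem_bot] at ha ⊢
    rw [ha]
    group
  · intro a ha
    exact ⟨a, ha, 1, one_mem _, by simp⟩
  · rw [hyty]
    exact y.2
  · intro g hg
    obtain ⟨c, hc', i, hi⟩ := hgen ⟨g, hg⟩
    refine ⟨c, ⟨c, hc', rfl⟩, i, ?_⟩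
    rw [hyty]
    simpa using congrArg Subtype.val hi
  · rintro _ ⟨c, hc', rfl⟩ hcm
    rw [hyty, Subgroup.mem_bot] at hcm
    have hcc : c * c = 1 := by
      have h1 : ⁅c, y⁆ = 1 := Subtype.ext hcm
      rw [commutatorElement_def] at h1
      have h3 := hCinv c⁻¹ (inv_mem hc')
      rw [inv_inv] at h3
      calc c * c = c * (y * c⁻¹ * y⁻¹) := by rw [h3]
        _ = c * y * c⁻¹ * y⁻¹ := by group
        _ = 1 := h1
    have hscal : mat (c : SU 2 F q) = 1 ∨ mat (c : SU 2 F q) = -1 := by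
      apply two_by_two h2
      rw [sq]
      simpa using congrArg Subtype.val hcc
    obtain ⟨x, hx⟩ := hc.surj (c : SU 2 F q)
    refine ⟨x, 1, one_mem _, by simp [hx], ?_⟩
    intro x' hx'
    refine commute_Ogen hc ?_ yt hyt
    intro b _
    rw [hx', hx]
    exact commute_of_mat_scalar hscal

/-- `r = 2`, `n` odd: a central involution has nonzero fixed vectors. -/
lemma fix_ne_bot_of_odd {z : SU n F q} (h2 : (2 : F) ≠ 0) (hodd : Odd n) (hz : z ^ 2 = 1) : fixS z ≠ ⊥ := by
  intro h
  have hv : ∀ v : Fin n → F, act z v + v = 0 := by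
    intro v
    have h1 : act z v + v ∈ fixS z := by
      rw [mem_fixS, act_add, ← act_mul, ← sq, hz, act_one, add_comm]
    rwa [h, Submodule.mem_bot] at h1
  have hm : mat z = -1 := by
    apply Cfsg.Agent.Lib.UnitaryE.eq_of_mulVec_eq
    intro v
    have := hv v
    rw [act_eq_mat] at this
    rw [Matrix.neg_mulVec, Matrix.one_mulVec]
    exact eq_neg_of_add_eq_zero_left this
  have hd := det_mat z
  rw [hm, Matrix.det_neg, Matrix.det_one, mul_one, Fintype.card_fin, hodd.neg_one_pow] at hd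
  apply h2
  linear_combination -hd

/-- Elementary abelian subgroup of order `8` in `SU_n`, `n ≥ 4`. -/
theorem exists_E8 {p : ℕ} (hF : Fintype.card F = q ^ 2) (h2 : (2 : F) ≠ 0) (hn : 4 ≤ n) :
    ∃ E : Subgroup (SU n F q), Nat.card E = 8 ∧ ∀ e ∈ E, e ^ 2 = 1 := by
  classical
  have hodd : ∀ x : ℤˣ, (((x : ℤ) : F)) = 1 ∨ ((x : ℤ) : F) = -1 := by
    intro x
    rcases Int.units_eq_one_or x with rfl | rfl <;> simp
  have hne : (-1 : F) ≠ 1 := by
    intro h
    apply h2
    linear_combination -h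
  have hnrm : ∀ x : ℤˣ, nrm q (((x : ℤ) : F)) = 1 := by
    intro x
    rcases hodd x with h | h
    · rw [h]; exact nrm_one
    · rw [h]; exact nrm_neg_one hF
  let c : Fin n → ZMod 4 := fun i => ((min i.val 3 : ℕ) : ZMod 4)
  let u : ZMod 4 → Fin n := fun j => ⟨j.val, lt_of_lt_of_le (ZMod.val_lt j) hn⟩
  have hu : ∀ j, c (u j) = j := by
    intro j
    have h1 : j.val < 4 := ZMod.val_lt j
    have h3 : min j.val 3 = j.val := by omega
    simp only [c, u]
    rw [h3, ZMod.natCast_zmod_val]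
  have huniv : (Finset.univ : Finset (ZMod 4)) = {0, 1, 2, 3} := by decide
  let ι : ℤˣ →* F := (Int.castRingHom F).toMonoidHom.comp (Units.coeHom ℤ)
  have hι : ∀ x : ℤˣ, ι x = ((x : ℤ) : F) := fun x => rfl
  let tt : ℤˣ × ℤˣ × ℤˣ → ZMod 4 → F := fun g j =>
    if j = 0 then ι g.1 else if j = 1 then ι g.1 * ι g.2.1 else if j = 2 then ι g.2.1 * ι g.2.2 else ι g.2.2
  have hι2 : ∀ x : ℤˣ, ι x * ι x = 1 := by
    intro x
    rw [← map_mul, Int.units_mul_self, map_one]
  have htn : ∀ g j, nrm q (tt g j) = 1 := by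
    intro g j
    simp only [tt]
    split_ifs <;> simp only [nrm_mul', hι, hnrm, one_mul]
  have htp : ∀ g, ∏ j, tt g j = 1 := by
    intro g
    rw [huniv]
    have e1 : (1 : ZMod 4) ≠ 0 := by decide
    have e2 : (2 : ZMod 4) ≠ 0 := by decide
    have e3 : (3 : ZMod 4) ≠ 0 := by decide
    have e4 : (2 : ZMod 4) ≠ 1 := by decide
    have e5 : (3 : ZMod 4) ≠ 1 := by decide
    have e6 : (3 : ZMod 4) ≠ 2 := by decide
    rw [Finset.prod_insert (by decide), Finset.prod_insert (by decide), Finset.prod_insert (by decide),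
      Finset.prod_singleton]
    simp only [tt, if_true, e1, e2, e3, e4, e5, e6, if_false]
    calc ι g.1 * (ι g.1 * ι g.2.1 * (ι g.2.1 * ι g.2.2 * ι g.2.2))
        = (ι g.1 * ι g.1) * (ι g.2.1 * ι g.2.1) * (ι g.2.2 * ι g.2.2) := by ring
      _ = 1 := by rw [hι2, hι2, hι2]; ring
  let φ : ℤˣ × ℤˣ × ℤˣ →* SU n F q :=
    { toFun := fun g => tauEl hF hu (tt g) (htn g) (htp g)
      map_one' := by
        apply mat_inj
        rw [mat_one]
        change tauMat c u (tt 1) = 1
        rw [← tauMat_one c u]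
        congr 1
        funext j
        simp [tt, ι]
      map_mul' := fun g g' => by
        apply mat_inj
        rw [mat_mul]
        change tauMat c u (tt (g * g')) = tauMat c u (tt g) * tauMat c u (tt g')
        rw [tauMat_mul]
        congr 1
        funext j
        simp only [tt, Pi.mul_apply, Prod.fst_mul, Prod.snd_mul, map_mul]
        split_ifs <;> ring }
  have hφm : ∀ g, mat (φ g) = tauMat c u (tt g) := fun g => rfl
  have hφ : Function.Injective φ := by
    rw [injective_iff_map_eq_one]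
    intro g hg
    have h1 : ∀ j, tt g j = 1 := by
      intro j
      have h3 : mat (φ g) = 1 := by rw [hg, mat_one]
      rw [hφm] at h3
      have h4 := congrArg (dl c j) h3
      rw [dl_tauMat hu, ← tauMat_one c u, dl_tauMat hu] at h4
      exact h4
    have hx : ∀ x : ℤˣ, ι x = 1 → x = 1 := by
      intro x hx
      rcases Int.units_eq_one_or x with rfl | rfl
      · rfl
      · exfalso
        apply hne
        simpa [ι] using hx
    have h5 := h1 0
    have h6 := h1 1
    have h7 := h1 3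
    have e1 : (1 : ZMod 4) ≠ 0 := by decide
    have e3 : (3 : ZMod 4) ≠ 0 := by decide
    have e5 : (3 : ZMod 4) ≠ 1 := by decide
    have e6 : (3 : ZMod 4) ≠ 2 := by decide
    simp only [tt, if_true, e1, e3, e5, e6, if_false] at h5 h6 h7
    rw [h5, one_mul] at h6
    exact Prod.ext (hx _ h5) (Prod.ext (hx _ h6) (hx _ h7))
  refine ⟨φ.range, ?_, ?_⟩
  · have h1 : Nat.card φ.range = Nat.card (ℤˣ × ℤˣ × ℤˣ) :=
      (Nat.card_congr (MonoidHom.ofInjective hφ).toEquiv).symm
    rw [h1, Nat.card_eq_fintype_card]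
    simp [Fintype.card_prod, Fintype.card_units_int]
  · rintro _ ⟨g, rfl⟩
    rw [← map_pow]
    have : g ^ 2 = 1 := by
      apply Prod.ext
      · simp [sq, Int.units_mul_self]
      · apply Prod.ext <;> simp [sq, Int.units_mul_self]
    rw [this, map_one]

/-- **Main theorem.** -/
theorem ker_eq_bot_aux {p r : ℕ} (hF : Fintype.card F = q ^ 2) [CharP F p] (hp : p.Prime) (hr : r.Prime) (hrp : r ≠ p) :
    ∀ n : ℕ, NoRPart.{u, v} r (SU n F q) := by
  classical
  haveI hrf : Fact r.Prime := ⟨hr⟩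
  intro n
  induction n using Nat.strong_induction_on with
  | _ n ih =>
  intro Γ _ _ σ hs hcen hpg hcomm
  have hc : Ctx σ r := ⟨hs, hcen, hpg, hr⟩
  have hT : ∀ m < n, NoRPart.{u, v} r (SU m F q) := ih
  have hcyc : ∀ R : Subgroup (SU n F q), ¬ r ∣ R.index → IsCyclic R → σ.ker = ⊥ := fun R hR hcy =>
    ker_bot_of_cyclic hF hp hrp hc hcomm hT R hR hcy
  by_cases hr2 : r = 2
  · subst hr2
    have h2 : (2 : F) ≠ 0 := by
      have := cast_r_ne_zero (F := F) hp Nat.prime_two hrp
      simpa using this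
    by_cases hn2 : n = 2
    · subst hn2
      exact ker_bot_two hF hp hrp hc hcomm hT
    by_cases hodd : Odd n
    · obtain ⟨S, hR, hRp⟩ : ∃ R : Subgroup (SU n F q), ¬ 2 ∣ R.index ∧ IsPGroup 2 R := by
        obtain ⟨S⟩ : Nonempty (Sylow 2 (SU n F q)) := Sylow.nonempty
        exact ⟨S, S.not_dvd_index, S.isPGroup'⟩
      by_cases hcy : IsCyclic S
      · exact hcyc _ hR hcy
      have hnt : Nontrivial S := by
        by_contra hnt
        rw [not_nontrivial_iff_subsingleton] at hnt
        exact hcy inferInstance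
      have hcen' : Nontrivial (Subgroup.center S) := hRp.center_nontrivial
      have hdiv : 2 ∣ Nat.card (Subgroup.center S) := by
        obtain ⟨k, hk0, hk⟩ := (IsPGroup.nontrivial_iff_card (hRp.to_subgroup _)).mp hcen'
        rw [hk]
        exact dvd_pow_self 2 hk0.ne'
      obtain ⟨z₀, hz₀⟩ := exists_prime_orderOf_dvd_card' 2 hdiv
      have hzo : orderOf ((z₀ : S) : SU n F q) = 2 := by
        rw [Subgroup.orderOf_coe, Subgroup.orderOf_coe]
        exact hz₀
      have hz2 : ((z₀ : S) : SU n F q) ^ 2 = 1 := by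
        have := pow_orderOf_eq_one ((z₀ : S) : SU n F q)
        rwa [hzo] at this
      have hz1 : ((z₀ : S) : SU n F q) ≠ 1 := by
        intro h
        rw [h, orderOf_one] at hzo
        omega
      refine ker_bot_of_central hF hp hrp hc hcomm hT S hR hz1 hz2 ?_
        (fix_ne_bot_of_odd h2 hodd hz2)
      intro g hg
      have := (Subgroup.mem_center_iff.1 z₀.2) ⟨g, hg⟩
      have h3 := congrArg Subtype.val this
      rw [Commute, SemiconjBy]
      exact h3
    · -- `n` even, `n ≠ 2`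
      by_cases hn0 : n = 0
      · subst hn0
        obtain ⟨S⟩ : Nonempty (Sylow 2 (SU 0 F q)) := Sylow.nonempty
        have hsub : Subsingleton (SU 0 F q) := by
          constructor
          intro a b
          apply mat_inj
          ext i
          exact i.elim0
        have : IsCyclic (S : Subgroup (SU 0 F q)) := inferInstance
        exact hcyc _ S.not_dvd_index this
      have hn4 : 4 ≤ n := by
        rw [Nat.not_odd_iff_even] at hodd
        obtain ⟨k, hk⟩ := hodd
        omega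
      obtain ⟨E, hE8, hE2⟩ := exists_E8 (p := p) hF h2 hn4
      have hEp : IsPGroup 2 E := by
        intro x
        exact ⟨1, by simpa using Subtype.ext (hE2 x.1 x.2)⟩
      obtain ⟨Q, hQ⟩ := hEp.exists_le_sylow
      have hQp : IsPGroup 2 (Q : Subgroup (SU n F q)) := Q.isPGroup'
      let E' : Subgroup (Q : Subgroup (SU n F q)) := E.subgroupOf Q
      have hE'c : Nat.card E' = 8 := by
        rw [← hE8]
        exact Nat.card_congr (Subgroup.subgroupOfEquivOfLe hQ).toEquiv
      have hE'2 : ∀ e ∈ E', e ^ 2 = 1 := by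
        intro e he
        apply Subtype.ext
        simpa using hE2 e.1 he
      obtain ⟨A, hAn, hAc, hA2⟩ := Cfsg.Agent.Lib.NormalKlein.exists_normal_klein hQp E' hE'c hE'2
      exact ker_bot_of_normal hF hp hrp hc hcomm hT (Q : Subgroup (SU n F q)) Q.not_dvd_index hQp A hAn
        (by rw [hAc]; norm_num) hA2
  · obtain ⟨S, hR, hRp⟩ : ∃ R : Subgroup (SU n F q), ¬ r ∣ R.index ∧ IsPGroup r R := by
      obtain ⟨S⟩ : Nonempty (Sylow r (SU n F q)) := Sylow.nonempty
      exact ⟨S, S.not_dvd_index, S.isPGroup'⟩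
    by_cases hcy : IsCyclic S
    · exact hcyc _ hR hcy
    obtain ⟨N, hNn, hNc, hNp⟩ := exists_normal_sq hr2 hRp hcy
    exact ker_bot_of_normal hF hp hrp hc hcomm hT _ hR hRp N hNn hNc hNp

/-- **Central extensions of `SU_n(q)` by `r`-groups inside the derived group are trivial**, `r` a prime different
from the characteristic `p` of `F`, `|F| = q²`. All `n` and `q`. -/
theorem ker_eq_bot {Γ : Type u} [Group Γ] [Finite Γ] {p r : ℕ} (hF : Fintype.card F = q ^ 2) [CharP F p] (hp : p.Prime)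
    (hr : r.Prime) (hrp : r ≠ p) (σ : Γ →* SU n F q) (hs : Function.Surjective σ)
    (hcen : σ.ker ≤ Subgroup.center Γ) (hpg : IsPGroup r σ.ker) (hcomm : σ.ker ≤ commutator Γ) : σ.ker = ⊥ :=
  ker_eq_bot_aux hF hp hr hrp n Γ σ hs hcen hpg hcomm

end Cfsg.Agent.Lib.SUSchurRp79
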