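import Mathlib
import Cfsg.Prelude.Def_SporCoxeter

/-!
# Auxiliary presentations for Schur multipliers of the Fischer groups

Sub-diagrams of the Fischer Coxeter graph, where the spider word is only asked to be central.
-/

set_option autoImplicit false

namespace Cfsg.Agent.Lib.SchurDefs

namespace Y224c

/-- The generators. -/
inductive Gen
  | b
  | c
  | d
  | e
  | f
  | g
  | j
  | h
  | i
  deriving DecidableEq

/-- A letter. -/ abbrev b : FreeGroup Gen := FreeGroup.of Gen.b
/-- A letter. -/ abbrev c : FreeGroup Gen := FreeGroup.of Gen.c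
/-- A letter. -/ abbrev d : FreeGroup Gen := FreeGroup.of Gen.d
/-- A letter. -/ abbrev e : FreeGroup Gen := FreeGroup.of Gen.e
/-- A letter. -/ abbrev f : FreeGroup Gen := FreeGroup.of Gen.f
/-- A letter. -/ abbrev g : FreeGroup Gen := FreeGroup.of Gen.g
/-- A letter. -/ abbrev j : FreeGroup Gen := FreeGroup.of Gen.j
/-- A letter. -/ abbrev h : FreeGroup Gen := FreeGroup.of Gen.h
/-- A letter. -/ abbrev i : FreeGroup Gen := FreeGroup.of Gen.i

/-- The Coxeter graph. -/
def edges : List (Gen × ℕ × Gen) := [(.b, 3, .c), (.c, 3, .d), (.d, 3, .e), (.d, 3, .h), (.e, 3, .f), (.f, 3, .g), (.g, 3, .j), (.h, 3, .i)]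

/-- The spider word. -/
noncomputable def spider : FreeGroup Gen := (d * c * b * d * e * f * d * h * i) ^ 10

/-- The spider word is central. -/
noncomputable def extra : List (FreeGroup Gen) := [
  spider * b * spider⁻¹ * b,
  spider * c * spider⁻¹ * c,
  spider * d * spider⁻¹ * d,
  spider * e * spider⁻¹ * e,
  spider * f * spider⁻¹ * f,
  spider * g * spider⁻¹ * g,
  spider * j * spider⁻¹ * j,
  spider * h * spider⁻¹ * h,
  spider * i * spider⁻¹ * i]

end Y224c

namespace Y222c

/-- The generators. -/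
inductive Gen
  | b
  | c
  | d
  | e
  | f
  | h
  | i
  deriving DecidableEq

/-- A letter. -/ abbrev b : FreeGroup Gen := FreeGroup.of Gen.b
/-- A letter. -/ abbrev c : FreeGroup Gen := FreeGroup.of Gen.c
/-- A letter. -/ abbrev d : FreeGroup Gen := FreeGroup.of Gen.d
/-- A letter. -/ abbrev e : FreeGroup Gen := FreeGroup.of Gen.e
/-- A letter. -/ abbrev f : FreeGroup Gen := FreeGroup.of Gen.f
/-- A letter. -/ abbrev h : FreeGroup Gen := FreeGroup.of Gen.h
/-- A letter. -/ abbrev i : FreeGroup Gen := FreeGroup.of Gen.i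

/-- The Coxeter graph. -/
def edges : List (Gen × ℕ × Gen) := [(.b, 3, .c), (.c, 3, .d), (.d, 3, .e), (.d, 3, .h), (.e, 3, .f), (.h, 3, .i)]

/-- The spider word. -/
noncomputable def spider : FreeGroup Gen := (d * c * b * d * e * f * d * h * i) ^ 10

/-- The spider word is central. -/
noncomputable def extra : List (FreeGroup Gen) := [
  spider * b * spider⁻¹ * b,
  spider * c * spider⁻¹ * c,
  spider * d * spider⁻¹ * d,
  spider * e * spider⁻¹ * e,
  spider * f * spider⁻¹ * f,
  spider * h * spider⁻¹ * h,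
  spider * i * spider⁻¹ * i]

end Y222c

namespace E8c

/-- The generators. -/
inductive Gen
  | c
  | d
  | e
  | f
  | g
  | j
  | h
  | i
  deriving DecidableEq

/-- A letter. -/ abbrev c : FreeGroup Gen := FreeGroup.of Gen.c
/-- A letter. -/ abbrev d : FreeGroup Gen := FreeGroup.of Gen.d
/-- A letter. -/ abbrev e : FreeGroup Gen := FreeGroup.of Gen.e
/-- A letter. -/ abbrev f : FreeGroup Gen := FreeGroup.of Gen.f
/-- A letter. -/ abbrev g : FreeGroup Gen := FreeGroup.of Gen.g
/-- A letter. -/ abbrev j : FreeGroup Gen := FreeGroup.of Gen.j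
/-- A letter. -/ abbrev h : FreeGroup Gen := FreeGroup.of Gen.h
/-- A letter. -/ abbrev i : FreeGroup Gen := FreeGroup.of Gen.i

/-- The Coxeter graph. -/
def edges : List (Gen × ℕ × Gen) := [(.c, 3, .d), (.d, 3, .e), (.d, 3, .h), (.e, 3, .f), (.f, 3, .g), (.g, 3, .j), (.h, 3, .i)]

/-- No further relators. -/
noncomputable def extra : List (FreeGroup Gen) := []

end E8c

namespace E7c

/-- The generators. -/
inductive Gen
  | c
  | d
  | e
  | f
  | g
  | h
  | i
  deriving DecidableEq

/-- A letter. -/ abbrev c : FreeGroup Gen := FreeGroup.of Gen.c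
/-- A letter. -/ abbrev d : FreeGroup Gen := FreeGroup.of Gen.d
/-- A letter. -/ abbrev e : FreeGroup Gen := FreeGroup.of Gen.e
/-- A letter. -/ abbrev f : FreeGroup Gen := FreeGroup.of Gen.f
/-- A letter. -/ abbrev g : FreeGroup Gen := FreeGroup.of Gen.g
/-- A letter. -/ abbrev h : FreeGroup Gen := FreeGroup.of Gen.h
/-- A letter. -/ abbrev i : FreeGroup Gen := FreeGroup.of Gen.i

/-- The Coxeter graph. -/
def edges : List (Gen × ℕ × Gen) := [(.c, 3, .d), (.d, 3, .e), (.d, 3, .h), (.e, 3, .f), (.f, 3, .g), (.h, 3, .i)]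

/-- No further relators. -/
noncomputable def extra : List (FreeGroup Gen) := []

end E7c

end Cfsg.Agent.Lib.SchurDefs
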