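import Mathlib
import Cfsg.Prelude.Def_SporCoxeter

/-!
# Further sub-diagrams of the Fischer Coxeter graph
-/

set_option autoImplicit false

namespace Cfsg.Agent.Lib.SchurDefs2

namespace D5c

/-- The generators. -/
inductive Gen
  | c
  | d
  | e
  | f
  | h
  deriving DecidableEq

/-- A letter. -/ abbrev c : FreeGroup Gen := FreeGroup.of Gen.c
/-- A letter. -/ abbrev d : FreeGroup Gen := FreeGroup.of Gen.d
/-- A letter. -/ abbrev e : FreeGroup Gen := FreeGroup.of Gen.e
/-- A letter. -/ abbrev f : FreeGroup Gen := FreeGroup.of Gen.f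
/-- A letter. -/ abbrev h : FreeGroup Gen := FreeGroup.of Gen.h

/-- The Coxeter graph. -/
def edges : List (Gen × ℕ × Gen) := [(.c, 3, .d), (.d, 3, .e), (.d, 3, .h), (.e, 3, .f)]

/-- No further relators. -/
noncomputable def extra : List (FreeGroup Gen) := []

end D5c

namespace A4c

/-- The generators. -/
inductive Gen
  | c
  | d
  | e
  | f
  deriving DecidableEq

/-- A letter. -/ abbrev c : FreeGroup Gen := FreeGroup.of Gen.c
/-- A letter. -/ abbrev d : FreeGroup Gen := FreeGroup.of Gen.d
/-- A letter. -/ abbrev e : FreeGroup Gen := FreeGroup.of Gen.e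
/-- A letter. -/ abbrev f : FreeGroup Gen := FreeGroup.of Gen.f

/-- The Coxeter graph. -/
def edges : List (Gen × ℕ × Gen) := [(.c, 3, .d), (.d, 3, .e), (.e, 3, .f)]

/-- No further relators. -/
noncomputable def extra : List (FreeGroup Gen) := []

end A4c

end Cfsg.Agent.Lib.SchurDefs2
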