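import Mathlib
import Cfsg.Prelude.Def_Spor_Fi22

/-!
# The presentation of the triple cover of `Fi₂₂`

The relators of the Fischer group `Fi₂₂`, where the spider word is only asked to be central, of order dividing three.
-/

set_option autoImplicit false

namespace Cfsg.Agent.Lib.SchurDefs3

open Cfsg.Spor Cfsg.Spor.Fi22

/-- The spider word. -/
noncomputable def spider : FreeGroup Gen := (d * c * b * d * e * f * d * h * i) ^ 10

/-- The further relators. -/
noncomputable def extra3 : List (FreeGroup Gen) := [
  (a * b * c * d * e * f * h) ^ 9,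
  (b * c * d * e * f * g * h) ^ 9,
  spider * a * spider⁻¹ * a,
  spider * b * spider⁻¹ * b,
  spider * c * spider⁻¹ * c,
  spider * d * spider⁻¹ * d,
  spider * e * spider⁻¹ * e,
  spider * f * spider⁻¹ * f,
  spider * g * spider⁻¹ * g,
  spider * h * spider⁻¹ * h,
  spider * i * spider⁻¹ * i,
  spider ^ 3]

/-- The relators. -/
abbrev R3 : Set (FreeGroup Gen) := coxRelators edges ∪ {r | r ∈ extra3}

end Cfsg.Agent.Lib.SchurDefs3
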