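import Mathlib
import Cfsg.Agent.Lib.SchurBasic

/-!
Stem extensions of dihedral groups.
-/

set_option autoImplicit false

namespace Cfsg.Agent.Lib.SchurDih

open Cfsg.Agent.Lib.SchurBasic

universe u

theorem dih_struct {n : ℕ} [NeZero n] {Γ : Type u} [Group Γ] (σ : Γ →* DihedralGroup n)
    (hσ : Cfsg.IsStemExtension σ) (a x : Γ) (ha : σ a = DihedralGroup.r 1) (hx : σ x = DihedralGroup.sr 0)
    (k₁ : Γ) (hk₁ : k₁ ∈ σ.ker) (hrel : x * a * x⁻¹ = a⁻¹ * k₁) :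
    σ.ker ≤ Subgroup.zpowers (a * a * k₁⁻¹) ∧ ∀ k ∈ σ.ker, k * k = 1 := by
  obtain ⟨hsurj, hcen, hcomm⟩ := hσ
  have hgen : ∀ g : Γ, ∃ (e i : ℕ) (k : Γ), k ∈ σ.ker ∧ g = x ^ e * a ^ i * k := by
    intro g
    rcases hσg : σ g with i | i
    · refine ⟨0, ZMod.val i, (a ^ ZMod.val i)⁻¹ * g, ?_, by group⟩
      rw [MonoidHom.mem_ker, map_mul, map_inv, map_pow, ha, DihedralGroup.r_one_pow, hσg,
        ZMod.natCast_zmod_val, inv_mul_cancel]
    · refine ⟨1, ZMod.val i, (x * a ^ ZMod.val i)⁻¹ * g, ?_, by group⟩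
      rw [MonoidHom.mem_ker, map_mul, map_inv, map_mul, map_pow, ha, hx, DihedralGroup.r_one_pow, hσg,
        ZMod.natCast_zmod_val, DihedralGroup.sr_mul_r, zero_add, inv_mul_cancel]
  obtain ⟨hle, hxu⟩ := commutator_le_zpowers σ.ker hcen a x k₁ hk₁ hrel hgen
  have hKu : σ.ker ≤ Subgroup.zpowers (a * a * k₁⁻¹) := hcomm.trans hle
  exact ⟨hKu, sq_eq_one_of_inverted σ.ker hcen _ x hxu hKu⟩

theorem dih_k₁ {n : ℕ} {Γ : Type u} [Group Γ] (σ : Γ →* DihedralGroup n)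
    (a x : Γ) (ha : σ a = DihedralGroup.r 1) (hx : σ x = DihedralGroup.sr 0) :
    a * x * a * x⁻¹ ∈ σ.ker ∧ x * a * x⁻¹ = a⁻¹ * (a * x * a * x⁻¹) := by
  constructor
  · rw [MonoidHom.mem_ker]
    simp only [map_mul, map_inv, ha, hx, DihedralGroup.inv_sr]
    simp only [DihedralGroup.r_mul_sr, DihedralGroup.sr_mul_r, DihedralGroup.sr_mul_sr]
    rw [DihedralGroup.one_def]
    congr 1
    ring
  · group

end Cfsg.Agent.Lib.SchurDih
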