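import Mathlib
import Cfsg.Agent.TcChain36.U62.Class
import Cfsg.Agent.TcChain36.Fi22.E6.Step
import Cfsg.Agent.TcData.SD5c.I16.Up
import Cfsg.Agent.TcData.SA4c.I120.Up
import Cfsg.Agent.TcData.SY222c.I729.Rep
import Cfsg.Agent.Lib.SchurFisLev

/-!
# The Schur multiplier of `Fi₂₂` is a quotient of the cyclic group of order `6`

In a stem extension, the letters have involutive lifts satisfying the Coxeter relations and the first relator `t`. The second relator `t` has square one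
by a rewriting certificate, and the cube of the spider word lies in the subgroup generated by the lifts of the letters of `E₆`, which meets the kernel trivially by
descending the chain `E₆ > D₅ > A₄ > 1`.
-/

set_option autoImplicit false
set_option maxRecDepth 100000
set_option linter.all false

namespace Cfsg.Agent.Lib.SchurFi22

open Subgroup Cfsg.Spor Cfsg.Spor.Fi22 Cfsg.Agent.Lib.SchurCox Cfsg.Agent.Lib.SchurFisLev
open Cfsg.Agent.Lib.TcBits Cfsg.Agent.Lib.TcFacts Cfsg.Agent.Lib.TcPres Cfsg.Agent.Lib.ClassD36 Cfsg.Agent.Lib.PresChain36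
open Cfsg.Agent.TcData.Fi22 (RR)
open Cfsg.Agent.TcData.Fi22.I3510 (pr hR hv Phi)
open Cfsg.Agent.TcChain36.U62 (aa HH22 G22 RT)
open scoped commutatorElement

abbrev GG := PresentedGroup RR

/-- If the relators hold modulo a central subgroup `N` for lifts of the letters, then the kernel lies in `N`. -/
theorem ker_le_of_section {α E : Type*} [Group E] {R : Set (FreeGroup α)} {σ : E →* PresentedGroup R}
    (hK : σ.ker ≤ center E) (hC : σ.ker ≤ commutator E) (N : Subgroup E) (hNK : N ≤ σ.ker) {xt : α → E}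
    (hrel : ∀ r ∈ R, FreeGroup.lift xt r ∈ N) (hσ : ∀ x, σ (xt x) = PresentedGroup.of x) : σ.ker ≤ N := by
  haveI hNn : N.Normal := by
    refine ⟨fun n hn g => ?_⟩
    have h1 := central_of_ker hK (MonoidHom.mem_ker.mp (hNK hn)) g
    rw [← h1, mul_inv_cancel_right]
    exact hn
  let Q := E ⧸ N
  let σ' : Q →* PresentedGroup R := QuotientGroup.lift N σ (fun x hx => hNK hx)
  have hσ' : ∀ x : E, σ' (x : Q) = σ x := fun x => rfl
  let f : α → Q := fun x => (xt x : Q)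
  have hlift : ∀ w, FreeGroup.lift f w = ((FreeGroup.lift xt w : E) : Q) := by
    intro w
    have : FreeGroup.lift f = (QuotientGroup.mk' N).comp (FreeGroup.lift xt) := by
      ext x
      simp [f]
    rw [this]
    rfl
  have hf : ∀ r ∈ R, FreeGroup.lift f r = 1 := by
    intro r hr
    rw [hlift, QuotientGroup.eq_one_iff]
    exact hrel r hr
  have hK' : σ'.ker ≤ center Q := by
    intro q hq
    obtain ⟨x, rfl⟩ := QuotientGroup.mk_surjective q
    have h1 : x ∈ σ.ker := hq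
    rw [mem_center_iff]
    intro q'
    obtain ⟨y, rfl⟩ := QuotientGroup.mk_surjective q'
    have h2 := central_of_ker hK (MonoidHom.mem_ker.mp h1) y
    show ((y * x : E) : Q) = ((x * y : E) : Q)
    rw [h2]
  have hC' : σ'.ker ≤ commutator Q := by
    intro q hq
    obtain ⟨x, rfl⟩ := QuotientGroup.mk_surjective q
    have h1 : x ∈ σ.ker := hq
    have h2 : commutator E ≤ (commutator Q).comap (QuotientGroup.mk' N) := by
      rw [_root_.commutator_def, commutator_le]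
      intro a _ b _
      show (QuotientGroup.mk' N) ⁅a, b⁆ ∈ commutator Q
      rw [map_commutatorElement, _root_.commutator_def]
      exact commutator_mem_commutator trivial trivial
    exact h2 (hC h1)
  have hsec := ker_eq_bot_of_section hK' hC' (PresentedGroup.toGroup hf) (by
    intro g
    have e : σ'.comp (PresentedGroup.toGroup hf) = MonoidHom.id _ := by
      apply PresentedGroup.ext
      intro x
      simp [f, hσ', hσ]
    exact DFunLike.congr_fun e g)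
  intro x hx
  have h1 : (x : Q) ∈ σ'.ker := hx
  rw [hsec, Subgroup.mem_bot, QuotientGroup.eq_one_iff] at h1
  exact h1

/-- A word. -/
def wdT : List Gen := [.a, .b, .c, .d, .e, .f, .h]

/-- A rewriting certificate. -/
def msT : List ℕ := [78, 81, 84, 87, 90, 94, 99, 102, 105, 108, 112, 117, 99, 102, 105, 75, 78, 81, 84, 88, 93, 96, 99, 60, 63, 66, 70, 75, 78, 82, 87, 90, 93, 15, 18, 21, 24, 27, 31, 36, 39, 42, 45, 49, 54, 57, 60, 64, 69, 72, 76, 81, 84, 87, 12, 15, 18, 21, 25, 30, 12, 15, 18, 9, 12, 6, 1, 7, 13, 19, 24, 27, 31, 36, 39, 43, 48, 51, 54, 58, 63, 66, 70, 75, 78, 81, 84, 88, 94, 100, 106, 111, 114, 118, 123, 126, 130, 135, 138, 141, 144, 148, 153, 156, 159, 162, 166, 171, 174, 177, 180, 183, 188, 84, 87, 90, 93, 96, 99, 102, 105, 109, 81, 84, 87, 90, 78, 81, 73, 78, 82, 87, 91, 96, 99, 103, 108, 112, 117, 120, 123, 126, 130, 135, 117, 120, 123, 114, 117, 96, 66, 69, 72, 75, 63, 60, 64, 69, 72, 76, 81, 84,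 87, 91, 97, 102, 105, 108, 111, 84, 87, 90, 81, 27, 30, 33, 36, 39, 42, 46, 51, 54, 57, 22, 27, 30, 33, 36, 40, 45, 48, 51, 54, 58, 63, 66, 69, 72, 76, 82, 87, 91, 96, 99, 102, 105, 69, 72, 75, 78, 81, 84, 66, 69, 72, 63, 27, 30, 33, 24, 27, 15, 18, 21, 9, 12, 15, 3, 6, 9, 12, 16, 22, 28, 34, 39, 42, 45, 48, 51, 54, 58, 64, 69, 73, 78, 81, 85, 90, 93, 96, 99, 102, 106, 112, 118, 124, 129, 132, 136, 141, 144, 148, 153, 156, 159, 162, 166, 171, 174, 177, 180, 185, 97, 102, 105, 108, 111, 114, 117, 120, 123, 127, 99, 102, 105, 108, 93, 96, 99, 90, 87, 91, 96, 100, 105, 109, 114, 117, 121, 126, 130, 135, 138, 141, 144, 148, 153, 135, 138, 141, 132, 135, 114, 81, 84, 87, 90, 93, 78, 81, 75, 78, 82, 87, 90, 94, 99, 102, 105, 109, 115, 120, 123, 126, 129, 102, 105, 108, 99, 69, 72, 42, 45, 48, 39, 42, 45, 49, 54, 57, 60, 63, 66, 69, 73, 63, 66, 36, 39, 42, 45, 49, 54, 57, 60, 63, 67, 72, 76, 81, 84, 87, 90, 94, 100, 105, 109,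 114, 117, 120, 123, 87, 90, 93, 96, 99, 102, 84, 87, 90, 81, 54, 57, 60, 30, 33, 24, 27, 18, 21, 24, 28, 34, 39, 42, 45, 49, 54, 57, 61, 66, 69, 72, 76, 82, 87, 91, 96, 99, 103, 108, 111, 114, 117, 120, 124, 130, 136, 142, 147, 150, 154, 159, 162, 166, 171, 174, 177, 182, 115, 120, 123, 126, 129, 132, 135, 138, 141, 145, 117, 120, 123, 126, 111, 114, 117, 108, 105, 109, 114, 118, 123, 127, 132, 135, 139, 144, 148, 153, 156, 159, 162, 166, 171, 153, 156, 159, 150, 153, 132, 99, 102, 105, 108, 111, 96, 99, 93, 96, 100, 105, 108, 112, 117, 120, 123, 127, 133, 138, 141, 144, 147, 120, 123, 126, 117, 87, 90, 67, 72, 75, 78, 81, 84, 87, 91, 81, 84, 63, 67, 72, 75, 78, 81, 85, 90, 94, 99, 102, 105, 108, 112, 118, 123, 127, 132, 135, 138, 141, 105, 108, 111, 114, 117, 120, 102, 105, 108, 99, 72, 75, 78, 30, 34, 39, 42, 45, 49, 54, 57, 60, 63, 67, 72, 75, 79, 84, 87, 90, 94, 100, 105, 109, 114, 117, 121, 126, 129, 132, 135, 138,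 142, 148, 154, 160, 165, 168, 172, 179, 133, 138, 141, 144, 147, 150, 153, 156, 159, 163, 135, 138, 141, 144, 129, 132, 135, 126, 123, 127, 132, 136, 141, 145, 150, 153, 157, 162, 166, 171, 176, 160, 165, 168, 173, 170, 132, 135, 129, 96, 36, 39, 42, 45, 49, 54, 57, 60, 63, 67, 72, 75, 33, 36, 39, 43, 48, 51, 54, 57, 61, 66, 69, 51, 54, 30, 33, 37, 42, 45, 48, 9, 12, 15, 19, 24, 27, 31, 36, 39, 42, 9, 12, 6, 1, 7, 13, 18, 21, 25, 30, 33, 36, 39, 43, 49, 55, 60, 63, 66, 70, 76, 81, 84, 87, 91, 97, 102, 105, 108, 112, 117, 120, 124, 130, 136, 141, 144, 147, 150, 153, 156, 159, 162, 167, 138, 141, 132, 135, 126, 129, 102, 105, 99, 93, 39, 42, 45, 48, 51, 54, 57, 61, 66, 69, 36, 39, 42, 45, 48, 51, 55, 60, 33, 36, 28, 33, 37, 42, 45, 49, 54, 57, 61, 66, 70, 75, 78, 81, 84, 87, 90, 94, 100, 106, 111, 114, 79, 84, 87, 90, 93, 96, 99, 75, 79, 84, 87, 90, 66, 69, 72, 75, 79, 69, 72, 63, 66, 42, 18, 21, 15, 18, 22, 27, 30, 33,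 37, 43, 48, 51, 54, 57, 60, 30, 33, 36, 27, 9, 3, 6, 10, 15, 18, 22, 28, 33, 37, 42, 45, 48, 51, 54, 57, 61, 67, 73, 78, 82, 87, 91, 96, 100, 105, 108, 111, 115, 120, 123, 126, 130, 136, 142, 147, 150, 153, 156, 159, 164, 144, 138, 108, 111, 114, 117, 120, 123, 105, 102, 106, 111, 96, 99, 93, 96, 100, 105, 108, 112, 117, 120, 124, 129, 132, 135, 139, 145, 150, 153, 147, 129, 132, 87, 90, 51, 46, 52, 57, 60, 63, 66, 69, 72, 75, 78, 81, 84, 87, 91, 81, 84, 54, 57, 60, 63, 48, 51, 54, 42, 45, 39, 42, 46, 51, 55, 60, 64, 69, 72, 75, 78, 81, 85, 90, 94, 99, 102, 105, 108, 112, 117, 120, 124, 129, 133, 138, 141, 105, 108, 111, 114, 117, 120, 123, 126, 100, 105, 108, 111, 114, 96, 100, 105, 108, 70, 75, 78, 81, 84, 87, 90, 93, 60, 63, 66, 70, 75, 63, 57, 33, 36, 39, 30, 33, 36, 40, 45, 48, 51, 54, 58, 64, 69, 72, 76, 81, 84, 87, 48, 51, 54, 57, 60, 63, 67, 45, 48, 24, 27, 12, 15, 18, 21, 24, 28, 33, 36, 40, 45, 49, 54, 57, 61,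 66, 70, 75, 78, 81, 84, 88, 94, 99, 102, 105, 109, 115, 120, 123, 127, 132, 135, 138, 142, 148, 154, 161, 158, 150, 155, 144, 147, 152, 135, 138, 79, 84, 87, 90, 93, 96, 100, 105, 108, 111, 114, 118, 123, 126, 130, 81, 84, 87, 90, 94, 99, 75, 72, 76, 81, 84, 88, 93, 96, 100, 105, 108, 112, 117, 120, 124, 129, 133, 139, 144, 149, 96, 99, 102, 105, 108, 111, 91, 96, 99, 102, 105, 87, 91, 96, 99, 84, 87, 91, 81, 84, 78, 45, 48, 51, 42, 12, 15, 19, 24, 27, 30, 33, 37, 43, 48, 52, 57, 60, 63, 66, 30, 33, 36, 39, 42, 45, 27, 30, 33, 24, 6, 9, 13, 18, 1, 7, 12, 15, 19, 25, 30, 34, 39, 42, 46, 51, 54, 57, 60, 63, 67, 73, 79, 85, 90, 94, 100, 106, 112, 117, 120, 123, 126, 129, 132, 135, 138, 141, 146, 114, 117, 120, 108, 111, 114, 102, 105, 108, 96, 99, 102, 58, 63, 66, 69, 72, 75, 78, 60, 63, 66, 69, 54, 57, 60, 51, 48, 52, 57, 61, 66, 70, 75, 79, 84, 87, 90, 93, 96, 99, 103, 109, 115, 121, 126, 129, 132, 135, 117, 121, 126, 129,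 111, 114, 117, 121, 85, 90, 93, 96, 99, 102, 75, 78, 81, 85, 90, 93, 78, 72, 42, 45, 48, 51, 54, 39, 42, 36, 39, 43, 48, 51, 55, 60, 63, 66, 69, 73, 79, 84, 87, 90, 94, 99, 103, 108, 111, 114, 63, 66, 69, 72, 75, 78, 82, 87, 60, 63, 30, 33, 15, 18, 21, 24, 27, 30, 34, 24, 27, 10, 15, 18, 21, 24, 28, 33, 37, 42, 45, 48, 51, 55, 60, 64, 69, 72, 76, 81, 84, 88, 93, 96, 99, 103, 108, 48, 51, 54, 57, 60, 63, 66, 69, 72, 75, 79, 45, 48, 51, 54, 42, 15, 18, 21, 3, 6, 10, 15, 18, 22, 27, 30, 33, 37, 43, 48, 51, 55, 60, 63, 66, 69, 73, 78, 82, 87, 90, 93, 96, 99, 103, 109, 115, 120, 124, 130, 136, 143, 140, 132, 137, 118, 123, 126, 129, 134, 93, 96, 99, 102, 105, 108, 111, 90, 63, 28, 33, 36, 39, 42, 46, 51, 54, 58, 64, 69, 72, 75, 78, 81, 85, 91, 96, 99, 24, 28, 33, 36, 40, 45, 48, 52, 57, 60, 64, 69, 72, 75, 79, 84, 87, 91, 96, 100, 105, 108, 112, 117, 120, 123, 126, 131, 120, 123, 128, 70, 75, 78, 81, 84, 87, 90, 66, 70, 75,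 78, 81, 84, 63, 66, 70, 75, 78, 60, 63, 66, 70, 57, 60, 63, 54, 57, 51, 18, 21, 24, 27, 30, 33, 36, 39, 42, 46, 52, 58, 64, 69, 73, 79, 85, 91, 96, 99, 102, 105, 108, 111, 114, 117, 93, 96, 87, 90, 81, 84, 75, 78, 81, 85, 91, 97, 102, 105, 108, 111, 99, 102, 105, 93, 67, 72, 75, 78, 60, 63, 67, 72, 75, 79, 84, 87, 90, 94, 99, 84, 87, 54, 57, 60, 63, 67, 72, 75, 79, 84, 88, 93, 42, 45, 48, 51, 39, 42, 45, 36, 39, 15, 18, 21, 24, 27, 31, 36, 40, 46, 52, 57, 60, 63, 66, 69, 72, 75, 78, 81, 54, 48, 27, 30, 33, 12, 15, 18, 22, 27, 30, 34, 39, 42, 45, 49, 55, 60, 63, 66, 69, 39, 42, 3, 7, 12, 16, 21, 24, 27, 30, 34, 39, 43, 48, 51, 55, 60, 63, 48, 1, 6, 10, 15, 18, 21, 24, 27, 30, 34, 39, 43, 49, 54, 57, 60, 64, 70, 75, 78, 82, 87, 90, 94, 100, 106, 112, 118, 125, 122, 114, 119, 108, 111, 116, 102, 105, 108, 113, 96, 99, 102, 105, 110, 90, 85, 91, 96, 99, 102, 107, 104, 101, 98, 95, 87, 92, 81, 84, 89, 86, 60, 63, 66, 69, 72,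 57, 60, 63, 66, 52, 57, 60, 48, 52, 45, 40, 46, 51, 55, 61, 67, 73, 78, 83, 75, 80, 69, 63, 66, 70, 77, 74, 57, 60, 63, 66, 71, 36, 39, 31, 36, 40, 45, 48, 51, 54, 57, 60, 63, 68, 46, 51, 54, 57, 60, 65, 57, 62, 52, 59, 56, 48, 53, 42, 45, 50, 39, 42, 47, 39, 44, 24, 27, 30, 33, 21, 24, 27, 18, 21, 6, 9, 13, 3, 7, 12, 16, 22, 28, 34, 41, 38, 30, 35, 24, 27, 32, 18, 21, 24, 29, 1, 6, 9, 12, 15, 18, 21, 26, 7, 12, 15, 18, 23, 20, 17, 14, 11, 3, 8, 0, 5, 2]

/-- A word. -/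
def wdT2 : List Gen := [.b, .c, .d, .e, .f, .g, .h]

/-- A rewriting certificate. -/
def msT2 : List ℕ := [78, 81, 84, 87, 90, 94, 99, 102, 105, 108, 112, 117, 120, 123, 126, 130, 135, 138, 120, 123, 75, 78, 81, 84, 88, 93, 96, 99, 102, 106, 111, 114, 117, 72, 75, 78, 82, 87, 90, 72, 75, 69, 64, 70, 76, 81, 84, 87, 91, 96, 100, 105, 108, 111, 72, 60, 63, 67, 73, 78, 81, 84, 15, 18, 21, 24, 27, 31, 36, 39, 42, 45, 49, 54, 57, 60, 12, 15, 18, 21, 25, 30, 33, 36, 39, 43, 48, 51, 9, 12, 15, 19, 24, 27, 9, 12, 6, 1, 7, 13, 18, 21, 24, 28, 33, 37, 42, 45, 48, 52, 57, 61, 66, 69, 73, 78, 81, 85, 90, 94, 99, 102, 105, 108, 112, 118, 124, 129, 132, 135, 139, 144, 148, 153, 156, 159, 162, 166, 171, 174, 177, 180, 183, 188, 81, 84, 87, 90, 93, 96, 99, 103, 108, 111, 114, 117, 120, 123, 127, 132, 78, 81, 84, 87, 90, 93, 97, 102, 105, 108, 75, 70, 76, 81, 84, 87, 91, 96, 99, 64, 69, 72, 76, 81, 85, 90, 93, 96, 100, 105, 109, 114, 117,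 121, 126, 129, 133, 138, 141, 144, 148, 153, 156, 138, 141, 135, 114, 78, 81, 75, 69, 57, 60, 63, 66, 70, 76, 82, 87, 90, 93, 66, 69, 54, 57, 61, 66, 70, 75, 78, 82, 87, 90, 94, 99, 102, 105, 109, 115, 120, 123, 126, 129, 102, 105, 108, 99, 24, 27, 30, 33, 36, 39, 43, 48, 21, 24, 27, 30, 33, 37, 42, 16, 21, 24, 27, 31, 36, 39, 43, 49, 54, 57, 60, 63, 51, 45, 21, 24, 18, 9, 12, 3, 6, 9, 13, 19, 25, 30, 33, 36, 39, 42, 46, 52, 57, 60, 64, 69, 72, 75, 78, 82, 87, 90, 94, 100, 105, 109, 114, 117, 120, 123, 126, 130, 136, 142, 147, 150, 153, 157, 162, 166, 171, 174, 177, 180, 185, 87, 90, 93, 96, 99, 102, 105, 108, 111, 114, 118, 84, 87, 81, 76, 82, 88, 93, 96, 99, 102, 105, 108, 112, 117, 121, 126, 129, 132, 135, 138, 141, 145, 150, 123, 126, 90, 84, 70, 75, 78, 81, 85, 91, 96, 99, 102, 106, 111, 114, 117, 75, 78, 66, 70, 75, 79, 84, 87, 91, 96, 100, 105, 108, 111, 114, 118, 123, 127, 132, 135, 139, 144, 147, 151, 156, 159,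 162, 166, 171, 174, 156, 159, 153, 132, 93, 96, 90, 84, 60, 57, 61, 66, 69, 72, 75, 78, 81, 85, 91, 97, 102, 105, 108, 111, 81, 84, 54, 57, 61, 66, 69, 72, 76, 81, 85, 90, 93, 97, 102, 105, 108, 112, 117, 120, 123, 127, 133, 138, 141, 144, 147, 120, 123, 126, 117, 69, 72, 75, 78, 66, 48, 51, 54, 57, 61, 67, 72, 75, 79, 84, 87, 90, 93, 97, 102, 36, 31, 37, 42, 45, 39, 33, 27, 30, 34, 40, 46, 51, 54, 57, 60, 63, 66, 69, 72, 48, 51, 54, 57, 42, 45, 48, 36, 39, 42, 21, 24, 27, 30, 33, 36, 15, 18, 21, 24, 27, 30, 33, 37, 43, 49, 54, 58, 63, 66, 69, 73, 78, 81, 84, 87, 90, 93, 97, 103, 108, 112, 118, 123, 127, 132, 135, 138, 141, 144, 148, 154, 160, 165, 168, 171, 175, 182, 99, 94, 100, 105, 108, 111, 114, 117, 120, 123, 126, 129, 132, 136, 102, 105, 96, 99, 90, 93, 87, 90, 94, 100, 106, 111, 114, 117, 120, 123, 126, 130, 135, 139, 144, 147, 150, 153, 156, 159, 163, 168, 141, 144, 108, 102, 84, 87, 81, 84, 88, 93, 96, 99, 103,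 109, 114, 117, 120, 124, 129, 132, 135, 93, 96, 76, 81, 84, 88, 93, 97, 102, 105, 109, 114, 118, 123, 126, 129, 132, 136, 141, 145, 150, 153, 157, 162, 165, 169, 174, 179, 127, 132, 135, 138, 141, 144, 147, 150, 153, 156, 160, 129, 132, 135, 123, 120, 124, 129, 132, 136, 141, 144, 147, 150, 154, 159, 163, 168, 171, 176, 157, 162, 165, 168, 173, 170, 132, 135, 138, 129, 132, 126, 93, 96, 99, 90, 54, 57, 51, 24, 28, 33, 36, 39, 42, 46, 52, 58, 63, 66, 69, 72, 75, 78, 81, 85, 91, 96, 100, 105, 108, 111, 114, 78, 81, 84, 87, 90, 93, 75, 78, 81, 72, 42, 45, 22, 27, 30, 33, 37, 42, 46, 51, 54, 58, 63, 66, 33, 36, 39, 6, 9, 13, 6, 1, 7, 12, 16, 21, 24, 28, 33, 36, 40, 45, 48, 51, 54, 58, 63, 67, 73, 78, 82, 87, 90, 94, 99, 102, 105, 108, 111, 115, 121, 127, 133, 139, 144, 147, 150, 153, 156, 159, 162, 167, 141, 135, 105, 108, 111, 114, 117, 120, 102, 90, 93, 96, 60, 63, 57, 54, 58, 64, 69, 72, 75, 78, 81, 84, 87, 90, 93, 97,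 103, 108, 111, 93, 96, 84, 87, 66, 60, 48, 51, 54, 57, 61, 67, 72, 75, 78, 81, 84, 88, 93, 97, 102, 84, 87, 90, 78, 48, 51, 54, 45, 42, 46, 51, 55, 60, 63, 67, 72, 75, 79, 84, 87, 91, 96, 99, 103, 108, 112, 117, 121, 126, 129, 132, 136, 142, 147, 150, 153, 156, 126, 129, 99, 102, 105, 94, 99, 102, 106, 111, 114, 117, 121, 126, 130, 135, 138, 142, 147, 150, 144, 114, 117, 120, 123, 111, 69, 72, 75, 66, 69, 60, 36, 24, 27, 30, 33, 37, 42, 45, 48, 51, 54, 57, 61, 66, 70, 76, 81, 84, 87, 57, 60, 63, 30, 21, 24, 27, 31, 36, 24, 18, 21, 25, 30, 33, 37, 42, 45, 48, 52, 57, 60, 64, 69, 72, 76, 81, 84, 88, 93, 96, 99, 102, 106, 112, 117, 120, 124, 129, 132, 135, 138, 99, 102, 105, 108, 111, 114, 117, 96, 99, 102, 93, 45, 48, 51, 54, 57, 42, 10, 15, 18, 3, 6, 10, 15, 19, 24, 27, 30, 33, 37, 43, 48, 51, 54, 58, 63, 66, 69, 72, 76, 81, 84, 88, 94, 99, 103, 108, 111, 114, 118, 123, 126, 129, 132, 135, 139, 145, 151, 157, 164, 161,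 153, 158, 147, 150, 155, 141, 144, 147, 152, 129, 78, 81, 84, 75, 78, 72, 69, 73, 79, 85, 90, 93, 96, 99, 102, 105, 109, 114, 117, 120, 124, 130, 135, 138, 132, 87, 81, 30, 33, 36, 39, 42, 45, 49, 54, 57, 60, 64, 25, 30, 33, 36, 39, 43, 48, 51, 54, 58, 63, 67, 72, 75, 78, 82, 88, 93, 96, 99, 103, 108, 111, 114, 118, 123, 126, 72, 75, 21, 25, 30, 33, 37, 42, 45, 48, 52, 57, 60, 63, 67, 72, 76, 81, 84, 88, 93, 97, 102, 105, 108, 112, 117, 120, 123, 127, 133, 139, 144, 149, 105, 108, 111, 114, 102, 105, 108, 99, 102, 96, 45, 48, 51, 54, 42, 45, 48, 39, 42, 36, 15, 18, 21, 24, 27, 31, 37, 43, 49, 55, 60, 63, 66, 69, 72, 75, 78, 81, 84, 87, 91, 97, 103, 109, 115, 120, 123, 126, 129, 132, 135, 138, 117, 120, 123, 111, 87, 90, 93, 96, 84, 87, 78, 51, 55, 60, 63, 66, 69, 72, 75, 79, 84, 88, 93, 97, 102, 105, 108, 112, 102, 105, 75, 78, 81, 45, 48, 51, 55, 60, 63, 66, 70, 75, 78, 82, 87, 90, 93, 97, 102, 106, 111, 115, 120, 124,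 129, 132, 90, 93, 96, 99, 87, 39, 42, 45, 48, 51, 55, 60, 64, 69, 72, 75, 78, 82, 88, 93, 96, 100, 105, 108, 111, 115, 120, 124, 106, 111, 114, 117, 102, 106, 111, 60, 63, 66, 69, 72, 57, 27, 30, 12, 15, 18, 22, 27, 31, 36, 39, 42, 45, 48, 52, 58, 63, 66, 69, 73, 78, 81, 84, 87, 91, 96, 99, 7, 12, 16, 21, 24, 27, 31, 36, 39, 42, 46, 51, 54, 58, 63, 66, 69, 73, 78, 81, 85, 90, 93, 78, 1, 6, 10, 15, 18, 21, 24, 27, 31, 36, 40, 45, 48, 51, 54, 58, 63, 66, 69, 73, 79, 84, 87, 90, 94, 100, 105, 108, 112, 118, 123, 127, 133, 139, 146, 143, 135, 140, 121, 126, 129, 132, 137, 108, 111, 114, 103, 108, 111, 115, 120, 123, 126, 129, 134, 63, 66, 69, 72, 75, 78, 81, 84, 60, 63, 66, 57, 60, 54, 21, 24, 27, 30, 33, 36, 39, 42, 45, 49, 55, 61, 67, 72, 75, 78, 81, 85, 90, 93, 96, 99, 102, 105, 108, 87, 90, 93, 69, 63, 45, 48, 18, 6, 9, 13, 19, 24, 27, 30, 33, 36, 40, 45, 49, 54, 57, 60, 64, 70, 75, 78, 81, 54, 57, 3, 7, 12, 15, 19, 24,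 27, 30, 34, 39, 42, 45, 49, 54, 58, 63, 66, 70, 75, 78, 82, 87, 90, 94, 99, 102, 105, 109, 114, 117, 120, 123, 126, 131, 120, 123, 128, 125, 122, 119, 116, 113, 110, 107, 75, 78, 81, 84, 72, 75, 69, 66, 70, 76, 81, 85, 90, 93, 96, 87, 90, 63, 60, 64, 69, 72, 76, 81, 84, 69, 57, 60, 64, 70, 75, 78, 25, 30, 33, 36, 39, 42, 45, 48, 52, 57, 60, 63, 21, 25, 30, 33, 36, 39, 42, 46, 51, 54, 18, 21, 25, 30, 33, 36, 40, 45, 48, 15, 18, 21, 25, 30, 34, 39, 42, 45, 49, 55, 60, 64, 69, 72, 75, 79, 85, 91, 97, 104, 101, 93, 98, 87, 90, 95, 81, 84, 87, 92, 45, 48, 51, 54, 57, 42, 45, 37, 42, 46, 51, 54, 58, 63, 66, 69, 72, 75, 78, 81, 84, 89, 69, 72, 66, 63, 67, 73, 78, 81, 86, 83, 80, 77, 69, 74, 60, 63, 66, 71, 57, 60, 63, 68, 65, 57, 62, 52, 59, 56, 48, 53, 45, 50, 1, 6, 9, 13, 18, 21, 24, 27, 30, 33, 36, 39, 42, 47, 39, 44, 27, 30, 33, 24, 27, 9, 12, 15, 19, 6, 9, 13, 18, 22, 28, 34, 41, 38, 30, 35, 24, 27, 32, 3, 7, 12, 15, 18,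 21, 24, 29, 1, 6, 9, 12, 15, 18, 21, 26, 10, 15, 18, 23, 20, 17, 14, 6, 11, 3, 8, 0, 5, 2]

theorem h_run : run (coxLabel edges) msT (rep wdT 18) = some [] := by decide +kernel

theorem h_count : countC msT = 63 := by decide +kernel

theorem h_run2 : run (coxLabel edges) msT2 (rep wdT2 18) = some [] := by decide +kernel

theorem hn : ∀ x : Gen, x ∈ coxNodes edges := by intro x; cases x <;> decide

theorem hm1 : ∀ x : Gen, coxLabel edges x x = 1 := by intro x; cases x <;> decide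

theorem hm : ∀ x y : Gen, x = y ∨ coxLabel edges x y = 2 ∨ coxLabel edges x y = 3 := by
  intro x y; cases x <;> cases y <;> decide

theorem hg : ∀ x y : Gen, (PresentedGroup.of x * PresentedGroup.of y : GG) ^ coxLabel edges x y = 1 := by
  intro x y
  have h : PresentedGroup.mk RR ((FreeGroup.of x * FreeGroup.of y) ^ coxLabel edges x y) = 1 :=
    PresentedGroup.one_of_mem (Or.inl ⟨x, hn x, y, hn y, rfl⟩)
  rw [map_pow, map_mul] at h
  exact h

/-- The spider word. -/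
noncomputable def spiderG : FreeGroup Gen := (d * c * b * d * e * f * d * h * i) ^ 10

/-- The first relator. -/
noncomputable def tG : FreeGroup Gen := (a * b * c * d * e * f * h) ^ 9

/-- The second relator. -/
noncomputable def tG2 : FreeGroup Gen := (b * c * d * e * f * g * h) ^ 9

theorem spider_one : PresentedGroup.mk RR spiderG = 1 :=
  PresentedGroup.one_of_mem (Or.inr (by simp [extra, spiderG]))

theorem t2_one : PresentedGroup.mk RR tG2 = 1 :=
  PresentedGroup.one_of_mem (Or.inr (by simp [extra, tG2]))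

theorem t_one : evw (PresentedGroup.of : Gen → GG) wdT ^ 9 = 1 := by
  have h : PresentedGroup.mk RR ((a * b * c * d * e * f * h) ^ 9) = 1 :=
    PresentedGroup.one_of_mem (Or.inr (by simp [extra]))
  simpa [evw, wdT, PresentedGroup.of, mul_assoc] using h

/-- The centraliser of the transposition is perfect. -/
theorem perfect22 : commutator HH22 = ⊤ := by
  let Q := Abelianization HH22
  let φ : PresentedGroup RT →* Q :=
    (Abelianization.of (G := HH22)).comp Cfsg.Agent.TcChain36.U62.ψ.toMonoidHom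
  have hφ : Function.Surjective φ :=
    (QuotientGroup.mk'_surjective _).comp Cfsg.Agent.TcChain36.U62.ψ.surjective
  have hcomm : ∀ x y : Q, x * y = y * x := fun x y => mul_comm x y
  let S : Subgroup Q :=
    { carrier := {y | y * y = 1}
      mul_mem' := by
        intro x y hx hy
        show x * y * (x * y) = 1
        calc x * y * (x * y) = x * (y * x) * y := by group
          _ = x * (x * y) * y := by rw [hcomm y x]
          _ = (x * x) * (y * y) := by group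
          _ = 1 := by rw [show x * x = 1 from hx, show y * y = 1 from hy, one_mul]
      one_mem' := by show (1 : Q) * 1 = 1; simp
      inv_mem' := by
        intro x hx
        show x⁻¹ * x⁻¹ = 1
        rw [← mul_inv_rev, show x * x = 1 from hx, inv_one] }
  have hletter : ∀ x : Cfsg.Agent.TcChain36.U62Pres.Gen, φ (PresentedGroup.of x) ∈ S := by
    intro x
    have h1 : PresentedGroup.mk RT ((FreeGroup.of x * FreeGroup.of x) ^ coxLabel Cfsg.Agent.TcChain36.U62Pres.edges x x) = 1 :=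
      Cfsg.Agent.TcChain36.U62.relT_spec _ (by cases x <;> decide +kernel)
    have h2 : coxLabel Cfsg.Agent.TcChain36.U62Pres.edges x x = 1 := by cases x <;> decide +kernel
    rw [h2, pow_one, map_mul] at h1
    show φ (PresentedGroup.of x) * φ (PresentedGroup.of x) = 1
    rw [← map_mul]
    have h3 : (PresentedGroup.of x * PresentedGroup.of x : PresentedGroup RT) = 1 := h1
    rw [h3, map_one]
  have hall : ∀ y : Q, y * y = 1 := by
    have h1 : S.comap φ = ⊤ := by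
      rw [eq_top_iff, ← PresentedGroup.closure_range_of, closure_le]
      rintro _ ⟨x, rfl⟩
      exact hletter x
    intro y
    obtain ⟨w, rfl⟩ := hφ y
    have : w ∈ S.comap φ := by rw [h1]; trivial
    exact this
  have hkill := Cfsg.Agent.TcChain36.U62.kill2 φ hall
  have h1 : φ.ker = ⊤ := by
    rw [eq_top_iff, ← PresentedGroup.closure_range_of, closure_le]
    rintro _ ⟨x, rfl⟩
    exact hkill x
  rw [eq_top_iff]
  intro y _
  obtain ⟨w, hw⟩ := Cfsg.Agent.TcChain36.U62.ψ.surjective y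
  have h2 : φ w = 1 := by
    have : w ∈ φ.ker := by rw [h1]; trivial
    exact this
  have h3 : (QuotientGroup.mk' (commutator HH22)) (Cfsg.Agent.TcChain36.U62.ψ w) = 1 := h2
  rw [QuotientGroup.mk'_apply, QuotientGroup.eq_one_iff] at h3
  rw [← hw]
  exact h3

theorem cent_eq : centralizer ({aa} : Set GG) = HH22 := by
  ext g
  rw [mem_centralizer_singleton_iff]
  constructor
  · exact fun h => Cfsg.Agent.TcChain36.U62.hcomm g h
  · exact fun h => Cfsg.Agent.TcChain36.U62.hZa g h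

theorem hp : commutator (centralizer ({aa} : Set GG)) = ⊤ := by
  rw [cent_eq]
  exact perfect22

theorem hzg (x : Gen) : IsConj aa (PresentedGroup.of x : GG) :=
  Cfsg.Agent.TcChain36.U62.hconj _ ⟨x, rfl⟩

/-! ## Sub-alphabets -/

/-- `E₆`. -/
def ι6 : Cfsg.Agent.TcChain36.Fi22.E6.Gen → Gen
  | .c => .c | .d => .d | .e => .e | .f => .f | .h => .h | .i => .i

/-- `D₅`. -/
def ι5 : Cfsg.Agent.Lib.SchurDefs2.D5c.Gen → Gen
  | .c => .c | .d => .d | .e => .e | .f => .f | .h => .h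

/-- `A₄`. -/
def ι4 : Cfsg.Agent.Lib.SchurDefs2.A4c.Gen → Gen
  | .c => .c | .d => .d | .e => .e | .f => .f

/-- `Y₂₂₂`. -/
def ι222 : Cfsg.Agent.Lib.SchurDefs.Y222c.Gen → Gen
  | .b => .b | .c => .c | .d => .d | .e => .e | .f => .f | .h => .h | .i => .i

theorem c6 (x y) : coxLabel Cfsg.Agent.TcChain36.Fi22.E6.edges x y = coxLabel edges (ι6 x) (ι6 y) := by
  cases x <;> cases y <;> decide
theorem c5 (x y) : coxLabel Cfsg.Agent.Lib.SchurDefs2.D5c.edges x y = coxLabel edges (ι5 x) (ι5 y) := by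
  cases x <;> cases y <;> decide
theorem c4 (x y) : coxLabel Cfsg.Agent.Lib.SchurDefs2.A4c.edges x y = coxLabel edges (ι4 x) (ι4 y) := by
  cases x <;> cases y <;> decide
theorem c222 (x y) : coxLabel Cfsg.Agent.Lib.SchurDefs.Y222c.edges x y = coxLabel edges (ι222 x) (ι222 y) := by
  cases x <;> cases y <;> decide

/-! ## The masks -/

noncomputable def rs6 : List (FreeGroup Gen) := [c, d, e, f, h, i]
noncomputable def rs5 : List (FreeGroup Gen) := [c, d, e, f, h]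
noncomputable def rs4 : List (FreeGroup Gen) := [c, d, e, f]

noncomputable def M6 : ℕ := grow pr (rs6.map FreeGroup.toWord) 7 (2 ^ 637)
noncomputable def M5 : ℕ := grow pr (rs5.map FreeGroup.toWord) 6 (2 ^ 38)
noncomputable def M4 : ℕ := grow pr (rs4.map FreeGroup.toWord) 8 (2 ^ 2578)

theorem M6_lt : M6 < 2 ^ 2 ^ 12 := by decide +kernel
theorem M5_lt : M5 < 2 ^ 2 ^ 12 := by decide +kernel
theorem M4_lt : M4 < 2 ^ 2 ^ 12 := by decide +kernel

theorem M6_c : sumRange M6.testBit 12 0 = 27 := by decide +kernel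
theorem M5_c : sumRange M5.testBit 12 0 = 16 := by decide +kernel
theorem M4_c : sumRange M4.testBit 12 0 = 120 := by decide +kernel

theorem S6 : Sound Phi (closure (Set.range ((PresentedGroup.of : Gen → GG) ∘ ι6))) 637 M6 := by
  refine sound_grow hR hv rs6 ?_ 7 (2 ^ 637) (sound_single _ _)
  intro r hr
  simp only [rs6, List.mem_cons, List.not_mem_nil, or_false] at hr
  rcases hr with rfl | rfl | rfl | rfl | rfl | rfl
  exacts [subset_closure ⟨.c, rfl⟩, subset_closure ⟨.d, rfl⟩, subset_closure ⟨.e, rfl⟩, subset_closure ⟨.f, rfl⟩,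
    subset_closure ⟨.h, rfl⟩, subset_closure ⟨.i, rfl⟩]

theorem S5 : Sound Phi (closure (Set.range ((PresentedGroup.of : Gen → GG) ∘ ι5))) 38 M5 := by
  refine sound_grow hR hv rs5 ?_ 6 (2 ^ 38) (sound_single _ _)
  intro r hr
  simp only [rs5, List.mem_cons, List.not_mem_nil, or_false] at hr
  rcases hr with rfl | rfl | rfl | rfl | rfl
  exacts [subset_closure ⟨.c, rfl⟩, subset_closure ⟨.d, rfl⟩, subset_closure ⟨.e, rfl⟩, subset_closure ⟨.f, rfl⟩,
    subset_closure ⟨.h, rfl⟩]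

theorem S4 : Sound Phi (closure (Set.range ((PresentedGroup.of : Gen → GG) ∘ ι4))) 2578 M4 := by
  refine sound_grow hR hv rs4 ?_ 8 (2 ^ 2578) (sound_single _ _)
  intro r hr
  simp only [rs4, List.mem_cons, List.not_mem_nil, or_false] at hr
  rcases hr with rfl | rfl | rfl | rfl
  exacts [subset_closure ⟨.c, rfl⟩, subset_closure ⟨.d, rfl⟩, subset_closure ⟨.e, rfl⟩, subset_closure ⟨.f, rfl⟩]

/-! ## The chain -/

section chain

variable {E : Type*} [Group E] {σ : E →* GG} {xt : Gen → E}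

theorem sigma_lift (hσ : ∀ x, σ (xt x) = PresentedGroup.of x) {β : Type*} (ι : β → Gen) (w : FreeGroup β) :
    σ (FreeGroup.lift (xt ∘ ι) w) = PresentedGroup.mk RR (FreeGroup.map ι w) := by
  have : σ.comp (FreeGroup.lift (xt ∘ ι)) = (PresentedGroup.mk RR).comp (FreeGroup.map ι) := by
    ext x
    simp [hσ, PresentedGroup.of]
  exact DFunLike.congr_fun this w

theorem fixS (hσ : ∀ x, σ (xt x) = PresentedGroup.of x) {β : Type*} (ι : β → Gen) {SS : Set (FreeGroup β)} {p : ℕ}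
    (hw : ∀ s ∈ SS, wordApply (sgnProg pr) (FreeGroup.map ι s).toWord (2 ^ p) = 2 ^ p) :
    ∀ s ∈ SS, (Phi.comp σ) (FreeGroup.lift (xt ∘ ι) s) p = p := by
  intro s hs
  rw [MonoidHom.comp_apply, sigma_lift hσ]
  exact phi_of_check hR hv (hw s hs)

variable (hσ : ∀ x, σ (xt x) = PresentedGroup.of x) (hcox : ∀ x y, (xt x * xt y) ^ coxLabel edges x y = 1)

include hσ hcox

theorem L4 {κ : E} (hκ : κ ∈ closure (Set.range (xt ∘ ι4))) (h1 : σ κ = 1) : κ = 1 := by
  have hf : ∀ r ∈ Cfsg.Agent.TcData.SA4c.RR, FreeGroup.lift (xt ∘ ι4) r = 1 := by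
    rintro r (hr | hr)
    · exact lift_cox _ _ (fun x y => by rw [c4]; exact hcox _ _) r hr
    · exact absurd hr (by simp [Cfsg.Agent.Lib.SchurDefs2.A4c.extra])
  have h2 := (level_step (R := Cfsg.Agent.TcData.SA4c.RR) (xt ∘ ι4) hf
    Cfsg.Agent.TcData.SA4c.I120.SS (m := 120) (d := 1) (by norm_num)
    Cfsg.Agent.TcData.SA4c.I120.index_le'.1 (Cfsg.Agent.TcData.SA4c.I120.index_le'.2.trans (by norm_num))
    (Phi.comp σ) 2578 (fixS hσ ι4 (by
      intro s hs
      exact absurd hs (by simp [Cfsg.Agent.TcData.SA4c.I120.SS])))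
    {i | M4.testBit i = true} (hS_of_sound σ Phi _ (PresentedGroup.of ∘ ι4) (fun y => hσ _) S4)
    (by rw [ncard_mask M4_lt, M4_c]) hκ (by simp [h1])).1 rfl
  have h3 : FreeGroup.lift (xt ∘ ι4) '' Cfsg.Agent.TcData.SA4c.I120.SS = ∅ := by
    simp [Cfsg.Agent.TcData.SA4c.I120.SS]
  rw [h3] at h2
  simpa using h2

theorem L5 {κ : E} (hκ : κ ∈ closure (Set.range (xt ∘ ι5))) (h1 : σ κ = 1) : κ = 1 := by
  have hf : ∀ r ∈ Cfsg.Agent.TcData.SD5c.RR, FreeGroup.lift (xt ∘ ι5) r = 1 := by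
    rintro r (hr | hr)
    · exact lift_cox _ _ (fun x y => by rw [c5]; exact hcox _ _) r hr
    · exact absurd hr (by simp [Cfsg.Agent.Lib.SchurDefs2.D5c.extra])
  have h2 := (level_step (R := Cfsg.Agent.TcData.SD5c.RR) (xt ∘ ι5) hf
    Cfsg.Agent.TcData.SD5c.I16.SS (m := 16) (d := 1) (by norm_num)
    Cfsg.Agent.TcData.SD5c.I16.index_le'.1 (Cfsg.Agent.TcData.SD5c.I16.index_le'.2.trans (by norm_num))
    (Phi.comp σ) 38 (fixS hσ ι5 (by
      intro s hs
      simp only [Cfsg.Agent.TcData.SD5c.I16.SS, Set.mem_insert_iff, Set.mem_singleton_iff] at hs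
      rcases hs with rfl | rfl | rfl | rfl <;> decide +kernel))
    {i | M5.testBit i = true} (hS_of_sound σ Phi _ (PresentedGroup.of ∘ ι5) (fun y => hσ _) S5)
    (by rw [ncard_mask M5_lt, M5_c]) hκ (by simp [h1])).1 rfl
  apply L4 hσ hcox _ h1
  refine (closure_le _).mpr ?_ h2
  rintro _ ⟨x, hx, rfl⟩
  simp only [Cfsg.Agent.TcData.SD5c.I16.SS, Set.mem_insert_iff, Set.mem_singleton_iff] at hx
  rcases hx with rfl | rfl | rfl | rfl
  exacts [subset_closure ⟨.c, by simp [ι5, ι4]⟩, subset_closure ⟨.d, by simp [ι5, ι4]⟩,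
    subset_closure ⟨.e, by simp [ι5, ι4]⟩, subset_closure ⟨.f, by simp [ι5, ι4]⟩]

theorem L6 {κ : E} (hκ : κ ∈ closure (Set.range (xt ∘ ι6))) (h1 : σ κ = 1) : κ = 1 := by
  have hf := lift_relAll Cfsg.Agent.TcChain36.Fi22.E6.edges Cfsg.Agent.TcChain36.Fi22.E6.nodesL (xt ∘ ι6)
    (fun x y => by rw [c6]; exact hcox _ _)
  have h2 := (level_step (R := Cfsg.Agent.TcChain36.Fi22.E6.RR) (xt ∘ ι6) hf
    (FreeGroup.of '' Cfsg.Agent.TcChain36.Fi22.E6.BB) (m := 27) (d := 1) (by norm_num)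
    Cfsg.Agent.TcChain36.Fi22.E6.index_le'.1 (Cfsg.Agent.TcChain36.Fi22.E6.index_le'.2.trans (by norm_num))
    (Phi.comp σ) 637 (fixS hσ ι6 (by
      rintro _ ⟨x, hx, rfl⟩
      simp only [Cfsg.Agent.TcChain36.Fi22.E6.BB, Set.mem_setOf_eq, List.mem_cons, List.not_mem_nil, or_false] at hx
      rcases hx with rfl | rfl | rfl | rfl | rfl <;> decide +kernel))
    {i | M6.testBit i = true} (hS_of_sound σ Phi _ (PresentedGroup.of ∘ ι6) (fun y => hσ _) S6)
    (by rw [ncard_mask M6_lt, M6_c]) hκ (by simp [h1])).1 rfl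
  apply L5 hσ hcox _ h1
  refine (closure_le _).mpr ?_ h2
  rintro _ ⟨_, ⟨x, hx, rfl⟩, rfl⟩
  simp only [Cfsg.Agent.TcChain36.Fi22.E6.BB, Set.mem_setOf_eq, List.mem_cons, List.not_mem_nil, or_false] at hx
  rcases hx with rfl | rfl | rfl | rfl | rfl
  exacts [subset_closure ⟨.c, by simp [ι5, ι6]⟩, subset_closure ⟨.d, by simp [ι5, ι6]⟩,
    subset_closure ⟨.e, by simp [ι5, ι6]⟩, subset_closure ⟨.f, by simp [ι5, ι6]⟩,
    subset_closure ⟨.h, by simp [ι5, ι6]⟩]

theorem S_cube (hc : ∀ x : E, FreeGroup.lift xt spiderG * x = x * FreeGroup.lift xt spiderG) :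
    FreeGroup.lift xt spiderG ^ 3 ∈ closure (Set.range (xt ∘ ι6)) := by
  have hsq : ∀ x, xt x * xt x = 1 := fun x => by
    have := hcox x x
    rwa [hm1, pow_one] at this
  have hS : FreeGroup.lift (xt ∘ ι222) Cfsg.Agent.Lib.SchurDefs.Y222c.spider = FreeGroup.lift xt spiderG := by
    simp [Cfsg.Agent.Lib.SchurDefs.Y222c.spider, spiderG, ι222]
  have hf : ∀ r ∈ Cfsg.Agent.TcData.SY222c.RR, FreeGroup.lift (xt ∘ ι222) r = 1 := by
    rintro r (hr | hr)
    · exact lift_cox _ _ (fun x y => by rw [c222]; exact hcox _ _) r hr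
    · have hr' : r ∈ Cfsg.Agent.Lib.SchurDefs.Y222c.extra := hr
      have key : ∀ x, FreeGroup.lift (xt ∘ ι222) Cfsg.Agent.Lib.SchurDefs.Y222c.spider * (xt (ι222 x)) *
          (FreeGroup.lift (xt ∘ ι222) Cfsg.Agent.Lib.SchurDefs.Y222c.spider)⁻¹ * xt (ι222 x) = 1 := by
        intro x
        rw [hS, hc, mul_inv_cancel_right, hsq]
      simp only [Cfsg.Agent.Lib.SchurDefs.Y222c.extra, List.mem_cons, List.not_mem_nil, or_false] at hr'
      rcases hr' with rfl | rfl | rfl | rfl | rfl | rfl | rfl <;>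
        simpa using key _
  have hmem : PresentedGroup.mk Cfsg.Agent.TcData.SY222c.RR (Cfsg.Agent.Lib.SchurDefs.Y222c.spider ^ 3) ∈
      Cfsg.Agent.TcData.SY222c.I729.HH :=
    mem_of_fix Cfsg.Agent.TcData.SY222c.I729.bij.2.1
      (phi_of_check Cfsg.Agent.TcData.SY222c.I729.hR Cfsg.Agent.TcData.SY222c.I729.hv (by decide +kernel))
  have h2 := mem_closure_lift hf hmem
  rw [toGroup_mk, map_pow, hS] at h2
  refine (closure_le _).mpr ?_ h2
  rintro _ ⟨x, hx, rfl⟩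
  simp only [Cfsg.Agent.TcData.SY222c.I729.SS, Set.mem_insert_iff, Set.mem_singleton_iff] at hx
  rcases hx with rfl | rfl | rfl | rfl | rfl | rfl
  exacts [subset_closure ⟨.c, by simp [ι222, ι6]⟩, subset_closure ⟨.d, by simp [ι222, ι6]⟩,
    subset_closure ⟨.e, by simp [ι222, ι6]⟩, subset_closure ⟨.f, by simp [ι222, ι6]⟩,
    subset_closure ⟨.h, by simp [ι222, ι6]⟩, subset_closure ⟨.i, by simp [ι222, ι6]⟩]

end chain

theorem cyc_of_two {E : Type*} [Group E] {S T : E} (hc : Commute S T) (h3 : S ^ 3 = 1) (hT2 : T * T = 1) :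
    closure ({S, T} : Set E) ≤ closure ({S * T} : Set E) := by
  have e3 : S = (S * T) ^ 4 := by
    rw [hc.mul_pow]
    have e1 : S ^ 4 = S ^ 3 * S := by rw [pow_succ]
    have e2 : T ^ 4 = (T * T) ^ 2 := by rw [← pow_two, ← pow_mul]
    rw [e1, e2, h3, hT2]
    simp
  have e4 : T = (S * T) ^ 3 := by
    rw [hc.mul_pow, h3]
    have e2 : T ^ 3 = (T * T) * T := by
      simp only [pow_succ, pow_zero, one_mul]
    rw [e2, hT2]
    simp
  have m : S * T ∈ closure ({S * T} : Set E) := subset_closure (Set.mem_singleton _)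
  have m3 : S ∈ closure ({S * T} : Set E) := by
    have := pow_mem m 4
    rwa [← e3] at this
  have m4 : T ∈ closure ({S * T} : Set E) := by
    have := pow_mem m 3
    rwa [← e4] at this
  rw [closure_le]
  intro x hx
  rcases hx with hx | hx
  · rw [hx]
    exact m3
  · rw [Set.mem_singleton_iff.mp hx]
    exact m4

/-- The main theorem. -/
theorem ker_bound {E : Type*} [Group E] (σ : E →* GG) (hs : Function.Surjective σ)
    (hK : σ.ker ≤ center E) (hC : σ.ker ≤ commutator E) :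
    ∃ g : E, g ∈ σ.ker ∧ g ^ 6 = 1 ∧ σ.ker ≤ closure ({g} : Set E) := by
  obtain ⟨xt, hσ, hcox, ht⟩ := exists_xt (σ := σ) hs hK hp Cfsg.Agent.TcChain36.U62.aa_sq (coxLabel edges) hm1 hm
    PresentedGroup.of hg hzg wdT rfl msT h_run h_count t_one
  have hmkL : σ.comp (FreeGroup.lift xt) = PresentedGroup.mk RR := by
    ext x
    simp [hσ, PresentedGroup.of]
  have hσL : ∀ w, σ (FreeGroup.lift xt w) = PresentedGroup.mk RR w := fun w => DFunLike.congr_fun hmkL w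
  set S := FreeGroup.lift xt spiderG with hS
  set T := FreeGroup.lift xt tG2 with hT
  have hS1 : σ S = 1 := by rw [hS, hσL, spider_one]
  have hT1 : σ T = 1 := by rw [hT, hσL, t2_one]
  have hcS : ∀ x : E, S * x = x * S := fun x => central_of_ker hK hS1 x
  have hcT : ∀ x : E, T * x = x * T := fun x => central_of_ker hK hT1 x
  have h3 : S ^ 3 = 1 := L6 hσ hcox (S_cube hσ hcox hcS) (by rw [map_pow, hS1, one_pow])
  -- the square of the second relator
  have hsq : ∀ x, xt x * xt x = 1 := fun x => by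
    have := hcox x x
    rwa [hm1, pow_one] at this
  have h2' : ∀ a b, coxLabel edges a b = 2 → xt a * xt b = xt b * xt a := by
    intro a b hab
    have h4 := hcox a b
    rw [hab, pow_two] at h4
    calc xt a * xt b = xt a * xt b * (xt a * xt b) * ((xt b)⁻¹ * (xt a)⁻¹) := by group
      _ = (xt b)⁻¹ * (xt a)⁻¹ := by rw [h4, one_mul]
      _ = xt b * xt a := by
        rw [inv_eq_of_mul_eq_one_left (hsq a), inv_eq_of_mul_eq_one_left (hsq b)]
  have h3' : ∀ a b, coxLabel edges a b = 3 → xt a * xt b * xt a = xt b * xt a * xt b := by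
    intro a b hab
    have h4 := hcox a b
    rw [hab] at h4
    have e3 : (xt a * xt b) ^ 3 = xt a * xt b * xt a * (xt b * xt a * xt b) := by
      simp only [pow_succ, pow_zero, one_mul, mul_assoc]
    rw [e3] at h4
    have h5 := eq_inv_of_mul_eq_one_left h4
    rw [h5, mul_inv_rev, mul_inv_rev, inv_eq_of_mul_eq_one_left (hsq a), inv_eq_of_mul_eq_one_left (hsq b)]
    group
  have hT2 : T * T = 1 := by
    have h4 := run_spec (c := (1 : E)) h2' h3' hsq (fun x => by simp) msT2 (rep wdT2 18) [] h_run2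
    rw [evw_rep] at h4
    have h5 : evw xt wdT2 ^ 18 = 1 := by simpa [evw] using h4
    have h6 : T = evw xt wdT2 ^ 9 := by
      simp [hT, tG2, evw, wdT2, mul_assoc]
    rw [h6, ← pow_add]
    exact h5
  have hSk : S ∈ σ.ker := hS1
  have hTk : T ∈ σ.ker := hT1
  refine ⟨S * T, mul_mem hSk hTk, ?_, ?_⟩
  · have hc : Commute S T := hcS T
    rw [hc.mul_pow]
    have e1 : S ^ 6 = (S ^ 3) ^ 2 := by rw [← pow_mul]
    have e2 : T ^ 6 = (T * T) ^ 3 := by rw [← pow_two, ← pow_mul]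
    rw [e1, e2, h3, hT2]
    simp
  · -- the section modulo `⟨S, T⟩`
    set N := closure ({S, T} : Set E) with hN
    have hNK : N ≤ σ.ker := by
      rw [hN, closure_le]
      rintro x (rfl | rfl)
      · exact hSk
      · exact hTk
    have hrel : ∀ r ∈ RR, FreeGroup.lift xt r ∈ N := by
      rintro r (hr | hr)
      · rw [lift_cox _ _ hcox r hr]
        exact one_mem _
      · have hr' : r ∈ extra := hr
        simp only [extra, List.mem_cons, List.not_mem_nil, or_false] at hr'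
        rcases hr' with rfl | rfl | rfl
        · exact subset_closure (Or.inl rfl)
        · have h5 : FreeGroup.lift xt ((a * b * c * d * e * f * h) ^ 9) = 1 := by
            simpa [evw, wdT, mul_assoc] using ht
          rw [h5]
          exact one_mem _
        · exact subset_closure (Or.inr rfl)
    have hle := ker_le_of_section hK hC N hNK hrel hσ
    refine hle.trans ?_
    have hc : Commute S T := hcS T
    exact cyc_of_two hc h3 hT2

end Cfsg.Agent.Lib.SchurFi22
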