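import Mathlib
import Cfsg.Agent.TcData.SF22c3.Rep
import Cfsg.Agent.TcChain36.Fi23.Class
import Cfsg.Agent.Lib.SchurFi22Up
import Cfsg.Agent.Lib.SchurFib

/-!
# Stem extensions of `Fi₂₂` with cyclic kernel of order `6`

The group presented by the relators of `Fi₂₂`, the spider word only being central of order dividing three, acts on `185328` points, and
the spider word is nontrivial there. The fibre product with the double cover in `Fi₂₃` is the extension sought.
-/

set_option autoImplicit false
set_option maxRecDepth 100000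
set_option linter.all false

namespace Cfsg.Agent.Lib.SchurFi22Low

open Subgroup Cfsg.Spor Cfsg.Spor.Fi22 Cfsg.Agent.Lib.SchurCox Cfsg.Agent.Lib.SchurDefs3
open Cfsg.Agent.TcData.Fi22 (RR)
open Cfsg.Agent.Lib.SchurFi22 (GG)
open Cfsg.Agent.TcData.SF22c3 (spider_ne)

/-- The triple cover. -/
abbrev P3 := PresentedGroup R3

theorem hn : ∀ x : Gen, x ∈ coxNodes edges := by intro x; cases x <;> decide

/-- The spider word in the triple cover. -/
noncomputable def ζ : P3 := PresentedGroup.mk R3 spider

theorem mk3_one {r : FreeGroup Gen} (h : r ∈ extra3) : PresentedGroup.mk R3 r = 1 :=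
  PresentedGroup.one_of_mem (Or.inr h)

theorem letter_sq3 (x : Gen) : (PresentedGroup.of x : P3) * PresentedGroup.of x = 1 := by
  have h : PresentedGroup.mk R3 ((FreeGroup.of x * FreeGroup.of x) ^ coxLabel edges x x) = 1 :=
    PresentedGroup.one_of_mem (Or.inl ⟨x, hn x, x, hn x, rfl⟩)
  have h2 : coxLabel edges x x = 1 := by cases x <;> decide
  rw [h2, pow_one, map_mul] at h
  exact h

theorem letter_sq (x : Gen) : (PresentedGroup.of x : GG) * PresentedGroup.of x = 1 := by
  have h : PresentedGroup.mk RR ((FreeGroup.of x * FreeGroup.of x) ^ coxLabel edges x x) = 1 :=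
    PresentedGroup.one_of_mem (Or.inl ⟨x, hn x, x, hn x, rfl⟩)
  have h2 : coxLabel edges x x = 1 := by cases x <;> decide
  rw [h2, pow_one, map_mul] at h
  exact h

theorem ζ_letter (x : Gen) : ζ * PresentedGroup.of x = PresentedGroup.of x * ζ := by
  have h : ζ * PresentedGroup.of x * ζ⁻¹ * PresentedGroup.of x = 1 := by
    have hr : spider * FreeGroup.of x * spider⁻¹ * FreeGroup.of x ∈ extra3 := by
      simp only [extra3, List.mem_cons, List.not_mem_nil, or_false]
      cases x
      · right; right; left; rfl
      · right; right; right; left; rfl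
      · right; right; right; right; left; rfl
      · right; right; right; right; right; left; rfl
      · right; right; right; right; right; right; left; rfl
      · right; right; right; right; right; right; right; left; rfl
      · right; right; right; right; right; right; right; right; left; rfl
      · right; right; right; right; right; right; right; right; right; left; rfl
      · right; right; right; right; right; right; right; right; right; right; left; rfl
    have := mk3_one hr
    simpa [ζ, PresentedGroup.of] using this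
  have hi : (PresentedGroup.of x : P3)⁻¹ = PresentedGroup.of x := inv_eq_of_mul_eq_one_left (letter_sq3 x)
  have h1 : ζ * PresentedGroup.of x * ζ⁻¹ = PresentedGroup.of x := by
    have := mul_eq_one_iff_eq_inv.mp h
    rwa [hi] at this
  exact mul_inv_eq_iff_eq_mul.mp h1

theorem ζ_central (x : P3) : ζ * x = x * ζ := by
  have h : centralizer ({ζ} : Set P3) = ⊤ := by
    rw [eq_top_iff, ← PresentedGroup.closure_range_of, closure_le]
    rintro _ ⟨x, rfl⟩
    rw [SetLike.mem_coe, mem_centralizer_singleton_iff]
    exact (ζ_letter x).symm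
  have h2 : x ∈ centralizer ({ζ} : Set P3) := by rw [h]; trivial
  rw [mem_centralizer_singleton_iff] at h2
  exact h2.symm

theorem ζ_cube : ζ ^ 3 = 1 := by
  have hr : spider ^ 3 ∈ extra3 := by
    simp only [extra3, List.mem_cons, List.not_mem_nil, or_false]
    iterate 11 right
    trivial
  have := mk3_one hr
  simpa [ζ] using this

theorem ζ_ne : ζ ≠ 1 := spider_ne

theorem ζ_order : orderOf ζ = 3 := orderOf_eq_prime ζ_cube ζ_ne

/-- The letters satisfy the relators of the triple cover in `Fi₂₂`. -/
theorem rel_hold : ∀ r ∈ R3, FreeGroup.lift (PresentedGroup.of : Gen → GG) r = 1 := by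
  have e : ∀ r, FreeGroup.lift (PresentedGroup.of : Gen → GG) r = PresentedGroup.mk RR r := by
    intro r
    have : FreeGroup.lift (PresentedGroup.of : Gen → GG) = PresentedGroup.mk RR := by
      ext x
      simp [PresentedGroup.of]
    rw [this]
  have hs : PresentedGroup.mk RR spider = 1 := PresentedGroup.one_of_mem (Or.inr (List.mem_cons_self ..))
  rintro r (hr | hr)
  · rw [e]
    exact PresentedGroup.one_of_mem (Or.inl hr)
  · rw [e]
    have hr' : r ∈ extra3 := hr
    have key : ∀ x : Gen, PresentedGroup.mk RR (spider * FreeGroup.of x * spider⁻¹ * FreeGroup.of x) = 1 := by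
      intro x
      simp only [map_mul, map_inv, hs, one_mul, inv_one, mul_one]
      exact letter_sq x
    simp only [extra3, List.mem_cons, List.not_mem_nil, or_false] at hr'
    rcases hr' with rfl | rfl | rfl | rfl | rfl | rfl | rfl | rfl | rfl | rfl | rfl | rfl
    · exact PresentedGroup.one_of_mem (Or.inr (List.mem_cons_of_mem _ (List.mem_cons_self ..)))
    · exact PresentedGroup.one_of_mem (Or.inr (List.mem_cons_of_mem _ (List.mem_cons_of_mem _ (List.mem_cons_self ..))))
    · exact key _
    · exact key _
    · exact key _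
    · exact key _
    · exact key _
    · exact key _
    · exact key _
    · exact key _
    · exact key _
    · rw [map_pow, hs, one_pow]

/-- The map onto `Fi₂₂`. -/
noncomputable def π3 : P3 →* GG := PresentedGroup.toGroup rel_hold

theorem π3_of (x : Gen) : π3 (PresentedGroup.of x) = PresentedGroup.of x := by
  simp [π3]

theorem π3_mk (r : FreeGroup Gen) : π3 (PresentedGroup.mk R3 r) = PresentedGroup.mk RR r := by
  have : π3.comp (PresentedGroup.mk R3) = PresentedGroup.mk RR := by
    ext x
    exact π3_of x
  exact DFunLike.congr_fun this r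

theorem π3_surj : Function.Surjective π3 := by
  have h : π3.range = ⊤ := by
    rw [eq_top_iff, ← PresentedGroup.closure_range_of, closure_le]
    rintro _ ⟨x, rfl⟩
    exact ⟨PresentedGroup.of x, π3_of x⟩
  exact MonoidHom.range_eq_top.mp h

theorem π3_ζ : π3 ζ = 1 := by
  rw [ζ, π3_mk]
  exact PresentedGroup.one_of_mem (Or.inr (List.mem_cons_self ..))

instance Nn : (zpowers ζ).Normal := by
  refine ⟨fun n hn g => ?_⟩
  obtain ⟨k, rfl⟩ := mem_zpowers_iff.mp hn
  have : g * ζ ^ k * g⁻¹ = ζ ^ k := by
    have h : Commute g (ζ ^ k) := ((show Commute ζ g from ζ_central g).zpow_left k).symm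
    rw [h.eq]
    group
  rw [this]
  exact hn

/-- The inverse of the quotient map. -/
noncomputable def φ3 : GG →* P3 ⧸ zpowers ζ :=
  PresentedGroup.toGroup (f := fun x => ((PresentedGroup.of x : P3) : P3 ⧸ zpowers ζ)) (by
    have eL : ∀ r, FreeGroup.lift (fun x => ((PresentedGroup.of x : P3) : P3 ⧸ zpowers ζ)) r =
        ((PresentedGroup.mk R3 r : P3) : P3 ⧸ zpowers ζ) := by
      intro r
      have : FreeGroup.lift (fun x => ((PresentedGroup.of x : P3) : P3 ⧸ zpowers ζ)) =
          (QuotientGroup.mk' (zpowers ζ)).comp (PresentedGroup.mk R3) := by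
        ext x
        simp [PresentedGroup.of]
      rw [this]
      rfl
    rintro r (hr | hr)
    · rw [eL, QuotientGroup.eq_one_iff]
      have : PresentedGroup.mk R3 r = 1 := PresentedGroup.one_of_mem (Or.inl hr)
      rw [this]
      exact one_mem _
    · rw [eL, QuotientGroup.eq_one_iff]
      have hr' : r ∈ extra := hr
      simp only [extra, List.mem_cons, List.not_mem_nil, or_false] at hr'
      rcases hr' with rfl | rfl | rfl
      · exact mem_zpowers _
      · have : PresentedGroup.mk R3 ((a * b * c * d * e * f * h) ^ 9) = 1 :=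
          mk3_one (List.mem_cons_self ..)
        rw [this]
        exact one_mem _
      · have : PresentedGroup.mk R3 ((b * c * d * e * f * g * h) ^ 9) = 1 :=
          mk3_one (List.mem_cons_of_mem _ (List.mem_cons_self ..))
        rw [this]
        exact one_mem _)

theorem φ3_π3 (x : P3) : φ3 (π3 x) = (x : P3 ⧸ zpowers ζ) := by
  have : φ3.comp π3 = QuotientGroup.mk' (zpowers ζ) := by
    apply PresentedGroup.ext
    intro x
    simp [φ3, π3_of]
  exact DFunLike.congr_fun this x

theorem ker_π3 : π3.ker = zpowers ζ := by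
  ext x
  constructor
  · intro hx
    have h1 := φ3_π3 x
    rw [MonoidHom.mem_ker.mp hx, map_one] at h1
    exact (QuotientGroup.eq_one_iff x).mp h1.symm
  · intro hx
    obtain ⟨k, rfl⟩ := mem_zpowers_iff.mp hx
    rw [MonoidHom.mem_ker, map_zpow, π3_ζ, one_zpow]

instance finGG : Finite GG := Cfsg.Agent.TcChain36.U62.finG22

instance finP3 : Finite P3 := by
  have h1 : Function.Surjective φ3 := by
    intro q
    obtain ⟨x, rfl⟩ := QuotientGroup.mk_surjective q
    exact ⟨π3 x, φ3_π3 x⟩
  haveI : Finite (P3 ⧸ zpowers ζ) := Finite.of_surjective φ3 h1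
  haveI : Finite (zpowers ζ) := by
    have : IsOfFinOrder ζ := by
      rw [isOfFinOrder_iff_pow_eq_one]
      exact ⟨3, by norm_num, ζ_cube⟩
    exact (finite_zpowers.mpr this).to_subtype
  exact Finite.of_equiv _ (groupEquivQuotientProdSubgroup (s := zpowers ζ)).symm

theorem stem3 : Cfsg.IsStemExtension π3 := by
  refine ⟨π3_surj, ?_, ?_⟩
  · rw [ker_π3, zpowers_le, mem_center_iff]
    exact fun g => (ζ_central g).symm
  · rw [ker_π3, zpowers_le]
    -- the abelianisation has exponent two
    let Q := Abelianization P3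
    let S : Subgroup Q :=
      { carrier := {y | y * y = 1}
        mul_mem' := by
          intro x y hx hy
          show x * y * (x * y) = 1
          calc x * y * (x * y) = x * (y * x) * y := by group
            _ = x * (x * y) * y := by rw [mul_comm y x]
            _ = (x * x) * (y * y) := by group
            _ = 1 := by rw [show x * x = 1 from hx, show y * y = 1 from hy, one_mul]
        one_mem' := by show (1 : Q) * 1 = 1; simp
        inv_mem' := by
          intro x hx
          show x⁻¹ * x⁻¹ = 1
          rw [← mul_inv_rev, show x * x = 1 from hx, inv_one] }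
    have h1 : S.comap Abelianization.of = ⊤ := by
      rw [eq_top_iff, ← PresentedGroup.closure_range_of, closure_le]
      rintro _ ⟨x, rfl⟩
      show Abelianization.of (PresentedGroup.of x : P3) * Abelianization.of (PresentedGroup.of x : P3) = 1
      rw [← map_mul, letter_sq3, map_one]
    have h2 : ζ ∈ S.comap Abelianization.of := by rw [h1]; trivial
    have h3 : Abelianization.of ζ * Abelianization.of ζ = 1 := h2
    have h4 : Abelianization.of ζ ^ 3 = 1 := by rw [← map_pow, ζ_cube, map_one]
    have h5 : Abelianization.of ζ = 1 := by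
      have e : Abelianization.of ζ ^ 3 = Abelianization.of ζ * (Abelianization.of ζ * Abelianization.of ζ) := by
        simp only [pow_succ, pow_zero, one_mul, mul_assoc]
      rw [e, h3, mul_one] at h4
      exact h4
    exact (QuotientGroup.eq_one_iff ζ).mp h5

theorem card3 : Nat.card π3.ker = 3 := by
  rw [ker_π3, Nat.card_zpowers, ζ_order]

/-- A non-split double cover of a non-abelian simple group is a stem extension. -/
theorem stem_of_nonsplit {H K : Type*} [Group H] [Group K] [IsSimpleGroup K]
    (hne : ∃ a b : K, a * b ≠ b * a) (h : Cfsg.IsNonsplitDoubleCover H K) :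
    ∃ π : H →* K, Cfsg.IsStemExtension π ∧ Nat.card π.ker = 2 := by
  have hC := commutator_eq_top_of_nonsplit hne h
  obtain ⟨hc, ⟨e⟩, hno⟩ := h
  let π : H →* K := e.toMonoidHom.comp (QuotientGroup.mk' (center H))
  have hπk : π.ker = center H := by
    ext x
    simp only [π, MonoidHom.mem_ker, MonoidHom.comp_apply]
    constructor
    · intro hx
      have : (QuotientGroup.mk' (center H)) x = 1 := by
        apply e.injective
        simpa using hx
      exact (QuotientGroup.eq_one_iff x).mp this
    · intro hx
      have : (QuotientGroup.mk' (center H)) x = 1 := (QuotientGroup.eq_one_iff x).mpr hx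
      show e ((QuotientGroup.mk' (center H)) x) = 1
      rw [this, map_one]
  refine ⟨π, ⟨e.surjective.comp (QuotientGroup.mk'_surjective _), ?_, ?_⟩, ?_⟩
  · rw [hπk]
  · rw [hC]
    exact le_top
  · rw [hπk, hc]

theorem isCyclic_of_comm_squarefree' {K : Type*} [Group K] [Finite K] (hc : ∀ a b : K, a * b = b * a)
    (hs : Squarefree (Nat.card K)) : IsCyclic K := by
  haveI : IsZGroup K := IsZGroup.of_squarefree hs
  haveI : IsMulCommutative K := ⟨⟨hc⟩⟩
  haveI : Group.IsNilpotent K := by
    letI : CommGroup K := { (inferInstance : Group K) with mul_comm := hc }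
    exact CommGroup.isNilpotent
  infer_instance

theorem nonab : ∃ a b : GG, a * b ≠ b * a := by
  by_contra hcon
  push Not at hcon
  haveI : IsSimpleGroup GG := Cfsg.Agent.TcChain36.Fi22.main.1
  have hp : ∃ y : GG, y ≠ 1 := exists_ne 1
  obtain ⟨y, hy⟩ := hp
  have h2 : Subgroup.zpowers y = ⊤ := by
    have hnorm : (Subgroup.zpowers y).Normal := by
      refine ⟨fun n hn g => ?_⟩
      rw [hcon g n, mul_assoc, mul_inv_cancel, mul_one]
      exact hn
    rcases hnorm.eq_bot_or_eq_top with h3 | h3
    · exact absurd (Subgroup.zpowers_eq_bot.mp h3) hy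
    · exact h3
  have h4 : Subgroup.zpowers (y ^ 2) = ⊤ ∨ Subgroup.zpowers (y ^ 2) = ⊥ := by
    have hnorm : (Subgroup.zpowers (y ^ 2)).Normal := by
      refine ⟨fun n hn g => ?_⟩
      rw [hcon g n, mul_assoc, mul_inv_cancel, mul_one]
      exact hn
    rcases hnorm.eq_bot_or_eq_top with h3 | h3
    · exact Or.inr h3
    · exact Or.inl h3
  have hc := Cfsg.Agent.TcChain36.Fi22.main.2
  have hc2 : Nat.card GG = orderOf y := by
    rw [← Nat.card_zpowers, h2, Subgroup.card_top]
  rcases h4 with h4 | h4
  · have hc3 : Nat.card GG = orderOf (y ^ 2) := by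
      rw [← Nat.card_zpowers, h4, Subgroup.card_top]
    have hc4 : orderOf (y ^ 2) = orderOf y / Nat.gcd (orderOf y) 2 :=
      orderOf_pow' _ (by norm_num)
    rw [← hc2] at hc4
    rw [← hc3, hc] at hc4
    norm_num at hc4
  · have h5 : y ^ 2 = 1 := Subgroup.zpowers_eq_bot.mp h4
    have h6 : orderOf y ∣ 2 := orderOf_dvd_of_pow_eq_one h5
    rw [← hc2, hc] at h6
    norm_num at h6

theorem exists_six : ∃ (Γ : Type) (_ : Group Γ) (_ : Finite Γ) (σ : Γ →* GG),
    Cfsg.IsStemExtension σ ∧ Nonempty (σ.ker ≃* Multiplicative (ZMod 6)) := by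
  classical
  haveI : IsSimpleGroup GG := Cfsg.Agent.TcChain36.Fi22.main.1
  obtain ⟨π2, hσ2, hc2⟩ := stem_of_nonsplit (H := Cfsg.Agent.TcData.Fi23.I31671.HH) nonab
    Cfsg.Agent.TcChain36.Fi23.cover
  haveI : Finite Cfsg.Agent.TcData.Fi23.I31671.HH := Cfsg.Agent.TcChain36.Fi23.finH
  have hst := Cfsg.Agent.Lib.SchurFib.fib_stem stem3 hσ2 (by rw [card3, hc2]; decide)
  refine ⟨↥(Cfsg.Agent.Lib.SchurFib.fibP π3 π2), inferInstance, inferInstance, Cfsg.Agent.Lib.SchurFib.fibΨ π3 π2, hst, ?_⟩
  obtain ⟨e'⟩ := Cfsg.Agent.Lib.SchurFib.fib_ker_equiv (π₁ := π3) (π₂ := π2) π3.ker π2.ker (MulEquiv.refl _) (MulEquiv.refl _)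
  have hcard : Nat.card (Cfsg.Agent.Lib.SchurFib.fibΨ π3 π2).ker = 6 := by
    rw [Nat.card_congr e'.toEquiv, Nat.card_prod, card3, hc2]
  have hcyc : IsCyclic (Cfsg.Agent.Lib.SchurFib.fibΨ π3 π2).ker := by
    apply isCyclic_of_comm_squarefree'
    · intro a b
      apply Subtype.ext
      exact mem_center_iff.mp (hst.2.1 b.2) a.1
    · rw [hcard]
      have e : (6 : ℕ) = 2 * 3 := rfl
      rw [e, Nat.squarefree_mul (by decide)]
      exact ⟨Nat.prime_two.prime.irreducible.squarefree, Nat.prime_three.prime.irreducible.squarefree⟩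
  refine ⟨mulEquivOfCyclicCardEq ?_⟩
  rw [hcard, Nat.card_eq_fintype_card]
  simp [ZMod.card]

end Cfsg.Agent.Lib.SchurFi22Low
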