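import Mathlib
import Cfsg.Prelude.Def_KGroupFacts

/-!
Stem extensions through the free group on `Q`.  With `F = FreeGroup Q`, `R = ker (F → Q)` we choose `T` with
`[F,R] ≤ T ≤ R`, `T ∩ F' = [F,R]`, `R = T (F' ∩ R)`.  Then `F / T → Q` is a finite stem extension whose kernel
surjects onto `E' ∩ ker ε` for every central extension `ε : E → Q`.
-/

set_option autoImplicit false

namespace Cfsg.Agent.Lib.StemCover

open Subgroup
open scoped commutatorElement

universe u v w

section central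

variable {E : Type*} {Q : Type*} {F : Type*} [Group E] [Group Q] [Group F]

/-- Commutators do not see central factors. -/
theorem commutator_mul_central (a b z w : E) (hz : z ∈ center E) (hw : w ∈ center E) :
    ⁅a * z, b * w⁆ = ⁅a, b⁆ := by
  have hz' := Subgroup.mem_center_iff.mp hz
  have hw' := Subgroup.mem_center_iff.mp hw
  simp only [commutatorElement_def]
  rw [mul_inv_rev, mul_inv_rev]
  calc a * z * (b * w) * (z⁻¹ * a⁻¹) * (w⁻¹ * b⁻¹)
      = a * (z * b) * w * z⁻¹ * a⁻¹ * w⁻¹ * b⁻¹ := by group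
    _ = a * (b * z) * w * z⁻¹ * a⁻¹ * w⁻¹ * b⁻¹ := by rw [hz' b]
    _ = a * b * (z * w * z⁻¹) * a⁻¹ * w⁻¹ * b⁻¹ := by group
    _ = a * b * w * a⁻¹ * w⁻¹ * b⁻¹ := by rw [(hz' w).symm]; group
    _ = a * b * a⁻¹ * (w * w⁻¹) * b⁻¹ := by
        rw [mul_assoc (a * b) w, (hw' a⁻¹).symm]; group
    _ = a * b * a⁻¹ * b⁻¹ := by group

/-- If the image of `f` supplements the central kernel of `ε`, then `f` maps `F'` onto `E'`. -/
theorem map_commutator_of_supplement (ε : E →* Q) (hc : ε.ker ≤ center E) (f : F →* E)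
    (hf : ∀ x : E, ∃ y : F, ε (f y) = ε x) : (commutator F).map f = commutator E := by
  apply le_antisymm
  · rw [_root_.commutator_def, Subgroup.map_le_iff_le_comap, Subgroup.commutator_le]
    intro a _ b _
    rw [Subgroup.mem_comap, map_commutatorElement]
    exact Subgroup.commutator_mem_commutator (Subgroup.mem_top _) (Subgroup.mem_top _)
  · conv_lhs => rw [_root_.commutator_def]
    rw [Subgroup.commutator_le]
    intro a _ b _
    obtain ⟨a', ha'⟩ := hf a
    obtain ⟨b', hb'⟩ := hf b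
    have hza : (f a')⁻¹ * a ∈ center E := hc (by rw [MonoidHom.mem_ker, map_mul, map_inv, ha']; simp)
    have hzb : (f b')⁻¹ * b ∈ center E := hc (by rw [MonoidHom.mem_ker, map_mul, map_inv, hb']; simp)
    have key : ⁅a, b⁆ = f ⁅a', b'⁆ := by
      rw [map_commutatorElement, ← commutator_mul_central (f a') (f b') _ _ hza hzb]
      congr 1 <;> group
    rw [key]
    exact Subgroup.mem_map_of_mem _ (Subgroup.commutator_mem_commutator (Subgroup.mem_top _) (Subgroup.mem_top _))

/-- A group with central subgroup of finite index has finite derived group. -/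
theorem finite_commutator_of_finiteIndex_center [FiniteIndex (center E)] : Finite (commutator E) := by
  have : Finite (E ⧸ center E) := inferInstance
  have hs : Finite (commutatorSet E) := by
    let f : (E ⧸ center E) × (E ⧸ center E) → commutatorSet E := fun x =>
      ⟨⁅x.1.out, x.2.out⁆, commutator_mem_commutatorSet _ _⟩
    refine Finite.of_surjective f ?_
    rintro ⟨_, a, b, rfl⟩
    refine ⟨((a : E ⧸ center E), (b : E ⧸ center E)), Subtype.ext ?_⟩
    show ⁅(a : E ⧸ center E).out, (b : E ⧸ center E).out⁆ = ⁅a, b⁆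
    have e1 : (a : E ⧸ center E).out⁻¹ * a ∈ center E := by
      have := QuotientGroup.eq.mp (QuotientGroup.out_eq' (a : E ⧸ center E))
      exact this
    have e2 : (b : E ⧸ center E).out⁻¹ * b ∈ center E := by
      have := QuotientGroup.eq.mp (QuotientGroup.out_eq' (b : E ⧸ center E))
      exact this
    rw [← commutator_mul_central (a : E ⧸ center E).out (b : E ⧸ center E).out _ _ e1 e2]
    congr 1 <;> group
  infer_instance

end central

section free

variable (Q : Type u) [Group Q]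

/-- The canonical surjection from the free group. -/
noncomputable def psi : FreeGroup Q →* Q := FreeGroup.lift id

theorem psi_surj : Function.Surjective (psi Q) := fun q => ⟨FreeGroup.of q, by simp [psi]⟩

variable {Q}

/-- Lifting the free group along a surjection. -/
noncomputable def lifted {E : Type*} [Group E] (ε : E →* Q) (hε : Function.Surjective ε) : FreeGroup Q →* E :=
  FreeGroup.lift (Function.surjInv hε)

theorem comp_lifted {E : Type*} [Group E] (ε : E →* Q) (hε : Function.Surjective ε) :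
    ε.comp (lifted ε hε) = psi Q := by
  ext q
  simp [lifted, psi, Function.surjInv_eq]

variable (Q)

/-- The subgroup `[F, R]`. -/
noncomputable def brN : Subgroup (FreeGroup Q) := ⁅(⊤ : Subgroup (FreeGroup Q)), (psi Q).ker⁆

instance brN_normal : (brN Q).Normal := by
  unfold brN; infer_instance

theorem brN_le_ker : brN Q ≤ (psi Q).ker := by
  unfold brN
  exact Subgroup.commutator_le_right _ _

theorem brN_le_commutator : brN Q ≤ commutator (FreeGroup Q) := by
  unfold brN
  rw [_root_.commutator_def]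
  exact Subgroup.commutator_mono le_top le_top

variable {Q}

theorem brN_le_of_central {E : Type*} [Group E] (ε : E →* Q) (hc : ε.ker ≤ center E)
    (f : FreeGroup Q →* E) (hf : ε.comp f = psi Q) : brN Q ≤ f.ker := by
  unfold brN
  rw [Subgroup.commutator_le]
  intro g _ r hr
  rw [MonoidHom.mem_ker, map_commutatorElement]
  have h1 : f r ∈ center E := hc (by
    rw [MonoidHom.mem_ker]
    have := congrArg (fun m => m r) hf
    simp only [MonoidHom.comp_apply] at this
    rw [this]; exact hr)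
  rw [commutatorElement_def, Subgroup.mem_center_iff.mp h1 (f g)]
  group

end free

section section_lemma

variable {Q : Type u} [Group Q] [Finite Q]

/-- Subgroups of the abelianised free group are projective. -/
theorem exists_section (Y : Subgroup (Abelianization (FreeGroup Q))) {W : Type*} [Group W]
    (hcomm : ∀ a b : W, a * b = b * a) (p : W →* Y) (hp : Function.Surjective p) :
    ∃ s : Y →* W, ∀ y, p (s y) = y := by
  classical
  letI : CommGroup W := { (inferInstance : Group W) with mul_comm := hcomm }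
  -- the submodule
  let N : Submodule ℤ (FreeAbelianGroup Q) := AddSubgroup.toIntSubmodule (Subgroup.toAddSubgroup Y)
  have hb : Module.Basis Q ℤ (FreeAbelianGroup Q) :=
    Module.Basis.ofRepr (FreeAbelianGroup.equivFinsupp Q).toIntLinearEquiv
  obtain ⟨n, bN⟩ := N.nonempty_basis_of_pid hb
  obtain ⟨bN⟩ := bN
  have hfree : Module.Free ℤ N := Module.Free.of_basis bN
  have hproj : Module.Projective ℤ N := inferInstance
  -- the map from `Additive W` onto `N`
  let toN : Y → N := fun y => ⟨Additive.ofMul (y : Abelianization (FreeGroup Q)), y.2⟩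
  let ofN : N → Y := fun y => ⟨Additive.toMul (show Additive (Abelianization (FreeGroup Q)) from y.1), y.2⟩
  let p' : Additive W →+ N :=
    { toFun := fun w => toN (p (Additive.toMul w))
      map_zero' := by
        show toN (p 1) = 0
        rw [map_one]
        rfl
      map_add' := fun a b => by
        show toN (p (Additive.toMul a * Additive.toMul b)) = _
        rw [map_mul]
        rfl }
  have hp' : Function.Surjective p' := by
    intro y
    obtain ⟨w, hw⟩ := hp (ofN y)
    refine ⟨Additive.ofMul w, ?_⟩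
    show toN (p w) = y
    rw [hw]
    rfl
  obtain ⟨h, hh⟩ := Module.projective_lifting_property p'.toIntLinearMap LinearMap.id hp'
  refine ⟨MonoidHom.mk' (fun y => Additive.toMul (h (toN y))) ?_, ?_⟩
  · intro a b
    have : toN (a * b) = toN a + toN b := by
      apply Subtype.ext
      rfl
    rw [this, map_add]
    rfl
  · intro y
    have := LinearMap.congr_fun hh (toN y)
    have h2 : p' (h (toN y)) = toN y := this
    have h3 : toN (p (Additive.toMul (h (toN y)))) = toN y := h2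
    have h4 : p (Additive.toMul (h (toN y))) = y := by
      apply Subtype.ext
      have := congrArg Subtype.val h3
      exact this
    exact h4

/-- Existence of the subgroup `T`. -/
theorem exists_T (W : Subgroup (FreeGroup Q)) (hW : W ≤ (psi Q).ker) (hN : brN Q ≤ W)
    (hgen : ∀ r ∈ (psi Q).ker, ∃ w ∈ W, w⁻¹ * r ∈ commutator (FreeGroup Q)) :
    ∃ T : Subgroup (FreeGroup Q), brN Q ≤ T ∧ T ≤ W ∧ (∀ t ∈ T, t ∈ commutator (FreeGroup Q) → t ∈ brN Q) ∧
      ∀ r ∈ (psi Q).ker, ∃ t ∈ T, t⁻¹ * r ∈ commutator (FreeGroup Q) := by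
  classical
  let mk := QuotientGroup.mk' (brN Q)
  let φbar : (FreeGroup Q ⧸ brN Q) →* Abelianization (FreeGroup Q) :=
    QuotientGroup.lift (brN Q) Abelianization.of (by
      intro x hx
      rw [Abelianization.ker_of]
      exact brN_le_commutator Q hx)
  have hφ : ∀ x, φbar (mk x) = Abelianization.of x := fun x => rfl
  let Wbar : Subgroup (FreeGroup Q ⧸ brN Q) := W.map mk
  let Y : Subgroup (Abelianization (FreeGroup Q)) := Wbar.map φbar
  -- `Wbar` is commutative
  have hcentral : ∀ w ∈ W, ∀ g : FreeGroup Q, mk (g * w * g⁻¹ * w⁻¹) = 1 := by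
    intro w hw g
    rw [← MonoidHom.mem_ker, QuotientGroup.ker_mk']
    have : ⁅g, w⁆ ∈ brN Q := Subgroup.commutator_mem_commutator (Subgroup.mem_top _) (hW hw)
    simpa [commutatorElement_def] using this
  have hcomm : ∀ a b : Wbar, a * b = b * a := by
    rintro ⟨_, a, ha, rfl⟩ ⟨_, b, hb, rfl⟩
    apply Subtype.ext
    show mk a * mk b = mk b * mk a
    have := hcentral a ha b
    rw [map_mul, map_mul, map_mul, map_inv, map_inv, mul_inv_eq_one, mul_inv_eq_iff_eq_mul] at this
    exact this.symm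
  let p : Wbar →* Y := (φbar.comp Wbar.subtype).codRestrict Y (fun x => Subgroup.mem_map_of_mem _ x.2)
  have hp : Function.Surjective p := by
    rintro ⟨_, x, hx, rfl⟩
    exact ⟨⟨x, hx⟩, rfl⟩
  obtain ⟨s, hs⟩ := exists_section Y hcomm p hp
  let Tbar : Subgroup (FreeGroup Q ⧸ brN Q) := s.range.map Wbar.subtype
  let T : Subgroup (FreeGroup Q) := Tbar.comap mk
  have hTW : Tbar ≤ Wbar := by
    rintro _ ⟨_, ⟨y, rfl⟩, rfl⟩
    exact (s y).2
  refine ⟨T, ?_, ?_, ?_, ?_⟩
  · intro x hx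
    have : mk x = 1 := by
      rw [← MonoidHom.mem_ker, QuotientGroup.ker_mk']
      exact hx
    show mk x ∈ Tbar
    rw [this]
    exact one_mem _
  · intro x hx
    have h1 : mk x ∈ Wbar := hTW hx
    obtain ⟨w, hw, hwx⟩ := h1
    have : w⁻¹ * x ∈ brN Q := by
      rw [← QuotientGroup.ker_mk' (brN Q)]
      rw [MonoidHom.mem_ker, map_mul, map_inv]
      show (mk w)⁻¹ * mk x = 1
      rw [← hwx]; simp
    have h2 := W.mul_mem hw (hN this)
    simpa using h2
  · intro t ht htc
    obtain ⟨_, ⟨y, rfl⟩, hy⟩ := ht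
    have h1 : φbar (mk t) = 1 := by
      rw [hφ]
      rw [← MonoidHom.mem_ker, Abelianization.ker_of]
      exact htc
    have h2 : (y : Abelianization (FreeGroup Q)) = 1 := by
      have h3 := hs y
      have h4 : ((p (s y) : Y) : Abelianization (FreeGroup Q)) = φbar ((s y : Wbar) : FreeGroup Q ⧸ brN Q) := rfl
      rw [← h3, h4]
      have h5 : ((s y : Wbar) : FreeGroup Q ⧸ brN Q) = mk t := hy
      rw [h5, h1]
    have h3 : y = 1 := Subtype.ext h2
    have h4 : mk t = 1 := by
      rw [← show ((s y : Wbar) : FreeGroup Q ⧸ brN Q) = mk t from hy, h3]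
      simp
    rw [← MonoidHom.mem_ker, QuotientGroup.ker_mk'] at h4
    exact h4
  · intro r hr
    obtain ⟨w, hw, hwr⟩ := hgen r hr
    have hofw : Abelianization.of w = Abelianization.of r := by
      have := hwr
      rw [← Abelianization.ker_of, MonoidHom.mem_ker, map_mul, map_inv, inv_mul_eq_one] at this
      exact this
    have hY : Abelianization.of r ∈ Y := by
      rw [← hofw, ← hφ]
      exact Subgroup.mem_map_of_mem _ (Subgroup.mem_map_of_mem _ hw)
    let y : Y := ⟨Abelianization.of r, hY⟩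
    have h1 : ((s y : Wbar) : FreeGroup Q ⧸ brN Q) ∈ Wbar := (s y).2
    obtain ⟨t, _, ht⟩ := h1
    refine ⟨t, ?_, ?_⟩
    · show mk t ∈ Tbar
      rw [ht]
      exact ⟨s y, ⟨y, rfl⟩, rfl⟩
    · rw [← Abelianization.ker_of, MonoidHom.mem_ker, map_mul, map_inv, inv_mul_eq_one]
      have h2 := hs y
      have h3 : ((p (s y) : Y) : Abelianization (FreeGroup Q)) = φbar (mk t) := by
        show φbar ((s y : Wbar) : FreeGroup Q ⧸ brN Q) = _
        rw [← ht]
      rw [← hφ, ← h3, h2]

end section_lemma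

section cover

variable {Q : Type u} [Group Q]

/-- The subgroups `T` from which one builds the covers. -/
structure IsHopfT (T : Subgroup (FreeGroup Q)) : Prop where
  brN_le : brN Q ≤ T
  le_ker : T ≤ (psi Q).ker
  inf_le : ∀ t ∈ T, t ∈ commutator (FreeGroup Q) → t ∈ brN Q
  supp : ∀ r ∈ (psi Q).ker, ∃ t ∈ T, t⁻¹ * r ∈ commutator (FreeGroup Q)

namespace IsHopfT

variable {T : Subgroup (FreeGroup Q)} (hT : IsHopfT T)

include hT

theorem normal : T.Normal := by
  constructor
  intro t ht g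
  have h1 : ⁅g, t⁆ ∈ brN Q := Subgroup.commutator_mem_commutator (Subgroup.mem_top _) (hT.le_ker ht)
  have h2 : g * t * g⁻¹ = ⁅g, t⁆ * t := by
    rw [commutatorElement_def]; group
  rw [h2]
  exact T.mul_mem (hT.brN_le h1) ht

end IsHopfT

/-- The homomorphism `F / T → Q`. -/
noncomputable def sigmaT (T : Subgroup (FreeGroup Q)) [T.Normal] (hT : T ≤ (psi Q).ker) :
    (FreeGroup Q ⧸ T) →* Q := QuotientGroup.lift T (psi Q) hT

theorem sigmaT_mk (T : Subgroup (FreeGroup Q)) [T.Normal] (hT : T ≤ (psi Q).ker) (x : FreeGroup Q) :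
    sigmaT T hT (x : FreeGroup Q ⧸ T) = psi Q x := rfl

theorem sigmaT_surj (T : Subgroup (FreeGroup Q)) [T.Normal] (hT : T ≤ (psi Q).ker) :
    Function.Surjective (sigmaT T hT) := by
  intro q
  obtain ⟨x, hx⟩ := psi_surj Q q
  exact ⟨(x : FreeGroup Q ⧸ T), hx⟩

theorem mem_ker_sigmaT (T : Subgroup (FreeGroup Q)) [T.Normal] (hT : T ≤ (psi Q).ker) (x : FreeGroup Q) :
    (x : FreeGroup Q ⧸ T) ∈ (sigmaT T hT).ker ↔ x ∈ (psi Q).ker := Iff.rfl

/-- Stem property of `F / T → Q`. -/
theorem isStem_sigmaT {T : Subgroup (FreeGroup Q)} [T.Normal] (hT : IsHopfT T) :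
    Cfsg.IsStemExtension (sigmaT T hT.le_ker) := by
  have hcen : (sigmaT T hT.le_ker).ker ≤ center (FreeGroup Q ⧸ T) := by
    intro z hz
    obtain ⟨r, rfl⟩ := QuotientGroup.mk_surjective z
    have hr : r ∈ (psi Q).ker := hz
    rw [Subgroup.mem_center_iff]
    intro g
    obtain ⟨g, rfl⟩ := QuotientGroup.mk_surjective g
    have h1 : ⁅g, r⁆ ∈ T := hT.brN_le (Subgroup.commutator_mem_commutator (Subgroup.mem_top _) hr)
    have h2 : ((⁅g, r⁆ : FreeGroup Q) : FreeGroup Q ⧸ T) = 1 := (QuotientGroup.eq_one_iff _).mpr h1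
    rw [commutatorElement_def, QuotientGroup.mk_mul, QuotientGroup.mk_mul, QuotientGroup.mk_mul,
      QuotientGroup.mk_inv, QuotientGroup.mk_inv, mul_inv_eq_one, mul_inv_eq_iff_eq_mul] at h2
    exact h2
  refine ⟨sigmaT_surj T hT.le_ker, hcen, ?_⟩
  intro z hz
  obtain ⟨r, rfl⟩ := QuotientGroup.mk_surjective z
  have hr : r ∈ (psi Q).ker := hz
  obtain ⟨t, ht, htr⟩ := hT.supp r hr
  have hm : (commutator (FreeGroup Q)).map (QuotientGroup.mk' T) = commutator (FreeGroup Q ⧸ T) :=
    map_commutator_of_supplement (sigmaT T hT.le_ker) hcen (QuotientGroup.mk' T) (by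
      intro x
      obtain ⟨y, rfl⟩ := QuotientGroup.mk_surjective x
      exact ⟨y, rfl⟩)
  rw [← hm]
  refine ⟨t⁻¹ * r, htr, ?_⟩
  show ((t⁻¹ * r : FreeGroup Q) : FreeGroup Q ⧸ T) = r
  rw [QuotientGroup.mk_mul, QuotientGroup.mk_inv, (QuotientGroup.eq_one_iff _).mpr ht]
  simp

/-- The universal property. -/
theorem exists_surj {T : Subgroup (FreeGroup Q)} [T.Normal] (hT : IsHopfT T) {E : Type*} [Group E]
    (ε : E →* Q) (hε : Function.Surjective ε) (hc : ε.ker ≤ center E) :
    ∃ h : (sigmaT T hT.le_ker).ker →* ↥(commutator E ⊓ ε.ker), Function.Surjective h := by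
  let f := lifted ε hε
  have hf : ε.comp f = psi Q := comp_lifted ε hε
  have hf' : ∀ x, ε (f x) = psi Q x := fun x => congrArg (fun m => m x) hf
  let C : Subgroup (FreeGroup Q) := commutator (FreeGroup Q) ⊓ (psi Q).ker
  have hm : (commutator (FreeGroup Q)).map f = commutator E :=
    map_commutator_of_supplement ε hc f (by
      intro x
      obtain ⟨y, hy⟩ := psi_surj Q (ε x)
      exact ⟨y, by rw [hf', hy]⟩)
  let u : C →* (sigmaT T hT.le_ker).ker :=
    ((QuotientGroup.mk' T).comp C.subtype).codRestrict _ (fun x => x.2.2)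
  let v : C →* ↥(commutator E ⊓ ε.ker) :=
    (f.comp C.subtype).codRestrict _ (fun x => ⟨by
      rw [← hm]; exact Subgroup.mem_map_of_mem _ x.2.1, by
      show ε (f x) = 1
      rw [hf']; exact x.2.2⟩)
  have hu : Function.Surjective u := by
    rintro ⟨z, hz⟩
    obtain ⟨r, rfl⟩ := QuotientGroup.mk_surjective z
    have hr : r ∈ (psi Q).ker := hz
    obtain ⟨t, ht, htr⟩ := hT.supp r hr
    refine ⟨⟨t⁻¹ * r, htr, ?_⟩, ?_⟩
    · have e1 : psi Q t = 1 := hT.le_ker ht
      have e2 : psi Q r = 1 := hr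
      show psi Q (t⁻¹ * r) = 1
      rw [map_mul, map_inv, e1, e2]; simp
    · apply Subtype.ext
      show ((t⁻¹ * r : FreeGroup Q) : FreeGroup Q ⧸ T) = r
      rw [QuotientGroup.mk_mul, QuotientGroup.mk_inv, (QuotientGroup.eq_one_iff _).mpr ht]
      simp
  have huv : u.ker ≤ v.ker := by
    rintro ⟨x, hx⟩ hux
    have h1 : (x : FreeGroup Q ⧸ T) = 1 := congrArg Subtype.val hux
    have h2 : x ∈ T := (QuotientGroup.eq_one_iff _).mp h1
    have h3 : x ∈ brN Q := hT.inf_le x h2 hx.1
    have h4 : f x = 1 := brN_le_of_central ε hc f hf h3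
    rw [MonoidHom.mem_ker]
    exact Subtype.ext h4
  refine ⟨(MonoidHom.liftOfSurjective u hu) ⟨v, huv⟩, ?_⟩
  rintro ⟨z, hzc, hzk⟩
  rw [← hm] at hzc
  obtain ⟨x, hx, rfl⟩ := hzc
  have hxr : x ∈ (psi Q).ker := by
    rw [MonoidHom.mem_ker, ← hf']
    exact hzk
  refine ⟨u ⟨x, hx, hxr⟩, ?_⟩
  have := MonoidHom.liftOfRightInverse_comp_apply u (Function.surjInv hu) (Function.rightInverse_surjInv hu)
    ⟨v, huv⟩ ⟨x, hx, hxr⟩
  exact this

/-- Finiteness of the kernel of the cover. -/
theorem finite_quot [Finite Q] {T : Subgroup (FreeGroup Q)} [T.Normal] (hT : IsHopfT T) :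
    Finite (FreeGroup Q ⧸ T) := by
  -- `E = F / [F,R]`
  let E := FreeGroup Q ⧸ brN Q
  let ε : E →* Q := QuotientGroup.lift (brN Q) (psi Q) (brN_le_ker Q)
  have hεc : ε.ker ≤ center E := by
    intro z hz
    obtain ⟨r, rfl⟩ := QuotientGroup.mk_surjective z
    have hr : r ∈ (psi Q).ker := hz
    rw [Subgroup.mem_center_iff]
    intro g
    obtain ⟨g, rfl⟩ := QuotientGroup.mk_surjective g
    have h1 : ⁅g, r⁆ ∈ brN Q := Subgroup.commutator_mem_commutator (Subgroup.mem_top _) hr
    have h2 : ((⁅g, r⁆ : FreeGroup Q) : E) = 1 := (QuotientGroup.eq_one_iff _).mpr h1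
    rw [commutatorElement_def, QuotientGroup.mk_mul, QuotientGroup.mk_mul, QuotientGroup.mk_mul,
      QuotientGroup.mk_inv, QuotientGroup.mk_inv, mul_inv_eq_one, mul_inv_eq_iff_eq_mul] at h2
    exact h2
  have hfi : (center E).FiniteIndex := by
    have h1 : ε.ker.FiniteIndex := inferInstance
    exact Subgroup.finiteIndex_of_le hεc
  have hEfin : Finite (commutator E) := finite_commutator_of_finiteIndex_center
  let n : E →* (FreeGroup Q ⧸ T) := QuotientGroup.map (brN Q) T (MonoidHom.id _) (by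
    intro x hx
    exact hT.brN_le hx)
  have hstem := isStem_sigmaT hT
  have hm : (commutator E).map n = commutator (FreeGroup Q ⧸ T) :=
    map_commutator_of_supplement (sigmaT T hT.le_ker) hstem.2.1 n (by
      intro x
      obtain ⟨y, rfl⟩ := QuotientGroup.mk_surjective x
      exact ⟨(y : E), rfl⟩)
  have hfin2 : Finite (commutator (FreeGroup Q ⧸ T)) := by
    rw [← hm]
    exact Finite.of_surjective (n.subgroupMap (commutator E)) (n.subgroupMap_surjective _)
  have hfin3 : Finite (sigmaT T hT.le_ker).ker :=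
    Finite.of_injective (Subgroup.inclusion hstem.2.2) (Subgroup.inclusion_injective _)
  exact (MonoidHom.finite_iff_finite_ker_range (sigmaT T hT.le_ker)).mpr ⟨hfin3, inferInstance⟩

/-- Any `T` as produced from a stem extension. -/
theorem exists_T_over [Finite Q] {Δ : Type*} [Group Δ] (τ : Δ →* Q) (hτ : Cfsg.IsStemExtension τ) :
    ∃ T : Subgroup (FreeGroup Q), IsHopfT T ∧ T ≤ (lifted τ hτ.1).ker := by
  let f := lifted τ hτ.1
  have hf : τ.comp f = psi Q := comp_lifted τ hτ.1
  have hf' : ∀ x, τ (f x) = psi Q x := fun x => congrArg (fun m => m x) hf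
  have hm : (commutator (FreeGroup Q)).map f = commutator Δ :=
    map_commutator_of_supplement τ hτ.2.1 f (by
      intro x
      obtain ⟨y, hy⟩ := psi_surj Q (τ x)
      exact ⟨y, by rw [hf', hy]⟩)
  have hW : f.ker ≤ (psi Q).ker := by
    intro x hx
    rw [MonoidHom.mem_ker, ← hf', hx, map_one]
  have hN : brN Q ≤ f.ker := brN_le_of_central τ hτ.2.1 f hf
  have hgen : ∀ r ∈ (psi Q).ker, ∃ w ∈ f.ker, w⁻¹ * r ∈ commutator (FreeGroup Q) := by
    intro r hr
    have h1 : f r ∈ τ.ker := by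
      rw [MonoidHom.mem_ker, hf']; exact hr
    have h2 := hτ.2.2 h1
    rw [← hm] at h2
    obtain ⟨x, hx, hxr⟩ := h2
    refine ⟨r * x⁻¹, ?_, ?_⟩
    · rw [MonoidHom.mem_ker, map_mul, map_inv, hxr]; simp
    · have : (r * x⁻¹)⁻¹ * r = x := by group
      rw [this]; exact hx
  obtain ⟨T, h1, h2, h3, h4⟩ := exists_T f.ker hW hN hgen
  exact ⟨T, ⟨h1, h2.trans hW, h3, h4⟩, h2⟩

/-- The map `F/T → Δ`. -/
theorem exists_beta [Finite Q] {Δ : Type*} [Group Δ] (τ : Δ →* Q) (hτ : Cfsg.IsStemExtension τ)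
    {T : Subgroup (FreeGroup Q)} [T.Normal] (hT : IsHopfT T) (hT2 : T ≤ (lifted τ hτ.1).ker) :
    ∃ β : (FreeGroup Q ⧸ T) →* Δ, Function.Surjective β ∧ τ.comp β = sigmaT T hT.le_ker := by
  let f := lifted τ hτ.1
  have hf : τ.comp f = psi Q := comp_lifted τ hτ.1
  have hf' : ∀ x, τ (f x) = psi Q x := fun x => congrArg (fun m => m x) hf
  have hm : (commutator (FreeGroup Q)).map f = commutator Δ :=
    map_commutator_of_supplement τ hτ.2.1 f (by
      intro x
      obtain ⟨y, hy⟩ := psi_surj Q (τ x)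
      exact ⟨y, by rw [hf', hy]⟩)
  refine ⟨QuotientGroup.lift T f hT2, ?_, ?_⟩
  · intro d
    obtain ⟨y, hy⟩ := psi_surj Q (τ d)
    have h1 : (f y)⁻¹ * d ∈ τ.ker := by
      rw [MonoidHom.mem_ker, map_mul, map_inv, hf', hy]; simp
    have h2 := hτ.2.2 h1
    rw [← hm] at h2
    obtain ⟨x, _, hxr⟩ := h2
    refine ⟨((y * x : FreeGroup Q) : FreeGroup Q ⧸ T), ?_⟩
    show f (y * x) = d
    rw [map_mul, hxr]; group
  · refine MonoidHom.ext fun z => ?_
    obtain ⟨x, rfl⟩ := QuotientGroup.mk_surjective z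
    exact hf' x

end cover

section multiplier

variable {Q : Type u} [Group Q] [Finite Q] {A : Type v} [CommGroup A]

omit [Finite Q] in
/-- The multiplier is finite. -/
theorem finite_of_multiplier (hA : Cfsg.HasSchurMultiplier Q A) : Finite A := by
  obtain ⟨⟨Γ, _, _, σ, _, ⟨e⟩⟩, _⟩ := hA
  exact Finite.of_equiv _ e.toEquiv

/-- A multiplier of `Q` maps onto `E' ∩ ker ε` for every central extension. -/
theorem exists_surj_of_multiplier (hA : Cfsg.HasSchurMultiplier Q A) {E : Type*} [Group E]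
    (ε : E →* Q) (hε : Function.Surjective ε) (hc : ε.ker ≤ center E) :
    ∃ h : A →* ↥(commutator E ⊓ ε.ker), Function.Surjective h := by
  obtain ⟨T, hT, -⟩ := exists_T_over (MonoidHom.id Q) ⟨Function.surjective_id, by
    intro x hx
    have : x = 1 := hx
    rw [this]; exact one_mem _, by
    intro x hx
    have : x = 1 := hx
    rw [this]; exact one_mem _⟩
  haveI := hT.normal
  haveI := finite_quot hT
  obtain ⟨π, hπ⟩ := hA.2 _ (sigmaT T hT.le_ker) (isStem_sigmaT hT)
  obtain ⟨h, hh⟩ := exists_surj hT ε hε hc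
  exact ⟨h.comp π, hh.comp hπ⟩

/-- The kernel of `F/T → Q` is the multiplier. -/
theorem nonempty_ker_equiv (hA : Cfsg.HasSchurMultiplier Q A) {T : Subgroup (FreeGroup Q)} [T.Normal]
    (hT : IsHopfT T) : Nonempty ((sigmaT T hT.le_ker).ker ≃* A) := by
  haveI := finite_quot hT
  haveI := finite_of_multiplier hA
  obtain ⟨⟨Γ, _, _, σ, hσ, ⟨e⟩⟩, _⟩ := id hA
  obtain ⟨π, hπ⟩ := hA.2 _ (sigmaT T hT.le_ker) (isStem_sigmaT hT)
  obtain ⟨h, hh⟩ := exists_surj hT σ hσ.1 hσ.2.1
  -- `h : ker → Γ' ⊓ ker σ = ker σ ≃ A`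
  have hle : commutator Γ ⊓ σ.ker = σ.ker := inf_eq_right.mpr hσ.2.2
  let g : A →* A := e.toMonoidHom.comp ((Subgroup.inclusion (le_of_eq hle)).comp (h.comp π))
  have hg : Function.Surjective g := by
    intro a
    obtain ⟨z, hz⟩ := (hh.comp hπ) ⟨e.symm a, by
      exact ⟨hσ.2.2 (e.symm a).2, (e.symm a).2⟩⟩
    refine ⟨z, ?_⟩
    show e (Subgroup.inclusion (le_of_eq hle) (h (π z))) = a
    have h2 : h (π z) = _ := hz
    rw [h2]
    have h3 : Subgroup.inclusion (le_of_eq hle) (⟨(e.symm a : Γ), ⟨hσ.2.2 (e.symm a).2, (e.symm a).2⟩⟩ : ↥(commutator Γ ⊓ σ.ker)) = e.symm a := rfl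
    rw [h3]; simp
  have hginj : Function.Injective g := Finite.injective_iff_surjective.mpr hg
  have hπinj : Function.Injective π := by
    intro a b hab
    apply hginj
    show e _ = e _
    simp only [MonoidHom.comp_apply]
    rw [hab]
  exact ⟨(MulEquiv.ofBijective π ⟨hπinj, hπ⟩).symm⟩

/-- A divisible subgroup of an abelian group is a retract. -/
theorem exists_retraction {X : Type*} {Y : Type*} [CommGroup X] [Group Y] (hcomm : ∀ a b : Y, a * b = b * a)
    (i : Y →* X) (hi : Function.Injective i) (hdiv : ∀ (y : Y) (n : ℕ), 0 < n → ∃ w : Y, w ^ n = y) :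
    ∃ r : X →* Y, ∀ y, r (i y) = y := by
  classical
  letI : CommGroup Y := { (inferInstance : Group Y) with mul_comm := hcomm }
  haveI : DivisibleBy (Additive Y) ℤ := by
    refine divisibleByOfSMulRightSurj (Additive Y) ℤ ?_
    intro n hn y
    rcases Int.eq_nat_or_neg n with ⟨m, rfl | rfl⟩
    · obtain ⟨w, hw⟩ := hdiv (Additive.toMul y) m (by
        rcases Nat.eq_zero_or_pos m with h | h
        · subst h; simp at hn
        · exact h)
      refine ⟨Additive.ofMul w, ?_⟩
      show ((m : ℤ) • Additive.ofMul w) = y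
      rw [natCast_zsmul, ← ofMul_pow, hw]
      rfl
    · obtain ⟨w, hw⟩ := hdiv (Additive.toMul y) m (by
        rcases Nat.eq_zero_or_pos m with h | h
        · subst h; simp at hn
        · exact h)
      refine ⟨- Additive.ofMul w, ?_⟩
      show ((-(m : ℤ)) • (- Additive.ofMul w)) = y
      rw [neg_smul, smul_neg, neg_neg, natCast_zsmul, ← ofMul_pow, hw]
      rfl
  let i' : Additive Y →+ Additive X := MonoidHom.toAdditive i
  have hi' : Function.Injective i' := hi
  obtain ⟨r, hr⟩ := (Module.Baer.of_divisible (Additive Y)).extension_property_addMonoidHom i' hi'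
    (AddMonoidHom.id _)
  refine ⟨MonoidHom.mk' (fun x => Additive.toMul (r (Additive.ofMul x))) ?_, ?_⟩
  · intro a b
    rw [ofMul_mul, map_add]
    rfl
  · intro y
    have := DFunLike.congr_fun hr (Additive.ofMul y)
    exact this

/-- Every finite stem extension with kernel the multiplier maps to each central extension with divisible
kernel. -/
theorem lift_of_divisible (hA : Cfsg.HasSchurMultiplier Q A) {Γ : Type*} [Group Γ] [Finite Γ] (σ : Γ →* Q)
    (hσ : Cfsg.IsStemExtension σ) (hk : Nonempty (σ.ker ≃* A)) {E : Type*} [Group E] (ε : E →* Q)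
    (hε : Function.Surjective ε) (hc : ε.ker ≤ center E)
    (hdiv : ∀ z ∈ ε.ker, ∀ n : ℕ, 0 < n → ∃ w ∈ ε.ker, w ^ n = z) :
    ∃ β : Γ →* E, ε.comp β = σ := by
  classical
  obtain ⟨e⟩ := hk
  haveI := finite_of_multiplier hA
  let P : Subgroup (Γ × E) := MonoidHom.eqLocus (σ.comp (MonoidHom.fst Γ E)) (ε.comp (MonoidHom.snd Γ E))
  have hP : ∀ x : Γ × E, x ∈ P ↔ σ x.1 = ε x.2 := fun x => Iff.rfl
  let ε₁ : P →* Q := (σ.comp (MonoidHom.fst Γ E)).comp P.subtype
  let p₁ : P →* Γ := (MonoidHom.fst Γ E).comp P.subtype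
  let p₂ : P →* E := (MonoidHom.snd Γ E).comp P.subtype
  have hp₁s : Function.Surjective p₁ := by
    intro g
    obtain ⟨x, hx⟩ := hε (σ g)
    exact ⟨⟨(g, x), hx.symm⟩, rfl⟩
  have hε₁s : Function.Surjective ε₁ := fun q => by
    obtain ⟨g, hg⟩ := hσ.1 q
    obtain ⟨x, hx⟩ := hp₁s g
    exact ⟨x, by rw [← hg, ← hx]; rfl⟩
  have hε₁c : ε₁.ker ≤ center P := by
    rintro ⟨⟨k, z⟩, hx⟩ hk
    have hk1 : σ k = 1 := hk
    have hz1 : ε z = 1 := by
      have : σ k = ε z := hx
      rw [← this, hk1]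
    have h1 : k ∈ center Γ := hσ.2.1 hk1
    have h2 : z ∈ center E := hc hz1
    rw [Subgroup.mem_center_iff]
    rintro ⟨⟨g, y⟩, hy⟩
    apply Subtype.ext
    apply Prod.ext
    · exact Subgroup.mem_center_iff.mp h1 g
    · exact Subgroup.mem_center_iff.mp h2 y
  obtain ⟨h, hh⟩ := exists_surj_of_multiplier hA ε₁ hε₁s hε₁c
  have hm : (commutator P).map p₁ = commutator Γ :=
    map_commutator_of_supplement σ hσ.2.1 p₁ (fun x => by
      obtain ⟨y, hy⟩ := hp₁s x
      exact ⟨y, by rw [hy]⟩)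
  let q : ↥(commutator P ⊓ ε₁.ker) →* σ.ker :=
    (p₁.comp (commutator P ⊓ ε₁.ker).subtype).codRestrict _ (fun x => x.2.2)
  have hq : Function.Surjective q := by
    rintro ⟨k, hk⟩
    have h1 := hσ.2.2 hk
    rw [← hm] at h1
    obtain ⟨x, hx, hxk⟩ := h1
    have hxk' : (x : Γ × E).1 = k := hxk
    refine ⟨⟨x, hx, ?_⟩, Subtype.ext hxk⟩
    show σ (x : Γ × E).1 = 1
    rw [hxk']; exact hk
  have hcomp : Function.Surjective (e.toMonoidHom.comp (q.comp h)) :=
    e.surjective.comp (hq.comp hh)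
  have hinj : Function.Injective (e.toMonoidHom.comp (q.comp h)) :=
    Finite.injective_iff_surjective.mpr hcomp
  have hqinj : Function.Injective q := by
    intro a b hab
    obtain ⟨a', rfl⟩ := hh a
    obtain ⟨b', rfl⟩ := hh b
    have : a' = b' := hinj (by
      show e (q (h a')) = e (q (h b'))
      rw [hab])
    rw [this]
  -- `1 × ker ε` meets `P'` trivially
  have hkey : ∀ (z : E) (hz : ε z = 1) (hz2 : ((1 : Γ), z) ∈ P), (⟨((1 : Γ), z), hz2⟩ : P) ∈ commutator P → z = 1 := by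
    intro z hz hz2 hzc
    have h1 : (⟨(⟨((1 : Γ), z), hz2⟩ : P), hzc, by
      show σ 1 = 1
      exact map_one σ⟩ : ↥(commutator P ⊓ ε₁.ker)) = 1 := by
      apply hqinj
      apply Subtype.ext
      rw [map_one]
      rfl
    have h2 := congrArg (fun x : ↥(commutator P ⊓ ε₁.ker) => ((x : P) : Γ × E).2) h1
    exact h2
  have hmemP : ∀ z : ε.ker, ((1 : Γ), (z : E)) ∈ P := fun z => by
    rw [hP]
    show σ 1 = ε z
    rw [map_one, z.2]
  let i : ε.ker →* Abelianization P :=
    { toFun := fun z => Abelianization.of ⟨((1 : Γ), (z : E)), hmemP z⟩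
      map_one' := by
        have : (⟨((1 : Γ), ((1 : ε.ker) : E)), hmemP 1⟩ : P) = 1 := rfl
        rw [this, map_one]
      map_mul' := fun a b => by
        rw [← map_mul]
        congr 1
        apply Subtype.ext
        apply Prod.ext
        · show (1 : Γ) = 1 * 1
          simp
        · rfl }
  have hi : Function.Injective i := by
    rw [injective_iff_map_eq_one]
    intro z hz
    have h1 : (⟨((1 : Γ), (z : E)), hmemP z⟩ : P) ∈ commutator P := by
      rw [← Abelianization.ker_of]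
      exact hz
    exact Subtype.ext (hkey z z.2 (hmemP z) h1)
  have hcommk : ∀ a b : ε.ker, a * b = b * a := by
    intro a b
    apply Subtype.ext
    exact (Subgroup.mem_center_iff.mp (hc a.2) b).symm
  have hdiv' : ∀ (y : ε.ker) (n : ℕ), 0 < n → ∃ w : ε.ker, w ^ n = y := by
    intro y n hn
    obtain ⟨w, hw, hwn⟩ := hdiv y y.2 n hn
    exact ⟨⟨w, hw⟩, Subtype.ext hwn⟩
  obtain ⟨r, hr⟩ := exists_retraction hcommk i hi hdiv'
  -- the homomorphism `P → E`
  let ζ : P →* ε.ker := r.comp Abelianization.of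
  have hζc : ∀ x y : P, ((ζ y)⁻¹ : ε.ker).1 * (p₂ x) = p₂ x * ((ζ y)⁻¹ : ε.ker).1 := by
    intro x y
    exact (Subgroup.mem_center_iff.mp (hc (ζ y)⁻¹.2) (p₂ x)).symm
  let b : P →* E := MonoidHom.mk' (fun x => p₂ x * ((ζ x)⁻¹ : ε.ker).1) (by
    intro x y
    rw [map_mul, map_mul]
    have e1 : ((ζ x * ζ y)⁻¹ : ε.ker).1 = ((ζ x)⁻¹ : ε.ker).1 * ((ζ y)⁻¹ : ε.ker).1 := by
      rw [mul_inv_rev, hcommk]
      rfl
    rw [e1]
    calc p₂ x * p₂ y * (((ζ x)⁻¹ : ε.ker).1 * ((ζ y)⁻¹ : ε.ker).1)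
        = p₂ x * (p₂ y * ((ζ x)⁻¹ : ε.ker).1) * ((ζ y)⁻¹ : ε.ker).1 := by group
      _ = p₂ x * (((ζ x)⁻¹ : ε.ker).1 * p₂ y) * ((ζ y)⁻¹ : ε.ker).1 := by rw [hζc y x]
      _ = p₂ x * ((ζ x)⁻¹ : ε.ker).1 * (p₂ y * ((ζ y)⁻¹ : ε.ker).1) := by group)
  have hb : ∀ x, b x = p₂ x * ((ζ x)⁻¹ : ε.ker).1 := fun x => rfl
  have hkerb : p₁.ker ≤ b.ker := by
    rintro ⟨⟨k, z⟩, hx⟩ hk
    have hk1 : k = 1 := hk
    subst hk1
    have hz : ε z = 1 := by
      have : σ 1 = ε z := hx
      rw [← this, map_one]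
    have h1 : ζ ⟨((1 : Γ), z), hx⟩ = ⟨z, hz⟩ := hr ⟨z, hz⟩
    rw [MonoidHom.mem_ker, hb, h1]
    show z * z⁻¹ = 1
    simp
  refine ⟨(MonoidHom.liftOfSurjective p₁ hp₁s) ⟨b, hkerb⟩, ?_⟩
  refine MonoidHom.ext fun g => ?_
  obtain ⟨x, rfl⟩ := hp₁s g
  have h1 := MonoidHom.liftOfRightInverse_comp_apply p₁ (Function.surjInv hp₁s)
    (Function.rightInverse_surjInv hp₁s) ⟨b, hkerb⟩ x
  show ε ((MonoidHom.liftOfSurjective p₁ hp₁s) ⟨b, hkerb⟩ (p₁ x)) = σ (p₁ x)
  rw [show (MonoidHom.liftOfSurjective p₁ hp₁s) ⟨b, hkerb⟩ (p₁ x) = b x from h1, hb, map_mul]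
  have h2 : ε ((ζ x)⁻¹ : ε.ker).1 = 1 := ((ζ x)⁻¹ : ε.ker).2
  rw [h2, mul_one]
  exact x.2.symm

end multiplier

end Cfsg.Agent.Lib.StemCover
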