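import Mathlib
import Cfsg.Agent.Lib.StemCover

/-!
`H²(G, ℂˣ)` by explicit normalised cocycles: restriction, corestriction, `cor ∘ res = m`, and its identification
with the dual of the Schur multiplier.
-/

set_option autoImplicit false

namespace Cfsg.Agent.Lib.SchurH2

open Subgroup
open scoped commutatorElement

universe u v

section cocycles

variable (G : Type u) [Group G]

/-- Normalised 2-cocycles. -/
def Z2 : Subgroup (G → G → ℂˣ) where
  carrier := {α | (∀ x y z, α x y * α (x * y) z = α y z * α x (y * z)) ∧ (∀ x, α x 1 = 1) ∧ (∀ y, α 1 y = 1)}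
  mul_mem' := by
    rintro a b ⟨h1, h2, h3⟩ ⟨h4, h5, h6⟩
    refine ⟨fun x y z => ?_, fun x => ?_, fun y => ?_⟩
    · simp only [Pi.mul_apply]
      calc a x y * b x y * (a (x * y) z * b (x * y) z) = (a x y * a (x * y) z) * (b x y * b (x * y) z) := by
            simp only [mul_comm, mul_left_comm]
        _ = (a y z * a x (y * z)) * (b y z * b x (y * z)) := by rw [h1, h4]
        _ = _ := by simp only [mul_comm, mul_left_comm]
    · simp [h2, h5]
    · simp [h3, h6]
  one_mem' := by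
    refine ⟨fun x y z => ?_, fun x => ?_, fun y => ?_⟩ <;> simp
  inv_mem' := by
    rintro a ⟨h1, h2, h3⟩
    refine ⟨fun x y z => ?_, fun x => ?_, fun y => ?_⟩
    · simp only [Pi.inv_apply]
      rw [← mul_inv, ← mul_inv, h1]
    · simp [h2]
    · simp [h3]

/-- Coboundaries. -/
def B2 : Subgroup (Z2 G) where
  carrier := {α | ∃ f : G → ℂˣ, ∀ x y, (α : G → G → ℂˣ) x y = f x * f y * (f (x * y))⁻¹}
  mul_mem' := by
    rintro a b ⟨f, hf⟩ ⟨g, hg⟩
    refine ⟨f * g, fun x y => ?_⟩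
    show (a : G → G → ℂˣ) x y * (b : G → G → ℂˣ) x y = _
    rw [hf, hg]
    simp only [Pi.mul_apply, mul_inv]
    simp only [mul_comm, mul_left_comm, mul_assoc]
  one_mem' := ⟨1, fun x y => by simp⟩
  inv_mem' := by
    rintro a ⟨f, hf⟩
    refine ⟨f⁻¹, fun x y => ?_⟩
    show ((a : G → G → ℂˣ) x y)⁻¹ = _
    rw [hf]
    simp only [Pi.inv_apply, mul_inv, inv_inv]

/-- The second cohomology group. -/
abbrev H2 : Type u := Z2 G ⧸ B2 G

end cocycles

section twisted

variable {G : Type u} [Group G]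

/-- The central extension attached to a cocycle. -/
@[ext]
structure Tw (_α : Z2 G) : Type u where
  fst : G
  snd : ℂˣ

variable (α : Z2 G)

instance : Mul (Tw α) := ⟨fun a b => ⟨a.fst * b.fst, a.snd * b.snd * (α : G → G → ℂˣ) a.fst b.fst⟩⟩
instance : One (Tw α) := ⟨⟨1, 1⟩⟩
instance : Inv (Tw α) := ⟨fun a => ⟨a.fst⁻¹, a.snd⁻¹ * ((α : G → G → ℂˣ) a.fst⁻¹ a.fst)⁻¹⟩⟩

theorem tw_mul_fst (a b : Tw α) : (a * b).fst = a.fst * b.fst := rfl
theorem tw_mul_snd (a b : Tw α) :
    (a * b).snd = a.snd * b.snd * (α : G → G → ℂˣ) a.fst b.fst := rfl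
theorem tw_one_fst : (1 : Tw α).fst = 1 := rfl
theorem tw_one_snd : (1 : Tw α).snd = 1 := rfl

noncomputable instance : Group (Tw α) :=
  Group.ofLeftAxioms
    (by
      intro a b c
      apply Tw.ext
      · simp only [tw_mul_fst, mul_assoc]
      · simp only [tw_mul_fst, tw_mul_snd]
        have := α.2.1 a.fst b.fst c.fst
        calc a.snd * b.snd * (α : G → G → ℂˣ) a.fst b.fst * c.snd * (α : G → G → ℂˣ) (a.fst * b.fst) c.fst
            = a.snd * b.snd * c.snd * ((α : G → G → ℂˣ) a.fst b.fst * (α : G → G → ℂˣ) (a.fst * b.fst) c.fst) := by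
              simp only [mul_comm, mul_left_comm, mul_assoc]
          _ = _ := by
              rw [this]
              simp only [mul_comm, mul_left_comm, mul_assoc])
    (by
      intro a
      apply Tw.ext
      · simp only [tw_mul_fst, tw_one_fst, one_mul]
      · simp only [tw_mul_snd, tw_one_fst, tw_one_snd, one_mul]
        rw [α.2.2.2 a.fst, mul_one])
    (by
      intro a
      apply Tw.ext
      · show a.fst⁻¹ * a.fst = 1
        simp
      · show a.snd⁻¹ * ((α : G → G → ℂˣ) a.fst⁻¹ a.fst)⁻¹ * a.snd * (α : G → G → ℂˣ) a.fst⁻¹ a.fst = 1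
        simp only [mul_comm, mul_left_comm, mul_inv_cancel, mul_one])

/-- The projection. -/
def twFst : Tw α →* G where
  toFun a := a.fst
  map_one' := rfl
  map_mul' _ _ := rfl

theorem twFst_surj : Function.Surjective (twFst α) := fun x => ⟨⟨x, 1⟩, rfl⟩

theorem ker_le_center : (twFst α).ker ≤ center (Tw α) := by
  intro a ha
  rw [Subgroup.mem_center_iff]
  intro b
  have h : a.fst = 1 := ha
  apply Tw.ext
  · simp only [tw_mul_fst, h, mul_one, one_mul]
  · simp only [tw_mul_snd, h]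
    rw [α.2.2.1, α.2.2.2, mul_one, mul_one, mul_comm]

theorem ker_divisible : ∀ z ∈ (twFst α).ker, ∀ n : ℕ, 0 < n → ∃ w ∈ (twFst α).ker, w ^ n = z := by
  intro z hz n hn
  have h : z.fst = 1 := hz
  obtain ⟨d, hd⟩ := IsAlgClosed.exists_pow_nat_eq ((z.snd : ℂˣ) : ℂ) hn
  have hd0 : d ≠ 0 := by
    intro h0
    rw [h0, zero_pow hn.ne'] at hd
    exact z.snd.ne_zero hd.symm
  refine ⟨⟨1, Units.mk0 d hd0⟩, rfl, ?_⟩
  have hpow : ∀ (u : ℂˣ) (k : ℕ), (⟨1, u⟩ : Tw α) ^ k = ⟨1, u ^ k⟩ := by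
    intro u k
    induction k with
    | zero =>
      rw [pow_zero, pow_zero]
      rfl
    | succ k ih =>
      rw [pow_succ, ih, pow_succ]
      apply Tw.ext
      · show (1 : G) * 1 = 1
        simp
      · show u ^ k * u * (α : G → G → ℂˣ) 1 1 = u ^ k * u
        rw [α.2.2.1, mul_one]
  rw [hpow]
  apply Tw.ext
  · exact h.symm
  · apply Units.ext
    rw [Units.val_pow_eq_pow_val]
    simpa using hd

end twisted

section tra

variable {G : Type u} [Group G] {A : Type v} [CommGroup A]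

variable {Γ : Type*} [Group Γ] (σ : Γ →* G) (hσ : Function.Surjective σ)

/-- A normalised section. -/
noncomputable def sec : G → Γ := by
  classical
  exact fun x => if x = 1 then 1 else Function.surjInv hσ x

theorem sigma_sec (x : G) : σ (sec σ hσ x) = x := by
  classical
  unfold sec
  split_ifs with h
  · rw [h, map_one]
  · exact Function.surjInv_eq hσ x

theorem sec_one : sec σ hσ 1 = 1 := by
  classical
  unfold sec
  rw [if_pos rfl]

/-- The factor set of `σ`. -/
noncomputable def kappa (x y : G) : σ.ker :=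
  ⟨sec σ hσ x * sec σ hσ y * (sec σ hσ (x * y))⁻¹, by
    rw [MonoidHom.mem_ker, map_mul, map_mul, map_inv, sigma_sec, sigma_sec, sigma_sec]
    simp⟩

theorem kappa_spec (x y : G) : sec σ hσ x * sec σ hσ y = (kappa σ hσ x y : Γ) * sec σ hσ (x * y) := by
  simp [kappa]

theorem kappa_cocycle (hc : σ.ker ≤ center Γ) (x y z : G) :
    kappa σ hσ x y * kappa σ hσ (x * y) z = kappa σ hσ y z * kappa σ hσ x (y * z) := by
  apply Subtype.ext
  show ((kappa σ hσ x y : Γ)) * (kappa σ hσ (x * y) z : Γ) = (kappa σ hσ y z : Γ) * (kappa σ hσ x (y * z) : Γ)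
  have h1 : sec σ hσ x * sec σ hσ y * sec σ hσ z =
      (kappa σ hσ x y : Γ) * (kappa σ hσ (x * y) z : Γ) * sec σ hσ (x * y * z) := by
    rw [kappa_spec σ hσ x y, mul_assoc, kappa_spec σ hσ (x * y) z, ← mul_assoc]
  have h2 : sec σ hσ x * sec σ hσ y * sec σ hσ z =
      (kappa σ hσ y z : Γ) * (kappa σ hσ x (y * z) : Γ) * sec σ hσ (x * (y * z)) := by
    calc sec σ hσ x * sec σ hσ y * sec σ hσ z = sec σ hσ x * (sec σ hσ y * sec σ hσ z) := mul_assoc _ _ _
      _ = sec σ hσ x * ((kappa σ hσ y z : Γ) * sec σ hσ (y * z)) := by rw [kappa_spec σ hσ y z]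
      _ = (sec σ hσ x * (kappa σ hσ y z : Γ)) * sec σ hσ (y * z) := (mul_assoc _ _ _).symm
      _ = ((kappa σ hσ y z : Γ) * sec σ hσ x) * sec σ hσ (y * z) := by
          rw [(Subgroup.mem_center_iff.mp (hc (kappa σ hσ y z).2) _)]
      _ = (kappa σ hσ y z : Γ) * (sec σ hσ x * sec σ hσ (y * z)) := mul_assoc _ _ _
      _ = _ := by rw [kappa_spec σ hσ x (y * z), mul_assoc]
  rw [mul_assoc x y z] at h1
  exact mul_right_cancel (h1.symm.trans h2)

theorem kappa_one_left (x : G) : kappa σ hσ 1 x = 1 := by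
  apply Subtype.ext
  show sec σ hσ 1 * sec σ hσ x * (sec σ hσ (1 * x))⁻¹ = 1
  rw [sec_one, one_mul, one_mul, mul_inv_cancel]

theorem kappa_one_right (x : G) : kappa σ hσ x 1 = 1 := by
  apply Subtype.ext
  show sec σ hσ x * sec σ hσ 1 * (sec σ hσ (x * 1))⁻¹ = 1
  rw [sec_one, mul_one, mul_one, mul_inv_cancel]

/-- The transgression of a character. -/
noncomputable def traZ (hc : σ.ker ≤ center Γ) (lam : σ.ker →* ℂˣ) : Z2 G :=
  ⟨fun x y => lam (kappa σ hσ x y), by
    refine ⟨fun x y z => ?_, fun x => ?_, fun y => ?_⟩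
    · show lam (kappa σ hσ x y) * lam (kappa σ hσ (x * y) z) = lam (kappa σ hσ y z) * lam (kappa σ hσ x (y * z))
      rw [← map_mul, ← map_mul, kappa_cocycle σ hσ hc]
    · show lam (kappa σ hσ x 1) = 1
      rw [kappa_one_right, map_one]
    · show lam (kappa σ hσ 1 y) = 1
      rw [kappa_one_left, map_one]⟩

end tra

section tra2

variable {G : Type u} [Group G] {Γ : Type*} [Group Γ] (σ : Γ →* G) (hσ : Cfsg.IsStemExtension σ)

/-- Transgression as a homomorphism to `H²`. -/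
noncomputable def traH : (σ.ker →* ℂˣ) →* H2 G :=
  MonoidHom.mk' (fun lam => (QuotientGroup.mk (traZ σ hσ.1 hσ.2.1 lam) : H2 G)) (by
    intro a b
    rw [← QuotientGroup.mk_mul]
    rfl)

theorem traH_apply (lam : σ.ker →* ℂˣ) :
    traH σ hσ lam = (QuotientGroup.mk (traZ σ hσ.1 hσ.2.1 lam) : H2 G) := rfl

/-- Transgression is injective for stem extensions. -/
theorem traH_injective : Function.Injective (traH σ hσ) := by
  rw [injective_iff_map_eq_one]
  intro lam hlam
  have h1 : traZ σ hσ.1 hσ.2.1 lam ∈ B2 G := (QuotientGroup.eq_one_iff _).mp hlam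
  obtain ⟨f, hf⟩ := h1
  have hf' : ∀ x y, lam (kappa σ hσ.1 x y) = f x * f y * (f (x * y))⁻¹ := hf
  have hf1 : f 1 = 1 := by
    have h2 := hf' 1 1
    rw [kappa_one_left, map_one, one_mul] at h2
    simpa using h2.symm
  let kk : Γ → σ.ker := fun g => ⟨(sec σ hσ.1 (σ g))⁻¹ * g, by
    rw [MonoidHom.mem_ker, map_mul, map_inv, sigma_sec]
    simp⟩
  have hkk : ∀ g, g = sec σ hσ.1 (σ g) * (kk g : Γ) := fun g => by simp [kk]
  have hkmul : ∀ g g', kk (g * g') = kappa σ hσ.1 (σ g) (σ g') * kk g * kk g' := by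
    intro g g'
    apply Subtype.ext
    show (sec σ hσ.1 (σ (g * g')))⁻¹ * (g * g') = (kappa σ hσ.1 (σ g) (σ g') : Γ) * (kk g : Γ) * (kk g' : Γ)
    have hc1 := Subgroup.mem_center_iff.mp (hσ.2.1 (kk g).2)
    have hc2 := Subgroup.mem_center_iff.mp (hσ.2.1 (kappa σ hσ.1 (σ g) (σ g')).2)
    have e1 : g * g' = sec σ hσ.1 (σ g) * sec σ hσ.1 (σ g') * ((kk g : Γ) * (kk g' : Γ)) := by
      conv_lhs => rw [hkk g, hkk g']
      calc sec σ hσ.1 (σ g) * (kk g : Γ) * (sec σ hσ.1 (σ g') * (kk g' : Γ))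
          = sec σ hσ.1 (σ g) * ((kk g : Γ) * sec σ hσ.1 (σ g')) * (kk g' : Γ) := by group
        _ = sec σ hσ.1 (σ g) * (sec σ hσ.1 (σ g') * (kk g : Γ)) * (kk g' : Γ) := by rw [← hc1]
        _ = _ := by group
    rw [map_mul σ g g', e1, kappa_spec σ hσ.1 (σ g) (σ g')]
    calc (sec σ hσ.1 (σ g * σ g'))⁻¹ * ((kappa σ hσ.1 (σ g) (σ g') : Γ) * sec σ hσ.1 (σ g * σ g') * ((kk g : Γ) * (kk g' : Γ)))
        = (sec σ hσ.1 (σ g * σ g'))⁻¹ * (sec σ hσ.1 (σ g * σ g') * (kappa σ hσ.1 (σ g) (σ g') : Γ)) * ((kk g : Γ) * (kk g' : Γ)) := by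
          rw [hc2]; group
      _ = _ := by group
  let χ : Γ →* ℂˣ := MonoidHom.mk' (fun g => f (σ g) * lam (kk g)) (by
    intro g g'
    rw [hkmul, map_mul σ g g', map_mul lam, map_mul lam, hf']
    generalize f (σ g) = a
    generalize f (σ g') = b
    generalize f (σ g * σ g') = c
    generalize lam (kk g) = u
    generalize lam (kk g') = v
    have e : c * (a * b * c⁻¹ * u * v) = (c * c⁻¹) * (a * u * (b * v)) := by ac_rfl
    rw [e, mul_inv_cancel, one_mul])
  have hχ : ∀ k : σ.ker, χ k = lam k := by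
    intro k
    show f (σ (k : Γ)) * lam (kk k) = lam k
    have h3 : σ (k : Γ) = 1 := k.2
    have h4 : kk k = k := by
      apply Subtype.ext
      show (sec σ hσ.1 (σ (k : Γ)))⁻¹ * (k : Γ) = k
      rw [h3, sec_one]
      simp
    rw [h3, hf1, h4, one_mul]
  ext k
  rw [← hχ k]
  have hd : commutator Γ ≤ χ.ker := by
    rw [_root_.commutator_def, Subgroup.commutator_le]
    intro a _ b _
    rw [MonoidHom.mem_ker, map_commutatorElement, commutatorElement_eq_one_iff_mul_comm, mul_comm]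
  have h5 : χ k = 1 := hd (hσ.2.2 k.2)
  rw [h5]
  rfl

variable {A : Type v} [CommGroup A] [Finite G] [Finite Γ]

/-- Transgression is surjective for Schur covers. -/
theorem traH_surjective (hA : Cfsg.HasSchurMultiplier G A) (hk : Nonempty (σ.ker ≃* A)) :
    Function.Surjective (traH σ hσ) := by
  intro x
  obtain ⟨α, rfl⟩ := QuotientGroup.mk_surjective x
  obtain ⟨β, hβ⟩ := Cfsg.Agent.Lib.StemCover.lift_of_divisible hA σ hσ hk (twFst α) (twFst_surj α)
    (ker_le_center α) (ker_divisible α)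
  have hβ1 : ∀ g, (β g).fst = σ g := fun g => congrArg (fun m => m g) hβ
  let lam : σ.ker →* ℂˣ := MonoidHom.mk' (fun k => (β (k : Γ)).snd) (by
    intro a b
    show (β ((a : Γ) * (b : Γ))).snd = _
    rw [map_mul, tw_mul_snd, hβ1, hβ1, show σ (a : Γ) = 1 from a.2, show σ (b : Γ) = 1 from b.2, α.2.2.1, mul_one])
  refine ⟨lam, ?_⟩
  rw [traH_apply]
  rw [QuotientGroup.eq]
  refine ⟨fun x => ((β (sec σ hσ.1 x)).snd)⁻¹, fun x y => ?_⟩
  show (lam (kappa σ hσ.1 x y))⁻¹ * (α : G → G → ℂˣ) x y = _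
  show ((β (kappa σ hσ.1 x y : Γ)).snd)⁻¹ * (α : G → G → ℂˣ) x y =
    ((β (sec σ hσ.1 x)).snd)⁻¹ * ((β (sec σ hσ.1 y)).snd)⁻¹ * (((β (sec σ hσ.1 (x * y))).snd)⁻¹)⁻¹
  have h1 := congrArg (fun g => (β g).snd) (kappa_spec σ hσ.1 x y)
  simp only [map_mul, tw_mul_snd, hβ1, sigma_sec] at h1
  have h2 : σ (kappa σ hσ.1 x y : Γ) = 1 := (kappa σ hσ.1 x y).2
  rw [h2, α.2.2.2, mul_one] at h1
  have h3 := eq_inv_mul_of_mul_eq h1
  rw [h3, mul_inv, inv_inv]
  generalize (β (sec σ hσ.1 x)).snd = a at *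
  generalize (β (sec σ hσ.1 y)).snd = b at *
  generalize (β (sec σ hσ.1 (x * y))).snd = c at *
  generalize (β (kappa σ hσ.1 x y : Γ)).snd = d at *
  have e : d⁻¹ * (a⁻¹ * b⁻¹ * (d * c)) = (d⁻¹ * d) * (a⁻¹ * b⁻¹ * c) := by ac_rfl
  rw [e, inv_mul_cancel, one_mul]

/-- `H²(G, ℂˣ)` is isomorphic to the Schur multiplier. -/
theorem nonempty_h2_equiv (hA : Cfsg.HasSchurMultiplier G A) : Nonempty (H2 G ≃* A) := by
  obtain ⟨⟨Γ, _, _, σ, hσ, ⟨e⟩⟩, _⟩ := id hA
  haveI := Cfsg.Agent.Lib.StemCover.finite_of_multiplier hA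
  haveI : NeZero (Monoid.exponent A) := ⟨Monoid.exponent_ne_zero_of_finite⟩
  obtain ⟨e2⟩ := CommGroup.monoidHom_mulEquiv_of_hasEnoughRootsOfUnity A ℂ
  let E : (σ.ker →* ℂˣ) ≃* H2 G := MulEquiv.ofBijective (traH σ hσ)
    ⟨traH_injective σ hσ, traH_surjective σ hσ hA ⟨e⟩⟩
  exact ⟨E.symm.trans (e.monoidHomCongrLeft.trans e2)⟩

end tra2

section res

variable {G : Type u} [Group G] (U : Subgroup G)

/-- Restriction of cocycles. -/
def resZ : Z2 G →* Z2 U :=
  MonoidHom.mk' (fun α => ⟨fun x y => (α : G → G → ℂˣ) x y, by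
    refine ⟨fun x y z => ?_, fun x => ?_, fun y => ?_⟩
    · exact α.2.1 x y z
    · exact α.2.2.1 x
    · exact α.2.2.2 y⟩) (by
    intro a b
    rfl)

theorem resZ_apply (α : Z2 G) (x y : U) : (resZ U α : U → U → ℂˣ) x y = (α : G → G → ℂˣ) x y := rfl

/-- Restriction on cohomology. -/
noncomputable def resH : H2 G →* H2 U :=
  QuotientGroup.map (B2 G) (B2 U) (resZ U) (by
    rintro α ⟨f, hf⟩
    exact ⟨fun x => f x, fun x y => hf x y⟩)

theorem resH_mk (α : Z2 G) : resH U (QuotientGroup.mk α : H2 G) = (QuotientGroup.mk (resZ U α) : H2 U) := rfl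

variable [Fintype (G ⧸ U)]

/-- Coset representatives. -/
noncomputable def rep (q : G ⧸ U) : G := Quotient.out q

omit [Fintype (G ⧸ U)] in
theorem mk_rep (q : G ⧸ U) : ((rep U q : G) : G ⧸ U) = q := Quotient.out_eq' q

omit [Fintype (G ⧸ U)] in
theorem rep_mem (x : G) (q : G ⧸ U) : (rep U (x • q))⁻¹ * x * rep U q ∈ U := by
  have h1 : ((rep U (x • q) : G) : G ⧸ U) = ((x * rep U q : G) : G ⧸ U) := by
    rw [mk_rep]
    conv_lhs => rw [← mk_rep U q]
    rfl
  have h2 := QuotientGroup.eq.mp h1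
  rwa [← mul_assoc] at h2

/-- The cocycle of the monomial embedding. -/
noncomputable def cc (x : G) (q : G ⧸ U) : U := ⟨(rep U (x • q))⁻¹ * x * rep U q, rep_mem U x q⟩

omit [Fintype (G ⧸ U)] in
theorem cc_coe (x : G) (q : G ⧸ U) : (cc U x q : G) = (rep U (x • q))⁻¹ * x * rep U q := rfl

omit [Fintype (G ⧸ U)] in
theorem cc_mul (x y : G) (q : G ⧸ U) : cc U x (y • q) * cc U y q = cc U (x * y) q := by
  apply Subtype.ext
  show (rep U (x • y • q))⁻¹ * x * rep U (y • q) * ((rep U (y • q))⁻¹ * y * rep U q) =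
    (rep U ((x * y) • q))⁻¹ * (x * y) * rep U q
  rw [mul_smul]
  group

omit [Fintype (G ⧸ U)] in
theorem cc_one (q : G ⧸ U) : cc U 1 q = 1 := by
  apply Subtype.ext
  show (rep U ((1 : G) • q))⁻¹ * 1 * rep U q = 1
  rw [one_smul]
  group

/-- Corestriction of cochains. -/
noncomputable def corF (β : U → U → ℂˣ) (x y : G) : ℂˣ := ∏ q : G ⧸ U, β (cc U x (y • q)) (cc U y q)

/-- Corestriction of cocycles. -/
noncomputable def corZ : Z2 U →* Z2 G :=
  MonoidHom.mk' (fun β => ⟨corF U β, by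
    refine ⟨fun x y z => ?_, fun x => ?_, fun y => ?_⟩
    · -- reindexing
      have h1 : corF U β x y = ∏ q : G ⧸ U, (β : U → U → ℂˣ) (cc U x (y • z • q)) (cc U y (z • q)) := by
        unfold corF
        exact (Equiv.prod_comp (MulAction.toPerm z)
          (fun q => (β : U → U → ℂˣ) (cc U x (y • q)) (cc U y q))).symm
      have h2 : corF U β (x * y) z = ∏ q : G ⧸ U,
          (β : U → U → ℂˣ) (cc U x (y • z • q) * cc U y (z • q)) (cc U z q) := by
        unfold corF
        refine Finset.prod_congr rfl fun q _ => ?_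
        rw [cc_mul]
      have h3 : corF U β y z = ∏ q : G ⧸ U, (β : U → U → ℂˣ) (cc U y (z • q)) (cc U z q) := rfl
      have h4 : corF U β x (y * z) = ∏ q : G ⧸ U,
          (β : U → U → ℂˣ) (cc U x (y • z • q)) (cc U y (z • q) * cc U z q) := by
        unfold corF
        refine Finset.prod_congr rfl fun q _ => ?_
        rw [cc_mul, mul_smul]
      show corF U β x y * corF U β (x * y) z = corF U β y z * corF U β x (y * z)
      rw [h1, h2, h3, h4, ← Finset.prod_mul_distrib, ← Finset.prod_mul_distrib]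
      refine Finset.prod_congr rfl fun q _ => ?_
      exact β.2.1 _ _ _
    · show corF U β x 1 = 1
      unfold corF
      refine Finset.prod_eq_one fun q _ => ?_
      rw [cc_one]
      exact β.2.2.1 _
    · show corF U β 1 y = 1
      unfold corF
      refine Finset.prod_eq_one fun q _ => ?_
      rw [cc_one]
      exact β.2.2.2 _⟩) (by
    intro a b
    apply Subtype.ext
    funext x y
    show ∏ q : G ⧸ U, ((a : U → U → ℂˣ) (cc U x (y • q)) (cc U y q) * (b : U → U → ℂˣ) (cc U x (y • q)) (cc U y q)) = _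
    rw [Finset.prod_mul_distrib]
    rfl)

theorem corZ_apply (β : Z2 U) (x y : G) : (corZ U β : G → G → ℂˣ) x y = corF U β x y := rfl

/-- Corestriction on cohomology. -/
noncomputable def corH : H2 U →* H2 G :=
  QuotientGroup.map (B2 U) (B2 G) (corZ U) (by
    rintro β ⟨f, hf⟩
    refine ⟨fun x => ∏ q : G ⧸ U, f (cc U x q), fun x y => ?_⟩
    show corF U β x y = _
    unfold corF
    simp only [hf, cc_mul]
    rw [Finset.prod_mul_distrib, Finset.prod_mul_distrib, Finset.prod_inv_distrib]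
    congr 2
    exact Equiv.prod_comp (MulAction.toPerm y) (fun q => f (cc U x q)))

theorem corH_mk (β : Z2 U) : corH U (QuotientGroup.mk β : H2 U) = (QuotientGroup.mk (corZ U β) : H2 G) := rfl

/-- `cor ∘ res` is the `m`-th power. -/
theorem corH_resH (x : H2 G) : corH U (resH U x) = x ^ U.index := by
  classical
  obtain ⟨α, rfl⟩ := QuotientGroup.mk_surjective x
  rw [resH_mk, corH_mk, ← QuotientGroup.mk_pow, eq_comm, QuotientGroup.eq]
  -- in the twisted group
  let shat : G → Tw α := fun x => ⟨x, 1⟩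
  let chat : G → G ⧸ U → Tw α := fun x q => (shat (rep U (x • q)))⁻¹ * shat x * shat (rep U q)
  have hfst : ∀ x q, (chat x q).fst = (cc U x q : G) := fun x q => by
    show (rep U (x • q))⁻¹ * x * rep U q = _
    rfl
  let iota : ℂˣ → Tw α := fun z => ⟨1, z⟩
  have hiota : ∀ z, iota z ∈ center (Tw α) := fun z => ker_le_center α rfl
  have hshat : ∀ x y, shat x * shat y = iota ((α : G → G → ℂˣ) x y) * shat (x * y) := by
    intro x y
    apply Tw.ext
    · show x * y = 1 * (x * y)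
      rw [one_mul]
    · show (1 : ℂˣ) * 1 * (α : G → G → ℂˣ) x y = (α : G → G → ℂˣ) x y * 1 * (α : G → G → ℂˣ) 1 (x * y)
      rw [α.2.2.2]
      simp
  have hchat : ∀ x y q, chat x (y • q) * chat y q = iota ((α : G → G → ℂˣ) x y) * chat (x * y) q := by
    intro x y q
    show (shat (rep U (x • y • q)))⁻¹ * shat x * shat (rep U (y • q)) *
      ((shat (rep U (y • q)))⁻¹ * shat y * shat (rep U q)) =
      iota _ * ((shat (rep U ((x * y) • q)))⁻¹ * shat (x * y) * shat (rep U q))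
    have e1 : (shat (rep U (x • y • q)))⁻¹ * shat x * shat (rep U (y • q)) *
      ((shat (rep U (y • q)))⁻¹ * shat y * shat (rep U q)) =
      (shat (rep U (x • y • q)))⁻¹ * (shat x * shat y) * shat (rep U q) := by group
    rw [e1, hshat, mul_smul]
    have e2 := Subgroup.mem_center_iff.mp (hiota ((α : G → G → ℂˣ) x y)) (shat (rep U (x • y • q)))⁻¹
    calc (shat (rep U (x • y • q)))⁻¹ * (iota ((α : G → G → ℂˣ) x y) * shat (x * y)) * shat (rep U q)
        = ((shat (rep U (x • y • q)))⁻¹ * iota ((α : G → G → ℂˣ) x y)) * shat (x * y) * shat (rep U q) := by group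
      _ = (iota ((α : G → G → ℂˣ) x y) * (shat (rep U (x • y • q)))⁻¹) * shat (x * y) * shat (rep U q) := by rw [e2]
      _ = _ := by group
  -- second coordinates
  let g : G → ℂˣ := fun x => ∏ q : G ⧸ U, (chat x q).snd
  have hsnd : ∀ x y q, (α : G → G → ℂˣ) (cc U x (y • q) : G) (cc U y q : G) =
      (α : G → G → ℂˣ) x y * (chat (x * y) q).snd * ((chat x (y • q)).snd)⁻¹ * ((chat y q).snd)⁻¹ := by
    intro x y q
    have h1 : (chat x (y • q)).snd * (chat y q).snd * (α : G → G → ℂˣ) (chat x (y • q)).fst (chat y q).fst =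
        (α : G → G → ℂˣ) x y * (chat (x * y) q).snd * (α : G → G → ℂˣ) 1 (chat (x * y) q).fst :=
      congrArg Tw.snd (hchat x y q)
    rw [α.2.2.2, mul_one] at h1
    simp only [hfst] at h1
    rw [eq_mul_inv_iff_mul_eq, eq_mul_inv_iff_mul_eq, ← h1]
    ac_rfl
  refine ⟨g⁻¹, fun x y => ?_⟩
  have e1 : (((α ^ U.index)⁻¹ * corZ U (resZ U α) : Z2 G) : G → G → ℂˣ) x y =
      (((α : G → G → ℂˣ) x y) ^ U.index)⁻¹ * ∏ q : G ⧸ U, (α : G → G → ℂˣ) (cc U x (y • q) : G) (cc U y q : G) := rfl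
  rw [e1]
  simp only [hsnd]
  rw [Finset.prod_mul_distrib, Finset.prod_mul_distrib, Finset.prod_mul_distrib, Finset.prod_const,
    Finset.prod_inv_distrib, Finset.prod_inv_distrib, Finset.card_univ, ← Nat.card_eq_fintype_card]
  have h4 : ∏ q : G ⧸ U, (chat x (y • q)).snd = g x :=
    Equiv.prod_comp (MulAction.toPerm y) (fun q => (chat x q).snd)
  rw [h4]
  have h5 : Nat.card (G ⧸ U) = U.index := rfl
  rw [h5]
  show _ = (g x)⁻¹ * (g y)⁻¹ * ((g (x * y))⁻¹)⁻¹
  show _ * ((_ * g (x * y)) * (g x)⁻¹ * (g y)⁻¹) = _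
  rw [inv_inv]
  generalize (α : G → G → ℂˣ) x y ^ U.index = c
  generalize g (x * y) = a
  generalize g x = b
  generalize g y = d
  have e : c⁻¹ * (c * a * b⁻¹ * d⁻¹) = (c⁻¹ * c) * (b⁻¹ * d⁻¹ * a) := by ac_rfl
  rw [e, inv_mul_cancel, one_mul]

end res

section algebra

variable {X : Type*} {Y : Type*} [CommGroup X] [CommGroup Y]

/-- The splitting produced by `cor ∘ res = m`. -/
theorem exists_split [Finite X] {p : ℕ} [hp : Fact p.Prime] {m : ℕ} (hm : Nat.Coprime m p) (r : X →* Y) (c : Y →* X)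
    (hcr : ∀ x, c (r x) = x ^ m) (hY : ∀ y : Y, ∃ k : ℕ, y ^ p ^ k = 1) :
    ∃ C D : Subgroup Y, C ⊓ D = ⊥ ∧ C ⊔ D = ⊤ ∧ Nonempty (CommGroup.primaryComponent X p ≃* C) := by
  classical
  have hp1 : 1 < p := hp.out.one_lt
  let K := Nat.card X
  let N := p ^ K
  have hK : 0 < K := Nat.card_pos
  have hN1 : 1 < N := Nat.one_lt_pow hK.ne' hp1
  have hkill : ∀ x ∈ CommGroup.primaryComponent X p, x ^ N = 1 := by
    rintro x ⟨k, hk⟩
    have h1 : orderOf x ∣ p ^ k := orderOf_dvd_of_pow_eq_one hk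
    obtain ⟨j, _, hj⟩ := (Nat.dvd_prime_pow hp.out).mp h1
    have h2 : p ^ j ≤ K := by
      rw [← hj]
      exact Nat.le_of_dvd Nat.card_pos (orderOf_dvd_natCard x)
    have h3 : j ≤ K := (Nat.lt_pow_self hp1).le.trans h2
    have h4 : orderOf x ∣ N := by
      rw [hj]
      exact pow_dvd_pow p h3
    exact orderOf_dvd_iff_pow_eq_one.mp h4
  have hcop : Nat.Coprime m N := Nat.Coprime.pow_right K hm
  obtain ⟨u, hu⟩ := Nat.exists_mul_mod_eq_one_of_coprime hcop hN1
  have hfix : ∀ x ∈ CommGroup.primaryComponent X p, (x ^ m) ^ u = x := by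
    intro x hx
    rw [← pow_mul]
    conv_lhs => rw [← Nat.div_add_mod (m * u) N, hu.2]
    rw [pow_add, pow_mul, hkill x hx]
    simp
  have hpc : ∀ y, c y ∈ CommGroup.primaryComponent X p := by
    intro y
    obtain ⟨k, hk⟩ := hY y
    exact ⟨k, by rw [← map_pow, hk, map_one]⟩
  let e : Y →* Y := (powMonoidHom u).comp (r.comp c)
  have he : ∀ y, e y = (r (c y)) ^ u := fun y => rfl
  have hidem : ∀ y, e (e y) = e y := by
    intro y
    have h1 : c (e y) = c y := by rw [he, map_pow, hcr, hfix _ (hpc y)]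
    rw [he (e y), h1, he y]
  refine ⟨e.range, e.ker, ?_, ?_, ?_⟩
  · rw [eq_bot_iff]
    rintro z ⟨⟨y, rfl⟩, hz⟩
    have h1 : e (e y) = 1 := hz
    rw [hidem] at h1
    exact h1
  · rw [eq_top_iff]
    intro y _
    have h1 : (e y)⁻¹ * y ∈ e.ker := by
      rw [MonoidHom.mem_ker, map_mul, map_inv, hidem]
      simp
    have h2 : y = e y * ((e y)⁻¹ * y) := by group
    rw [h2]
    exact Subgroup.mul_mem_sup ⟨y, rfl⟩ h1
  · have hmem : ∀ x : CommGroup.primaryComponent X p, r x ∈ e.range := by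
      intro x
      refine ⟨r x, ?_⟩
      rw [he, hcr, ← map_pow, hfix _ x.2]
    let f : CommGroup.primaryComponent X p →* e.range :=
      (r.comp (CommGroup.primaryComponent X p).subtype).codRestrict _ hmem
    have hf : Function.Bijective f := by
      constructor
      · rw [injective_iff_map_eq_one]
        intro x hx
        have h1 : r (x : X) = 1 := congrArg Subtype.val hx
        have h2 : (x : X) ^ m = 1 := by rw [← hcr, h1, map_one]
        apply Subtype.ext
        have h3 := hfix _ x.2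
        rw [h2, one_pow] at h3
        exact h3.symm
      · rintro ⟨_, y, rfl⟩
        refine ⟨⟨(c y) ^ u, Subgroup.pow_mem _ (hpc y) u⟩, Subtype.ext ?_⟩
        show r ((c y) ^ u) = e y
        rw [map_pow, he]
    exact ⟨MulEquiv.ofBijective f hf⟩

/-- Transport of the splitting. -/
theorem split_transport {A : Type*} {B : Type*} [CommGroup A] [CommGroup B] {p : ℕ} [Fact p.Prime]
    (f : X ≃* A) (g : Y ≃* B)
    (h : ∃ C D : Subgroup Y, C ⊓ D = ⊥ ∧ C ⊔ D = ⊤ ∧ Nonempty (CommGroup.primaryComponent X p ≃* C)) :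
    ∃ C D : Subgroup B, C ⊓ D = ⊥ ∧ C ⊔ D = ⊤ ∧ Nonempty (CommGroup.primaryComponent A p ≃* C) := by
  obtain ⟨C, D, h1, h2, ⟨e⟩⟩ := h
  refine ⟨C.map g.toMonoidHom, D.map g.toMonoidHom, ?_, ?_, ?_⟩
  · rw [← Subgroup.map_inf _ _ _ g.injective, h1, Subgroup.map_bot]
  · rw [← Subgroup.map_sup, h2]
    exact Subgroup.map_top_of_surjective _ g.surjective
  · have hmap : (CommGroup.primaryComponent A p).map f.symm.toMonoidHom = CommGroup.primaryComponent X p := by
      ext x
      constructor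
      · rintro ⟨a, ⟨k, hk⟩, rfl⟩
        refine ⟨k, ?_⟩
        show (f.symm a) ^ p ^ k = 1
        rw [← map_pow, hk, map_one]
      · rintro ⟨k, hk⟩
        refine ⟨f x, ⟨k, ?_⟩, f.symm_apply_apply x⟩
        show (f x) ^ p ^ k = 1
        rw [← map_pow, hk, map_one]
    have e1 : CommGroup.primaryComponent A p ≃* (CommGroup.primaryComponent A p).map f.symm.toMonoidHom :=
      f.symm.subgroupMap _
    have e2 := MulEquiv.subgroupCongr hmap
    exact ⟨e1.trans (e2.trans (e.trans (g.subgroupMap C)))⟩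

end algebra

end Cfsg.Agent.Lib.SchurH2
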