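import Cfsg.Agent.Lib.SchurLev12
import Cfsg.Agent.Lib.CoverTau12

/-!
# Levels with a point stabiliser with a nontrivial multiplier

If the point stabiliser is perfect with multiplier cyclic of order `d`, and a certificate bounds the abelianisation of
the preimage of the stabiliser by `r₀`, the kernel of a stem extension has order dividing `d * r₀`.
-/

set_option autoImplicit false
set_option linter.style.haveILetI false
set_option linter.unusedSectionVars false

namespace Cfsg.Agent.Lib.SchurLevD12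

open Cfsg Subgroup Cfsg.Agent.Lib.SchurCoset46 Cfsg.Agent.Lib.SchurTarget12 Cfsg.Agent.Lib.SchurLev12
  Cfsg.Agent.Lib.SchurStem
open scoped commutatorElement

section Sub

variable {Q : Type} [Group Q] {Γ : Type} [Group Γ] {σ : Γ →* Q}

/-- The map from the preimage of a subgroup. -/
abbrev fOf (σ : Γ →* Q) (Hb : Subgroup Q) : ↥(Hb.comap σ) →* ↥Hb := σ.subgroupComap Hb

theorem fOf_surj (hσ : IsStemExtension σ) (Hb : Subgroup Q) : Function.Surjective (fOf σ Hb) :=
  σ.subgroupComap_surjective_of_surjective Hb hσ.1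

theorem fOf_ker (Hb : Subgroup Q) (y : ↥(Hb.comap σ)) : y ∈ (fOf σ Hb).ker ↔ y.1 ∈ σ.ker := by
  rw [MonoidHom.mem_ker, MonoidHom.mem_ker]
  constructor
  · intro h
    exact congrArg Subtype.val h
  · intro h
    exact Subtype.ext h

/-- The restriction to the commutator subgroup of the preimage. -/
abbrev gOf (σ : Γ →* Q) (Hb : Subgroup Q) : ↥(commutator ↥(Hb.comap σ)) →* ↥Hb :=
  (fOf σ Hb).comp (commutator ↥(Hb.comap σ)).subtype

theorem gOf_surj (hσ : IsStemExtension σ) {Hb : Subgroup Q} (hperf : commutator ↥Hb = ⊤) :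
    Function.Surjective (gOf σ Hb) := by
  intro h
  have h1 : (commutator ↥(Hb.comap σ)).map (fOf σ Hb) = ⊤ := by
    rw [_root_.commutator_def, Subgroup.map_commutator, Subgroup.map_top_of_surjective _ (fOf_surj hσ Hb)]
    exact hperf
  have h2 : h ∈ (commutator ↥(Hb.comap σ)).map (fOf σ Hb) := by rw [h1]; exact mem_top _
  obtain ⟨y, hy, hyh⟩ := h2
  exact ⟨⟨y, hy⟩, hyh⟩

theorem central_of_ker (hσ : IsStemExtension σ) {Hb : Subgroup Q} {y : ↥(Hb.comap σ)} (hy : y.1 ∈ σ.ker)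
    (z : ↥(Hb.comap σ)) : Commute y z := by
  apply Subtype.ext
  exact ((Subgroup.mem_center_iff.mp (hσ.2.1 hy) z.1).symm)

theorem comm_perfect (hσ : IsStemExtension σ) {Hb : Subgroup Q} (hperf : commutator ↥Hb = ⊤) :
    commutator ↥(commutator ↥(Hb.comap σ)) = ⊤ := by
  set P := Hb.comap σ with hP
  set CP := commutator ↥P with hCP
  have hdec : ∀ a : ↥P, ∃ c : ↥CP, ∃ z : ↥P, z.1 ∈ σ.ker ∧ a = (c : ↥P) * z := by
    intro a
    obtain ⟨c, hc⟩ := gOf_surj hσ hperf (fOf σ Hb a)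
    refine ⟨c, (c : ↥P)⁻¹ * a, ?_, by group⟩
    rw [← fOf_ker, MonoidHom.mem_ker, map_mul, map_inv]
    have : fOf σ Hb (c : ↥P) = fOf σ Hb a := hc
    rw [this, inv_mul_cancel]
  have hle : CP ≤ ⁅CP, CP⁆ := by
    rw [hCP]
    conv_lhs => rw [_root_.commutator_def]
    rw [Subgroup.commutator_le]
    intro a _ b _
    obtain ⟨c₁, z₁, h₁, e₁⟩ := hdec a
    obtain ⟨c₂, z₂, h₂, e₂⟩ := hdec b
    have e3 : ⁅a, b⁆ = ⁅(c₁ : ↥P), (c₂ : ↥P)⁆ := by
      rw [e₁, e₂]
      exact Cfsg.Agent.Lib.CoverTau12.comm_central (central_of_ker hσ h₁ _) (central_of_ker hσ h₂ _)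
        (central_of_ker hσ h₁ _)
    rw [e3]
    exact Subgroup.commutator_mem_commutator c₁.2 c₂.2
  rw [eq_top_iff]
  intro x _
  have h1 : x.1 ∈ ⁅CP, CP⁆ := hle x.2
  rw [← Subgroup.map_subtype_commutator] at h1
  obtain ⟨z, hz, hzx⟩ := h1
  have : z = x := Subtype.ext hzx
  rwa [← this]

theorem gOf_stem (hσ : IsStemExtension σ) {Hb : Subgroup Q} (hperf : commutator ↥Hb = ⊤) :
    IsStemExtension (gOf σ Hb) := by
  refine ⟨gOf_surj hσ hperf, ?_, ?_⟩
  · intro y hy
    rw [Subgroup.mem_center_iff]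
    intro z
    apply Subtype.ext
    have h1 : (y : ↥(Hb.comap σ)).1 ∈ σ.ker := (fOf_ker Hb _).mp hy
    exact ((central_of_ker hσ h1 (z : ↥(Hb.comap σ))).symm).eq
  · rw [comm_perfect hσ hperf]
    exact le_top

variable [Finite Γ] {d : ℕ} [NeZero d]

theorem card_gOf_ker_dvd (hσ : IsStemExtension σ) {Hb : Subgroup Q} (hperf : commutator ↥Hb = ⊤)
    (hM : HasCyclicSchurMultiplier ↥Hb d) : Nat.card (gOf σ Hb).ker ∣ d := by
  obtain ⟨π, hπ⟩ := hM.2 _ (gOf σ Hb) (gOf_stem hσ hperf)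
  have h1 := Subgroup.card_dvd_of_surjective π hπ
  have h2 : Nat.card (Multiplicative (ZMod d)) = d := by
    rw [Nat.card_congr Multiplicative.toAdd, Nat.card_zmod]
  rwa [h2] at h1

/-- The index times the multiplier is an exponent of the kernel. -/
theorem pow_index_mul (hσ : IsStemExtension σ) {Hb : Subgroup Q} (hperf : commutator ↥Hb = ⊤)
    (hM : HasCyclicSchurMultiplier ↥Hb d) {k : Γ} (hk : k ∈ σ.ker) : k ^ (Hb.index * d) = 1 := by
  obtain ⟨h1, h2⟩ := pow_index_mem_commutator (Hb.comap σ) (hσ.2.1 hk) (hσ.2.2 hk)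
  have hi : (Hb.comap σ).index = Hb.index := Subgroup.index_comap_of_surjective _ hσ.1
  let z : ↥(commutator ↥(Hb.comap σ)) := ⟨⟨k ^ (Hb.comap σ).index, h1⟩, h2⟩
  have hz : z ∈ (gOf σ Hb).ker := by
    apply (fOf_ker Hb _).mpr
    exact Subgroup.pow_mem _ hk _
  have h3 : (⟨z, hz⟩ : (gOf σ Hb).ker) ^ d = 1 := by
    obtain ⟨m, hm⟩ := card_gOf_ker_dvd hσ hperf hM
    rw [hm, pow_mul, pow_card_eq_one', one_pow]
  have h4 := congrArg (fun x : (gOf σ Hb).ker => ((x : ↥(commutator ↥(Hb.comap σ))) : ↥(Hb.comap σ)).1) h3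
  rw [← hi, pow_mul]
  exact h4

end Sub

section Level

variable {Q X : Type} [Group Q] [MulAction Q X] {x0 : X}

/-- The order of the kernel of a stem extension, from a certificate for the preimage of a perfect stabiliser. -/
theorem card_ker_dvd {n : ℕ} {T : ℕ → ℕ → ℕ} {par : ℕ → ℕ × ℕ} {mask : ℕ → X} {s : ℕ → Q}
    (L : LevelData x0 n T par mask s) {d : ℕ} [NeZero d] (hM : HasCyclicSchurMultiplier ↥(MulAction.stabilizer Q x0) d)
    (hperf : commutator ↥(MulAction.stabilizer Q x0) = ⊤)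
    (C : CertE) (hC : C.check = true) (hCn : C.n = n) (hCm : C.m = 2) (hCT : C.T = T)
    {E r t u v : ℕ} (hCE : C.E = E) (hN : NormB C r t) (hR : 1 < C.R)
    (hd1 : E ∣ 1 + r * u) (hd2 : E ∣ 1 + t * v)
    (hrels : ∀ j, j < C.R → ∀ l ∈ C.rels j, l < 4) (hrel : ∀ j, j < C.R → evW s (C.rels j) = 1)
    {Γ : Type} [Group Γ] [Finite Γ] (σ : Γ →* Q) (hσ : IsStemExtension σ) (he : ∀ k ∈ σ.ker, k ^ E = 1) :
    Nat.card σ.ker ∣ d * C.r0 := by
  subst hCn hCT
  classical
  set Hb := MulAction.stabilizer Q x0 with hHb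
  set P := Hb.comap σ with hP
  obtain ⟨h1, h01⟩ := rels_b hN hR hrel
  obtain ⟨x, hx, hx1, hx2⟩ := lifts_b hσ h1 h01 he hd1 hd2
  let ρ : ↥P →* Abelianization ↥P := Abelianization.of
  have hρk : ρ.ker = commutator ↥P := Abelianization.ker_of _
  have hE : ∀ b : Abelianization ↥P, b ^ C.E = 1 := by
    intro b
    obtain ⟨y, rfl⟩ := QuotientGroup.mk'_surjective _ b
    show (ρ y) ^ C.E = 1
    obtain ⟨c, hc⟩ := gOf_surj hσ hperf (fOf σ Hb y)
    have hc' : fOf σ Hb (c : ↥P) = fOf σ Hb y := hc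
    have hk : ((c : ↥P)⁻¹ * y : ↥P).1 ∈ σ.ker := by
      rw [← fOf_ker, MonoidHom.mem_ker, map_mul, map_inv, hc', inv_mul_cancel]
    have hρc : ρ (c : ↥P) = 1 := by
      have : (c : ↥P) ∈ ρ.ker := by rw [hρk]; exact c.2
      exact this
    have e1 : y = (c : ↥P) * ((c : ↥P)⁻¹ * y) := by group
    rw [e1, map_mul, hρc, one_mul, hCE, ← map_pow]
    have e2 : ((c : ↥P)⁻¹ * y) ^ E = 1 := Subtype.ext (he _ hk)
    rw [e2, map_one]
  have hHt : ∀ z, z ∈ P ↔ σ z • x0 = x0 := fun z => by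
    rw [hP, Subgroup.mem_comap]
    exact MulAction.mem_stabilizer_iff
  obtain ⟨w, hu, hall⟩ := target_cyclic_of_cert hσ hHt ρ C hC hE L.hm0 L.hne
    (by rw [hCm]; exact L.hms) (by rw [hCm]; exact L.hgen) hx (by rw [hCm]; exact hrels) hrel (hnorm_b hN hx1 hx2)
  -- the part of the kernel in the commutator subgroup
  have hKP : ∀ k, k ∈ σ.ker → k ∈ P := by
    intro k hk
    rw [hP, Subgroup.mem_comap, MonoidHom.mem_ker.mp hk]
    exact Subgroup.one_mem _
  let g : σ.ker →* Abelianization ↥P :=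
    ρ.comp (MonoidHom.codRestrict (σ.ker.subtype) P (fun k => hKP k.1 k.2))
  have hd : Nat.card g.ker ∣ d := by
    refine dvd_trans ?_ (card_gOf_ker_dvd hσ hperf hM)
    let ι : g.ker →* (gOf σ Hb).ker :=
      { toFun := fun k => ⟨⟨⟨k.1.1, hKP _ k.1.2⟩, by
            have h2 : (⟨k.1.1, hKP _ k.1.2⟩ : ↥P) ∈ ρ.ker := k.2
            rwa [hρk] at h2⟩, by
            apply (fOf_ker Hb _).mpr
            exact k.1.2⟩
        map_one' := rfl
        map_mul' := fun _ _ => rfl }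
    have hι : Function.Injective ι := by
      intro a b hab
      have h2 := congrArg (fun z : (gOf σ Hb).ker => ((z : ↥(commutator ↥P)) : ↥P).1) hab
      exact Subtype.ext (Subtype.ext h2)
    exact Subgroup.card_dvd_of_injective ι hι
  have htop : zpowers w = ⊤ := by
    rw [eq_top_iff]
    intro a _
    obtain ⟨y, rfl⟩ := QuotientGroup.mk'_surjective _ a
    exact hall y
  have hr : Nat.card g.range ∣ C.r0 := by
    haveI : Finite (Abelianization ↥P) := inferInstance
    have h2 := Subgroup.card_subgroup_dvd_card g.range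
    have h3 : Nat.card (Abelianization ↥P) = orderOf w := by
      rw [← Nat.card_zpowers, htop]
      exact (Nat.card_congr (Subgroup.topEquiv).toEquiv).symm
    rw [h3] at h2
    exact dvd_trans h2 (orderOf_dvd_of_pow_eq_one hu)
  have hcard : Nat.card σ.ker = Nat.card g.ker * Nat.card g.range := by
    rw [← Subgroup.index_ker, mul_comm, Subgroup.index_mul_card]
  rw [hcard]
  exact mul_dvd_mul hd hr

end Level

end Cfsg.Agent.Lib.SchurLevD12
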