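import Mathlib
import Cfsg.Agent.Lib.SectRank

/-!
# Squares subgroup, coprime fixed points, and the class-two calculus used for S3106.
-/

set_option autoImplicit false
set_option linter.unusedSectionVars false

open scoped commutatorElement

namespace Cfsg.Agent.Lib.SecA5Base

variable {G : Type*} [Group G]

/-- The subgroup generated by the squares of the elements of `T`. -/
def sqS (T : Subgroup G) : Subgroup G := Subgroup.closure {g | ∃ t ∈ T, g = t ^ 2}

theorem sq_mem_sqS {T : Subgroup G} {t : G} (ht : t ∈ T) : t ^ 2 ∈ sqS T :=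
  Subgroup.subset_closure ⟨t, ht, rfl⟩

theorem sqS_le {T S : Subgroup G} (h : ∀ t ∈ T, t ^ 2 ∈ S) : sqS T ≤ S := by
  refine (Subgroup.closure_le _).2 ?_
  rintro _ ⟨t, ht, rfl⟩
  exact h t ht

theorem sqS_le_self (T : Subgroup G) : sqS T ≤ T := sqS_le fun _ ht => T.pow_mem ht 2

theorem sqS_mono {T S : Subgroup G} (h : T ≤ S) : sqS T ≤ sqS S :=
  sqS_le fun _ ht => sq_mem_sqS (h ht)

theorem sqS_conj {T : Subgroup G} {w : G} (hw : ∀ t ∈ T, w * t * w⁻¹ ∈ T) {x : G} (hx : x ∈ sqS T) :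
    w * x * w⁻¹ ∈ sqS T := by
  induction hx using Subgroup.closure_induction with
  | mem x hx =>
    obtain ⟨t, ht, rfl⟩ := hx
    have : w * t ^ 2 * w⁻¹ = (w * t * w⁻¹) ^ 2 := by rw [conj_pow]
    rw [this]
    exact sq_mem_sqS (hw t ht)
  | one => simp
  | mul x y _ _ hx hy =>
    have : w * (x * y) * w⁻¹ = (w * x * w⁻¹) * (w * y * w⁻¹) := by group
    rw [this]
    exact Subgroup.mul_mem _ hx hy
  | inv x _ hx =>
    have : w * x⁻¹ * w⁻¹ = (w * x * w⁻¹)⁻¹ := by group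
    rw [this]
    exact Subgroup.inv_mem _ hx

theorem sqS_normal (T : Subgroup G) [hT : T.Normal] : (sqS T).Normal :=
  ⟨fun x hx g => sqS_conj (fun t ht => hT.conj_mem t ht g) hx⟩

theorem map_sqS {H : Type*} [Group H] (f : G →* H) (T : Subgroup G) :
    (sqS T).map f = sqS (T.map f) := by
  unfold sqS
  rw [MonoidHom.map_closure]
  congr 1
  ext x
  constructor
  · rintro ⟨_, ⟨t, ht, rfl⟩, rfl⟩
    exact ⟨f t, ⟨t, ht, rfl⟩, by simp⟩
  · rintro ⟨_, ⟨t, ht, rfl⟩, rfl⟩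
    exact ⟨t ^ 2, ⟨t, ht, rfl⟩, by simp⟩

/-- Commutators of a subgroup lie in any subgroup containing its squares. -/
theorem comm_mem_of_sq {P R : Subgroup G} (hn : ∀ u ∈ P, ∀ r ∈ R, u * r * u⁻¹ ∈ R)
    (hs : ∀ u ∈ P, u ^ 2 ∈ R) {u w : G} (hu : u ∈ P) (hw : w ∈ P) : ⁅u, w⁆ ∈ R := by
  have e : ⁅u, w⁆ = (u * w) ^ 2 * (w⁻¹ * (u⁻¹ ^ 2) * w⁻¹⁻¹) * (w⁻¹) ^ 2 := by
    simp only [commutatorElement_def, pow_two]; group
  rw [e]
  refine R.mul_mem (R.mul_mem (hs _ (P.mul_mem hu hw)) ?_) (hs _ (P.inv_mem hw))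
  exact hn _ (P.inv_mem hw) _ (hs _ (P.inv_mem hu))

/-! ### Fixed points modulo a prime -/

section Fix

variable [Finite G]

theorem card_modEq_fixed {α : Type*} [Finite α] (r : ℕ) [Fact r.Prime] (f : α → α)
    (hf : f^[r] = id) : Nat.card α ≡ Nat.card {a // f a = a} [MOD r] := by
  classical
  haveI := Fintype.ofFinite α
  let F : Function.End α := f
  have hF : F ^ r ^ 1 = 1 := by
    rw [pow_one]
    have h0 := hom_coe_pow (fun g : Function.End α ↦ g) rfl (fun g h ↦ rfl) F r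
    exact h0.trans hf
  have h := Equiv.Perm.card_fixedPoints_modEq (α := α) (p := r) (n := 1) hF
  have e : Nat.card {a // f a = a} = Fintype.card (F.fixedPoints) := by
    rw [Nat.card_eq_fintype_card]
    refine Fintype.card_congr ?_
    exact Equiv.subtypeEquivRight (fun a => by simp [Function.IsFixedPt, F])
  rw [e, Nat.card_eq_fintype_card]
  exact h

theorem exists_fixed {α : Type*} [Finite α] (r : ℕ) [hr : Fact r.Prime] (f : α → α)
    (hf : f^[r] = id) (hc : ¬ r ∣ Nat.card α) : ∃ a, f a = a := by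
  by_contra hno
  push Not at hno
  have h := card_modEq_fixed r f hf
  have h0 : Nat.card {a // f a = a} = 0 := by
    rw [Nat.card_eq_zero]
    left
    exact ⟨fun a => hno a.1 a.2⟩
  rw [h0] at h
  exact hc ((Nat.modEq_zero_iff_dvd).1 h)

/-- Conjugation iterates. -/
theorem conj_iter (w : G) (a : G) (n : ℕ) : (fun x => w * x * w⁻¹)^[n] a = w ^ n * a * (w ^ n)⁻¹ := by
  induction n generalizing a with
  | zero => simp
  | succ n ih =>
    rw [Function.iterate_succ_apply, ih, pow_succ]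
    group

/-- Fixed point in a coset `z T` under an element of prime order. -/
theorem exists_fix_coset (r : ℕ) [Fact r.Prime] {w : G} (hw : w ^ r = 1) {T : Subgroup G}
    (hT : ∀ t ∈ T, w * t * w⁻¹ ∈ T) {z : G} (hz : z⁻¹ * (w * z * w⁻¹) ∈ T)
    (hc : ¬ r ∣ Nat.card T) : ∃ t ∈ T, w * (z * t) * w⁻¹ = z * t := by
  let α := {a : G // z⁻¹ * a ∈ T}
  have hmap : ∀ a : α, z⁻¹ * (w * a.1 * w⁻¹) ∈ T := by
    intro a
    have e : z⁻¹ * (w * a.1 * w⁻¹) = (z⁻¹ * (w * z * w⁻¹)) * (w * (z⁻¹ * a.1) * w⁻¹) := by group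
    rw [e]
    exact T.mul_mem hz (hT _ a.2)
  let f : α → α := fun a => ⟨w * a.1 * w⁻¹, hmap a⟩
  have hfi : ∀ (n : ℕ) (a : α), (f^[n] a).1 = w ^ n * a.1 * (w ^ n)⁻¹ := by
    intro n a
    induction n generalizing a with
    | zero => simp
    | succ n ih =>
      rw [Function.iterate_succ_apply, ih, pow_succ]
      show w ^ n * (w * a.1 * w⁻¹) * (w ^ n)⁻¹ = _
      group
  have hf : f^[r] = id := by
    funext a
    apply Subtype.ext
    rw [hfi, hw]
    simp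
  have hcard : Nat.card α = Nat.card T := by
    refine Nat.card_congr ⟨fun a => ⟨z⁻¹ * a.1, a.2⟩, fun t => ⟨z * t.1, by simpa using t.2⟩, ?_, ?_⟩
    · intro a; apply Subtype.ext; simp
    · intro t; apply Subtype.ext; simp
  haveI : Finite α := Subtype.finite
  obtain ⟨a, ha⟩ := exists_fixed r f hf (by rwa [hcard])
  refine ⟨z⁻¹ * a.1, a.2, ?_⟩
  have := congrArg Subtype.val ha
  simp only [f] at this
  simpa using this

/-- `|T| ≡ |C_T(w)|` modulo the prime order of `w`. -/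
theorem card_modEq_centralizer (r : ℕ) [Fact r.Prime] {w : G} (hw : w ^ r = 1) {T : Subgroup G}
    (hT : ∀ t ∈ T, w * t * w⁻¹ ∈ T) :
    Nat.card T ≡ Nat.card {t : T // w * t.1 * w⁻¹ = t.1} [MOD r] := by
  let f : T → T := fun a => ⟨w * a.1 * w⁻¹, hT _ a.2⟩
  have hfi : ∀ (n : ℕ) (a : T), (f^[n] a).1 = w ^ n * a.1 * (w ^ n)⁻¹ := by
    intro n a
    induction n generalizing a with
    | zero => simp
    | succ n ih =>
      rw [Function.iterate_succ_apply, ih, pow_succ]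
      show w ^ n * (w * a.1 * w⁻¹) * (w ^ n)⁻¹ = _
      group
  have hf : f^[r] = id := by
    funext a
    apply Subtype.ext
    rw [hfi, hw]
    simp
  have h := card_modEq_fixed r f hf
  have e : Nat.card {a : T // f a = a} = Nat.card {t : T // w * t.1 * w⁻¹ = t.1} := by
    refine Nat.card_congr (Equiv.subtypeEquivRight fun a => ?_)
    simp [f, Subtype.ext_iff]
  rwa [e] at h

end Fix

/-! ### Maximal subgroups of 2-groups -/

section TwoGroups

variable [Finite G]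

/-- A proper subgroup of a 2-subgroup `P` lies in a proper subgroup containing all squares of `P`. -/
theorem exists_le_ne_of_lt {P H : Subgroup G} (hP : IsPGroup 2 P) (hHP : H ≤ P) (hne : H ≠ P) :
    ∃ K : Subgroup G, H ≤ K ∧ K ≤ P ∧ K ≠ P ∧ ∀ u ∈ P, u ^ 2 ∈ K := by
  classical
  haveI : Fact (Nat.Prime 2) := ⟨Nat.prime_two⟩
  obtain ⟨m, hm⟩ := IsPGroup.iff_card.1 hP
  let H' : Subgroup P := H.subgroupOf P
  have hH' : IsPGroup 2 H' := hP.to_subgroup H'
  obtain ⟨n, hn⟩ := IsPGroup.iff_card.1 hH'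
  have hcardH : Nat.card H' = Nat.card H := Nat.card_congr (Subgroup.subgroupOfEquivOfLe hHP).toEquiv
  have hlt : n < m := by
    by_contra hge
    push Not at hge
    have h1 : 2 ^ m ≤ 2 ^ n := Nat.pow_le_pow_right (by norm_num) hge
    have h2 : Nat.card P ≤ Nat.card H := by rw [hm, ← hcardH, hn]; exact h1
    exact hne (Subgroup.eq_of_le_of_card_ge hHP h2)
  have hdvd : 2 ^ (m - 1) ∣ Nat.card P := by
    rw [hm]
    exact pow_dvd_pow 2 (by omega)
  obtain ⟨K', hK', hle⟩ := Sylow.exists_subgroup_card_pow_prime_le 2 hdvd H' hn (by omega)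
  have hidx : K'.index = 2 := by
    have h := K'.card_mul_index
    rw [hK', hm] at h
    have hm1 : m = (m - 1) + 1 := by omega
    rw [hm1] at h
    simp only [Nat.add_sub_cancel] at h
    rw [pow_succ] at h
    exact Nat.eq_of_mul_eq_mul_left (by positivity) h.symm ▸ rfl
  refine ⟨K'.map P.subtype, ?_, ?_, ?_, ?_⟩
  · intro x hx
    exact ⟨⟨x, hHP hx⟩, hle (by simpa [H', Subgroup.mem_subgroupOf] using hx), rfl⟩
  · exact (Subgroup.map_le_range _ _).trans (by simp)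
  · intro h
    have h1 : Nat.card (K'.map P.subtype) = Nat.card K' :=
      Nat.card_congr (K'.equivMapOfInjective _ P.subtype_injective).symm.toEquiv
    rw [h, hK', hm] at h1
    have : 2 ^ m = 2 ^ (m - 1) * 2 := by
      rw [← pow_succ]; congr 1; omega
    have hpos : 0 < 2 ^ (m - 1) := by positivity
    omega
  · intro u hu
    exact ⟨(⟨u, hu⟩ : P) ^ 2, Subgroup.sq_mem_of_index_two hidx _, by simp⟩

/-- If `H ≤ P`, and every element of `P` is `H`-equivalent to a product with an element of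
`sqS P`, then `H = P`. -/
theorem eq_of_mul_sq {P H : Subgroup G} (hP : IsPGroup 2 P) (hHP : H ≤ P)
    (h : ∀ u ∈ P, ∃ t ∈ sqS P, u * t ∈ H) : H = P := by
  by_contra hne
  obtain ⟨K, hHK, hKP, hKne, hsq⟩ := exists_le_ne_of_lt hP hHP hne
  apply hKne
  refine le_antisymm hKP fun u hu => ?_
  obtain ⟨t, ht, hut⟩ := h u hu
  have ht' : t ∈ K := sqS_le hsq ht
  have := K.mul_mem (hHK hut) (K.inv_mem ht')
  simpa using this

/-- Burnside: an element of odd prime order acting trivially modulo squares centralizes. -/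
theorem burnside_sq (r : ℕ) [hr : Fact r.Prime] (hr2 : r ≠ 2) {w : G} (hw : w ^ r = 1) {P : Subgroup G}
    (hP : IsPGroup 2 P) (hn : ∀ t ∈ P, w * t * w⁻¹ ∈ P)
    (htr : ∀ u ∈ P, u⁻¹ * (w * u * w⁻¹) ∈ sqS P) : ∀ u ∈ P, w * u * w⁻¹ = u := by
  have hS : IsPGroup 2 (sqS P) := hP.to_le (sqS_le_self P)
  have hnd : ¬ r ∣ Nat.card (sqS P) := by
    obtain ⟨m, hm⟩ := IsPGroup.iff_card.1 hS
    rw [hm]
    intro h
    have := (Nat.prime_dvd_prime_iff_eq hr.out Nat.prime_two).1 (hr.out.dvd_of_dvd_pow h)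
    exact hr2 this
  let H : Subgroup G := P ⊓ Subgroup.centralizer {w}
  have hHP : H ≤ P := inf_le_left
  have key : H = P := by
    refine eq_of_mul_sq hP hHP fun u hu => ?_
    obtain ⟨t, ht, hfix⟩ := exists_fix_coset r hw (T := sqS P) (fun t ht => sqS_conj hn ht) (htr u hu) hnd
    refine ⟨t, ht, P.mul_mem hu (sqS_le_self P ht), ?_⟩
    show u * t ∈ Subgroup.centralizer {w}
    rw [Subgroup.mem_centralizer_iff]
    intro h hh
    rw [Set.mem_singleton_iff] at hh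
    subst hh
    have := hfix
    rw [mul_inv_eq_iff_eq_mul] at this
    exact this
  intro u hu
  rw [← key] at hu
  have h2 : u ∈ Subgroup.centralizer {w} := hu.2
  rw [Subgroup.mem_centralizer_iff] at h2
  have := h2 w rfl
  rw [this]
  group

/-- `⁅T, Q⁆ ≠ T` for a nontrivial subgroup `T` of a finite 2-group `Q`. -/
theorem commutator_ne {Q T : Subgroup G} (hQ : IsPGroup 2 Q) (hTQ : T ≤ Q) (hT : T ≠ ⊥) :
    ⁅T, Q⁆ ≠ T := by
  intro h
  haveI : Fact (Nat.Prime 2) := ⟨Nat.prime_two⟩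
  haveI : Group.IsNilpotent Q := hQ.isNilpotent
  let T' : Subgroup Q := T.subgroupOf Q
  have hmap : T'.map Q.subtype = T := Subgroup.map_subgroupOf_eq_of_le hTQ
  have hmapQ : (⊤ : Subgroup Q).map Q.subtype = Q := by
    rw [← MonoidHom.range_eq_map, Subgroup.range_subtype]
  have hfix : ⁅T', (⊤ : Subgroup Q)⁆ = T' := by
    apply Subgroup.map_injective Q.subtype_injective
    rw [Subgroup.map_commutator, hmap, hmapQ, h]
  have hle : ∀ k, T' ≤ (⊤ : Subgroup Q).lowerCentralSeries k := by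
    intro k
    induction k with
    | zero => simp
    | succ k ih =>
      rw [Subgroup.lowerCentralSeries_succ]
      calc T' = ⁅T', (⊤ : Subgroup Q)⁆ := hfix.symm
        _ ≤ _ := Subgroup.commutator_mono ih le_rfl
  obtain ⟨n, hn⟩ := (Subgroup.nilpotent_iff_lowerCentralSeries (G := Q)).1 inferInstance
  have hb : T' = ⊥ := le_bot_iff.1 (hn ▸ hle n)
  apply hT
  rw [← hmap, hb]
  simp

/-- Lowering: `⁅T, Q⁆ ⊔ sqS T` is a proper subgroup of a nontrivial `T`. -/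
theorem lower_ne {Q T : Subgroup G} (hQ : IsPGroup 2 Q) (hTQ : T ≤ Q)
    (hn : ∀ u ∈ Q, ∀ t ∈ T, u * t * u⁻¹ ∈ T) (hT : T ≠ ⊥) : ⁅T, Q⁆ ⊔ sqS T ≠ T := by
  have hTp : IsPGroup 2 T := hQ.to_le hTQ
  have hc : ⁅T, Q⁆ ≤ T := by
    rw [Subgroup.commutator_le]
    intro t ht u hu
    have e : ⁅t, u⁆ = t * (u * t⁻¹ * u⁻¹) := by
      simp only [commutatorElement_def]; group
    rw [e]
    exact T.mul_mem ht (hn u hu _ (T.inv_mem ht))
  obtain ⟨K, h1, h2, h3, h4⟩ := exists_le_ne_of_lt hTp hc (commutator_ne hQ hTQ hT)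
  intro h
  apply h3
  refine le_antisymm h2 ?_
  rw [← h]
  exact sup_le h1 (sqS_le h4)

end TwoGroups

/-! ### Class two calculus -/

/-- `P` has central elementary subgroup `R` containing all squares. -/
structure Cl2 (P R : Subgroup G) : Prop where
  le : R ≤ P
  cen : ∀ r ∈ R, ∀ u ∈ P, r * u = u * r
  el : ∀ r ∈ R, r ^ 2 = 1
  sq : ∀ u ∈ P, u ^ 2 ∈ R

namespace Cl2

variable {P R : Subgroup G} (h : Cl2 P R)

include h

theorem conj_mem_R {u r : G} (hu : u ∈ P) (hr : r ∈ R) : u * r * u⁻¹ ∈ R := by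
  rw [← h.cen r hr u hu]; simpa using hr

theorem comm_mem {u w : G} (hu : u ∈ P) (hw : w ∈ P) : ⁅u, w⁆ ∈ R :=
  comm_mem_of_sq (fun _ hu _ hr => h.conj_mem_R hu hr) h.sq hu hw

theorem inv_eq {r : G} (hr : r ∈ R) : r⁻¹ = r := by
  have := h.el r hr
  rw [pow_two] at this
  exact inv_eq_of_mul_eq_one_left this

theorem mul_comm_R {r s : G} (hr : r ∈ R) (hs : s ∈ R) : r * s = s * r :=
  h.cen r hr s (h.le hs)

theorem self_mul {r : G} (hr : r ∈ R) : r * r = 1 := by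
  have := h.el r hr
  rwa [pow_two] at this

theorem comm_symm {u w : G} (hu : u ∈ P) (hw : w ∈ P) : ⁅u, w⁆ = ⁅w, u⁆ := by
  have h1 : ⁅u, w⁆⁻¹ = ⁅w, u⁆ := commutatorElement_inv u w
  rw [← h1, h.inv_eq (h.comm_mem hu hw)]

/-- `w u = ⁅w, u⁆ u w` -/
theorem swap {u w : G} : w * u = ⁅w, u⁆ * u * w := by
  simp only [commutatorElement_def]; group

theorem sq_mul {u w : G} (hu : u ∈ P) (hw : w ∈ P) : (u * w) ^ 2 = u ^ 2 * w ^ 2 * ⁅w, u⁆ := by
  have hc := h.comm_mem hw hu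
  have hX : u ^ 2 * w ^ 2 ∈ P := P.mul_mem (P.pow_mem hu 2) (P.pow_mem hw 2)
  calc (u * w) ^ 2 = u * (w * u) * w := by rw [pow_two]; group
    _ = u * (⁅w, u⁆ * u * w) * w := by rw [← h.swap]
    _ = (u * ⁅w, u⁆) * (u * w * w) := by group
    _ = (⁅w, u⁆ * u) * (u * w * w) := by rw [h.cen _ hc u hu]
    _ = ⁅w, u⁆ * (u ^ 2 * w ^ 2) := by simp only [pow_two]; group
    _ = u ^ 2 * w ^ 2 * ⁅w, u⁆ := h.cen _ hc _ hX

theorem comm_mul_left {u u' w : G} (hu : u ∈ P) (hu' : u' ∈ P) (hw : w ∈ P) :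
    ⁅u * u', w⁆ = ⁅u, w⁆ * ⁅u', w⁆ := by
  have hc := h.comm_mem hu' hw
  have e : ⁅u * u', w⁆ = u * ⁅u', w⁆ * u⁻¹ * ⁅u, w⁆ := by
    simp only [commutatorElement_def]; group
  rw [e, ← h.cen _ hc u hu, mul_inv_cancel_right]
  exact h.mul_comm_R hc (h.comm_mem hu hw)

theorem comm_mul_right {u w w' : G} (hu : u ∈ P) (hw : w ∈ P) (hw' : w' ∈ P) :
    ⁅u, w * w'⁆ = ⁅u, w⁆ * ⁅u, w'⁆ := by
  rw [h.comm_symm hu (P.mul_mem hw hw'), h.comm_mul_left hw hw' hu, h.comm_symm hw hu,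
    h.comm_symm hw' hu]

theorem comm_inv_left {u w : G} (hu : u ∈ P) (hw : w ∈ P) : ⁅u⁻¹, w⁆ = ⁅u, w⁆ := by
  have h1 := h.comm_mul_left (P.inv_mem hu) hu hw
  rw [inv_mul_cancel, commutatorElement_one_left] at h1
  have h2 : ⁅u⁻¹, w⁆ = ⁅u, w⁆⁻¹ := eq_inv_of_mul_eq_one_left h1.symm
  rw [h2, h.inv_eq (h.comm_mem hu hw)]

theorem comm_inv_right {u w : G} (hu : u ∈ P) (hw : w ∈ P) : ⁅u, w⁻¹⁆ = ⁅u, w⁆ := by
  rw [h.comm_symm hu (P.inv_mem hw), h.comm_inv_left hw hu, h.comm_symm hw hu]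

theorem comm_of_R_left {r w : G} (hr : r ∈ R) (hw : w ∈ P) : ⁅r, w⁆ = 1 := by
  rw [commutatorElement_eq_one_iff_mul_comm]
  exact h.cen r hr w hw

theorem comm_of_R_right {u r : G} (hu : u ∈ P) (hr : r ∈ R) : ⁅u, r⁆ = 1 := by
  rw [commutatorElement_eq_one_iff_mul_comm]
  exact (h.cen r hr u hu).symm

theorem comm_self {u : G} : ⁅u, u⁆ = 1 := by
  rw [commutatorElement_self]

/-- Squares only depend on the class modulo `R`. -/
theorem sq_congr {u t : G} (hu : u ∈ P) (ht : t ∈ R) : (u * t) ^ 2 = u ^ 2 := by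
  rw [h.sq_mul hu (h.le ht), h.el t ht, mul_one, h.comm_of_R_left ht hu, mul_one]

theorem sq_congr' {u u' : G} (hu : u ∈ P) (ht : u⁻¹ * u' ∈ R) : u' ^ 2 = u ^ 2 := by
  have := h.sq_congr hu ht
  simpa using this

/-- Commutators only depend on classes modulo `R`. -/
theorem comm_congr_left {u u' w : G} (hu : u ∈ P) (hw : w ∈ P) (ht : u⁻¹ * u' ∈ R) :
    ⁅u', w⁆ = ⁅u, w⁆ := by
  have e : u' = u * (u⁻¹ * u') := by group
  rw [e, h.comm_mul_left hu (h.le ht) hw, h.comm_of_R_left ht hw, mul_one]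

theorem comm_congr_right {u w w' : G} (hu : u ∈ P) (hw : w ∈ P) (ht : w⁻¹ * w' ∈ R) :
    ⁅u, w'⁆ = ⁅u, w⁆ := by
  have e : w' = w * (w⁻¹ * w') := by group
  rw [e, h.comm_mul_right hu hw (h.le ht), h.comm_of_R_right hu ht, mul_one]

end Cl2

/-- Conjugation of a commutator. -/
theorem conj_comm (g u w : G) : g * ⁅u, w⁆ * g⁻¹ = ⁅g * u * g⁻¹, g * w * g⁻¹⁆ := by
  simp only [commutatorElement_def]; group

end Cfsg.Agent.Lib.SecA5Base
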