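import Mathlib
import Cfsg.Agent.Lib.SecA5Base

/-!
# Involutions on a module of order 16, irreducibility modulo squares.
-/

set_option autoImplicit false
set_option linter.unusedSectionVars false

open scoped commutatorElement

namespace Cfsg.Agent.Lib.SecA5Mod

open Cfsg.Agent.Lib.SecA5Base Cfsg.Agent.Lib.SectRank

/-- Involutions on an elementary abelian group of order 16 whose product is fixed-point-free have
centralizers of order 4 and the centralizer is the image of the commutator map. -/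
theorem module_four {A : Type*} [Group A] [Finite A] (hc : ∀ x y : A, x * y = y * x)
    (he : ∀ x : A, x * x = 1) (hcard : Nat.card A = 16) (σ₁ σ₂ τ : A →* A)
    (h1 : ∀ a, σ₁ (σ₁ a) = a) (h2 : ∀ a, σ₂ (σ₂ a) = a) (hτ : ∀ a, τ a = σ₁ (σ₂ a))
    (hfpf : ∀ a, τ a = a → a = 1) :
    Nat.card {a // σ₁ a = a} = 4 ∧ ∀ a, σ₁ a = a → ∃ b, a = σ₁ b * b⁻¹ := by
  have hinv : ∀ x : A, x⁻¹ = x := fun x => inv_eq_of_mul_eq_one_left (he x)
  let mkφ : (A →* A) → (A →* A) := fun σ => MonoidHom.mk' (fun a => σ a * a⁻¹) (by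
    intro a b
    simp only [map_mul, mul_inv_rev]
    rw [mul_assoc, mul_assoc, ← mul_assoc (σ b), hc (σ b * b⁻¹) a⁻¹])
  have hφ : ∀ σ a, mkφ σ a = σ a * a⁻¹ := fun _ _ => rfl
  have hrange_le : ∀ σ : A →* A, (∀ a, σ (σ a) = a) → (mkφ σ).range ≤ (mkφ σ).ker := by
    rintro σ hσ _ ⟨a, rfl⟩
    rw [MonoidHom.mem_ker, hφ, hφ, map_mul, map_inv, hσ]
    simp only [hinv]
    rw [hc a (σ a)]
    exact he _
  have hcardK : ∀ σ : A →* A, Nat.card (mkφ σ).ker * Nat.card (mkφ σ).range = 16 := by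
    intro σ
    have := Subgroup.card_mul_index (mkφ σ).ker
    rw [Subgroup.index_ker, hcard] at this
    exact this
  have hle4 : ∀ σ : A →* A, (∀ a, σ (σ a) = a) → Nat.card (mkφ σ).range ≤ 4 := by
    intro σ hσ
    have h3 := hcardK σ
    have h4 : Nat.card (mkφ σ).range ≤ Nat.card (mkφ σ).ker :=
      Subgroup.card_le_of_le (hrange_le σ hσ)
    by_contra hcon
    push Not at hcon
    nlinarith
  -- the fixed-point-free map is onto
  have hsurj : ∀ a : A, ∃ b, a = mkφ σ₁ (σ₂ b) * mkφ σ₂ b := by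
    have hinj : Function.Injective (mkφ τ) := by
      rw [injective_iff_map_eq_one]
      intro a ha
      rw [hφ, mul_inv_eq_one] at ha
      exact hfpf a ha
    have hs := Finite.surjective_of_injective hinj
    intro a
    obtain ⟨b, hb⟩ := hs a
    refine ⟨b, ?_⟩
    rw [← hb, hφ, hφ, hφ, hτ]
    simp only [hinv]
    rw [mul_assoc, ← mul_assoc (σ₂ b), he, one_mul]
  have hprod : 16 ≤ Nat.card (mkφ σ₁).range * Nat.card (mkφ σ₂).range := by
    rw [← Nat.card_prod, ← hcard]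
    refine Nat.card_le_card_of_surjective
      (fun p : (mkφ σ₁).range × (mkφ σ₂).range => (p.1.1 * p.2.1 : A)) ?_
    intro a
    obtain ⟨b, hb⟩ := hsurj a
    exact ⟨(⟨_, σ₂ b, rfl⟩, ⟨_, b, rfl⟩), hb.symm⟩
  have h4₁ := hle4 σ₁ h1
  have h4₂ := hle4 σ₂ h2
  have hR : Nat.card (mkφ σ₁).range = 4 := by
    by_contra hne
    have : Nat.card (mkφ σ₁).range ≤ 3 := by omega
    nlinarith
  have hK : Nat.card (mkφ σ₁).ker = 4 := by
    have := hcardK σ₁
    rw [hR] at this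
    omega
  have hEq : (mkφ σ₁).range = (mkφ σ₁).ker :=
    Subgroup.eq_of_le_of_card_ge (hrange_le σ₁ h1) (by rw [hR, hK])
  constructor
  · rw [← hK]
    refine Nat.card_congr (Equiv.subtypeEquivRight fun a => ?_)
    rw [MonoidHom.mem_ker, hφ, mul_inv_eq_one]
  · intro a ha
    have hmem : a ∈ (mkφ σ₁).ker := by rw [MonoidHom.mem_ker, hφ, ha, mul_inv_cancel]
    rw [← hEq] at hmem
    obtain ⟨b, rfl⟩ := hmem
    exact ⟨b, rfl⟩

variable {G : Type*} [Group G]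

/-- Conjugation restricted to an invariant subgroup. -/
def conjOn (A : Subgroup G) (s : G) (hs : ∀ a ∈ A, s * a * s⁻¹ ∈ A) : A →* A :=
  MonoidHom.mk' (fun a => ⟨s * a.1 * s⁻¹, hs a.1 a.2⟩) (by
    intro a b
    apply Subtype.ext
    show s * (a.1 * b.1) * s⁻¹ = s * a.1 * s⁻¹ * (s * b.1 * s⁻¹)
    group)

@[simp] theorem conjOn_val (A : Subgroup G) (s : G) (hs : ∀ a ∈ A, s * a * s⁻¹ ∈ A) (a : A) :
    (conjOn A s hs a).1 = s * a.1 * s⁻¹ := rfl

/-- Subgroup version of `module_four`. -/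
theorem module_four_sub [Finite G] {A : Subgroup G} (he : ∀ a ∈ A, a * a = 1) (hcard : Nat.card A = 16)
    {s₁ s₂ t : G} (h₁ : ∀ a ∈ A, s₁ * a * s₁⁻¹ ∈ A) (h₂ : ∀ a ∈ A, s₂ * a * s₂⁻¹ ∈ A)
    (ht : ∀ a ∈ A, t * a * t⁻¹ ∈ A)
    (hs₁ : ∀ a ∈ A, s₁ * (s₁ * a * s₁⁻¹) * s₁⁻¹ = a) (hs₂ : ∀ a ∈ A, s₂ * (s₂ * a * s₂⁻¹) * s₂⁻¹ = a)
    (htt : ∀ a ∈ A, t * a * t⁻¹ = s₁ * (s₂ * a * s₂⁻¹) * s₁⁻¹)
    (hfpf : ∀ a ∈ A, t * a * t⁻¹ = a → a = 1) :
    Nat.card {a : A // s₁ * a.1 * s₁⁻¹ = a.1} = 4 ∧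
      ∀ a ∈ A, s₁ * a * s₁⁻¹ = a → ∃ b ∈ A, a = s₁ * b * s₁⁻¹ * b⁻¹ := by
  have he' : ∀ x : A, x * x = 1 := fun x => Subtype.ext (he x.1 x.2)
  have hc : ∀ x y : A, x * y = y * x := by
    intro x y
    refine comm_of_exp_two (fun z => ?_) x y
    rw [pow_two]; exact he' z
  obtain ⟨h3, h4⟩ := module_four hc he' hcard (conjOn A s₁ h₁) (conjOn A s₂ h₂) (conjOn A t ht)
    (fun a => Subtype.ext (hs₁ a.1 a.2)) (fun a => Subtype.ext (hs₂ a.1 a.2))
    (fun a => Subtype.ext (htt a.1 a.2))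
    (fun a ha => Subtype.ext (hfpf a.1 a.2 (congrArg Subtype.val ha)))
  constructor
  · rw [← h3]
    refine Nat.card_congr (Equiv.subtypeEquivRight fun a => ?_)
    rw [Subtype.ext_iff]
    rfl
  · intro a ha hfix
    obtain ⟨b, hb⟩ := h4 ⟨a, ha⟩ (Subtype.ext hfix)
    refine ⟨b.1, b.2, ?_⟩
    have := congrArg Subtype.val hb
    simpa using this

/-- Hypotheses on the action of `y` modulo `R`. -/
structure YAct (P R : Subgroup G) (y : G) : Prop where
  le : R ≤ P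
  hP : IsPGroup 2 P
  yP : ∀ u ∈ P, y * u * y⁻¹ ∈ P
  yR : ∀ r ∈ R, y * r * y⁻¹ ∈ R
  y5 : y ^ 5 = 1
  hcard : Nat.card P = 16 * Nat.card R
  fpf : ∀ u ∈ P, u⁻¹ * (y * u * y⁻¹) ∈ R → u ∈ R

section

variable [Finite G]

instance fact_five : Fact (Nat.Prime 5) := ⟨by norm_num⟩

theorem not_five_dvd {T : Subgroup G} (hT : IsPGroup 2 T) : ¬ 5 ∣ Nat.card T := by
  obtain ⟨m, hm⟩ := IsPGroup.iff_card.1 hT
  rw [hm]
  intro h
  have := Nat.Prime.dvd_of_dvd_pow (by norm_num) h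
  omega

/-- Irreducibility modulo `R`. -/
theorem YAct.irr {P R T : Subgroup G} {y : G} (V : YAct P R y) (hRT : R ≤ T) (hTP : T ≤ P)
    (hT : ∀ t ∈ T, y * t * y⁻¹ ∈ T) : T = R ∨ T = P := by
  have hTp : IsPGroup 2 T := V.hP.to_le hTP
  have hRp : IsPGroup 2 R := V.hP.to_le V.le
  have h1 := card_modEq_centralizer 5 V.y5 hT
  have h2 := card_modEq_centralizer 5 V.y5 V.yR
  have e : Nat.card {t : T // y * t.1 * y⁻¹ = t.1} = Nat.card {t : R // y * t.1 * y⁻¹ = t.1} := by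
    refine Nat.card_congr ⟨fun t => ⟨⟨t.1.1, ?_⟩, t.2⟩, fun t => ⟨⟨t.1.1, hRT t.1.2⟩, t.2⟩, ?_, ?_⟩
    · apply V.fpf _ (hTP t.1.2)
      rw [t.2]
      simp [R.one_mem]
    · intro t; rfl
    · intro t; rfl
  have hmod : Nat.card T ≡ Nat.card R [MOD 5] := h1.trans (e ▸ h2.symm)
  obtain ⟨m, hm⟩ := IsPGroup.iff_card.1 hRp
  have hk := card_eq_relIndex_mul hRT
  set k := R.relIndex T with hkdef
  have hRcop : Nat.Coprime (Nat.card R) 5 := by
    rw [hm]; exact Nat.Coprime.pow_left _ (by norm_num)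
  have hmod2 : k ≡ 1 [MOD 5] := by
    rw [hk] at hmod
    have h3 : k * Nat.card R ≡ 1 * Nat.card R [MOD 5] := by rwa [one_mul]
    exact Nat.ModEq.cancel_right_of_coprime (by rw [Nat.coprime_comm] at hRcop; exact hRcop) h3
  have hRpos : 0 < Nat.card R := Nat.card_pos
  have hdvd : k ∣ 16 := by
    have h3 : Nat.card T ∣ Nat.card P := Subgroup.card_dvd_of_le hTP
    rw [hk, V.hcard] at h3
    exact Nat.dvd_of_mul_dvd_mul_right hRpos h3
  have hk16 : k = 1 ∨ k = 16 := by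
    have h16 : (16 : ℕ) = 2 ^ 4 := by norm_num
    rw [h16, Nat.dvd_prime_pow Nat.prime_two] at hdvd
    obtain ⟨l, hl, hl2⟩ := hdvd
    rw [hl2] at hmod2
    unfold Nat.ModEq at hmod2
    interval_cases l
    · left; simpa using hl2
    · norm_num at hmod2
    · norm_num at hmod2
    · norm_num at hmod2
    · right; simpa using hl2
  rcases hk16 with h | h
  · left
    rw [h, one_mul] at hk
    exact (Subgroup.eq_of_le_of_card_ge hRT (by omega)).symm
  · right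
    rw [h] at hk
    exact Subgroup.eq_of_le_of_card_ge hTP (by rw [V.hcard, hk])

end

end Cfsg.Agent.Lib.SecA5Mod
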