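import Mathlib
import Cfsg.Agent.Lib.SecA5Mod

/-!
# The case where the fixed-point-free element centralizes the squares.
-/

set_option autoImplicit false
set_option linter.unusedSectionVars false

open scoped commutatorElement

namespace Cfsg.Agent.Lib.SecA5One

open Cfsg.Agent.Lib.SecA5Base Cfsg.Agent.Lib.SectRank Cfsg.Agent.Lib.SecA5Mod

variable {G : Type*} [Group G] [Finite G]

/-- The orbit of `v` under `y`. -/
def vv (y v : G) (i : ℕ) : G := y ^ i * v * (y ^ i)⁻¹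

theorem vv_zero (y v : G) : vv y v 0 = v := by simp [vv]

theorem vv_succ (y v : G) (i : ℕ) : vv y v (i + 1) = y * vv y v i * y⁻¹ := by
  simp only [vv, pow_succ']; group

/-- Standing hypotheses of this section. -/
structure CaseI (P R : Subgroup G) (y v : G) : Prop where
  cl : Cl2 P R
  V : YAct P R y
  triv : ∀ r ∈ R, y * r * y⁻¹ = r
  hv : v ∈ P
  hvR : v ∉ R

namespace CaseI

variable {P R : Subgroup G} {y v : G} (D : CaseI P R y v)

include D

theorem vv_mem (i : ℕ) : vv y v i ∈ P := by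
  induction i with
  | zero => rw [vv_zero]; exact D.hv
  | succ i ih => rw [vv_succ]; exact D.V.yP _ ih

theorem vv_add5 (i : ℕ) : vv y v (i + 5) = vv y v i := by
  simp only [vv, pow_add, D.V.y5, mul_one]

theorem vv_mod (i : ℕ) : vv y v i = vv y v (i % 5) := by
  induction i using Nat.strong_induction_on with
  | _ i ih =>
    by_cases h : i < 5
    · rw [Nat.mod_eq_of_lt h]
    · obtain ⟨j, rfl⟩ := Nat.exists_eq_add_of_le' (not_lt.1 h)
      rw [D.vv_add5, Nat.add_mod_right]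
      exact ih j (by omega)

theorem sq_vv (i : ℕ) : (vv y v i) ^ 2 = v ^ 2 := by
  induction i with
  | zero => rw [vv_zero]
  | succ i ih =>
    rw [vv_succ, conj_pow, ih]
    exact D.triv _ (D.cl.sq v D.hv)

theorem comm_shift (i j : ℕ) : ⁅vv y v (i + 1), vv y v (j + 1)⁆ = ⁅vv y v i, vv y v j⁆ := by
  rw [vv_succ, vv_succ, ← conj_comm]
  exact D.triv _ (D.cl.comm_mem (D.vv_mem i) (D.vv_mem j))

theorem comm_add (i j k : ℕ) : ⁅vv y v (i + k), vv y v (j + k)⁆ = ⁅vv y v i, vv y v j⁆ := by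
  induction k with
  | zero => rfl
  | succ k ih =>
    rw [← add_assoc, ← add_assoc, D.comm_shift, ih]

theorem comm_D (d j : ℕ) : ⁅vv y v (d + j), vv y v j⁆ = ⁅vv y v d, vv y v 0⁆ := by
  have := D.comm_add d 0 j
  rwa [zero_add] at this

end CaseI

/-- Reduction of the difference of two residues to the distance on the pentagon. -/
def cl5 : ℕ → ℕ
  | 0 => 0
  | 1 => 1
  | 2 => 2
  | 3 => 2
  | _ => 1

/-- Distance on the pentagon. -/
def dst (i j : ℕ) : ℕ := cl5 ((i - j) + (j - i))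

/-- Value of the commutator by distance. -/
def tv (b b' : G) : ℕ → G
  | 0 => 1
  | 1 => b
  | _ => b'

theorem pent_decide : ∀ τ : Fin 5 → Fin 5, (∀ i, τ (τ (τ i)) = i) →
    (∀ i j, dst (τ i).val (τ j).val = dst i.val j.val) → ∀ i, τ i = i := by
  decide +kernel

theorem dst_le (i j : Fin 5) : dst i.val j.val ≤ 2 := by
  revert i j; decide

theorem dst_eq_zero (i j : Fin 5) : dst i.val j.val = 0 → i = j := by
  revert i j; decide

namespace CaseI

variable {P R : Subgroup G} {y v : G} (D : CaseI P R y v)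

include D

/-- The commutator table. -/
theorem table (i j : ℕ) (hi : i < 5) (hj : j < 5) :
    ⁅vv y v i, vv y v j⁆ = tv ⁅vv y v 1, vv y v 0⁆ ⁅vv y v 2, vv y v 0⁆ (dst i j) := by
  have hP := D.vv_mem
  have D0 : ⁅vv y v 0, vv y v 0⁆ = 1 := commutatorElement_self _
  have D3 : ⁅vv y v 3, vv y v 0⁆ = ⁅vv y v 2, vv y v 0⁆ := by
    rw [D.cl.comm_symm (hP 3) (hP 0)]
    have h1 : vv y v (2 + 3) = vv y v 0 := D.vv_add5 0
    have h2 := D.comm_D 2 3
    rwa [h1] at h2
  have D4 : ⁅vv y v 4, vv y v 0⁆ = ⁅vv y v 1, vv y v 0⁆ := by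
    rw [D.cl.comm_symm (hP 4) (hP 0)]
    have h1 : vv y v (1 + 4) = vv y v 0 := D.vv_add5 0
    have h2 := D.comm_D 1 4
    rwa [h1] at h2
  have key : ∀ d, d < 5 → ⁅vv y v d, vv y v 0⁆ = tv ⁅vv y v 1, vv y v 0⁆ ⁅vv y v 2, vv y v 0⁆ (cl5 d) := by
    intro d hd
    interval_cases d
    · exact D0
    · rfl
    · rfl
    · exact D3
    · exact D4
  rcases le_total j i with h | h
  · obtain ⟨d, rfl⟩ := Nat.exists_eq_add_of_le' h
    rw [D.comm_D, key d (by omega)]
    unfold dst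
    have : d + j - j + (j - (d + j)) = d := by omega
    rw [this]
  · obtain ⟨d, rfl⟩ := Nat.exists_eq_add_of_le' h
    rw [D.cl.comm_symm (hP _) (hP _), D.comm_D, key d (by omega)]
    unfold dst
    have : i - (d + i) + (d + i - i) = d := by omega
    rw [this]

/-- Product of the five conjugates lies in `R`. -/
theorem prod_mem : vv y v 0 * vv y v 1 * vv y v 2 * vv y v 3 * vv y v 4 ∈ R := by
  have hP := D.vv_mem
  apply D.V.fpf _ (P.mul_mem (P.mul_mem (P.mul_mem (P.mul_mem (hP 0) (hP 1)) (hP 2)) (hP 3)) (hP 4))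
  set X := vv y v 1 * vv y v 2 * vv y v 3 * vv y v 4 with hX
  have hXP : X ∈ P := P.mul_mem (P.mul_mem (P.mul_mem (hP 1) (hP 2)) (hP 3)) (hP 4)
  have e1 : vv y v 0 * vv y v 1 * vv y v 2 * vv y v 3 * vv y v 4 = vv y v 0 * X := by
    rw [hX]; group
  have e2 : y * (vv y v 0 * X) * y⁻¹ = X * vv y v 0 := by
    have h5 : vv y v 0 = y * vv y v 4 * y⁻¹ := by
      rw [← vv_succ]; exact (D.vv_add5 0).symm
    have h1 : vv y v 1 = y * vv y v 0 * y⁻¹ := vv_succ y v 0
    have h2 : vv y v 2 = y * vv y v 1 * y⁻¹ := vv_succ y v 1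
    have h3 : vv y v 3 = y * vv y v 2 * y⁻¹ := vv_succ y v 2
    have h4 : vv y v 4 = y * vv y v 3 * y⁻¹ := vv_succ y v 3
    rw [hX]
    calc y * (vv y v 0 * (vv y v 1 * vv y v 2 * vv y v 3 * vv y v 4)) * y⁻¹
        = (y * vv y v 0 * y⁻¹) * (y * vv y v 1 * y⁻¹) * (y * vv y v 2 * y⁻¹) * (y * vv y v 3 * y⁻¹)
            * (y * vv y v 4 * y⁻¹) := by group
      _ = _ := by rw [← h1, ← h2, ← h3, ← h4, ← h5]
  rw [e1, e2]
  have h3 := D.cl.comm_mem (P.inv_mem hXP) (P.inv_mem (hP 0))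
  have e3 : (vv y v 0 * X)⁻¹ * (X * vv y v 0) = ⁅X⁻¹, (vv y v 0)⁻¹⁆ := by
    simp only [commutatorElement_def]; group
  rw [e3]
  exact h3

/-- The relation between the three parameters. -/
theorem relation : v ^ 2 = ⁅vv y v 2, vv y v 0⁆ * ⁅vv y v 1, vv y v 0⁆ := by
  have hP := D.vv_mem
  have cl := D.cl
  set a := v ^ 2 with ha
  set b := ⁅vv y v 1, vv y v 0⁆ with hb
  set b' := ⁅vv y v 2, vv y v 0⁆ with hb'
  have haR : a ∈ R := cl.sq v D.hv
  have hbR : b ∈ R := cl.comm_mem (hP 1) (hP 0)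
  have hb'R : b' ∈ R := cl.comm_mem (hP 2) (hP 0)
  have tbl := fun i j hi hj => D.table i j hi hj
  have t32 : ⁅vv y v 3, vv y v 2⁆ = b := by
    have := D.comm_D 1 2
    exact this
  have t31 : ⁅vv y v 3, vv y v 1⁆ = b' := by
    have := D.comm_D 2 1
    exact this
  have t30 : ⁅vv y v 3, vv y v 0⁆ = b' := tbl 3 0 (by norm_num) (by norm_num)
  have t21 : ⁅vv y v 2, vv y v 1⁆ = b := by
    have := D.comm_D 1 1
    exact this
  -- the product of four is congruent to the inverse of the fifth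
  set u := vv y v 0 * vv y v 1 with hu
  set u' := vv y v 2 * vv y v 3 with hu'
  have huP : u ∈ P := P.mul_mem (hP 0) (hP 1)
  have hu'P : u' ∈ P := P.mul_mem (hP 2) (hP 3)
  have h5 : (u * u') ^ 2 = a := by
    have h1 := D.prod_mem
    have hinv : (vv y v 4)⁻¹ ∈ P := P.inv_mem (hP 4)
    have h2 : ((vv y v 4)⁻¹)⁻¹ * (u * u') ∈ R := by
      have e : ((vv y v 4)⁻¹)⁻¹ * (u * u') =
          vv y v 4 * (vv y v 0 * vv y v 1 * vv y v 2 * vv y v 3 * vv y v 4) * (vv y v 4)⁻¹ := by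
        rw [hu, hu']; group
      rw [e]
      exact cl.conj_mem_R (hP 4) h1
    rw [cl.sq_congr' hinv h2, inv_pow, D.sq_vv]
    exact cl.inv_eq haR
  have hu2 : u ^ 2 = b := by
    rw [hu, cl.sq_mul (hP 0) (hP 1), D.sq_vv, D.sq_vv, ← ha, cl.self_mul haR, one_mul]
  have hu'2 : u' ^ 2 = b := by
    rw [hu', cl.sq_mul (hP 2) (hP 3), D.sq_vv, D.sq_vv, ← ha, cl.self_mul haR, one_mul, t32]
  have hc : ⁅u', u⁆ = b' * b * b' * b' := by
    have t20 : ⁅vv y v 2, vv y v 0⁆ = b' := rfl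
    rw [hu', cl.comm_mul_left (hP 2) (hP 3) huP, hu, cl.comm_mul_right (hP 2) (hP 0) (hP 1),
      cl.comm_mul_right (hP 3) (hP 0) (hP 1), t21, t30, t31, t20]
    simp only [mul_assoc]
  rw [← h5, cl.sq_mul huP hu'P, hu2, hu'2, cl.self_mul hbR, one_mul, hc, mul_assoc (b' * b),
    cl.self_mul hb'R, mul_one]

/-- Subgroup generation: `P` is generated modulo `R` by the conjugates of `v`. -/
theorem gen_le {S : Subgroup G} (hR : R ≤ S) (hS : ∀ i, i < 5 → vv y v i ∈ S) : P ≤ S := by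
  let T : Subgroup G := Subgroup.closure (Set.range (vv y v) ∪ (R : Set G))
  have hRT : R ≤ T := fun r hr => Subgroup.subset_closure (Or.inr hr)
  have hTP : T ≤ P := by
    rw [Subgroup.closure_le]
    rintro x (⟨i, rfl⟩ | hx)
    · exact D.vv_mem i
    · exact D.V.le hx
  have hy : ∀ t ∈ T, y * t * y⁻¹ ∈ T := by
    intro t ht
    induction ht using Subgroup.closure_induction with
    | mem x hx =>
      rcases hx with ⟨i, rfl⟩ | hx
      · rw [← vv_succ]
        exact Subgroup.subset_closure (Or.inl ⟨_, rfl⟩)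
      · exact Subgroup.subset_closure (Or.inr (D.V.yR x hx))
    | one => simp [T.one_mem]
    | mul a b _ _ ha hb =>
      have e : y * (a * b) * y⁻¹ = (y * a * y⁻¹) * (y * b * y⁻¹) := by group
      rw [e]
      exact T.mul_mem ha hb
    | inv a _ ha =>
      have e : y * a⁻¹ * y⁻¹ = (y * a * y⁻¹)⁻¹ := by group
      rw [e]
      exact T.inv_mem ha
  have hvT : v ∈ T := by
    apply Subgroup.subset_closure
    left
    exact ⟨0, vv_zero y v⟩
  have hTS : T ≤ S := by
    rw [Subgroup.closure_le]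
    rintro x (⟨i, rfl⟩ | hx)
    · rw [D.vv_mod]
      exact hS _ (Nat.mod_lt _ (by norm_num))
    · exact hR hx
  rcases D.V.irr hRT hTP hy with h | h
  · rw [h] at hvT
    exact absurd hvT D.hvR
  · rw [← h]
    exact hTS

/-- Commutator subgroup `{u ∈ P | ⁅u, w⁆ ∈ T}`. -/
def leftS (hc : Cl2 P R) (T : Subgroup G) (w : G) (hw : w ∈ P) : Subgroup G where
  carrier := {u | u ∈ P ∧ ⁅u, w⁆ ∈ T}
  one_mem' := ⟨P.one_mem, by simp [T.one_mem]⟩
  mul_mem' := by
    rintro a b ⟨ha, ha'⟩ ⟨hb, hb'⟩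
    refine ⟨P.mul_mem ha hb, ?_⟩
    rw [hc.comm_mul_left ha hb hw]
    exact T.mul_mem ha' hb'
  inv_mem' := by
    rintro a ⟨ha, ha'⟩
    refine ⟨P.inv_mem ha, ?_⟩
    rw [hc.comm_inv_left ha hw]
    exact ha'

/-- The squares lie in the subgroup generated by the parameters. -/
theorem sqS_le_params : sqS P ≤ Subgroup.closure {v ^ 2, ⁅vv y v 1, vv y v 0⁆, ⁅vv y v 2, vv y v 0⁆} := by
  have hP := D.vv_mem
  have cl := D.cl
  set T := Subgroup.closure {v ^ 2, ⁅vv y v 1, vv y v 0⁆, ⁅vv y v 2, vv y v 0⁆} with hT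
  have haT : v ^ 2 ∈ T := Subgroup.subset_closure (by simp)
  have hbT : ⁅vv y v 1, vv y v 0⁆ ∈ T := Subgroup.subset_closure (by simp)
  have hb'T : ⁅vv y v 2, vv y v 0⁆ ∈ T := Subgroup.subset_closure (by simp)
  have htv : ∀ k, tv ⁅vv y v 1, vv y v 0⁆ ⁅vv y v 2, vv y v 0⁆ k ∈ T := by
    intro k
    match k with
    | 0 => exact T.one_mem
    | 1 => exact hbT
    | (n + 2) => exact hb'T
  -- step 1
  have step1 : ∀ i, i < 5 → ∀ u ∈ P, ⁅u, vv y v i⁆ ∈ T := by
    intro i hi u hu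
    have hle : P ≤ leftS cl T (vv y v i) (hP i) := by
      refine D.gen_le ?_ ?_
      · intro r hr
        refine ⟨cl.le hr, ?_⟩
        rw [cl.comm_of_R_left hr (hP i)]
        exact T.one_mem
      · intro j hj
        refine ⟨hP j, ?_⟩
        rw [D.table j i hj hi]
        exact htv _
    exact (hle hu).2
  -- step 2
  have step2 : ∀ u ∈ P, ∀ w ∈ P, ⁅w, u⁆ ∈ T := by
    intro u hu w hw
    have hle : P ≤ leftS cl T u hu := by
      refine D.gen_le ?_ ?_
      · intro r hr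
        refine ⟨cl.le hr, ?_⟩
        rw [cl.comm_of_R_left hr hu]
        exact T.one_mem
      · intro j hj
        refine ⟨hP j, ?_⟩
        rw [cl.comm_symm (hP j) hu]
        exact step1 j hj u hu
    exact (hle hw).2
  -- step 3
  let Sq : Subgroup G :=
    { carrier := {u | u ∈ P ∧ u ^ 2 ∈ T}
      one_mem' := ⟨P.one_mem, by simp [T.one_mem]⟩
      mul_mem' := by
        rintro a b ⟨ha, ha'⟩ ⟨hb, hb'⟩
        refine ⟨P.mul_mem ha hb, ?_⟩
        rw [cl.sq_mul ha hb]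
        exact T.mul_mem (T.mul_mem ha' hb') (step2 a ha b hb)
      inv_mem' := by
        rintro a ⟨ha, ha'⟩
        refine ⟨P.inv_mem ha, ?_⟩
        rw [inv_pow]
        exact T.inv_mem ha' }
  have hle : P ≤ Sq := by
    refine D.gen_le ?_ ?_
    · intro r hr
      refine ⟨cl.le hr, ?_⟩
      rw [cl.el r hr]
      exact T.one_mem
    · intro j _
      refine ⟨hP j, ?_⟩
      rw [D.sq_vv]
      exact haT
  exact sqS_le fun u hu => (hle hu).2

/-- The low-rank case. -/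
theorem card_le_two (hRs : R ≤ sqS P)
    (h : v ^ 2 = 1 ∨ ⁅vv y v 1, vv y v 0⁆ = 1 ∨ ⁅vv y v 2, vv y v 0⁆ = 1) :
    Nat.card R ≤ 2 ∧ (Nat.card R = 2 → ⁅vv y v 1, vv y v 0⁆ ≠ 1 ∨ ⁅vv y v 2, vv y v 0⁆ ≠ 1) := by
  have hP := D.vv_mem
  have cl := D.cl
  have hrel := D.relation
  have hle := hRs.trans D.sqS_le_params
  set a := v ^ 2 with ha
  set b := ⁅vv y v 1, vv y v 0⁆ with hb
  set b' := ⁅vv y v 2, vv y v 0⁆ with hb'
  have haR : a ∈ R := cl.sq v D.hv
  have hbR : b ∈ R := cl.comm_mem (hP 1) (hP 0)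
  have hb'R : b' ∈ R := cl.comm_mem (hP 2) (hP 0)
  have key : ∃ t ∈ R, a ∈ Subgroup.zpowers t ∧ b ∈ Subgroup.zpowers t ∧ b' ∈ Subgroup.zpowers t := by
    rcases h with h | h | h
    · refine ⟨b, hbR, ?_, Subgroup.mem_zpowers b, ?_⟩
      · rw [h]; exact Subgroup.one_mem _
      · have : b' = b := by
          rw [h] at hrel
          have := eq_inv_of_mul_eq_one_left hrel.symm
          rw [this]; exact cl.inv_eq hbR
        rw [this]; exact Subgroup.mem_zpowers b
    · refine ⟨b', hb'R, ?_, ?_, Subgroup.mem_zpowers b'⟩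
      · rw [hrel, h, mul_one]; exact Subgroup.mem_zpowers b'
      · rw [h]; exact Subgroup.one_mem _
    · refine ⟨b, hbR, ?_, Subgroup.mem_zpowers b, ?_⟩
      · rw [hrel, h, one_mul]; exact Subgroup.mem_zpowers b
      · rw [h]; exact Subgroup.one_mem _
  obtain ⟨t, htR, h1, h2, h3⟩ := key
  have hleT : R ≤ Subgroup.zpowers t := by
    refine hle.trans ?_
    rw [Subgroup.closure_le]
    rintro x (rfl | rfl | hx)
    · exact h1
    · exact h2
    · rw [Set.mem_singleton_iff] at hx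
      rw [hx]; exact h3
  have hcard : Nat.card (Subgroup.zpowers t) ≤ 2 := by
    rw [Nat.card_zpowers]
    exact orderOf_le_of_pow_eq_one (by norm_num) (cl.el t htR)
  refine ⟨(Subgroup.card_le_of_le hleT).trans hcard, ?_⟩
  intro hcard2
  by_contra hno
  push Not at hno
  obtain ⟨hb1, hb2⟩ := hno
  have ha1 : a = 1 := by rw [hrel, hb1, hb2, one_mul]
  have hbot : R ≤ ⊥ := by
    refine hle.trans ?_
    rw [Subgroup.closure_le]
    rintro x (rfl | rfl | hx)
    · rw [ha1]; exact Subgroup.one_mem _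
    · rw [hb1]; exact Subgroup.one_mem _
    · rw [Set.mem_singleton_iff] at hx
      rw [hx, hb2]; exact Subgroup.one_mem _
  have : Nat.card R = 1 := by
    rw [le_bot_iff.1 hbot]; simp
  omega

end CaseI

end Cfsg.Agent.Lib.SecA5One
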