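import Mathlib
import Cfsg.Agent.Lib.SecA5One

/-!
# Exclusion of the rank two case: an element of order three would have to centralize.
-/

set_option autoImplicit false
set_option linter.unusedSectionVars false

open scoped commutatorElement

namespace Cfsg.Agent.Lib.SecA5Rank

open Cfsg.Agent.Lib.SecA5Base Cfsg.Agent.Lib.SectRank Cfsg.Agent.Lib.SecA5Mod
open Cfsg.Agent.Lib.SecA5One

variable {G : Type*} [Group G] [Finite G]

variable {P R : Subgroup G} {y v : G}

/-- The subgroup of elements of `P` fixed modulo `R` by `x`. -/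
def fixS (x : G) (cl : Cl2 P R) (hxP : ∀ u ∈ P, x * u * x⁻¹ ∈ P) : Subgroup G where
  carrier := {u | u ∈ P ∧ u⁻¹ * (x * u * x⁻¹) ∈ R}
  one_mem' := ⟨P.one_mem, by simp [R.one_mem]⟩
  mul_mem' := by
    rintro a b ⟨ha, ha'⟩ ⟨hb, hb'⟩
    refine ⟨P.mul_mem ha hb, ?_⟩
    have e : (a * b)⁻¹ * (x * (a * b) * x⁻¹)
        = (b⁻¹ * (a⁻¹ * (x * a * x⁻¹)) * b⁻¹⁻¹) * (b⁻¹ * (x * b * x⁻¹)) := by group
    rw [e]
    exact R.mul_mem (cl.conj_mem_R (P.inv_mem hb) ha') hb'
  inv_mem' := by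
    rintro a ⟨ha, ha'⟩
    refine ⟨P.inv_mem ha, ?_⟩
    have e : (a⁻¹)⁻¹ * (x * a⁻¹ * x⁻¹) = a * (a⁻¹ * (x * a * x⁻¹))⁻¹ * a⁻¹ := by group
    rw [e]
    exact cl.conj_mem_R ha (R.inv_mem ha')

variable (D : CaseI P R y v)

omit [Finite G] in
theorem conj_conj_inv' (g X : G) : g⁻¹ * (g * X * g⁻¹) * g⁻¹⁻¹ = X := by group

include D

theorem conj_pow_R (i : ℕ) {r : G} (hr : r ∈ R) : y ^ i * r * (y ^ i)⁻¹ = r := by
  induction i with
  | zero => simp
  | succ i ih =>
    have e : y ^ (i + 1) * r * (y ^ (i + 1))⁻¹ = y ^ i * (y * r * y⁻¹) * (y ^ i)⁻¹ := by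
      rw [pow_succ]; group
    rw [e, D.triv r hr, ih]

theorem fix_pow {w : G} (hw : w ∈ P) {d : ℕ} (hd0 : 0 < d) (hd5 : d < 5)
    (h : w⁻¹ * (y ^ d * w * (y ^ d)⁻¹) ∈ R) : w ∈ R := by
  have hm : ∀ m : ℕ, w⁻¹ * (y ^ (d * m) * w * (y ^ (d * m))⁻¹) ∈ R := by
    intro m
    induction m with
    | zero => simp [R.one_mem]
    | succ m ih =>
      set r := w⁻¹ * (y ^ (d * m) * w * (y ^ (d * m))⁻¹) with hr
      have e : y ^ (d * (m + 1)) * w * (y ^ (d * (m + 1)))⁻¹
          = y ^ d * (y ^ (d * m) * w * (y ^ (d * m))⁻¹) * (y ^ d)⁻¹ := by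
        rw [mul_add, mul_one, add_comm, pow_add]; group
      have e2 : y ^ (d * m) * w * (y ^ (d * m))⁻¹ = w * r := by rw [hr]; group
      rw [e, e2]
      have e3 : w⁻¹ * (y ^ d * (w * r) * (y ^ d)⁻¹)
          = (w⁻¹ * (y ^ d * w * (y ^ d)⁻¹)) * (y ^ d * r * (y ^ d)⁻¹) := by group
      rw [e3, conj_pow_R D d ih]
      exact R.mul_mem h ih
  have y5 := D.V.y5
  have hy : ∃ m, y ^ (d * m) = y := by
    interval_cases d
    · exact ⟨1, by simp⟩
    · exact ⟨3, by
        have : (2 : ℕ) * 3 = 5 + 1 := by norm_num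
        rw [this, pow_add, y5]; simp⟩
    · exact ⟨2, by
        have : (3 : ℕ) * 2 = 5 + 1 := by norm_num
        rw [this, pow_add, y5]; simp⟩
    · exact ⟨4, by
        have : (4 : ℕ) * 4 = 5 * 3 + 1 := by norm_num
        rw [this, pow_add, pow_mul, y5]; simp⟩
  obtain ⟨m, hm'⟩ := hy
  have := hm m
  rw [hm'] at this
  exact D.V.fpf w hw this

/-- Classification of the elements with a given square when the three parameters are nontrivial. -/
theorem classify [hRn : R.Normal] (ha : v ^ 2 ≠ 1) (hb : ⁅vv y v 1, vv y v 0⁆ ≠ 1) (hb' : ⁅vv y v 2, vv y v 0⁆ ≠ 1)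
    {u : G} (hu : u ∈ P) (h2 : u ^ 2 = v ^ 2) : ∃ i : Fin 5, (vv y v i.val)⁻¹ * u ∈ R := by
  classical
  have hP := D.vv_mem
  have cl := D.cl
  have hrel := D.relation
  set a := v ^ 2 with hadef
  set b := ⁅vv y v 1, vv y v 0⁆ with hbdef
  set b' := ⁅vv y v 2, vv y v 0⁆ with hb'def
  have haR : a ∈ R := cl.sq v D.hv
  have hbR : b ∈ R := cl.comm_mem (hP 1) (hP 0)
  have hb'R : b' ∈ R := cl.comm_mem (hP 2) (hP 0)
  have hab : a ≠ b := by
    intro h
    apply hb'
    rw [h] at hrel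
    exact mul_eq_right.1 hrel.symm
  have hab' : a ≠ b' := by
    intro h
    apply hb
    rw [h] at hrel
    exact mul_eq_left.1 hrel.symm
  have hbb' : b ≠ b' := by
    intro h
    apply ha
    rw [hrel, h]
    exact cl.self_mul hb'R
  let W : Fin 3 → G := ![vv y v 0, vv y v 0 * vv y v 1, vv y v 0 * vv y v 2]
  let qv : Fin 3 → G := ![a, b, b']
  have hWP : ∀ k, W k ∈ P := by
    intro k
    fin_cases k
    · exact hP 0
    · exact P.mul_mem (hP 0) (hP 1)
    · exact P.mul_mem (hP 0) (hP 2)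
  have hWq : ∀ k, (W k) ^ 2 = qv k := by
    intro k
    fin_cases k
    · show (vv y v 0) ^ 2 = a
      exact D.sq_vv 0
    · show (vv y v 0 * vv y v 1) ^ 2 = b
      rw [cl.sq_mul (hP 0) (hP 1), D.sq_vv, D.sq_vv, ← hadef, cl.self_mul haR, one_mul]
    · show (vv y v 0 * vv y v 2) ^ 2 = b'
      rw [cl.sq_mul (hP 0) (hP 2), D.sq_vv, D.sq_vv, ← hadef, cl.self_mul haR, one_mul]
  have hq1 : ∀ k, qv k ≠ 1 := by
    intro k
    fin_cases k
    · exact ha
    · exact hb
    · exact hb'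
  have hqinj : ∀ k l, qv k = qv l → k = l := by
    intro k l h
    fin_cases k <;> fin_cases l <;> first
      | rfl
      | exact absurd h hab
      | exact absurd h hab'
      | exact absurd h hbb'
      | exact absurd h.symm hab
      | exact absurd h.symm hab'
      | exact absurd h.symm hbb'
  have hyP : ∀ (i : ℕ) (w : G), w ∈ P → y ^ i * w * (y ^ i)⁻¹ ∈ P := by
    intro i w hw
    induction i with
    | zero => simpa using hw
    | succ i ih =>
      have e : y ^ (i + 1) * w * (y ^ (i + 1))⁻¹ = y * (y ^ i * w * (y ^ i)⁻¹) * y⁻¹ := by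
        rw [pow_succ']; group
      rw [e]
      exact D.V.yP _ ih
  let E : Fin 3 × Fin 5 → P := fun p => ⟨y ^ p.2.val * W p.1 * (y ^ p.2.val)⁻¹, hyP _ _ (hWP _)⟩
  have hEq : ∀ p, (E p).1 ^ 2 = qv p.1 := by
    intro p
    show (y ^ p.2.val * W p.1 * (y ^ p.2.val)⁻¹) ^ 2 = qv p.1
    rw [conj_pow, hWq]
    apply conj_pow_R D
    rw [← hWq]
    exact cl.sq _ (hWP _)
  let N : Subgroup P := R.subgroupOf P
  let g : Option (Fin 3 × Fin 5) → P ⧸ N := fun o => match o with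
    | none => ((1 : P) : P ⧸ N)
    | some p => ((E p : P) : P ⧸ N)
  have hmk : ∀ x y : P, ((x : P) : P ⧸ N) = (y : P ⧸ N) ↔ (x.1)⁻¹ * y.1 ∈ R := by
    intro x y
    rw [QuotientGroup.eq, Subgroup.mem_subgroupOf]
    rfl
  have hqE : ∀ p, (E p).1 ∉ R := by
    intro p hR
    apply hq1 p.1
    rw [← hEq p]
    exact cl.el _ hR
  have hinj : Function.Injective g := by
    rintro (_ | p) (_ | p') h
    · rfl
    · exfalso
      have := (hmk _ _).1 h
      apply hqE p'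
      simpa using this
    · exfalso
      have := (hmk _ _).1 h
      apply hqE p
      have h2 := R.inv_mem this
      simpa using h2
    · have h1 := (hmk _ _).1 h
      have h3 := cl.sq_congr' (E p).2 h1
      rw [hEq, hEq] at h3
      have hk := hqinj _ _ h3
      obtain ⟨k, i⟩ := p
      obtain ⟨l, j⟩ := p'
      simp only at hk
      subst hk
      congr 1
      simp only [Prod.mk.injEq, true_and]
      by_contra hij
      have hval : i.val ≠ j.val := fun h => hij (Fin.ext h)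
      -- reduce to a difference
      have key : ∀ (s t : Fin 5), s.val < t.val →
          (y ^ s.val * W l * (y ^ s.val)⁻¹)⁻¹ * (y ^ t.val * W l * (y ^ t.val)⁻¹) ∈ R → False := by
        intro s t hst hmem
        obtain ⟨d, hd⟩ := Nat.exists_eq_add_of_lt hst
        have ht : t.val = s.val + (d + 1) := by omega
        have e : (y ^ s.val * W l * (y ^ s.val)⁻¹)⁻¹ * (y ^ t.val * W l * (y ^ t.val)⁻¹)
            = y ^ s.val * ((W l)⁻¹ * (y ^ (d + 1) * W l * (y ^ (d + 1))⁻¹)) * (y ^ s.val)⁻¹ := by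
          rw [ht, pow_add]; group
        rw [e] at hmem
        have hmem2 : (W l)⁻¹ * (y ^ (d + 1) * W l * (y ^ (d + 1))⁻¹) ∈ R := by
          have h4 := hRn.conj_mem _ hmem (y ^ s.val)⁻¹
          rwa [conj_conj_inv'] at h4
        have hd5 : d + 1 < 5 := by have := t.2; omega
        have hwR := fix_pow D (hWP l) (by omega) hd5 hmem2
        apply hq1 l
        rw [← hWq]
        exact cl.el _ hwR
      rcases lt_or_gt_of_ne hval with hlt | hgt
      · exact key i j hlt h1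
      · refine key j i hgt ?_
        have h4 := R.inv_mem h1
        have e : ((y ^ i.val * W l * (y ^ i.val)⁻¹)⁻¹ * (y ^ j.val * W l * (y ^ j.val)⁻¹))⁻¹
            = (y ^ j.val * W l * (y ^ j.val)⁻¹)⁻¹ * (y ^ i.val * W l * (y ^ i.val)⁻¹) := by group
        rw [← e]
        exact h4
  have hcardQ : Nat.card (P ⧸ N) = 16 := by
    have h1 := card_eq_relIndex_mul D.V.le
    rw [D.V.hcard] at h1
    have hpos : 0 < Nat.card R := Nat.card_pos
    have h2 : R.relIndex P = 16 := (Nat.eq_of_mul_eq_mul_right hpos h1).symm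
    have h3 : Nat.card (P ⧸ N) = N.index := rfl
    rw [h3]
    exact h2
  have hbij := hinj.bijective_of_nat_card_le (by
    rw [hcardQ]
    simp)
  obtain ⟨o, ho⟩ := hbij.2 ((⟨u, hu⟩ : P) : P ⧸ N)
  match o, ho with
  | none, ho =>
    exfalso
    have h3 := (hmk _ _).1 ho
    have h4 : u ∈ R := by simpa using h3
    apply ha
    rw [← h2]
    exact cl.el _ h4
  | some p, ho =>
    have h3 := (hmk _ _).1 ho
    have h4 := cl.sq_congr' (E p).2 h3
    rw [hEq, h2] at h4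
    have hk : p.1 = 0 := hqinj _ _ (show qv p.1 = qv 0 from h4.symm)
    refine ⟨p.2, ?_⟩
    have h5 : (E p).1 = vv y v p.2.val := by
      show y ^ p.2.val * W p.1 * (y ^ p.2.val)⁻¹ = _
      rw [hk]
      show y ^ p.2.val * vv y v 0 * (y ^ p.2.val)⁻¹ = _
      rw [vv_zero]
      rfl
    rw [← h5]
    exact h3

/-- The rank two case does not occur. -/
theorem rank_two_false [hPn : P.Normal] [hRn : R.Normal]
    (ha : v ^ 2 ≠ 1) (hb : ⁅vv y v 1, vv y v 0⁆ ≠ 1) (hb' : ⁅vv y v 2, vv y v 0⁆ ≠ 1)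
    {x : G} (hxR : ∀ r ∈ R, x * r * x⁻¹ = r) (hx3 : x * x * x ∈ P)
    (hxnon : ∃ u ∈ P, u⁻¹ * (x * u * x⁻¹) ∉ R) : False := by
  have hP := D.vv_mem
  have cl := D.cl
  have hrel := D.relation
  have hxP : ∀ u ∈ P, x * u * x⁻¹ ∈ P := fun u hu => hPn.conj_mem u hu x
  have hex : ∀ i : Fin 5, ∃ j : Fin 5, (vv y v j.val)⁻¹ * (x * vv y v i.val * x⁻¹) ∈ R := by
    intro i
    apply classify D ha hb hb' (hxP _ (hP _))
    rw [conj_pow, D.sq_vv]
    exact hxR _ (cl.sq v D.hv)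
  choose τ hτ using hex
  have hbb' : ⁅vv y v 1, vv y v 0⁆ ≠ ⁅vv y v 2, vv y v 0⁆ := by
    intro h
    apply ha
    rw [hrel, ← h]
    exact cl.self_mul (cl.comm_mem (hP 1) (hP 0))
  have htvinj : ∀ k l, k ≤ 2 → l ≤ 2 →
      tv ⁅vv y v 1, vv y v 0⁆ ⁅vv y v 2, vv y v 0⁆ k = tv ⁅vv y v 1, vv y v 0⁆ ⁅vv y v 2, vv y v 0⁆ l →
        k = l := by
    intro k l hk hl h
    interval_cases k <;> interval_cases l <;> first
      | rfl
      | exact absurd h.symm hb
      | exact absurd h.symm hb'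
      | exact absurd h hb
      | exact absurd h hb'
      | exact absurd h hbb'
      | exact absurd h.symm hbb'
  have hdst : ∀ i j : Fin 5, dst (τ i).val (τ j).val = dst i.val j.val := by
    intro i j
    apply htvinj _ _ (dst_le _ _) (dst_le _ _)
    rw [← D.table _ _ (τ i).2 (τ j).2, ← D.table _ _ i.2 j.2]
    have h1 := cl.comm_congr_left (w := x * vv y v j.val * x⁻¹) (hP _) (hxP _ (hP _)) (hτ i)
    have h2 := cl.comm_congr_right (u := vv y v (τ i).val) (hP _) (hP _) (hτ j)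
    rw [← h2, ← h1, ← conj_comm]
    exact hxR _ (cl.comm_mem (hP _) (hP _))
  have hconj : ∀ {w' w : G}, w'⁻¹ * w ∈ R → (x * w' * x⁻¹)⁻¹ * (x * w * x⁻¹) ∈ R := by
    intro w' w h
    have e : (x * w' * x⁻¹)⁻¹ * (x * w * x⁻¹) = x * (w'⁻¹ * w) * x⁻¹ := by group
    rw [e, hxR _ h]
    exact h
  have htrans : ∀ {u w z : G}, u⁻¹ * w ∈ R → w⁻¹ * z ∈ R → u⁻¹ * z ∈ R := by
    intro u w z h1 h2
    have := R.mul_mem h1 h2
    simpa [mul_assoc] using this
  have hτ3 : ∀ i, τ (τ (τ i)) = i := by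
    intro i
    have h2 := htrans (hτ (τ i)) (hconj (hτ i))
    have h3 := htrans (hτ (τ (τ i))) (hconj h2)
    have hp : x * x * x ∈ P := hx3
    have h4 : (vv y v i.val)⁻¹ * (x * (x * (x * vv y v i.val * x⁻¹) * x⁻¹) * x⁻¹) ∈ R := by
      have e2 : (vv y v i.val)⁻¹ * (x * (x * (x * vv y v i.val * x⁻¹) * x⁻¹) * x⁻¹)
          = (⁅(vv y v i.val)⁻¹, (x * x * x)⁆) := by
        simp only [commutatorElement_def]; group
      rw [e2]
      exact cl.comm_mem (P.inv_mem (hP i.val)) hp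
    have h6 : (vv y v (τ (τ (τ i))).val)⁻¹ * vv y v i.val ∈ R := by
      have h7 := R.mul_mem h3 (R.inv_mem h4)
      have e : (vv y v (τ (τ (τ i))).val)⁻¹ * (x * (x * (x * vv y v i.val * x⁻¹) * x⁻¹) * x⁻¹) *
          ((vv y v i.val)⁻¹ * (x * (x * (x * vv y v i.val * x⁻¹) * x⁻¹) * x⁻¹))⁻¹
          = (vv y v (τ (τ (τ i))).val)⁻¹ * vv y v i.val := by group
      rwa [e] at h7
    have h8 := cl.comm_congr_left (w := vv y v (τ (τ (τ i))).val) (hP _) (hP _) h6
    rw [commutatorElement_self, D.table _ _ i.2 (τ (τ (τ i))).2] at h8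
    have h9 : dst i.val (τ (τ (τ i))).val = 0 :=
      htvinj _ _ (dst_le _ _) (by norm_num) h8
    exact (dst_eq_zero _ _ h9).symm
  have hid := pent_decide τ hτ3 hdst
  have hle : P ≤ fixS x cl hxP := by
    refine D.gen_le ?_ ?_
    · intro r hr
      refine ⟨cl.le hr, ?_⟩
      rw [hxR r hr]
      simp [R.one_mem]
    · intro i hi
      refine ⟨hP i, ?_⟩
      have h1 := hτ ⟨i, hi⟩
      rw [hid ⟨i, hi⟩] at h1
      exact h1
  obtain ⟨u, hu, hu'⟩ := hxnon
  exact hu' (hle hu).2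

end Cfsg.Agent.Lib.SecA5Rank
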