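import Mathlib
import Cfsg.Agent.Lib.SecA5Mod

/-!
# The case where the fixed-point-free element acts without fixed points on the squares.
-/

set_option autoImplicit false
set_option linter.unusedSectionVars false

open scoped commutatorElement

namespace Cfsg.Agent.Lib.SecA5Two

open Cfsg.Agent.Lib.SecA5Base Cfsg.Agent.Lib.SectRank Cfsg.Agent.Lib.SecA5Mod

variable {G : Type*} [Group G] [Finite G]

theorem caseII {P R : Subgroup G} [hPn : P.Normal] [hRn : R.Normal] {y c₁ c₂ : G}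
    (cl : Cl2 P R) (V : YAct P R y) (hR16 : Nat.card R = 16)
    (hfpfR : ∀ r ∈ R, y * r * y⁻¹ = r → r = 1)
    (hc1 : c₁ * c₁ ∈ P) (hc2 : c₂ * c₂ ∈ P) (hcy : y⁻¹ * (c₁ * c₂) ∈ P)
    (hB : SqBound 4 G) : False := by
  -- Part 1: the action on R
  have hact : ∀ c, c * c ∈ P → ∀ r ∈ R, c * (c * r * c⁻¹) * c⁻¹ = r := by
    intro c hc r hr
    have h1 := cl.cen r hr _ hc
    calc c * (c * r * c⁻¹) * c⁻¹ = (c * c) * r * (c * c)⁻¹ := by group
      _ = r * (c * c) * (c * c)⁻¹ := by rw [← h1]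
      _ = r := by group
  have htt : ∀ r ∈ R, y * r * y⁻¹ = c₁ * (c₂ * r * c₂⁻¹) * c₁⁻¹ := by
    intro r hr
    have h1 := cl.cen r hr _ hcy
    set p := y⁻¹ * (c₁ * c₂) with hp
    have e : c₁ * c₂ = y * p := by rw [hp]; group
    calc y * r * y⁻¹ = y * (p * r * p⁻¹) * y⁻¹ := by rw [← h1]; group
      _ = (y * p) * r * (y * p)⁻¹ := by group
      _ = (c₁ * c₂) * r * (c₁ * c₂)⁻¹ := by rw [e]
      _ = _ := by group
  have heR : ∀ r ∈ R, r * r = 1 := fun r hr => cl.self_mul hr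
  obtain ⟨hR0, -⟩ := module_four_sub (A := R) (s₁ := c₁) (s₂ := c₂) (t := y) heR hR16
    (fun a ha => hRn.conj_mem a ha _) (fun a ha => hRn.conj_mem a ha _) V.yR
    (hact c₁ hc1) (hact c₂ hc2) htt hfpfR
  -- Part 2: the action on V = P/R
  let π := QuotientGroup.mk' R
  have hπ : ∀ x, π x = 1 ↔ x ∈ R := fun x => QuotientGroup.eq_one_iff x
  let A₂ : Subgroup (G ⧸ R) := P.map π
  have hA₂ : Nat.card A₂ = 16 := by
    have h6 := Subgroup.relIndex_ker (K := P) π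
    rw [QuotientGroup.ker_mk'] at h6
    have h7 := card_eq_relIndex_mul V.le
    rw [V.hcard] at h7
    have hpos : 0 < Nat.card R := Nat.card_pos
    have : R.relIndex P = 16 := (Nat.eq_of_mul_eq_mul_right hpos h7).symm
    show Nat.card (P.map π) = 16
    rw [← h6, this]
  have hmemA : ∀ a ∈ A₂, ∃ u ∈ P, π u = a := fun a ha => ha
  have hcomm : ∀ a ∈ A₂, ∀ b ∈ A₂, a * b = b * a := by
    intro a ha b hb
    obtain ⟨u, hu, rfl⟩ := hmemA a ha
    obtain ⟨v, hv, rfl⟩ := hmemA b hb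
    have h1 := cl.comm_mem hu hv
    rw [← map_mul, ← map_mul]
    have h2 : π (⁅u, v⁆) = 1 := (hπ _).2 h1
    have e : u * v = ⁅u, v⁆ * (v * u) := by simp only [commutatorElement_def]; group
    rw [e, map_mul, h2, one_mul]
  have heA : ∀ a ∈ A₂, a * a = 1 := by
    intro a ha
    obtain ⟨u, hu, rfl⟩ := hmemA a ha
    rw [← map_mul, hπ, ← pow_two]
    exact cl.sq u hu
  have hnA : ∀ (s : G ⧸ R), ∀ a ∈ A₂, s * a * s⁻¹ ∈ A₂ := by
    intro s a ha
    obtain ⟨u, hu, rfl⟩ := hmemA a ha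
    obtain ⟨g, rfl⟩ := QuotientGroup.mk'_surjective R s
    refine ⟨g * u * g⁻¹, hPn.conj_mem u hu g, ?_⟩
    show π (g * u * g⁻¹) = π g * π u * (π g)⁻¹
    simp
  have hactA : ∀ c, c * c ∈ P → ∀ a ∈ A₂, π c * (π c * a * (π c)⁻¹) * (π c)⁻¹ = a := by
    intro c hc a ha
    have h1 : π c * π c ∈ A₂ := ⟨c * c, hc, map_mul π c c⟩
    have h2 := hcomm _ h1 a ha
    calc π c * (π c * a * (π c)⁻¹) * (π c)⁻¹ = (π c * π c) * a * (π c * π c)⁻¹ := by group
      _ = a * (π c * π c) * (π c * π c)⁻¹ := by rw [h2]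
      _ = a := by group
  have httA : ∀ a ∈ A₂, π y * a * (π y)⁻¹ = π c₁ * (π c₂ * a * (π c₂)⁻¹) * (π c₁)⁻¹ := by
    intro a ha
    set p := y⁻¹ * (c₁ * c₂) with hp
    have e : c₁ * c₂ = y * p := by rw [hp]; group
    have e' : π c₁ * π c₂ = π y * π p := by rw [← map_mul, ← map_mul, e]
    have hpA : π p ∈ A₂ := ⟨p, hcy, rfl⟩
    have h1 := hcomm _ hpA a ha
    calc π y * a * (π y)⁻¹ = π y * (π p * a * (π p)⁻¹) * (π y)⁻¹ := by rw [h1]; group
      _ = (π y * π p) * a * (π y * π p)⁻¹ := by group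
      _ = (π c₁ * π c₂) * a * (π c₁ * π c₂)⁻¹ := by rw [e']
      _ = _ := by group
  have hfpfA : ∀ a ∈ A₂, π y * a * (π y)⁻¹ = a → a = 1 := by
    intro a ha hfix
    obtain ⟨u, hu, rfl⟩ := hmemA a ha
    rw [hπ]
    apply V.fpf u hu
    rw [← hπ, map_mul, map_inv, map_mul, map_mul, map_inv, hfix]
    simp
  obtain ⟨hA0, hA1⟩ := module_four_sub (A := A₂) (s₁ := π c₁) (s₂ := π c₂) (t := π y) heA hA₂
    (hnA _) (hnA _) (hnA _) (hactA c₁ hc1) (hactA c₂ hc2) httA hfpfA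
  let C := π c₁
  let Fix : Subgroup (G ⧸ R) := A₂ ⊓ Subgroup.centralizer {C}
  have hmemFix : ∀ a, a ∈ Fix ↔ a ∈ A₂ ∧ C * a * C⁻¹ = a := by
    intro a
    constructor
    · rintro ⟨h1, h2⟩
      refine ⟨h1, ?_⟩
      have h3 : a ∈ Subgroup.centralizer {C} := h2
      rw [Subgroup.mem_centralizer_singleton_iff] at h3
      rw [← h3]; group
    · rintro ⟨h1, h2⟩
      refine ⟨h1, ?_⟩
      show a ∈ Subgroup.centralizer {C}
      rw [Subgroup.mem_centralizer_singleton_iff]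
      rw [mul_inv_eq_iff_eq_mul] at h2
      exact h2.symm
  have hFix : Nat.card Fix = 4 := by
    rw [← hA0]
    refine Nat.card_congr ⟨fun a => ⟨⟨a.1, a.2.1⟩, ((hmemFix _).1 a.2).2⟩,
      fun a => ⟨a.1.1, (hmemFix _).2 ⟨a.1.2, a.2⟩⟩, ?_, ?_⟩
    · intro a; rfl
    · intro a; rfl
  let U : Subgroup G := Fix.comap π
  have hUmem : ∀ u, u ∈ U ↔ π u ∈ Fix := fun u => Iff.rfl
  have hRU : R ≤ U := by
    intro r hr
    rw [hUmem, (hπ r).2 hr]
    exact Fix.one_mem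
  have hUcard : Nat.card U = 64 := by
    have h1 := card_eq_relIndex_mul hRU
    have h6 := Subgroup.relIndex_ker (K := U) π
    rw [QuotientGroup.ker_mk'] at h6
    have h7 : U.map π = Fix := Subgroup.map_comap_eq_self_of_surjective
      (QuotientGroup.mk'_surjective R) Fix
    rw [h7, hFix] at h6
    rw [h1, h6, hR16]
  have hUP : U ≤ P := by
    intro u hu
    have h1 : π u ∈ A₂ := ((hmemFix _).1 ((hUmem u).1 hu)).1
    obtain ⟨p, hp, hpu⟩ := hmemA _ h1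
    have h2 : p⁻¹ * u ∈ R := by
      rw [← hπ, map_mul, map_inv, hpu, inv_mul_cancel]
    have := P.mul_mem hp (V.le h2)
    simpa using this
  -- Part 3: correcting c₁
  have hcc : π (c₁ * c₁) ∈ A₂ := ⟨c₁ * c₁, hc1, rfl⟩
  have hccfix : C * π (c₁ * c₁) * C⁻¹ = π (c₁ * c₁) := by
    show π c₁ * π (c₁ * c₁) * (π c₁)⁻¹ = π (c₁ * c₁)
    rw [map_mul]; group
  obtain ⟨Bb, hBb, hBbeq⟩ := hA1 _ hcc hccfix
  obtain ⟨b, hbP, hbB⟩ := hmemA _ hBb
  subst hbB
  let d : G := c₁ * b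
  have hdd : d * d ∈ R := by
    rw [← hπ]
    have hD : π c₁ * π b * (π c₁)⁻¹ ∈ A₂ := hnA _ _ hBb
    have hsq := heA _ hD
    have e1 : π c₁ * π c₁ = (π c₁ * π b * (π c₁)⁻¹) * (π b)⁻¹ := by
      rw [← map_mul]; exact hBbeq
    calc π (d * d) = (π c₁ * π b * (π c₁)⁻¹) * (π c₁ * π c₁) * π b := by
          show π (c₁ * b * (c₁ * b)) = _
          simp only [map_mul]; group
      _ = (π c₁ * π b * (π c₁)⁻¹) * ((π c₁ * π b * (π c₁)⁻¹) * (π b)⁻¹) * π b := by rw [e1]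
      _ = (π c₁ * π b * (π c₁)⁻¹) * (π c₁ * π b * (π c₁)⁻¹) := by group
      _ = 1 := hsq
  -- Part 4: properties of d
  have hd1 : ∀ r ∈ R, d * r * d⁻¹ = c₁ * r * c₁⁻¹ := by
    intro r hr
    have h1 := cl.cen r hr b hbP
    calc d * r * d⁻¹ = c₁ * (b * r) * b⁻¹ * c₁⁻¹ := by simp only [d]; group
      _ = c₁ * (r * b) * b⁻¹ * c₁⁻¹ := by rw [h1]
      _ = c₁ * r * c₁⁻¹ := by group
  have hdπ : ∀ u ∈ P, π (d * u * d⁻¹) = C * π u * C⁻¹ := by
    intro u hu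
    have h1 := hcomm _ hBb (π u) ⟨u, hu, rfl⟩
    calc π (d * u * d⁻¹) = π c₁ * (π b * π u) * (π b)⁻¹ * (π c₁)⁻¹ := by
          simp only [d, map_mul, map_inv]; group
      _ = π c₁ * (π u * π b) * (π b)⁻¹ * (π c₁)⁻¹ := by rw [h1]
      _ = C * π u * C⁻¹ := by simp only [C]; group
  have hd2 : ∀ u ∈ U, u⁻¹ * (d * u * d⁻¹) ∈ R := by
    intro u hu
    rw [← hπ, map_mul, map_inv, hdπ u (hUP hu), ((hmemFix _).1 ((hUmem u).1 hu)).2, inv_mul_cancel]
  have hc2' : ∀ u ∈ U, u⁻¹ * (c₁ * u * c₁⁻¹) ∈ R := by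
    intro u hu
    have h1 := ((hmemFix _).1 ((hUmem u).1 hu)).2
    rw [← hπ, map_mul, map_inv, map_mul, map_mul, map_inv]
    show (π u)⁻¹ * (C * π u * C⁻¹) = 1
    rw [h1, inv_mul_cancel]
  have hd3 : ∀ u ∈ P, (d * d) * u = u * (d * d) := fun u hu => cl.cen _ hdd u hu
  have hd4 : ∀ u ∈ U, d * u * d⁻¹ ∈ U := by
    intro u hu
    have := U.mul_mem hu (hRU (hd2 u hu))
    simpa using this
  have hd5 : ∀ u ∈ U, d⁻¹ * u * d = d * u * d⁻¹ := by
    intro u hu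
    have hdP : d * u * d⁻¹ ∈ P := hPn.conj_mem u (hUP hu) d
    have h1 := hd3 _ hdP
    calc d⁻¹ * u * d = (d * d)⁻¹ * ((d * u * d⁻¹) * (d * d)) := by group
      _ = (d * d)⁻¹ * ((d * d) * (d * u * d⁻¹)) := by rw [h1]
      _ = d * u * d⁻¹ := by group
  let R₀ : Subgroup G := R ⊓ Subgroup.centralizer {c₁}
  have hmemR₀ : ∀ r, r ∈ R₀ ↔ r ∈ R ∧ c₁ * r * c₁⁻¹ = r := by
    intro a
    constructor
    · rintro ⟨h1, h2⟩
      refine ⟨h1, ?_⟩
      have h3 : a ∈ Subgroup.centralizer {c₁} := h2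
      rw [Subgroup.mem_centralizer_singleton_iff] at h3
      rw [← h3]; group
    · rintro ⟨h1, h2⟩
      refine ⟨h1, ?_⟩
      show a ∈ Subgroup.centralizer {c₁}
      rw [Subgroup.mem_centralizer_singleton_iff]
      rw [mul_inv_eq_iff_eq_mul] at h2
      exact h2.symm
  have hR₀ : Nat.card R₀ = 4 := by
    rw [← hR0]
    refine Nat.card_congr ⟨fun a => ⟨⟨a.1, a.2.1⟩, ((hmemR₀ _).1 a.2).2⟩,
      fun a => ⟨a.1.1, (hmemR₀ _).2 ⟨a.1.2, a.2⟩⟩, ?_, ?_⟩
    · intro a; rfl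
    · intro a; rfl
  have hmemR₀' : ∀ r, r ∈ R₀ ↔ r ∈ R ∧ d * r * d⁻¹ = r := by
    intro r
    rw [hmemR₀]
    constructor
    · rintro ⟨h1, h2⟩; exact ⟨h1, by rw [hd1 r h1, h2]⟩
    · rintro ⟨h1, h2⟩; exact ⟨h1, by rw [← hd1 r h1, h2]⟩
  -- the subgroup H
  let H : Subgroup G :=
    { carrier := {h | h ∈ U ∨ h * d⁻¹ ∈ U}
      one_mem' := Or.inl U.one_mem
      mul_mem' := by
        rintro x y (hx | hx) (hy | hy)
        · exact Or.inl (U.mul_mem hx hy)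
        · right
          have := U.mul_mem hx hy
          rwa [← mul_assoc] at this
        · right
          have h1 := U.mul_mem hx (hd4 y hy)
          have e : x * d⁻¹ * (d * y * d⁻¹) = x * y * d⁻¹ := by group
          rwa [e] at h1
        · left
          have h1 := U.mul_mem (U.mul_mem hx (hd4 _ hy)) (hRU hdd)
          have e : x * d⁻¹ * (d * (y * d⁻¹) * d⁻¹) * (d * d) = x * y := by group
          rwa [e] at h1
      inv_mem' := by
        rintro x (hx | hx)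
        · exact Or.inl (U.inv_mem hx)
        · right
          have h1 : d⁻¹ * (x * d⁻¹)⁻¹ * d = d * (x * d⁻¹)⁻¹ * d⁻¹ := hd5 _ (U.inv_mem hx)
          have h2 := U.mul_mem (hd4 _ (U.inv_mem hx)) (U.inv_mem (hRU hdd))
          rw [← h1] at h2
          have e : d⁻¹ * (x * d⁻¹)⁻¹ * d * (d * d)⁻¹ = x⁻¹ * d⁻¹ := by group
          rwa [e] at h2 }
  have hHmem : ∀ h, h ∈ H ↔ h ∈ U ∨ h * d⁻¹ ∈ U := fun h => Iff.rfl
  have hsqU : ∀ u ∈ U, u ^ 2 ∈ R₀ := by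
    intro u hu
    rw [hmemR₀]
    refine ⟨cl.sq u (hUP hu), ?_⟩
    rw [← conj_pow]
    exact cl.sq_congr' (hUP hu) (hc2' u hu)
  have hsqH : ∀ h ∈ H, h ^ 2 ∈ R₀ := by
    rintro h (hh | hh)
    · exact hsqU h hh
    · set v := h * d⁻¹ with hv
      have hvP := hUP hh
      set r := v⁻¹ * (d * v * d⁻¹) with hr
      have hrR : r ∈ R := hd2 v hh
      have e1 : d * v * d⁻¹ = v * r := by rw [hr]; group
      have hhv : h = v * d := by rw [hv]; group
      have e2 : h ^ 2 = v ^ 2 * r * (d * d) := by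
        rw [hhv, pow_two, pow_two]
        calc v * d * (v * d) = v * (d * v * d⁻¹) * (d * d) := by group
          _ = v * (v * r) * (d * d) := by rw [e1]
          _ = _ := by group
      have hrd : d * r * d⁻¹ = r := by
        have h1 := hd3 v hvP
        have h3 : (d * v * d⁻¹)⁻¹ * v = r⁻¹ := by rw [hr]; group
        calc d * r * d⁻¹ = (d * v * d⁻¹)⁻¹ * ((d * d) * v * (d * d)⁻¹) := by rw [hr]; group
          _ = (d * v * d⁻¹)⁻¹ * v := by rw [h1]; group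
          _ = r⁻¹ := h3
          _ = r := cl.inv_eq hrR
      have hddR₀ : d * d ∈ R₀ := (hmemR₀' _).2 ⟨hdd, by group⟩
      have hrR₀ : r ∈ R₀ := (hmemR₀' _).2 ⟨hrR, hrd⟩
      rw [e2]
      exact R₀.mul_mem (R₀.mul_mem (hsqU v hh) hrR₀) hddR₀
  have hR₀H : R₀ ≤ H := fun r hr => Or.inl (hRU hr.1)
  have hbd := hB H R₀ hR₀H hsqH
  have hHcard : Nat.card H ≤ 64 := by
    have h1 := card_eq_relIndex_mul hR₀H
    rw [h1, hR₀]
    have : R₀.relIndex H ≤ 16 := by simpa using hbd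
    omega
  have hUH : U ≤ H := fun u hu => Or.inl hu
  have hdH : d ∈ H := Or.inr (by simp [U.one_mem])
  have hdU : d ∉ U := by
    intro hdU
    have hdP := hUP hdU
    have hc₁P : c₁ ∈ P := by
      have := P.mul_mem hdP (P.inv_mem hbP)
      simpa [d] using this
    have hCA : C ∈ A₂ := ⟨c₁, hc₁P, rfl⟩
    have : Nat.card {a : A₂ // C * a.1 * C⁻¹ = a.1} = 16 := by
      rw [← hA₂]
      refine Nat.card_congr (Equiv.subtypeUnivEquiv fun a => ?_)
      rw [hcomm _ hCA _ a.2]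
      group
    have h4 : Nat.card {a : A₂ // C * a.1 * C⁻¹ = a.1} = 4 := hA0
    omega
  have hdvd : Nat.card U ∣ Nat.card H := Subgroup.card_dvd_of_le hUH
  have hne : Nat.card U ≠ Nat.card H := by
    intro he
    have := Subgroup.eq_of_le_of_card_ge hUH (le_of_eq he.symm)
    rw [← this] at hdH
    exact hdU hdH
  rw [hUcard] at hdvd hne
  have hHpos : 0 < Nat.card H := Nat.card_pos
  obtain ⟨k, hk⟩ := hdvd
  have : k = 0 ∨ k = 1 ∨ 2 ≤ k := by omega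
  rcases this with rfl | rfl | h2
  · omega
  · omega
  · nlinarith

end Cfsg.Agent.Lib.SecA5Two
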