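import Mathlib
import Cfsg.Agent.Lib.SecA5Rank
import Cfsg.Agent.Lib.SecA5Two

/-!
# The two descent levels used for S3106.
-/

set_option autoImplicit false
set_option linter.unusedSectionVars false

open scoped commutatorElement

namespace Cfsg.Agent.Lib.SecA5Level

open Cfsg.Agent.Lib.SecA5Base Cfsg.Agent.Lib.SectRank Cfsg.Agent.Lib.SecA5Mod
  Cfsg.Agent.Lib.SecA5One Cfsg.Agent.Lib.SecA5Rank Cfsg.Agent.Lib.SecA5Two

variable {G : Type*} [Group G] [Finite G]

/-- Two elements outside an index two subgroup lie in the same coset. -/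
theorem coset_two {W R : Subgroup G} (h2 : W.relIndex R = 2) {a b : G} (ha : a ∈ R) (hb : b ∈ R)
    (ha' : a ∉ W) (hb' : b ∉ W) : a⁻¹ * b ∈ W := by
  have h3 : (W.subgroupOf R).index = 2 := h2
  have h4 := Subgroup.mul_mem_iff_of_index_two h3 (a := (⟨a, ha⟩ : R)⁻¹) (b := ⟨b, hb⟩)
  have h5 : ((⟨a, ha⟩ : R)⁻¹ * ⟨b, hb⟩) ∈ W.subgroupOf R := by
    rw [h4, Subgroup.inv_mem_iff]
    simp only [Subgroup.mem_subgroupOf]
    exact iff_of_false ha' hb'
  simpa [Subgroup.mem_subgroupOf] using h5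

/-- The first level. -/
theorem level_one {P R : Subgroup G} [hPn : P.Normal] [hRn : R.Normal] {y c₁ c₂ g : G}
    (cl : Cl2 P R) (V : YAct P R y) (hRs : R ≤ sqS P) (hB : SqBound 4 G)
    (hc1 : c₁ * c₁ ∈ P) (hc2 : c₂ * c₂ ∈ P) (hcy : y⁻¹ * (c₁ * c₂) ∈ P)
    (hx3 : (y * (g * y * g⁻¹)) * (y * (g * y * g⁻¹)) * (y * (g * y * g⁻¹)) ∈ P)
    (hxnon : ∃ u ∈ P, u⁻¹ * ((y * (g * y * g⁻¹)) * u * (y * (g * y * g⁻¹))⁻¹) ∉ R) :
    Nat.card R ≤ 2 ∧ (Nat.card R = 2 → ∃ u ∈ P, ∃ w ∈ P, ⁅u, w⁆ ≠ 1) := by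
  have hRp : IsPGroup 2 R := V.hP.to_le V.le
  have hR16 : Nat.card R ≤ 16 := by
    have h1 := hB R ⊥ bot_le (fun h hh => by rw [cl.el h hh]; exact Subgroup.one_mem _)
    rw [Subgroup.relIndex_bot_left] at h1
    simpa using h1
  -- the centralizer of `y` in `R`
  let C : Subgroup G :=
    { carrier := {r | r ∈ R ∧ y * r * y⁻¹ = r}
      one_mem' := ⟨R.one_mem, by group⟩
      mul_mem' := by
        rintro a b ⟨ha, ha'⟩ ⟨hb, hb'⟩
        refine ⟨R.mul_mem ha hb, ?_⟩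
        calc y * (a * b) * y⁻¹ = (y * a * y⁻¹) * (y * b * y⁻¹) := by group
          _ = a * b := by rw [ha', hb']
      inv_mem' := by
        rintro a ⟨ha, ha'⟩
        refine ⟨R.inv_mem ha, ?_⟩
        calc y * a⁻¹ * y⁻¹ = (y * a * y⁻¹)⁻¹ := by group
          _ = a⁻¹ := by rw [ha'] }
  have hCR : C ≤ R := fun r hr => hr.1
  have hcardC : Nat.card {t : R // y * t.1 * y⁻¹ = t.1} = Nat.card C :=
    Nat.card_congr ⟨fun t => ⟨t.1.1, t.1.2, t.2⟩, fun t => ⟨⟨t.1, t.2.1⟩, t.2.2⟩,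
      fun _ => rfl, fun _ => rfl⟩
  have hmod := card_modEq_centralizer 5 V.y5 V.yR
  rw [hcardC] at hmod
  have hdvd : Nat.card C ∣ Nat.card R := Subgroup.card_dvd_of_le hCR
  have hcases : C = R ∨ (Nat.card R = 16 ∧ Nat.card C = 1) := by
    obtain ⟨k, hk⟩ := IsPGroup.iff_card.1 hRp
    obtain ⟨j, hj⟩ := IsPGroup.iff_card.1 (hRp.to_le hCR)
    rw [hk] at hR16
    have hk4 : k ≤ 4 := by
      by_contra hlt
      push Not at hlt
      have : 2 ^ 5 ≤ 2 ^ k := Nat.pow_le_pow_right (by norm_num) hlt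
      omega
    rw [hk, hj] at hdvd
    have hjk : j ≤ k := (Nat.pow_dvd_pow_iff_le_right (by norm_num)).1 hdvd
    rw [hk, hj] at hmod
    by_cases hjeq : j = k
    · left
      apply Subgroup.eq_of_le_of_card_ge hCR
      rw [hk, hj, hjeq]
    · right
      have hmod' : 2 ^ k % 5 = 2 ^ j % 5 := hmod
      interval_cases k <;> interval_cases j <;> simp_all <;> omega
  rcases hcases with hC | ⟨h16, hC1⟩
  · have htriv : ∀ r ∈ R, y * r * y⁻¹ = r := by
      intro r hr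
      rw [← hC] at hr
      exact hr.2
    -- pick `v`
    have hne : ∃ v ∈ P, v ∉ R := by
      by_contra hno
      push Not at hno
      have h1 : P = R := le_antisymm hno V.le
      have h2 := V.hcard
      rw [h1] at h2
      have h3 : 0 < Nat.card R := Nat.card_pos
      omega
    obtain ⟨v, hv, hvR⟩ := hne
    have D : CaseI P R y v := ⟨cl, V, htriv, hv, hvR⟩
    by_cases h : v ^ 2 = 1 ∨ ⁅vv y v 1, vv y v 0⁆ = 1 ∨ ⁅vv y v 2, vv y v 0⁆ = 1
    · obtain ⟨h1, h2⟩ := D.card_le_two hRs h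
      refine ⟨h1, fun h3 => ?_⟩
      rcases h2 h3 with h4 | h4
      · exact ⟨_, D.vv_mem 1, _, D.vv_mem 0, h4⟩
      · exact ⟨_, D.vv_mem 2, _, D.vv_mem 0, h4⟩
    · exfalso
      push Not at h
      refine rank_two_false D h.1 h.2.1 h.2.2 (x := y * (g * y * g⁻¹)) ?_ hx3 hxnon
      intro r hr
      have h1 : g * y * g⁻¹ * r * (g * y * g⁻¹)⁻¹ = r := by
        have h2 := htriv _ (hRn.conj_mem r hr g⁻¹)
        calc g * y * g⁻¹ * r * (g * y * g⁻¹)⁻¹
            = g * (y * (g⁻¹ * r * g⁻¹⁻¹) * y⁻¹) * g⁻¹ := by group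
          _ = g * (g⁻¹ * r * g⁻¹⁻¹) * g⁻¹ := by rw [h2]
          _ = r := by group
      calc y * (g * y * g⁻¹) * r * (y * (g * y * g⁻¹))⁻¹
          = y * (g * y * g⁻¹ * r * (g * y * g⁻¹)⁻¹) * y⁻¹ := by group
        _ = y * r * y⁻¹ := by rw [h1]
        _ = r := htriv r hr
  · exfalso
    refine caseII cl V h16 ?_ hc1 hc2 hcy hB
    intro r hr hfix
    have hrC : r ∈ C := ⟨hr, hfix⟩
    have h2 : C = ⊥ := (Subgroup.eq_bot_iff_card C).2 hC1
    rw [h2] at hrC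
    simpa using hrC

/-- The second level: such a configuration does not exist. -/
theorem level_two {P R W : Subgroup G} [hPn : P.Normal] [hRn : R.Normal] [hWn : W.Normal] {y : G}
    (V : YAct P R y) (hWR : W ≤ R) (h2 : W.relIndex R = 2) (hW0 : W ≠ ⊥)
    (hsqP : ∀ u ∈ P, u ^ 2 ∈ R) (hcR : ∀ r ∈ R, ∀ g ∈ P, ⁅r, g⁆ ∈ W) (hsqR : ∀ r ∈ R, r ^ 2 ∈ W)
    (hcW : ∀ w ∈ W, ∀ u ∈ P, w * u = u * w) (heW : ∀ w ∈ W, w ^ 2 = 1)
    (hWgen : ∀ W₀ : Subgroup G, (∀ r ∈ R, ∀ g ∈ P, ⁅r, g⁆ ∈ W₀) → (∀ r ∈ R, r ^ 2 ∈ W₀) → W ≤ W₀)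
    (hnon : ∃ g ∈ P, ∃ h ∈ P, ⁅g, h⁆ ∉ W) (hB : SqBound 4 G) : False := by
  have hRP := V.le
  have hWP : W ≤ P := hWR.trans hRP
  have hWp : IsPGroup 2 W := V.hP.to_le hWP
  have h5 : ¬ 5 ∣ Nat.card W := not_five_dvd hWp
  -- an element outside `W`
  have hex : ∃ z ∈ R, z ∉ W := by
    by_contra hno
    push Not at hno
    have : W.relIndex R = 1 := Subgroup.relIndex_eq_one.2 hno
    omega
  obtain ⟨z, hzR, hzW⟩ := hex
  have hyz : y * z * y⁻¹ ∉ W := by
    intro hm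
    have := hWn.conj_mem _ hm y⁻¹
    have e : y⁻¹ * (y * z * y⁻¹) * y⁻¹⁻¹ = z := by group
    rw [e] at this
    exact hzW this
  have hfixz := exists_fix_coset 5 V.y5 (T := W) (fun t ht => hWn.conj_mem t ht y)
    (coset_two h2 hzR (V.yR z hzR) hzW hyz) h5
  obtain ⟨t, ht, hfix⟩ := hfixz
  set z₀ := z * t with hz₀
  have hz₀R : z₀ ∈ R := R.mul_mem hzR (hWR ht)
  have hz₀W : z₀ ∉ W := fun hm => hzW (by
    have := W.mul_mem hm (W.inv_mem ht)
    simpa [hz₀] using this)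
  have hz₀P : z₀ ∈ P := hRP hz₀R
  have hdec : ∀ r ∈ R, r ∈ W ∨ ∃ w ∈ W, r = z₀ * w := by
    intro r hr
    by_cases hrW : r ∈ W
    · exact Or.inl hrW
    · right
      refine ⟨_, coset_two h2 hz₀R hr hz₀W hrW, by group⟩
  have hcomm_add : ∀ g ∈ P, ∀ h ∈ P, ⁅z₀, g * h⁆ = ⁅z₀, g⁆ * ⁅z₀, h⁆ := by
    intro g hg h hh
    have h1 : ⁅z₀, h⁆ ∈ W := hcR _ hz₀R _ hh
    have h3 := hcW _ h1 _ hg
    calc ⁅z₀, g * h⁆ = ⁅z₀, g⁆ * (g * ⁅z₀, h⁆) * g⁻¹ := by
          simp only [commutatorElement_def]; group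
      _ = ⁅z₀, g⁆ * (⁅z₀, h⁆ * g) * g⁻¹ := by rw [h3]
      _ = ⁅z₀, g⁆ * ⁅z₀, h⁆ := by group
  have hWz : ∀ w ∈ W, ⁅z₀, w⁆ = 1 := by
    intro w hw
    rw [commutatorElement_eq_one_iff_mul_comm]
    exact (hcW w hw z₀ hz₀P).symm
  have hRcomm : ∀ r ∈ R, ∀ s ∈ R, r * s = s * r := by
    intro r hr s hs
    rcases hdec r hr with h3 | ⟨w, hw, rfl⟩
    · exact hcW r h3 s (hRP hs)
    · rcases hdec s hs with h4 | ⟨w', hw', rfl⟩
      · exact ((hcW s h4 _ (P.mul_mem hz₀P (hWP hw)))).symm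
      · have e1 := hcW w hw _ hz₀P
        have e2 := hcW w hw _ (hWP hw')
        calc z₀ * w * (z₀ * w') = z₀ * (w * z₀) * w' := by group
          _ = z₀ * (z₀ * w) * w' := by rw [e1]
          _ = z₀ * z₀ * (w * w') := by group
          _ = z₀ * z₀ * (w' * w) := by rw [e2]
          _ = z₀ * (z₀ * w') * w := by group
          _ = z₀ * (w' * z₀) * w := by rw [hcW w' hw' _ hz₀P]
          _ = z₀ * w' * (z₀ * w) := by group
  by_cases hφ : ∀ g ∈ P, ⁅z₀, g⁆ = 1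
  · -- `z₀` is central: a short calculation
    have hz₀c : ∀ g ∈ P, z₀ * g = g * z₀ := fun g hg =>
      commutatorElement_eq_one_iff_mul_comm.1 (hφ g hg)
    have hcen : ∀ r ∈ R, ∀ g ∈ P, r * g = g * r := by
      intro r hr g hg
      rcases hdec r hr with h3 | ⟨w, hw, rfl⟩
      · exact hcW r h3 g hg
      · rw [mul_assoc, hcW w hw g hg, ← mul_assoc, hz₀c g hg, mul_assoc]
    have hsq_z : ∀ w ∈ W, (z₀ * w) ^ 2 = z₀ ^ 2 := by
      intro w hw
      have e1 := hcW w hw _ hz₀P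
      have e2 := heW w hw
      rw [pow_two] at e2
      rw [pow_two, pow_two]
      calc z₀ * w * (z₀ * w) = z₀ * (w * z₀) * w := by group
        _ = z₀ * (z₀ * w) * w := by rw [e1]
        _ = z₀ * z₀ * (w * w) := by group
        _ = z₀ * z₀ := by rw [e2, mul_one]
    have hW₀ : W ≤ Subgroup.closure {z₀ ^ 2} := by
      apply hWgen
      · intro r hr g hg
        have : ⁅r, g⁆ = 1 := commutatorElement_eq_one_iff_mul_comm.2 (hcen r hr g hg)
        rw [this]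
        exact Subgroup.one_mem _
      · intro r hr
        rcases hdec r hr with h3 | ⟨w, hw, rfl⟩
        · rw [heW r h3]
          exact Subgroup.one_mem _
        · rw [hsq_z w hw]
          exact Subgroup.subset_closure rfl
    have hz2 : z₀ ^ 2 ≠ 1 := by
      intro h0
      rw [h0, Subgroup.closure_singleton_one] at hW₀
      exact hW0 (le_bot_iff.1 hW₀)
    obtain ⟨g, hg, h, hh, hn⟩ := hnon
    have hrR : ⁅g, h⁆ ∈ R :=
      comm_mem_of_sq (fun u _ r hr => hRn.conj_mem r hr u) hsqP hg hh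
    have hrsq : ⁅g, h⁆ ^ 2 = 1 := by
      set r := ⁅g, h⁆ with hr
      have e1 : g * h = r * h * g := by
        rw [hr]; simp only [commutatorElement_def]; group
      have e2 : g ^ 2 * h = h * g ^ 2 := (hcen _ (hsqP g hg) h hh)
      have e3 : r * g = g * r := hcen r hrR g hg
      have e4 : g ^ 2 * h = r ^ 2 * h * g ^ 2 := by
        rw [pow_two, pow_two]
        calc g * g * h = g * (g * h) := by group
          _ = g * (r * h * g) := by rw [e1]
          _ = (g * r) * h * g := by group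
          _ = (r * g) * h * g := by rw [e3]
          _ = r * (g * h) * g := by group
          _ = r * (r * h * g) * g := by rw [e1]
          _ = r * r * h * (g * g) := by group
      rw [e2] at e4
      have e5 : h = r ^ 2 * h := mul_right_cancel e4
      exact mul_eq_right.1 e5.symm
    rcases hdec _ hrR with h3 | ⟨w, hw, hrw⟩
    · exact hn h3
    · rw [hrw, hsq_z w hw] at hrsq
      exact hz2 hrsq
  · push Not at hφ
    obtain ⟨g₁, hg₁, hne⟩ := hφ
    have hinv : ∀ g ∈ P, ⁅z₀, g⁻¹⁆ = ⁅z₀, g⁆⁻¹ := by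
      intro g hg
      have h3 := hcomm_add g hg g⁻¹ (P.inv_mem hg)
      rw [mul_inv_cancel, commutatorElement_one_right] at h3
      exact eq_inv_of_mul_eq_one_right h3.symm
    let K : Subgroup G :=
      { carrier := {g | g ∈ P ∧ ⁅z₀, g⁆ = 1}
        one_mem' := ⟨P.one_mem, commutatorElement_one_right _⟩
        mul_mem' := by
          rintro a b ⟨ha, ha'⟩ ⟨hb, hb'⟩
          exact ⟨P.mul_mem ha hb, by rw [hcomm_add a ha b hb, ha', hb', mul_one]⟩
        inv_mem' := by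
          rintro a ⟨ha, ha'⟩
          exact ⟨P.inv_mem ha, by rw [hinv a ha, ha', inv_one]⟩ }
    have hRK : R ≤ K := by
      intro r hr
      refine ⟨hRP hr, ?_⟩
      rw [commutatorElement_eq_one_iff_mul_comm]
      exact hRcomm _ hz₀R _ hr
    have hKP : K ≤ P := fun g hg => hg.1
    have hyz₀ : y * z₀ * y⁻¹ = z₀ := hfix
    have hyc : ∀ g, y * ⁅z₀, g⁆ * y⁻¹ = ⁅z₀, y * g * y⁻¹⁆ := by
      intro g
      rw [conj_comm, hyz₀]
    have hKy : ∀ t ∈ K, y * t * y⁻¹ ∈ K := by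
      rintro t ⟨ht1, ht2⟩
      refine ⟨V.yP t ht1, ?_⟩
      rw [← hyc, ht2]
      group
    have hK : K = R := by
      rcases V.irr hRK hKP hKy with h3 | h3
      · exact h3
      · exfalso
        exact hne (by have : g₁ ∈ K := h3 ▸ hg₁; exact this.2)
    have hker : ∀ g ∈ P, ⁅z₀, g⁆ = 1 → g ∈ R := by
      intro g hg h1
      rw [← hK]
      exact ⟨hg, h1⟩
    let f : P →* G :=
      { toFun := fun g => ⁅z₀, g.1⁆
        map_one' := commutatorElement_one_right _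
        map_mul' := fun a b => hcomm_add a.1 a.2 b.1 b.2 }
    have hfker : f.ker = R.subgroupOf P := by
      ext g
      rw [MonoidHom.mem_ker, Subgroup.mem_subgroupOf]
      constructor
      · exact fun h1 => hker g.1 g.2 h1
      · intro h1
        have : g.1 ∈ K := by rw [hK]; exact h1
        exact this.2
    have hI16 : Nat.card f.range = 16 := by
      rw [← Subgroup.index_ker, hfker]
      have h3 := card_eq_relIndex_mul hRP
      rw [V.hcard] at h3
      have h4 : 0 < Nat.card R := Nat.card_pos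
      exact (Nat.eq_of_mul_eq_mul_right h4 h3).symm
    have hIW : f.range ≤ W := by
      rintro _ ⟨g, rfl⟩
      exact hcR _ hz₀R _ g.2
    have hIfix : ∀ i ∈ f.range, y * i * y⁻¹ = i → i = 1 := by
      rintro _ ⟨g, rfl⟩ h3
      change y * ⁅z₀, g.1⁆ * y⁻¹ = ⁅z₀, g.1⁆ at h3
      change ⁅z₀, g.1⁆ = 1
      rw [hyc] at h3
      have h4 : ⁅z₀, g.1⁻¹ * (y * g.1 * y⁻¹)⁆ = 1 := by
        rw [hcomm_add _ (P.inv_mem g.2) _ (V.yP _ g.2), hinv _ g.2, h3, inv_mul_cancel]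
      have h5 := V.fpf g.1 g.2 (hker _ (P.mul_mem (P.inv_mem g.2) (V.yP _ g.2)) h4)
      have h6 : g.1 ∈ K := by rw [hK]; exact h5
      exact h6.2
    let E : Subgroup G :=
      { carrier := {r | r ∈ R ∧ r ^ 2 = 1}
        one_mem' := ⟨R.one_mem, one_pow _⟩
        mul_mem' := by
          rintro a b ⟨ha, ha'⟩ ⟨hb, hb'⟩
          refine ⟨R.mul_mem ha hb, ?_⟩
          have : Commute a b := hRcomm a ha b hb
          rw [this.mul_pow, ha', hb', one_mul]
        inv_mem' := by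
          rintro a ⟨ha, ha'⟩
          exact ⟨R.inv_mem ha, by rw [inv_pow, ha', inv_one]⟩ }
    have hEcard : Nat.card E ≤ 16 := by
      have h1 := hB E ⊥ bot_le (fun h hh => by rw [hh.2]; exact Subgroup.one_mem _)
      rw [Subgroup.relIndex_bot_left] at h1
      simpa using h1
    have hIE : f.range ≤ E := fun i hi => ⟨hWR (hIW hi), heW _ (hIW hi)⟩
    have hIeq : f.range = E := Subgroup.eq_of_le_of_card_ge hIE (by rw [hI16]; exact hEcard)
    by_cases hz1 : z₀ ^ 2 = 1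
    · have : z₀ ∈ E := ⟨hz₀R, hz1⟩
      rw [← hIeq] at this
      exact hz₀W (hIW this)
    · have hm : z₀ ^ 2 ∈ W := hsqR _ hz₀R
      have : z₀ ^ 2 ∈ E := ⟨hWR hm, heW _ hm⟩
      rw [← hIeq] at this
      apply hz1
      apply hIfix _ this
      rw [← conj_pow, hyz₀]

end Cfsg.Agent.Lib.SecA5Level
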