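import Mathlib
import Cfsg.Agent.Lib.QuatHom
import Cfsg.Agent.Lib.DihedralIso

/-!
# Recognition of the central product of a quaternion and a dihedral group of order 8.
-/

set_option autoImplicit false
set_option linter.unusedSectionVars false

namespace Cfsg.Agent.Lib.SecA5Q8

open Cfsg.Agent.Lib.QuatHom Cfsg.Agent.Lib.DihedralIso

theorem q8_center : ∀ x : QuaternionGroup 2, (∀ y : QuaternionGroup 2, y * x = x * y) →
    x = 1 ∨ x = QuaternionGroup.a 2 := by decide +kernel

theorem d8_center : ∀ x : DihedralGroup 4, (∀ y : DihedralGroup 4, y * x = x * y) →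
    x = 1 ∨ x = DihedralGroup.r 2 := by decide +kernel

theorem q8d8 {P₀ : Type*} [Group P₀] [Finite P₀] (hcard : Nat.card P₀ = 32)
    {s₁ s₂ s₃ s₄ z : P₀} (hz : z ≠ 1) (hz2 : z * z = 1)
    (h11 : s₁ * s₁ = z) (h22 : s₂ * s₂ = z) (h12 : s₂ * s₁ * s₂⁻¹ = s₁⁻¹)
    (h33 : s₃ * s₃ = z) (h44 : s₄ * s₄ = 1) (h34 : s₄ * s₃ * s₄ = s₃⁻¹)
    (c13 : s₁ * s₃ = s₃ * s₁) (c14 : s₁ * s₄ = s₄ * s₁)
    (c23 : s₂ * s₃ = s₃ * s₂) (c24 : s₂ * s₄ = s₄ * s₂) :
    ∃ A B : Subgroup P₀, Nonempty (A ≃* QuaternionGroup 2) ∧ Nonempty (B ≃* DihedralGroup 4) ∧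
      (∀ a ∈ A, ∀ b ∈ B, a * b = b * a) ∧ A ⊔ B = ⊤ ∧ A ⊓ B = Subgroup.center P₀ := by
  classical
  have h1z : s₁ ^ 2 = z := by rw [pow_two, h11]
  have h3z : s₃ ^ 2 = z := by rw [pow_two, h33]
  have hs1 : s₁ ^ (2 * 2) = 1 := by
    rw [pow_mul, h1z, pow_two, hz2]
  have hs3 : s₃ ^ 4 = 1 := by
    have : (4 : ℕ) = 2 * 2 := by norm_num
    rw [this, pow_mul, h3z, pow_two, hz2]
  have : Fact (Nat.Prime 2) := ⟨Nat.prime_two⟩
  have ho1 : orderOf s₁ = 2 * 2 := by
    have := orderOf_eq_prime_pow (p := 2) (n := 1) (x := s₁) (by rw [pow_one, h1z]; exact hz)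
      (by norm_num; exact (by simpa using hs1))
    simpa using this
  have ho3 : orderOf s₃ = 4 := by
    have := orderOf_eq_prime_pow (p := 2) (n := 1) (x := s₃) (by rw [pow_one, h3z]; exact hz)
      (by norm_num; exact hs3)
    simpa using this
  have hW : s₂ * s₂ = s₁ ^ 2 := by rw [h22, h1z]
  let f₁ : QuaternionGroup 2 →* P₀ := lift (A := s₁) (W := s₂) hs1 hW h12
  have hf₁ : Function.Injective f₁ := lift_injective hs1 hW h12 (by rw [h1z]; exact hz) ho1
  have hconj : s₄ * s₃ * s₄ = s₃⁻¹ := h34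
  let f₂ : DihedralGroup 4 →* P₀ := dihedralHom (n := 4) s₃ s₄ hs3 h44 hconj
  have htout : ∀ k : ℕ, s₃ ^ k ≠ s₄ := by
    intro k hk
    have h1 : s₄ * s₃ = s₃ * s₄ := by
      rw [← hk]
      exact ((Commute.refl s₃).pow_left k).eq
    have h2 : s₄ * s₃ * s₄ = s₃ := by
      rw [h1, mul_assoc, h44, mul_one]
    rw [h2] at hconj
    apply hz
    rw [← h33]
    nth_rw 1 [hconj]
    exact inv_mul_cancel s₃
  have hf₂ : Function.Injective f₂ := dihedralHom_injective s₃ s₄ hs3 h44 hconj ho3 htout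
  have hcomm : ∀ q d, f₁ q * f₂ d = f₂ d * f₁ q := by
    have hA : ∀ i j : ℕ, Commute (s₁ ^ i) (s₃ ^ j) := fun i j => (Commute.pow_pow c13 i j)
    have hB : ∀ i : ℕ, Commute (s₁ ^ i) s₄ := fun i => (Commute.pow_left c14 i)
    have hC : ∀ j : ℕ, Commute s₂ (s₃ ^ j) := fun j => (Commute.pow_right c23 j)
    have hD : Commute s₂ s₄ := c24
    rintro (i | i) (j | j)
    · exact hA _ _
    · exact (hB i.val).mul_right (hA _ _)
    · exact (hC j.val).mul_left (hA _ _)
    · exact (Commute.mul_left (Commute.mul_right hD (hC j.val))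
        (Commute.mul_right (hB i.val) (hA _ _)))
  have hza : f₁ (QuaternionGroup.a 2) = z := by
    change s₁ ^ ((2 : ZMod (2 * 2)).val) = z
    have : (2 : ZMod (2 * 2)).val = 2 := rfl
    rw [this, h1z]
  have hzr : f₂ (DihedralGroup.r 2) = z := by
    change s₃ ^ ((2 : ZMod 4).val) = z
    have : (2 : ZMod 4).val = 2 := rfl
    rw [this, h3z]
  let φ : QuaternionGroup 2 × DihedralGroup 4 →* P₀ := MonoidHom.noncommCoprod f₁ f₂ hcomm
  have hφ : ∀ q d, φ (q, d) = f₁ q * f₂ d := fun q d => rfl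
  have hq1 : ∀ q, (∀ y, f₁ y * f₁ q = f₁ q * f₁ y) → q = 1 ∨ q = QuaternionGroup.a 2 := by
    intro q hq
    apply q8_center
    intro y
    apply hf₁
    rw [map_mul, map_mul, hq]
  have hd1 : ∀ d, (∀ y, f₂ y * f₂ d = f₂ d * f₂ y) → d = 1 ∨ d = DihedralGroup.r 2 := by
    intro d hd
    apply d8_center
    intro y
    apply hf₂
    rw [map_mul, map_mul, hd]
  have hker : (φ.ker : Set (QuaternionGroup 2 × DihedralGroup 4)) ⊆
      {(1, 1), (QuaternionGroup.a 2, DihedralGroup.r 2)} := by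
    rintro ⟨q, d⟩ hqd
    have h0 : f₁ q * f₂ d = 1 := hqd
    have hq : f₁ q = (f₂ d)⁻¹ := eq_inv_of_mul_eq_one_left h0
    have hd' : f₂ d = (f₁ q)⁻¹ := eq_inv_of_mul_eq_one_right h0
    have hq2 : q = 1 ∨ q = QuaternionGroup.a 2 := by
      apply hq1
      intro y
      have := hcomm y d⁻¹
      rw [map_inv] at this
      rw [hq]
      exact this
    have hd2 : d = 1 ∨ d = DihedralGroup.r 2 := by
      apply hd1
      intro y
      rw [hd']
      have := hcomm q⁻¹ y
      rw [map_inv] at this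
      exact this.symm
    rcases hq2 with rfl | rfl
    · have : d = 1 := by
        apply hf₂
        rw [map_one]
        simpa using h0
      subst this
      simp
    · have : d = DihedralGroup.r 2 := by
        apply hf₂
        rw [hzr]
        rw [hza] at h0
        rw [eq_comm]
        have h3 : z * z = z * f₂ d := by rw [hz2, h0]
        exact mul_left_cancel h3
      subst this
      simp
  have hkc : Nat.card φ.ker ≤ 2 := by
    have h1 : Nat.card φ.ker = (φ.ker : Set (QuaternionGroup 2 × DihedralGroup 4)).ncard :=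
      (Nat.card_coe_set_eq _)
    rw [h1]
    refine le_trans (Set.ncard_le_ncard hker (Set.toFinite _)) ?_
    refine le_trans (Set.ncard_insert_le _ _) ?_
    rw [Set.ncard_singleton]
  have hsurj : Function.Surjective φ := by
    have h64 : Nat.card (QuaternionGroup 2 × DihedralGroup 4) = 64 := by
      rw [Nat.card_prod, DihedralGroup.nat_card, Nat.card_eq_fintype_card, QuaternionGroup.card]
    have h1 := Subgroup.card_mul_index φ.ker
    rw [Subgroup.index_ker, h64] at h1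
    have h2 : 32 ≤ Nat.card φ.range := by
      by_contra hlt
      push Not at hlt
      have : Nat.card φ.ker * Nat.card φ.range ≤ 2 * 31 :=
        Nat.mul_le_mul hkc (by omega)
      omega
    have h3 : φ.range = ⊤ := by
      apply Subgroup.eq_top_of_card_eq
      apply le_antisymm (Subgroup.card_le_card_group _)
      rw [hcard]
      exact h2
    exact MonoidHom.range_eq_top.mp h3
  have hdec : ∀ x : P₀, ∃ q d, x = f₁ q * f₂ d := by
    intro x
    obtain ⟨⟨q, d⟩, h⟩ := hsurj x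
    exact ⟨q, d, h.symm⟩
  refine ⟨f₁.range, f₂.range, ⟨(MonoidHom.ofInjective hf₁).symm⟩,
    ⟨(MonoidHom.ofInjective hf₂).symm⟩, ?_, ?_, ?_⟩
  · rintro _ ⟨q, rfl⟩ _ ⟨d, rfl⟩
    exact hcomm q d
  · rw [eq_top_iff]
    intro x _
    obtain ⟨q, d, rfl⟩ := hdec x
    exact Subgroup.mul_mem _ (Subgroup.mem_sup_left ⟨q, rfl⟩) (Subgroup.mem_sup_right ⟨d, rfl⟩)
  · apply le_antisymm
    · rintro x ⟨⟨q', rfl⟩, ⟨d', hd'⟩⟩
      rw [Subgroup.mem_center_iff]
      intro g
      obtain ⟨q, d, rfl⟩ := hdec g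
      change f₁ q * f₂ d * f₁ q' = f₁ q' * (f₁ q * f₂ d)
      have h1 : f₂ d * f₁ q' = f₁ q' * f₂ d := (hcomm q' d).symm
      have h2 : f₁ q * f₁ q' = f₁ q' * f₁ q := by
        have hd'' : f₁ q' = f₂ d' := hd'.symm
        rw [hd'']
        exact hcomm q d'
      calc f₁ q * f₂ d * f₁ q' = f₁ q * (f₂ d * f₁ q') := by group
        _ = (f₁ q * f₁ q') * f₂ d := by rw [h1]; group
        _ = _ := by rw [h2]; group
    · intro c hc
      rw [Subgroup.mem_center_iff] at hc
      obtain ⟨q, d, rfl⟩ := hdec c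
      have hq : q = 1 ∨ q = QuaternionGroup.a 2 := by
        apply hq1
        intro y
        have := hc (f₁ y)
        have h2 := hcomm y d
        apply mul_right_cancel (b := f₂ d)
        calc (f₁ y * f₁ q) * f₂ d = f₁ y * (f₁ q * f₂ d) := mul_assoc _ _ _
          _ = f₁ q * f₂ d * f₁ y := this
          _ = f₁ q * (f₂ d * f₁ y) := mul_assoc _ _ _
          _ = f₁ q * (f₁ y * f₂ d) := by rw [h2]
          _ = f₁ q * f₁ y * f₂ d := (mul_assoc _ _ _).symm
      have hd : d = 1 ∨ d = DihedralGroup.r 2 := by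
        apply hd1
        intro y
        have := hc (f₂ y)
        have h2 := hcomm q y
        apply mul_left_cancel (a := f₁ q)
        calc f₁ q * (f₂ y * f₂ d) = (f₁ q * f₂ y) * f₂ d := (mul_assoc _ _ _).symm
          _ = f₂ y * f₁ q * f₂ d := by rw [h2]
          _ = f₂ y * (f₁ q * f₂ d) := mul_assoc _ _ _
          _ = f₁ q * f₂ d * f₂ y := this
          _ = f₁ q * (f₂ d * f₂ y) := mul_assoc _ _ _
      have hz1 : z ∈ f₁.range := ⟨_, hza⟩
      have hz2' : z ∈ f₂.range := ⟨_, hzr⟩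
      have h1m : (1 : P₀) ∈ f₁.range ⊓ f₂.range := Subgroup.one_mem _
      rcases hq with rfl | rfl <;> rcases hd with rfl | rfl
      · simpa using h1m
      · rw [map_one, hzr, one_mul]
        exact ⟨hz1, hz2'⟩
      · rw [map_one, hza, mul_one]
        exact ⟨hz1, hz2'⟩
      · rw [hza, hzr, hz2]
        exact h1m

end Cfsg.Agent.Lib.SecA5Q8
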