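import Mathlib
import Cfsg.Agent.Lib.SecA5Level
import Cfsg.Agent.Lib.SecA5Q8

/-!
# The extraspecial case: the central product structure.
-/

set_option autoImplicit false
set_option linter.unusedSectionVars false

open scoped commutatorElement

namespace Cfsg.Agent.Lib.SecA5Pattern

open Cfsg.Agent.Lib.SecA5Base Cfsg.Agent.Lib.SectRank Cfsg.Agent.Lib.SecA5Mod
  Cfsg.Agent.Lib.SecA5One Cfsg.Agent.Lib.SecA5Level Cfsg.Agent.Lib.SecA5Q8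

variable {G : Type*} [Group G] [Finite G]

theorem pattern_core {Q : Subgroup G} (hQ : Nat.card Q = 32) {s₁ s₂ s₃ s₄ z : G}
    (h1 : s₁ ∈ Q) (h2 : s₂ ∈ Q) (h3 : s₃ ∈ Q) (h4 : s₄ ∈ Q) (hz : z ≠ 1) (hz2 : z * z = 1)
    (h11 : s₁ ^ 2 = z) (h22 : s₂ ^ 2 = z) (h33 : s₃ ^ 2 = z) (h44 : s₄ ^ 2 = 1)
    (c21 : ⁅s₂, s₁⁆ = z) (c43 : ⁅s₄, s₃⁆ = z) (c13 : ⁅s₁, s₃⁆ = 1) (c14 : ⁅s₁, s₄⁆ = 1)
    (c23 : ⁅s₂, s₃⁆ = 1) (c24 : ⁅s₂, s₄⁆ = 1) :
    ∃ A B : Subgroup ↥Q, Nonempty (↥A ≃* QuaternionGroup 2) ∧ Nonempty (↥B ≃* DihedralGroup 4) ∧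
      (∀ a ∈ A, ∀ b ∈ B, a * b = b * a) ∧ A ⊔ B = ⊤ ∧ A ⊓ B = Subgroup.center ↥Q := by
  have hzQ : z ∈ Q := by rw [← h11]; exact Q.pow_mem h1 2
  have e1 : s₁ * s₁ = z := by rw [← pow_two, h11]
  have e2 : s₂ * s₂ = z := by rw [← pow_two, h22]
  have e3 : s₃ * s₃ = z := by rw [← pow_two, h33]
  have e4 : s₄ * s₄ = 1 := by rw [← pow_two, h44]
  have inv_of : ∀ s : G, s * s = z → z * s = s⁻¹ := by
    intro s hs
    rw [eq_inv_iff_mul_eq_one, mul_assoc, hs, hz2]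
  have f12 : s₂ * s₁ * s₂⁻¹ = s₁⁻¹ := by
    rw [← inv_of s₁ e1, ← c21]
    simp only [commutatorElement_def]
    group
  have f34 : s₄ * s₃ * s₄ = s₃⁻¹ := by
    have e5 : s₄⁻¹ = s₄ := inv_eq_of_mul_eq_one_left e4
    rw [← inv_of s₃ e3, ← c43]
    simp only [commutatorElement_def]
    rw [e5]
    group
  have g13 := commutatorElement_eq_one_iff_mul_comm.1 c13
  have g14 := commutatorElement_eq_one_iff_mul_comm.1 c14
  have g23 := commutatorElement_eq_one_iff_mul_comm.1 c23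
  have g24 := commutatorElement_eq_one_iff_mul_comm.1 c24
  refine q8d8 (P₀ := Q) hQ (s₁ := ⟨s₁, h1⟩) (s₂ := ⟨s₂, h2⟩) (s₃ := ⟨s₃, h3⟩) (s₄ := ⟨s₄, h4⟩)
    (z := ⟨z, hzQ⟩) ?_ ?_ ?_ ?_ ?_ ?_ ?_ ?_ ?_ ?_ ?_ ?_
  · intro h
    exact hz (congrArg Subtype.val h)
  · exact Subtype.ext hz2
  · exact Subtype.ext e1
  · exact Subtype.ext e2
  · exact Subtype.ext f12
  · exact Subtype.ext e3
  · exact Subtype.ext e4
  · exact Subtype.ext f34
  · exact Subtype.ext g13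
  · exact Subtype.ext g14
  · exact Subtype.ext g23
  · exact Subtype.ext g24

variable {Q R : Subgroup G} {y v : G}

theorem pattern (D : CaseI Q R y v) (hR2 : Nat.card R = 2) (hRs : R ≤ sqS Q) (hQ : Nat.card Q = 32) :
    ∃ A B : Subgroup ↥Q, Nonempty (↥A ≃* QuaternionGroup 2) ∧ Nonempty (↥B ≃* DihedralGroup 4) ∧
      (∀ a ∈ A, ∀ b ∈ B, a * b = b * a) ∧ A ⊔ B = ⊤ ∧ A ⊓ B = Subgroup.center ↥Q := by
  have cl := D.cl
  have hP := D.vv_mem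
  have hrel := D.relation
  have h5 := D.card_le_two hRs
  have hsq := D.sq_vv
  have htab := D.table
  have hb0R : ⁅vv y v 1, vv y v 0⁆ ∈ R := cl.comm_mem (hP 1) (hP 0)
  have hb1R : ⁅vv y v 2, vv y v 0⁆ ∈ R := cl.comm_mem (hP 2) (hP 0)
  -- the involution
  have hW : (⊥ : Subgroup G).relIndex R = 2 := by rw [Subgroup.relIndex_bot_left, hR2]
  obtain ⟨z, hzR, hz⟩ : ∃ z ∈ R, z ≠ 1 := by
    by_contra hno
    push Not at hno
    have : R = ⊥ := (Subgroup.eq_bot_iff_forall _).2 hno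
    rw [this] at hR2
    simp at hR2
  have hzz : z * z = 1 := cl.self_mul hzR
  have hdich : ∀ r ∈ R, r = 1 ∨ r = z := by
    intro r hr
    by_cases h1 : r = 1
    · exact Or.inl h1
    · right
      have h2 := coset_two hW hzR hr (by simpa using hz) (by simpa using h1)
      have h3 : z⁻¹ * r = 1 := by simpa using h2
      exact (eq_of_inv_mul_eq_one h3).symm
  generalize hb : ⁅vv y v 1, vv y v 0⁆ = b at *
  generalize hb' : ⁅vv y v 2, vv y v 0⁆ = b' at *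
  have t : ∀ i j, i < 5 → j < 5 → ⁅vv y v i, vv y v j⁆ = tv b b' (dst i j) := htab
  have cs : ∀ i, ⁅vv y v i, vv y v i⁆ = 1 := fun i => commutatorElement_self _
  have tcl : ∀ i j k, ⁅vv y v i * vv y v j, vv y v k⁆ = ⁅vv y v i, vv y v k⁆ * ⁅vv y v j, vv y v k⁆ :=
    fun i j k => cl.comm_mul_left (hP i) (hP j) (hP k)
  have tcr : ∀ i j k, ⁅vv y v i, vv y v j * vv y v k⁆ = ⁅vv y v i, vv y v j⁆ * ⁅vv y v i, vv y v k⁆ :=
    fun i j k => cl.comm_mul_right (hP i) (hP j) (hP k)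
  have tsq : ∀ i j, (vv y v i * vv y v j) ^ 2 = v ^ 2 * v ^ 2 * ⁅vv y v j, vv y v i⁆ := by
    intro i j
    rw [cl.sq_mul (hP i) (hP j), hsq, hsq]
  have t01 : ⁅vv y v 0, vv y v 1⁆ = b := t 0 1 (by norm_num) (by norm_num)
  have t02 : ⁅vv y v 0, vv y v 2⁆ = b' := t 0 2 (by norm_num) (by norm_num)
  have t03 : ⁅vv y v 0, vv y v 3⁆ = b' := t 0 3 (by norm_num) (by norm_num)
  have t04 : ⁅vv y v 0, vv y v 4⁆ = b := t 0 4 (by norm_num) (by norm_num)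
  have t12 : ⁅vv y v 1, vv y v 2⁆ = b := t 1 2 (by norm_num) (by norm_num)
  have t13 : ⁅vv y v 1, vv y v 3⁆ = b' := t 1 3 (by norm_num) (by norm_num)
  have t14 : ⁅vv y v 1, vv y v 4⁆ = b' := t 1 4 (by norm_num) (by norm_num)
  have t21 : ⁅vv y v 2, vv y v 1⁆ = b := t 2 1 (by norm_num) (by norm_num)
  have t23 : ⁅vv y v 2, vv y v 3⁆ = b := t 2 3 (by norm_num) (by norm_num)
  have t24 : ⁅vv y v 2, vv y v 4⁆ = b' := t 2 4 (by norm_num) (by norm_num)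
  have t34 : ⁅vv y v 3, vv y v 4⁆ = b := t 3 4 (by norm_num) (by norm_num)
  have t40 : ⁅vv y v 4, vv y v 0⁆ = b := t 4 0 (by norm_num) (by norm_num)
  have t41 : ⁅vv y v 4, vv y v 1⁆ = b' := t 4 1 (by norm_num) (by norm_num)
  have t43 : ⁅vv y v 4, vv y v 3⁆ = b := t 4 3 (by norm_num) (by norm_num)
  rcases hdich b hb0R with h_b | h_b <;> rcases hdich b' hb1R with h_b' | h_b'
  · -- no commutators at all
    have h6 := (h5 (Or.inr (Or.inl h_b))).2 hR2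
    rcases h6 with h6 | h6
    · exact absurd h_b h6
    · exact absurd h_b' h6
  · -- Pattern B
    have ha : v ^ 2 = z := by rw [hrel, h_b, h_b', mul_one]
    refine pattern_core hQ (s₁ := vv y v 0) (s₂ := vv y v 2) (s₃ := vv y v 1)
      (s₄ := vv y v 0 * vv y v 4) (z := z) (hP 0) (hP 2) (hP 1) (Q.mul_mem (hP 0) (hP 4)) hz hzz
      (by rw [hsq, ha]) (by rw [hsq, ha]) (by rw [hsq, ha]) ?_ ?_ ?_ ?_ ?_ ?_ ?_
    · rw [tsq, t40, ha, hzz, h_b, mul_one]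
    · rw [hb', h_b']
    · rw [tcl, t01, t41, h_b, h_b', one_mul]
    · rw [t01, h_b]
    · rw [tcr, cs, t04, h_b, one_mul]
    · rw [t21, h_b]
    · rw [tcr, hb', t24, h_b', hzz]
  · -- Pattern A
    have ha : v ^ 2 = z := by rw [hrel, h_b, h_b', one_mul]
    refine pattern_core hQ (s₁ := vv y v 0) (s₂ := vv y v 1) (s₃ := vv y v 3)
      (s₄ := vv y v 0 * vv y v 2) (z := z) (hP 0) (hP 1) (hP 3) (Q.mul_mem (hP 0) (hP 2)) hz hzz
      (by rw [hsq, ha]) (by rw [hsq, ha]) (by rw [hsq, ha]) ?_ ?_ ?_ ?_ ?_ ?_ ?_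
    · rw [tsq, hb', ha, hzz, h_b', mul_one]
    · rw [hb, h_b]
    · rw [tcl, t03, t23, h_b, h_b', one_mul]
    · rw [t03, h_b']
    · rw [tcr, cs, t02, h_b', one_mul]
    · rw [t13, h_b']
    · rw [tcr, hb, t12, h_b, hzz]
  · -- Pattern C
    have ha : v ^ 2 = 1 := by rw [hrel, h_b, h_b', hzz]
    refine pattern_core hQ (s₁ := vv y v 0 * vv y v 1) (s₂ := vv y v 1 * vv y v 2)
      (s₃ := vv y v 3 * vv y v 4) (s₄ := vv y v 3) (z := z) (Q.mul_mem (hP 0) (hP 1))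
      (Q.mul_mem (hP 1) (hP 2)) (Q.mul_mem (hP 3) (hP 4)) (hP 3) hz hzz ?_ ?_ ?_ ?_ ?_ ?_ ?_ ?_ ?_ ?_
    · rw [tsq, hb, ha, mul_one, one_mul, h_b]
    · rw [tsq, t21, ha, mul_one, one_mul, h_b]
    · rw [tsq, t43, ha, mul_one, one_mul, h_b]
    · rw [hsq, ha]
    · rw [cl.comm_mul_left (hP 1) (hP 2) (Q.mul_mem (hP 0) (hP 1)), tcr, tcr, hb, cs, hb', t21, h_b, h_b', mul_one, hzz, mul_one]
    · rw [tcr, cs, t34, h_b, one_mul]
    · rw [cl.comm_mul_left (hP 0) (hP 1) (Q.mul_mem (hP 3) (hP 4)), tcr, tcr, t03, t04, t13, t14, h_b, h_b', hzz, mul_one]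
    · rw [tcl, t03, t13, h_b', hzz]
    · rw [cl.comm_mul_left (hP 1) (hP 2) (Q.mul_mem (hP 3) (hP 4)), tcr, tcr, t13, t14, t23, t24, h_b, h_b', hzz, mul_one]
    · rw [tcl, t13, t23, h_b, h_b', hzz]

end Cfsg.Agent.Lib.SecA5Pattern
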