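import Mathlib
import Cfsg.Agent.Lib.SecA5Pattern

/-!
# Assembly: the structure of a normal 2-subgroup acted on by the alternating group of degree five.
-/

set_option autoImplicit false
set_option linter.unusedSectionVars false

open scoped commutatorElement

namespace Cfsg.Agent.Lib.SecA5Main

open Cfsg.Agent.Lib.SecA5Base Cfsg.Agent.Lib.SectRank Cfsg.Agent.Lib.SecA5Mod
  Cfsg.Agent.Lib.SecA5One Cfsg.Agent.Lib.SecA5Level Cfsg.Agent.Lib.SecA5Pattern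

section Elements

theorem a5_elements : ∃ c₁ c₂ g : alternatingGroup (Fin 5), c₁ * c₁ = 1 ∧ c₂ * c₂ = 1 ∧
    (c₁ * c₂) ^ 5 = 1 ∧ c₁ * c₂ ≠ 1 ∧
    ((c₁ * c₂) * (g * (c₁ * c₂) * g⁻¹)) * ((c₁ * c₂) * (g * (c₁ * c₂) * g⁻¹)) *
      ((c₁ * c₂) * (g * (c₁ * c₂) * g⁻¹)) = 1 ∧ (c₁ * c₂) * (g * (c₁ * c₂) * g⁻¹) ≠ 1 := by
  refine ⟨⟨Equiv.swap 0 1 * Equiv.swap 2 4, Equiv.Perm.mem_alternatingGroup.2 (by decide)⟩,
    ⟨Equiv.swap 1 4 * Equiv.swap 2 3, Equiv.Perm.mem_alternatingGroup.2 (by decide)⟩,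
    ⟨Equiv.swap 1 2 * Equiv.swap 3 4, Equiv.Perm.mem_alternatingGroup.2 (by decide)⟩, ?_⟩
  decide +kernel

variable {H : Type*} [Group H]

theorem a5_data (hA : ∃ A : Subgroup H, Nonempty (↥A ≃* ↥(alternatingGroup (Fin 5)))) :
    ∃ c₁ c₂ g : H, c₁ * c₁ = 1 ∧ c₂ * c₂ = 1 ∧
    (c₁ * c₂) ^ 5 = 1 ∧ c₁ * c₂ ≠ 1 ∧
    ((c₁ * c₂) * (g * (c₁ * c₂) * g⁻¹)) * ((c₁ * c₂) * (g * (c₁ * c₂) * g⁻¹)) *
      ((c₁ * c₂) * (g * (c₁ * c₂) * g⁻¹)) = 1 ∧ (c₁ * c₂) * (g * (c₁ * c₂) * g⁻¹) ≠ 1 := by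
  obtain ⟨A, ⟨e⟩⟩ := hA
  let f : alternatingGroup (Fin 5) →* H := A.subtype.comp e.symm.toMonoidHom
  have hf : Function.Injective f := A.subtype_injective.comp e.symm.injective
  obtain ⟨c₁, c₂, g, h1, h2, h3, h4, h5, h6⟩ := a5_elements
  refine ⟨f c₁, f c₂, f g, ?_, ?_, ?_, ?_, ?_, ?_⟩
  · rw [← map_mul, h1, map_one]
  · rw [← map_mul, h2, map_one]
  · rw [← map_mul, ← map_pow, h3, map_one]
  · rw [← map_mul]
    exact fun h => h4 (hf (by rw [h, map_one]))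
  · simp only [← map_mul, ← map_inv]
    rw [h5, map_one]
  · simp only [← map_mul, ← map_inv]
    exact fun h => h6 (hf (by rw [h, map_one]))

end Elements

variable {X : Type*} [Group X] [Finite X]

/-- Removing the 2-part. -/
theorem exists_prime_part {Q : Subgroup X} [hQn : Q.Normal] (hQ : IsPGroup 2 Q) (r : ℕ)
    (hr : Nat.Coprime 2 r) (hr1 : 1 < r) {w : X} (hw : w ^ r ∈ Q) :
    ∃ w' : X, w' ^ r = 1 ∧ w⁻¹ * w' ∈ Q := by
  obtain ⟨k, hk⟩ := hQ ⟨w ^ r, hw⟩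
  have hk' : (w ^ r) ^ 2 ^ k = 1 := by
    have := congrArg Subtype.val hk
    simpa using this
  have hc : Nat.Coprime (2 ^ k) r := Nat.Coprime.pow_left k hr
  obtain ⟨t, ht⟩ := Nat.exists_mul_mod_eq_one_of_coprime hc hr1
  refine ⟨w ^ (2 ^ k * t), ?_, ?_⟩
  · rw [← pow_mul, mul_comm (2 ^ k * t) r, ← mul_assoc, pow_mul, pow_mul, hk', one_pow]
  · have h1 : 2 ^ k * t = r * (2 ^ k * t / r) + 1 := by
      have := Nat.div_add_mod (2 ^ k * t) r
      rw [ht.2] at this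
      exact this.symm
    rw [h1, pow_succ, pow_mul]
    have h2 : w⁻¹ * ((w ^ r) ^ (2 ^ k * t / r) * w) =
        w⁻¹ * (w ^ r) ^ (2 ^ k * t / r) * w := by group
    rw [h2]
    have h3 := hQn.conj_mem _ (Q.pow_mem hw (2 ^ k * t / r)) w⁻¹
    simpa using h3

theorem eq_one_of_coprime_pow {Q : Subgroup X} (hQ : IsPGroup 2 Q) {a : X} (ha : a ∈ Q) {r : ℕ}
    (hr : Nat.Coprime 2 r) (h : a ^ r = 1) : a = 1 := by
  obtain ⟨k, hk⟩ := hQ ⟨a, ha⟩
  have hk' : a ^ 2 ^ k = 1 := by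
    have := congrArg Subtype.val hk
    simpa using this
  have h1 := orderOf_dvd_of_pow_eq_one h
  have h2 := orderOf_dvd_of_pow_eq_one hk'
  have h3 : Nat.Coprime (2 ^ k) r := Nat.Coprime.pow_left k hr
  have h4 : orderOf a = 1 := Nat.eq_one_of_dvd_coprimes h3 h2 h1
  exact orderOf_eq_one_iff.1 h4

/-- Lifting the elements of the alternating group. -/
theorem a5_lift {Q : Subgroup X} [hQn : Q.Normal] (hQ : IsPGroup 2 Q)
    (hA : ∃ A : Subgroup (X ⧸ Q), Nonempty (↥A ≃* ↥(alternatingGroup (Fin 5)))) :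
    ∃ y c₁ c₂ g : X, y ^ 5 = 1 ∧ y ∉ Q ∧ c₁ * c₁ ∈ Q ∧ c₂ * c₂ ∈ Q ∧ y⁻¹ * (c₁ * c₂) ∈ Q ∧
      (y * (g * y * g⁻¹)) * (y * (g * y * g⁻¹)) * (y * (g * y * g⁻¹)) ∈ Q ∧
      (y * (g * y * g⁻¹)) ∉ Q := by
  obtain ⟨c₁', c₂', g', h1, h2, h3, h4, h5, h6⟩ := a5_data hA
  obtain ⟨c₁, rfl⟩ := QuotientGroup.mk_surjective c₁'
  obtain ⟨c₂, rfl⟩ := QuotientGroup.mk_surjective c₂'
  obtain ⟨g, rfl⟩ := QuotientGroup.mk_surjective g'
  let π := QuotientGroup.mk' Q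
  have hmem : ∀ w : X, w ∈ Q ↔ π w = 1 := fun w => (QuotientGroup.eq_one_iff w).symm
  have h1' : π c₁ * π c₁ = 1 := h1
  have h2' : π c₂ * π c₂ = 1 := h2
  have h3' : (π c₁ * π c₂) ^ 5 = 1 := h3
  have h4' : π c₁ * π c₂ ≠ 1 := h4
  have h5' : (π c₁ * π c₂ * (π g * (π c₁ * π c₂) * (π g)⁻¹)) * (π c₁ * π c₂ * (π g * (π c₁ * π c₂) * (π g)⁻¹)) *
      (π c₁ * π c₂ * (π g * (π c₁ * π c₂) * (π g)⁻¹)) = 1 := h5
  have h6' : π c₁ * π c₂ * (π g * (π c₁ * π c₂) * (π g)⁻¹) ≠ 1 := h6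
  have hy0 : (c₁ * c₂) ^ 5 ∈ Q := by
    rw [hmem, map_pow, map_mul]
    exact h3'
  obtain ⟨y, hy5, hyc⟩ := exists_prime_part hQ 5 (by norm_num) (by norm_num) hy0
  have hπy : π y = π c₁ * π c₂ := by
    rw [hmem, map_mul, map_inv, map_mul] at hyc
    exact (eq_of_inv_mul_eq_one hyc).symm
  refine ⟨y, c₁, c₂, g, hy5, ?_, ?_, ?_, ?_, ?_, ?_⟩
  · rw [hmem, hπy]
    exact h4'
  · rw [hmem, map_mul]
    exact h1'
  · rw [hmem, map_mul]
    exact h2'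
  · rw [hmem, map_mul, map_inv, map_mul, hπy, inv_mul_cancel]
  · rw [hmem]
    simp only [map_mul, map_inv]
    rw [hπy]
    exact h5'
  · rw [hmem]
    simp only [map_mul, map_inv]
    rw [hπy]
    exact h6'

/-- The action of an element of order five. -/
theorem fpf_or {Q R : Subgroup X} {y : X} (hQ : IsPGroup 2 Q) (hRQ : R ≤ Q)
    (hyQ : ∀ u ∈ Q, y * u * y⁻¹ ∈ Q) (hyR : ∀ r ∈ R, y * r * y⁻¹ ∈ R)
    (hnQ : ∀ u ∈ Q, ∀ r ∈ R, u * r * u⁻¹ ∈ R) (hy5 : y ^ 5 = 1) (hidx : R.relIndex Q ≤ 16) :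
    (∀ u ∈ Q, u⁻¹ * (y * u * y⁻¹) ∈ R) ∨
      (Nat.card Q = 16 * Nat.card R ∧ ∀ u ∈ Q, u⁻¹ * (y * u * y⁻¹) ∈ R → u ∈ R) := by
  let D : Subgroup X :=
    { carrier := {u | u ∈ Q ∧ u⁻¹ * (y * u * y⁻¹) ∈ R}
      one_mem' := ⟨Q.one_mem, by simp [R.one_mem]⟩
      mul_mem' := by
        rintro a b ⟨ha, ha'⟩ ⟨hb, hb'⟩
        refine ⟨Q.mul_mem ha hb, ?_⟩
        have e : (a * b)⁻¹ * (y * (a * b) * y⁻¹) =
            (b⁻¹ * (a⁻¹ * (y * a * y⁻¹)) * b⁻¹⁻¹) * (b⁻¹ * (y * b * y⁻¹)) := by group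
        rw [e]
        exact R.mul_mem (hnQ _ (Q.inv_mem hb) _ ha') hb'
      inv_mem' := by
        rintro a ⟨ha, ha'⟩
        refine ⟨Q.inv_mem ha, ?_⟩
        have e : a⁻¹⁻¹ * (y * a⁻¹ * y⁻¹) = a * (a⁻¹ * (y * a * y⁻¹))⁻¹ * a⁻¹ := by group
        rw [e]
        exact hnQ _ ha _ (R.inv_mem ha') }
  have hRD : R ≤ D := by
    intro r hr
    exact ⟨hRQ hr, R.mul_mem (R.inv_mem hr) (hyR r hr)⟩
  have hDQ : D ≤ Q := fun u hu => hu.1
  have hDy : ∀ u ∈ D, y * u * y⁻¹ ∈ D := by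
    rintro u ⟨hu, hu'⟩
    refine ⟨hyQ u hu, ?_⟩
    have e : (y * u * y⁻¹)⁻¹ * (y * (y * u * y⁻¹) * y⁻¹) = y * (u⁻¹ * (y * u * y⁻¹)) * y⁻¹ := by group
    rw [e]
    exact hyR _ hu'
  have h1 := card_modEq_centralizer 5 hy5 hyQ
  have h2 := card_modEq_centralizer 5 hy5 hDy
  have e : Nat.card {t : Q // y * t.1 * y⁻¹ = t.1} = Nat.card {t : D // y * t.1 * y⁻¹ = t.1} := by
    refine Nat.card_congr ⟨fun t => ⟨⟨t.1.1, t.1.2, ?_⟩, t.2⟩, fun t => ⟨⟨t.1.1, hDQ t.1.2⟩, t.2⟩,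
      fun _ => rfl, fun _ => rfl⟩
    rw [t.2, inv_mul_cancel]
    exact R.one_mem
  rw [e] at h1
  have hmod : Nat.card Q ≡ Nat.card D [MOD 5] := h1.trans h2.symm
  have hcQ := card_eq_relIndex_mul hDQ
  rw [hcQ] at hmod
  have hDp : IsPGroup 2 D := hQ.to_le hDQ
  obtain ⟨d, hd⟩ := IsPGroup.iff_card.1 hDp
  obtain ⟨q, hq⟩ := IsPGroup.iff_card.1 hQ
  have hi : D.relIndex Q ≡ 1 [MOD 5] := by
    have h5 : Nat.gcd 5 (Nat.card D) = 1 := by
      rw [hd]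
      exact Nat.Coprime.pow_right d (by norm_num)
    have h6 : D.relIndex Q * Nat.card D ≡ 1 * Nat.card D [MOD 5] := by
      rw [one_mul]
      exact hmod
    exact Nat.ModEq.cancel_right_of_coprime h5 h6
  have hdiv : D.relIndex Q ∣ 2 ^ q := by
    rw [← hq, hcQ]
    exact Nat.dvd_mul_right _ _
  obtain ⟨j, _, hj⟩ := (Nat.dvd_prime_pow Nat.prime_two).1 hdiv
  have hmul := Subgroup.relIndex_mul_relIndex R D Q hRD hDQ
  have hRDpos : 0 < R.relIndex D := by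
    have := card_eq_relIndex_mul hRD
    have h7 : 0 < Nat.card D := Nat.card_pos
    rcases Nat.eq_zero_or_pos (R.relIndex D) with h8 | h8
    · rw [h8] at this
      omega
    · exact h8
  have hle16 : D.relIndex Q ≤ 16 := by
    calc D.relIndex Q ≤ R.relIndex D * D.relIndex Q := Nat.le_mul_of_pos_left _ hRDpos
      _ = R.relIndex Q := hmul
      _ ≤ 16 := hidx
  have hj4 : j ≤ 4 := by
    by_contra hlt
    push Not at hlt
    have : 2 ^ 5 ≤ 2 ^ j := Nat.pow_le_pow_right (by norm_num) hlt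
    rw [hj] at hle16
    omega
  have hi' : D.relIndex Q % 5 = 1 := hi
  rw [hj] at hi'
  have hcase : D.relIndex Q = 1 ∨ D.relIndex Q = 16 := by
    rw [hj]
    interval_cases j <;> simp_all
  rcases hcase with h1' | h16
  · left
    intro u hu
    exact (Subgroup.relIndex_eq_one.1 h1' hu).2
  · right
    rw [h16] at hmul
    have hRD1 : R.relIndex D = 1 := by omega
    have hDR : D ≤ R := Subgroup.relIndex_eq_one.1 hRD1
    have hRidx : R.relIndex Q = 16 := by omega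
    refine ⟨?_, fun u hu h => hDR ⟨hu, h⟩⟩
    rw [card_eq_relIndex_mul hRQ, hRidx]

/-- An element of order three modulo `Q` acts nontrivially on `Q / sqS Q`. -/
theorem x_nontrivial {Q : Subgroup X} [hQn : Q.Normal] (hQ : IsPGroup 2 Q)
    (hC : Subgroup.centralizer (Q : Set X) ≤ Q) {x₀ : X} (hx3 : x₀ * x₀ * x₀ ∈ Q) (hx : x₀ ∉ Q) :
    ∃ u ∈ Q, u⁻¹ * (x₀ * u * x₀⁻¹) ∉ sqS Q := by
  by_contra hno
  push Not at hno
  have hx3' : x₀ ^ 3 ∈ Q := by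
    have : x₀ ^ 3 = x₀ * x₀ * x₀ := by simp only [pow_succ, pow_zero, one_mul]
    rw [this]
    exact hx3
  obtain ⟨x₁, h1, h2⟩ := exists_prime_part hQ 3 (by norm_num) (by norm_num) hx3'
  have : Fact (Nat.Prime 3) := ⟨by norm_num⟩
  have hRn := sqS_normal Q
  have hfix := burnside_sq 3 (by norm_num) h1 hQ (fun t ht => hQn.conj_mem t ht x₁) (by
    intro u hu
    obtain ⟨q, hq, rfl⟩ : ∃ q ∈ Q, x₁ = x₀ * q := ⟨_, h2, by group⟩
    have e : u⁻¹ * (x₀ * q * u * (x₀ * q)⁻¹) =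
        (u⁻¹ * (x₀ * u * x₀⁻¹)) * (x₀ * ⁅u⁻¹, q⁆ * x₀⁻¹) := by
      simp only [commutatorElement_def]
      group
    rw [e]
    refine Subgroup.mul_mem _ (hno u hu) (hRn.conj_mem _ ?_ x₀)
    exact comm_mem_of_sq (fun v _ r hr => hRn.conj_mem r hr v) (fun v hv => sq_mem_sqS hv)
      (Q.inv_mem hu) hq)
  have hmem : x₁ ∈ Q := by
    apply hC
    rw [Subgroup.mem_centralizer_iff]
    intro u hu
    have h3 := hfix u hu
    calc u * x₁ = (x₁ * u * x₁⁻¹) * x₁ := by rw [h3]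
      _ = x₁ * u := by group
  have h1' := eq_one_of_coprime_pow hQ hmem (by norm_num) h1
  rw [h1', mul_one] at h2
  exact hx (by simpa using Q.inv_mem h2)

section Descent

variable {N : Subgroup X} [hNn : N.Normal]

theorem mem_of_map {T : Subgroup X} (hN : N ≤ T) {w : X}
    (h : QuotientGroup.mk' N w ∈ T.map (QuotientGroup.mk' N)) : w ∈ T := by
  obtain ⟨t, ht, e⟩ := h
  have h1 : t⁻¹ * w ∈ N := QuotientGroup.eq.1 e
  have := T.mul_mem ht (hN h1)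
  simpa using this

theorem relIndex_map {S T : Subgroup X} (hT : N ≤ T) (hS : N ≤ S) :
    (T.map (QuotientGroup.mk' N)).relIndex (S.map (QuotientGroup.mk' N)) = T.relIndex S := by
  rw [Subgroup.relIndex_map_map, QuotientGroup.ker_mk', sup_eq_left.2 hT, sup_eq_left.2 hS]

theorem yact_desc {Q R : Subgroup X} {y : X} (V : YAct Q R y) (hN : N ≤ R) :
    YAct (Q.map (QuotientGroup.mk' N)) (R.map (QuotientGroup.mk' N)) (QuotientGroup.mk' N y) := by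
  have hidx : R.relIndex Q = 16 := by
    have h1 := card_eq_relIndex_mul V.le
    rw [V.hcard] at h1
    have h4 : 0 < Nat.card R := Nat.card_pos
    exact (Nat.eq_of_mul_eq_mul_right h4 h1).symm
  refine ⟨Subgroup.map_mono V.le, V.hP.map _, ?_, ?_, ?_, ?_, ?_⟩
  · rintro _ ⟨u, hu, rfl⟩
    rw [← map_inv, ← map_mul, ← map_mul]
    exact Subgroup.mem_map_of_mem _ (V.yP u hu)
  · rintro _ ⟨u, hu, rfl⟩
    rw [← map_inv, ← map_mul, ← map_mul]
    exact Subgroup.mem_map_of_mem _ (V.yR u hu)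
  · rw [← map_pow, V.y5, map_one]
  · rw [card_eq_relIndex_mul (Subgroup.map_mono V.le), relIndex_map hN (hN.trans V.le), hidx]
  · rintro _ ⟨u, hu, rfl⟩ h
    rw [← map_inv, ← map_inv, ← map_mul, ← map_mul, ← map_mul] at h
    exact Subgroup.mem_map_of_mem _ (V.fpf u hu (mem_of_map hN h))

theorem cl2_desc {Q R : Subgroup X} (hRQ : R ≤ Q) (hcomm : ∀ r ∈ R, ∀ u ∈ Q, ⁅r, u⁆ ∈ N)
    (hsq : ∀ r ∈ R, r ^ 2 ∈ N) (hQR : ∀ u ∈ Q, u ^ 2 ∈ R) :
    Cl2 (Q.map (QuotientGroup.mk' N)) (R.map (QuotientGroup.mk' N)) := by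
  refine ⟨Subgroup.map_mono hRQ, ?_, ?_, ?_⟩
  · rintro _ ⟨r, hr, rfl⟩ _ ⟨u, hu, rfl⟩
    rw [← commutatorElement_eq_one_iff_mul_comm, ← map_commutatorElement]
    exact (QuotientGroup.eq_one_iff _).2 (hcomm r hr u hu)
  · rintro _ ⟨r, hr, rfl⟩
    rw [← map_pow]
    exact (QuotientGroup.eq_one_iff _).2 (hsq r hr)
  · rintro _ ⟨u, hu, rfl⟩
    rw [← map_pow]
    exact Subgroup.mem_map_of_mem _ (hQR u hu)

end Descent

/-- The main theorem in terms of elements. -/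
theorem main_core {Q : Subgroup X} [hQn : Q.Normal] (hQ : IsPGroup 2 Q)
    (hC : Subgroup.centralizer (Q : Set X) ≤ Q) (hB : SqBound 4 X) {y c₁ c₂ g : X}
    (hy5 : y ^ 5 = 1) (hyQ : y ∉ Q) (hc1 : c₁ * c₁ ∈ Q) (hc2 : c₂ * c₂ ∈ Q)
    (hcy : y⁻¹ * (c₁ * c₂) ∈ Q)
    (hx3 : (y * (g * y * g⁻¹)) * (y * (g * y * g⁻¹)) * (y * (g * y * g⁻¹)) ∈ Q)
    (hx : (y * (g * y * g⁻¹)) ∉ Q) :
    ((∀ u ∈ Q, u ^ 2 = 1) ∧ Nat.card Q = 16) ∨
      (Nat.card Q = 32 ∧ ∃ A B : Subgroup ↥Q, Nonempty (↥A ≃* QuaternionGroup 2) ∧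
        Nonempty (↥B ≃* DihedralGroup 4) ∧ (∀ a ∈ A, ∀ b ∈ B, a * b = b * a) ∧
        A ⊔ B = ⊤ ∧ A ⊓ B = Subgroup.center ↥Q) := by
  have : Fact (Nat.Prime 5) := ⟨by norm_num⟩
  have hRn : (sqS Q).Normal := sqS_normal Q
  obtain ⟨R, hRdef⟩ : ∃ R, R = sqS Q := ⟨_, rfl⟩
  rw [← hRdef] at hRn
  have hRQ : R ≤ Q := hRdef ▸ sqS_le_self Q
  have hsqQ : ∀ u ∈ Q, u ^ 2 ∈ R := fun u hu => hRdef ▸ sq_mem_sqS hu
  have hyQ' : ∀ u ∈ Q, y * u * y⁻¹ ∈ Q := fun u hu => hQn.conj_mem u hu y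
  have hyR' : ∀ r ∈ R, y * r * y⁻¹ ∈ R := fun u hu => hRn.conj_mem u hu y
  have hidx : R.relIndex Q ≤ 16 := by
    have := hB Q R hRQ hsqQ
    simpa using this
  have hfpf := fpf_or hQ hRQ hyQ' hyR' (fun u _ r hr => hRn.conj_mem r hr u) hy5 hidx
  rcases hfpf with hall | ⟨hcard, hfpf⟩
  · exfalso
    have h1 := burnside_sq 5 (by norm_num) hy5 hQ hyQ' (hRdef ▸ hall)
    apply hyQ
    apply hC
    rw [Subgroup.mem_centralizer_iff]
    intro u hu
    have h3 := h1 u hu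
    calc u * y = (y * u * y⁻¹) * y := by rw [h3]
      _ = y * u := by group
  have V : YAct Q R y := ⟨hRQ, hQ, hyQ', hyR', hy5, hcard, hfpf⟩
  obtain ⟨u₀, hu₀, hu₀n⟩ := x_nontrivial hQ hC hx3 hx
  rw [← hRdef] at hu₀n
  obtain ⟨R₁, hR₁def⟩ : ∃ R₁, R₁ = ⁅R, Q⁆ ⊔ sqS R := ⟨_, rfl⟩
  have hR₁n : R₁.Normal := by
    rw [hR₁def]
    have := sqS_normal R
    exact Subgroup.sup_normal _ _
  have hR₁R : R₁ ≤ R := by
    rw [hR₁def]
    exact sup_le (Subgroup.commutator_le_left R Q) (sqS_le_self R)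
  have hcomm₁ : ∀ r ∈ R, ∀ u ∈ Q, ⁅r, u⁆ ∈ R₁ := fun r hr u hu => by
    rw [hR₁def]
    exact Subgroup.mem_sup_left (Subgroup.commutator_mem_commutator hr hu)
  have hsq₁ : ∀ r ∈ R, r ^ 2 ∈ R₁ := fun r hr => by
    rw [hR₁def]
    exact Subgroup.mem_sup_right (sq_mem_sqS hr)
  have hπ₁ := QuotientGroup.mk'_surjective R₁
  have cl₁ := cl2_desc (N := R₁) hRQ hcomm₁ hsq₁ hsqQ
  have V₁ := yact_desc (N := R₁) V hR₁R
  have hRs₁ : R.map (QuotientGroup.mk' R₁) ≤ sqS (Q.map (QuotientGroup.mk' R₁)) := by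
    rw [hRdef, map_sqS]
  have hP₁n : (Q.map (QuotientGroup.mk' R₁)).Normal := Subgroup.Normal.map hQn _ hπ₁
  have hR'₁n : (R.map (QuotientGroup.mk' R₁)).Normal := Subgroup.Normal.map hRn _ hπ₁
  have hlevel := level_one (g := QuotientGroup.mk' R₁ g) (c₁ := QuotientGroup.mk' R₁ c₁)
    (c₂ := QuotientGroup.mk' R₁ c₂) cl₁ V₁ hRs₁ (hB.of_surjective _ hπ₁)
    (by simpa only [map_mul] using Subgroup.mem_map_of_mem (QuotientGroup.mk' R₁) hc1)
    (by simpa only [map_mul] using Subgroup.mem_map_of_mem (QuotientGroup.mk' R₁) hc2)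
    (by simpa only [map_mul, map_inv] using Subgroup.mem_map_of_mem (QuotientGroup.mk' R₁) hcy)
    (by simpa only [map_mul, map_inv] using Subgroup.mem_map_of_mem (QuotientGroup.mk' R₁) hx3)
    ⟨_, Subgroup.mem_map_of_mem _ hu₀, fun hm => hu₀n (mem_of_map hR₁R (by
      simpa only [map_mul, map_inv] using hm))⟩
  obtain ⟨hle2, hnc⟩ := hlevel
  have hcardR : Nat.card (R.map (QuotientGroup.mk' R₁)) = R₁.relIndex R := by
    rw [← Subgroup.relIndex_ker, QuotientGroup.ker_mk']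
  rw [hcardR] at hle2 hnc
  by_cases hRR₁ : R ≤ R₁
  · left
    have hbot : R = ⊥ := by
      by_contra hne
      refine lower_ne hQ hRQ (fun u _ r hr => hRn.conj_mem r hr u) hne ?_
      rw [← hR₁def]
      exact le_antisymm hR₁R hRR₁
    refine ⟨fun u hu => ?_, ?_⟩
    · have := hsqQ u hu
      rw [hbot] at this
      simpa using this
    · rw [hcard, hbot]
      simp
  · have hne1 : R₁.relIndex R ≠ 1 := fun h => hRR₁ (Subgroup.relIndex_eq_one.1 h)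
    have hpos : 0 < R₁.relIndex R := by
      have := card_eq_relIndex_mul hR₁R
      have h7 : 0 < Nat.card R := Nat.card_pos
      rcases Nat.eq_zero_or_pos (R₁.relIndex R) with h8 | h8
      · rw [h8] at this
        omega
      · exact h8
    have hi2 : R₁.relIndex R = 2 := by omega
    obtain ⟨_, ⟨g₀, hg₀, rfl⟩, _, ⟨h₀, hh₀, rfl⟩, hne⟩ := hnc hi2
    have hne₀ : ⁅g₀, h₀⁆ ∉ R₁ := by
      intro hm
      apply hne
      rw [← map_commutatorElement]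
      exact (QuotientGroup.eq_one_iff _).2 hm
    by_cases hR₁0 : R₁ = ⊥
    · right
      have hR2 : Nat.card R = 2 := by
        rw [hR₁0, Subgroup.relIndex_bot_left] at hi2
        exact hi2
      have hQ32 : Nat.card Q = 32 := by rw [hcard, hR2]
      refine ⟨hQ32, ?_⟩
      have cl : Cl2 Q R := by
        refine ⟨hRQ, ?_, ?_, hsqQ⟩
        · intro r hr u hu
          have h1 := hcomm₁ r hr u hu
          rw [hR₁0, Subgroup.mem_bot] at h1
          exact commutatorElement_eq_one_iff_mul_comm.1 h1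
        · intro r hr
          have h1 := hsq₁ r hr
          rw [hR₁0, Subgroup.mem_bot] at h1
          exact h1
      have hW : (⊥ : Subgroup X).relIndex R = 2 := by rw [Subgroup.relIndex_bot_left, hR2]
      have triv : ∀ r ∈ R, y * r * y⁻¹ = r := by
        intro r hr
        by_cases hr1 : r = 1
        · rw [hr1]
          group
        · have hr2 : y * r * y⁻¹ ≠ 1 := by
            intro h0
            apply hr1
            have : r = y⁻¹ * (y * r * y⁻¹) * y := by group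
            rw [this, h0]
            group
          have h2 := coset_two hW hr (hyR' r hr) (by simpa using hr1) (by simpa using hr2)
          have h3 : r⁻¹ * (y * r * y⁻¹) = 1 := by simpa using h2
          exact (eq_of_inv_mul_eq_one h3).symm
      have hex : ∃ v ∈ Q, v ∉ R := by
        by_contra hno
        push Not at hno
        have := Subgroup.card_le_of_le hno
        omega
      obtain ⟨v, hv, hvR⟩ := hex
      exact pattern (y := y) (v := v) ⟨cl, V, triv, hv, hvR⟩ hR2 (hRdef ▸ le_rfl) hQ32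
    · exfalso
      obtain ⟨R₂, hR₂def⟩ : ∃ R₂, R₂ = ⁅R₁, Q⁆ ⊔ sqS R₁ := ⟨_, rfl⟩
      have hR₂n : R₂.Normal := by
        rw [hR₂def]
        have := sqS_normal R₁
        exact Subgroup.sup_normal _ _
      have hR₂R₁ : R₂ ≤ R₁ := by
        rw [hR₂def]
        exact sup_le (Subgroup.commutator_le_left R₁ Q) (sqS_le_self R₁)
      have hne₂ : R₂ ≠ R₁ := by
        rw [hR₂def]
        exact lower_ne hQ (hR₁R.trans hRQ) (fun u _ r hr => hR₁n.conj_mem r hr u) hR₁0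
      have hρ := QuotientGroup.mk'_surjective R₂
      have hcomm₂ : ∀ r ∈ R₁, ∀ u ∈ Q, ⁅r, u⁆ ∈ R₂ := fun r hr u hu => by
        rw [hR₂def]
        exact Subgroup.mem_sup_left (Subgroup.commutator_mem_commutator hr hu)
      have hsq₂ : ∀ r ∈ R₁, r ^ 2 ∈ R₂ := fun r hr => by
        rw [hR₂def]
        exact Subgroup.mem_sup_right (sq_mem_sqS hr)
      have h₁ : (Q.map (QuotientGroup.mk' R₂)).Normal := Subgroup.Normal.map hQn _ hρ
      have h₂ : (R.map (QuotientGroup.mk' R₂)).Normal := Subgroup.Normal.map hRn _ hρ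
      have h₃ : (R₁.map (QuotientGroup.mk' R₂)).Normal := Subgroup.Normal.map hR₁n _ hρ
      refine level_two (P := Q.map (QuotientGroup.mk' R₂)) (R := R.map (QuotientGroup.mk' R₂))
        (W := R₁.map (QuotientGroup.mk' R₂)) (yact_desc V (hR₂R₁.trans hR₁R))
        (Subgroup.map_mono hR₁R) ?_ ?_ ?_ ?_ ?_ ?_ ?_ ?_ ?_ (hB.of_surjective _ hρ)
      · rw [relIndex_map hR₂R₁ (hR₂R₁.trans hR₁R), hi2]
      · intro h0
        rw [Subgroup.map_eq_bot_iff, QuotientGroup.ker_mk'] at h0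
        exact hne₂ (le_antisymm hR₂R₁ h0)
      · rintro _ ⟨u, hu, rfl⟩
        rw [← map_pow]
        exact Subgroup.mem_map_of_mem _ (hsqQ u hu)
      · rintro _ ⟨r, hr, rfl⟩ _ ⟨u, hu, rfl⟩
        rw [← map_commutatorElement]
        exact Subgroup.mem_map_of_mem _ (hcomm₁ r hr u hu)
      · rintro _ ⟨r, hr, rfl⟩
        rw [← map_pow]
        exact Subgroup.mem_map_of_mem _ (hsq₁ r hr)
      · rintro _ ⟨w, hw, rfl⟩ _ ⟨u, hu, rfl⟩
        rw [← commutatorElement_eq_one_iff_mul_comm, ← map_commutatorElement]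
        exact (QuotientGroup.eq_one_iff _).2 (hcomm₂ w hw u hu)
      · rintro _ ⟨w, hw, rfl⟩
        rw [← map_pow]
        exact (QuotientGroup.eq_one_iff _).2 (hsq₂ w hw)
      · intro W₀ h1 h2
        rw [Subgroup.map_le_iff_le_comap, hR₁def]
        refine sup_le ?_ (sqS_le fun r hr => ?_)
        · rw [Subgroup.commutator_le]
          intro r hr u hu
          rw [Subgroup.mem_comap, map_commutatorElement]
          exact h1 _ (Subgroup.mem_map_of_mem _ hr) _ (Subgroup.mem_map_of_mem _ hu)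
        · rw [Subgroup.mem_comap, map_pow]
          exact h2 _ (Subgroup.mem_map_of_mem _ hr)
      · refine ⟨_, Subgroup.mem_map_of_mem _ hg₀, _, Subgroup.mem_map_of_mem _ hh₀, fun hm => ?_⟩
        rw [← map_commutatorElement] at hm
        exact hne₀ (mem_of_map hR₂R₁ hm)

end Cfsg.Agent.Lib.SecA5Main
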