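import Mathlib
import Cfsg.Agent.Lib.Seven1

/-!
# The centralizer of `x7` in `Co0` acts on the fixed classes modulo two. No element of `M24` inverts the permutation.
-/

set_option autoImplicit false
set_option maxRecDepth 100000

open Cfsg Cfsg.Agent.Lib.Leech Cfsg.Agent.Lib.Co0Mono Cfsg.Agent.Lib.Co0Frame
open Cfsg.Agent.Lib.SevenData Cfsg.Agent.Lib.CoVec Cfsg.Agent.Lib.MonsterSplit Cfsg.Agent.Lib.Seven1
open Cfsg.Agent.Lib.Golay (idx pt idx_pt pt_idx idx_lt idxL mem_idxL ap bit bit_eq ofMask mem_ofMask toMask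
  decode idx_decode isM24 decode_mem_M24 isM24_valid reduce)

namespace Cfsg.Agent.Lib.Seven2

/-! ### The action on numbers -/

/-- The centralizer of `x7`. -/
abbrev C7 : Subgroup Co0 := Subgroup.centralizer ({x7} : Set Co0)

theorem mem_C7 {g : Co0} : g ∈ C7 ↔ g * x7 = x7 * g := Subgroup.mem_centralizer_singleton_iff

theorem fix_map {g : Co0} (hg : g ∈ C7) {v : leechLattice} (hv : FixCl x7 v) :
    FixCl x7 ((g : Equiv.Perm leechLattice) v) := by
  obtain ⟨u, hu⟩ := hv
  refine ⟨(g : Equiv.Perm leechLattice) u, ?_⟩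
  have h1 : (x7 : Equiv.Perm leechLattice) ((g : Equiv.Perm leechLattice) v) = (g : Equiv.Perm leechLattice) ((x7 : Equiv.Perm leechLattice) v) := by
    have := congrArg (fun k : Co0 => (k : Equiv.Perm leechLattice) v) (mem_C7.1 hg)
    exact this.symm
  rw [h1, hu, co0_add, co0_add]

/-- The action on numbers. -/
noncomputable def A (g : Co0) (a : ℕ) : ℕ := cc ((g : Equiv.Perm leechLattice) (M a) : leechLattice)

theorem A_lt (g : Co0) (a : ℕ) : A g a < 64 := cc_lt _

/-- Vectors of length `64` have numbers of frames. -/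
theorem nt_of_norm {v : leechLattice} (hv : FixCl x7 v) (h64 : sqNorm (v : GolayPt → ℤ) = 64) :
    nt (cc (v : GolayPt → ℤ)) = 64 := by
  obtain ⟨u, hu⟩ := exists_cong_M hv
  set b := cc (v : GolayPt → ℤ) with hb
  have h1 := sqNorm_M b
  have h2 : (nt b : ℤ) ≤ 64 := by
    rcases nt_cases b with h | h | h | h <;> (rw [h]; norm_num)
  have h3 : (v : GolayPt → ℤ) - (M b : GolayPt → ℤ) = (2 : ℕ) • (u : GolayPt → ℤ) := by
    rw [hu, two_nsmul]
    simp only [AddSubgroup.coe_add]
    abel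
  rcases Cfsg.Agent.Lib.LeechCong.cong_main (M b).2 u.2 (by omega) (by omega) h3 with h4 | h4 | h4
  · rw [h4, h1] at h64
    exact_mod_cast h64
  · rw [h4, Cfsg.Agent.Lib.LeechCong.sqNorm_neg, h1] at h64
    exact_mod_cast h64
  · rw [h1] at h4
    exact_mod_cast h4.2.1

theorem A_norm {g : Co0} (hg : g ∈ C7) {a : ℕ} (h : a < 64) (h64 : nt a = 64) : nt (A g a) = 64 := by
  apply nt_of_norm (fix_map hg (fixCl_M h))
  rw [g.2.2, sqNorm_M, h64]
  rfl

/-- Two vectors with the same number are congruent. -/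
theorem cong_of_cc {v w : leechLattice} (hv : FixCl x7 v) (hw : FixCl x7 w)
    (h : cc (v : GolayPt → ℤ) = cc (w : GolayPt → ℤ)) : ∃ u : leechLattice, v = w + (u + u) := by
  obtain ⟨a, ha⟩ := exists_cong_M hv
  obtain ⟨b, hb⟩ := exists_cong_M hw
  rw [h] at ha
  refine ⟨a - b, ?_⟩
  have e : w + ((a - b) + (a - b)) = (w - (b + b)) + (a + a) := by abel
  rw [e]
  have e2 : w - (b + b) = M (cc (w : GolayPt → ℤ)) := by
    conv_lhs => rw [hb]
    abel
  rw [e2]
  exact ha

theorem A_xor {g : Co0} {a b : ℕ} (ha : a < 64) (hb : b < 64) : A g (a ^^^ b) = A g a ^^^ A g b := by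
  have hab : a ^^^ b < 64 := by
    have := Nat.xor_lt_two_pow (n := 6) ha hb
    simpa using this
  have h1 : FixCl x7 (M a + M b) := by
    obtain ⟨u, hu⟩ := fixCl_M ha
    obtain ⟨u', hu'⟩ := fixCl_M hb
    refine ⟨u + u', ?_⟩
    have e : (x7 : Equiv.Perm leechLattice) (M a + M b) = (x7 : Equiv.Perm leechLattice) (M a) + (x7 : Equiv.Perm leechLattice) (M b) := x7.2.1 _ _
    rw [e, hu, hu']
    abel
  have h2 : cc ((M a + M b : leechLattice) : GolayPt → ℤ) = cc (M (a ^^^ b) : GolayPt → ℤ) := by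
    rw [cc_add, cc_M ha, cc_M hb, cc_M hab]
  obtain ⟨u, hu⟩ := cong_of_cc h1 (fixCl_M hab) h2
  have h3 : (g : Equiv.Perm leechLattice) (M a) + (g : Equiv.Perm leechLattice) (M b) =
      (g : Equiv.Perm leechLattice) (M (a ^^^ b)) + ((g : Equiv.Perm leechLattice) u + (g : Equiv.Perm leechLattice) u) := by
    rw [← co0_add, ← co0_add, ← co0_add, hu]
  unfold A
  have h4 := congrArg (fun v : leechLattice => cc (v : GolayPt → ℤ)) h3
  simp only [cc_add] at h4
  rw [h4, Nat.xor_self, Nat.xor_zero]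

theorem A_mul {g h : Co0} (hh : h ∈ C7) {a : ℕ} (ha : a < 64) : A (g * h) a = A g (A h a) := by
  have h1 := fix_map hh (fixCl_M ha)
  have h2 : cc ((h : Equiv.Perm leechLattice) (M a) : leechLattice) = cc (M (A h a) : GolayPt → ℤ) := by
    rw [cc_M (A_lt h a)]
    rfl
  obtain ⟨u, hu⟩ := cong_of_cc h1 (fixCl_M (A_lt h a)) h2
  show cc ((g : Equiv.Perm leechLattice) ((h : Equiv.Perm leechLattice) (M a)) : leechLattice) = _
  rw [hu, co0_add, co0_add, cc_congr]
  rfl

theorem A_one {a : ℕ} (ha : a < 64) : A 1 a = a := cc_M ha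

theorem A_zero (g : Co0) : A g 0 = 0 := by
  have := A_xor (g := g) (a := 0) (b := 0) (by norm_num) (by norm_num)
  rw [Nat.xor_self, Nat.xor_self] at this
  simpa using this

theorem A_inv {g : Co0} (hg : g ∈ C7) {a : ℕ} (ha : a < 64) : A g⁻¹ (A g a) = a := by
  rw [← A_mul hg ha, inv_mul_cancel, A_one ha]

theorem A_inj {g : Co0} (hg : g ∈ C7) {a b : ℕ} (ha : a < 64) (hb : b < 64) (h : A g a = A g b) : a = b := by
  rw [← A_inv hg ha, h, A_inv hg hb]

/-! ### The pigeonhole argument -/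

/-- The permutation `ξ ^ 5` of the numbers. -/
def a5L : List ℕ := idxL.map fun i => ap c7 (ap c7 (ap c7 (ap c7 (ap c7 i))))

/-- The permutation `ξ ^ 4` of the numbers. -/
def a4L : List ℕ := idxL.map fun i => ap c7 (ap c7 (ap c7 (ap c7 i)))

/-- The value of the test on a mask. -/
def tvM (m i : ℕ) : Bool := xor (m.testBit i) (xor (m.testBit (a5L.getD i 0)) (m.testBit (a4L.getD i 0)))

/-- The test on a mask. -/
def constB (m : ℕ) : Bool := idxL.all fun i => tvM m i == tvM m 0

/-- The normal form of a class modulo the complement. -/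
def nrm (m : ℕ) : ℕ := Nat.min m (Nat.xor m 16777215)

theorem tgt_tab : Cfsg.Agent.Lib.Golay.codeL.all (fun m => !(constB m) || tgtL.contains (nrm m)) = true := by
  decide +kernel

theorem a5L_eq : ∀ i < 24, a5L.getD i 0 = ap c7 (ap c7 (ap c7 (ap c7 (ap c7 i)))) := by decide +kernel

theorem a4L_eq : ∀ i < 24, a4L.getD i 0 = ap c7 (ap c7 (ap c7 (ap c7 i))) := by decide +kernel

/-- The test on sets, for the image under `ξ ^ 2` and `ξ ^ 3`. -/
noncomputable def tv (d : Finset GolayPt) (p : GolayPt) : Bool :=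
  xor (decide (p ∈ d)) (xor (decide (xi7 (xi7 (xi7 (xi7 (xi7 p)))) ∈ d)) (decide (xi7 (xi7 (xi7 (xi7 p))) ∈ d)))

/-- The test on sets, for the image under the inverses of `ξ ^ 2` and `ξ ^ 3`. -/
noncomputable def sv (c : Finset GolayPt) (p : GolayPt) : Bool :=
  xor (decide (p ∈ c)) (xor (decide (xi7 (xi7 p) ∈ c)) (decide (xi7 (xi7 (xi7 p)) ∈ c)))

theorem tvM_toMask (d : Finset GolayPt) (p : GolayPt) : tvM (toMask d) (idx p) = tv d p := by
  unfold tvM tv
  rw [a5L_eq _ (idx_lt p), a4L_eq _ (idx_lt p)]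
  simp only [← idx_xi7, Cfsg.Agent.Lib.Golay.testBit_toMask]

/-- The pigeonhole argument. -/
theorem pigeon {ι : Type*} [Fintype ι] (hι : 8 < Fintype.card ι) (F : ι → Finset GolayPt) (hc : ∀ i, F i ∈ codeSets)
    (hT : ∀ i p q, tv (F i) p = tv (F i) q) :
    ∃ i j, i ≠ j ∧ (F i = F j ∨ ∀ p, p ∈ F i ↔ p ∉ F j) := by
  classical
  have hmem : ∀ i, nrm (toMask (F i)) ∈ tgtL := by
    intro i
    have h1 : toMask (F i) ∈ Cfsg.Agent.Lib.Golay.codeL :=
      (Cfsg.Agent.Lib.Golay.mem_codeL_iff (Cfsg.Agent.Lib.Golay.toMask_lt _)).2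
        ((Cfsg.Agent.Lib.Golay.mem_supports_iff _).1 (hc i))
    have h2 := (List.all_eq_true.1 tgt_tab) _ h1
    have h3 : constB (toMask (F i)) = true := by
      refine List.all_eq_true.2 fun k hk => ?_
      have hk' := mem_idxL.1 hk
      have e1 : k = idx (pt k) := (idx_pt hk').symm
      have e0 : (0 : ℕ) = idx (pt 0) := (idx_pt (by norm_num)).symm
      rw [e1, e0, tvM_toMask, tvM_toMask, hT i (pt k) (pt 0)]
      simp
    rw [h3] at h2
    simpa using h2
  let f : ι → ↥(tgtL.toFinset) := fun i => ⟨nrm (toMask (F i)), List.mem_toFinset.2 (hmem i)⟩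
  have hcard : Fintype.card ↥(tgtL.toFinset) ≤ 8 := by
    rw [Fintype.card_coe]
    decide +kernel
  obtain ⟨i, j, hij, hf⟩ := Fintype.exists_ne_map_eq_of_card_lt f (by omega)
  refine ⟨i, j, hij, ?_⟩
  have h1 : nrm (toMask (F i)) = nrm (toMask (F j)) := congrArg Subtype.val hf
  set a := toMask (F i) with ha
  set b := toMask (F j) with hb
  have hxx : ∀ m : ℕ, Nat.xor (Nat.xor m 16777215) 16777215 = m := by
    intro m
    show ((m ^^^ 16777215) ^^^ 16777215) = m
    rw [Nat.xor_assoc, Nat.xor_self, Nat.xor_zero]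
  have hcases : a = b ∨ a = Nat.xor b 16777215 := by
    have ea : ∀ m : ℕ, nrm m = m ∨ nrm m = Nat.xor m 16777215 := fun m => min_choice _ _
    rcases ea a with e1 | e1 <;> rcases ea b with e2 | e2 <;> rw [e1, e2] at h1
    · exact Or.inl h1
    · exact Or.inr h1
    · right
      rw [← h1, hxx]
    · left
      rw [← hxx a, h1, hxx]
  rcases hcases with h2 | h2
  · left
    exact Cfsg.Agent.Lib.Golay.toMask_injective h2
  · right
    intro p
    have h3 := congrArg (fun m => m.testBit (idx p)) h2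
    have h4 : (16777215 : ℕ).testBit (idx p) = true := by
      have := idx_lt p
      interval_cases h : idx p <;> decide
    simp only [ha, hb, Cfsg.Agent.Lib.Golay.testBit_toMask, Cfsg.Agent.Lib.Golay.testBit_xor', h4] at h3
    by_cases hp : p ∈ F i <;> by_cases hq : p ∈ F j <;> simp_all

/-- The source sets. -/
noncomputable def srcF (i : Fin 9) : Finset GolayPt := ofMask (srcL.getD i 0)

theorem src_lt : ∀ i : Fin 9, srcL.getD i 0 < 2 ^ 24 ∧ reduce (srcL.getD i 0) = 0 := by decide +kernel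

/-- The values of the test on the source sets. -/
theorem src_tab : ∀ i : Fin 9, ∀ k < 24, (xor ((srcL.getD i 0).testBit k)
    (xor ((srcL.getD i 0).testBit (ap c7 (ap c7 k))) ((srcL.getD i 0).testBit (ap c7 (ap c7 (ap c7 k)))))) =
    (xor ((srcL.getD i 0).testBit 0)
    (xor ((srcL.getD i 0).testBit (ap c7 (ap c7 0))) ((srcL.getD i 0).testBit (ap c7 (ap c7 (ap c7 0)))))) := by
  decide +kernel

theorem src_ne : ∀ i j : Fin 9, i ≠ j → srcL.getD i 0 ≠ srcL.getD j 0 ∧ srcL.getD i 0 ≠ Nat.xor (srcL.getD j 0) 16777215 := by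
  decide +kernel

theorem srcF_mem (i : Fin 9) : srcF i ∈ codeSets :=
  (Cfsg.Agent.Lib.Golay.ofMask_mem_supports_iff (src_lt i).1).2 (src_lt i).2

theorem sv_srcF (i : Fin 9) (p q : GolayPt) : sv (srcF i) p = sv (srcF i) q := by
  have h : ∀ r : GolayPt, sv (srcF i) r = sv (srcF i) (pt 0) := by
    intro r
    have h1 := src_tab i (idx r) (idx_lt r)
    have h2 : ∀ r : GolayPt, sv (srcF i) r = (xor ((srcL.getD i 0).testBit (idx r))
        (xor ((srcL.getD i 0).testBit (ap c7 (ap c7 (idx r)))) ((srcL.getD i 0).testBit (ap c7 (ap c7 (ap c7 (idx r))))))) := by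
      intro r
      unfold sv srcF
      simp only [mem_ofMask, idx_xi7, decide_eq_true_eq, Bool.decide_eq_true]
    rw [h2 r, h2 (pt 0), idx_pt (by norm_num)]
    exact h1
  rw [h p, h q]

theorem srcF_ne {i j : Fin 9} (hij : i ≠ j) : srcF i ≠ srcF j ∧ ¬ ∀ p, p ∈ srcF i ↔ p ∉ srcF j := by
  obtain ⟨h1, h2⟩ := src_ne i j hij
  constructor
  · intro h
    exact h1 (Cfsg.Agent.Lib.Golay.ofMask_injOn (src_lt i).1 (src_lt j).1 h)
  · intro h
    apply h2
    apply Cfsg.Agent.Lib.Golay.mask_ext (src_lt i).1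
    · exact Cfsg.Agent.Lib.Golay.lt_of_xor (src_lt j).1 (by norm_num)
    · intro p
      have h3 := h p
      rw [Cfsg.Agent.Lib.Golay.testBit_xor']
      have h4 : (16777215 : ℕ).testBit (idx p) = true := by
        have := idx_lt p
        interval_cases h : idx p <;> decide
      rw [h4]
      simp only [srcF, mem_ofMask] at h3
      cases h5 : (srcL.getD i 0).testBit (idx p) <;> cases h6 : (srcL.getD j 0).testBit (idx p) <;> simp_all

/-- The image of a set under an element inverting the permutation. -/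
theorem tv_image {σ : Equiv.Perm GolayPt} (h : ∀ p, xi7 (σ (xi7 p)) = σ p) (c : Finset GolayPt) (p : GolayPt) :
    tv (c.image σ) (σ p) = sv c p := by
  have h2 : xi7 (xi7 (xi7 (xi7 (xi7 (σ p))))) = σ (xi7 (xi7 p)) := by
    have e : σ p = xi7 (xi7 (σ (xi7 (xi7 p)))) := by
      rw [h (xi7 p), h p]
    rw [e]
    exact xi7_seven _
  have h3 : xi7 (xi7 (xi7 (xi7 (σ p)))) = σ (xi7 (xi7 (xi7 p))) := by
    have e : σ p = xi7 (xi7 (xi7 (σ (xi7 (xi7 (xi7 p)))))) := by
      rw [h (xi7 (xi7 p)), h (xi7 p), h p]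
    rw [e]
    exact xi7_seven _
  unfold tv sv
  rw [h2, h3]
  simp only [σ.injective.mem_finset_image]

/-- No element of `M24` inverts the permutation. -/
theorem no_invert {σ : Equiv.Perm GolayPt} (hσ : σ ∈ M24) (h : ∀ p, xi7 (σ (xi7 p)) = σ p) : False := by
  classical
  obtain ⟨i, j, hij, hc⟩ := pigeon (ι := Fin 9) (by simp) (fun i => (srcF i).image σ)
    (fun i => image_mem_codeSets hσ (srcF_mem i)) (by
      intro i p q
      obtain ⟨p', rfl⟩ := σ.surjective p
      obtain ⟨q', rfl⟩ := σ.surjective q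
      rw [tv_image h, tv_image h]
      exact sv_srcF i _ _)
  obtain ⟨h1, h2⟩ := srcF_ne hij
  rcases hc with hc | hc
  · exact h1 (Finset.image_injective σ.injective hc)
  · apply h2
    intro p
    have := hc (σ p)
    simpa only [σ.injective.mem_finset_image] using this

end Cfsg.Agent.Lib.Seven2
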