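import Mathlib
import Cfsg.Agent.Lib.Seven2
import Cfsg.Agent.Lib.Five3

/-!
# Explicit elements of the centralizer of `x7`, and an element inverting `x7`.

The elements of the centralizer do not interchange the two subspaces of frames.
-/

set_option autoImplicit false
set_option maxRecDepth 100000

open Cfsg Cfsg.Agent.Lib.Leech Cfsg.Agent.Lib.Co0Mono Cfsg.Agent.Lib.Co0Frame
open Cfsg.Agent.Lib.SevenData Cfsg.Agent.Lib.CoVec Cfsg.Agent.Lib.MonsterSplit Cfsg.Agent.Lib.Seven1
open Cfsg.Agent.Lib.Seven2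
open Cfsg.Agent.Lib.Five3 (co0_ext_e8 eN dec_eN eN_st)
open Cfsg.Agent.Lib.Golay (idx pt idx_pt pt_idx idx_lt idxL mem_idxL ap bit bit_eq ofMask mem_ofMask
  decode idx_decode isM24 decode_mem_M24 isM24_valid reduce)
open Cfsg.Agent.S0398 (e8 e8_apply toHom expand)

namespace Cfsg.Agent.Lib.Seven3

theorem x7_acts : ActsOn x7 (actPerm c7) := by
  rw [x7_eq]
  exact actPerm_acts c7_isM24

/-- The commutation can be checked on the frame. -/
theorem comm_of {g : Co0} {f : ℕ → ℕ} (hf : ActsOn g f)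
    (h : ∀ i < 24, f (actPerm c7 (eN i)) = actPerm c7 (f (eN i))) : g ∈ C7 := by
  rw [mem_C7]
  apply co0_ext_e8
  intro p
  have h1 := hf.mul x7_acts (eN (idx p)) (eN_st p)
  have h2 := x7_acts.mul hf (eN (idx p)) (eN_st p)
  apply Subtype.ext
  have e : (⟨dec (eN (idx p)), (eN_st p).2.1⟩ : leechLattice) = e8 p := Subtype.ext (dec_eN p)
  rw [e] at h1 h2
  rw [h1.2, h2.2]
  show dec (f (actPerm c7 (eN (idx p)))) = dec (actPerm c7 (f (eN (idx p))))
  rw [h _ (idx_lt p)]

/-- The number of the image of a vector. -/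
theorem A_of {g : Co0} {f : ℕ → ℕ} (hf : ActsOn g f) (a : ℕ) : A g a = ccN (f (tab a)) := by
  unfold A
  rw [← cc_dec, ← (hf (tab a) (tab_st a)).2]
  rfl

/-! ### Monomial elements -/

theorem gr_ok : isM24 grc = true ∧ Nat.blt grm (2 ^ 24) = true ∧ reduce grm = 0 := by decide +kernel

theorem gs_ok : isM24 gsc = true ∧ Nat.blt gsm (2 ^ 24) = true ∧ reduce gsm = 0 := by decide +kernel

theorem grm_lt : grm < 2 ^ 24 := by
  have := gr_ok.2.1
  simpa [Nat.blt_eq] using this

theorem gsm_lt : gsm < 2 ^ 24 := by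
  have := gs_ok.2.1
  simpa [Nat.blt_eq] using this

/-- A monomial element of order three on the frames. -/
noncomputable def gr : Co0 := monoCo0 (ofMask_mem_codeSets grm_lt gr_ok.2.2) (decode_mem_M24 gr_ok.1)

/-- A monomial element of order four on the frames. -/
noncomputable def gs : Co0 := monoCo0 (ofMask_mem_codeSets gsm_lt gs_ok.2.2) (decode_mem_M24 gs_ok.1)

theorem gr_acts : ActsOn gr (actMono grc grm) := actMono_spec gr_ok.1 grm_lt gr_ok.2.2

theorem gs_acts : ActsOn gs (actMono gsc gsm) := actMono_spec gs_ok.1 gsm_lt gs_ok.2.2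

theorem gr_mem : gr ∈ C7 := comm_of gr_acts (by decide +kernel)

theorem gs_mem : gs ∈ C7 := comm_of gs_acts (by decide +kernel)

/-! ### The element of order seven on the frames -/

theorem ga_ok : (isM24 gaca = true ∧ Nat.blt gama (2 ^ 24) = true ∧ reduce gama = 0) ∧
    (isM24 gacb = true ∧ Nat.blt gamb (2 ^ 24) = true ∧ reduce gamb = 0) ∧
    (isM24 gacc = true ∧ Nat.blt gamc (2 ^ 24) = true ∧ reduce gamc = 0) := by decide +kernel

theorem gama_lt : gama < 2 ^ 24 := by
  have := ga_ok.1.2.1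
  simpa [Nat.blt_eq] using this

theorem gamb_lt : gamb < 2 ^ 24 := by
  have := ga_ok.2.1.2.1
  simpa [Nat.blt_eq] using this

theorem gamc_lt : gamc < 2 ^ 24 := by
  have := ga_ok.2.2.2.1
  simpa [Nat.blt_eq] using this

/-- The element of order seven on the frames. -/
noncomputable def ga : Co0 :=
  monoCo0 (ofMask_mem_codeSets gama_lt ga_ok.1.2.2) (decode_mem_M24 ga_ok.1.1) * xiCo0 *
    monoCo0 (ofMask_mem_codeSets gamb_lt ga_ok.2.1.2.2) (decode_mem_M24 ga_ok.2.1.1) * xiCo0 *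
    monoCo0 (ofMask_mem_codeSets gamc_lt ga_ok.2.2.2.2) (decode_mem_M24 ga_ok.2.2.1)

/-- The action on codes. -/
def fa (n : ℕ) : ℕ := actMono gaca gama (actXi (actMono gacb gamb (actXi (actMono gacc gamc n))))

theorem ga_acts : ActsOn ga fa :=
  (((((actMono_spec ga_ok.1.1 gama_lt ga_ok.1.2.2).mul actXi_acts).mul
    (actMono_spec ga_ok.2.1.1 gamb_lt ga_ok.2.1.2.2)).mul actXi_acts).mul
    (actMono_spec ga_ok.2.2.1 gamc_lt ga_ok.2.2.2.2))

theorem ga_mem : ga ∈ C7 := comm_of ga_acts (by decide +kernel)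

/-! ### The element inverting `x7` -/

theorem gt_ok : (isM24 gtca = true ∧ Nat.blt gtma (2 ^ 24) = true ∧ reduce gtma = 0) ∧
    (isM24 gtcb = true ∧ Nat.blt gtmb (2 ^ 24) = true ∧ reduce gtmb = 0) ∧
    (isM24 gtcc = true ∧ Nat.blt gtmc (2 ^ 24) = true ∧ reduce gtmc = 0) := by decide +kernel

theorem gtma_lt : gtma < 2 ^ 24 := by
  have := gt_ok.1.2.1
  simpa [Nat.blt_eq] using this

theorem gtmb_lt : gtmb < 2 ^ 24 := by
  have := gt_ok.2.1.2.1
  simpa [Nat.blt_eq] using this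

theorem gtmc_lt : gtmc < 2 ^ 24 := by
  have := gt_ok.2.2.2.1
  simpa [Nat.blt_eq] using this

/-- The element inverting `x7`. -/
noncomputable def gt : Co0 :=
  monoCo0 (ofMask_mem_codeSets gtma_lt gt_ok.1.2.2) (decode_mem_M24 gt_ok.1.1) * xiCo0 *
    monoCo0 (ofMask_mem_codeSets gtmb_lt gt_ok.2.1.2.2) (decode_mem_M24 gt_ok.2.1.1) * xiCo0 *
    monoCo0 (ofMask_mem_codeSets gtmc_lt gt_ok.2.2.2.2) (decode_mem_M24 gt_ok.2.2.1)

/-- The action on codes. -/
def ft (n : ℕ) : ℕ := actMono gtca gtma (actXi (actMono gtcb gtmb (actXi (actMono gtcc gtmc n))))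

theorem gt_acts : ActsOn gt ft :=
  (((((actMono_spec gt_ok.1.1 gtma_lt gt_ok.1.2.2).mul actXi_acts).mul
    (actMono_spec gt_ok.2.1.1 gtmb_lt gt_ok.2.1.2.2)).mul actXi_acts).mul
    (actMono_spec gt_ok.2.2.1 gtmc_lt gt_ok.2.2.2.2))

theorem ft_tab : ∀ i < 24, actPerm c7 (ft (actPerm c7 (eN i))) = ft (eN i) := by decide +kernel

/-- The element inverts `x7`. -/
theorem gt_inv : x7 * gt * x7 = gt := by
  apply co0_ext_e8
  intro p
  have h1 := (x7_acts.mul gt_acts).mul x7_acts (eN (idx p)) (eN_st p)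
  have h2 := gt_acts (eN (idx p)) (eN_st p)
  apply Subtype.ext
  have e : (⟨dec (eN (idx p)), (eN_st p).2.1⟩ : leechLattice) = e8 p := Subtype.ext (dec_eN p)
  rw [e] at h1 h2
  rw [h1.2, h2.2]
  show dec (actPerm c7 (ft (actPerm c7 (eN (idx p))))) = dec (ft (eN (idx p)))
  rw [ft_tab _ (idx_lt p)]

/-! ### The two subspaces -/

/-- The first subspace. -/
def VF : Finset ℕ := {0, 11, 17, 26, 38, 45, 55, 60}

/-- The second subspace. -/
def WF : Finset ℕ := {0, 5, 10, 15, 19, 22, 25, 28}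

theorem frames_tab : ∀ a < 64, nt a = 64 → a ∈ VF ∨ a ∈ WF := by decide +kernel

theorem nonzero_tab : ∀ a ∈ VF ∪ WF, a < 64 ∧ (a ≠ 0 → nt a = 64) := by decide +kernel

/-- The action of the element of order seven on numbers. -/
def faN (a : ℕ) : ℕ := ccN (fa (tab a))

theorem A_ga (a : ℕ) : A ga a = faN a := A_of ga_acts a

theorem A_ga_pow (k : ℕ) {a : ℕ} (ha : a < 64) : A (ga ^ k) a = faN^[k] a := by
  induction k generalizing a with
  | zero =>
    rw [pow_zero]
    exact A_one ha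
  | succ k ih =>
    calc A (ga ^ (k + 1)) a = A (ga ^ k * ga) a := by rw [pow_succ]
      _ = A (ga ^ k) (A ga a) := A_mul ga_mem ha
      _ = faN^[k] (A ga a) := ih (A_lt _ _)
      _ = faN^[k] (faN a) := by rw [A_ga]
      _ = faN^[k + 1] a := (Function.iterate_succ_apply _ _ _).symm

/-- The number of the image of the frame under the element inverting `x7`. -/
def b0 : ℕ := ccN (ft (tab 17))

theorem W_chain : ∀ a ∈ WF, a ≠ 0 → ∃ k < 7, faN^[k] a = b0 := by decide +kernel

theorem V_chain : ∀ a ∈ VF, a ≠ 0 → ∃ k < 7, faN^[k] 17 = a := by decide +kernel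

theorem tab17 : tab 17 = eN 5 := by decide +kernel

theorem M17 : M 17 = e8 (pt 5) := by
  apply Subtype.ext
  rw [M_coe, tab17]
  exact dec_eN (pt 5)

theorem nt17 : nt 17 = 64 := by decide +kernel

theorem pow_mem_C7 {g : Co0} (hg : g ∈ C7) (k : ℕ) : g ^ k ∈ C7 := C7.pow_mem hg k

/-- The frame of the first subspace stays in the first subspace. -/
theorem no_swap {g : Co0} (hg : g ∈ C7) : A g 17 ∈ VF := by
  classical
  have h1 := frames_tab _ (A_lt g 17) (A_norm hg (by norm_num) nt17)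
  rcases h1 with h1 | h1
  · exact h1
  · by_contra hV
    have h0 : A g 17 ≠ 0 := by
      intro e
      rw [e] at hV
      exact hV (by decide)
    obtain ⟨k, hk, hke⟩ := W_chain _ h1 h0
    -- the element
    set g' := ga ^ k * g with hg'
    have hg'C : g' ∈ C7 := C7.mul_mem (pow_mem_C7 ga_mem k) hg
    have hA : A g' 17 = b0 := by
      rw [hg', A_mul hg (by norm_num), A_ga_pow k (A_lt _ _), hke]
    have hgt_fix : (x7 : Equiv.Perm leechLattice) ((gt : Equiv.Perm leechLattice) (M 17)) = (gt : Equiv.Perm leechLattice) (M 17) := by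
      have e := congrArg (fun t : Co0 => (t : Equiv.Perm leechLattice) (M 17)) gt_inv
      have e2 : ((x7 * gt * x7 : Co0) : Equiv.Perm leechLattice) (M 17) =
          (x7 : Equiv.Perm leechLattice) ((gt : Equiv.Perm leechLattice) ((x7 : Equiv.Perm leechLattice) (M 17))) := rfl
      rw [e2, x7_M (by norm_num)] at e
      exact e
    have hcgt : cc ((gt : Equiv.Perm leechLattice) (M 17) : leechLattice) = b0 := by
      unfold b0
      rw [← cc_dec, ← (gt_acts (tab 17) (tab_st 17)).2]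
      rfl
    have hfix1 : FixCl x7 ((gt : Equiv.Perm leechLattice) (M 17)) := ⟨0, by rw [hgt_fix]; simp⟩
    have hfix2 : FixCl x7 ((g' : Equiv.Perm leechLattice) (M 17)) := fix_map hg'C (fixCl_M (by norm_num))
    obtain ⟨w, hw⟩ := cong_of_cc hfix2 hfix1 (by
      rw [hcgt]
      exact hA)
    -- the monomial element
    set u := gt⁻¹ * g' with hu
    have hu1 : (u : Equiv.Perm leechLattice) (e8 (pt 5)) = e8 (pt 5) + ((gt⁻¹ : Co0).1 w + (gt⁻¹ : Co0).1 w) := by
      rw [← M17]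
      show (gt⁻¹ : Co0).1 ((g' : Equiv.Perm leechLattice) (M 17)) = _
      rw [hw, co0_add, co0_add]
      congr 1
      exact gt.1.symm_apply_apply _
    obtain ⟨c, σ, hc, hσ, hcσ⟩ := exists_mono_of_cong hu1
    -- it inverts `x7`
    have hinv : x7 * u * x7 = u := by
      have e1 : x7 * gt⁻¹ * x7 = gt⁻¹ := by
        calc x7 * gt⁻¹ * x7 = x7 * (x7 * gt * x7)⁻¹ * x7 := by rw [gt_inv]
          _ = gt⁻¹ := by group
      have e3 : g' * x7 = x7 * g' := mem_C7.1 hg'C
      calc x7 * u * x7 = x7 * gt⁻¹ * (g' * x7) := by rw [hu]; group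
        _ = x7 * gt⁻¹ * (x7 * g') := by rw [e3]
        _ = (x7 * gt⁻¹ * x7) * g' := by group
        _ = u := by rw [e1]
    rw [hcσ] at hinv
    unfold x7 at hinv
    rw [monoCo0_mul, monoCo0_mul] at hinv
    obtain ⟨-, h4⟩ := monoCo0_part_eq hinv
    exact no_invert hσ (fun p => Equiv.congr_fun h4 p)

end Cfsg.Agent.Lib.Seven3
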