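import Mathlib
import Cfsg.Agent.Lib.Seven3
import Cfsg.Agent.Lib.GolayClasses
import Cfsg.Agent.Lib.FiveGp1

/-!
# The centralizer of `x7` modulo `⟨x7, -1⟩` is `SL(3, 2)`.
-/

set_option autoImplicit false
set_option maxRecDepth 100000

open Cfsg Cfsg.Agent.Lib.Leech Cfsg.Agent.Lib.Co0Mono Cfsg.Agent.Lib.Co0Frame
open Cfsg.Agent.Lib.SevenData Cfsg.Agent.Lib.CoVec Cfsg.Agent.Lib.MonsterSplit Cfsg.Agent.Lib.Seven1
open Cfsg.Agent.Lib.Seven2 Cfsg.Agent.Lib.Seven3
open Cfsg.Agent.Lib.Five3 (co0_ext_e8 eN dec_eN eN_st)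
open Cfsg.Agent.Lib.Golay (idx pt idx_pt pt_idx idx_lt idxL mem_idxL ap bit bit_eq ofMask mem_ofMask
  decode idx_decode isM24 decode_mem_M24 isM24_valid reduce S48L exists_S48_of_agree toMask RepBy repBy_decode)
open Cfsg.Agent.S0398 (e8 e8_apply neg_center)

namespace Cfsg.Agent.Lib.Seven4

/-! ### The matrices -/

/-- The group. -/
abbrev SL3 : Type := Matrix.SpecialLinearGroup (Fin 3) (ZMod 2)

/-- The coordinates of the elements of the subspace. -/
def coord (a : ℕ) : Fin 3 → ZMod 2 :=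
  ![if a.testBit 4 then 1 else 0, if a.testBit 3 then 1 else 0, if a.testBit 5 then 1 else 0]

/-- The basis of the subspace. -/
def bs (j : Fin 3) : ℕ := ![17, 11, 38] j

/-- The element of the subspace with given coordinates. -/
def num (x : Fin 3 → ZMod 2) : ℕ :=
  ((if x 0 = 1 then 17 else 0) ^^^ (if x 1 = 1 then 11 else 0)) ^^^ (if x 2 = 1 then 38 else 0)

theorem num_coord : ∀ a ∈ VF, num (coord a) = a := by decide +kernel

theorem xor_VF : ∀ a ∈ VF, ∀ b ∈ VF, a ^^^ b ∈ VF := by decide +kernel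

theorem coord_xor : ∀ a ∈ VF, ∀ b ∈ VF, coord (a ^^^ b) = coord a + coord b := by decide +kernel

theorem VF_lt : ∀ a ∈ VF, a < 64 := by decide +kernel

theorem zero_VF : 0 ∈ VF := by decide

theorem coord_zero : coord 0 = 0 := by decide +kernel

theorem bs_VF : ∀ j, bs j ∈ VF := by decide +kernel

theorem A_V {g : Co0} (hg : g ∈ C7) {a : ℕ} (ha : a ∈ VF) : A g a ∈ VF := by
  by_cases h0 : a = 0
  · subst h0
    rw [A_zero]
    exact zero_VF
  obtain ⟨k, hk, rfl⟩ := V_chain a ha h0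
  rw [← A_ga_pow k (by norm_num), ← A_mul (pow_mem_C7 ga_mem k) (by norm_num)]
  exact no_swap (C7.mul_mem hg (pow_mem_C7 ga_mem k))

/-- The matrix of an element. -/
noncomputable def Mat (g : Co0) : Matrix (Fin 3) (Fin 3) (ZMod 2) := fun i j => coord (A g (bs j)) i

theorem zmod2_cases : ∀ y : ZMod 2, y = 0 ∨ y = 1 := by decide

/-- One term. -/
theorem term_mem {g : Co0} (hg : g ∈ C7) (x : Fin 3 → ZMod 2) (j : Fin 3) :
    (if x j = 1 then A g (bs j) else 0) ∈ VF := by
  split_ifs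
  · exact A_V hg (bs_VF j)
  · exact zero_VF

theorem term_coord (g : Co0) (x : Fin 3 → ZMod 2) (j : Fin 3) :
    coord (if x j = 1 then A g (bs j) else 0) = x j • coord (A g (bs j)) := by
  rcases zmod2_cases (x j) with h | h
  · rw [h, if_neg (by decide), zero_smul, coord_zero]
  · rw [h, if_pos rfl, one_smul]

theorem A_num {g : Co0} (x : Fin 3 → ZMod 2) :
    A g (num x) = ((if x 0 = 1 then A g (bs 0) else 0) ^^^ (if x 1 = 1 then A g (bs 1) else 0)) ^^^
      (if x 2 = 1 then A g (bs 2) else 0) := by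
  have hlt : ∀ (j : Fin 3), (if x j = 1 then bs j else 0) ∈ VF := by
    intro j
    split_ifs
    · exact bs_VF j
    · exact zero_VF
  have e : num x = ((if x 0 = 1 then bs 0 else 0) ^^^ (if x 1 = 1 then bs 1 else 0)) ^^^ (if x 2 = 1 then bs 2 else 0) := rfl
  have hA : ∀ j : Fin 3, A g (if x j = 1 then bs j else 0) = if x j = 1 then A g (bs j) else 0 := by
    intro j
    split_ifs
    · rfl
    · exact A_zero g
  rw [e, A_xor (VF_lt _ (xor_VF _ (hlt 0) _ (hlt 1))) (VF_lt _ (hlt 2)), A_xor (VF_lt _ (hlt 0)) (VF_lt _ (hlt 1)), hA, hA, hA]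

theorem coord_A {g : Co0} (hg : g ∈ C7) {a : ℕ} (ha : a ∈ VF) : coord (A g a) = (Mat g).mulVec (coord a) := by
  have h1 : A g a = A g (num (coord a)) := by rw [num_coord a ha]
  rw [h1, A_num, coord_xor _ (xor_VF _ (term_mem hg _ 0) _ (term_mem hg _ 1)) _ (term_mem hg _ 2),
    coord_xor _ (term_mem hg _ 0) _ (term_mem hg _ 1), term_coord, term_coord, term_coord]
  funext i
  simp only [Pi.add_apply, Pi.smul_apply, smul_eq_mul, Matrix.mulVec, dotProduct, Fin.sum_univ_three]
  show _ = coord (A g (bs 0)) i * coord a 0 + coord (A g (bs 1)) i * coord a 1 + coord (A g (bs 2)) i * coord a 2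
  ring

theorem Mat_mul {g h : Co0} (hg : g ∈ C7) (hh : h ∈ C7) : Mat (g * h) = Mat g * Mat h := by
  ext i j
  show coord (A (g * h) (bs j)) i = _
  rw [A_mul hh (VF_lt _ (bs_VF j)), coord_A hg (A_V hh (bs_VF j))]
  simp only [Matrix.mul_apply, Matrix.mulVec, dotProduct]
  rfl

/-- The matrix of a function. -/
def MatTab (f : ℕ → ℕ) : Matrix (Fin 3) (Fin 3) (ZMod 2) := fun i j => coord (f (bs j)) i

theorem coord_bs' : MatTab id = (1 : Matrix (Fin 3) (Fin 3) (ZMod 2)) := by decide +kernel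

theorem coord_bs (i j : Fin 3) : coord (bs j) i = (1 : Matrix (Fin 3) (Fin 3) (ZMod 2)) i j := by
  rw [← coord_bs']
  rfl

theorem Mat_one : Mat 1 = 1 := by
  ext i j
  show coord (A 1 (bs j)) i = _
  rw [A_one (VF_lt _ (bs_VF j)), coord_bs]

theorem Mat_of_fix {g : Co0} (h : ∀ a < 64, A g a = a) : Mat g = 1 := by
  ext i j
  show coord (A g (bs j)) i = _
  rw [h _ (VF_lt _ (bs_VF j)), coord_bs]

theorem det_Mat {g : Co0} (hg : g ∈ C7) : (Mat g).det = 1 := by
  have h1 : Mat g * Mat g⁻¹ = 1 := by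
    rw [← Mat_mul hg (C7.inv_mem hg), mul_inv_cancel, Mat_one]
  have h2 := congrArg Matrix.det h1
  rw [Matrix.det_mul, Matrix.det_one] at h2
  rcases zmod2_cases (Mat g).det with h | h
  · rw [h, zero_mul] at h2
    exact absurd h2 (by decide)
  · exact h

/-- The map to `SL(3, 2)`. -/
noncomputable def rho : C7 →* SL3 where
  toFun g := ⟨Mat (g : Co0), det_Mat g.2⟩
  map_one' := Subtype.ext Mat_one
  map_mul' g h := Subtype.ext (Mat_mul g.2 h.2)

theorem rho_trivial {g : C7} (h : ∀ a < 64, A (g : Co0) a = a) : rho g = 1 := Subtype.ext (Mat_of_fix h)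

/-! ### The images of the explicit elements -/

/-- The image of the element of order seven. -/
def Ma : SL3 := ⟨!![1, 1, 0; 0, 0, 1; 1, 0, 0], by decide +kernel⟩

/-- The image of the element of order three. -/
def Mr : SL3 := ⟨!![1, 0, 0; 0, 0, 1; 0, 1, 1], by decide +kernel⟩

/-- The image of the element of order four. -/
def Ms : SL3 := ⟨!![1, 1, 1; 0, 1, 0; 0, 1, 1], by decide +kernel⟩

/-- The action of the element of order three on numbers. -/
def frN (a : ℕ) : ℕ := ccN (actMono grc grm (tab a))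

/-- The action of the element of order four on numbers. -/
def fsN (a : ℕ) : ℕ := ccN (actMono gsc gsm (tab a))

theorem Ma_tab' : MatTab faN = (Ma : Matrix (Fin 3) (Fin 3) (ZMod 2)) := by decide +kernel

theorem Ma_tab (i j : Fin 3) : coord (faN (bs j)) i = (Ma : Matrix (Fin 3) (Fin 3) (ZMod 2)) i j := by
  rw [← Ma_tab']
  rfl

theorem Mr_tab' : MatTab frN = (Mr : Matrix (Fin 3) (Fin 3) (ZMod 2)) := by decide +kernel

theorem Mr_tab (i j : Fin 3) : coord (frN (bs j)) i = (Mr : Matrix (Fin 3) (Fin 3) (ZMod 2)) i j := by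
  rw [← Mr_tab']
  rfl

theorem Ms_tab' : MatTab fsN = (Ms : Matrix (Fin 3) (Fin 3) (ZMod 2)) := by decide +kernel

theorem Ms_tab (i j : Fin 3) : coord (fsN (bs j)) i = (Ms : Matrix (Fin 3) (Fin 3) (ZMod 2)) i j := by
  rw [← Ms_tab']
  rfl

theorem rho_ga : rho ⟨ga, ga_mem⟩ = Ma := by
  apply Subtype.ext
  ext i j
  show coord (A ga (bs j)) i = _
  rw [A_ga]
  exact Ma_tab i j

theorem rho_gr : rho ⟨gr, gr_mem⟩ = Mr := by
  apply Subtype.ext
  ext i j
  show coord (A gr (bs j)) i = _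
  rw [A_of gr_acts]
  exact Mr_tab i j

theorem rho_gs : rho ⟨gs, gs_mem⟩ = Ms := by
  apply Subtype.ext
  ext i j
  show coord (A gs (bs j)) i = _
  rw [A_of gs_acts]
  exact Ms_tab i j

/-- An involution. -/
def Mw : SL3 := Mr * Ms * Mr

theorem sl3_nf : ∀ x : SL3, ∃ i : Fin 7, ∃ j : Fin 3, ∃ k : Fin 4, ∃ l : Fin 2,
    x = Ma ^ (i : ℕ) * Mr ^ (j : ℕ) * Ms ^ (k : ℕ) * Mw ^ (l : ℕ) := by decide +kernel

theorem rho_surj : Function.Surjective rho := by
  intro x
  obtain ⟨i, j, k, l, rfl⟩ := sl3_nf x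
  refine ⟨(⟨ga, ga_mem⟩ : C7) ^ (i : ℕ) * (⟨gr, gr_mem⟩ : C7) ^ (j : ℕ) * (⟨gs, gs_mem⟩ : C7) ^ (k : ℕ) *
    ((⟨gr, gr_mem⟩ : C7) * (⟨gs, gs_mem⟩ : C7) * (⟨gr, gr_mem⟩ : C7)) ^ (l : ℕ), ?_⟩
  simp only [map_mul, map_pow, rho_ga, rho_gr, rho_gs]
  rfl

theorem card_SL3 : Nat.card SL3 = 168 := by
  rw [Nat.card_eq_fintype_card]
  decide +kernel

/-- Commutators in `SL(3, 2)`. -/
theorem sl3_comm : ∀ x : SL3, x = 1 ∨ ∃ y : SL3, x * y * x⁻¹ * y⁻¹ ≠ 1 ∧
    ((x * y * x⁻¹ * y⁻¹) ^ 3 = 1 ∨ (x * y * x⁻¹ * y⁻¹) ^ 7 = 1) := by decide +kernel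

/-- `SL(3, 2)` has no normal `2`-subgroups. -/
theorem sl3_no_normal (P : Subgroup SL3) (hn : P.Normal) (h2 : IsPGroup 2 P) : P = ⊥ := by
  rw [eq_bot_iff]
  intro x hx
  rw [Subgroup.mem_bot]
  rcases sl3_comm x with h | ⟨y, h1, h3⟩
  · exact h
  · exfalso
    have hc : x * y * x⁻¹ * y⁻¹ ∈ P := by
      have e : x * y * x⁻¹ * y⁻¹ = x * (y * x⁻¹ * y⁻¹) := by group
      rw [e]
      exact P.mul_mem hx (hn.conj_mem _ (P.inv_mem hx) y)
    obtain ⟨k, hk⟩ := h2 ⟨_, hc⟩
    have hk' : (x * y * x⁻¹ * y⁻¹) ^ 2 ^ k = 1 := congrArg Subtype.val hk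
    rcases h3 with h3 | h3
    · exact h1 (Cfsg.Agent.Lib.FiveGp1.eq_one_of_two_five ⟨k, hk'⟩ (by decide) h3)
    · exact h1 (Cfsg.Agent.Lib.FiveGp1.eq_one_of_two_five ⟨k, hk'⟩ (by decide) h3)

/-! ### The stabilizer of the frame -/

/-- The mask of a union of orbits. -/
def dOf (b : ℕ) : ℕ := Nat.ofBits (fun i : Fin 24 => b.testBit (cidL.getD i 0))

theorem testBit_dOf (b : ℕ) (p : GolayPt) : (dOf b).testBit (idx p) = b.testBit (cidL.getD (idx p) 0) := by
  unfold dOf
  rw [Nat.testBit_ofBits_lt _ _ (idx_lt p)]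

/-- The invariant sets of the code. -/
def D7L : Finset ℕ := (Finset.range 64).filter (fun b => reduce (dOf b) = 0)

theorem card_D7L : D7L.card = 8 := by decide +kernel

/-- The invariant sets of the code. -/
noncomputable def D7F : Finset (Finset GolayPt) := D7L.image (fun b => ofMask (dOf b))

theorem card_D7F : D7F.card ≤ 8 := by
  rw [← card_D7L]
  exact Finset.card_image_le

theorem cid_val : ∀ i < 24, cidL.getD i 0 < 6 := by decide +kernel

theorem mem_D7F {c : Finset GolayPt} (hc : c ∈ codeSets) (hinv : ∀ p, xi7 p ∈ c ↔ p ∈ c) : c ∈ D7F := by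
  classical
  set b : ℕ := Nat.ofBits (fun j : Fin 6 => decide (rep j ∈ c)) with hb
  have hblt : b < 64 := Nat.ofBits_lt_two_pow (n := 6) _
  have hx : ∀ p, (if xi7 p ∈ c then (1 : ℤ) else 0) = if p ∈ c then 1 else 0 := by
    intro p
    by_cases h : p ∈ c
    · rw [if_pos h, if_pos ((hinv p).2 h)]
    · rw [if_neg h, if_neg (fun e => h ((hinv p).1 e))]
  have hrep : ∀ p, p ∈ c ↔ rep (cid p) ∈ c := by
    intro p
    have := eq_rep (x := fun p => if p ∈ c then (1 : ℤ) else 0) hx p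
    by_cases h : p ∈ c <;> by_cases h' : rep (cid p) ∈ c <;> simp_all
  have hbit : ∀ p, (dOf b).testBit (idx p) = decide (p ∈ c) := by
    intro p
    rw [testBit_dOf]
    have h1 := cid_val _ (idx_lt p)
    have h2 : (cid p : ℕ) = cidL.getD (idx p) 0 := by
      show (cidL.getD (idx p) 0) % 6 = _
      exact Nat.mod_eq_of_lt h1
    rw [← h2, hb, Nat.testBit_ofBits_lt _ _ (cid p).2]
    simp only [Fin.eta]
    exact decide_eq_decide.2 (hrep p).symm
  have hc' : ofMask (dOf b) = c := by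
    ext p
    rw [mem_ofMask, hbit]
    simp
  refine Finset.mem_image.2 ⟨b, Finset.mem_filter.2 ⟨Finset.mem_range.2 hblt, ?_⟩, hc'⟩
  have h3 := (Cfsg.Agent.Lib.Golay.mem_supports_iff c).1 hc
  have hd : dOf b < 2 ^ 24 := Nat.ofBits_lt_two_pow _
  rw [← hc', Cfsg.Agent.Lib.Golay.toMask_ofMask hd] at h3
  exact h3

/-- The elements of the five-point stabilizer commuting with the permutation. -/
def S3 : List ℕ := S48L.filter (fun s => idxL.all fun i => Nat.beq (ap s (ap c7 i)) (ap c7 (ap s i)))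

theorem S3_len : S3.toFinset.card ≤ 2 := by decide +kernel

/-- The transversal. -/
def U (a : ℕ) : ℕ := UL.getD a 0

theorem U_ok : ∀ a < 24, ap c7 a ≠ a → isM24 (U a) = true ∧ ap (U a) 23 = a ∧
    idxL.all (fun i => Nat.beq (ap (U a) (ap c7 i)) (ap c7 (ap (U a) i))) = true := by
  decide +kernel

theorem moved_card : ((Finset.range 24).filter (fun a => ap c7 a ≠ a)).card = 21 := by decide +kernel

/-- The centralizer in `M24`. -/
noncomputable def S7F : Finset (Equiv.Perm GolayPt) :=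
  (((Finset.range 24).filter (fun a => ap c7 a ≠ a)) ×ˢ S3.toFinset).image
    (fun p => decode (U p.1) * decode p.2)

theorem card_S7F : S7F.card ≤ 42 := by
  refine Finset.card_image_le.trans ?_
  rw [Finset.card_product, moved_card]
  have := S3_len
  omega

theorem chain7 : ap c7 23 = 0 ∧ ap c7 0 = 1 ∧ ap c7 1 = 2 ∧ ap c7 2 = 3 := by decide +kernel

theorem mem_S7F {σ : Equiv.Perm GolayPt} (hσ : σ ∈ M24) (hc : σ * xi7 = xi7 * σ) : σ ∈ S7F := by
  classical
  have hcp : ∀ p, σ (xi7 p) = xi7 (σ p) := fun p => Equiv.congr_fun hc p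
  set a := idx (σ (pt 23)) with ha
  have hσa : σ (pt 23) = pt a := (Cfsg.Agent.Lib.Golay.pt_idx _).symm
  have halt : a < 24 := idx_lt _
  have hmov : ap c7 a ≠ a := by
    intro h
    have h1 : xi7 (pt a) = pt a := by rw [xi7_pt halt, h]
    have h2 := hcp (pt 23)
    rw [hσa, h1, ← hσa] at h2
    have h3 := σ.injective h2
    rw [xi7_pt (by norm_num), chain7.1] at h3
    have h4 := Cfsg.Agent.Lib.Golay.pt_injOn (by norm_num) (by norm_num) h3
    omega
  obtain ⟨hU1, hU2, hU3⟩ := U_ok a halt hmov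
  have hv := isM24_valid hU1
  have hu : decode (U a) * xi7 = xi7 * decode (U a) := by
    have hx : RepBy xi7 (ap c7) := idx_xi7
    refine Cfsg.Agent.Lib.Golay.comm_of_repBy (repBy_decode hv) hx hx ?_
    intro i hi
    exact Nat.eq_of_beq_eq_true ((List.all_eq_true.1 hU3) i (mem_idxL.2 hi))
  have hup : ∀ p, decode (U a) (xi7 p) = xi7 (decode (U a) p) := fun p => Equiv.congr_fun hu p
  have h23 : σ (pt 23) = decode (U a) (pt 23) := by
    rw [Cfsg.Agent.Lib.Golay.decode_pt hv (by norm_num), hU2, hσa]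
  have hstep : ∀ {i j : ℕ}, i < 24 → ap c7 i = j → σ (pt i) = decode (U a) (pt i) → σ (pt j) = decode (U a) (pt j) := by
    intro i j hi hj h
    rw [← hj, ← xi7_pt hi, hcp, hup, h]
  obtain ⟨e1, e2, e3, e4⟩ := chain7
  have h0 := hstep (by norm_num) e1 h23
  have h1 := hstep (by norm_num) e2 h0
  have h2 := hstep (by norm_num) e3 h1
  have h3 := hstep (by norm_num) e4 h2
  obtain ⟨s, hs, hσs⟩ := exists_S48_of_agree hσ (decode_mem_M24 hU1) (by
    intro i hi
    simp only [List.mem_cons, List.not_mem_nil, or_false] at hi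
    rcases hi with rfl | rfl | rfl | rfl | rfl
    · exact h3
    · exact h2
    · exact h1
    · exact h0
    · exact h23)
  have hsv : Cfsg.Agent.Lib.Golay.valid s = true :=
    isM24_valid (Cfsg.Agent.Lib.Golay.S48L_isM24 s hs)
  have hs2 : decode s * xi7 = xi7 * decode s := by
    have h5 : decode (U a) * (decode s * xi7) = decode (U a) * (xi7 * decode s) := by
      calc decode (U a) * (decode s * xi7) = (decode (U a) * decode s) * xi7 := by group
        _ = xi7 * (decode (U a) * decode s) := by rw [← hσs]; exact hc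
        _ = (xi7 * decode (U a)) * decode s := by group
        _ = (decode (U a) * xi7) * decode s := by rw [hu]
        _ = decode (U a) * (xi7 * decode s) := by group
    exact mul_left_cancel h5
  have hsS3 : s ∈ S3 := by
    refine List.mem_filter.2 ⟨hs, List.all_eq_true.2 fun i hi => ?_⟩
    have hi' := mem_idxL.1 hi
    have h6 := Equiv.congr_fun hs2 (pt i)
    have h7 := congrArg idx h6
    simp only [Equiv.Perm.mul_apply] at h7
    rw [idx_decode hsv, idx_xi7, idx_xi7, idx_decode hsv, idx_pt hi'] at h7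
    simpa using h7
  exact Finset.mem_image.2 ⟨(a, s), Finset.mem_product.2 ⟨Finset.mem_filter.2 ⟨Finset.mem_range.2 halt, hmov⟩, List.mem_toFinset.2 hsS3⟩, hσs.symm⟩

/-- The elements of the centralizer of `x7` fixing the class of the frame are few. -/
theorem exists_mono_stab {g : Co0} (hg : g ∈ C7) (h : A g 17 = 17) :
    ∃ p ∈ D7F ×ˢ S7F, ∃ (hc : p.1 ∈ codeSets) (hσ : p.2 ∈ M24), g = monoCo0 hc hσ := by
  classical
  have h1 := fix_map hg (fixCl_M (a := 17) (by norm_num))
  have h2 : cc ((g : Equiv.Perm leechLattice) (M 17) : leechLattice) = cc (M 17 : GolayPt → ℤ) := by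
    rw [cc_M (by norm_num)]
    exact h
  obtain ⟨u, hu⟩ := cong_of_cc h1 (fixCl_M (by norm_num)) h2
  rw [M17] at hu
  obtain ⟨c, σ, hc, hσ, rfl⟩ := exists_mono_of_cong hu
  have hcomm := mem_C7.1 hg
  unfold x7 at hcomm
  rw [monoCo0_mul, monoCo0_mul] at hcomm
  obtain ⟨h3, h4⟩ := monoCo0_part_eq hcomm
  have h5 : c = c.image (xi7⁻¹ : Equiv.Perm GolayPt) := by
    rw [Finset.image_empty] at h3
    have e1 : symmDiff c ∅ = c := by
      ext q
      simp [Finset.mem_symmDiff]
    have e2 : ∀ x : Finset GolayPt, symmDiff ∅ x = x := by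
      intro x
      ext q
      simp [Finset.mem_symmDiff]
    rw [e1, e2] at h3
    exact h3
  refine ⟨(c, σ), Finset.mem_product.2 ⟨mem_D7F hc ?_, mem_S7F hσ h4.symm⟩, hc, hσ, rfl⟩
  intro p
  constructor
  · intro hp
    rw [h5]
    exact Finset.mem_image.2 ⟨xi7 p, hp, by simp⟩
  · intro hp
    rw [h5] at hp
    obtain ⟨q, hq, e⟩ := Finset.mem_image.1 hp
    have : q = xi7 p := by
      rw [← e]
      simp
    rw [← this]
    exact hq

/-- The action of the centralizer on the numbers. -/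
noncomputable def actFin : MulAction C7 (Fin 64) where
  smul g a := ⟨A g a, A_lt _ _⟩
  one_smul a := Fin.ext (A_one a.2)
  mul_smul g h a := Fin.ext (A_mul h.2 a.2)

/-- The order of the centralizer. -/
theorem card_C7_le : Nat.card C7 ≤ 2352 := by
  classical
  letI := actFin
  let a₀ : Fin 64 := ⟨17, by norm_num⟩
  have h1 : (MulAction.stabilizer C7 a₀).index = (MulAction.orbit C7 a₀).ncard := MulAction.index_stabilizer _ _
  have h2 : (MulAction.orbit C7 a₀).ncard ≤ 7 := by
    have hc : ((Finset.univ : Finset (Fin 64)).filter (fun a : Fin 64 => (a : ℕ) ∈ VF ∧ (a : ℕ) ≠ 0)).card = 7 := by decide +kernel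
    rw [← hc, ← Set.ncard_coe_finset]
    apply Set.ncard_le_ncard _ (Finset.finite_toSet _)
    rintro _ ⟨g, rfl⟩
    refine Finset.mem_coe.2 (Finset.mem_filter.2 ⟨Finset.mem_univ _, no_swap g.2, ?_⟩)
    intro h0
    have h3 : A (g : Co0) 17 = A (g : Co0) 0 := by
      rw [A_zero]
      exact h0
    have h4 := A_inj g.2 (by norm_num) (by norm_num) h3
    omega
  have h3 : Nat.card (MulAction.stabilizer C7 a₀) ≤ 336 := by
    have hex : ∀ g : MulAction.stabilizer C7 a₀, ∃ p : ↥(D7F ×ˢ S7F), ∃ (hc : p.1.1 ∈ codeSets) (hσ : p.1.2 ∈ M24),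
        ((g : C7) : Co0) = monoCo0 hc hσ := by
      intro g
      have hg : A ((g : C7) : Co0) 17 = 17 := by
        have h7 : (g : C7) • a₀ = a₀ := MulAction.mem_stabilizer_iff.1 g.2
        exact congrArg Fin.val h7
      obtain ⟨p, hp, hc, hσ, e⟩ := exists_mono_stab (g : C7).2 hg
      exact ⟨⟨p, hp⟩, hc, hσ, e⟩
    choose f hf1 hf2 hf3 using hex
    have hinj : Function.Injective f := by
      intro g g' h
      apply Subtype.ext
      apply Subtype.ext
      rw [hf3 g, hf3 g']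
      apply monoCo0_congr
      · rw [h]
      · rw [h]
    have h4 := Nat.card_le_card_of_injective f hinj
    have h8 : Nat.card ↥(D7F ×ˢ S7F) = (D7F ×ˢ S7F).card := by
      rw [Nat.card_eq_fintype_card, Fintype.card_coe]
    rw [h8, Finset.card_product] at h4
    have h5 := card_D7F
    have h6 := card_S7F
    calc _ ≤ D7F.card * S7F.card := h4
      _ ≤ 8 * 42 := Nat.mul_le_mul h5 h6
      _ = 336 := by norm_num
  have h4 := Subgroup.card_mul_index (MulAction.stabilizer C7 a₀)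
  rw [← h4, h1]
  calc _ ≤ 336 * 7 := Nat.mul_le_mul h3 h2
    _ = 2352 := by norm_num

/-! ### The kernel -/

/-- `x7` in its centralizer. -/
noncomputable def x7C : C7 := ⟨x7, mem_C7.2 rfl⟩

/-- Negation in the centralizer. -/
noncomputable def negC : C7 := ⟨negCo0, mem_C7.2 (Subgroup.mem_center_iff.1 neg_center x7).symm⟩

theorem rho_x7 : rho x7C = 1 := by
  apply rho_trivial
  intro a ha
  show cc ((x7 : Equiv.Perm leechLattice) (M a) : leechLattice) = a
  rw [x7_M ha, cc_M ha]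

theorem cc_neg (v : leechLattice) : cc ((-v : leechLattice) : GolayPt → ℤ) = cc (v : GolayPt → ℤ) := by
  have h : -v = v + (-v + -v) := by abel
  rw [h, cc_congr]

theorem rho_neg : rho negC = 1 := by
  apply rho_trivial
  intro a ha
  show cc ((negCo0 : Equiv.Perm leechLattice) (M a) : leechLattice) = a
  rw [negCo0_apply, cc_neg, cc_M ha]

theorem x7_pow_seven : x7C ^ 7 = 1 := by
  apply Subtype.ext
  apply monoCo0_ext
  intro v
  show (((x7 ^ 7 : Co0) : Equiv.Perm leechLattice) v : GolayPt → ℤ) = v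
  have h : x7 ^ 7 = x7 * (x7 * (x7 * (x7 * (x7 * (x7 * (x7 * 1)))))) := by
    simp only [pow_succ, pow_zero, mul_assoc, one_mul, mul_one]
  rw [h]
  exact congrArg Subtype.val (x7_seven v)

theorem x7_ne_one : x7C ≠ 1 := by
  intro h
  have h1 : x7 = 1 := congrArg Subtype.val h
  have h2 := congrFun (congrArg Subtype.val (congrArg (fun g : Co0 => (g : Equiv.Perm leechLattice) (e8 (pt 0))) h1)) (pt 0)
  have h3 : (((x7 : Equiv.Perm leechLattice) (e8 (pt 0)) : leechLattice) : GolayPt → ℤ) (pt 0) = 0 := by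
    rw [x7_apply, e8_apply, if_neg]
    rw [xi7_pt (by norm_num)]
    intro e
    have : ap c7 0 = 0 := Cfsg.Agent.Lib.Golay.pt_injOn (ap7_lt (by norm_num)) (by norm_num) e
    rw [chain7.2.1] at this
    omega
  have h4 : (((1 : Co0) : Equiv.Perm leechLattice) (e8 (pt 0)) : GolayPt → ℤ) (pt 0) = 8 := by
    show (e8 (pt 0) : GolayPt → ℤ) (pt 0) = 8
    rw [e8_apply, if_pos rfl]
  have h5 : (((x7 : Equiv.Perm leechLattice) (e8 (pt 0)) : leechLattice) : GolayPt → ℤ) (pt 0) =
      (((1 : Co0) : Equiv.Perm leechLattice) (e8 (pt 0)) : GolayPt → ℤ) (pt 0) := h2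
  rw [h3, h4] at h5
  omega

theorem orderOf_x7C : orderOf x7C = 7 :=
  haveI : Fact (Nat.Prime 7) := ⟨by norm_num⟩
  orderOf_eq_prime x7_pow_seven x7_ne_one

/-- The elements of the kernel. -/
noncomputable def kerMap : Fin 7 × Bool → rho.ker := fun p =>
  ⟨x7C ^ (p.1 : ℕ) * (if p.2 then negC else 1), by
    rw [MonoidHom.mem_ker, map_mul, map_pow, rho_x7, one_pow, one_mul]
    split_ifs
    · exact rho_neg
    · exact map_one _⟩

theorem x7_e8 : (x7 : Equiv.Perm leechLattice) (e8 (pt 5)) = e8 (pt 5) := by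
  have := x7_M (a := 17) (by norm_num)
  rwa [M17] at this

theorem kerMap_inj : Function.Injective kerMap := by
  have hfix : ∀ k : ℕ, ((x7C ^ k : C7) : Co0).1 (e8 (pt 5)) = e8 (pt 5) := by
    intro k
    induction k with
    | zero => rfl
    | succ k ih =>
      rw [pow_succ]
      show ((x7C ^ k : C7) : Co0).1 ((x7 : Equiv.Perm leechLattice) (e8 (pt 5))) = _
      rw [x7_e8, ih]
  have hne : (e8 (pt 5) : leechLattice) ≠ -e8 (pt 5) := by
    intro h
    have := congrFun (congrArg Subtype.val h) (pt 5)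
    simp only [AddSubgroup.coe_neg, Pi.neg_apply, e8_apply, if_true] at this
    omega
  rintro ⟨i, β⟩ ⟨j, γ⟩ h
  have h1 : x7C ^ (i : ℕ) * (if β then negC else 1) = x7C ^ (j : ℕ) * (if γ then negC else 1) := congrArg Subtype.val h
  have hval : ∀ (k : ℕ) (b : Bool), ((x7C ^ k * (if b then negC else 1) : C7) : Co0).1 (e8 (pt 5)) =
      if b then -e8 (pt 5) else e8 (pt 5) := by
    intro k b
    cases b
    · simp only [Bool.false_eq_true, if_false, mul_one]
      exact hfix k
    · simp only [if_true]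
      show ((x7C ^ k : C7) : Co0).1 (-(e8 (pt 5))) = _
      rw [co0_neg, hfix]
  have h2 := congrArg (fun g : C7 => (g : Co0).1 (e8 (pt 5))) h1
  simp only [hval] at h2
  have hβ : β = γ := by
    cases β <;> cases γ
    · rfl
    · simp only [Bool.false_eq_true, if_false, if_true] at h2
      exact absurd h2 hne
    · simp only [Bool.false_eq_true, if_false, if_true] at h2
      exact absurd h2.symm hne
    · rfl
  subst hβ
  have h3 := mul_right_cancel h1
  have h4 : (i : ℕ) = j := by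
    have hlt : ∀ k : Fin 7, (k : ℕ) ∈ Set.Iio (orderOf x7C) := by
      intro k
      rw [orderOf_x7C]
      exact k.2
    exact pow_injOn_Iio_orderOf (hlt i) (hlt j) h3
  rw [Fin.ext h4]

/-- The main facts. -/
theorem rho_main : Function.Surjective kerMap := by
  have h1 := Subgroup.card_mul_index rho.ker
  have h2 : rho.ker.index = Nat.card SL3 := by
    rw [Subgroup.index_ker, MonoidHom.range_eq_top.2 rho_surj]
    exact Nat.card_congr Subgroup.topEquiv.toEquiv
  have h3 := card_C7_le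
  rw [h2, card_SL3] at h1
  have h8 : Nat.card rho.ker ≤ 14 := by omega
  have h9 : Nat.card rho.ker ≤ Nat.card (Fin 7 × Bool) := by
    rw [Nat.card_prod, Nat.card_eq_fintype_card (α := Fin 7), Nat.card_eq_fintype_card (α := Bool),
      Fintype.card_fin, Fintype.card_bool]
    exact h8
  exact (Function.Injective.bijective_of_nat_card_le kerMap_inj h9).2

/-- The kernel of the map. -/
theorem rho_ker {g : C7} (h : rho g = 1) : ∃ i : ℕ, g = x7C ^ i ∨ g = x7C ^ i * negC := by
  obtain ⟨⟨i, β⟩, hp⟩ := rho_main ⟨g, h⟩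
  have h1 : x7C ^ (i : ℕ) * (if β then negC else 1) = g := congrArg Subtype.val hp
  refine ⟨i, ?_⟩
  cases β
  · left
    simpa using h1.symm
  · right
    simpa using h1.symm

end Cfsg.Agent.Lib.Seven4
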