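import Mathlib
import Cfsg.Agent.Lib.Seven4
import Cfsg.Agent.Lib.FiveGp2

/-!
# Normal form for a Sylow `7`-subgroup of the centralizer of two conjugates of `z` in `Q`.
-/

set_option autoImplicit false

open Cfsg
open Cfsg.Agent.Lib.LargeExtra Cfsg.Agent.Lib.LargePair Cfsg.Agent.Lib.MonsterLocal
open Cfsg.Agent.Lib.Co0Mono Cfsg.Agent.Lib.Leech
open Cfsg.Agent.Lib.Co0Frame Cfsg.Agent.Lib.MonsterMain Cfsg.Agent.Lib.MonsterBabyA
open Cfsg.Agent.Lib.Seven1 Cfsg.Agent.Lib.Seven2 Cfsg.Agent.Lib.Seven3 Cfsg.Agent.Lib.Seven4 Cfsg.Agent.Lib.FiveGp1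

open Cfsg.Agent.Lib.FiveGp2 (rep_twist phi_twist mem_XX lift_mono)
open Cfsg.Agent.Lib.Co0Order
open Cfsg.Agent.S0398 (e8 e8_apply neg_center)
open Cfsg.Agent.Lib.Golay (pt)

namespace Cfsg.Agent.Lib.SevenGp2

theorem x7_mem_NN : x7 ∈ NN := ⟨∅, xi7, empty_mem_codeSets, xi7_mem, rfl⟩

theorem x7_pow : x7 ^ 7 = 1 := congrArg Subtype.val x7_pow_seven

theorem x7_ne : x7 ≠ 1 := fun h => x7_ne_one (Subtype.ext h)

theorem orderOf_x7 : orderOf x7 = 7 :=
  haveI : Fact (Nat.Prime 7) := ⟨by norm_num⟩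
  orderOf_eq_prime x7_pow x7_ne

theorem x7_ne_neg : x7 ≠ negCo0 := by
  intro h
  have h1 : x7 ^ 7 = negCo0 ^ 7 := by rw [h]
  rw [x7_pow] at h1
  have h2 : negCo0 ^ 7 = negCo0 := by
    apply monoCo0_ext
    intro v
    show ((negCo0 ^ 7 : Co0).1 v : GolayPt → ℤ) = _
    have h3 : negCo0 ^ 7 = negCo0 * (negCo0 * (negCo0 * (negCo0 * (negCo0 * (negCo0 * (negCo0 * 1)))))) := by
      simp only [pow_succ, pow_zero, one_mul, mul_one, mul_assoc]
    rw [h3]
    show ((negCo0 : Co0).1 ((negCo0 : Co0).1 ((negCo0 : Co0).1 ((negCo0 : Co0).1 ((negCo0 : Co0).1 ((negCo0 : Co0).1 ((negCo0 : Co0).1 v)))))) : GolayPt → ℤ) = _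
    simp only [negCo0_apply, neg_neg]
  rw [h2] at h1
  have h4 : x7 = 1 := h.trans h1.symm
  exact x7_ne h4

theorem mkCo_x7_ne : mkCo x7 ≠ 1 := by
  intro h
  rcases center_cases (mkCo_eq_one_iff.1 h) with h1 | h1
  · exact x7_ne h1
  · exact x7_ne_neg h1

theorem mkCo_x7_pow : mkCo x7 ^ 7 = 1 := by
  rw [← map_pow, x7_pow, map_one]

theorem orderOf_mkCo_x7 : orderOf (mkCo x7) = 7 :=
  haveI : Fact (Nat.Prime 7) := ⟨by norm_num⟩
  orderOf_eq_prime mkCo_x7_pow mkCo_x7_ne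

theorem fact_NN : (Nat.card NN).factorization 7 = 1 := by
  rw [card_NN, show 4096 * 244823040 = 7 * 143256453120 by norm_num,
    Nat.factorization_mul (by norm_num) (by norm_num)]
  have h2 : (Nat.factorization 143256453120) 7 = 0 := Nat.factorization_eq_zero_of_not_dvd (by norm_num)
  rw [Finsupp.add_apply, Nat.Prime.factorization_self (by norm_num : Nat.Prime 7), h2]

variable {G : Type*} [Group G] [Finite G] {z : G} {Q : Subgroup (CC z)} [Q.Normal]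
  {e : (CC z) ⧸ Q ≃* Spor.Co1} {ψ : leechLattice → Q ⧸ Subgroup.center Q}

/-- The `7`-part of the order of the centralizer of `z, s`. -/
theorem fact_XX (D : Data z Q e ψ) {s : G} (hrep : Rep ψ (e8 (pt 5)) s) (hs1 : s ≠ 1) (hsz : s ≠ z) :
    (Nat.card ↥(Subgroup.centralizer ({z, s} : Set G))).factorization 7 = 1 := by
  classical
  set X := Subgroup.centralizer ({z, s} : Set G) with hX
  have hp5 : Nat.Prime 7 := by norm_num
  -- lower bound
  have hdvd : 7 ∣ Nat.card X := by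
    have hg0 := monoCo0_cong empty_mem_codeSets xi7_mem (pt 5)
    obtain ⟨u, hu⟩ := hg0
    obtain ⟨c, hc, hcs⟩ := D.exists_lift_comm hrep hs1 hsz (g := x7) hu
    have hcX : (c : G) ∈ X := mem_XX.2 ⟨c.2, hcs⟩
    have h1 : orderOf (phi Q e c) ∣ orderOf c := orderOf_map_dvd _ _
    rw [hc, orderOf_mkCo_x7] at h1
    have h2 : orderOf c = orderOf (c : G) := Subgroup.orderOf_coe c |>.symm
    have h3 : orderOf (⟨c, hcX⟩ : X) = orderOf (c : G) := Subgroup.orderOf_mk _ _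
    rw [h2, ← h3] at h1
    exact h1.trans (orderOf_dvd_natCard _)
  -- upper bound
  have hle : X ≤ CC z := by
    intro x hx
    exact (mem_XX.1 hx).1
  set T : Subgroup (CC z) := X.subgroupOf (CC z) with hT
  have hcT : Nat.card T = Nat.card X := Nat.card_congr (Subgroup.subgroupOfEquivOfLe hle).toEquiv
  have h1 := Cfsg.Agent.Lib.LargeQuot.card_map_mul (phi Q e) T
  rw [phi_ker] at h1
  -- the image
  have hmap : T.map (phi Q e) ≤ NN.map mkCo := by
    rintro _ ⟨c, hc, rfl⟩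
    obtain ⟨g, hg⟩ := exists_lift' (Q := Q) (e := e) c
    have hc' : (c : G) ∈ X := hc
    exact ⟨g, lift_mono D hrep (mem_XX.1 hc').2 hg, hg⟩
  have hd1 : Nat.card (T.map (phi Q e)) ∣ 4096 * 244823040 := by
    have h2 := Subgroup.card_dvd_of_le hmap
    have h3 : Nat.card (NN.map mkCo) ∣ Nat.card NN := by
      have h4 := Cfsg.Agent.Lib.LargeQuot.card_map_mul mkCo NN
      exact ⟨_, h4.symm⟩
    rw [card_NN] at h3
    exact h2.trans h3
  -- the kernel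
  obtain ⟨j, -, hj⟩ : ∃ j ≤ 25, Nat.card ↥(Q.subgroupOf T) = 2 ^ j := by
    have h2 : Nat.card ↥(Q.subgroupOf T) ∣ 2 ^ 25 := by
      have h3 : Nat.card Q = 2 ^ 25 := by
        have h4 := D.set.2.2.2.1
        rw [h4]
      rw [← h3]
      have h5 : Nat.card ↥((Q.subgroupOf T).map T.subtype) = Nat.card ↥(Q.subgroupOf T) :=
        Subgroup.card_map_of_injective T.subtype_injective
      rw [← h5]
      apply Subgroup.card_dvd_of_le
      rintro _ ⟨y, hy, rfl⟩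
      exact hy
    exact (Nat.dvd_prime_pow Nat.prime_two).1 h2
  rw [hj, hcT] at h1
  have hcop : Nat.Coprime 49 (2 ^ j) := Nat.Coprime.pow_right _ (by norm_num)
  have hnot25 : ¬ 49 ∣ Nat.card X := by
    intro h
    rw [← h1] at h
    have h2 := hcop.dvd_of_dvd_mul_right h
    have h3 := h2.trans hd1
    revert h3
    norm_num
  have hpos : Nat.card X ≠ 0 := Nat.card_pos.ne'
  have h4 : (Nat.card X).factorization 7 ≠ 0 := by
    intro h
    have := (Nat.factorization_eq_zero_iff _ _).1 h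
    rcases this with h5 | h5 | h5
    · exact h5 hp5
    · exact h5 hdvd
    · exact hpos h5
  have h5 : ¬ 2 ≤ (Nat.card X).factorization 7 := by
    intro h
    apply hnot25
    exact (hp5.pow_dvd_iff_le_factorization hpos).2 h
  omega

/-- The `7`-part of the order of the centralizer of `z, s`, for any conjugate `s`. -/
theorem fact_any (D : Data z Q e ψ) (T : CoTrans) {s : G} (hsQ : s ∈ Q0 Q) (hs : IsConj z s) (hsz : s ≠ z) :
    (Nat.card ↥(Subgroup.centralizer ({z, s} : Set G))).factorization 7 = 1 := by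
  have hS := D.setting
  have hs1 : s ≠ 1 := by
    rintro rfl
    exact hS.extra.ne_one (isConj_one_left.1 hs)
  obtain ⟨hc, hq⟩ := D.mem_Q0_iff.1 hsQ
  obtain ⟨v, h64, hψv⟩ := (conj_iff D T ⟨⟨s, hc⟩, hq⟩).1 ⟨hs, hsz⟩
  have hrep0 : Rep ψ v s := ⟨hc, hq, hψv⟩
  obtain ⟨g, u, hg⟩ := T.t64' h64 (sqNorm_e8 (pt 5))
  have D₁ := twist D g
  have hrep1 : Rep (fun v => ψ ((g⁻¹ : Co0).1 v)) (e8 (pt 5)) s := by
    have h1 := rep_twist hrep0 g
    rw [hg] at h1
    have h2 := D₁.rep_congr h1 (-u)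
    have e1 : e8 (pt 5) + (u + u) + (-u + -u) = e8 (pt 5) := by abel
    rwa [e1] at h2
  exact fact_XX D₁ hrep1 hs1 hsz

/-- The normal form. -/
theorem exists_normal (D : Data z Q e ψ) (T : CoTrans) {s : G} (hsQ : s ∈ Q0 Q) (hs : IsConj z s) (hsz : s ≠ z)
    {B : Subgroup G} (hB : B ≤ Subgroup.centralizer ({z, s} : Set G))
    (hBp : Nat.card B = 7 ^ (Nat.card ↥(Subgroup.centralizer ({z, s} : Set G))).factorization 7) :
    ∃ (e' : (CC z) ⧸ Q ≃* Spor.Co1) (ψ' : leechLattice → Q ⧸ Subgroup.center Q) (b : G) (hb : b ∈ CC z),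
      Data z Q e' ψ' ∧ Rep ψ' (e8 (pt 5)) s ∧ B = Subgroup.zpowers b ∧ phi Q e' ⟨b, hb⟩ = mkCo x7 ∧
        b * s = s * b ∧ b ^ 7 = 1 ∧ b ≠ 1 ∧
        (Nat.card ↥(Subgroup.centralizer ({z, s} : Set G))).factorization 7 = 1 := by
  classical
  have hseven : Fact (Nat.Prime 7) := ⟨by norm_num⟩
  have hS := D.setting
  have hs1 : s ≠ 1 := by
    rintro rfl
    exact hS.extra.ne_one (isConj_one_left.1 hs)
  obtain ⟨hc, hq⟩ := D.mem_Q0_iff.1 hsQ
  obtain ⟨v, h64, hψv⟩ := (conj_iff D T ⟨⟨s, hc⟩, hq⟩).1 ⟨hs, hsz⟩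
  have hrep0 : Rep ψ v s := ⟨hc, hq, hψv⟩
  obtain ⟨g, u, hg⟩ := T.t64' h64 (sqNorm_e8 (pt 5))
  -- first twist
  have D₁ := twist D g
  have hrep1 : Rep (fun v => ψ ((g⁻¹ : Co0).1 v)) (e8 (pt 5)) s := by
    have h1 := rep_twist hrep0 g
    rw [hg] at h1
    have h2 := D₁.rep_congr h1 (-u)
    have e1 : e8 (pt 5) + (u + u) + (-u + -u) = e8 (pt 5) := by abel
    rwa [e1] at h2
  generalize hψ₁ : (fun v => ψ ((g⁻¹ : Co0).1 v)) = ψ₁ at D₁ hrep1
  generalize he₁ : e.trans (MulAut.conj (mkCo g : Spor.Co1)) = e₁ at D₁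
  have hfac := fact_XX D₁ hrep1 hs1 hsz
  -- the order of `B`
  have hcard : Nat.card B = 7 := by
    rw [hBp, hfac, pow_one]
  have hnt : Nontrivial B := by
    rw [← Finite.one_lt_card_iff_nontrivial, hcard]
    norm_num
  obtain ⟨⟨b, hbB⟩, hb1⟩ := exists_ne (1 : B)
  have hb1' : b ≠ 1 := fun h => hb1 (Subtype.ext h)
  have hb5 : b ^ 7 = 1 := by
    have h1 := pow_card_eq_one' (x := (⟨b, hbB⟩ : B))
    rw [hcard] at h1
    exact congrArg Subtype.val h1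
  have hord : orderOf b = 7 := orderOf_eq_prime hb5 hb1'
  have hbX := mem_XX.1 (hB hbB)
  obtain ⟨hbC, hbs⟩ := hbX
  obtain ⟨g₀, hg₀⟩ := exists_lift' (Q := Q) (e := e₁) (⟨b, hbC⟩ : CC z)
  -- a lift of order five
  have h5c : mkCo g₀ ^ 7 = 1 := by
    rw [hg₀, ← map_pow]
    have : (⟨b, hbC⟩ : CC z) ^ 7 = 1 := Subtype.ext hb5
    rw [this, map_one]
  obtain ⟨g₁, hg₁, hg₁5⟩ : ∃ g₁ : Co0, mkCo g₁ = phi Q e₁ (⟨b, hbC⟩ : CC z) ∧ g₁ ^ 7 = 1 := by
    rw [← map_pow] at h5c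
    rcases center_cases (mkCo_eq_one_iff.1 h5c) with h | h
    · exact ⟨g₀, hg₀, h⟩
    · refine ⟨g₀ * negCo0, ?_, ?_⟩
      · rw [map_mul, mkCo_eq_one_iff.2 neg_center, mul_one, hg₀]
      · have hc : Commute g₀ negCo0 := Subgroup.mem_center_iff.1 neg_center g₀
        rw [hc.mul_pow, h]
        have hnn : negCo0 * negCo0 = 1 := by
          apply monoCo0_ext
          intro v
          show ((negCo0 : Co0).1 ((negCo0 : Co0).1 v) : GolayPt → ℤ) = _
          simp only [negCo0_apply, neg_neg]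
          rfl
        have h3 : negCo0 ^ 7 = negCo0 := by
          have h4 : negCo0 ^ 7 = negCo0 * negCo0 * (negCo0 * negCo0) * (negCo0 * negCo0) * negCo0 := by
            simp only [pow_succ, pow_zero, one_mul, mul_assoc]
          rw [h4, hnn, one_mul, one_mul, one_mul]
        rw [h3, hnn]
  have hg₁N : g₁ ∈ NN := lift_mono D₁ hrep1 hbs hg₁
  have hbQ : ∀ x ∈ Q0 Q, x ^ 7 = 1 → x = 1 := by
    intro x hx h5
    have h4 : x ^ 2 ^ 2 = 1 := by
      rcases hS.extra.sq x hx with h | h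
      · rw [show (2 : ℕ) ^ 2 = 2 * 2 by norm_num, pow_mul, h, one_pow]
      · rw [show (2 : ℕ) ^ 2 = 2 * 2 by norm_num, pow_mul, h, pow_two]
        exact hS.extra.sq_eq
    exact eq_one_of_two_five ⟨2, h4⟩ (by decide) h5
  have hg₁1 : g₁ ≠ 1 := by
    rintro rfl
    rw [map_one] at hg₁
    have h1 := phi_eq_one_iff.1 hg₁.symm
    exact hb1' (hbQ b ⟨_, h1, rfl⟩ hb5)
  have hordg : orderOf g₁ = 7 := orderOf_eq_prime hg₁5 hg₁1
  -- Sylow in the monomial group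
  haveI : Finite Co0 := finite_Co0
  obtain ⟨l, hl, hm⟩ := sylow_conj (p := 7) (X := NN) (A := Subgroup.zpowers x7) (A' := Subgroup.zpowers g₁)
    (Subgroup.zpowers_le.2 x7_mem_NN) (Subgroup.zpowers_le.2 hg₁N)
    (by rw [Nat.card_zpowers, orderOf_x7, fact_NN, pow_one]) (by rw [Nat.card_zpowers, Nat.card_zpowers, hordg, orderOf_x7])
  have hx7m : x7 ∈ Subgroup.map (MulAut.conj l).toMonoidHom (Subgroup.zpowers g₁) := by
    rw [hm]
    exact Subgroup.mem_zpowers _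
  obtain ⟨_, ⟨m, rfl⟩, hlm⟩ := hx7m
  have hlm' : l * g₁ ^ m * l⁻¹ = x7 := hlm
  -- the new generator
  have hmphi : (⟨b ^ m, (CC z).zpow_mem hbC m⟩ : CC z) = (⟨b, hbC⟩ : CC z) ^ m := rfl
  have hne : b ^ m ≠ 1 := by
    intro h
    have h1 : (⟨b, hbC⟩ : CC z) ^ m = 1 := Subtype.ext h
    have h2 : mkCo (g₁ ^ m) = 1 := by
      rw [map_zpow, hg₁, ← map_zpow, h1, map_one]
    apply mkCo_x7_ne
    rw [← hlm', map_mul, map_mul, h2, mul_one, map_inv, mul_inv_cancel]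
  have hm5 : (b ^ m) ^ 7 = 1 := by
    rw [← zpow_natCast, ← zpow_mul, mul_comm, zpow_mul, zpow_natCast, hb5, one_zpow]
  have hord' : orderOf (b ^ m) = 7 := orderOf_eq_prime hm5 hne
  have hBeq : B = Subgroup.zpowers (b ^ m) := by
    symm
    apply Subgroup.eq_of_le_of_card_ge
    · exact Subgroup.zpowers_le.2 (B.zpow_mem hbB m)
    · rw [hcard, Nat.card_zpowers, hord']
  -- second twist
  have D₂ := twist D₁ l
  refine ⟨e₁.trans (MulAut.conj (mkCo l : Spor.Co1)), fun v => ψ₁ ((l⁻¹ : Co0).1 v), b ^ m, (CC z).zpow_mem hbC m, D₂,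
    ?_, hBeq, ?_, ?_, hm5, hne, hfac⟩
  · obtain ⟨c, σ, hc, hσ, rfl⟩ := hl
    obtain ⟨u', hu'⟩ := monoCo0_cong hc hσ (pt 5)
    have h1 := rep_twist hrep1 (monoCo0 hc hσ)
    rw [hu'] at h1
    have h2 := D₂.rep_congr h1 (-u')
    have e1 : e8 (pt 5) + (u' + u') + (-u' + -u') = e8 (pt 5) := by abel
    rwa [e1] at h2
  · rw [phi_twist, hmphi, map_zpow, ← hg₁, ← map_zpow, ← map_inv, ← map_mul, ← map_mul, hlm']
  · exact Commute.zpow_left hbs m

end Cfsg.Agent.Lib.SevenGp2
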