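import Mathlib
import Cfsg.Agent.Lib.SevenGp2
import Cfsg.Agent.Lib.CoprimeConj
import Cfsg.Agent.Lib.FiveGp3

/-!
# Local computations: the subgroup of `Q` centralizing `b`, lifting elements, the automizer of `⟨b⟩`.
-/

set_option autoImplicit false
set_option maxRecDepth 100000

open Cfsg
open Cfsg.Agent.Lib.LargeExtra Cfsg.Agent.Lib.LargePair Cfsg.Agent.Lib.MonsterLocal
open Cfsg.Agent.Lib.Co0Mono Cfsg.Agent.Lib.Leech
open Cfsg.Agent.Lib.Co0Frame Cfsg.Agent.Lib.MonsterMain Cfsg.Agent.Lib.MonsterBabyA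
open Cfsg.Agent.Lib.Seven1 Cfsg.Agent.Lib.Seven2 Cfsg.Agent.Lib.Seven3 Cfsg.Agent.Lib.Seven4 Cfsg.Agent.Lib.FiveGp1
open Cfsg.Agent.Lib.Co0Order Cfsg.Agent.Lib.SevenGp2 Cfsg.Agent.Lib.SevenData Cfsg.Agent.Lib.MonsterSplit
open Cfsg.Agent.Lib.FiveGp2 (mem_XX rep_twist phi_twist lift_mono)
open Cfsg.Agent.Lib.FiveGp3 (neg_sq neg_ne two_Q0)
open Cfsg.Agent.S0398 (e8 e8_apply neg_center)
open Cfsg.Agent.Lib.Golay (pt idx idx_pt pt_idx idx_lt ap decode idx_decode isM24 decode_mem_M24 isM24_valid)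
open Cfsg.Agent.Lib.CoVec

namespace Cfsg.Agent.Lib.SevenGp3

/-! ### Tables -/

/-- The pairing on the fixed classes is non-degenerate. -/
theorem pairing_tab : ∀ n < 64, n = 0 ∨ ∃ i < 6,
    (((dotA (tab n) (tab (2 ^ i)) : ℕ) : ℤ) - ((dotB (tab n) (tab (2 ^ i)) : ℕ) : ℤ)) % 16 ≠ 0 := by
  decide +kernel

theorem tau7_isM24 : isM24 tau7 = true := by decide +kernel

/-- The element conjugating `x7` to its square. -/
noncomputable def tauP : Equiv.Perm GolayPt := decode tau7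

theorem tauP_mem : tauP ∈ M24 := decode_mem_M24 tau7_isM24

/-- The element of `Co0` conjugating `x7` to its square. -/
noncomputable def y2 : Co0 := monoCo0 empty_mem_codeSets tauP_mem

theorem tau_table : ∀ i < 24, ap c7 (ap tau7 i) = ap tau7 (ap c7 (ap c7 i)) := by decide +kernel

theorem tau_comm : xi7 * tauP = tauP * (xi7 * xi7) := by
  refine Equiv.ext fun p => ?_
  apply Cfsg.Agent.Lib.Golay.idx_injective
  show idx (xi7 (tauP p)) = idx (tauP (xi7 (xi7 p)))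
  have h1 : ∀ q, idx (tauP q) = ap tau7 (idx q) := fun q => idx_decode (isM24_valid tau7_isM24) q
  rw [idx_xi7, h1, h1, idx_xi7, idx_xi7]
  exact tau_table _ (idx_lt p)

theorem y2_conj : y2 * x7 = x7 * x7 * y2 := by
  unfold y2 x7
  rw [monoCo0_mul, monoCo0_mul, monoCo0_mul]
  apply monoCo0_congr
  · simp
  · exact tau_comm

theorem gt_conj : gt * x7 = x7 ^ 6 * gt := by
  have h1 : x7 ^ 7 = 1 := x7_pow
  have h2 : x7 * x7 ^ 6 = 1 := by
    rw [← pow_succ', h1]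
  have h3 := gt_inv
  calc gt * x7 = (x7 ^ 6 * x7) * gt * x7 := by
        rw [← pow_succ, h1, one_mul]
    _ = x7 ^ 6 * (x7 * gt * x7) := by group
    _ = x7 ^ 6 * gt := by rw [h3]

theorem y2_conj' : y2 * x7 = x7 ^ 2 * y2 := by
  rw [y2_conj, pow_two]

/-! ### The element `negCo0` -/

theorem neg_pow7 : negCo0 ^ 7 = negCo0 := by
  have h4 : negCo0 ^ 7 = negCo0 * negCo0 * (negCo0 * negCo0) * (negCo0 * negCo0) * negCo0 := by
    simp only [pow_succ, pow_zero, one_mul, mul_assoc]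
  rw [h4, neg_sq, one_mul, one_mul, one_mul]

/-- Lifts of elements commuting with the image of `x7` commute with `x7`. -/
theorem lift_C7 {g : Co0} (h : mkCo g * mkCo x7 = mkCo x7 * mkCo g) : g ∈ C7 := by
  have h1 : mkCo (g * x7 * g⁻¹ * x7⁻¹) = 1 := by
    simp only [map_mul, map_inv]
    rw [h]
    group
  rcases center_cases (mkCo_eq_one_iff.1 h1) with h2 | h2
  · rw [mem_C7]
    have h3 : g * x7 * g⁻¹ = x7 := mul_inv_eq_one.1 h2
    exact mul_inv_eq_iff_eq_mul.1 h3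
  · exfalso
    have h3 : g * x7 * g⁻¹ = negCo0 * x7 := mul_inv_eq_iff_eq_mul.1 h2
    have h4 : (g * x7 * g⁻¹) ^ 7 = 1 := by
      rw [conj_pow, x7_pow]
      group
    have hcm : Commute negCo0 x7 := (Subgroup.mem_center_iff.1 neg_center x7).symm
    rw [h3, hcm.mul_pow, x7_pow, mul_one, neg_pow7] at h4
    exact neg_ne h4

variable {G : Type*} [Group G] [Finite G] {z : G} {Q : Subgroup (CC z)} [Q.Normal]
  {e : (CC z) ⧸ Q ≃* Spor.Co1} {ψ : leechLattice → Q ⧸ Subgroup.center Q}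

section basics

/-- Elements of `Q` of order dividing five are trivial. -/
theorem Q0_seven (D : Data z Q e ψ) {x : G} (hx : x ∈ Q0 Q) (h5 : x ^ 7 = 1) : x = 1 := by
  have hS := D.setting
  have h4 : x ^ 2 ^ 2 = 1 := by
    rcases hS.extra.sq x hx with h | h
    · rw [show (2 : ℕ) ^ 2 = 2 * 2 by norm_num, pow_mul, h, one_pow]
    · rw [show (2 : ℕ) ^ 2 = 2 * 2 by norm_num, pow_mul, h, pow_two]
      exact hS.extra.sq_eq
  exact eq_one_of_two_five ⟨2, h4⟩ (by decide) h5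

theorem zpowers_seven {b x : G} (hb5 : b ^ 7 = 1) (hx : x ∈ Subgroup.zpowers b) : x ^ 7 = 1 := by
  obtain ⟨i, rfl⟩ := hx
  show (b ^ i) ^ 7 = 1
  rw [← zpow_natCast, ← zpow_mul, mul_comm, zpow_mul, zpow_natCast, hb5, one_zpow]

theorem inter_B (D : Data z Q e ψ) {b x : G} (hb5 : b ^ 7 = 1) (hx : x ∈ Q0 Q) (hB : x ∈ Subgroup.zpowers b) : x = 1 :=
  Q0_seven D hx (zpowers_seven hb5 hB)

end basics

/-- The data. -/
structure Nf (z : G) (Q : Subgroup (CC z)) [Q.Normal] (e : (CC z) ⧸ Q ≃* Spor.Co1)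
    (ψ : leechLattice → Q ⧸ Subgroup.center Q) (s b : G) : Prop where
  D : Data z Q e ψ
  T : CoTrans
  hrep : Rep ψ (e8 (pt 5)) s
  hs : IsConj z s
  hsz : s ≠ z
  hbC : b ∈ CC z
  hphi : phi Q e ⟨b, hbC⟩ = mkCo x7
  hbs : b * s = s * b
  hb5 : b ^ 7 = 1
  hb1 : b ≠ 1
  hfac : (Nat.card ↥(Subgroup.centralizer ({z, s} : Set G))).factorization 7 = 1

namespace Nf

variable {s b : G} (N : Nf z Q e ψ s b)
include N

theorem hs1 : s ≠ 1 := by
  rintro rfl
  exact N.D.setting.extra.ne_one (isConj_one_left.1 N.hs)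

theorem hbz : b * z = z * b := Subgroup.mem_centralizer_singleton_iff.1 N.hbC

/-- Representatives of classes fixed by `x7` commute with `b`. -/
theorem comm_of_fix {v : leechLattice} {y : G} (h : Rep ψ v y) (hv : (x7 : Equiv.Perm leechLattice) v = v) :
    y * b = b * y := by
  have hS := N.D.setting
  have h1 := N.D.rep_conj h (g := x7) (c := ⟨b, N.hbC⟩) N.hphi.symm
  rw [hv] at h1
  change Rep ψ v (b * y * b⁻¹) at h1
  rcases N.D.rep_eq h h1 with h2 | h2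
  · have h3 := mul_inv_eq_iff_eq_mul.1 h2
    exact h3.symm
  · exfalso
    have h3 : b * y = y * z * b := mul_inv_eq_iff_eq_mul.1 h2
    have hc : Commute b z := N.hbz
    have key : ∀ k : ℕ, b ^ k * y = y * z ^ k * b ^ k := by
      intro k
      induction k with
      | zero => simp
      | succ k ih =>
        calc b ^ (k + 1) * y = b * (b ^ k * y) := by rw [pow_succ']; group
          _ = b * (y * z ^ k * b ^ k) := by rw [ih]
          _ = (b * y) * z ^ k * b ^ k := by group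
          _ = y * z * b * z ^ k * b ^ k := by rw [h3]
          _ = y * z * (b * z ^ k) * b ^ k := by group
          _ = y * z * (z ^ k * b) * b ^ k := by rw [(hc.pow_right k).eq]
          _ = y * z ^ (k + 1) * b ^ (k + 1) := by
            rw [pow_succ' z k, pow_succ' b k]
            group
    have h5 := key 7
    rw [N.hb5, one_mul, mul_one] at h5
    have hz5 : z ^ 7 = 1 := by
      have h6 : y * z ^ 7 = y * 1 := by rw [← h5, mul_one]
      exact mul_left_cancel h6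
    have hzz : z * z = 1 := hS.extra.sq_eq
    apply hS.extra.ne_one
    have h7 : z ^ 7 = z * z * (z * z) * (z * z) * z := by
      simp only [pow_succ, pow_zero, one_mul, mul_assoc]
    rw [h7, hzz, one_mul, one_mul, one_mul] at hz5
    exact hz5

/-- Elements commuting with `b` are represented by vectors from the table. -/
theorem rep_M {y : G} (hy : y ∈ Q0 Q) (hc : b * y = y * b) : ∃ a < 64, Rep ψ (M a) y := by
  obtain ⟨v, hv⟩ := N.D.exists_rep hy
  obtain ⟨u, hu⟩ := N.D.fix_of_comm hv (g := x7) (c := ⟨b, N.hbC⟩) N.hphi hc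
  obtain ⟨w, hw⟩ := exists_cong_M (v := v) ⟨u, hu⟩
  refine ⟨cc (v : GolayPt → ℤ), cc_lt _, ?_⟩
  have h2 := N.D.rep_congr hv (-w)
  have e1 : v + (-w + -w) = M (cc (v : GolayPt → ℤ)) := by
    nth_rw 1 [hw]
    abel
  rwa [e1] at h2

/-- The elements representing the table. -/
theorem exists_r : ∃ r : ℕ → G, ∀ a, Rep ψ (M a) (r a) := by
  choose r hr using fun a => exists_rep_of (G := G) (z := z) (Q := Q) (ψ := ψ) (M a)
  exact ⟨r, hr⟩

theorem mem_R1 {r : ℕ → G} (hr : ∀ a, Rep ψ (M a) (r a)) {a : ℕ} (ha : a < 64) :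
    r a ∈ Q0 Q ⊓ CC b :=
  ⟨(hr a).mem, Subgroup.mem_centralizer_singleton_iff.2 (N.comm_of_fix (hr a) (x7_M ha))⟩

/-- The order of the centralizer of `b` in `Q`. -/
theorem card_R1 : Nat.card ↥(Q0 Q ⊓ CC b) = 128 := by
  classical
  have hS := N.D.setting
  obtain ⟨r, hr⟩ := N.exists_r
  have hz1 : z ≠ 1 := hS.extra.ne_one
  have hzQ := hS.extra.mem
  have hzb : z ∈ CC b := Subgroup.mem_centralizer_singleton_iff.2 N.hbz.symm
  let f : Fin 64 × Bool → ↥(Q0 Q ⊓ CC b) := fun p =>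
    ⟨r p.1 * (if p.2 then z else 1), (Q0 Q ⊓ CC b).mul_mem (N.mem_R1 hr p.1.2) (by
      split_ifs
      · exact ⟨hzQ, hzb⟩
      · exact Subgroup.one_mem _)⟩
  have hrep : ∀ p : Fin 64 × Bool, Rep ψ (M p.1) ((f p : ↥(Q0 Q ⊓ CC b)) : G) := by
    rintro ⟨a, β⟩
    cases β
    · show Rep ψ (M a) (r a * 1)
      rw [mul_one]
      exact hr a
    · exact N.D.rep_mul_z (hr a)
  have hf : Function.Bijective f := by
    constructor
    · rintro ⟨a, β⟩ ⟨a', β'⟩ h
      have h1 := hrep (a, β)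
      rw [h] at h1
      obtain ⟨u, hu⟩ := N.D.rep_cong h1 (hrep (a', β'))
      have h2 : (a : ℕ) = a' := by
        have h3 := congrArg (fun v : leechLattice => cc (v : GolayPt → ℤ)) hu
        simp only [cc_congr, cc_M a.2, cc_M a'.2] at h3
        exact h3
      have h3 : a = a' := Fin.ext h2
      subst h3
      have h4 : r a * (if β then z else 1) = r a * (if β' then z else 1) := congrArg Subtype.val h
      have h5 := mul_left_cancel h4
      have h6 : β = β' := by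
        cases β <;> cases β'
        · rfl
        · exact absurd (by simpa using h5.symm) hz1
        · exact absurd (by simpa using h5) hz1
        · rfl
      rw [h6]
    · rintro ⟨y, hy, hyb⟩
      have hc : b * y = y * b := (Subgroup.mem_centralizer_singleton_iff.1 hyb).symm
      obtain ⟨a, ha, hrepy⟩ := N.rep_M hy hc
      rcases N.D.rep_eq (hr a) hrepy with h | h
      · refine ⟨(⟨a, ha⟩, false), Subtype.ext ?_⟩
        show r a * 1 = y
        rw [mul_one, h]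
      · refine ⟨(⟨a, ha⟩, true), Subtype.ext ?_⟩
        show r a * z = y
        rw [h]
  rw [← Nat.card_congr (Equiv.ofBijective f hf), Nat.card_prod]
  simp

theorem pairing {n : ℕ} (hn : n < 64) (h0 : n ≠ 0) : ∃ i < 6,
    ¬ (16 : ℤ) ∣ dotInt (M n : GolayPt → ℤ) (M (2 ^ i) : GolayPt → ℤ) := by
  rcases pairing_tab n hn with h | ⟨i, hi, h⟩
  · exact absurd h h0
  · refine ⟨i, hi, fun h1 => h ?_⟩
    rw [M_coe, M_coe, dotInt_dec] at h1
    exact Int.emod_eq_zero_of_dvd h1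

theorem M_zero : ∃ u : leechLattice, M 0 = u + u := by
  have h1 : sqNorm (M 0 : GolayPt → ℤ) = 0 := by
    rw [sqNorm_M]
    have := ((tab_ok 0 (by norm_num)).2.2.2.2.2).2 rfl
    rw [this]
    rfl
  have h2 : (M 0 : GolayPt → ℤ) = 0 := by
    unfold sqNorm at h1
    funext p
    have h3 := (Finset.sum_eq_zero_iff_of_nonneg (fun i _ => sq_nonneg _)).1 h1 p (Finset.mem_univ p)
    simpa using h3
  refine ⟨0, ?_⟩
  apply Subtype.ext
  rw [h2]
  simp

/-- The centre of the centralizer of `b` in `Q`. -/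
theorem cen_R1 {a : G} (ha : a ∈ Q0 Q ⊓ CC b) (hab : ∀ y ∈ Q0 Q ⊓ CC b, a * y = y * a) : a = 1 ∨ a = z := by
  have hc : b * a = a * b := (Subgroup.mem_centralizer_singleton_iff.1 ha.2).symm
  obtain ⟨n, hn, hrepa⟩ := N.rep_M ha.1 hc
  by_cases h0 : n = 0
  · subst h0
    exact (N.D.rep_central_iff hrepa).2 N.M_zero
  · exfalso
    obtain ⟨i, hi, hdvd⟩ := N.pairing hn h0
    obtain ⟨r, hr⟩ := N.exists_r
    have h2i : 2 ^ i < 64 := by
      calc 2 ^ i < 2 ^ 6 := Nat.pow_lt_pow_right (by norm_num) hi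
        _ = 64 := by norm_num
    have h1 := hab _ (N.mem_R1 hr h2i)
    exact hdvd ((rep_comm_iff N.D N.T hrepa (hr _)).1 h1)

theorem non_R1 : ∃ x ∈ Q0 Q ⊓ CC b, ∃ y ∈ Q0 Q ⊓ CC b, x * y ≠ y * x := by
  by_contra hcon
  push Not at hcon
  obtain ⟨r, hr⟩ := N.exists_r
  have h1 := N.cen_R1 (N.mem_R1 hr (a := 1) (by norm_num)) (fun y hy => hcon _ (N.mem_R1 hr (a := 1) (by norm_num)) y hy)
  obtain ⟨u, hu⟩ := (N.D.rep_central_iff (hr 1)).1 h1
  have h2 := congrArg (fun v : leechLattice => cc (v : GolayPt → ℤ)) hu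
  simp only [cc_double, cc_M (show 1 < 64 by norm_num)] at h2
  exact one_ne_zero h2

/-- Elements of the centralizer of `x7` lift to the centralizer of `b`. -/
theorem exists_comm_lift {g : Co0} (hg : g ∈ C7) : ∃ (x : G) (hx : x ∈ CC z), x * b = b * x ∧ phi Q e ⟨x, hx⟩ = mkCo g := by
  have hS := N.D.setting
  obtain ⟨c, hc⟩ := exists_lift (Q := Q) (e := e) (z := z) g
  let bC : CC z := ⟨b, N.hbC⟩
  have hn : ∀ x ∈ Q0 Q, b * x * b⁻¹ ∈ Q0 Q := fun x hx => hS.nQ b N.hbz x hx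
  have hb'7 : ((c : G) * b * (c : G)⁻¹) ^ 7 = 1 := by
    rw [conj_pow, N.hb5]
    group
  have hb' : b⁻¹ * ((c : G) * b * (c : G)⁻¹) ∈ Q0 Q := by
    have h1 : phi Q e (bC⁻¹ * (c * bC * c⁻¹)) = 1 := by
      simp only [map_mul, map_inv]
      rw [hc]
      show (phi Q e ⟨b, N.hbC⟩)⁻¹ * (mkCo g * phi Q e ⟨b, N.hbC⟩ * (mkCo g)⁻¹) = 1
      rw [N.hphi]
      have h2 : mkCo g * mkCo x7 = mkCo x7 * mkCo g := by
        rw [← map_mul, mem_C7.1 hg, map_mul]
      rw [h2]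
      group
    exact ⟨_, phi_eq_one_iff.1 h1, rfl⟩
  obtain ⟨q, hq, hqc⟩ := Cfsg.Agent.Lib.CoprimeConj.coprime_conj (by norm_num) (by decide) (two_Q0 N.D) N.hb5 N.hb1 hn hb'7 hb'
  obtain ⟨hqC, hqq⟩ := N.D.mem_Q0_iff.1 hq
  refine ⟨q * c, (CC z).mul_mem hqC c.2, ?_, ?_⟩
  · have h1 : q * ((c : G) * b * (c : G)⁻¹) * q⁻¹ = b := hqc
    have h2 : q * (c : G) * b = b * (q * (c : G)) := by
      calc q * (c : G) * b = (q * ((c : G) * b * (c : G)⁻¹) * q⁻¹) * (q * (c : G)) := by group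
        _ = b * (q * (c : G)) := by rw [h1]
    exact h2
  · have h1 : (⟨q * c, (CC z).mul_mem hqC c.2⟩ : CC z) = (⟨q, hqC⟩ : CC z) * c := rfl
    rw [h1, map_mul, phi_eq_one_iff.2 hqq, one_mul, hc]

/-- The automizer of `⟨b⟩` in the centralizer of `z`. -/
theorem exists_aut {g : Co0} {k : ℕ} (hk : b ^ k ≠ 1) (hg : g * x7 = x7 ^ k * g) :
    ∃ t ∈ CC z, t * b * t⁻¹ = b ^ k := by
  have hS := N.D.setting
  obtain ⟨c, hc⟩ := exists_lift (Q := Q) (e := e) (z := z) g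
  let bC : CC z := ⟨b, N.hbC⟩
  have hb'7 : ((c : G) * b * (c : G)⁻¹) ^ 7 = 1 := by
    rw [conj_pow, N.hb5]
    group
  have hbk7 : (b ^ k) ^ 7 = 1 := by
    rw [← pow_mul, mul_comm, pow_mul, N.hb5, one_pow]
  have hbkz : (b ^ k) * z = z * (b ^ k) := (Commute.pow_left (show Commute b z from N.hbz) k).eq
  have hn : ∀ x ∈ Q0 Q, b ^ k * x * (b ^ k)⁻¹ ∈ Q0 Q := fun x hx => hS.nQ _ hbkz x hx
  have hb' : (b ^ k)⁻¹ * ((c : G) * b * (c : G)⁻¹) ∈ Q0 Q := by
    have h1 : phi Q e ((bC ^ k)⁻¹ * (c * bC * c⁻¹)) = 1 := by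
      simp only [map_mul, map_inv, map_pow]
      rw [hc]
      show ((phi Q e ⟨b, N.hbC⟩) ^ k)⁻¹ * (mkCo g * phi Q e ⟨b, N.hbC⟩ * (mkCo g)⁻¹) = 1
      rw [N.hphi]
      have h2 : mkCo g * mkCo x7 = mkCo x7 ^ k * mkCo g := by
        rw [← map_mul, hg, map_mul, map_pow]
      rw [h2]
      group
    exact ⟨_, phi_eq_one_iff.1 h1, rfl⟩
  obtain ⟨q, hq, hqc⟩ := Cfsg.Agent.Lib.CoprimeConj.coprime_conj (p := 7) (by norm_num) (by decide) (two_Q0 N.D) hbk7 hk hn hb'7 hb'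
  refine ⟨q * c, (CC z).mul_mem (N.D.mem_Q0_iff.1 hq).1 c.2, ?_⟩
  calc q * (c : G) * b * (q * (c : G))⁻¹ = q * ((c : G) * b * (c : G)⁻¹) * q⁻¹ := by group
    _ = b ^ k := hqc

theorem pow_ne {k : ℕ} (hk : k % 7 ≠ 0) : b ^ k ≠ 1 := by
  intro h
  have hord : orderOf b = 7 := by
    haveI : Fact (Nat.Prime 7) := ⟨by norm_num⟩
    exact orderOf_eq_prime N.hb5 N.hb1
  have h1 := orderOf_dvd_of_pow_eq_one h
  rw [hord] at h1
  exact hk (Nat.mod_eq_zero_of_dvd h1)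

/-- An element of the centralizer of `b` taking `z` to `s`. -/
theorem exists_swap : ∃ w : G, w * b = b * w ∧ w * z * w⁻¹ = s := by
  classical
  have hseven : Fact (Nat.Prime 7) := ⟨by norm_num⟩
  have hS := N.D.setting
  obtain ⟨g₀, hg₀⟩ := isConj_iff.1 N.hs
  have hsQ : s ∈ Q0 Q := N.hrep.mem
  have hP := N.D.pair (g := g₀) (by rw [hg₀]; exact hsQ) (by rw [hg₀]; exact N.hsz)
  obtain ⟨z', hz'Q, hz'⟩ := hP.hzQ'
  have hz'' : g₀ * z' * g₀⁻¹ = z := hz'
  have hzc : IsConj z z' := by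
    refine isConj_iff.2 ⟨g₀⁻¹, ?_⟩
    rw [← hz'']
    group
  have hz'z : z' ≠ z := by
    intro h
    rw [h, hg₀] at hz''
    exact N.hsz hz''
  obtain ⟨c, hcC, hcz⟩ := conj_transitive N.D N.T hz'Q hsQ hzc N.hs hz'z N.hsz
  have hcc : c * z = z * c := Subgroup.mem_centralizer_singleton_iff.1 hcC
  -- the element `w` swaps
  set w := g₀ * c⁻¹ with hw
  have hwz : w * z * w⁻¹ = s := by
    have h1 : c⁻¹ * z * c = z := by
      rw [mul_assoc, ← hcc]
      group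
    calc w * z * w⁻¹ = g₀ * (c⁻¹ * z * c) * g₀⁻¹ := by rw [hw]; group
      _ = s := by rw [h1, hg₀]
  have hws : w * s * w⁻¹ = z := by
    have h1 : c⁻¹ * s * c = z' := by
      rw [← hcz]
      group
    calc w * s * w⁻¹ = g₀ * (c⁻¹ * s * c) * g₀⁻¹ := by rw [hw]; group
      _ = z := by rw [h1, hz'']
  set X := Subgroup.centralizer ({z, s} : Set G) with hX
  have hbX : b ∈ X := mem_XX.2 ⟨N.hbC, N.hbs⟩
  have hb' : w * b * w⁻¹ ∈ X := by
    refine mem_XX.2 ⟨?_, ?_⟩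
    · rw [Subgroup.mem_centralizer_singleton_iff]
      calc w * b * w⁻¹ * z = w * b * (w⁻¹ * z * w) * w⁻¹ := by group
        _ = w * b * s * w⁻¹ := by
          have h1 : w⁻¹ * z * w = s := by
            rw [← hws]
            group
          rw [h1]
        _ = w * s * b * w⁻¹ := by rw [mul_assoc w b s, N.hbs, ← mul_assoc]
        _ = (w * s * w⁻¹) * (w * b * w⁻¹) := by group
        _ = z * (w * b * w⁻¹) := by rw [hws]
    · calc w * b * w⁻¹ * s = w * b * (w⁻¹ * s * w) * w⁻¹ := by group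
        _ = w * b * z * w⁻¹ := by
          have h1 : w⁻¹ * s * w = z := by
            rw [← hwz]
            group
          rw [h1]
        _ = w * z * b * w⁻¹ := by rw [mul_assoc w b z, N.hbz, ← mul_assoc]
        _ = (w * z * w⁻¹) * (w * b * w⁻¹) := by group
        _ = s * (w * b * w⁻¹) := by rw [hwz]
  have hord : orderOf b = 7 := orderOf_eq_prime N.hb5 N.hb1
  have hord' : orderOf (w * b * w⁻¹) = 7 := by
    have h1 : w * b * w⁻¹ = MulAut.conj w b := rfl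
    rw [h1, MulEquiv.orderOf_eq, hord]
  obtain ⟨l, hl, hm⟩ := sylow_conj (p := 7) (X := X) (A := Subgroup.zpowers b) (A' := Subgroup.zpowers (w * b * w⁻¹))
    (Subgroup.zpowers_le.2 hbX) (Subgroup.zpowers_le.2 hb')
    (by rw [Nat.card_zpowers, hord, N.hfac, pow_one]) (by rw [Nat.card_zpowers, Nat.card_zpowers, hord, hord'])
  have h1 : l * (w * b * w⁻¹) * l⁻¹ ∈ Subgroup.zpowers b := by
    rw [← hm]
    exact ⟨_, Subgroup.mem_zpowers _, rfl⟩
  obtain ⟨k, hk⟩ := h1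
  have hk' : b ^ k = l * (w * b * w⁻¹) * l⁻¹ := hk
  obtain ⟨hlz, hls⟩ := mem_XX.1 hl
  have hlz' : l * z = z * l := Subgroup.mem_centralizer_singleton_iff.1 hlz
  have hks : k % 7 ≠ 0 := by
    intro h0
    have h2 : b ^ k = 1 := by
      have h3 : k = 7 * (k / 7) := by omega
      rw [h3, zpow_mul]
      have h4 : b ^ (7 : ℤ) = 1 := by
        rw [show (7 : ℤ) = ((7 : ℕ) : ℤ) by norm_num, zpow_natCast, N.hb5]
      rw [h4, one_zpow]
    rw [h2] at hk'
    apply N.hb1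
    have h3 : l * w * b * (l * w)⁻¹ = 1 := by
      rw [hk']
      group
    have h4 := mul_inv_eq_one.1 h3
    exact mul_eq_left.1 h4
  -- the automizer in the centralizer of `z`
  obtain ⟨n, hnC, hnb⟩ := N.exists_aut (k := 2) (N.pow_ne (by norm_num)) y2_conj'
  obtain ⟨t, htC, htb⟩ := N.exists_aut (k := 6) (N.pow_ne (by norm_num)) gt_conj
  have hnz : n * z = z * n := Subgroup.mem_centralizer_singleton_iff.1 hnC
  have htz : t * z = z * t := Subgroup.mem_centralizer_singleton_iff.1 htC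
  have ht6 : b ^ 6 = b⁻¹ := by
    apply eq_inv_of_mul_eq_one_left
    rw [← pow_succ, N.hb5]
  have hj : ∃ (i : ℕ) (j : ℕ), (6 ^ i * 2 ^ j * k) % 7 = 1 := by
    have h3 : k % 7 = 1 ∨ k % 7 = 2 ∨ k % 7 = 3 ∨ k % 7 = 4 ∨ k % 7 = 5 ∨ k % 7 = 6 := by omega
    rcases h3 with h3 | h3 | h3 | h3 | h3 | h3
    · exact ⟨0, 0, by norm_num; omega⟩
    · exact ⟨0, 2, by norm_num; omega⟩
    · exact ⟨1, 1, by norm_num; omega⟩
    · exact ⟨0, 1, by norm_num; omega⟩
    · exact ⟨1, 2, by norm_num; omega⟩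
    · exact ⟨1, 0, by norm_num; omega⟩
  obtain ⟨i, j, hij⟩ := hj
  -- conjugation by powers
  have hpow : ∀ {n' : G} {c : ℕ}, n' * b * n'⁻¹ = b ^ c → ∀ i : ℕ, n' ^ i * b * (n' ^ i)⁻¹ = b ^ (c ^ i) := by
    intro n' c hn' i
    induction i with
    | zero => simp
    | succ i ih =>
      calc n' ^ (i + 1) * b * (n' ^ (i + 1))⁻¹ = n' ^ i * (n' * b * n'⁻¹) * (n' ^ i)⁻¹ := by
            rw [pow_succ]; group
        _ = n' ^ i * b ^ c * (n' ^ i)⁻¹ := by rw [hn']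
        _ = (n' ^ i * b * (n' ^ i)⁻¹) ^ c := by rw [conj_pow]
        _ = (b ^ (c ^ i)) ^ c := by rw [ih]
        _ = b ^ (c ^ (i + 1)) := by rw [← pow_mul, pow_succ]
  have hzpow : ∀ {n' : G}, n' * z = z * n' → ∀ i : ℕ, n' ^ i * z * (n' ^ i)⁻¹ = z := by
    intro n' hn' i
    have h2 : Commute (n' ^ i) z := Commute.pow_left hn' i
    rw [h2.eq]
    group
  set W₀ := l * w with hW₀
  have hW₀b : W₀ * b * W₀⁻¹ = b ^ k := by
    rw [hk']
    rw [hW₀]
    group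
  have hW₀z : W₀ * z * W₀⁻¹ = s := by
    calc W₀ * z * W₀⁻¹ = l * (w * z * w⁻¹) * l⁻¹ := by rw [hW₀]; group
      _ = l * s * l⁻¹ := by rw [hwz]
      _ = s := by
        rw [hls]
        group
  set u := t ^ i * n ^ j with hu
  have hub : u * b * u⁻¹ = b ^ (6 ^ i * 2 ^ j) := by
    calc u * b * u⁻¹ = t ^ i * (n ^ j * b * (n ^ j)⁻¹) * (t ^ i)⁻¹ := by rw [hu]; group
      _ = t ^ i * b ^ (2 ^ j) * (t ^ i)⁻¹ := by rw [hpow (by rw [hnb]) j]
      _ = (t ^ i * b * (t ^ i)⁻¹) ^ (2 ^ j) := by rw [conj_pow]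
      _ = (b ^ (6 ^ i)) ^ (2 ^ j) := by rw [hpow (by rw [htb]) i]
      _ = _ := by rw [← pow_mul]
  have huz : u * z * u⁻¹ = z := by
    calc u * z * u⁻¹ = t ^ i * (n ^ j * z * (n ^ j)⁻¹) * (t ^ i)⁻¹ := by rw [hu]; group
      _ = t ^ i * z * (t ^ i)⁻¹ := by rw [hzpow hnz j]
      _ = z := hzpow htz i
  refine ⟨W₀ * u, ?_, ?_⟩
  · have h2 : (W₀ * u) * b * (W₀ * u)⁻¹ = b := by
      calc (W₀ * u) * b * (W₀ * u)⁻¹ = W₀ * (u * b * u⁻¹) * W₀⁻¹ := by group
        _ = W₀ * b ^ (6 ^ i * 2 ^ j) * W₀⁻¹ := by rw [hub]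
        _ = (W₀ * b * W₀⁻¹) ^ (6 ^ i * 2 ^ j) := by rw [conj_pow]
        _ = (b ^ k) ^ (6 ^ i * 2 ^ j) := by rw [hW₀b]
        _ = b ^ (k * ((6 ^ i * 2 ^ j : ℕ) : ℤ)) := by rw [← zpow_natCast, ← zpow_mul]
        _ = b := by
          have h4 : b ^ (k * ((6 ^ i * 2 ^ j : ℕ) : ℤ)) = b ^ (1 : ℤ) := by
            rw [zpow_eq_zpow_iff_modEq, hord]
            push_cast
            unfold Int.ModEq
            have e : k * (6 ^ i * 2 ^ j) = 6 ^ i * 2 ^ j * k := by ring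
            rw [e]
            exact_mod_cast hij
          rw [h4, zpow_one]
    exact mul_inv_eq_iff_eq_mul.1 h2
  · calc (W₀ * u) * z * (W₀ * u)⁻¹ = W₀ * (u * z * u⁻¹) * W₀⁻¹ := by group
      _ = s := by rw [huz, hW₀z]

end Nf

end Cfsg.Agent.Lib.SevenGp3
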