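import Mathlib
import Cfsg.Agent.Lib.SevenGp3
import Cfsg.Agent.Lib.CoverW2

/-!
# The centralizer of `B` modulo `B` is of Held type.
-/

set_option autoImplicit false

open Cfsg
open Cfsg.Agent.Lib.LargeExtra Cfsg.Agent.Lib.LargePair Cfsg.Agent.Lib.MonsterLocal
open Cfsg.Agent.Lib.Co0Mono Cfsg.Agent.Lib.Leech
open Cfsg.Agent.Lib.Co0Frame Cfsg.Agent.Lib.MonsterMain Cfsg.Agent.Lib.MonsterBabyA
open Cfsg.Agent.Lib.Seven1 Cfsg.Agent.Lib.Seven2 Cfsg.Agent.Lib.Seven3 Cfsg.Agent.Lib.Seven4 Cfsg.Agent.Lib.FiveGp1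
open Cfsg.Agent.Lib.Co0Order Cfsg.Agent.Lib.SevenGp2 Cfsg.Agent.Lib.SevenGp3 Cfsg.Agent.Lib.CoverW
open Cfsg.Agent.Lib.FiveGp2 (mem_XX rep_twist phi_twist lift_mono)
open Cfsg.Agent.Lib.FiveGp3 (neg_sq neg_ne two_Q0)
open Cfsg.Agent.S0398 (e8 e8_apply neg_center)
open Cfsg.Agent.Lib.Golay (pt)

namespace Cfsg.Agent.Lib.SevenGp4

/-- The map from the centralizer of `x7` to `Co1`. -/
noncomputable def im7 : C7 →* Spor.Co1 := mkCo.comp C7.subtype

theorem im7_apply (g : C7) : im7 g = mkCo (g : Co0) := rfl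

/-- The image in `Co1`. -/
noncomputable def K7 : Subgroup Spor.Co1 := im7.range

theorem rr_surj : Function.Surjective im7.rangeRestrict := MonoidHom.rangeRestrict_surjective _

theorem ker_le : (im7.rangeRestrict).ker ≤ rho.ker := by
  intro g hg
  rw [MonoidHom.mem_ker] at hg ⊢
  have h1 : mkCo (g : Co0) = 1 := congrArg Subtype.val hg
  rcases center_cases (mkCo_eq_one_iff.1 h1) with h2 | h2
  · have : g = 1 := Subtype.ext h2
    rw [this, map_one]
  · have : g = negC := Subtype.ext h2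
    rw [this, rho_neg]

/-- The map from the image in `Co1` to the permutations of the ten lines. -/
noncomputable def rhoK : K7 →* SL3 :=
  (im7.rangeRestrict).liftOfSurjective rr_surj ⟨rho, ker_le⟩

theorem rhoK_apply (g : C7) (y : K7) (h : (y : Spor.Co1) = mkCo (g : Co0)) : rhoK y = rho g := by
  have h1 : y = im7.rangeRestrict g := Subtype.ext h
  rw [h1]
  exact (im7.rangeRestrict).liftOfRightInverse_comp_apply _ _ ⟨rho, ker_le⟩ g

variable {G : Type*} [Group G] [Finite G] {z : G} {Q : Subgroup (CC z)} [Q.Normal]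
  {e : (CC z) ⧸ Q ≃* Spor.Co1} {ψ : leechLattice → Q ⧸ Subgroup.center Q}

/-- Conjugacy of elements of the subgroup, in the centralizer of `b`. -/
theorem swap_of_conj {s b : G} (N : Nf z Q e ψ s b) {x : G} (hx : x ∈ Q0 Q) (hxb : b * x = x * b) (hc : IsConj z x) (hxz : x ≠ z) :
    ∃ w : G, w * b = b * w ∧ w * z * w⁻¹ = x := by
  have hseven : Fact (Nat.Prime 7) := ⟨by norm_num⟩
  have hord : orderOf b = 7 := orderOf_eq_prime N.hb5 N.hb1
  obtain ⟨e', ψ', b', hb', D', hrep, hBe, hphi, hbs, hb5, hb1, hfac⟩ := exists_normal N.D N.T hx hc hxz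
    (B := Subgroup.zpowers b) (Subgroup.zpowers_le.2 (mem_XX.2 ⟨N.hbC, hxb⟩))
    (by rw [Nat.card_zpowers, hord, fact_any N.D N.T hx hc hxz, pow_one])
  have N' : Nf z Q e' ψ' x b' := ⟨D', N.T, hrep, hc, hxz, hb', hphi, hbs, hb5, hb1, hfac⟩
  obtain ⟨w, hw1, hw2⟩ := N'.exists_swap
  refine ⟨w, ?_, hw2⟩
  have hbm : b ∈ Subgroup.zpowers b' := by
    rw [← hBe]
    exact Subgroup.mem_zpowers b
  obtain ⟨i, hi⟩ := hbm
  have hi' : b' ^ i = b := hi
  rw [← hi']
  exact (Commute.zpow_right (show Commute w b' from hw1) i).eq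

/-- The classes with conjugates of `z`. -/
theorem conj_iff_nt {s b : G} (N : Nf z Q e ψ s b) {y : G} {a : ℕ} (hy : Rep ψ (M a) y) :
    (IsConj z y ∧ y ≠ z) ↔ nt a = 64 := by
  obtain ⟨hc, hq, hv⟩ := hy
  have h0 := conj_iff N.D N.T (⟨⟨y, hc⟩, hq⟩ : Q)
  constructor
  · intro h
    obtain ⟨v, hv64, hv2⟩ := h0.1 h
    have hv' : Rep ψ v y := ⟨hc, hq, hv2⟩
    obtain ⟨u, hu⟩ := N.D.rep_cong hv' ⟨hc, hq, hv⟩
    have h1 := sqNorm_M a
    have h2 : (nt a : ℤ) ≤ 64 := by
      rcases nt_cases a with h | h | h | h <;> (rw [h]; norm_num)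
    have h3 : (v : GolayPt → ℤ) - (M a : GolayPt → ℤ) = (2 : ℕ) • (u : GolayPt → ℤ) := by
      rw [hu, two_nsmul]
      simp only [AddSubgroup.coe_add]
      abel
    rcases Cfsg.Agent.Lib.LeechCong.cong_main (M a).2 u.2 (by omega) (by omega) h3 with h4 | h4 | h4
    · rw [h4, h1] at hv64
      exact_mod_cast hv64
    · rw [h4, Cfsg.Agent.Lib.LeechCong.sqNorm_neg, h1] at hv64
      exact_mod_cast hv64
    · rw [h1] at h4
      exact_mod_cast h4.2.1
  · intro h
    apply h0.2
    refine ⟨M a, ?_, hv⟩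
    rw [sqNorm_M, h]
    rfl

theorem card_P : Nat.card {p : Fin 64 × Bool // nt p.1 = 64} = 28 := by
  rw [Nat.card_eq_fintype_card]
  decide +kernel

/-- The number of conjugates of `z` in the centralizer of `b` in `Q`. -/
theorem ncard_T {s b : G} (N : Nf z Q e ψ s b) : Set.ncard {y : G | y ∈ Q0 Q ⊓ CC b ∧ IsConj z y} = 29 := by
  classical
  have hS := N.D.setting
  obtain ⟨r, hr⟩ := N.exists_r
  have hzQ := hS.extra.mem
  have hz1 : z ≠ 1 := hS.extra.ne_one
  let f : {p : Fin 64 × Bool // nt p.1 = 64} → G := fun p => r p.1.1 * (if p.1.2 then z else 1)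
  have hrep : ∀ p : {p : Fin 64 × Bool // nt p.1 = 64}, Rep ψ (M p.1.1) (f p) := by
    rintro ⟨⟨a, β⟩, h⟩
    cases β
    · show Rep ψ (M a) (r a * 1)
      rw [mul_one]
      exact hr a
    · exact N.D.rep_mul_z (hr a)
  have hf : Function.Injective f := by
    rintro ⟨⟨a, β⟩, h⟩ ⟨⟨a', β'⟩, h'⟩ e
    have h1 := hrep ⟨(a, β), h⟩
    rw [e] at h1
    obtain ⟨u, hu⟩ := N.D.rep_cong h1 (hrep ⟨(a', β'), h'⟩)
    have h2 : (a : ℕ) = a' := by
      have h3 := congrArg (fun v : leechLattice => cc (v : GolayPt → ℤ)) hu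
      simp only [cc_congr, cc_M a.2, cc_M a'.2] at h3
      exact h3
    have h3 : a = a' := Fin.ext h2
    subst h3
    have h4 : r a * (if β then z else 1) = r a * (if β' then z else 1) := e
    have h5 := mul_left_cancel h4
    have h6 : β = β' := by
      cases β <;> cases β'
      · rfl
      · exact absurd (by simpa using h5.symm) hz1
      · exact absurd (by simpa using h5) hz1
      · rfl
    subst h6
    rfl
  have hT : {y : G | y ∈ Q0 Q ⊓ CC b ∧ IsConj z y} = insert z (Set.range f) := by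
    ext y
    constructor
    · rintro ⟨hy, hc⟩
      by_cases hyz : y = z
      · left
        exact hyz
      · right
        have hcb : b * y = y * b := (Subgroup.mem_centralizer_singleton_iff.1 hy.2).symm
        obtain ⟨a, ha, hrepy⟩ := N.rep_M hy.1 hcb
        have h64 := (conj_iff_nt N hrepy).1 ⟨hc, hyz⟩
        rcases N.D.rep_eq (hr a) hrepy with h | h
        · refine ⟨⟨(⟨a, ha⟩, false), h64⟩, ?_⟩
          show r a * 1 = y
          rw [mul_one, h]
        · refine ⟨⟨(⟨a, ha⟩, true), h64⟩, ?_⟩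
          show r a * z = y
          rw [h]
    · rintro (rfl | ⟨p, rfl⟩)
      · refine ⟨⟨hzQ, ?_⟩, IsConj.refl _⟩
        exact Subgroup.mem_centralizer_singleton_iff.2 N.hbz.symm
      · have h1 := (conj_iff_nt N (hrep p)).2 p.2
        have h2 : f p ∈ Q0 Q ⊓ CC b := by
          have hm := N.mem_R1 hr p.1.1.2
          refine (Q0 Q ⊓ CC b).mul_mem hm ?_
          split_ifs
          · exact ⟨hzQ, Subgroup.mem_centralizer_singleton_iff.2 N.hbz.symm⟩
          · exact Subgroup.one_mem _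
        exact ⟨h2, h1.1⟩
  have hnot : z ∉ Set.range f := by
    rintro ⟨p, hp⟩
    have h1 := (conj_iff_nt N (hrep p)).2 p.2
    exact h1.2 hp
  have hfin : (Set.range f).Finite := Set.toFinite _
  rw [hT, Set.ncard_insert_of_notMem hnot hfin, ← Set.image_univ, Set.ncard_image_of_injective _ hf, Set.ncard_univ, card_P]

section main

variable {s b : G}

theorem mem_CB {y : G} : y ∈ Subgroup.centralizer ((Subgroup.zpowers b : Subgroup G) : Set G) ↔ y * b = b * y := by
  rw [Subgroup.mem_centralizer_iff]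
  constructor
  · intro h
    exact (h b (Subgroup.mem_zpowers b)).symm
  · rintro h _ ⟨i, rfl⟩
    exact (Commute.zpow_right (show Commute y b from h) i).symm.eq

variable [hn : ((Subgroup.zpowers b).subgroupOf (Subgroup.centralizer ((Subgroup.zpowers b : Subgroup G) : Set G))).Normal]

/-- The main construction. -/
theorem main (N : Nf z Q e ψ s b) :
    IsOfHeldType (↥(Subgroup.centralizer ((Subgroup.zpowers b : Subgroup G) : Set G)) ⧸
      (Subgroup.zpowers b).subgroupOf (Subgroup.centralizer ((Subgroup.zpowers b : Subgroup G) : Set G))) := by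
  classical
  have D := N.D
  have hS := D.setting
  have hzQ0 : z ∈ Q0 Q := hS.extra.mem
  have hzz : z ∈ CC z := Subgroup.mem_centralizer_singleton_iff.2 rfl
  have hbb : b ∈ Subgroup.centralizer ((Subgroup.zpowers b : Subgroup G) : Set G) := mem_CB.2 rfl
  have hzCB : z ∈ Subgroup.centralizer ((Subgroup.zpowers b : Subgroup G) : Set G) := mem_CB.2 N.hbz.symm
  set CB := Subgroup.centralizer ((Subgroup.zpowers b : Subgroup G) : Set G) with hCB
  let NN' := (Subgroup.zpowers b).subgroupOf CB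
  let zb : ↥CB ⧸ NN' := QuotientGroup.mk ⟨z, hzCB⟩
  have hmemN : ∀ y : CB, y ∈ NN' ↔ (y : G) ∈ Subgroup.zpowers b := fun y => Iff.rfl
  let L := ↥(CC z ⊓ CB)
  have hinc : ∀ x : L, ((QuotientGroup.mk' NN').comp (Subgroup.inclusion (inf_le_right : CC z ⊓ CB ≤ CB))) x ∈
      Subgroup.centralizer ({zb} : Set (↥CB ⧸ NN')) := by
    intro x
    rw [Subgroup.mem_centralizer_singleton_iff]
    show (QuotientGroup.mk _ : ↥CB ⧸ NN') * QuotientGroup.mk _ = QuotientGroup.mk _ * QuotientGroup.mk _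
    rw [← QuotientGroup.mk_mul, ← QuotientGroup.mk_mul]
    congr 1
    apply Subtype.ext
    exact Subgroup.mem_centralizer_singleton_iff.1 x.2.1
  let π : L →* Subgroup.centralizer ({zb} : Set (↥CB ⧸ NN')) :=
    ((QuotientGroup.mk' NN').comp (Subgroup.inclusion (inf_le_right : CC z ⊓ CB ≤ CB))).codRestrict _ hinc
  let ζ : L := ⟨z, hzz, hzCB⟩
  have hπeq : ∀ x y : L, π x = π y ↔ (x : G)⁻¹ * (y : G) ∈ Subgroup.zpowers b := by
    intro x y
    constructor
    · intro h
      have h1 : (QuotientGroup.mk (⟨x.1, x.2.2⟩ : CB) : ↥CB ⧸ NN') = QuotientGroup.mk ⟨y.1, y.2.2⟩ := congrArg Subtype.val h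
      have h2 := QuotientGroup.eq.1 h1
      exact h2
    · intro h
      apply Subtype.ext
      show (QuotientGroup.mk (⟨x.1, x.2.2⟩ : CB) : ↥CB ⧸ NN') = QuotientGroup.mk ⟨y.1, y.2.2⟩
      exact QuotientGroup.eq.2 h
  -- the map to the wreath product
  let phiL : L →* Spor.Co1 := (phi Q e).comp (Subgroup.inclusion (inf_le_left : CC z ⊓ CB ≤ CC z))
  have hphiL : ∀ (x : L), phiL x = phi Q e ⟨x.1, x.2.1⟩ := fun x => rfl
  have hbL : b ∈ CC z ⊓ CB := ⟨N.hbC, hbb⟩
  have hphib : phiL ⟨b, hbL⟩ = mkCo x7 := N.hphi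
  have hliftC : ∀ (x : L) (g : Co0), mkCo g = phiL x → g ∈ C7 := by
    intro x g hg
    apply lift_C7
    have h1 : (x : G) * b = b * (x : G) := mem_CB.1 x.2.2
    have h2 : x * ⟨b, hbL⟩ = ⟨b, hbL⟩ * x := Subtype.ext h1
    have h3 := congrArg phiL h2
    rw [map_mul, map_mul, hphib, ← hg] at h3
    exact h3
  have hK : ∀ x : L, phiL x ∈ K7 := by
    intro x
    obtain ⟨g, hg⟩ := exists_lift' (Q := Q) (e := e) (⟨x.1, x.2.1⟩ : CC z)
    exact ⟨⟨g, hliftC x g hg⟩, hg⟩
  let F₀ : L →* SL3 := rhoK.comp (phiL.codRestrict K7 hK)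
  have hF₀ : ∀ (x : L) (g : C7), mkCo (g : Co0) = phiL x → F₀ x = rho g := by
    intro x g hg
    exact rhoK_apply g _ hg.symm
  let F₁ : L →* SL3 := F₀
  have hF₁ : ∀ x : L, F₁ x = 1 ↔ F₀ x = 1 := fun x => Iff.rfl
  let R0 : Subgroup L := (Q0 Q).subgroupOf (CC z ⊓ CB)
  have hmemR0 : ∀ x : L, x ∈ R0 ↔ (x : G) ∈ Q0 Q := fun x => Iff.rfl
  have hR1 : ∀ x : G, x ∈ Q0 Q ⊓ CC b → ∃ hx : x ∈ CC z ⊓ CB, (⟨x, hx⟩ : L) ∈ R0 := by
    intro x hx
    refine ⟨⟨(D.mem_Q0_iff.1 hx.1).1, mem_CB.2 (Subgroup.mem_centralizer_singleton_iff.1 hx.2)⟩, hx.1⟩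
  have hR1' : ∀ x : L, x ∈ R0 → (x : G) ∈ Q0 Q ⊓ CC b := by
    intro x hx
    exact ⟨hx, Subgroup.mem_centralizer_singleton_iff.2 (mem_CB.1 x.2.2)⟩
  have hF₀Q : ∀ x : L, x ∈ R0 → F₀ x = 1 := by
    intro x hx
    obtain ⟨hc, hq⟩ := D.mem_Q0_iff.1 hx
    have h1 := hF₀ x 1 (by
      rw [hphiL]
      show mkCo 1 = _
      rw [map_one]
      exact (phi_eq_one_iff.2 hq).symm)
    rw [h1, map_one]
  have hF₀b : ∀ x : L, (x : G) ∈ Subgroup.zpowers b → F₀ x = 1 := by
    rintro x ⟨i, hi⟩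
    have hi' : b ^ i = (x : G) := hi
    have h1 : x = (⟨b, hbL⟩ : L) ^ i := Subtype.ext hi'.symm
    have h2 := hF₀ ⟨b, hbL⟩ x7C hphib.symm
    rw [h1, map_zpow, h2, rho_x7, one_zpow]
  -- the kernel
  have hker : ∀ x : L, F₀ x = 1 → ∃ r ∈ R0, π x = π r := by
    intro x hx
    obtain ⟨g, hg⟩ := exists_lift' (Q := Q) (e := e) (⟨x.1, x.2.1⟩ : CC z)
    have hgC := hliftC x g hg
    rw [hF₀ x ⟨g, hgC⟩ hg] at hx
    obtain ⟨i, hi⟩ := rho_ker hx
    have h1 : mkCo g = mkCo x7 ^ i := by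
      rcases hi with h | h
      · have h2 : g = x7 ^ i := congrArg Subtype.val h
        rw [h2, map_pow]
      · have h2 : g = x7 ^ i * negCo0 := congrArg Subtype.val h
        rw [h2, map_mul, mkCo_eq_one_iff.2 neg_center, mul_one, map_pow]
    have hbi : b ^ i ∈ CC z ⊓ CB := (CC z ⊓ CB).pow_mem hbL i
    let r : L := x * ((⟨b, hbL⟩ : L) ^ i)⁻¹
    have hrval : (r : G) = (x : G) * (b ^ i)⁻¹ := rfl
    have h2 : phi Q e ⟨r.1, r.2.1⟩ = 1 := by
      rw [← hphiL, map_mul, map_inv, map_pow, hphib, hphiL, ← hg, h1]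
      group
    refine ⟨r, ⟨_, phi_eq_one_iff.1 h2, rfl⟩, ?_⟩
    rw [hπeq, hrval]
    have h3 : (x : G)⁻¹ * ((x : G) * (b ^ i)⁻¹) = (b ^ i)⁻¹ := by group
    rw [h3]
    exact Subgroup.inv_mem _ (Subgroup.pow_mem _ (Subgroup.mem_zpowers b) i)
  -- the order of `R0`
  have hcardR0 : Nat.card R0 = 2 ^ (2 * 3 + 1) := by
    have h1 : R0.map (CC z ⊓ CB).subtype = Q0 Q ⊓ CC b := by
      ext x
      constructor
      · rintro ⟨y, hy, rfl⟩
        exact hR1' y hy
      · intro hx
        obtain ⟨h2, h3⟩ := hR1 x hx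
        exact ⟨⟨x, h2⟩, h3, rfl⟩
    have h2 := N.card_R1
    rw [← h1, Subgroup.card_map_of_injective (CC z ⊓ CB).subtype_injective] at h2
    rw [h2]
    norm_num
  have C : Cover zb π ζ F₁ R0 3 := by
    refine
      { π_surj := ?_
        π_ζ := rfl
        inj := ?_
        F_surj := ?_
        F_ker := ?_
        ζ_mem := hzQ0
        ζ_ne := fun h => hS.extra.ne_one (congrArg Subtype.val h)
        ζ_sq := Subtype.ext hS.extra.sq_eq
        card := hcardR0
        comm := ?_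
        sq := ?_
        cen := ?_
        non := ?_
        hO := sl3_no_normal
        hC := ?_
        weak := ?_ }
    · -- π_surj
      intro d
      obtain ⟨y, hy⟩ := QuotientGroup.mk_surjective (d : ↥CB ⧸ NN')
      have h1 : (QuotientGroup.mk y : ↥CB ⧸ NN') * zb = zb * QuotientGroup.mk y := by
        rw [hy]
        exact Subgroup.mem_centralizer_singleton_iff.1 d.2
      have h2' : (y * ⟨z, hzCB⟩ : CB)⁻¹ * (⟨z, hzCB⟩ * y) ∈ NN' := QuotientGroup.eq.1 h1
      have h2 : ((y : G) * z)⁻¹ * (z * (y : G)) ∈ Subgroup.zpowers b := h2'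
      set c := ((y : G) * z)⁻¹ * (z * (y : G)) with hc
      have hc7 : c ^ 7 = 1 := zpowers_seven N.hb5 h2
      have hcz : c * z = z * c := by
        have hb' : z ∈ Subgroup.centralizer ((Subgroup.zpowers b : Subgroup G) : Set G) := hzCB
        exact (Subgroup.mem_centralizer_iff.1 hb' c h2)
      have hzz' : z * z = 1 := hS.extra.sq_eq
      have hzc : z * c = (y : G)⁻¹ * z * (y : G) := by
        rw [hc]
        have hzi : z⁻¹ = z := inv_eq_of_mul_eq_one_left hzz'
        calc z * (((y : G) * z)⁻¹ * (z * (y : G))) = (z * z⁻¹) * (y : G)⁻¹ * (z * (y : G)) := by group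
          _ = (y : G)⁻¹ * z * (y : G) := by group
      have hc2 : c * c = 1 := by
        have h3 : (z * c) * (z * c) = 1 := by
          rw [hzc]
          calc (y : G)⁻¹ * z * (y : G) * ((y : G)⁻¹ * z * (y : G)) = (y : G)⁻¹ * (z * z) * (y : G) := by group
            _ = 1 := by rw [hzz']; group
        calc c * c = z * z * (c * c) := by rw [hzz', one_mul]
          _ = z * (z * c) * c := by group
          _ = z * (c * z) * c := by rw [hcz]
          _ = (z * c) * (z * c) := by group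
          _ = 1 := h3
      have hc1 : c = 1 := by
        have h7 : c ^ 7 = c * c * (c * c) * (c * c) * c := by
          simp only [pow_succ, pow_zero, one_mul, mul_assoc]
        rw [h7, hc2, one_mul, one_mul, one_mul] at hc7
        exact hc7
      have h3 : (y : G) * z = z * (y : G) := by
        rw [hc] at hc1
        exact (inv_mul_eq_one.1 hc1)
      refine ⟨⟨(y : G), Subgroup.mem_centralizer_singleton_iff.2 h3, y.2⟩, ?_⟩
      apply Subtype.ext
      exact hy
    · -- inj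
      intro q hq h1
      have h2 : π q = π 1 := by rw [h1, map_one]
      have h3 := (hπeq q 1).1 h2
      have h4 : (q : G)⁻¹ ∈ Subgroup.zpowers b := by simpa using h3
      have h5 : (q : G) ∈ Subgroup.zpowers b := by simpa using Subgroup.inv_mem _ h4
      exact Subtype.ext (inter_B D N.hb5 hq h5)
    · -- F_surj
      intro y
      obtain ⟨g, rfl⟩ := rho_surj y
      obtain ⟨x, hx, hxb, hxp⟩ := N.exists_comm_lift g.2
      have hxL : x ∈ CC z ⊓ CB := ⟨hx, mem_CB.2 hxb⟩
      exact ⟨⟨x, hxL⟩, hF₀ ⟨x, hxL⟩ g hxp.symm⟩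
    · -- F_ker
      intro x
      rw [hF₁]
      constructor
      · exact hker x
      · rintro ⟨r, hr, h⟩
        have h1 := (hπeq x r).1 h
        have h2 : x⁻¹ * r = (x⁻¹ * r : L) := rfl
        have h3 := hF₀b (x⁻¹ * r) h1
        rw [map_mul, map_inv, hF₀Q r hr, mul_one, inv_eq_one] at h3
        exact h3
    · -- comm
      intro a ha c hc
      rcases hS.extra.comm _ ((hmemR0 a).1 ha) _ ((hmemR0 c).1 hc) with h | h
      · left
        exact Subtype.ext h
      · right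
        exact Subtype.ext h
    · -- sq
      intro a ha
      rcases hS.extra.sq _ ((hmemR0 a).1 ha) with h | h
      · left
        exact Subtype.ext h
      · right
        exact Subtype.ext h
    · -- cen
      intro a ha hab
      have h1 := N.cen_R1 (hR1' a ha) (by
        intro y hy
        obtain ⟨h2, h3⟩ := hR1 y hy
        exact congrArg Subtype.val (hab ⟨y, h2⟩ h3))
      rcases h1 with h | h
      · left
        exact Subtype.ext h
      · right
        exact Subtype.ext h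
    · -- non
      obtain ⟨x, hx, y, hy, hxy⟩ := N.non_R1
      obtain ⟨h1, h2⟩ := hR1 x hx
      obtain ⟨h3, h4⟩ := hR1 y hy
      exact ⟨⟨x, h1⟩, h2, ⟨y, h3⟩, h4, fun h => hxy (congrArg Subtype.val h)⟩
    · -- hC
      intro x hx
      -- `x` commutes with `R0`
      have hcomm : ∀ q ∈ R0, (x : G) * (q : G) = (q : G) * (x : G) := by
        intro q hq
        have h1 : π (x * q) = π (q * x) := by
          rw [map_mul, map_mul]
          exact hx q hq
        have h2 := (hπeq _ _).1 h1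
        have h4 : (q : G)⁻¹ * ((x : G)⁻¹ * (q : G) * (x : G)) ∈ Q0 Q := by
          refine (Q0 Q).mul_mem ((Q0 Q).inv_mem hq) ?_
          have hxi : (x : G)⁻¹ * z = z * (x : G)⁻¹ :=
            Commute.inv_left (Subgroup.mem_centralizer_singleton_iff.1 x.2.1)
          have := hS.nQ _ hxi _ hq
          simpa using this
        have h5 : ((x * q : L) : G)⁻¹ * ((q * x : L) : G) = (q : G)⁻¹ * ((x : G)⁻¹ * (q : G) * (x : G)) := by
          show ((x : G) * (q : G))⁻¹ * ((q : G) * (x : G)) = _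
          group
        rw [h5] at h2
        have h6 := inter_B D N.hb5 h4 h2
        have h7 : (x : G)⁻¹ * (q : G) * (x : G) = (q : G) := by
          have := inv_mul_eq_one.1 h6
          exact this.symm
        calc (x : G) * (q : G) = (x : G) * ((x : G)⁻¹ * (q : G) * (x : G)) := by rw [h7]
          _ = (q : G) * (x : G) := by group
      -- the lift acts trivially
      apply hker
      obtain ⟨g, hg⟩ := exists_lift' (Q := Q) (e := e) (⟨x.1, x.2.1⟩ : CC z)
      have hgC := hliftC x g hg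
      rw [hF₀ x ⟨g, hgC⟩ hg]
      apply rho_trivial
      intro a ha
      obtain ⟨r, hr⟩ := N.exists_r
      obtain ⟨h1, h2⟩ := hR1 _ (N.mem_R1 hr ha)
      have h3 := hcomm ⟨r a, h1⟩ h2
      obtain ⟨u, hu⟩ := D.fix_of_comm (hr a) hg.symm h3
      show cc ((g : Equiv.Perm leechLattice) (M a) : leechLattice) = a
      rw [hu, cc_congr, cc_M ha]
    · -- weak
      obtain ⟨w, hwb, hwz⟩ := N.exists_swap
      have hwCB : w ∈ CB := mem_CB.2 hwb
      have hsCB : s ∈ CB := mem_CB.2 (N.hbs).symm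
      have hsQ := N.hrep.mem
      have hsC : s ∈ CC z ⊓ CB := ⟨(D.mem_Q0_iff.1 hsQ).1, hsCB⟩
      refine ⟨QuotientGroup.mk ⟨w, hwCB⟩, ⟨s, hsC⟩, hsQ, ?_, ?_⟩
      · show (QuotientGroup.mk _ : ↥CB ⧸ NN') * QuotientGroup.mk _ * (QuotientGroup.mk _)⁻¹ = QuotientGroup.mk _
        rw [← QuotientGroup.mk_inv, ← QuotientGroup.mk_mul, ← QuotientGroup.mk_mul]
        congr 1
        exact Subtype.ext hwz
      · intro h
        have h1 : (QuotientGroup.mk _ : ↥CB ⧸ NN') * QuotientGroup.mk _ * (QuotientGroup.mk _)⁻¹ = QuotientGroup.mk _ := h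
        rw [← QuotientGroup.mk_inv, ← QuotientGroup.mk_mul, ← QuotientGroup.mk_mul] at h1
        have h2 := QuotientGroup.eq.1 h1
        have h3 : ((w * z * w⁻¹))⁻¹ * z ∈ Subgroup.zpowers b := h2
        rw [hwz] at h3
        have h4 := inter_B D N.hb5 ((Q0 Q).mul_mem ((Q0 Q).inv_mem hsQ) hzQ0) h3
        exact N.hsz (inv_mul_eq_one.1 h4)
  obtain ⟨hset, hiso⟩ := C.setting'
  refine ⟨zb, C.F.ker, inferInstance, hset, hiso, ?_⟩
  rw [← ncard_T N]
  symm
  apply Set.ncard_congr (fun y hy => π ⟨y, (hR1 y hy.1).choose⟩)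
  · -- the map lands in the set
    intro y hy
    have hmem := (hR1 y hy.1).choose_spec
    refine ⟨C.mem_ker_iff.2 ⟨_, hmem, rfl⟩, ?_⟩
    by_cases hyz : y = z
    · subst hyz
      exact IsConj.refl _
    · obtain ⟨w, hwb, hwz⟩ := swap_of_conj N hy.1.1 (Subgroup.mem_centralizer_singleton_iff.1 hy.1.2).symm hy.2 hyz
      refine isConj_iff.2 ⟨QuotientGroup.mk ⟨w, mem_CB.2 hwb⟩, ?_⟩
      show (QuotientGroup.mk _ : ↥CB ⧸ NN') * QuotientGroup.mk _ * (QuotientGroup.mk _)⁻¹ = QuotientGroup.mk _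
      rw [← QuotientGroup.mk_inv, ← QuotientGroup.mk_mul, ← QuotientGroup.mk_mul]
      congr 1
      exact Subtype.ext hwz
  · -- injective
    intro y y' hy hy' h
    have hm := (hR1 y hy.1).choose_spec
    have hm' := (hR1 y' hy'.1).choose_spec
    have h1 := (hπeq _ _).1 h
    have h2 : y⁻¹ * y' ∈ Q0 Q := (Q0 Q).mul_mem ((Q0 Q).inv_mem hy.1.1) hy'.1.1
    have h3 := inter_B D N.hb5 h2 h1
    exact inv_mul_eq_one.1 h3
  · -- surjective
    rintro x ⟨hx, hxc⟩
    obtain ⟨q, hq, rfl⟩ := C.mem_ker_iff.1 hx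
    have hq' := hR1' q hq
    refine ⟨(q : G), ⟨hq', ?_⟩, ?_⟩
    · -- the element is conjugate to `z`
      obtain ⟨c, hc⟩ := isConj_iff.1 hxc
      obtain ⟨g, rfl⟩ := QuotientGroup.mk_surjective c
      have h1 : (QuotientGroup.mk (g * ⟨z, hzCB⟩ * g⁻¹) : ↥CB ⧸ NN') = QuotientGroup.mk ⟨q.1, q.2.2⟩ := by
        rw [QuotientGroup.mk_mul, QuotientGroup.mk_mul, QuotientGroup.mk_inv]
        exact hc
      have h2 := QuotientGroup.eq.1 h1
      have h3 : ((g : G) * z * (g : G)⁻¹)⁻¹ * (q : G) ∈ Subgroup.zpowers b := h2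
      set a := (g : G) * z * (g : G)⁻¹ with ha
      set c' := a⁻¹ * (q : G) with hc'
      have hc7 : c' ^ 7 = 1 := zpowers_seven N.hb5 h3
      have haCB : a ∈ CB := CB.mul_mem (CB.mul_mem g.2 hzCB) (CB.inv_mem g.2)
      have hac : c' * a = a * c' := (Subgroup.mem_centralizer_iff.1 haCB c' h3)
      have ha2 : a * a = 1 := by
        have hzz' : z * z = 1 := hS.extra.sq_eq
        calc a * a = (g : G) * (z * z) * (g : G)⁻¹ := by rw [ha]; group
          _ = 1 := by rw [hzz']; group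
      have hqa : (q : G) = a * c' := by
        rw [hc']
        group
      have hsq : (q : G) ^ 2 = c' ^ 2 := by
        rw [hqa, pow_two, pow_two]
        calc a * c' * (a * c') = a * (c' * a) * c' := by group
          _ = a * (a * c') * c' := by rw [hac]
          _ = (a * a) * (c' * c') := by group
          _ = c' * c' := by rw [ha2, one_mul]
      have h4 : c' ^ 2 ^ 2 = 1 := by
        have h5 : (q : G) ^ 2 ^ 2 = 1 := by
          rcases hS.extra.sq _ hq'.1 with h | h
          · rw [show (2 : ℕ) ^ 2 = 2 * 2 by norm_num, pow_mul, h, one_pow]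
          · rw [show (2 : ℕ) ^ 2 = 2 * 2 by norm_num, pow_mul, h, pow_two]
            exact hS.extra.sq_eq
        rw [show (2 : ℕ) ^ 2 = 2 * 2 by norm_num, pow_mul, ← hsq, ← pow_mul]
        rw [show (2 : ℕ) ^ 2 = 2 * 2 by norm_num] at h5
        exact h5
      have h5 := eq_one_of_two_five ⟨2, h4⟩ (by decide) hc7
      rw [h5, mul_one] at hqa
      exact isConj_iff.2 ⟨(g : G), hqa.symm⟩
    · congr 1

end main

end Cfsg.Agent.Lib.SevenGp4
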