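import Mathlib

/-! Elementary computations for abstract Shintani descent. -/

set_option autoImplicit false

namespace Cfsg.Agent.Lib.Shintani

variable {X : Type*} [Group X]

theorem mem_fix (σ : MulAut X) (x : X) :
    x ∈ (MulEquiv.toMonoidHom σ).eqLocus (MonoidHom.id X) ↔ σ x = x := by
  simp [MonoidHom.eqLocus]

theorem pow_succ_left (σ : MulAut X) (i : ℕ) (x : X) : (σ ^ (i + 1)) x = σ ((σ ^ i) x) := by
  rw [pow_succ']; rfl

theorem pow_succ_right (σ : MulAut X) (i : ℕ) (x : X) : (σ ^ (i + 1)) x = (σ ^ i) (σ x) := by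
  rw [pow_succ]; rfl

theorem pow_comm (σ : MulAut X) (i : ℕ) (x : X) : σ ((σ ^ i) x) = (σ ^ i) (σ x) := by
  rw [← pow_succ_left, pow_succ_right]

/-- Telescoping the norm. -/
theorem norm_eq (σ : MulAut X) (a : X) (d : ℕ) :
    ((List.range d).map (fun i => (σ ^ i) (a * (σ a)⁻¹))).prod = a * ((σ ^ d) a)⁻¹ := by
  induction d with
  | zero => simp
  | succ d ih =>
    rw [List.range_succ, List.map_append, List.prod_append, ih]
    simp only [List.map_cons, List.map_nil, List.prod_cons, List.prod_nil, mul_one]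
    rw [map_mul, map_inv, pow_succ_right]
    group

/-- If `g = a σ(a)⁻¹` is fixed by `σᵉ` then `x = σᵉ(a)⁻¹ a` is fixed by `σ`. -/
theorem shintani_fixed (σ : MulAut X) (e : ℕ) (a : X) (hg : (σ ^ e) (a * (σ a)⁻¹) = a * (σ a)⁻¹) :
    σ (((σ ^ e) a)⁻¹ * a) = ((σ ^ e) a)⁻¹ * a := by
  have h : (σ ^ e) a * ((σ ^ e) (σ a))⁻¹ = a * (σ a)⁻¹ := by
    rw [← hg, map_mul, map_inv]
  rw [map_mul, map_inv, pow_comm]
  have : ((σ ^ e) (σ a))⁻¹ = ((σ ^ e) a)⁻¹ * (a * (σ a)⁻¹) := by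
    rw [← h]; group
  have h2 : (σ ^ e) (σ a) = σ a * a⁻¹ * (σ ^ e) a := by
    have := congrArg (fun z => z⁻¹) this
    simp only [inv_inv] at this
    rw [this]; group
  rw [h2]; group

/-- `σᵉ(a) = a x⁻¹`. -/
theorem pow_apply_eq (σ : MulAut X) (e : ℕ) (a : X) : (σ ^ e) a = a * (((σ ^ e) a)⁻¹ * a)⁻¹ := by
  group

/-- From `σ x = x` with `σᵉ(a) = a x⁻¹`, get `σ^{de}(a) = a x^{-d}`. -/
theorem iter_apply (σ : MulAut X) (e : ℕ) (a x : X) (hx : σ x = x) (ha : (σ ^ e) a = a * x⁻¹) (d : ℕ) :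
    ((σ ^ d) ^ e) a = a * (x ^ d)⁻¹ := by
  have hxp : ∀ i : ℕ, (σ ^ i) x = x := by
    intro i
    induction i with
    | zero => simp
    | succ i ih => rw [pow_succ_left, ih, hx]
  have hcomm : (σ ^ d) ^ e = (σ ^ e) ^ d := by
    rw [← pow_mul, ← pow_mul, mul_comm]
  rw [hcomm]
  induction d with
  | zero => simp
  | succ d ih =>
    rw [pow_succ', MulAut.mul_apply, ih, map_mul, ha, map_inv, map_pow, hxp, pow_succ]
    group

end Cfsg.Agent.Lib.Shintani
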