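import Mathlib
import Cfsg.Agent.Lib.LinPoly

/-!
# Additive subgroups of the additive endomorphisms of `GF(2^n)` invariant under conjugation by `ζ`

If the weights `ζ / ζ ^ 2 ^ s` are pairwise non conjugate, such a subgroup contains the monomial
components of each of its elements.
-/

set_option autoImplicit false
set_option linter.unusedSectionVars false
set_option linter.unusedVariables false

namespace Cfsg.Agent.Lib.ShultField

open Cfsg.Agent.Lib.LinPoly
open Polynomial

variable {K : Type*} [Field K] [Fintype K] [CharP K 2] {n : ℕ}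

/-- The monomial additive map. -/
def mono (c : K) (s : ℕ) : K →+ K :=
  AddMonoidHom.mk' (fun u => c * u ^ 2 ^ s) (fun u v => by rw [frob_add, mul_add])

@[simp] lemma mono_apply (c : K) (s : ℕ) (u : K) : mono c s u = c * u ^ 2 ^ s := rfl

/-- Conjugation by `ζ`. -/
def conjz (ζ : K) (f : K →+ K) : K →+ K :=
  AddMonoidHom.mk' (fun u => ζ * f (ζ⁻¹ * u)) (fun u v => by rw [mul_add, map_add, mul_add])

@[simp] lemma conjz_apply (ζ : K) (f : K →+ K) (u : K) : conjz ζ f u = ζ * f (ζ⁻¹ * u) := rfl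

/-- The weight. -/
def wt (ζ : K) (s : ℕ) : K := ζ / ζ ^ 2 ^ s

lemma conjz_lin {ζ : K} (hζ : ζ ≠ 0) (c : ℕ → K) (f : K →+ K) (hf : ∀ u, f u = lin n c u) (u : K) :
    conjz ζ f u = lin n (fun s => c s * wt ζ s) u := by
  rw [conjz_apply, hf]
  unfold lin
  rw [Finset.mul_sum]
  refine Finset.sum_congr rfl fun s _ => ?_
  unfold wt
  have h1 : ζ ^ 2 ^ s ≠ 0 := pow_ne_zero _ hζ
  rw [mul_pow, inv_pow]
  field_simp

/-- Polynomial combinations of the conjugations. -/
theorem poly_mem [Algebra (ZMod 2) K] {ζ : K} (hζ : ζ ≠ 0) (M : AddSubgroup (K →+ K)) (hM : ∀ f ∈ M, conjz ζ f ∈ M)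
    {f : K →+ K} (hf : f ∈ M) (c : ℕ → K) (hc : ∀ u, f u = lin n c u)
    (P : (ZMod 2)[X]) :
    ∃ f' ∈ M, ∀ u, f' u = lin n (fun s => c s * aeval (wt ζ s) P) u := by
  induction P using Polynomial.induction_on' with
  | add p q hp hq =>
    obtain ⟨f₁, h₁, e₁⟩ := hp
    obtain ⟨f₂, h₂, e₂⟩ := hq
    refine ⟨f₁ + f₂, M.add_mem h₁ h₂, fun u => ?_⟩
    rw [AddMonoidHom.add_apply, e₁, e₂]
    unfold lin
    rw [← Finset.sum_add_distrib]
    refine Finset.sum_congr rfl fun s _ => ?_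
    simp only [map_add]
    ring
  | monomial k r =>
    have hpow : ∀ k : ℕ, ∃ f' ∈ M, ∀ u, f' u = lin n (fun s => c s * wt ζ s ^ k) u := by
      intro k
      induction k with
      | zero => exact ⟨f, hf, fun u => by simpa using hc u⟩
      | succ k ih =>
        obtain ⟨f₁, h₁, e₁⟩ := ih
        refine ⟨conjz ζ f₁, hM _ h₁, fun u => ?_⟩
        rw [conjz_lin hζ _ f₁ e₁ u]
        unfold lin
        refine Finset.sum_congr rfl fun s _ => ?_
        simp only [pow_succ]
        ring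
    have hr : r = 0 ∨ r = 1 := by
      revert r
      decide
    rcases hr with rfl | rfl
    · refine ⟨0, M.zero_mem, fun u => ?_⟩
      simp [lin]
    · obtain ⟨f₁, h₁, e₁⟩ := hpow k
      refine ⟨f₁, h₁, fun u => ?_⟩
      rw [e₁]
      simp [Polynomial.aeval_monomial]

variable (K) in
/-- Field conjugates are Frobenius powers. -/
lemma conj_of_root [Algebra (ZMod 2) K] (hF : Fintype.card K = 2 ^ n) {x y : K}
    (h : aeval y (minpoly (ZMod 2) x) = 0) : ∃ a < n, x ^ 2 ^ a = y := by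
  classical
  have hint : IsIntegral (ZMod 2) x := Algebra.IsIntegral.isIntegral x
  have hconj : IsConjRoot (ZMod 2) x y := isConjRoot_of_aeval_eq_zero hint h
  obtain ⟨σ, hσ⟩ := isConjRoot_iff_exists_algEquiv.mp hconj.symm
  obtain ⟨⟨a, ha⟩, hae⟩ := (FiniteField.bijective_frobeniusAlgEquivOfAlgebraic_pow (ZMod 2) K).2 σ
  have hrank : Module.finrank (ZMod 2) K = n := by
    have h1 : Nat.card K = Nat.card (ZMod 2) ^ Module.finrank (ZMod 2) K :=
      Module.natCard_eq_pow_finrank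
    rw [Nat.card_eq_fintype_card, hF, Nat.card_zmod] at h1
    exact (Nat.pow_right_injective (le_refl 2) h1).symm
  refine ⟨a, hrank ▸ ha, ?_⟩
  have e : ∀ k : ℕ, ∀ z : K, ((FiniteField.frobeniusAlgEquivOfAlgebraic (ZMod 2) K) ^ k) z = z ^ 2 ^ k := by
    intro k
    induction k with
    | zero => intro z; simp
    | succ k ih =>
      intro z
      rw [pow_succ, AlgEquiv.mul_apply, ih, FiniteField.coe_frobeniusAlgEquivOfAlgebraic]
      rw [← pow_mul, pow_succ, ZMod.card]
      congr 1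
      ring
  have := e a x
  simp only at hae
  rw [hae, hσ] at this
  exact this.symm

/-- Main statement: the monomial components lie in `M`. -/
theorem comp_mem (hF : Fintype.card K = 2 ^ n) {ζ : K} (hζ : ζ ≠ 0)
    (hβ : ∀ s < n, ∀ s' < n, ∀ a < n, wt ζ s' ^ 2 ^ a = wt ζ s → s = s')
    (M : AddSubgroup (K →+ K)) (hM : ∀ f ∈ M, conjz ζ f ∈ M)
    {f : K →+ K} (hf : f ∈ M) (c : ℕ → K) (hc : ∀ u, f u = lin n c u) {s : ℕ} (hs : s < n) :
    mono (c s) s ∈ M := by
  classical
  letI : Algebra (ZMod 2) K := ZMod.algebra K 2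
  have hwt : ∀ t, wt ζ t ≠ 0 := fun t => div_ne_zero hζ (pow_ne_zero _ hζ)
  let P : (ZMod 2)[X] := ∏ t ∈ (Finset.range n).erase s, minpoly (ZMod 2) (wt ζ t)
  have hP0 : ∀ t < n, t ≠ s → aeval (wt ζ t) P = 0 := by
    intro t ht hts
    simp only [P, map_prod]
    apply Finset.prod_eq_zero (i := t) (Finset.mem_erase.mpr ⟨hts, Finset.mem_range.mpr ht⟩)
    exact minpoly.aeval _ _
  have hP1 : aeval (wt ζ s) P ≠ 0 := by
    simp only [P, map_prod]
    rw [Finset.prod_ne_zero_iff]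
    intro t ht h0
    obtain ⟨a, ha, hae⟩ := conj_of_root K hF h0
    have hts := (Finset.mem_erase.mp ht).1
    have htn := Finset.mem_range.mp (Finset.mem_erase.mp ht).2
    exact hts (hβ s hs t htn a ha hae).symm
  have hcard : 2 ^ n - 1 ≠ 0 := by
    have hn : n ≠ 0 := by omega
    have : 2 ≤ 2 ^ n := by
      calc 2 = 2 ^ 1 := by norm_num
        _ ≤ 2 ^ n := Nat.pow_le_pow_right (by norm_num) (by omega)
    omega
  obtain ⟨f', hf', e'⟩ := poly_mem (n := n) hζ M hM hf c hc (P ^ (2 ^ n - 1))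
  have heq : f' = mono (c s) s := by
    ext u
    rw [e', mono_apply]
    unfold lin
    rw [Finset.sum_eq_single s]
    · simp only [map_pow]
      have : aeval (wt ζ s) P ^ (2 ^ n - 1) = 1 := by
        rw [← hF]
        exact FiniteField.pow_card_sub_one_eq_one _ hP1
      rw [this, mul_one]
    · intro t ht hts
      simp only [map_pow]
      rw [hP0 t (Finset.mem_range.mp ht) hts, zero_pow hcard]
      ring
    · intro h
      exact absurd (Finset.mem_range.mpr hs) h
  rw [← heq]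
  exact hf'

/-- A monomial with nonzero coefficient is injective. -/
lemma mono_inj {c : K} (hc : c ≠ 0) (s : ℕ) {u : K} (h : c * u ^ 2 ^ s = 0) : u = 0 := by
  rcases mul_eq_zero.mp h with h | h
  · exact absurd h hc
  · exact pow_eq_zero_iff (by positivity) |>.mp h

/-- From the arithmetic of exponents to non-conjugacy of weights. -/
lemma wt_noncong {ζ : K} (hζ : ζ ≠ 0) {m : ℕ} (hord : orderOf (Units.mk0 ζ hζ) = m)
    (hbeta : ∀ a s s', a < n → s < n → s' < n → 2 ^ a + 2 ^ s' ≡ 1 + 2 ^ (a + s) [MOD m] → s = s') :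
    ∀ s < n, ∀ s' < n, ∀ a < n, wt ζ s' ^ 2 ^ a = wt ζ s → s = s' := by
  intro s hs s' hs' a ha h
  unfold wt at h
  have h2 : ζ ^ 2 ^ s' ≠ 0 := pow_ne_zero _ hζ
  have h3 : ζ ^ 2 ^ s ≠ 0 := pow_ne_zero _ hζ
  rw [div_pow, div_eq_div_iff (pow_ne_zero _ h2) h3] at h
  have h4 : ζ ^ (2 ^ a + 2 ^ s) = ζ ^ (1 + 2 ^ (a + s')) := by
    rw [pow_add, h, pow_add, pow_one, pow_add 2 a s', mul_comm (2 ^ a) (2 ^ s'), pow_mul]
  have h5 : (Units.mk0 ζ hζ) ^ (2 ^ a + 2 ^ s) = (Units.mk0 ζ hζ) ^ (1 + 2 ^ (a + s')) := by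
    apply Units.ext
    push_cast
    exact h4
  have h6 := pow_eq_pow_iff_modEq.mp h5
  rw [hord] at h6
  exact (hbeta a s' s ha hs' hs h6).symm

end Cfsg.Agent.Lib.ShultField
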