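import Mathlib
import Cfsg.Agent.Lib.ShultField
import Cfsg.Agent.Lib.SuzT1

/-!
# Shult's theorem on 2-groups with a solvable group transitive on involutions: set-up

`Data Y io ζ`: a finite 2-group `G`, a set `Y` of injective endomorphisms transitive on the involutions,
coordinates `io` of the involutions in a field `K`, on which `Y` acts semilinearly, and an element of
`Y` acting on the coordinates as multiplication by `ζ`.

`Pair h D κ`: a `Y`-invariant subgroup `D` with `[D, G]` inside the involutions and an additive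
surjective equivariant map `κ : D → K` with central kernel.  This gives a pairing of `G` with `K`,
`Φ : G → (K →+ K)`.
-/

set_option autoImplicit false
set_option linter.unusedSectionVars false
set_option linter.unusedVariables false
set_option linter.style.haveILetI false

open scoped commutatorElement

namespace Cfsg.Agent.Lib.ShultA

open Cfsg.Agent.Lib.LinPoly Cfsg.Agent.Lib.ShultField
open Cfsg.Agent.Lib.SuzTwo (secE mem_secE le_secE secE_ne exists_power_step)
open Cfsg.Agent.Lib.SuzT1 (comm_mul_left comm_mul_right comm_central_left comm_central_right comm_sq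
  sq_mul central_comm conj_central)

universe u v

variable {G : Type u} [Group G] {K : Type v} [Field K]

/-- The data on the group. -/
structure Data (Y : Set (G →* G)) (io : G → K) (ζ : K) : Prop where
  two : IsPGroup 2 G
  yinj : ∀ y ∈ Y, Function.Injective y
  trans : ∀ x x' : G, x ≠ 1 → x * x = 1 → x' ≠ 1 → x' * x' = 1 → ∃ y ∈ Y, y x = x'
  add : ∀ x x', x * x = 1 → x' * x' = 1 → io (x * x') = io x + io x'
  inj : ∀ x, x * x = 1 → io x = 0 → x = 1
  surj : ∀ c, ∃ x, x * x = 1 ∧ io x = c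
  semi : ∀ y ∈ Y, ∃ (a : K) (σ : K ≃+* K), a ≠ 0 ∧ ∀ x, x * x = 1 → io (y x) = a * σ (io x)
  alpha : ∃ y ∈ Y, ∀ x, x * x = 1 → io (y x) = ζ * io x

/-- Invariant subgroups. -/
def IsInv (Y : Set (G →* G)) (H : Subgroup G) : Prop := ∀ y ∈ Y, ∀ x ∈ H, y x ∈ H

variable {Y : Set (G →* G)} {io : G → K} {ζ : K}

section basic

variable (h : Data Y io ζ)
include h

lemma io_one : io 1 = 0 := by
  have := h.add 1 1 (by simp) (by simp)
  rw [mul_one] at this
  simpa using this

variable [Finite G]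

lemma y_surj {y : G →* G} (hy : y ∈ Y) : Function.Surjective y :=
  Finite.injective_iff_surjective.mp (h.yinj y hy)

/-- A nontrivial element has a power which is an involution. -/
lemma exists_pow_invol {x : G} (hx : x ≠ 1) : ∃ r, x ^ 2 ^ r ≠ 1 ∧ x ^ 2 ^ r * x ^ 2 ^ r = 1 := by
  obtain ⟨r, h1, h2⟩ := exists_power_step h.two ⊥ (x := x) (by simpa using hx)
  exact ⟨r, by simpa using h1, by simpa using h2⟩

lemma inv_central {x : G} (hx : x * x = 1) (g : G) : x * g = g * x := by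
  classical
  by_cases hx1 : x = 1
  · simp [hx1]
  haveI : Nontrivial G := ⟨⟨x, 1, hx1⟩⟩
  haveI hf : Fact (Nat.Prime 2) := ⟨Nat.prime_two⟩
  haveI : Nontrivial (Subgroup.center G) := h.two.center_nontrivial
  obtain ⟨⟨z, hz⟩, hz1⟩ := exists_ne (1 : Subgroup.center G)
  have hz1' : z ≠ 1 := fun e => hz1 (Subtype.ext e)
  obtain ⟨r, hr1, hr2⟩ := exists_pow_invol h hz1'
  obtain ⟨y, hy, hyx⟩ := h.trans _ x hr1 hr2 hx1 hx
  obtain ⟨g', rfl⟩ := y_surj h hy g
  have hzc : z ^ 2 ^ r ∈ Subgroup.center G := Subgroup.pow_mem _ hz _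
  rw [← hyx, ← map_mul, ← map_mul, ← central_comm hzc g']

/-- The subgroup of the involutions. -/
def Om : Subgroup G where
  carrier := {x | x * x = 1}
  one_mem' := by simp
  mul_mem' := by
    rintro a b ha hb
    simp only [Set.mem_setOf_eq] at ha hb ⊢
    calc a * b * (a * b) = a * (b * a) * b := by group
      _ = a * (a * b) * b := by rw [inv_central h hb a]
      _ = a * a * (b * b) := by group
      _ = 1 := by rw [ha, hb, mul_one]
  inv_mem' := by
    rintro a ha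
    simp only [Set.mem_setOf_eq] at ha ⊢
    have : a⁻¹ * a⁻¹ = (a * a)⁻¹ := by group
    rw [this, ha, inv_one]

lemma mem_Om {x : G} : x ∈ Om h ↔ x * x = 1 := Iff.rfl

lemma Om_central {x : G} (hx : x ∈ Om h) : x ∈ Subgroup.center G :=
  Subgroup.mem_center_iff.mpr fun g => (inv_central h hx g).symm

lemma Om_le_center : Om h ≤ Subgroup.center G := fun _ hx => Om_central h hx

/-- Invariant nontrivial subgroups contain all involutions. -/
lemma Om_le {H : Subgroup G} (hI : IsInv Y H) (hne : H ≠ ⊥) : Om h ≤ H := by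
  obtain ⟨⟨x, hx⟩, hx1⟩ := Subgroup.ne_bot_iff_exists_ne_one.mp hne
  have hx1' : x ≠ 1 := fun e => hx1 (Subtype.ext e)
  obtain ⟨r, hr1, hr2⟩ := exists_pow_invol h hx1'
  intro t ht
  by_cases ht1 : t = 1
  · rw [ht1]; exact H.one_mem
  obtain ⟨y, hy, hyt⟩ := h.trans _ t hr1 hr2 ht1 ht
  rw [← hyt]
  exact hI y hy _ (H.pow_mem hx _)

lemma center_isInv : IsInv Y (Subgroup.center G) := by
  intro y hy x hx
  rw [Subgroup.mem_center_iff]
  intro g
  obtain ⟨g', rfl⟩ := y_surj h hy g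
  rw [← map_mul, ← map_mul, central_comm hx g']

lemma Om_isInv : IsInv Y (Om h) := by
  intro y hy x hx
  rw [mem_Om] at hx ⊢
  rw [← map_mul, hx, map_one]

/-- An element which is an invariant elementwise-extension of a central subgroup: the lemma on
powers.  If `B` is abelian and invariant with an element of order exactly `2^(k+1)`, then each element
of order dividing `2^(k+1)` centralizing `B` is in `B`. -/
lemma mem_of_pow {B : Subgroup G} (hI : IsInv Y B) (hB : ∀ b ∈ B, ∀ b' ∈ B, b * b' = b' * b) :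
    ∀ (k : ℕ) (b₀ v : G), b₀ ∈ B → b₀ ^ 2 ^ k ≠ 1 → b₀ ^ 2 ^ (k + 1) = 1 →
      (∀ b ∈ B, v * b = b * v) → v ^ 2 ^ (k + 1) = 1 → v ∈ B := by
  intro k
  induction k with
  | zero => 
    intro b₀ v hb₀ h1 h2 hv hv2
    simp only [pow_zero, pow_one, zero_add] at h1 h2 hv2
    rw [sq] at h2 hv2
    by_cases hv1 : v = 1
    · rw [hv1]; exact B.one_mem
    obtain ⟨y, hy, hyv⟩ := h.trans b₀ v h1 h2 hv1 hv2
    rw [← hyv]
    exact hI y hy _ hb₀
  | succ k ih =>
    intro b₀ v hb₀ h1 h2 hv hv2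
    have key : ∀ v' : G, (∀ b ∈ B, v' * b = b * v') → v' ^ 2 ^ (k + 1) = 1 → v' ∈ B := by
      intro v' hv' hv'2
      apply ih (b₀ * b₀) v' (B.mul_mem hb₀ hb₀) _ _ hv' hv'2
      · rw [← sq, ← pow_mul, ← pow_succ']
        exact h1
      · rw [← sq, ← pow_mul, ← pow_succ']
        exact h2
    set τ := v ^ 2 ^ (k + 1) with hτ
    set s := b₀ ^ 2 ^ (k + 1) with hs
    have hτ2 : τ * τ = 1 := by
      rw [hτ, ← pow_add, ← two_mul, ← pow_succ']
      exact hv2
    have hs2 : s * s = 1 := by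
      rw [hs, ← pow_add, ← two_mul, ← pow_succ']
      exact h2
    by_cases hτ1 : τ = 1
    · exact key v hv hτ1
    obtain ⟨y, hy, hys⟩ := h.trans s τ h1 hs2 hτ1 hτ2
    have hb : y b₀ ∈ B := hI y hy _ hb₀
    have e1 : (y b₀) ^ 2 ^ (k + 1) = τ := by rw [← map_pow, ← hs, hys]
    have hcomm : Commute v (y b₀)⁻¹ := by
      have : Commute v (y b₀) := hv _ hb
      exact this.inv_right
    have hmem : v * (y b₀)⁻¹ ∈ B := by
      apply key
      · intro b hbB
        rw [mul_assoc, hB _ (B.inv_mem hb) _ hbB, ← mul_assoc, hv b hbB, mul_assoc]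
      · rw [hcomm.mul_pow, inv_pow, e1, ← hτ]
        simp
    have : v = v * (y b₀)⁻¹ * y b₀ := by group
    rw [this]
    exact B.mul_mem hmem hb

end basic

/-- The pairing hypotheses. -/
structure Pair (h : Data Y io ζ) (D : Subgroup G) (κ : G → K) : Prop where
  inv : IsInv Y D
  comm : ∀ x ∈ D, ∀ g : G, ⁅x, g⁆ * ⁅x, g⁆ = 1
  add : ∀ x ∈ D, ∀ x' ∈ D, κ (x * x') = κ x + κ x'
  surj : ∀ u, ∃ x ∈ D, κ x = u
  ker : ∀ x ∈ D, κ x = 0 → ∀ g, x * g = g * x
  eqv : ∀ y ∈ Y, ∀ (a : K) (σ : K ≃+* K), (∀ t, t * t = 1 → io (y t) = a * σ (io t)) →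
    ∀ x ∈ D, κ (y x) = a * σ (κ x)

section pair

variable [Finite G] {h : Data Y io ζ} {D : Subgroup G} {κ : G → K} (P : Pair h D κ)
include P

lemma Pair.comm_central {x : G} (hx : x ∈ D) (g : G) : ⁅x, g⁆ ∈ Subgroup.center G :=
  Om_central h (P.comm x hx g)

lemma Pair.kappa_one : κ 1 = 0 := by
  have := P.add 1 D.one_mem 1 D.one_mem
  rw [mul_one] at this
  simpa using this

lemma Pair.kappa_inv {x : G} (hx : x ∈ D) : κ x⁻¹ = - κ x := by
  have := P.add x hx x⁻¹ (D.inv_mem hx)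
  rw [mul_inv_cancel, P.kappa_one] at this
  exact (neg_eq_of_add_eq_zero_right this.symm).symm

/-- A section of `κ`. -/
noncomputable def Pair.sec (u : K) : G := Classical.choose (P.surj u)

omit P in
lemma Pair.sec_spec (P : Pair h D κ) (u : K) : P.sec u ∈ D ∧ κ (P.sec u) = u :=
  Classical.choose_spec (P.surj u)

/-- The pairing. -/
noncomputable def Pair.phi (g : G) (u : K) : K := io ⁅P.sec u, g⁆

/-- The pairing is computed by any lift. -/
lemma Pair.phi_eq {x : G} (hx : x ∈ D) (g : G) : P.phi g (κ x) = io ⁅x, g⁆ := by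
  obtain ⟨h1, h2⟩ := P.sec_spec (κ x)
  set w := P.sec (κ x) with hw
  have h3 : κ (x * w⁻¹) = 0 := by
    rw [P.add x hx _ (D.inv_mem h1), P.kappa_inv h1, h2, add_neg_cancel]
  have h4 : x * w⁻¹ ∈ Subgroup.center G := Subgroup.mem_center_iff.mpr fun k =>
    (P.ker _ (D.mul_mem hx (D.inv_mem h1)) h3 k).symm
  have h5 : x = w * (x * w⁻¹) := by
    have : w * (x * w⁻¹) = x * w⁻¹ * w := (central_comm h4 w)
    rw [this]; group
  unfold Pair.phi
  rw [← hw]
  conv_rhs => rw [h5, comm_central_left h4]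

lemma Pair.phi_add (g : G) (u v : K) : P.phi g (u + v) = P.phi g u + P.phi g v := by
  obtain ⟨h1, h2⟩ := P.sec_spec u
  obtain ⟨h3, h4⟩ := P.sec_spec v
  have e : u + v = κ (P.sec u * P.sec v) := by rw [P.add _ h1 _ h3, h2, h4]
  rw [e, P.phi_eq (D.mul_mem h1 h3), comm_mul_left (P.comm_central h3 g)]
  rw [h.add _ _ (P.comm _ h1 g) (P.comm _ h3 g)]
  rfl

lemma Pair.phi_mul (g k : G) (u : K) : P.phi (g * k) u = P.phi g u + P.phi k u := by
  obtain ⟨h1, h2⟩ := P.sec_spec u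
  unfold Pair.phi
  rw [comm_mul_right (P.comm_central h1 k), h.add _ _ (P.comm _ h1 g) (P.comm _ h1 k)]

lemma Pair.phi_one (u : K) : P.phi 1 u = 0 := by
  unfold Pair.phi
  rw [commutatorElement_one_right, io_one h]

lemma Pair.phi_equiv {y : G →* G} (hy : y ∈ Y) (a : K) (σ : K ≃+* K)
    (hs : ∀ t, t * t = 1 → io (y t) = a * σ (io t)) (g : G) (u : K) :
    P.phi (y g) (a * σ u) = a * σ (P.phi g u) := by
  obtain ⟨h1, h2⟩ := P.sec_spec u
  have e : a * σ u = κ (y (P.sec u)) := by rw [P.eqv y hy a σ hs _ h1, h2]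
  rw [e, P.phi_eq (P.inv y hy _ h1), ← map_commutatorElement, hs _ (P.comm _ h1 g)]
  rfl

/-- The additive map attached to an element. -/
noncomputable def Pair.Phi (g : G) : K →+ K :=
  AddMonoidHom.mk' (P.phi g) (P.phi_add g)

@[simp] lemma Pair.Phi_apply (g : G) (u : K) : P.Phi g u = P.phi g u := rfl

lemma Pair.Phi_mul (g k : G) : P.Phi (g * k) = P.Phi g + P.Phi k := by
  ext u
  exact P.phi_mul g k u

lemma Pair.Phi_one : P.Phi 1 = 0 := by
  ext u
  exact P.phi_one u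

lemma Pair.Phi_inv (g : G) : P.Phi g⁻¹ = - P.Phi g := by
  have := P.Phi_mul g g⁻¹
  rw [mul_inv_cancel, P.Phi_one] at this
  exact (neg_eq_of_add_eq_zero_right this.symm).symm

lemma Pair.Phi_eq {x : G} (hx : x ∈ D) (g : G) : P.Phi g (κ x) = io ⁅x, g⁆ := P.phi_eq hx g

/-- Vanishing of the pairing. -/
lemma Pair.Phi_eq_zero_iff (g : G) : P.Phi g = 0 ↔ ∀ x ∈ D, x * g = g * x := by
  constructor
  · intro h0 x hx
    have h1 := P.Phi_eq hx g
    rw [h0, AddMonoidHom.zero_apply] at h1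
    have h2 := h.inj _ (P.comm x hx g) h1.symm
    exact commutatorElement_eq_one_iff_mul_comm.mp h2
  · intro h0
    ext u
    obtain ⟨h1, h2⟩ := P.sec_spec u
    rw [AddMonoidHom.zero_apply, ← h2, P.Phi_eq h1, commutatorElement_eq_one_iff_mul_comm.mpr (h0 _ h1),
      io_one h]

/-- The additive group of the pairings of the elements of a subgroup. -/
noncomputable def Pair.M (N : Subgroup G) : AddSubgroup (K →+ K) where
  carrier := {f | ∃ g ∈ N, P.Phi g = f}
  zero_mem' := ⟨1, N.one_mem, P.Phi_one⟩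
  add_mem' := by
    rintro _ _ ⟨g, hg, rfl⟩ ⟨k, hk, rfl⟩
    exact ⟨g * k, N.mul_mem hg hk, P.Phi_mul g k⟩
  neg_mem' := by
    rintro _ ⟨g, hg, rfl⟩
    exact ⟨g⁻¹, N.inv_mem hg, P.Phi_inv g⟩

variable [Fintype K] [CharP K 2] {n : ℕ}

lemma Pair.conjz_mem (hζ : ζ ≠ 0) {N : Subgroup G} (hN : IsInv Y N) {f : K →+ K} (hf : f ∈ P.M N) :
    conjz ζ f ∈ P.M N := by
  obtain ⟨g, hg, rfl⟩ := hf
  obtain ⟨y, hy, hyz⟩ := h.alpha
  refine ⟨y g, hN y hy g hg, ?_⟩
  ext u
  have hs : ∀ t, t * t = 1 → io (y t) = ζ * (RingEquiv.refl K) (io t) := fun t ht => by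
    simpa using hyz t ht
  have h1 := P.phi_equiv hy ζ (RingEquiv.refl K) hs g (ζ⁻¹ * u)
  simp only [RingEquiv.refl_apply] at h1
  rw [mul_inv_cancel_left₀ hζ] at h1
  rw [conjz_apply]
  exact h1

/-- The monomial components of a pairing are pairings of elements of the same subgroup. -/
lemma Pair.comp_exists (hF : Fintype.card K = 2 ^ n) (hζ : ζ ≠ 0)
    (hβ : ∀ s < n, ∀ s' < n, ∀ a < n, wt ζ s' ^ 2 ^ a = wt ζ s → s = s')
    {N : Subgroup G} (hN : IsInv Y N) {g : G} (hg : g ∈ N) :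
    ∃ c : ℕ → K, (∀ u, P.Phi g u = lin n c u) ∧ ∀ s < n, ∃ g' ∈ N, P.Phi g' = mono (c s) s := by
  obtain ⟨c, hc⟩ := exists_lin hF (P.Phi g) (map_add _)
  refine ⟨c, hc, fun s hs => ?_⟩
  have := comp_mem hF hζ hβ (P.M N) (fun f hf => P.conjz_mem hζ hN hf) (f := P.Phi g) ⟨g, hg, rfl⟩ c hc hs
  exact this

/-- A nonzero pairing gives a monomial pairing. -/
lemma Pair.exists_mono (hF : Fintype.card K = 2 ^ n) (hζ : ζ ≠ 0)
    (hβ : ∀ s < n, ∀ s' < n, ∀ a < n, wt ζ s' ^ 2 ^ a = wt ζ s → s = s')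
    {N : Subgroup G} (hN : IsInv Y N) {g : G} (hg : g ∈ N) (hne : P.Phi g ≠ 0) :
    ∃ g' ∈ N, ∃ c s, c ≠ 0 ∧ s < n ∧ P.Phi g' = mono c s := by
  obtain ⟨c, hc, hc'⟩ := P.comp_exists hF hζ hβ hN hg
  have hex : ∃ s < n, c s ≠ 0 := by
    by_contra hall
    push Not at hall
    apply hne
    ext u
    rw [hc, AddMonoidHom.zero_apply]
    unfold lin
    exact Finset.sum_eq_zero fun s hs => by rw [hall s (Finset.mem_range.mp hs), zero_mul]
  obtain ⟨s, hs, hs0⟩ := hex
  obtain ⟨g', hg', e⟩ := hc' s hs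
  exact ⟨g', hg', c s, s, hs0, hs, e⟩

end pair

end Cfsg.Agent.Lib.ShultA
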