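import Mathlib
import Cfsg.Agent.Lib.LinPoly

/-!
# Arithmetic for cyclic subgroups of large index-free order in the multiplicative group of `GF(2^n)`

If `m * d = 2^n - 1` with `d ∣ n`, then the congruence `2^a + 2^s' ≡ 1 + 2^(a+s)` modulo `m`
with `a, s, s' < n` forces `s = s'`.
-/

set_option autoImplicit false

namespace Cfsg.Agent.Lib.ShultArith

open Cfsg.Agent.Lib.LinPoly

/-- Some rotation moves four exponents into a window. -/
lemma exists_rot {n L : ℕ} (hL : 4 * L < n) (a b c e : ℕ) :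
    ∃ r, (a + r) % n < n - L ∧ (b + r) % n < n - L ∧ (c + r) % n < n - L ∧ (e + r) % n < n - L := by
  classical
  have hn : 0 < n := by omega
  let bad : ℕ → Finset ℕ := fun x =>
    (Finset.range n).filter fun r => n - L ≤ (x + r) % n
  have hbad : ∀ x, (bad x).card ≤ L := by
    intro x
    have hinj : Set.InjOn (fun r => (x + r) % n - (n - L)) (bad x : Set ℕ) := by
      intro r hr r' hr' h
      simp only [bad, Finset.coe_filter, Finset.mem_range, Set.mem_setOf_eq] at hr hr'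
      have h1 : (x + r) % n = (x + r') % n := by
        simp only at h
        omega
      have h2 : x + r ≡ x + r' [MOD n] := h1
      have h3 := Nat.ModEq.add_left_cancel' x h2
      exact Nat.ModEq.eq_of_lt_of_lt h3 hr.1 hr'.1
    have hmaps : Set.MapsTo (fun r => (x + r) % n - (n - L)) (bad x : Set ℕ)
        (Finset.range L : Set ℕ) := by
      intro r hr
      simp only [bad, Finset.coe_filter, Finset.mem_range, Set.mem_setOf_eq] at hr
      have h1 := Nat.mod_lt (x + r) hn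
      simp only [Finset.coe_range, Set.mem_Iio]
      omega
    simpa using Finset.card_le_card_of_injOn _ hmaps hinj
  have hcard : (bad a ∪ bad b ∪ bad c ∪ bad e).card < (Finset.range n).card := by
    rw [Finset.card_range]
    have h1 := Finset.card_union_le (bad a ∪ bad b ∪ bad c) (bad e)
    have h2 := Finset.card_union_le (bad a ∪ bad b) (bad c)
    have h3 := Finset.card_union_le (bad a) (bad b)
    have ha := hbad a
    have hb := hbad b
    have hc := hbad c
    have he := hbad e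
    omega
  obtain ⟨r, hr, hnr⟩ := Finset.exists_mem_notMem_of_card_lt_card hcard
  have hr' := Finset.mem_range.mp hr
  simp only [Finset.mem_union, not_or, bad, Finset.mem_filter, Finset.mem_range, not_and,
    not_le] at hnr
  exact ⟨r, hnr.1.1.1 hr', hnr.1.1.2 hr', hnr.1.2 hr', hnr.2 hr'⟩

/-- The finite check for `d`. -/
lemma small_check : ∀ n ∈ Finset.range 21, ∀ d ∈ Finset.range (n + 1), 5 ≤ n → d ∣ n → d ∣ 2 ^ n - 1 →
    (n = 6 ∧ d = 3) ∨ d < 2 ^ ((n - 1) / 4) := by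
  decide +kernel

lemma large_bound {n : ℕ} (hn : 21 ≤ n) : n < 2 ^ ((n - 1) / 4) := by
  have key : ∀ L, 5 ≤ L → 4 * L + 4 < 2 ^ L := by
    intro L hL
    induction L, hL using Nat.le_induction with
    | base => norm_num
    | succ k hk ih =>
      rw [pow_succ]
      omega
  have h1 := key ((n - 1) / 4) (by omega)
  have h2 : n ≤ 4 * ((n - 1) / 4) + 4 := by omega
  omega

/-- The window bound. -/
lemma d_lt {n d : ℕ} (hn : 5 ≤ n) (hne : ¬ (n = 6 ∧ d = 3)) (hd : d ∣ n) (hd' : d ∣ 2 ^ n - 1) :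
    d < 2 ^ ((n - 1) / 4) := by
  have hdle : d ≤ n := Nat.le_of_dvd (by omega) hd
  rcases lt_or_ge n 21 with h | h
  · exact (small_check n (Finset.mem_range.mpr h) d (Finset.mem_range.mpr (Nat.lt_succ_of_le hdle)) hn hd hd').resolve_left hne
  · exact lt_of_le_of_lt hdle (large_bound h)

lemma m_ge {n m d L : ℕ} (hL : L ≤ n) (hm : m * d = 2 ^ n - 1) (hdL : d < 2 ^ L) (hLp : 1 ≤ L)
    (hLn : L < n) : 2 ^ (n - L) ≤ m := by
  by_contra hlt
  push Not at hlt
  have e : 2 ^ n = 2 ^ (n - L) * 2 ^ L := by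
    rw [← pow_add]
    congr 1
    omega
  have h1 : m + 1 ≤ 2 ^ (n - L) := hlt
  have h2 : d + 1 ≤ 2 ^ L := hdL
  have h3 : (m + 1) * (d + 1) ≤ 2 ^ (n - L) * 2 ^ L := Nat.mul_le_mul h1 h2
  have hp : 2 ^ 1 ≤ 2 ^ L := Nat.pow_le_pow_right (by norm_num) hLp
  have hq : 2 ^ 1 ≤ 2 ^ (n - L) := Nat.pow_le_pow_right (by norm_num) (by omega)
  have hone : 1 ≤ 2 ^ n := Nat.one_le_two_pow
  -- so `m * d + m + d + 1 ≤ 2 ^ n`, hence `m + d ≤ 0`
  have h4 : m * d + m + d + 1 ≤ 2 ^ n := by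
    rw [e]
    calc m * d + m + d + 1 = (m + 1) * (d + 1) := by ring
      _ ≤ _ := h3
  -- but this alone is not a contradiction unless `m + d ≥ 1`, so use the size of `m * d` directly
  have hd0 : d ≠ 0 := by
    rintro rfl
    have : 2 ^ n - 1 = 0 := by simpa using hm.symm
    have : 2 ^ n ≥ 2 ^ 2 := Nat.pow_le_pow_right (by norm_num) (by omega)
    omega
  omega

/-- The main arithmetic statement in the generic range. -/
lemma beta_generic {n m d : ℕ} (hn : 5 ≤ n) (hm : m * d = 2 ^ n - 1) (hd : d ∣ n)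
    (hne : ¬ (n = 6 ∧ d = 3)) {a s s' : ℕ} (ha : a < n) (hs : s < n) (hs' : s' < n)
    (h : 2 ^ a + 2 ^ s' ≡ 1 + 2 ^ (a + s) [MOD m]) : s = s' := by
  have hn0 : 0 < n := by omega
  have hd' : d ∣ 2 ^ n - 1 := ⟨m, by rw [← hm, mul_comm]⟩
  set L := (n - 1) / 4 with hL
  have hL1 : 1 ≤ L := by omega
  have hdL := d_lt hn hne hd hd'
  have hmL : 2 ^ (n - L) ≤ m := m_ge (by omega) hm hdL hL1 (by omega)
  have hmd : m ∣ 2 ^ n - 1 := ⟨d, hm.symm⟩
  set b := (a + s) % n with hb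
  have hbn : b < n := Nat.mod_lt _ hn0
  -- rotate
  obtain ⟨r, h1, h2, h3, h4⟩ := exists_rot (n := n) (L := L) (by omega) a s' 0 b
  have hmod : 2 ^ a + 2 ^ s' ≡ 2 ^ 0 + 2 ^ b [MOD m] := by
    have e1 : 2 ^ (a + s) ≡ 2 ^ b [MOD m] := (pow_modEq_mod (a + s)).of_dvd hmd
    have e2 : 1 + 2 ^ (a + s) ≡ 2 ^ 0 + 2 ^ b [MOD m] := by
      rw [pow_zero]
      exact e1.add_left 1
    exact h.trans e2
  have hrot : ∀ x, 2 ^ ((x + r) % n) ≡ 2 ^ x * 2 ^ r [MOD m] := by
    intro x
    rw [← pow_add]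
    exact ((pow_modEq_mod (x + r)).of_dvd hmd).symm
  have hX : 2 ^ ((a + r) % n) + 2 ^ ((s' + r) % n) ≡ 2 ^ ((0 + r) % n) + 2 ^ ((b + r) % n) [MOD m] := by
    have e := hmod.mul_right (2 ^ r)
    rw [add_mul, add_mul] at e
    exact ((hrot a).add (hrot s')).trans (e.trans ((hrot 0).add (hrot b)).symm)
  have hpw : ∀ x, x < n - L → 2 ^ x ≤ 2 ^ (n - L - 1) := fun x hx =>
    Nat.pow_le_pow_right (by norm_num) (by omega)
  have hsum : 2 ^ (n - L) = 2 * 2 ^ (n - L - 1) := by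
    rw [← pow_succ']
    congr 1
    omega
  have b1 := hpw _ h1
  have b2 := hpw _ h2
  have b3 := hpw _ h3
  have b4 := hpw _ h4
  have p1 : 0 < 2 ^ ((a + r) % n) := by positivity
  have p2 : 0 < 2 ^ ((s' + r) % n) := by positivity
  have p3 : 0 < 2 ^ ((0 + r) % n) := by positivity
  have p4 : 0 < 2 ^ ((b + r) % n) := by positivity
  have heq : 2 ^ ((a + r) % n) + 2 ^ ((s' + r) % n) = 2 ^ ((0 + r) % n) + 2 ^ ((b + r) % n) := by
    rcases Nat.le_total (2 ^ ((a + r) % n) + 2 ^ ((s' + r) % n))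
      (2 ^ ((0 + r) % n) + 2 ^ ((b + r) % n)) with hle | hle
    · have hdv := (Nat.modEq_iff_dvd' hle).mp hX
      have hlt : 2 ^ ((0 + r) % n) + 2 ^ ((b + r) % n) -
          (2 ^ ((a + r) % n) + 2 ^ ((s' + r) % n)) < m := by omega
      have := Nat.eq_zero_of_dvd_of_lt hdv hlt
      omega
    · have hdv := (Nat.modEq_iff_dvd' hle).mp hX.symm
      have hlt : 2 ^ ((a + r) % n) + 2 ^ ((s' + r) % n) -
          (2 ^ ((0 + r) % n) + 2 ^ ((b + r) % n)) < m := by omega
      have := Nat.eq_zero_of_dvd_of_lt hdv hlt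
      omega
  have hinj : ∀ x y, x < n → y < n → (x + r) % n = (y + r) % n → x = y := by
    intro x y hx hy hxy
    have h5 : x + r ≡ y + r [MOD n] := hxy
    exact Nat.ModEq.eq_of_lt_of_lt (Nat.ModEq.add_right_cancel' r h5) hx hy
  have hsmod : (a + s) % n = b := rfl
  rcases two_pow_sum_eq heq with ⟨e1, e2⟩ | ⟨e1, e2⟩
  · have ea := hinj _ _ ha hn0 e1
    have es := hinj _ _ hs' hbn e2
    subst ea
    rw [hb, zero_add, Nat.mod_eq_of_lt hs] at es
    exact es.symm
  · have ea := hinj _ _ ha hbn e1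
    have es := hinj _ _ hs' hn0 e2
    subst es
    have e3 : (a + s) % n = a % n := by
      rw [Nat.mod_eq_of_lt ha]
      exact ea.symm
    have e4 : a + s ≡ a + 0 [MOD n] := by simpa [Nat.ModEq] using e3
    exact Nat.ModEq.eq_of_lt_of_lt (Nat.ModEq.add_left_cancel' a e4) hs hn0

/-- The arithmetic statement. -/
theorem beta {n m d : ℕ} (hn : 2 ≤ n) (hm : m * d = 2 ^ n - 1) (hd : d ∣ n) {a s s' : ℕ}
    (ha : a < n) (hs : s < n) (hs' : s' < n)
    (h : 2 ^ a + 2 ^ s' ≡ 1 + 2 ^ (a + s) [MOD m]) : s = s' := by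
  have hd' : d ∣ 2 ^ n - 1 := ⟨m, by rw [← hm, mul_comm]⟩
  have h0 : ¬ (n = 6 ∧ d = 3) ∧ 5 ≤ n ∨ (n = 2 ∧ d = 1 ∧ m = 3) ∨ (n = 3 ∧ d = 1 ∧ m = 7) ∨
      (n = 4 ∧ d = 1 ∧ m = 15) ∨ (n = 6 ∧ d = 3 ∧ m = 21) := by
    by_cases h5 : 5 ≤ n
    · by_cases h6 : n = 6 ∧ d = 3
      · obtain ⟨rfl, rfl⟩ := h6
        right; right; right; right
        refine ⟨rfl, rfl, ?_⟩
        norm_num at hm
        omega
      · exact Or.inl ⟨h6, h5⟩
    · right
      have hn' : n = 2 ∨ n = 3 ∨ n = 4 := by omega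
      rcases hn' with rfl | rfl | rfl
      · have hd1 : d = 1 := by
          have hle := Nat.le_of_dvd (by norm_num) hd
          interval_cases d <;> first | rfl | (exfalso; revert hd hd'; decide)
        subst hd1
        left
        refine ⟨rfl, rfl, ?_⟩
        norm_num at hm
        exact hm
      · have hd1 : d = 1 := by
          have hle := Nat.le_of_dvd (by norm_num) hd
          interval_cases d <;> first | rfl | (exfalso; revert hd hd'; decide)
        subst hd1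
        right; left
        refine ⟨rfl, rfl, ?_⟩
        norm_num at hm
        exact hm
      · have hd1 : d = 1 := by
          have hle := Nat.le_of_dvd (by norm_num) hd
          interval_cases d <;> first | rfl | (exfalso; revert hd hd'; decide)
        subst hd1
        right; right; left
        refine ⟨rfl, rfl, ?_⟩
        norm_num at hm
        exact hm
  rcases h0 with ⟨h6, h5⟩ | ⟨rfl, rfl, rfl⟩ | ⟨rfl, rfl, rfl⟩ | ⟨rfl, rfl, rfl⟩ | ⟨rfl, rfl, rfl⟩
  · exact beta_generic h5 hm hd h6 ha hs hs' h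
  · have key : ∀ a < 2, ∀ s < 2, ∀ s' < 2, (2 ^ a + 2 ^ s') % 3 = (1 + 2 ^ (a + s)) % 3 → s = s' := by
      decide
    exact key a ha s hs s' hs' h
  · have key : ∀ a < 3, ∀ s < 3, ∀ s' < 3, (2 ^ a + 2 ^ s') % 7 = (1 + 2 ^ (a + s)) % 7 → s = s' := by
      decide +kernel
    exact key a ha s hs s' hs' h
  · have key : ∀ a < 4, ∀ s < 4, ∀ s' < 4, (2 ^ a + 2 ^ s') % 15 = (1 + 2 ^ (a + s)) % 15 → s = s' := by
      decide +kernel
    exact key a ha s hs s' hs' h
  · have key : ∀ a < 6, ∀ s < 6, ∀ s' < 6, (2 ^ a + 2 ^ s') % 21 = (1 + 2 ^ (a + s)) % 21 → s = s' := by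
      decide +kernel
    exact key a ha s hs s' hs' h

end Cfsg.Agent.Lib.ShultArith
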