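import Mathlib
import Cfsg.Agent.Lib.ShultA

/-!
# Shult's theorem, first part: the centre of a non-abelian group consists of involutions
-/

set_option autoImplicit false
set_option linter.unusedSectionVars false
set_option linter.unusedVariables false
set_option linter.style.haveILetI false

open scoped commutatorElement

namespace Cfsg.Agent.Lib.ShultB

open Cfsg.Agent.Lib.LinPoly Cfsg.Agent.Lib.ShultField Cfsg.Agent.Lib.ShultA
open Cfsg.Agent.Lib.SuzTwo (secE mem_secE le_secE secE_ne exists_power_step)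
open Cfsg.Agent.Lib.SuzT1 (comm_mul_left comm_mul_right comm_central_left comm_central_right comm_sq
  sq_mul central_comm conj_central)

universe u v

variable {G : Type u} [Group G] {K : Type v} [Field K]
variable {Y : Set (G →* G)} {io : G → K} {ζ : K}

/-- The squares of an abelian subgroup. -/
def sqs (A : Subgroup G) (hA : ∀ a ∈ A, ∀ b ∈ A, a * b = b * a) : Subgroup G where
  carrier := {w | ∃ a ∈ A, a * a = w}
  one_mem' := ⟨1, A.one_mem, by simp⟩
  mul_mem' := by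
    rintro _ _ ⟨a, ha, rfl⟩ ⟨b, hb, rfl⟩
    refine ⟨a * b, A.mul_mem ha hb, ?_⟩
    calc a * b * (a * b) = a * (b * a) * b := by group
      _ = a * (a * b) * b := by rw [hA b hb a ha]
      _ = a * a * (b * b) := by group
  inv_mem' := by
    rintro _ ⟨a, ha, rfl⟩
    exact ⟨a⁻¹, A.inv_mem ha, by group⟩

lemma sqs_isInv {A : Subgroup G} {hA : ∀ a ∈ A, ∀ b ∈ A, a * b = b * a} (hI : IsInv Y A) :
    IsInv Y (sqs A hA) := by
  rintro y hy _ ⟨a, ha, rfl⟩
  exact ⟨y a, hI y hy a ha, by rw [map_mul]⟩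

lemma sqs_comm {A : Subgroup G} {hA : ∀ a ∈ A, ∀ b ∈ A, a * b = b * a} :
    ∀ a ∈ sqs A hA, ∀ b ∈ sqs A hA, a * b = b * a := by
  rintro _ ⟨a, ha, rfl⟩ _ ⟨b, hb, rfl⟩
  exact hA _ (A.mul_mem ha ha) _ (A.mul_mem hb hb)

lemma center_comm : ∀ a ∈ Subgroup.center G, ∀ b ∈ Subgroup.center G, a * b = b * a :=
  fun a _ b hb => central_comm hb a

/-- Injectivity of the coordinates on the involutions. -/
lemma io_inj [Finite G] [CharP K 2] (h : Data Y io ζ) {x x' : G} (hx : x * x = 1) (hx' : x' * x' = 1)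
    (e : io x = io x') : x = x' := by
  have h1 : io (x * x') = 0 := by
    rw [h.add _ _ hx hx', e]
    exact CharTwo.add_self_eq_zero _
  have h2 : (x * x') * (x * x') = 1 := by
    have : x * x' ∈ Om h := (Om h).mul_mem hx hx'
    exact this
  have h3 := h.inj _ h2 h1
  calc x = x * (x' * x') := by rw [hx', mul_one]
    _ = (x * x') * x' := by group
    _ = x' := by rw [h3, one_mul]

variable [Finite G] [Fintype K] [CharP K 2] {n : ℕ}

/-- The centre of a non-abelian group consists of involutions. -/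
theorem center_sq (h : Data Y io ζ) (hF : Fintype.card K = 2 ^ n) (hζ : ζ ≠ 0)
    (hβ : ∀ s < n, ∀ s' < n, ∀ a < n, wt ζ s' ^ 2 ^ a = wt ζ s → s = s')
    (hna : ∃ a b : G, a * b ≠ b * a) : ∀ z ∈ Subgroup.center G, z * z = 1 := by
  classical
  by_contra hcon
  push Not at hcon
  obtain ⟨z₀, hz₀, hz₀1⟩ := hcon
  set Z := Subgroup.center G with hZ
  have hZcomm : ∀ z ∈ Z, ∀ g : G, z * g = g * z := fun z hz g => (central_comm hz g).symm
  have hZinv : IsInv Y Z := center_isInv h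
  have hOmZ : Om h ≤ Z := Om_le_center h
  have hZtop : Z ≠ ⊤ := by
    intro e
    obtain ⟨a, b, hab⟩ := hna
    exact hab (hZcomm a (e ▸ Subgroup.mem_top a) b)
  -- the exponent of the centre
  have hex : ∃ e, ∀ w ∈ Z, w ^ 2 ^ e = 1 := by
    obtain ⟨e, he⟩ := IsPGroup.iff_card.mp h.two
    exact ⟨e, fun w _ => by rw [← he]; exact pow_card_eq_one'⟩
  have hspec := Nat.find_spec hex
  have hmin := fun m => Nat.find_min hex (m := m)
  set e := Nat.find hex with he
  have he0 : e ≠ 0 := by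
    intro h0
    rw [h0] at hspec
    have := hspec z₀ hz₀
    apply hz₀1
    simp only [pow_zero, pow_one] at this
    rw [this, one_mul]
  have he1 : e ≠ 1 := by
    intro h0
    rw [h0] at hspec
    have := hspec z₀ hz₀
    apply hz₀1
    rw [← sq]
    simpa using this
  obtain ⟨k, hk⟩ : ∃ k, e = k + 2 := ⟨e - 2, by omega⟩
  have hmin' := hmin (k + 1) (by omega)
  push Not at hmin'
  obtain ⟨w₀, hw₀, hw₀1⟩ := hmin'
  rw [hk] at hspec
  set N := 2 ^ (k + 2) with hN
  have hNs : ∀ x : G, x ^ N = (x * x) ^ 2 ^ (k + 1) := by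
    intro x
    rw [← sq, ← pow_mul, ← pow_succ']
  -- the subgroup `D`
  set D := secE Z with hD
  have hDZ : Z ≤ D := le_secE Z
  obtain ⟨x₁, hx₁Z, hx₁D⟩ := secE_ne h.two Z hZtop
  have hDinv : IsInv Y D := by
    intro y hy x hx
    refine ⟨?_, fun g => ?_⟩
    · rw [← map_mul]
      exact hZinv y hy _ hx.1
    · obtain ⟨g', rfl⟩ := y_surj h hy g
      rw [← map_commutatorElement]
      exact hZinv y hy _ (hx.2 g')
  have hDcomm : ∀ x ∈ D, ∀ g : G, ⁅x, g⁆ * ⁅x, g⁆ = 1 := by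
    intro x hx g
    rw [← comm_sq (hx.2 g), commutatorElement_eq_one_iff_mul_comm]
    exact hZcomm _ hx.1 g
  have hinvol : ∀ x ∈ D, x ^ N * x ^ N = 1 := by
    intro x hx
    rw [hNs, ← pow_add, ← two_mul, ← pow_succ']
    exact hspec _ hx.1
  have hpowmul : ∀ x ∈ D, ∀ x' ∈ D, (x * x') ^ N = x ^ N * x' ^ N := by
    intro x hx x' hx'
    have hc : ⁅x, x'⁆ ∈ Z := hx.2 x'
    have e2 : x * x' * (x * x') = ⁅x, x'⁆ * ((x * x) * (x' * x')) := by
      rw [sq_mul, conj_central hx.1 x', mul_assoc]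
    rw [hNs, hNs, hNs, e2]
    have hcm1 : Commute ⁅x, x'⁆ ((x * x) * (x' * x')) := hZcomm _ hc _
    have hcm2 : Commute (x * x) (x' * x') := hZcomm _ hx.1 _
    rw [hcm1.mul_pow, hcm2.mul_pow]
    have e3 : ⁅x, x'⁆ ^ 2 ^ (k + 1) = 1 := by
      rw [pow_succ', pow_mul, sq, hDcomm x hx x', one_pow]
    rw [e3, one_mul]
  -- the map `κ`
  set κ : G → K := fun x => io (x ^ N) with hκ
  have hκker : ∀ x ∈ D, κ x = 0 → x ∈ Z := by
    intro x hx h0
    have h1 : x ^ N = 1 := h.inj _ (hinvol x hx) h0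
    have h2 : (x * x) ^ 2 ^ (k + 1) = 1 := by rw [← hNs]; exact h1
    have hsq : x * x ∈ sqs Z center_comm := by
      apply mem_of_pow h (sqs_isInv hZinv) sqs_comm k (w₀ * w₀) (x * x) ⟨w₀, hw₀, rfl⟩ _ _ _ h2
      · rw [← sq, ← pow_mul, ← pow_succ']
        exact hw₀1
      · rw [← sq, ← pow_mul, ← pow_succ']
        exact hspec _ hw₀
      · intro b hb
        obtain ⟨a, ha, rfl⟩ := hb
        exact (hZcomm _ (Z.mul_mem ha ha) _).symm
    obtain ⟨z, hz, hzz⟩ := hsq
    have h3 : (x * z⁻¹) * (x * z⁻¹) = 1 := by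
      have hcz : z⁻¹ * x = x * z⁻¹ := hZcomm _ (Z.inv_mem hz) x
      calc (x * z⁻¹) * (x * z⁻¹) = x * (z⁻¹ * x) * z⁻¹ := by group
        _ = x * (x * z⁻¹) * z⁻¹ := by rw [hcz]
        _ = (x * x) * (z * z)⁻¹ := by group
        _ = 1 := by rw [hzz, mul_inv_cancel]
    have h4 : x * z⁻¹ ∈ Z := hOmZ h3
    have : x = x * z⁻¹ * z := by group
    rw [this]
    exact Z.mul_mem h4 hz
  have hx₁κ : κ x₁ ≠ 0 := fun h0 => hx₁Z (hκker x₁ hx₁D h0)
  have ht₁ : x₁ ^ N ≠ 1 := by
    intro h0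
    apply hx₁κ
    simp only [hκ]
    rw [h0, io_one h]
  have P : Pair h D κ := by
    refine ⟨hDinv, hDcomm, ?_, ?_, ?_, ?_⟩
    · intro x hx x' hx'
      simp only [hκ]
      rw [hpowmul x hx x' hx', h.add _ _ (hinvol x hx) (hinvol x' hx')]
    · intro u
      by_cases hu : u = 0
      · refine ⟨1, D.one_mem, ?_⟩
        simp only [hκ, one_pow]
        rw [io_one h, hu]
      · obtain ⟨t', ht', htu⟩ := h.surj u
        have ht'1 : t' ≠ 1 := by
          rintro rfl
          rw [io_one h] at htu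
          exact hu htu.symm
        obtain ⟨y, hy, hyt⟩ := h.trans _ t' ht₁ (hinvol x₁ hx₁D) ht'1 ht'
        refine ⟨y x₁, hDinv y hy _ hx₁D, ?_⟩
        simp only [hκ]
        rw [← map_pow, hyt, htu]
    · intro x hx h0 g
      exact hZcomm x (hκker x hx h0) g
    · intro y hy a σ hs x hx
      simp only [hκ]
      rw [← map_pow]
      exact hs _ (hinvol x hx)
  -- `D` is abelian
  have hPhiD : ∀ g ∈ D, P.Phi g = 0 := by
    intro g hg
    by_contra hne
    obtain ⟨g', hg', c, s, hc, hs, he⟩ := P.exists_mono hF hζ hβ hDinv hg hne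
    have h1 := P.Phi_eq hg' g'
    rw [commutatorElement_self, io_one h, he, mono_apply] at h1
    have h2 := mono_inj hc s h1
    have h3 := hκker g' hg' h2
    have h4 : P.Phi g' = 0 := (P.Phi_eq_zero_iff g').mpr fun x _ => (hZcomm g' h3 x).symm
    have h5 := DFunLike.congr_fun (he.symm.trans h4) 1
    simp only [mono_apply, one_pow, mul_one, AddMonoidHom.zero_apply] at h5
    exact hc h5
  have hDab : ∀ x ∈ D, ∀ x' ∈ D, x * x' = x' * x := fun x hx x' hx' =>
    (P.Phi_eq_zero_iff x').mp (hPhiD x' hx') x hx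
  -- a monomial element
  have hne0 : ∃ g, P.Phi g ≠ 0 := by
    by_contra hall
    push Not at hall
    apply hx₁Z
    refine Subgroup.mem_center_iff.mpr fun g => ?_
    exact ((P.Phi_eq_zero_iff g).mp (hall g) x₁ hx₁D).symm
  obtain ⟨g₀, hg₀⟩ := hne0
  obtain ⟨g, -, c, s, hc, hs, he⟩ := P.exists_mono hF hζ hβ (N := ⊤) (fun _ _ _ _ => Subgroup.mem_top _)
    (Subgroup.mem_top g₀) hg₀
  have hinj : ∀ u, P.Phi g u = 0 → u = 0 := by
    intro u hu
    rw [he, mono_apply] at hu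
    exact mono_inj hc s hu
  have hgD : g ∉ D := fun hg => by
    have h1 := hPhiD g hg
    have h2 := hinj 1 (by rw [h1, AddMonoidHom.zero_apply])
    exact one_ne_zero h2
  -- the square of `g` centralizes `D`
  set v := g * g with hv
  have hvD : ∀ x ∈ D, x * v = v * x := by
    have h1 : P.Phi v = 0 := by
      rw [hv, P.Phi_mul]
      ext u
      exact CharTwo.add_self_eq_zero _
    exact (P.Phi_eq_zero_iff v).mp h1
  have hvg : v * g = g * v := by rw [hv]; group
  have hmemZ : ∀ w : G, w ^ N = 1 → w ∈ Z := by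
    intro w hw
    exact mem_of_pow h hZinv center_comm (k + 1) w₀ w hw₀ hw₀1 (hspec _ hw₀)
      (fun b hb => (hZcomm b hb w).symm) hw
  have hvZ : v ∈ Z := by
    by_contra hvZ
    have h1 : v ^ N ≠ 1 := fun h0 => hvZ (hmemZ v h0)
    obtain ⟨r, hr1, hr2⟩ := exists_pow_invol h h1
    set u := v ^ 2 ^ r with hu
    have hu1 : u ^ N = (v ^ N) ^ 2 ^ r := by
      rw [hu, ← pow_mul, ← pow_mul, mul_comm]
    rw [← hu1] at hr1 hr2
    obtain ⟨w, hw, hwu⟩ := P.surj (io (u ^ N))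
    have hwN : w ^ N = u ^ N := io_inj h (hinvol w hw) hr2 hwu
    have hcomm : ∀ x ∈ D, Commute u x := by
      intro x hx
      exact Commute.pow_left (hvD x hx).symm _
    have h2 : u * w⁻¹ ∈ Z := by
      apply hmemZ
      rw [((hcomm w hw).inv_right).mul_pow, inv_pow, hwN, mul_inv_cancel]
    have huD : u ∈ D := by
      have : u = u * w⁻¹ * w := by group
      rw [this]
      exact D.mul_mem (hDZ h2) hw
    have h3 := P.Phi_eq huD g
    have h4 : ⁅u, g⁆ = 1 := by
      rw [commutatorElement_eq_one_iff_mul_comm]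
      exact Commute.pow_left hvg _
    rw [h4, io_one h] at h3
    have h5 := hinj _ h3
    have h6 : u ^ N = 1 := h.inj _ hr2 h5
    exact hr1 h6
  -- `v⁻¹` is a square in `D`
  have hvsq : v⁻¹ ∈ sqs D hDab := by
    apply mem_of_pow h (sqs_isInv hDinv) sqs_comm (k + 1) (x₁ * x₁) v⁻¹ ⟨x₁, hx₁D, rfl⟩
    · rw [← hNs]
      exact ht₁
    · rw [pow_succ, pow_mul, ← hNs, sq]
      exact hinvol x₁ hx₁D
    · rintro _ ⟨a, ha, rfl⟩
      exact hZcomm _ (Z.inv_mem hvZ) _
    · rw [inv_pow, hspec v hvZ, inv_one]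
  obtain ⟨a₁, ha₁, ha₁2⟩ := hvsq
  set s₀ := ⁅a₁, g⁆ with hs₀
  have hs₀2 : s₀ * s₀ = 1 := hDcomm a₁ ha₁ g
  have hs₀c : s₀ ∈ Z := ha₁.2 g
  -- `s₀` is a square in the centre
  have hw : ∃ w ∈ Z, w * w = s₀ := by
    by_cases h1 : s₀ = 1
    · exact ⟨1, Z.one_mem, by rw [h1, one_mul]⟩
    have hz₀' : z₀ ∉ Om h := hz₀1
    obtain ⟨r, hr1, hr2⟩ := exists_power_step h.two (Om h) hz₀'
    obtain ⟨y, hy, hyt⟩ := h.trans _ s₀ hr1 hr2 h1 hs₀2
    exact ⟨y (z₀ ^ 2 ^ r), hZinv y hy _ (Z.pow_mem hz₀ _), by rw [← map_mul, hyt]⟩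
  obtain ⟨w, hwZ, hww⟩ := hw
  set a := a₁ * w with ha
  have haD : a ∈ D := D.mul_mem ha₁ (hDZ hwZ)
  have hcomma : ⁅a, g⁆ = s₀ := comm_central_left hwZ
  have haa : a * a = v⁻¹ * s₀ := by
    rw [← ha₁2, ← hww, ha]
    have hcw : w * a₁ = a₁ * w := hZcomm w hwZ a₁
    calc a₁ * w * (a₁ * w) = a₁ * (w * a₁) * w := by group
      _ = a₁ * (a₁ * w) * w := by rw [hcw]
      _ = a₁ * a₁ * (w * w) := by group
  have hfin : (g * a) * (g * a) = 1 := by
    have e1 : a * g = s₀ * (g * a) := by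
      rw [← hcomma, commutatorElement_def]
      group
    have hcs : ∀ x : G, s₀ * x = x * s₀ := fun x => hZcomm s₀ hs₀c x
    calc (g * a) * (g * a) = g * (a * g) * a := by group
      _ = g * (s₀ * (g * a)) * a := by rw [e1]
      _ = (g * s₀) * (g * a) * a := by group
      _ = (s₀ * g) * (g * a) * a := by rw [hcs g]
      _ = s₀ * (g * g) * (a * a) := by group
      _ = s₀ * v * (v⁻¹ * s₀) := by rw [haa]
      _ = s₀ * s₀ := by group
      _ = 1 := hs₀2
  apply hgD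
  have h1 : g * a ∈ Z := hOmZ hfin
  have : g = g * a * a⁻¹ := by group
  rw [this]
  exact D.mul_mem (hDZ h1) (D.inv_mem haD)

end Cfsg.Agent.Lib.ShultB
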