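import Mathlib
import Cfsg.Agent.Lib.ShultB

/-!
# Shult's theorem, second part: the quotient by the involutions is elementary abelian
-/

set_option autoImplicit false
set_option linter.unusedSectionVars false
set_option linter.unusedVariables false
set_option linter.style.haveILetI false

open scoped commutatorElement

namespace Cfsg.Agent.Lib.ShultC

open Cfsg.Agent.Lib.LinPoly Cfsg.Agent.Lib.ShultField Cfsg.Agent.Lib.ShultA Cfsg.Agent.Lib.ShultB
open Cfsg.Agent.Lib.SuzTwo (secE mem_secE le_secE secE_ne exists_power_step)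
open Cfsg.Agent.Lib.SuzT1 (comm_mul_left comm_mul_right comm_central_left comm_central_right comm_sq
  sq_mul central_comm conj_central)

universe u v

variable {G : Type u} [Group G] {K : Type v} [Field K]
variable {Y : Set (G →* G)} {io : G → K} {ζ : K}

/-- The restriction of the endomorphisms to a subgroup. -/
def resY (Y : Set (G →* G)) (H : Subgroup G) : Set (H →* H) :=
  {f | ∃ y ∈ Y, ∀ x : H, (f x : G) = y x}

/-- The restriction of one endomorphism. -/
def resHom {H : Subgroup G} {y : G →* G} (hy : ∀ x ∈ H, y x ∈ H) : H →* H :=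
  (y.comp H.subtype).codRestrict H (fun x => hy x x.2)

@[simp] lemma resHom_coe {H : Subgroup G} {y : G →* G} (hy : ∀ x ∈ H, y x ∈ H) (x : H) :
    (resHom hy x : G) = y x := rfl

lemma Data.restrict [Finite G] (h : Data Y io ζ) {H : Subgroup G} (hI : IsInv Y H) (hne : H ≠ ⊥) :
    Data (resY Y H) (fun x : H => io (x : G)) ζ := by
  refine ⟨h.two.to_subgroup H, ?_, ?_, ?_, ?_, ?_, ?_, ?_⟩
  · rintro f ⟨y, hy, hf⟩ a b hab
    apply Subtype.ext
    apply h.yinj y hy
    rw [← hf, ← hf, hab]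
  · rintro x x' hx hx2 hx' hx'2
    have h1 : (x : G) ≠ 1 := fun e => hx (Subtype.ext e)
    have h2 : (x' : G) ≠ 1 := fun e => hx' (Subtype.ext e)
    have h3 : (x : G) * x = 1 := congrArg Subtype.val hx2
    have h4 : (x' : G) * x' = 1 := congrArg Subtype.val hx'2
    obtain ⟨y, hy, hyx⟩ := h.trans _ _ h1 h3 h2 h4
    exact ⟨resHom (hI y hy), ⟨y, hy, fun _ => rfl⟩, Subtype.ext hyx⟩
  · intro x x' hx hx'
    exact h.add _ _ (congrArg Subtype.val hx) (congrArg Subtype.val hx')
  · intro x hx h0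
    exact Subtype.ext (h.inj _ (congrArg Subtype.val hx) h0)
  · intro c
    obtain ⟨x, hx, hc⟩ := h.surj c
    exact ⟨⟨x, Om_le h hI hne hx⟩, Subtype.ext hx, hc⟩
  · rintro f ⟨y, hy, hf⟩
    obtain ⟨a, σ, ha, hs⟩ := h.semi y hy
    refine ⟨a, σ, ha, fun x hx => ?_⟩
    simp only [hf]
    exact hs _ (congrArg Subtype.val hx)
  · obtain ⟨y, hy, hyz⟩ := h.alpha
    refine ⟨resHom (hI y hy), ⟨y, hy, fun _ => rfl⟩, fun x hx => ?_⟩
    exact hyz _ (congrArg Subtype.val hx)

/-- An endomorphism in `Y` is onto on an invariant subgroup. -/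
lemma IsInv.surj [Finite G] (h : Data Y io ζ) {H : Subgroup G} (hI : IsInv Y H) {y : G →* G}
    (hy : y ∈ Y) {x : G} (hx : x ∈ H) : ∃ x' ∈ H, y x' = x := by
  have hinj : Function.Injective (resHom (hI y hy)) := by
    intro a b hab
    apply Subtype.ext
    apply h.yinj y hy
    exact congrArg Subtype.val hab
  obtain ⟨⟨x', hx'⟩, e⟩ := (Finite.injective_iff_surjective.mp hinj) ⟨x, hx⟩
  exact ⟨x', hx', congrArg Subtype.val e⟩

/-- Counting: the nonzero elements of `K` are not products of elements of two proper fixed fields. -/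
lemma fix_card {K : Type*} [Field K] [Fintype K] [CharP K 2] {n s : ℕ} (hF : Fintype.card K = 2 ^ n)
    (hs : 0 < s) (hsn : s < n) :
    ∃ A : Finset K, (∀ w : K, w ∈ A ↔ w ≠ 0 ∧ w ^ 2 ^ s = w) ∧ (A.card + 1) * (A.card + 1) ≤ 2 ^ n := by
  classical
  refine ⟨Finset.univ.filter (fun w : K => w ≠ 0 ∧ w ^ 2 ^ s = w), fun w => by simp, ?_⟩
  set A := Finset.univ.filter (fun w : K => w ≠ 0 ∧ w ^ 2 ^ s = w) with hA
  have hroots : ∀ t, 0 < t → (∀ w ∈ A, w ^ 2 ^ t = w) → A.card + 1 ≤ 2 ^ t := by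
    intro t ht hall
    have hne : (Polynomial.X ^ 2 ^ t - Polynomial.X : Polynomial K) ≠ 0 :=
      FiniteField.X_pow_card_pow_sub_X_ne_zero K (by omega) (by norm_num)
    have hdeg : (Polynomial.X ^ 2 ^ t - Polynomial.X : Polynomial K).natDegree = 2 ^ t :=
      FiniteField.X_pow_card_pow_sub_X_natDegree_eq K (by omega) (by norm_num)
    have hsub : insert 0 A ⊆ (Polynomial.X ^ 2 ^ t - Polynomial.X : Polynomial K).roots.toFinset := by
      intro w hw
      rw [Multiset.mem_toFinset, Polynomial.mem_roots hne, Polynomial.IsRoot.def]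
      simp only [Polynomial.eval_sub, Polynomial.eval_pow, Polynomial.eval_X]
      rw [Finset.mem_insert] at hw
      rcases hw with rfl | hw
      · simp
      · rw [hall w hw, sub_self]
    have h0 : (0 : K) ∉ A := by simp [hA]
    have h1 := Finset.card_le_card hsub
    rw [Finset.card_insert_of_notMem h0] at h1
    have h2 := Multiset.toFinset_card_le (Polynomial.X ^ 2 ^ t - Polynomial.X : Polynomial K).roots
    have h3 := Polynomial.card_roots' (Polynomial.X ^ 2 ^ t - Polynomial.X : Polynomial K)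
    rw [hdeg] at h3
    omega
  have h1 := hroots s hs (fun w hw => (Finset.mem_filter.mp hw).2.2)
  have h2 := hroots (n - s) (by omega) (fun w hw => by
    have hw2 := (Finset.mem_filter.mp hw).2.2
    have e1 : (w ^ 2 ^ (n - s)) ^ 2 ^ s = w := by
      rw [← pow_mul, ← pow_add, Nat.sub_add_cancel hsn.le, ← hF]
      exact FiniteField.pow_card w
    have e2 : (w ^ 2 ^ (n - s) + w) ^ 2 ^ s = 0 := by
      rw [frob_add, e1, hw2]
      exact CharTwo.add_self_eq_zero w
    have e3 := pow_eq_zero_iff (by positivity) |>.mp e2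
    exact CharTwo.add_eq_zero.mp e3)
  calc (A.card + 1) * (A.card + 1) ≤ 2 ^ s * 2 ^ (n - s) := Nat.mul_le_mul h1 h2
    _ = 2 ^ n := by rw [← pow_add]; congr 1; omega

/-- The final count. -/
lemma count_contra {K : Type*} [Field K] [Fintype K] [CharP K 2] {n s s' : ℕ}
    (hF : Fintype.card K = 2 ^ n) (hs : 0 < s) (hsn : s < n) (hs' : 0 < s') (hsn' : s' < n) {x : K}
    (hall : ∀ u : K, u ≠ 0 → ∃ p r : K, p ≠ 0 ∧ r ≠ 0 ∧ p ^ 2 ^ s = p ∧ r ^ 2 ^ s' = r ∧ u = x * r / p) :
    False := by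
  classical
  obtain ⟨A, hA, hAc⟩ := fix_card hF hs hsn
  obtain ⟨B, hB, hBc⟩ := fix_card hF hs' hsn'
  have h1A : (1 : K) ∈ A := (hA 1).mpr ⟨one_ne_zero, by simp⟩
  have hApos : 0 < A.card := Finset.card_pos.mpr ⟨1, h1A⟩
  have hsub : Finset.univ.erase (0 : K) ⊆ (A ×ˢ B).image (fun q : K × K => x * q.2 / q.1) := by
    intro u hu
    obtain ⟨p, r, hp, hr, hp2, hr2, e⟩ := hall u (Finset.ne_of_mem_erase hu)
    refine Finset.mem_image.mpr ⟨(p, r), Finset.mem_product.mpr ⟨(hA p).mpr ⟨hp, hp2⟩, (hB r).mpr ⟨hr, hr2⟩⟩, e.symm⟩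
  have h1 := (Finset.card_le_card hsub).trans Finset.card_image_le
  rw [Finset.card_product, Finset.card_erase_of_mem (Finset.mem_univ _), Finset.card_univ, hF] at h1
  have hprod : (A.card + 1) * (B.card + 1) ≤ 2 ^ n := by
    rcases le_total A.card B.card with hle | hle
    · exact (Nat.mul_le_mul_right _ (by omega)).trans hBc
    · exact (Nat.mul_le_mul_left _ (by omega)).trans hAc
  have hone : 1 ≤ 2 ^ n := Nat.one_le_two_pow
  have e : (A.card + 1) * (B.card + 1) = A.card * B.card + A.card + B.card + 1 := by ring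
  rw [e] at hprod
  omega

end Cfsg.Agent.Lib.ShultC
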