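import Mathlib
import Cfsg.Agent.Lib.ShultC

/-!
# Shult's theorem, the abelian case of the second part
-/

set_option autoImplicit false
set_option linter.unusedSectionVars false
set_option linter.unusedVariables false
set_option linter.style.haveILetI false

open scoped commutatorElement

namespace Cfsg.Agent.Lib.ShultD

open Cfsg.Agent.Lib.LinPoly Cfsg.Agent.Lib.ShultField Cfsg.Agent.Lib.ShultA Cfsg.Agent.Lib.ShultB
  Cfsg.Agent.Lib.ShultC
open Cfsg.Agent.Lib.SuzTwo (secE mem_secE le_secE secE_ne exists_power_step)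
open Cfsg.Agent.Lib.SuzT1 (comm_mul_left comm_mul_right comm_central_left comm_central_right comm_sq
  sq_mul central_comm conj_central comm_inv_left)

universe u v

variable {G : Type u} [Group G] {K : Type v} [Field K]
variable {Y : Set (G →* G)} {io : G → K} {ζ : K}
variable [Finite G] [Fintype K] [CharP K 2] {n : ℕ}

/-- A coset that is invariant is impossible. -/
lemma nc (h : Data Y io ζ) (hF : Fintype.card K = 2 ^ n) (hn : 2 ≤ n) {V : Subgroup G}
    (hVab : ∀ a ∈ V, ∀ b ∈ V, a * b = b * a) (hVinv : IsInv Y V)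
    (hVn : ∀ v ∈ V, ∀ g : G, g * v * g⁻¹ ∈ V) (hEV : Om h ≤ V) {g : G} (hg : g ∉ V)
    (hgg : g * g ∈ Om h) (hy : ∀ y ∈ Y, y g * g⁻¹ ∈ V) : False := by
  classical
  set t := g * g with ht
  have ht2 : t * t = 1 := hgg
  have ht1 : t ≠ 1 := fun e => hg (hEV (show g * g = 1 from e))
  -- a second involution
  have hex : ∃ u : K, u ∉ ({0, io t} : Finset K) := by
    by_contra hall
    push Not at hall
    have h1 : (Finset.univ : Finset K) ⊆ {0, io t} := fun u _ => hall u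
    have h2 := Finset.card_le_card h1
    rw [Finset.card_univ, hF] at h2
    have h3 : ({0, io t} : Finset K).card ≤ 2 := Finset.card_le_two
    have h4 : 2 ^ 2 ≤ 2 ^ n := Nat.pow_le_pow_right (by norm_num) hn
    omega
  obtain ⟨u, hu⟩ := hex
  simp only [Finset.mem_insert, Finset.mem_singleton, not_or] at hu
  obtain ⟨t', ht'2, ht'u⟩ := h.surj u
  have ht'1 : t' ≠ 1 := by
    rintro rfl
    rw [io_one h] at ht'u
    exact hu.1 ht'u.symm
  have ht't : t' ≠ t := by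
    rintro rfl
    exact hu.2 ht'u.symm
  obtain ⟨y, hyY, hyt⟩ := h.trans t t' ht1 ht2 ht'1 ht'2
  have hΘ : ∀ v : G, (v * g) * (v * g) = v * (g * v * g⁻¹) * t := by
    intro v
    rw [ht]
    group
  have hv₀ := hy y hyY
  set v₀ := y g * g⁻¹ with hv₀d
  have hyg : y g = v₀ * g := by rw [hv₀d]; group
  have h1 : v₀ * (g * v₀ * g⁻¹) * t = t' := by
    rw [← hΘ, ← hyg, ← map_mul, ← ht, hyt]
  have he₀ : v₀ * (g * v₀ * g⁻¹) = t' * t := by
    calc v₀ * (g * v₀ * g⁻¹) = v₀ * (g * v₀ * g⁻¹) * (t * t) := by rw [ht2, mul_one]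
      _ = (v₀ * (g * v₀ * g⁻¹) * t) * t := by rw [mul_assoc _ t t]
      _ = t' * t := by rw [h1]
  have he₀2 : (t' * t) * (t' * t) = 1 := (Om h).mul_mem ht'2 ht2
  have he₀1 : t' * t ≠ 1 := by
    intro e
    apply ht't
    calc t' = t' * (t * t) := by rw [ht2, mul_one]
      _ = (t' * t) * t := by group
      _ = t := by rw [e, one_mul]
  obtain ⟨y', hy'Y, hy't⟩ := h.trans (t' * t) t he₀1 he₀2 ht1 ht2
  have hv' := hy y' hy'Y
  set v' := y' g * g⁻¹ with hv'd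
  have hy'g : y' g = v' * g := by rw [hv'd]; group
  have hv₁ : y' v₀ ∈ V := hVinv y' hy'Y _ hv₀
  have hconj : y' g * y' v₀ * (y' g)⁻¹ = g * y' v₀ * g⁻¹ := by
    rw [hy'g]
    have hc := hVab v' hv' _ (hVn _ hv₁ g)
    calc v' * g * y' v₀ * (v' * g)⁻¹ = v' * (g * y' v₀ * g⁻¹) * v'⁻¹ := by group
      _ = (g * y' v₀ * g⁻¹) * v' * v'⁻¹ := by rw [hc]
      _ = g * y' v₀ * g⁻¹ := by group
  have h2 : y' v₀ * (g * y' v₀ * g⁻¹) = t := by
    rw [← hconj, ← map_inv, ← map_mul, ← map_mul, ← map_mul, he₀, hy't]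
  have h3 : (y' v₀ * g) * (y' v₀ * g) = 1 := by
    rw [hΘ, h2, ht2]
  apply hg
  have h4 : y' v₀ * g ∈ V := hEV h3
  have : g = (y' v₀)⁻¹ * (y' v₀ * g) := by group
  rw [this]
  exact V.mul_mem (V.inv_mem hv₁) h4

lemma pow4 (x : G) : x ^ 4 = x * x * (x * x) := by
  rw [show (4 : ℕ) = 2 + 2 from rfl, pow_add, sq]

/-- The coordinates of the squares. -/
def kap (io : G → K) (x : G) : K := io (x * x)

section abelian

variable {h : Data Y io ζ} {T V : Subgroup G} (P : Pair h T (kap io))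
  (hV : ∀ g, g ∈ V ↔ P.Phi g = 0)
  (hVab : ∀ a ∈ V, ∀ b ∈ V, a * b = b * a)
  (hVinv : IsInv Y V) (hTV : T ≤ V)
  (hTE : ∀ x ∈ T, x * x ∈ Om h)
  (hTc : ∀ x ∈ T, ∀ g : G, ⁅x, g⁆ ∈ Om h)
  (x₁ : G) (hx₁ : x₁ ∈ T) (hx₁E : x₁ ∉ Om h)
  (hF : Fintype.card K = 2 ^ n) (hn : 2 ≤ n)
  (hζ : ζ ≠ 0) (hβ : ∀ s < n, ∀ s' < n, ∀ a < n, wt ζ s' ^ 2 ^ a = wt ζ s → s = s')

include hV in
lemma V_normal : ∀ v ∈ V, ∀ g : G, g * v * g⁻¹ ∈ V := by
  intro v hv g
  rw [hV] at hv ⊢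
  rw [P.Phi_mul, P.Phi_mul, P.Phi_inv, hv, add_zero, add_neg_cancel]

include hV in
lemma Om_le_V : Om h ≤ V := by
  intro t ht
  rw [hV, P.Phi_eq_zero_iff]
  intro x _
  exact (inv_central h ht x).symm

include P hTE hx₁ hx₁E in
/-- Elements of order at most 4 centralizing `T` lie in `T`. -/
lemma mem_T {v : G} (hv : ∀ x ∈ T, v * x = x * v) (hv4 : v ^ 4 = 1)
    (hTab : ∀ a ∈ T, ∀ b ∈ T, a * b = b * a) : v ∈ T := by
  apply mem_of_pow h P.inv hTab 1 x₁ v hx₁
  · intro e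
    apply hx₁E
    show x₁ * x₁ = 1
    simpa [sq] using e
  · have := hTE x₁ hx₁
    have h1 : (x₁ * x₁) * (x₁ * x₁) = 1 := this
    calc x₁ ^ 2 ^ (1 + 1) = x₁ ^ 4 := by norm_num
      _ = (x₁ * x₁) * (x₁ * x₁) := pow4 x₁
      _ = 1 := h1
  · exact hv
  · simpa using hv4

include hV hTE hx₁ hx₁E hTV in
/-- The square of an element with injective pairing is an involution. -/
lemma sqE (hTab : ∀ a ∈ T, ∀ b ∈ T, a * b = b * a) {g : G} (hinj : ∀ u, P.Phi g u = 0 → u = 0) :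
    g * g ∈ Om h := by
  by_contra hgg
  obtain ⟨r, hr1, hr2⟩ := exists_power_step h.two (Om h) hgg
  set u := (g * g) ^ 2 ^ r with hu
  have hvV : g * g ∈ V := by
    rw [hV, P.Phi_mul]
    ext w
    exact CharTwo.add_self_eq_zero _
  have huT : u ∈ T := by
    apply mem_T P hTE x₁ hx₁ hx₁E _ _ hTab
    · intro x hx
      have := (hV (g * g)).mp hvV
      have h1 := (P.Phi_eq_zero_iff (g * g)).mp this x hx
      exact (Commute.pow_left (Commute.symm h1) _)
    · rw [pow4]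
      exact hr2
  have h1 := P.Phi_eq huT g
  have h2 : ⁅u, g⁆ = 1 := by
    rw [commutatorElement_eq_one_iff_mul_comm]
    have : Commute (g * g) g := by
      show g * g * g = g * (g * g)
      group
    exact this.pow_left _
  rw [h2, io_one h] at h1
  have h3 := hinj _ h1
  have h4 : u * u = 1 := h.inj _ hr2 h3
  exact hr1 h4

include hV hVab hTE hx₁ hx₁E in
/-- The pairing of an element is idempotent on suitable vectors. -/
lemma idem (hTab : ∀ a ∈ T, ∀ b ∈ T, a * b = b * a) {g : G} (hinj : ∀ u, P.Phi g u = 0 → u = 0)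
    (hgg : g * g ∈ Om h) {x : G} (hx : x ∈ V) (hx8 : x ^ 8 = 1) :
    P.Phi g (io (x ^ 4)) = io (x ^ 4) := by
  have hVn := V_normal P hV
  have hcV : ∀ w ∈ V, ⁅w, g⁆ ∈ V := by
    intro w hw
    have : ⁅w, g⁆ = w * (g * w⁻¹ * g⁻¹) := by
      rw [commutatorElement_def]
      group
    rw [this]
    exact V.mul_mem hw (hVn _ (V.inv_mem hw) g)
  have hcsq : ∀ w ∈ V, ⁅w * w, g⁆ = ⁅w, g⁆ * ⁅w, g⁆ := by
    intro w hw
    have hc : (g * w⁻¹ * g⁻¹) * w = w * (g * w⁻¹ * g⁻¹) := hVab _ (hVn _ (V.inv_mem hw) g) _ hw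
    have e1 : ⁅w * w, g⁆ = w * (w * (g * w⁻¹ * g⁻¹)) * (g * w⁻¹ * g⁻¹) := by
      rw [commutatorElement_def]
      group
    have e2 : ⁅w, g⁆ * ⁅w, g⁆ = w * ((g * w⁻¹ * g⁻¹) * w) * (g * w⁻¹ * g⁻¹) := by
      simp only [commutatorElement_def]
      group
    rw [e1, e2, hc]
  set δ := ⁅x, g⁆ with hδ
  have hδV : δ ∈ V := hcV x hx
  have hxx : x * x ∈ V := V.mul_mem hx hx
  have hcentral : g * g ∈ Subgroup.center G := Om_central h hgg
  -- commutator of `δ` with `g`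
  have hδg : ⁅δ, g⁆ = δ * δ := by
    have e1 : g * x * g⁻¹ * g⁻¹ = (g * g)⁻¹ * (g * x) := by
      have hz := (central_comm (Subgroup.inv_mem _ hcentral) (g * x))
      rw [← hz]
      group
    have e2 : ⁅δ, g⁆ = δ * (g * δ⁻¹ * g⁻¹) := by
      rw [commutatorElement_def]
      group
    have e3 : g * δ⁻¹ * g⁻¹ = δ := by
      have hcomm : g * g * x⁻¹ = x⁻¹ * (g * g) := (central_comm hcentral x⁻¹).symm
      have hcinv : g⁻¹ * g⁻¹ = (g * g)⁻¹ := by group
      have hcomm2 : (g * g)⁻¹ * x = x * (g * g)⁻¹ :=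
        (central_comm (Subgroup.inv_mem _ hcentral) x).symm
      rw [hδ, commutatorElement_inv, commutatorElement_def]
      calc g * (g * x * g⁻¹ * x⁻¹) * g⁻¹ = (g * g) * x * g⁻¹ * x⁻¹ * g⁻¹ := by group
        _ = (g * g) * x * (g⁻¹ * x⁻¹ * g⁻¹) := by group
        _ = (g * g) * x * (g⁻¹ * x⁻¹ * g⁻¹) := rfl
        _ = x * g * x⁻¹ * g⁻¹ := by
          have hgi : g⁻¹ = (g * g)⁻¹ * g := by group
          have e5 : (g * g) * x * ((g * g)⁻¹ * g * x⁻¹ * g⁻¹) = x * g * x⁻¹ * g⁻¹ := by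
            have hzc := central_comm hcentral x
            calc (g * g) * x * ((g * g)⁻¹ * g * x⁻¹ * g⁻¹) = (x * (g * g)) * ((g * g)⁻¹ * g * x⁻¹ * g⁻¹) := by
                  rw [← hzc]
              _ = x * g * x⁻¹ * g⁻¹ := by group
          rw [← e5]
          congr 2
          nth_rewrite 1 [hgi]
          rfl
    rw [e2, e3]
  have hsq1 : ⁅x * x, g⁆ = δ * δ := hcsq x hx
  have hsq2 : ⁅x * x * (x * x), g⁆ = (δ * δ) * (δ * δ) := by
    rw [hcsq _ hxx, hsq1]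
  have hx4 : x * x * (x * x) = x ^ 4 := (pow4 x).symm
  have hx4inv : x ^ 4 * x ^ 4 = 1 := by
    rw [← pow_add]
    exact hx8
  have hδ4 : δ ^ 4 = 1 := by
    have e1 : ⁅x * x * (x * x), g⁆ = 1 := by
      rw [commutatorElement_eq_one_iff_mul_comm, hx4]
      exact inv_central h hx4inv g
    rw [e1] at hsq2
    rw [pow4, ← hsq2]
  have hVT : ∀ w ∈ V, w ^ 4 = 1 → w ∈ T := by
    intro w hw hw4
    apply mem_T P hTE x₁ hx₁ hx₁E _ hw4 hTab
    intro y hy
    have := (hV w).mp hw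
    exact ((P.Phi_eq_zero_iff w).mp this y hy).symm
  have hδT : δ ∈ T := hVT δ hδV hδ4
  have hxxT : x * x ∈ T := by
    apply hVT _ hxx
    have : (x * x) ^ 4 = x ^ 8 := by rw [← sq, ← pow_mul]
    rw [this, hx8]
  have e1 := P.Phi_eq hxxT g
  have e2 := P.Phi_eq hδT g
  rw [hsq1] at e1
  rw [hδg] at e2
  simp only [kap] at e1 e2
  rw [hx4] at e1
  have e3 : P.Phi g (io (x ^ 4) + io (δ * δ)) = 0 := by
    rw [map_add, e1, e2]
    exact CharTwo.add_self_eq_zero _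
  have e4 := hinj _ e3
  have e5 : io (x ^ 4) = io (δ * δ) := by
    have := CharTwo.add_eq_zero.mp e4
    exact this
  rw [e1, e5]

include hV hVab hVinv hTE hTV hx₁ hx₁E hF hn in
/-- The pairing cannot be the identity. -/
lemma id_false {g : G} (hid : ∀ u, P.Phi g u = u) (hgg : g * g ∈ Om h) : False := by
  have hgV : g ∉ V := by
    intro hg
    have h1 := DFunLike.congr_fun ((hV g).mp hg) 1
    rw [hid] at h1
    exact one_ne_zero h1
  apply nc h hF hn hVab hVinv (V_normal P hV) (Om_le_V P hV) hgV hgg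
  intro y hy
  obtain ⟨a, σ, ha, hs⟩ := h.semi y hy
  rw [hV, P.Phi_mul, P.Phi_inv]
  have : P.Phi (y g) = P.Phi g := by
    ext w
    rw [hid]
    have e := P.phi_equiv hy a σ hs g (σ.symm (a⁻¹ * w))
    simp only [RingEquiv.apply_symm_apply] at e
    rw [mul_inv_cancel_left₀ ha] at e
    change P.phi (y g) w = w
    rw [e]
    have h2 : P.phi g (σ.symm (a⁻¹ * w)) = σ.symm (a⁻¹ * w) := hid _
    rw [h2, RingEquiv.apply_symm_apply, mul_inv_cancel_left₀ ha]
  rw [this, add_neg_cancel]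

end abelian

end Cfsg.Agent.Lib.ShultD
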