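import Mathlib
import Cfsg.Agent.Lib.ShultD

/-!
# Shult's theorem, the end of the second part
-/

set_option autoImplicit false
set_option linter.unusedSectionVars false
set_option linter.unusedVariables false
set_option linter.style.haveILetI false

open scoped commutatorElement

namespace Cfsg.Agent.Lib.ShultE

open Cfsg.Agent.Lib.LinPoly Cfsg.Agent.Lib.ShultField Cfsg.Agent.Lib.ShultA Cfsg.Agent.Lib.ShultB
  Cfsg.Agent.Lib.ShultC Cfsg.Agent.Lib.ShultD
open Cfsg.Agent.Lib.SuzTwo (secE mem_secE le_secE secE_ne exists_power_step)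
open Cfsg.Agent.Lib.SuzT1 (comm_mul_left comm_mul_right comm_central_left comm_central_right comm_sq
  sq_mul central_comm conj_central comm_inv_left)

universe u v

variable {G : Type u} [Group G] {K : Type v} [Field K]
variable {Y : Set (G →* G)} {io : G → K} {ζ : K}
variable [Finite G] [Fintype K] [CharP K 2] {n : ℕ}

section abelian

variable {h : Data Y io ζ} {T V : Subgroup G} (P : Pair h T (kap io))
  (hV : ∀ g, g ∈ V ↔ P.Phi g = 0)
  (hVab : ∀ a ∈ V, ∀ b ∈ V, a * b = b * a)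
  (hVinv : IsInv Y V) (hTV : T ≤ V)
  (hTE : ∀ x ∈ T, x * x ∈ Om h)
  (hTc : ∀ x ∈ T, ∀ g : G, ⁅x, g⁆ ∈ Om h)
  (x₁ : G) (hx₁ : x₁ ∈ T) (hx₁E : x₁ ∉ Om h)
  (hF : Fintype.card K = 2 ^ n) (hn : 2 ≤ n)
  (hζ : ζ ≠ 0) (hβ : ∀ s < n, ∀ s' < n, ∀ a < n, wt ζ s' ^ 2 ^ a = wt ζ s → s = s')
  (hTab : ∀ a ∈ T, ∀ b ∈ T, a * b = b * a)

include hV hVab hVinv hTV hTE hx₁ hx₁E hF hn hζ hβ hTab in
/-- No element of order 8 in `V`. -/
lemma no8 (hne : ∃ g, P.Phi g ≠ 0) {x : G} (hx : x ∈ V) (h4 : x ^ 4 ≠ 1) (h8 : x ^ 8 = 1) : False := by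
  obtain ⟨g₀, hg₀⟩ := hne
  obtain ⟨g, -, c, s, hc, hs, he⟩ := P.exists_mono hF hζ hβ (N := ⊤) (fun _ _ _ _ => Subgroup.mem_top _)
    (Subgroup.mem_top g₀) hg₀
  have hinj : ∀ u, P.Phi g u = 0 → u = 0 := by
    intro u hu
    rw [he, mono_apply] at hu
    exact mono_inj hc s hu
  have hgg := sqE P hV hTV hTE x₁ hx₁ hx₁E hTab hinj
  apply id_false P hV hVab hVinv hTV hTE x₁ hx₁ hx₁E hF hn (g := g) _ hgg
  intro u
  by_cases hu : u = 0
  · rw [hu, map_zero]
  obtain ⟨t', ht'2, ht'u⟩ := h.surj u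
  have ht'1 : t' ≠ 1 := by
    rintro rfl
    rw [io_one h] at ht'u
    exact hu ht'u.symm
  have hx4 : x ^ 4 * x ^ 4 = 1 := by
    rw [← pow_add]
    exact h8
  obtain ⟨y, hy, hyt⟩ := h.trans (x ^ 4) t' h4 hx4 ht'1 ht'2
  have hyx : y x ∈ V := hVinv y hy _ hx
  have hyx8 : (y x) ^ 8 = 1 := by
    rw [← map_pow, h8, map_one]
  have e := idem P hV hVab hTE x₁ hx₁ hx₁E hTab hinj hgg hyx hyx8
  rw [← map_pow, hyt, ht'u] at e
  exact e

/-- A commutator is inverted by elements whose squares are central. -/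
lemma comm_comm {g k : G} (hg : g * g ∈ Subgroup.center G) (hk : k * k ∈ Subgroup.center G) :
    ⁅⁅g, k⁆, g⁆ = ⁅g, k⁆ * ⁅g, k⁆ ∧ ⁅⁅g, k⁆, k⁆ = ⁅g, k⁆ * ⁅g, k⁆ := by
  have hgi : g⁻¹ = (g * g)⁻¹ * g := by group
  have hki : k⁻¹ = (k * k)⁻¹ * k := by group
  have hgc : ∀ x : G, (g * g)⁻¹ * x = x * (g * g)⁻¹ := fun x =>
    (central_comm (Subgroup.inv_mem _ hg) x).symm
  have hkc : ∀ x : G, (k * k)⁻¹ * x = x * (k * k)⁻¹ := fun x =>
    (central_comm (Subgroup.inv_mem _ hk) x).symm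
  constructor
  · have e1 : g * ⁅g, k⁆⁻¹ * g⁻¹ = ⁅g, k⁆ := by
      rw [commutatorElement_inv, commutatorElement_def, commutatorElement_def]
      calc g * (k * g * k⁻¹ * g⁻¹) * g⁻¹ = g * k * g * k⁻¹ * (g⁻¹ * g⁻¹) := by group
        _ = g * k * g * k⁻¹ * (g * g)⁻¹ := by group
        _ = (g * g)⁻¹ * (g * k * g * k⁻¹) := (hgc _).symm
        _ = g * k * ((g * g)⁻¹ * g) * k⁻¹ := by
          rw [← mul_assoc (g * k), ← hgc (g * k)]
          group
        _ = g * k * g⁻¹ * k⁻¹ := by rw [← hgi]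
    have e2 : ⁅⁅g, k⁆, g⁆ = ⁅g, k⁆ * (g * ⁅g, k⁆⁻¹ * g⁻¹) := by
      generalize ⁅g, k⁆ = b
      rw [commutatorElement_def]
      group
    rw [e2, e1]
  · have e1 : k * ⁅g, k⁆⁻¹ * k⁻¹ = ⁅g, k⁆ := by
      rw [commutatorElement_inv, commutatorElement_def, commutatorElement_def]
      calc k * (k * g * k⁻¹ * g⁻¹) * k⁻¹ = (k * k) * g * k⁻¹ * g⁻¹ * k⁻¹ := by group
        _ = (k * k) * g * ((k * k)⁻¹ * k) * g⁻¹ * k⁻¹ := by rw [← hki]
        _ = (k * k) * g * (k * k)⁻¹ * k * g⁻¹ * k⁻¹ := by group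
        _ = (k * k) * ((k * k)⁻¹ * g) * k * g⁻¹ * k⁻¹ := by rw [mul_assoc (k * k) g, ← hkc g]
        _ = g * k * g⁻¹ * k⁻¹ := by group
    have e2 : ⁅⁅g, k⁆, k⁆ = ⁅g, k⁆ * (k * ⁅g, k⁆⁻¹ * k⁻¹) := by
      generalize ⁅g, k⁆ = b
      rw [commutatorElement_def]
      group
    rw [e2, e1]

include hTE in
/-- The fixed vector of a commutator. -/
lemma fix {g k : G} (hg : g * g ∈ Om h) (hk : k * k ∈ Om h) (hb : ⁅g, k⁆ ∈ T) :
    P.Phi g (kap io ⁅g, k⁆) = kap io ⁅g, k⁆ ∧ P.Phi k (kap io ⁅g, k⁆) = kap io ⁅g, k⁆ := by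
  obtain ⟨e1, e2⟩ := comm_comm (Om_central h hg) (Om_central h hk)
  constructor
  · rw [P.Phi_eq hb, e1]
    rfl
  · rw [P.Phi_eq hb, e2]
    rfl

include hV hTV hTE hx₁ hx₁E hTab in
/-- Monomial elements have squares in the involutions. -/
lemma gen_sq (hVT : V ≤ T) {g : G} {c : K} {s : ℕ} (he : P.Phi g = mono c s) : g * g ∈ Om h := by
  by_cases hc : c = 0
  · have h0 : P.Phi g = 0 := by
      rw [he, hc]
      ext u
      simp
    exact hTE g (hVT ((hV g).mpr h0))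
  · refine sqE P hV hTV hTE x₁ hx₁ hx₁E hTab (fun u hu => ?_)
    rw [he, mono_apply] at hu
    exact mono_inj hc s hu

include hV hVab hVinv hTV hTE hTc hx₁ hx₁E hF hn hTab in
/-- The commutator of two monomial elements lies in the involutions. -/
lemma cross (hVT : V ≤ T) {g k : G} {c c' : K} {s s' : ℕ} (he : P.Phi g = mono c s)
    (he' : P.Phi k = mono c' s') (hs : s < n) (hs' : s' < n) : ⁅g, k⁆ ∈ Om h := by
  classical
  by_contra hb
  have gsq : ∀ {g : G} {c : K} {s : ℕ}, P.Phi g = mono c s → g * g ∈ Om h := fun {g c s} he =>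
    gen_sq P hV hTV hTE x₁ hx₁ hx₁E hTab hVT he
  have commT : ∀ g k : G, ⁅g, k⁆ ∈ T := by
    intro g k
    apply hVT
    rw [hV, commutatorElement_def, P.Phi_mul, P.Phi_mul, P.Phi_mul, P.Phi_inv, P.Phi_inv]
    abel
  have hgg := gsq he
  have hkk := gsq he'
  have hc : c ≠ 0 := by
    rintro rfl
    have h0 : P.Phi g = 0 := by
      rw [he]
      ext u
      simp
    exact hb (hTc g (hVT ((hV g).mpr h0)) k)
  have hc' : c' ≠ 0 := by
    rintro rfl
    have h0 : P.Phi k = 0 := by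
      rw [he']
      ext u
      simp
    have h1 := hTc k (hVT ((hV k).mpr h0)) g
    apply hb
    rw [← commutatorElement_inv]
    exact (Om h).inv_mem h1
  set b := ⁅g, k⁆ with hbd
  have hbT : b ∈ T := commT g k
  have hkapne : ∀ w ∈ T, w ∉ Om h → kap io w ≠ 0 := by
    intro w hw hwE h0
    exact hwE (h.inj _ (hTE w hw) h0)
  set x := kap io b with hx
  have hx0 : x ≠ 0 := hkapne b hbT hb
  obtain ⟨f1, f2⟩ := fix P hTE hgg hkk hbT
  rw [← hbd, ← hx, he, mono_apply] at f1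
  rw [← hbd, ← hx, he', mono_apply] at f2
  have hidfalse : ∀ {g : G}, (∀ u, P.Phi g u = u) → g * g ∈ Om h → False := fun {g} hid hgg =>
    id_false P hV hVab hVinv hTV hTE x₁ hx₁ hx₁E hF hn hid hgg
  have hs0 : 0 < s := by
    rcases Nat.eq_zero_or_pos s with rfl | h0
    · exfalso
      simp only [pow_zero, pow_one] at f1
      have hc1 : c = 1 := mul_right_cancel₀ hx0 (f1.trans (one_mul x).symm)
      apply hidfalse (g := g) _ hgg
      intro u
      rw [he, mono_apply, hc1]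
      simp
    · exact h0
  have hs'0 : 0 < s' := by
    rcases Nat.eq_zero_or_pos s' with rfl | h0
    · exfalso
      simp only [pow_zero, pow_one] at f2
      have hc1 : c' = 1 := mul_right_cancel₀ hx0 (f2.trans (one_mul x).symm)
      apply hidfalse (g := k) _ hkk
      intro u
      rw [he', mono_apply, hc1]
      simp
    · exact h0
  apply count_contra hF hs0 hs hs'0 hs' (x := x)
  intro u hu
  -- the conjugates
  have htx : (b * b) * (b * b) = 1 := hTE b hbT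
  have htx1 : b * b ≠ 1 := hb
  obtain ⟨t', ht'2, ht'u⟩ := h.surj u
  have ht'1 : t' ≠ 1 := by
    rintro rfl
    rw [io_one h] at ht'u
    exact hu ht'u.symm
  obtain ⟨y, hy, hyt⟩ := h.trans _ t' htx1 htx ht'1 ht'2
  obtain ⟨a, σ, ha, hsm⟩ := h.semi y hy
  have hau : a * σ x = u := by
    have := hsm _ htx
    rw [hyt, ht'u] at this
    exact this.symm
  set c₁ := a * σ c / a ^ 2 ^ s with hc₁
  have hσc : σ c ≠ 0 := fun e => hc (by simpa using e)
  have ha2 : a ^ 2 ^ s ≠ 0 := pow_ne_zero _ ha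
  have hc₁0 : c₁ ≠ 0 := div_ne_zero (mul_ne_zero ha hσc) ha2
  have hyg : P.Phi (y g) = mono c₁ s := by
    ext w
    have e := P.phi_equiv hy a σ hsm g (σ.symm (a⁻¹ * w))
    simp only [RingEquiv.apply_symm_apply] at e
    rw [mul_inv_cancel_left₀ ha] at e
    change P.phi (y g) w = _
    rw [e]
    have e3 : P.phi g (σ.symm (a⁻¹ * w)) = c * (σ.symm (a⁻¹ * w)) ^ 2 ^ s := by
      have := DFunLike.congr_fun he (σ.symm (a⁻¹ * w))
      exact this
    rw [e3, map_mul, map_pow, RingEquiv.apply_symm_apply, mono_apply, hc₁, mul_pow, inv_pow]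
    field_simp
  have hc₁u : c₁ * u ^ 2 ^ s = u := by
    rw [← hau, hc₁, mul_pow, ← map_pow]
    have e4 : σ c * σ (x ^ 2 ^ s) = σ x := by
      rw [← map_mul, f1]
    field_simp
    exact e4
  set g_u := y g with hg_u
  have hg_uu : g_u * g_u ∈ Om h := gsq hyg
  -- the commutator of `g_u` and `k` is not an involution
  have hA : ⁅g_u, k⁆ ∉ Om h := by
    intro hE
    set e := ⁅g_u, k⁆ with hed
    have hec : e ∈ Subgroup.center G := Om_central h hE
    have hg' : P.Phi (g * g_u) = mono (c + c₁) s := by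
      rw [P.Phi_mul, he, hyg]
      ext w
      simp only [AddMonoidHom.add_apply, mono_apply]
      ring
    have hb' : ⁅g * g_u, k⁆ = b * e := comm_mul_left hec
    have hb'E : ⁅g * g_u, k⁆ ∉ Om h := by
      rw [hb']
      intro h1
      apply hb
      have : b = b * e * e⁻¹ := by group
      rw [this]
      exact (Om h).mul_mem h1 ((Om h).inv_mem hE)
    have hsum : c + c₁ ≠ 0 := by
      intro h0
      rw [h0] at hg'
      have h1 : P.Phi (g * g_u) = 0 := by
        rw [hg']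
        ext u
        simp
      exact hb'E (hTc _ (hVT ((hV _).mpr h1)) k)
    have hgg' := gsq hg'
    obtain ⟨f3, -⟩ := fix P hTE hgg' hkk (commT (g * g_u) k)
    have hkapb : kap io ⁅g * g_u, k⁆ = x := by
      rw [hb', hx]
      unfold kap
      have e1 : e * b = b * e := (central_comm hec b).symm
      have e2 : b * e * (b * e) = b * b * (e * e) := by
        calc b * e * (b * e) = b * (e * b) * e := by group
          _ = b * (b * e) * e := by rw [e1]
          _ = b * b * (e * e) := by group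
      have e3 : e * e = 1 := hE
      rw [e2, e3, mul_one]
    rw [hkapb, hg', mono_apply, add_mul, f1] at f3
    have h5 : c₁ * x ^ 2 ^ s = 0 := by
      have := add_left_cancel (a := x) (b := c₁ * x ^ 2 ^ s) (c := 0) (by rw [f3, add_zero])
      exact this
    exact hx0 (mono_inj hc₁0 s h5)
  have hbuT := commT g_u k
  set x_u := kap io ⁅g_u, k⁆ with hx_u
  have hx_u0 : x_u ≠ 0 := hkapne _ hbuT hA
  obtain ⟨f5, f6⟩ := fix P hTE hg_uu hkk hbuT
  rw [← hx_u, hyg, mono_apply] at f5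
  rw [← hx_u, he', mono_apply] at f6
  refine ⟨x_u / u, x_u / x, div_ne_zero hx_u0 hu, div_ne_zero hx_u0 hx0, ?_, ?_, ?_⟩
  · have hu2 : u ^ 2 ^ s ≠ 0 := pow_ne_zero _ hu
    rw [div_pow, div_eq_div_iff hu2 hu]
    calc x_u ^ 2 ^ s * u = x_u ^ 2 ^ s * (c₁ * u ^ 2 ^ s) := by rw [hc₁u]
      _ = (c₁ * x_u ^ 2 ^ s) * u ^ 2 ^ s := by ring
      _ = x_u * u ^ 2 ^ s := by rw [f5]
  · have hx2 : x ^ 2 ^ s' ≠ 0 := pow_ne_zero _ hx0
    rw [div_pow, div_eq_div_iff hx2 hx0]
    calc x_u ^ 2 ^ s' * x = x_u ^ 2 ^ s' * (c' * x ^ 2 ^ s') := by rw [f2]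
      _ = (c' * x_u ^ 2 ^ s') * x ^ 2 ^ s' := by ring
      _ = x_u * x ^ 2 ^ s' := by rw [f6]
  · field_simp

include P hV hVab hVinv hTV hTE hTc hx₁ hx₁E hF hn hζ hβ hTab in
/-- The abelian case. -/
theorem all_gen (hVT : V ≤ T) (hn0 : 0 < n) :
    (∀ g : G, g * g ∈ Om h) ∧ ∀ g k : G, ⁅g, k⁆ ∈ Om h := by
  classical
  let Gen : Set G := {g | ∃ c s, s < n ∧ P.Phi g = mono c s}
  let S := Subgroup.closure Gen
  have hS : ∀ g, g ∈ S := by
    intro g
    obtain ⟨c, hc, hc'⟩ := P.comp_exists hF hζ hβ (N := ⊤) (fun _ _ _ _ => Subgroup.mem_top _)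
      (Subgroup.mem_top g)
    have hpart : ∀ m ≤ n, ∃ w ∈ S, ∀ u, P.Phi w u = ∑ s ∈ Finset.range m, c s * u ^ 2 ^ s := by
      intro m
      induction m with
      | zero =>
        intro _
        refine ⟨1, S.one_mem, fun u => ?_⟩
        rw [P.Phi_one]
        simp
      | succ m ih =>
        intro hm
        obtain ⟨w, hw, ew⟩ := ih (by omega)
        obtain ⟨g', -, eg'⟩ := hc' m (by omega)
        refine ⟨w * g', S.mul_mem hw (Subgroup.subset_closure ⟨c m, m, by omega, eg'⟩), fun u => ?_⟩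
        rw [P.Phi_mul, AddMonoidHom.add_apply, ew, eg', Finset.sum_range_succ, mono_apply]
    obtain ⟨w, hw, ew⟩ := hpart n le_rfl
    have h0 : P.Phi (g * w⁻¹) = mono 0 0 := by
      rw [P.Phi_mul, P.Phi_inv]
      ext u
      simp only [AddMonoidHom.add_apply, AddMonoidHom.neg_apply, mono_apply, ew, hc u, zero_mul]
      unfold lin
      simp
    have h1 : g * w⁻¹ ∈ S := Subgroup.subset_closure ⟨0, 0, hn0, h0⟩
    have : g = g * w⁻¹ * w := by group
    rw [this]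
    exact S.mul_mem h1 hw
  have hcen : ∀ {x : G}, x ∈ Om h → x ∈ Subgroup.center G := fun hx => Om_central h hx
  -- first step
  have step1 : ∀ g ∈ S, ∀ k ∈ Gen, ⁅g, k⁆ ∈ Om h := by
    intro g hg k hk
    obtain ⟨c', s', hs', he'⟩ := hk
    induction hg using Subgroup.closure_induction with
    | mem g hg =>
      obtain ⟨c, s, hs, he⟩ := hg
      exact cross P hV hVab hVinv hTV hTE hTc x₁ hx₁ hx₁E hF hn hTab hVT he he' hs hs'
    | one => rw [commutatorElement_one_left]; exact (Om h).one_mem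
    | mul g₁ g₂ _ _ h1 h2 =>
      rw [comm_mul_left (hcen h2)]
      exact (Om h).mul_mem h1 h2
    | inv g _ h1 =>
      rw [comm_inv_left, mul_assoc, ← central_comm (Subgroup.inv_mem _ (hcen h1)) g]
      have : g⁻¹ * (g * ⁅g, k⁆⁻¹) = ⁅g, k⁆⁻¹ := by group
      rw [this]
      exact (Om h).inv_mem h1
  have step2 : ∀ k ∈ S, ∀ g : G, ⁅g, k⁆ ∈ Om h := by
    intro k hk g
    induction hk using Subgroup.closure_induction with
    | mem k hk => exact step1 g (hS g) k hk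
    | one => rw [commutatorElement_one_right]; exact (Om h).one_mem
    | mul k₁ k₂ _ _ h1 h2 =>
      rw [comm_mul_right (hcen h2)]
      exact (Om h).mul_mem h1 h2
    | inv k _ h1 =>
      have e : ⁅g, k⁻¹⁆ = k⁻¹ * ⁅g, k⁆⁻¹ * k := by
        simp only [commutatorElement_def]
        group
      rw [e, mul_assoc, ← central_comm (Subgroup.inv_mem _ (hcen h1)) k]
      have : k⁻¹ * (k * ⁅g, k⁆⁻¹) = ⁅g, k⁆⁻¹ := by group
      rw [this]
      exact (Om h).inv_mem h1
  refine ⟨?_, fun g k => step2 k (hS k) g⟩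
  intro g
  have hg := hS g
  induction hg using Subgroup.closure_induction with
  | mem g hg =>
    obtain ⟨c, s, hs, he⟩ := hg
    exact gen_sq P hV hTV hTE x₁ hx₁ hx₁E hTab hVT he
  | one => rw [mul_one]; exact (Om h).one_mem
  | mul g₁ g₂ _ _ h1 h2 =>
    rw [sq_mul, conj_central (hcen h1)]
    exact (Om h).mul_mem ((Om h).mul_mem (step2 g₂ (hS g₂) g₁) h1) h2
  | inv g _ h1 =>
    have : g⁻¹ * g⁻¹ = (g * g)⁻¹ := by group
    rw [this]
    exact (Om h).inv_mem h1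

end abelian

end Cfsg.Agent.Lib.ShultE
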