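import Mathlib
import Cfsg.Agent.Lib.ShultE

/-!
# Shult's theorem: the main statement for the coordinate data
-/

set_option autoImplicit false
set_option linter.unusedSectionVars false
set_option linter.unusedVariables false
set_option linter.style.haveILetI false

open scoped commutatorElement

namespace Cfsg.Agent.Lib.ShultF

open Cfsg.Agent.Lib.LinPoly Cfsg.Agent.Lib.ShultField Cfsg.Agent.Lib.ShultA Cfsg.Agent.Lib.ShultB
  Cfsg.Agent.Lib.ShultC Cfsg.Agent.Lib.ShultD Cfsg.Agent.Lib.ShultE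
open Cfsg.Agent.Lib.SuzTwo (secE mem_secE le_secE secE_ne exists_power_step)
open Cfsg.Agent.Lib.SuzT1 (comm_mul_left comm_mul_right comm_central_left comm_central_right comm_sq
  sq_mul central_comm conj_central comm_inv_left)

universe u v

variable {G : Type u} [Group G] {K : Type v} [Field K]
variable {Y : Set (G →* G)} {io : G → K} {ζ : K}
variable [Finite G] [Fintype K] [CharP K 2] {n : ℕ}

/-- If all commutators with `x` are central, a commutator centralizes `x`. -/
lemma comm_comm_one {x : G} (hx : ∀ g : G, ⁅x, g⁆ ∈ Subgroup.center G) (g k : G) :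
    ⁅x, ⁅g, k⁆⁆ = 1 := by
  have hinv : ∀ g : G, ⁅x, g⁻¹⁆ = ⁅x, g⁆⁻¹ := by
    intro g
    have e : ⁅x, g⁻¹⁆ = g⁻¹ * ⁅x, g⁆⁻¹ * g := by
      simp only [commutatorElement_def]
      group
    rw [e, mul_assoc, ← central_comm (Subgroup.inv_mem _ (hx g)) g]
    group
  rw [commutatorElement_def g k, comm_mul_right (hx _), comm_mul_right (hx _), comm_mul_right (hx _),
    hinv, hinv]
  have hc : ⁅x, k⁆ * ⁅x, g⁆⁻¹ = ⁅x, g⁆⁻¹ * ⁅x, k⁆ :=
    (central_comm (Subgroup.inv_mem _ (hx g)) _)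
  calc ⁅x, g⁆ * ⁅x, k⁆ * ⁅x, g⁆⁻¹ * ⁅x, k⁆⁻¹ = ⁅x, g⁆ * (⁅x, k⁆ * ⁅x, g⁆⁻¹) * ⁅x, k⁆⁻¹ := by group
    _ = ⁅x, g⁆ * (⁅x, g⁆⁻¹ * ⁅x, k⁆) * ⁅x, k⁆⁻¹ := by rw [hc]
    _ = 1 := by group

/-- The main theorem on the data. -/
theorem main (h : Data Y io ζ) (hF : Fintype.card K = 2 ^ n) (hn : 2 ≤ n) (hζ : ζ ≠ 0)
    (hβ : ∀ s < n, ∀ s' < n, ∀ a < n, wt ζ s' ^ 2 ^ a = wt ζ s → s = s')
    (hna : ∃ a b : G, a * b ≠ b * a) :
    (∀ g : G, g * g ∈ Om h) ∧ (∀ g k : G, ⁅g, k⁆ ∈ Om h) := by
  classical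
  set E := Om h with hE
  have hEc : ∀ {x : G}, x ∈ E → x ∈ Subgroup.center G := fun hx => Om_central h hx
  haveI hEn : E.Normal := ⟨fun x hx g => by rw [conj_central (hEc hx) g]; exact hx⟩
  have hEtop : E ≠ ⊤ := by
    intro e
    obtain ⟨a, b, hab⟩ := hna
    exact hab (inv_central h (show a ∈ E from e ▸ Subgroup.mem_top a) b)
  set T := secE E with hT
  obtain ⟨x₁, hx₁E, hx₁⟩ := secE_ne h.two E hEtop
  have hTE : ∀ x ∈ T, x * x ∈ E := fun x hx => hx.1
  have hTc : ∀ x ∈ T, ∀ g : G, ⁅x, g⁆ ∈ E := fun x hx => hx.2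
  have hEinv : IsInv Y E := Om_isInv h
  have hTinv : IsInv Y T := by
    intro y hy x hx
    refine ⟨?_, fun g => ?_⟩
    · rw [← map_mul]
      exact hEinv y hy _ hx.1
    · obtain ⟨g', rfl⟩ := y_surj h hy g
      rw [← map_commutatorElement]
      exact hEinv y hy _ (hx.2 g')
  have ht₁ : x₁ * x₁ ≠ 1 := hx₁E
  have ht₁2 : (x₁ * x₁) * (x₁ * x₁) = 1 := hTE x₁ hx₁
  by_cases hTab : ∀ a ∈ T, ∀ b ∈ T, a * b = b * a
  · -- the abelian case
    have P : Pair h T (kap io) := by
      refine ⟨hTinv, hTc, ?_, ?_, ?_, ?_⟩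
      · intro x hx x' hx'
        unfold kap
        have e : x * x' * (x * x') = (x * x) * (x' * x') := by
          calc x * x' * (x * x') = x * (x' * x) * x' := by group
            _ = x * (x * x') * x' := by rw [hTab x' hx' x hx]
            _ = (x * x) * (x' * x') := by group
        rw [e, h.add _ _ (hTE x hx) (hTE x' hx')]
      · intro u
        by_cases hu : u = 0
        · refine ⟨1, T.one_mem, ?_⟩
          unfold kap
          rw [mul_one, io_one h, hu]
        · obtain ⟨t', ht'2, ht'u⟩ := h.surj u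
          have ht'1 : t' ≠ 1 := by
            rintro rfl
            rw [io_one h] at ht'u
            exact hu ht'u.symm
          obtain ⟨y, hy, hyt⟩ := h.trans _ t' ht₁ ht₁2 ht'1 ht'2
          refine ⟨y x₁, hTinv y hy _ hx₁, ?_⟩
          unfold kap
          rw [← map_mul, hyt, ht'u]
      · intro x hx h0 g
        have h1 : x * x = 1 := h.inj _ (hTE x hx) h0
        exact inv_central h h1 g
      · intro y hy a σ hs x hx
        unfold kap
        rw [← map_mul]
        exact hs _ (hTE x hx)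
    let V : Subgroup G := Subgroup.centralizer (T : Set G)
    have hV : ∀ g, g ∈ V ↔ P.Phi g = 0 := by
      intro g
      rw [P.Phi_eq_zero_iff]
      exact Subgroup.mem_centralizer_iff
    have hTV : T ≤ V := fun x hx => Subgroup.mem_centralizer_iff.mpr fun y hy => hTab y hy x hx
    have hVinv : IsInv Y V := by
      intro y hy v hv
      refine Subgroup.mem_centralizer_iff.mpr fun x hx => ?_
      obtain ⟨x', hx', rfl⟩ := IsInv.surj h hTinv hy hx
      rw [← map_mul, ← map_mul, Subgroup.mem_centralizer_iff.mp hv x' hx']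
    have hVne : V ≠ ⊥ := by
      intro e
      have := hTV hx₁
      rw [e, Subgroup.mem_bot] at this
      exact ht₁ (by rw [this, one_mul])
    have hVab : ∀ a ∈ V, ∀ b ∈ V, a * b = b * a := by
      by_contra hcon
      push Not at hcon
      obtain ⟨a, ha, b, hb, hab⟩ := hcon
      have hd := Data.restrict h hVinv hVne
      have hna' : ∃ a b : V, a * b ≠ b * a :=
        ⟨⟨a, ha⟩, ⟨b, hb⟩, fun e => hab (congrArg Subtype.val e)⟩
      have hz := center_sq hd hF hζ hβ hna' ⟨x₁, hTV hx₁⟩ (by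
        refine Subgroup.mem_center_iff.mpr fun w => ?_
        apply Subtype.ext
        exact (Subgroup.mem_centralizer_iff.mp w.2 x₁ hx₁).symm)
      exact ht₁ (congrArg Subtype.val hz)
    have hne : ∃ g, P.Phi g ≠ 0 := by
      by_contra hall
      push Not at hall
      have hcen : x₁ ∈ Subgroup.center G := Subgroup.mem_center_iff.mpr fun g =>
        ((P.Phi_eq_zero_iff g).mp (hall g) x₁ hx₁).symm
      exact ht₁ (center_sq h hF hζ hβ hna x₁ hcen)
    have hVT : V ≤ T := by
      intro v hv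
      have hv4 : v ^ 4 = 1 := by
        by_contra h4
        obtain ⟨r, hr1, hr2⟩ := exists_pow_invol h h4
        have e4 : (v ^ 2 ^ r) ^ 4 = (v ^ 4) ^ 2 ^ r := by
          rw [← pow_mul, ← pow_mul, mul_comm]
        rw [← e4] at hr1 hr2
        refine no8 P hV hVab hVinv hTV hTE x₁ hx₁ hx₁E hF hn hζ hβ hTab hne (x := v ^ 2 ^ r)
          (V.pow_mem hv _) hr1 ?_
        have e8 : (v ^ 2 ^ r) ^ 8 = (v ^ 2 ^ r) ^ 4 * (v ^ 2 ^ r) ^ 4 := by
          rw [← pow_add]
        rw [e8]
        exact hr2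
      apply mem_T P hTE x₁ hx₁ hx₁E _ hv4 hTab
      intro x hx
      exact (Subgroup.mem_centralizer_iff.mp hv x hx).symm
    exact all_gen P hV hVab hVinv hTV hTE hTc x₁ hx₁ hx₁E hF hn hζ hβ hTab hVT (by omega)
  · -- the non-abelian case
    have hC : ∀ c : G, (∀ x ∈ T, x * c = c * x) → c ∈ E := by
      intro c hc
      by_contra hcE
      obtain ⟨r, hr1, hr2⟩ := exists_power_step h.two E hcE
      set c₁ := c ^ 2 ^ r with hc₁
      have hc₁T : ∀ x ∈ T, x * c₁ = c₁ * x := fun x hx => Commute.pow_right (hc x hx) _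
      have ht : c₁ * c₁ ≠ 1 := hr1
      apply hTab
      have hkey : ∀ v ∈ T, ∀ x ∈ T, v * x = x * v := by
        intro v hv x hx
        by_cases hvE : v ∈ E
        · exact inv_central h hvE x
        have hv1 : v * v ≠ 1 := hvE
        obtain ⟨y, hy, hyt⟩ := h.trans _ _ ht hr2 hv1 (hTE v hv)
        have hw : ∀ x ∈ T, x * y c₁ = y c₁ * x := by
          intro x hx
          obtain ⟨x', hx', rfl⟩ := IsInv.surj h hTinv hy hx
          rw [← map_mul, ← map_mul, hc₁T x' hx']
        have hww : y c₁ * y c₁ = v * v := by rw [← map_mul, hyt]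
        have hcm : Commute v (y c₁)⁻¹ := (Commute.inv_right (hw v hv))
        have he : (v * (y c₁)⁻¹) * (v * (y c₁)⁻¹) = 1 := by
          calc (v * (y c₁)⁻¹) * (v * (y c₁)⁻¹) = v * ((y c₁)⁻¹ * v) * (y c₁)⁻¹ := by group
            _ = v * (v * (y c₁)⁻¹) * (y c₁)⁻¹ := by rw [hcm.eq]
            _ = (v * v) * (y c₁ * y c₁)⁻¹ := by group
            _ = 1 := by rw [hww, mul_inv_cancel]
        have hv' : v = (v * (y c₁)⁻¹) * y c₁ := by group
        rw [hv', mul_assoc, (hw x hx).symm, ← mul_assoc, inv_central h he x, mul_assoc]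
      exact hkey
    refine ⟨fun g => hC _ fun x hx => ?_, fun g k => hC _ fun x hx => ?_⟩
    · rw [← commutatorElement_eq_one_iff_mul_comm, comm_mul_right (hEc (hTc x hx g))]
      exact hTc x hx g
    · rw [← commutatorElement_eq_one_iff_mul_comm]
      exact comm_comm_one (fun g => hEc (hTc x hx g)) g k

end Cfsg.Agent.Lib.ShultF
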