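import Mathlib
import Cfsg.Agent.S3370
import Cfsg.Agent.S3371

/-!
# Linear groups transitive on nonzero vectors: the field generated by a normal cyclic subgroup.
-/

set_option autoImplicit false
set_option linter.style.haveILetI false
set_option linter.unusedSectionVars false

namespace Cfsg.Agent.Lib.TransLin

open Polynomial
open Cfsg.Agent.S3370 (stab mem_stab act eq_one_of_fix)
open Cfsg.Agent.S3380 (fixS mem_fixS map_mul_apply map_one_apply pow_fix)

variable {q : ℕ} [hq : Fact q.Prime] {V : Type*} [AddCommGroup V] [Module (ZMod q) V]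
  {G : Type*} [Group G]

/-- A group element as an endomorphism. -/
abbrev en (ρ : G →* (V ≃ₗ[ZMod q] V)) (g : G) : Module.End (ZMod q) V :=
  ((ρ g : V ≃ₗ[ZMod q] V) : V →ₗ[ZMod q] V)

theorem en_apply (ρ : G →* (V ≃ₗ[ZMod q] V)) (g : G) (v : V) : en ρ g v = ρ g v := rfl

theorem en_mul (ρ : G →* (V ≃ₗ[ZMod q] V)) (g h : G) : en ρ (g * h) = en ρ g * en ρ h := by
  ext v
  exact map_mul_apply ρ g h v

theorem en_one (ρ : G →* (V ≃ₗ[ZMod q] V)) : en ρ (1 : G) = 1 := by
  ext v
  exact map_one_apply ρ v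

theorem en_pow (ρ : G →* (V ≃ₗ[ZMod q] V)) (g : G) (n : ℕ) : en ρ (g ^ n) = en ρ g ^ n := by
  induction n with
  | zero => simp [en_one]
  | succ n ih => rw [pow_succ, en_mul, ih, pow_succ]

/-- Conjugation by a group element as an algebra automorphism of `End V`. -/
noncomputable abbrev kap (ρ : G →* (V ≃ₗ[ZMod q] V)) (g : G) :
    Module.End (ZMod q) V ≃ₐ[ZMod q] Module.End (ZMod q) V :=
  (ρ g).conjAlgEquiv (ZMod q)

theorem kap_apply (ρ : G →* (V ≃ₗ[ZMod q] V)) (g : G) (y : Module.End (ZMod q) V) (v : V) :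
    kap ρ g y v = ρ g (y (ρ g⁻¹ v)) := by
  have h1 : (ρ g).symm v = ρ g⁻¹ v := by
    apply (ρ g).injective
    rw [LinearEquiv.apply_symm_apply, ← map_mul_apply, mul_inv_cancel, map_one_apply]
  rw [LinearEquiv.conjAlgEquiv_apply]
  simp only [LinearMap.comp_apply, LinearEquiv.coe_coe]
  rw [h1]

theorem kap_apply' (ρ : G →* (V ≃ₗ[ZMod q] V)) (g : G) (y : Module.End (ZMod q) V) (v : V) :
    kap ρ g y (ρ g v) = ρ g (y v) := by
  rw [kap_apply, ← map_mul_apply ρ g⁻¹ g, inv_mul_cancel, map_one_apply]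

theorem kap_en (ρ : G →* (V ≃ₗ[ZMod q] V)) (g h : G) : kap ρ g (en ρ h) = en ρ (g * h * g⁻¹) := by
  ext v
  rw [kap_apply, en_apply, en_apply, map_mul_apply, map_mul_apply]

/-- Image of polynomials in `c`. -/
noncomputable abbrev ae (ρ : G →* (V ≃ₗ[ZMod q] V)) (c : G) :
    (ZMod q)[X] →ₐ[ZMod q] Module.End (ZMod q) V := aeval (en ρ c)

theorem kap_ae (ρ : G →* (V ≃ₗ[ZMod q] V)) {c : G} (g : G) {j : ℕ} (hj : g * c * g⁻¹ = c ^ j)
    (p : (ZMod q)[X]) : kap ρ g (ae ρ c p) = ae ρ c (p.comp (X ^ j)) := by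
  have h1 : kap ρ g (aeval (en ρ c) p) = aeval (kap ρ g (en ρ c)) p :=
    (Polynomial.aeval_algHom_apply (kap ρ g) (en ρ c) p).symm
  rw [h1, kap_en, hj, en_pow]
  rw [Polynomial.aeval_comp]
  simp

theorem ae_comm (ρ : G →* (V ≃ₗ[ZMod q] V)) (c : G) (p p' : (ZMod q)[X]) :
    ae ρ c p * ae ρ c p' = ae ρ c p' * ae ρ c p := by
  rw [← map_mul, ← map_mul, mul_comm]

theorem end_finite [Finite V] : Finite (Module.End (ZMod q) V) :=
  DFunLike.finite (V →ₗ[ZMod q] V)

/-- The annihilator in the algebra of `c`. -/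
def ann (ρ : G →* (V ≃ₗ[ZMod q] V)) (c : G) (u : V) : Set (Module.End (ZMod q) V) :=
  {y | (∃ p, ae ρ c p = y) ∧ y u = 0}

theorem ann_le [Finite V] [Finite G] (ρ : G →* (V ≃ₗ[ZMod q] V)) {c : G}
    (hc : ∀ g : G, ∃ j : ℕ, g * c * g⁻¹ = c ^ j) (g : G) (u : V) :
    (ann ρ c u).ncard ≤ (ann ρ c (ρ g u)).ncard := by
  haveI := end_finite (q := q) (V := V)
  apply Set.ncard_le_ncard_of_injOn (kap ρ g)
  · rintro y ⟨⟨p, rfl⟩, hy⟩
    obtain ⟨j, hj⟩ := hc g
    refine ⟨⟨_, (kap_ae ρ g hj p).symm⟩, ?_⟩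
    rw [kap_apply', hy, map_zero]
  · intro y _ y' _ h
    exact (kap ρ g).injective h

theorem ann_card [Finite V] [Finite G] (ρ : G →* (V ≃ₗ[ZMod q] V)) {c : G}
    (hc : ∀ g : G, ∃ j : ℕ, g * c * g⁻¹ = c ^ j)
    (htrans : ∀ v w : V, v ≠ 0 → w ≠ 0 → ∃ g : G, ρ g v = w) {u u' : V} (hu : u ≠ 0) (hu' : u' ≠ 0) :
    (ann ρ c u).ncard = (ann ρ c u').ncard := by
  apply le_antisymm
  · obtain ⟨g, rfl⟩ := htrans u u' hu hu'
    exact ann_le ρ hc g u
  · obtain ⟨g, rfl⟩ := htrans u' u hu' hu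
    exact ann_le ρ hc g u'

theorem ae_domain [Finite V] [Finite G] (ρ : G →* (V ≃ₗ[ZMod q] V)) {c : G}
    (hc : ∀ g : G, ∃ j : ℕ, g * c * g⁻¹ = c ^ j)
    (htrans : ∀ v w : V, v ≠ 0 → w ≠ 0 → ∃ g : G, ρ g v = w) (p p' : (ZMod q)[X])
    (h : ae ρ c p' * ae ρ c p = 0) : ae ρ c p = 0 ∨ ae ρ c p' = 0 := by
  haveI := end_finite (q := q) (V := V)
  by_cases hx : ae ρ c p = 0
  · exact Or.inl hx
  right
  have hle : ∀ u, ae ρ c p u ≠ 0 → ae ρ c p' u = 0 := by
    intro u hu
    have hu0 : u ≠ 0 := by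
      rintro rfl
      exact hu (map_zero _)
    have h1 : ann ρ c u ⊆ ann ρ c (ae ρ c p u) := by
      rintro y ⟨⟨r, rfl⟩, hy⟩
      refine ⟨⟨r, rfl⟩, ?_⟩
      have h2 := congrArg (fun f => f u) (ae_comm ρ c r p)
      simp only [Module.End.mul_apply] at h2
      rw [h2, hy, map_zero]
    have h2 : ann ρ c u = ann ρ c (ae ρ c p u) := by
      apply Set.eq_of_subset_of_ncard_le h1 _ (Set.toFinite _)
      exact (ann_card ρ hc htrans hu0 hu).symm.le
    have h3 : ae ρ c p' ∈ ann ρ c (ae ρ c p u) := by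
      refine ⟨⟨p', rfl⟩, ?_⟩
      have h4 := congrArg (fun f => f u) h
      simpa using h4
    rw [← h2] at h3
    exact h3.2
  obtain ⟨u, hu⟩ : ∃ u, ae ρ c p u ≠ 0 := by
    by_contra hno
    push Not at hno
    apply hx
    ext v
    simpa using hno v
  ext u'
  by_cases hu' : ae ρ c p u' = 0
  · have h1 : ae ρ c p (u + u') ≠ 0 := by
      rw [map_add, hu', add_zero]
      exact hu
    have h2 := hle _ h1
    rw [map_add, hle u hu, zero_add] at h2
    simpa using h2
  · simpa using hle u' hu'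

/-- The field generated by a normal cyclic subgroup. -/
theorem exists_field [Finite V] [Nontrivial V] [Finite G] (ρ : G →* (V ≃ₗ[ZMod q] V)) {c : G}
    (hc : ∀ g : G, ∃ j : ℕ, g * c * g⁻¹ = c ^ j)
    (htrans : ∀ v w : V, v ≠ 0 → w ≠ 0 → ∃ g : G, ρ g v = w) :
    ∃ (F : Type) (_ : Field F) (_ : Finite F) (φ : F →+* Module.End (ZMod q) V),
      Function.Injective φ ∧ (∀ p, ∃ x, φ x = ae ρ c p) ∧ ∀ x, ∃ p, φ x = ae ρ c p := by
  classical
  let ψ : (ZMod q)[X] →+* Module.End (ZMod q) V := (ae ρ c : (ZMod q)[X] →+* Module.End (ZMod q) V)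
  let F := (ZMod q)[X] ⧸ RingHom.ker ψ
  let φ₀ : F →+* Module.End (ZMod q) V := RingHom.kerLift ψ
  have hinj : Function.Injective φ₀ := RingHom.kerLift_injective ψ
  haveI : Finite (Module.End (ZMod q) V) := DFunLike.finite (V →ₗ[ZMod q] V)
  haveI hfin : Finite F := Finite.of_injective φ₀ hinj
  haveI hnt : Nontrivial F := by
    refine ⟨⟨0, 1, fun h => ?_⟩⟩
    have h1 := congrArg φ₀ h
    rw [map_zero, map_one] at h1
    obtain ⟨v, hv⟩ := exists_ne (0 : V)
    apply hv
    have h2 := congrArg (fun f => f v) h1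
    simpa using h2.symm
  have hsurj : ∀ x : F, ∃ p, φ₀ x = ae ρ c p := by
    intro x
    obtain ⟨p, rfl⟩ := Ideal.Quotient.mk_surjective x
    exact ⟨p, rfl⟩
  have hmk : ∀ p, φ₀ (Ideal.Quotient.mk _ p) = ae ρ c p := fun p => rfl
  haveI hdom : IsDomain F := by
    haveI : NoZeroDivisors F := by
      refine ⟨fun {a b} hab => ?_⟩
      obtain ⟨p, rfl⟩ := Ideal.Quotient.mk_surjective a
      obtain ⟨p', rfl⟩ := Ideal.Quotient.mk_surjective b
      have h1 := congrArg φ₀ hab
      rw [map_mul, map_zero, hmk, hmk] at h1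
      rcases ae_domain ρ hc htrans p' p h1 with h | h
      · right
        apply hinj
        rw [hmk, h, map_zero]
      · left
        apply hinj
        rw [hmk, h, map_zero]
    exact NoZeroDivisors.to_isDomain F
  letI : Field F := (Finite.isDomain_to_isField F).toField
  exact ⟨F, inferInstance, hfin, φ₀, hinj, fun p => ⟨Ideal.Quotient.mk _ p, rfl⟩, hsurj⟩


section Data

variable {F : Type} [Field F] [Finite F]
  {ρ : G →* (V ≃ₗ[ZMod q] V)} {c : G} {φ : F →+* Module.End (ZMod q) V}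

theorem phi_inj (x : F) (hx : x ≠ 0) (v : V) (h : φ x v = 0) : v = 0 := by
  have h1 : φ x⁻¹ * φ x = 1 := by rw [← map_mul, inv_mul_cancel₀ hx, map_one]
  have h2 := congrArg (fun f => f v) h1
  simp only [Module.End.mul_apply, h, map_zero, Module.End.one_apply] at h2
  exact h2.symm

theorem kap_mul (ρ : G →* (V ≃ₗ[ZMod q] V)) (g h : G) (y : Module.End (ZMod q) V) :
    kap ρ (g * h) y = kap ρ g (kap ρ h y) := by
  ext v
  rw [kap_apply, kap_apply, kap_apply, mul_inv_rev, map_mul_apply, map_mul_apply]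

theorem kap_one (ρ : G →* (V ≃ₗ[ZMod q] V)) (y : Module.End (ZMod q) V) : kap ρ 1 y = y := by
  ext v
  rw [kap_apply, inv_one, map_one_apply, map_one_apply]

theorem exists_sigma (hinj : Function.Injective φ) (hall : ∀ p, ∃ x, φ x = ae ρ c p)
    (hone : ∀ x, ∃ p, φ x = ae ρ c p) (hc : ∀ g : G, ∃ j : ℕ, g * c * g⁻¹ = c ^ j) (g : G) :
    ∃ σ : RingAut F, ∀ x, φ (σ x) = kap ρ g (φ x) := by
  have h1 : ∀ x, ∃ x', φ x' = kap ρ g (φ x) := by
    intro x
    obtain ⟨p, hp⟩ := hone x
    obtain ⟨j, hj⟩ := hc g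
    rw [hp, kap_ae ρ g hj]
    exact hall _
  choose s hs using h1
  let σ₀ : F →+* F :=
    { toFun := s
      map_one' := by
        apply hinj
        rw [hs, map_one, map_one]
      map_mul' := fun x y => by
        apply hinj
        rw [hs, map_mul, map_mul, map_mul, hs, hs]
      map_zero' := by
        apply hinj
        rw [hs, map_zero, map_zero]
      map_add' := fun x y => by
        apply hinj
        rw [hs, map_add, map_add, map_add, hs, hs] }
  have hb : Function.Bijective σ₀ := Finite.injective_iff_bijective.mp σ₀.injective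
  exact ⟨RingEquiv.ofBijective σ₀ hb, fun x => hs x⟩

theorem exists_hom (hinj : Function.Injective φ) (hall : ∀ p, ∃ x, φ x = ae ρ c p)
    (hone : ∀ x, ∃ p, φ x = ae ρ c p) (hc : ∀ g : G, ∃ j : ℕ, g * c * g⁻¹ = c ^ j) :
    ∃ S : G →* RingAut F, ∀ g x, φ (S g x) = kap ρ g (φ x) := by
  choose s hs using exists_sigma hinj hall hone hc
  refine ⟨MonoidHom.mk' s ?_, hs⟩
  intro g h
  apply RingEquiv.ext
  intro x
  apply hinj
  show φ (s (g * h) x) = φ (s g (s h x))
  rw [hs, hs, hs, kap_mul]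

/-- The field-form conclusion, when the field has the size of `V`. -/
theorem form_of_card [Finite V] [Nontrivial V] (hinj : Function.Injective φ)
    (hall : ∀ p, ∃ x, φ x = ae ρ c p)
    (hone : ∀ x, ∃ p, φ x = ae ρ c p) (hc : ∀ g : G, ∃ j : ℕ, g * c * g⁻¹ = c ^ j)
    (hcard : Nat.card F = Nat.card V) :
    ∃ (F : Type) (_ : Field F) (_ : Fintype F) (e : V ≃+ F),
        ∀ g : G, ∃ (a : F) (σ : F ≃+* F), ∀ v : V, e (ρ g v) = a * σ (e v) := by
  classical
  obtain ⟨v₀, hv₀⟩ := exists_ne (0 : V)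
  let ι : F →+ V :=
    { toFun := fun x => φ x v₀
      map_zero' := by simp
      map_add' := fun x y => by simp }
  have hιinj : Function.Injective ι := by
    rw [injective_iff_map_eq_zero]
    intro x hx
    by_contra hne
    exact hv₀ (phi_inj x hne v₀ hx)
  have hιb : Function.Bijective ι := by
    apply Function.Injective.bijective_of_nat_card_le hιinj
    rw [hcard]
  let e : V ≃+ F := (AddEquiv.ofBijective ι hιb).symm
  have he : ∀ x, e (φ x v₀) = x := fun x => (AddEquiv.ofBijective ι hιb).symm_apply_apply x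
  have he' : ∀ v, φ (e v) v₀ = v := fun v => (AddEquiv.ofBijective ι hιb).apply_symm_apply v
  obtain ⟨S, hS⟩ := exists_hom hinj hall hone hc
  refine ⟨F, inferInstance, Fintype.ofFinite F, e, ?_⟩
  intro g
  refine ⟨e (ρ g v₀), S g, ?_⟩
  intro v
  have h1 : ρ g v = φ (S g (e v) * e (ρ g v₀)) v₀ := by
    rw [map_mul, Module.End.mul_apply, he', hS, kap_apply', he']
  rw [h1, he, mul_comm]

theorem card_eq_pow [Finite V] [Nontrivial V] (φ : F →+* Module.End (ZMod q) V) :
    ∃ n, n ≠ 0 ∧ Nat.card V = Nat.card F ^ n := by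
  letI : Module F V := Module.compHom V φ
  haveI : Module.Finite F V := Module.Finite.of_finite
  have h1 := Module.natCard_eq_pow_finrank (K := F) (V := V)
  refine ⟨_, ?_, h1⟩
  intro h0
  rw [h0, pow_zero] at h1
  have := Finite.one_lt_card (α := V)
  omega

theorem charP_of (hinj : Function.Injective φ) : CharP F q := by
  have hqq : q.Prime := Fact.out
  rw [CharP.charP_iff_prime_eq_zero hqq]
  apply hinj
  rw [map_natCast, map_zero]
  ext v
  have h1 : ((q : Module.End (ZMod q) V)) v = q • v := by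
    simp
  rw [h1]
  have h2 : (q : ZMod q) • v = q • v := Nat.cast_smul_eq_nsmul _ _ _
  rw [← h2, ZMod.natCast_self, zero_smul]
  rfl

/-- The number of conjugates of `c` is at most the degree of the field. -/
theorem index_le [Finite G] (hρ : Function.Injective ρ) (hinj : Function.Injective φ)
    (hall : ∀ p, ∃ x, φ x = ae ρ c p)
    (hone : ∀ x, ∃ p, φ x = ae ρ c p) (hc : ∀ g : G, ∃ j : ℕ, g * c * g⁻¹ = c ^ j) :
    ∃ d, Nat.card F = q ^ d ∧ (Subgroup.centralizer ({c} : Set G)).index ≤ d := by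
  classical
  have hqq : q.Prime := Fact.out
  haveI : CharP F q := charP_of hinj
  letI : Algebra (ZMod q) F := ZMod.algebra F q
  have hcardF : Nat.card F = q ^ Module.finrank (ZMod q) F := by
    have h1 := Module.natCard_eq_pow_finrank (K := ZMod q) (V := F)
    rwa [Nat.card_zmod] at h1
  refine ⟨_, hcardF, ?_⟩
  obtain ⟨S, hS⟩ := exists_hom hinj hall hone hc
  obtain ⟨γ, hγ⟩ := hall X
  rw [aeval_X] at hγ
  -- `φ` is an algebra map
  have hφalg : ∀ r : ZMod q, φ (algebraMap (ZMod q) F r) = algebraMap (ZMod q) _ r := by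
    intro r
    have h1 := RingHom.congr_fun (Subsingleton.elim (φ.comp (algebraMap (ZMod q) F))
      (algebraMap (ZMod q) (Module.End (ZMod q) V))) r
    exact h1
  let φA : F →ₐ[ZMod q] Module.End (ZMod q) V :=
    { φ with commutes' := hφalg }
  have hgen : ∀ x, ∃ p : (ZMod q)[X], x = aeval γ p := by
    intro x
    obtain ⟨p, hp⟩ := hone x
    refine ⟨p, hinj ?_⟩
    rw [hp]
    have h1 : φ (aeval γ p) = aeval (φ γ) p := (Polynomial.aeval_algHom_apply φA γ p).symm
    rw [h1, hγ]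
  let toA : RingAut F → (F →ₐ[ZMod q] F) := fun σ =>
    { (σ : F →+* F) with
      commutes' := fun r => by
        have h1 := RingHom.congr_fun (Subsingleton.elim ((σ : F →+* F).comp (algebraMap (ZMod q) F))
          (algebraMap (ZMod q) F)) r
        exact h1 }
  have htoA : ∀ (σ : RingAut F) x, toA σ x = σ x := fun _ _ => rfl
  -- the kernel
  have hker : S.ker = Subgroup.centralizer ({c} : Set G) := by
    ext g
    rw [MonoidHom.mem_ker, Subgroup.mem_centralizer_singleton_iff]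
    constructor
    · intro h
      have h1 := hS g γ
      rw [h, hγ, kap_en] at h1
      have h2 : (1 : RingAut F) γ = γ := rfl
      rw [h2, hγ] at h1
      have h3 : ρ (g * c * g⁻¹) = ρ c := by
        apply LinearEquiv.toLinearMap_injective
        exact h1.symm
      have h4 := hρ h3
      exact (mul_inv_eq_iff_eq_mul.mp h4)
    · intro h
      have h1 : S g γ = γ := by
        apply hinj
        rw [hS, hγ, kap_en, h, mul_inv_cancel_right]
      apply RingEquiv.ext
      intro x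
      obtain ⟨p, rfl⟩ := hgen x
      have h2 := Polynomial.aeval_algHom_apply (toA (S g)) γ p
      rw [htoA, htoA, h1] at h2
      exact h2.symm
  rw [← hker, Subgroup.index_ker]
  -- counting
  set f := minpoly (ZMod q) γ with hf
  have hint : IsIntegral (ZMod q) γ := Algebra.IsIntegral.isIntegral γ
  have hf0 : f ≠ 0 := minpoly.ne_zero hint
  have hroots : ∀ σ ∈ S.range, σ γ ∈ f.aroots F := by
    intro σ _
    rw [Polynomial.mem_aroots]
    refine ⟨hf0, ?_⟩
    have h1 := Polynomial.aeval_algHom_apply (toA σ) γ f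
    rw [minpoly.aeval, map_zero, htoA] at h1
    exact h1
  have hle1 : Nat.card S.range ≤ (f.aroots F).toFinset.card := by
    let t : S.range → (f.aroots F).toFinset := fun σ =>
      ⟨(σ : RingAut F) γ, Multiset.mem_toFinset.mpr (hroots _ σ.2)⟩
    have ht : Function.Injective t := by
      intro σ σ' h
      have h1 : (σ : RingAut F) γ = (σ' : RingAut F) γ := congrArg Subtype.val h
      apply Subtype.ext
      apply RingEquiv.ext
      intro x
      obtain ⟨p, rfl⟩ := hgen x
      have h2 := Polynomial.aeval_algHom_apply (toA σ) γ p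
      have h3 := Polynomial.aeval_algHom_apply (toA σ') γ p
      rw [htoA, htoA] at h2 h3
      rw [← h2, ← h3, h1]
    have h2 := Nat.card_le_card_of_injective t ht
    have h3 : Nat.card (f.aroots F).toFinset = (f.aroots F).toFinset.card := by
      rw [Nat.card_eq_fintype_card, Fintype.card_coe]
    rwa [h3] at h2
  have hle2 : (f.aroots F).toFinset.card ≤ Multiset.card (f.aroots F) := Multiset.toFinset_card_le _
  have hle3 : Multiset.card (f.aroots F) ≤ f.natDegree := by
    have h1 := Polynomial.card_roots' (f.map (algebraMap (ZMod q) F))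
    have h2 : (f.map (algebraMap (ZMod q) F)).natDegree ≤ f.natDegree := Polynomial.natDegree_map_le
    exact h1.trans h2
  have hle4 : f.natDegree ≤ Module.finrank (ZMod q) F := minpoly.natDegree_le γ
  omega

/-- The element `c` has order dividing `|F| - 1`. -/
theorem order_dvd (hρ : Function.Injective ρ)
    (hall : ∀ p, ∃ x, φ x = ae ρ c p) [Nontrivial V] :
    orderOf c ∣ Nat.card F - 1 := by
  classical
  haveI := Fintype.ofFinite F
  obtain ⟨γ, hγ⟩ := hall X
  rw [aeval_X] at hγ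
  have hγ0 : γ ≠ 0 := by
    rintro rfl
    obtain ⟨v, hv⟩ := exists_ne (0 : V)
    apply hv
    apply (ρ c).injective
    have h1 : (ρ c) v = en ρ c v := rfl
    rw [h1, ← hγ, map_zero]
    simp
  have h1 : γ ^ (Nat.card F - 1) = 1 := by
    rw [Nat.card_eq_fintype_card]
    exact FiniteField.pow_card_sub_one_eq_one γ hγ0
  apply orderOf_dvd_of_pow_eq_one
  apply hρ
  rw [map_one]
  apply LinearEquiv.toLinearMap_injective
  have h2 : en ρ (c ^ (Nat.card F - 1)) = 1 := by
    rw [en_pow, ← hγ, ← map_pow, h1, map_one]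
  exact h2

end Data

/-- The main criterion: a normal cyclic self-centralizing subgroup gives the field form. -/
theorem main_L [Finite V] [Nontrivial V] [Finite G] (ρ : G →* (V ≃ₗ[ZMod q] V))
    (hρ : Function.Injective ρ)
    (htrans : ∀ v w : V, v ≠ 0 → w ≠ 0 → ∃ g : G, ρ g v = w) {c : G}
    (hc : ∀ g : G, ∃ j : ℕ, g * c * g⁻¹ = c ^ j)
    (hself : Subgroup.centralizer ({c} : Set G) ≤ Subgroup.zpowers c) :
    ∃ (F : Type) (_ : Field F) (_ : Fintype F) (e : V ≃+ F),
        ∀ g : G, ∃ (a : F) (σ : F ≃+* F), ∀ v : V, e (ρ g v) = a * σ (e v) := by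
  classical
  have hqq : q.Prime := Fact.out
  obtain ⟨F, _, _, φ, hinj, hall, hone⟩ := exists_field ρ hc htrans
  obtain ⟨n, hn0, hn⟩ := card_eq_pow φ
  by_cases hn1 : n = 1
  · subst hn1
    rw [pow_one] at hn
    exact form_of_card hinj hall hone hc hn.symm
  exfalso
  obtain ⟨d, hd, hdle⟩ := index_le hρ hinj hall hone hc
  have hQ1 : 1 < Nat.card F := Finite.one_lt_card
  have hord := order_dvd hρ hall (c := c)
  have hordle : orderOf c ≤ Nat.card F - 1 := Nat.le_of_dvd (by omega) hord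
  have hcent : Nat.card (Subgroup.centralizer ({c} : Set G)) ≤ orderOf c := by
    rw [← Nat.card_zpowers]
    exact Subgroup.card_le_of_le hself
  have hGle : Nat.card G ≤ d * (Nat.card F - 1) := by
    have h1 := Subgroup.card_mul_index (Subgroup.centralizer ({c} : Set G))
    rw [← h1, mul_comm]
    exact Nat.mul_le_mul hdle (hcent.trans hordle)
  obtain ⟨v₀, hv₀⟩ := exists_ne (0 : V)
  have hform := Cfsg.Agent.S3370.card_formula ρ htrans v₀ hv₀
  have hstab : 0 < Nat.card (stab ρ v₀) := Nat.card_pos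
  have hV1 : Nat.card V - 1 ≤ Nat.card G := by
    rw [hform]
    exact Nat.le_mul_of_pos_right _ hstab
  have hn2 : 2 ≤ n := by omega
  have hVQ : Nat.card F ^ 2 ≤ Nat.card V := by
    rw [hn]
    exact Nat.pow_le_pow_right (by omega) hn2
  obtain ⟨P, hP⟩ : ∃ P, Nat.card F = P + 1 := ⟨Nat.card F - 1, by omega⟩
  have hP0 : 0 < P := by omega
  have h1 : (P + 1) ^ 2 - 1 ≤ d * P := by
    have h2 : Nat.card F - 1 = P := by omega
    rw [h2] at hGle
    rw [hP] at hVQ
    omega
  have h2 : (P + 1) ^ 2 - 1 = P * (P + 2) := by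
    have : (P + 1) ^ 2 = P * (P + 2) + 1 := by ring
    omega
  rw [h2, mul_comm d P] at h1
  have h3 : P + 2 ≤ d := Nat.le_of_mul_le_mul_left h1 hP0
  have h4 : d < 2 ^ d := Nat.lt_two_pow_self
  have h5 : 2 ^ d ≤ q ^ d := Nat.pow_le_pow_left hqq.two_le d
  rw [← hd, hP] at h5
  omega

end Cfsg.Agent.Lib.TransLin
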