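import Mathlib
import Cfsg.Agent.S3360

/-!
# Coordinates for a solvable linear group transitive on the nonzero vectors over the field with two elements
-/

set_option autoImplicit false
set_option linter.unusedSectionVars false
set_option linter.unusedVariables false
set_option linter.style.haveILetI false

namespace Cfsg.Agent.Lib.ShultG

lemma not_two_pow_odd {r N : ℕ} (hodd : N % 2 = 1) (hN : N ≠ 1) : 2 ^ r ≠ N := by
  intro e
  rcases Nat.eq_zero_or_pos r with rfl | hr
  · exact hN (by simpa using e.symm)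
  · have : 2 ∣ 2 ^ r := dvd_pow_self 2 (by omega)
    rw [e] at this
    omega

/-- The number of field automorphisms. -/
lemma card_ringAut {F : Type*} [Field F] [Fintype F] [CharP F 2] {n : ℕ}
    (hF : Fintype.card F = 2 ^ n) : Nat.card (RingAut F) = n := by
  classical
  letI : Algebra (ZMod 2) F := ZMod.algebra F 2
  have hrank : Module.finrank (ZMod 2) F = n := by
    have h1 : Nat.card F = Nat.card (ZMod 2) ^ Module.finrank (ZMod 2) F :=
      Module.natCard_eq_pow_finrank
    rw [Nat.card_eq_fintype_card, hF, Nat.card_zmod] at h1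
    exact (Nat.pow_right_injective (le_refl 2) h1).symm
  have hcomm : ∀ (σ : F ≃+* F) (r : ZMod 2), σ (algebraMap (ZMod 2) F r) = algebraMap (ZMod 2) F r := by
    intro σ r
    have := RingHom.congr_fun (RingHom.ext_zmod ((σ : F →+* F).comp (algebraMap (ZMod 2) F))
      (algebraMap (ZMod 2) F)) r
    exact this
  let φ : RingAut F ≃ (F ≃ₐ[ZMod 2] F) :=
    { toFun := fun σ => AlgEquiv.ofRingEquiv (f := σ) (hcomm σ)
      invFun := fun τ => (τ : F ≃+* F)
      left_inv := fun σ => by
        ext x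
        rfl
      right_inv := fun τ => by
        ext x
        rfl }
  rw [Nat.card_congr φ, IsGalois.card_aut_eq_finrank, hrank]

/-- Coordinates for a solvable linear group transitive on the nonzero vectors. -/
theorem lin_data {V : Type*} [AddCommGroup V] [Module (ZMod 2) V] [Finite V] [Nontrivial V]
    {Γ : Type*} [Group Γ] [Finite Γ] (hsol : Group.IsSolvable Γ)
    (ρ : Γ →* (V ≃ₗ[ZMod 2] V)) (hρ : Function.Injective ρ)
    (htrans : ∀ v w : V, v ≠ 0 → w ≠ 0 → ∃ g : Γ, ρ g v = w) :
    ∃ (F : Type) (_ : Field F) (_ : Fintype F) (_ : CharP F 2) (e : V ≃+ F) (n : ℕ) (ζ : F)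
      (hζ : ζ ≠ 0) (m d : ℕ), Fintype.card F = 2 ^ n ∧
      (∀ g : Γ, ∃ (a : F) (σ : F ≃+* F), a ≠ 0 ∧ ∀ v, e (ρ g v) = a * σ (e v)) ∧
      (∃ g₀ : Γ, ∀ v, e (ρ g₀ v) = ζ * e v) ∧
      orderOf (Units.mk0 ζ hζ) = m ∧ m * d = 2 ^ n - 1 ∧ d ∣ n := by
  classical
  haveI hf2 : Fact (Nat.Prime 2) := ⟨Nat.prime_two⟩
  -- the cardinality of `V`
  have hcardV : Nat.card V = 2 ^ Module.finrank (ZMod 2) V := by
    have h1 : Nat.card V = Nat.card (ZMod 2) ^ Module.finrank (ZMod 2) V :=
      Module.natCard_eq_pow_finrank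
    rwa [Nat.card_zmod] at h1
  rcases Cfsg.Agent.S3360.result 2 hsol ρ hρ htrans with ⟨F, fF, fiF, e, hg⟩ | hcard
  swap
  · exfalso
    rw [hcardV] at hcard
    simp only [Set.mem_insert_iff, Set.mem_singleton_iff] at hcard
    rcases hcard with h | h | h | h | h | h <;>
      exact not_two_pow_odd (by norm_num) (by norm_num) h
  set n := Module.finrank (ZMod 2) V with hn
  have hcardF : Fintype.card F = 2 ^ n := by
    rw [← Nat.card_eq_fintype_card, ← hcardV]
    exact (Nat.card_congr e.toEquiv).symm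
  have hvv : ∀ v : V, v + v = 0 := by
    intro v
    have h1 : ((1 : ZMod 2) + 1) • v = 0 := by
      have : (1 : ZMod 2) + 1 = 0 := CharTwo.add_self_eq_zero (1 : ZMod 2)
      rw [this, zero_smul]
    rwa [add_smul, one_smul] at h1
  haveI hchar : CharP F 2 := by
    apply CharTwo.of_one_ne_zero_of_two_eq_zero one_ne_zero
    have h1 : (1 : F) + 1 = 0 := by
      have h2 := map_add e (e.symm 1) (e.symm 1)
      rw [hvv, map_zero, e.apply_symm_apply] at h2
      exact h2.symm
    rw [← one_add_one_eq_two]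
    exact h1
  have heinj : ∀ {v : V}, v ≠ 0 → e v ≠ 0 := fun {v} hv h0 => hv (by simpa using h0)
  choose A Sg hAS using hg
  have hAne : ∀ g, A g ≠ 0 := by
    intro g h0
    have h1 := hAS g (e.symm 1)
    rw [h0, zero_mul] at h1
    have h2 : ρ g (e.symm 1) = 0 := by simpa using h1
    have h3 : e.symm (1 : F) = 0 := by
      apply (ρ g).injective
      rw [h2, map_zero]
    have h4 : (1 : F) = 0 := by
      have := congrArg e h3
      simpa using this
    exact one_ne_zero h4
  -- uniqueness
  have hAS' : ∀ g x, e (ρ g (e.symm x)) = A g * Sg g x := by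
    intro g x
    rw [hAS, e.apply_symm_apply]
  have huniq : ∀ (g : Γ) (a : F) (σ : F ≃+* F), (∀ x, e (ρ g (e.symm x)) = a * σ x) →
      a = A g ∧ σ = Sg g := by
    intro g a σ h1
    have ha : a = A g := by
      have h2 := h1 1
      rw [hAS', map_one, map_one, mul_one, mul_one] at h2
      exact h2.symm
    refine ⟨ha, ?_⟩
    ext x
    have h2 := h1 x
    rw [hAS', ha] at h2
    exact (mul_left_cancel₀ (hAne g) h2).symm
  have hmulAS : ∀ g h x, e (ρ (g * h) (e.symm x)) = (A g * Sg g (A h)) * (Sg g * Sg h : RingAut F) x := by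
    intro g h x
    rw [map_mul, LinearEquiv.mul_apply]
    have h1 : ρ h (e.symm x) = e.symm (A h * Sg h x) := by
      rw [← hAS', e.symm_apply_apply]
    rw [h1, hAS', map_mul, mul_assoc]
    rfl
  have hSmul : ∀ g h, Sg (g * h) = (Sg g * Sg h : RingAut F) := fun g h =>
    (huniq (g * h) _ _ (hmulAS g h)).2.symm
  have hAmul : ∀ g h, A (g * h) = A g * Sg g (A h) := fun g h =>
    (huniq (g * h) _ _ (hmulAS g h)).1.symm
  let S : Γ →* RingAut F := MonoidHom.mk' (fun g => (Sg g : RingAut F)) hSmul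
  have hSapp : ∀ g, S g = Sg g := fun g => rfl
  have hker : ∀ g : S.ker, Sg g = (1 : RingAut F) := fun g => g.2
  let A₀ : S.ker →* Fˣ := MonoidHom.mk' (fun g => Units.mk0 (A g) (hAne g)) (by
    intro g h
    apply Units.ext
    simp only [Subgroup.coe_mul, Units.val_mk0, Units.val_mul]
    rw [hAmul, hker g]
    rfl)
  have hA₀inj : Function.Injective A₀ := by
    rw [injective_iff_map_eq_one]
    intro g hg
    have h1 : A g = 1 := congrArg Units.val hg
    apply Subtype.ext
    apply hρ
    rw [OneMemClass.coe_one, map_one]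
    ext v
    apply e.injective
    have h2 := hAS g v
    rw [h1, hker g, one_mul] at h2
    exact h2
  -- the cyclic group
  set R := A₀.range with hR
  obtain ⟨ζ₀, hζ₀⟩ := IsCyclic.exists_generator (α := R)
  have hcardR : Nat.card R = orderOf (ζ₀ : Fˣ) := by
    rw [Subgroup.orderOf_coe]
    exact (orderOf_eq_card_of_forall_mem_zpowers hζ₀).symm
  set m := orderOf (ζ₀ : Fˣ) with hm
  have hmcard : m ∣ 2 ^ n - 1 := by
    have h1 := orderOf_dvd_card (x := (ζ₀ : Fˣ))
    rwa [Fintype.card_units, hcardF] at h1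
  have hmpos : 0 < m := orderOf_pos _
  obtain ⟨d, hd⟩ := hmcard
  -- the order of the group
  have hcardΓ : Nat.card Γ = m * Nat.card S.range := by
    have h1 : Nat.card S.ker = Nat.card R :=
      Nat.card_congr (MonoidHom.ofInjective hA₀inj).toEquiv
    have h2 := Subgroup.card_mul_index S.ker
    rw [Subgroup.index_ker, h1, hcardR] at h2
    exact h2.symm
  have hkdvd : Nat.card S.range ∣ n := by
    have h1 := Subgroup.card_subgroup_dvd_card S.range
    rwa [card_ringAut hcardF] at h1
  -- transitivity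
  have horb : 2 ^ n - 1 ∣ Nat.card Γ := by
    letI act : MulAction Γ F :=
      { smul := fun g x => e (ρ g (e.symm x))
        one_smul := fun x => by
          show e (ρ 1 (e.symm x)) = x
          rw [map_one]
          simp
        mul_smul := fun g h x => by
          show e (ρ (g * h) (e.symm x)) = e (ρ g (e.symm (e (ρ h (e.symm x)))))
          rw [e.symm_apply_apply, map_mul, LinearEquiv.mul_apply] }
    have hsmul : ∀ (g : Γ) (x : F), g • x = e (ρ g (e.symm x)) := fun _ _ => rfl
    have horbit : MulAction.orbit Γ (1 : F) = ((Finset.univ.erase (0 : F) : Finset F) : Set F) := by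
      ext x
      simp only [MulAction.mem_orbit_iff, Finset.coe_erase, Finset.coe_univ, Set.mem_diff,
        Set.mem_univ, Set.mem_singleton_iff, true_and]
      constructor
      · rintro ⟨g, rfl⟩
        rw [hsmul, hAS']
        exact mul_ne_zero (hAne g) (by simp)
      · intro hx
        have h1 : e.symm (1 : F) ≠ 0 := fun h0 => one_ne_zero (by simpa using congrArg e h0 : (1 : F) = 0)
        have h2 : e.symm x ≠ 0 := fun h0 => hx (by simpa using congrArg e h0)
        obtain ⟨g, hg⟩ := htrans _ _ h1 h2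
        exact ⟨g, by rw [hsmul, hg, e.apply_symm_apply]⟩
    have h1 := MulAction.index_stabilizer Γ (1 : F)
    rw [horbit, Set.ncard_coe_finset, Finset.card_erase_of_mem (Finset.mem_univ _), Finset.card_univ,
      hcardF] at h1
    rw [← h1]
    exact Subgroup.index_dvd_card _
  have hddvd : d ∣ n := by
    have h1 : m * d ∣ m * Nat.card S.range := by
      rw [← hd, ← hcardΓ]
      exact horb
    exact (Nat.dvd_of_mul_dvd_mul_left hmpos h1).trans hkdvd
  have hζ : ((ζ₀ : Fˣ) : F) ≠ 0 := Units.ne_zero _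
  obtain ⟨g₀, hg₀⟩ := ζ₀.2
  have hu : Units.mk0 ((ζ₀ : Fˣ) : F) hζ = (ζ₀ : Fˣ) := by
    apply Units.ext
    rfl
  refine ⟨F, fF, fiF, hchar, e, n, ((ζ₀ : Fˣ) : F), hζ, m, d, hcardF, ?_, ⟨g₀, ?_⟩, ?_, hd.symm, hddvd⟩
  · intro g
    exact ⟨A g, Sg g, hAne g, hAS g⟩
  · intro v
    rw [hAS, hker g₀]
    have h1 : A g₀ = ((ζ₀ : Fˣ) : F) := by
      rw [← hg₀]
      rfl
    rw [h1]
    rfl
  · rw [hu]

end Cfsg.Agent.Lib.ShultG
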