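import Mathlib

set_option autoImplicit false

namespace Cfsg.Agent.Lib.SigmaNorm

variable {F : Type*} [Field F] [Finite F]

/-- The norm of an involutory automorphism `σ ≠ id` of a finite field is onto the non-zero fixed
points of `σ`. -/
theorem exists_sigma_norm_eq (σ : F →+* F) (hσ : σ ≠ RingHom.id F) (hσ2 : ∀ a : F, σ (σ a) = a)
    {c : F} (hc0 : c ≠ 0) (hc : σ c = c) : ∃ a : F, a ≠ 0 ∧ σ a * a = c := by
  classical
  let τ : Fˣ →* Fˣ := Units.map σ.toMonoidHom
  have hτv : ∀ a : Fˣ, ((τ a : Fˣ) : F) = σ a := fun a => rfl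
  have hττ : ∀ a : Fˣ, τ (τ a) = a := by
    intro a
    ext
    rw [hτv, hτv, hσ2]
  let N : Fˣ →* Fˣ := τ * MonoidHom.id Fˣ
  let T : Fˣ →* Fˣ := MonoidHom.id Fˣ / τ
  have hN : ∀ a, N a = τ a * a := fun a => rfl
  have hT : ∀ a, T a = a / τ a := fun a => rfl
  -- Hilbert 90
  have h90 : N.ker ≤ T.range := by
    intro a ha
    rw [MonoidHom.mem_ker, hN] at ha
    have ha' : σ a * a = 1 := by
      have := congrArg Units.val ha
      simpa [hτv] using this
    -- find `t` with `t + a σ t ≠ 0`
    obtain ⟨t, ht⟩ : ∃ t : F, t + a * σ t ≠ 0 := by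
      by_contra hcon
      push Not at hcon
      have h1 := hcon 1
      simp only [map_one, mul_one] at h1
      have h2 : (a : F) = -1 := by linear_combination h1
      apply hσ
      ext x
      have h3 := hcon x
      rw [h2] at h3
      simp only [RingHom.id_apply]
      linear_combination -h3
    let b : Fˣ := Units.mk0 _ ht
    refine ⟨b, ?_⟩
    rw [hT]
    ext
    rw [Units.val_div_eq_div_val, hτv]
    have hb : (b : F) = t + a * σ t := rfl
    have hσb : σ (b : F) ≠ 0 := (map_ne_zero σ).2 b.ne_zero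
    rw [div_eq_iff hσb, hb]
    simp only [map_add, map_mul, hσ2]
    linear_combination (-t) * ha'
  have hle : T.range ≤ N.ker := by
    rintro _ ⟨a, rfl⟩
    rw [MonoidHom.mem_ker, hN, hT, map_div, hττ]
    simp
  have hEq : T.range = N.ker := le_antisymm hle h90
  have hcard : Nat.card N.range = Nat.card T.ker := by
    have h1 := Subgroup.card_mul_index N.ker
    have h2 := Subgroup.card_mul_index T.ker
    rw [Subgroup.index_ker] at h1 h2
    rw [hEq] at h2
    have hpos : 0 < Nat.card N.ker := Nat.card_pos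
    have h3 : Nat.card N.ker * Nat.card N.range = Nat.card N.ker * Nat.card T.ker := by
      rw [h1, ← h2, mul_comm]
    exact Nat.eq_of_mul_eq_mul_left hpos h3
  have hrange : N.range = T.ker := by
    apply Subgroup.eq_of_le_of_card_ge
    · rintro _ ⟨a, rfl⟩
      rw [MonoidHom.mem_ker, hT, hN, map_mul, hττ, mul_comm]
      simp
    · exact hcard.ge
  let u : Fˣ := Units.mk0 c hc0
  have hu : u ∈ T.ker := by
    rw [MonoidHom.mem_ker, hT]
    ext
    rw [Units.val_div_eq_div_val, hτv]
    have : σ (u : F) = u := hc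
    rw [this]
    simp
  rw [← hrange] at hu
  obtain ⟨a, ha⟩ := hu
  refine ⟨a, a.ne_zero, ?_⟩
  have := congrArg Units.val ha
  simpa [hN, hτv, u] using this

end Cfsg.Agent.Lib.SigmaNorm
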