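import Mathlib
import Cfsg.Agent.Lib.Sims3A
import Cfsg.Agent.Lib.Sims3B
import Cfsg.Agent.Lib.Sims3F

/-!
# Flag systems: the critical pair argument behind Sims' theorem

`SimsQ.Fq H Ω` records the points `Ω` of a group `H`, a family of flags (subgroups attached to
points), and the kernels `K x`, with the properties of the geometry of a maximal subgroup `G` with
`C_G(O₂(G)) ≤ O₂(G)`, `|S : O₂(G)| = 2` and `N_H(S) ≰ G`.
-/

set_option autoImplicit false

namespace SimsQ

open MulAction Sims3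

variable {H Ω : Type*} [Group H] [MulAction H Ω]

/-- Flag systems. -/
structure Fq (H Ω : Type*) [Group H] [MulAction H Ω] where
  Fl : Ω → Subgroup H → Prop
  K : Ω → Subgroup H
  smul : ∀ (g : H) {x : Ω} {T : Subgroup H}, Fl x T → Fl (g • x) (cj g T)
  trans : ∀ {x x' : Ω} {T T' : Subgroup H}, Fl x T → Fl x' T' → ∃ g : H, g • x = x' ∧ cj g T = T'
  le_St : ∀ {x : Ω} {T : Subgroup H}, Fl x T → T ≤ stabilizer H x
  K_smul : ∀ (g : H) (x : Ω), K (g • x) = cj g (K x)
  K_le : ∀ {x : Ω} {T : Subgroup H}, Fl x T → K x ≤ T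
  index2 : ∀ {x : Ω} {T : Subgroup H}, Fl x T → ∀ {s t : H}, s ∈ T → t ∈ T → s ∉ K x → t ∉ K x →
    s * t⁻¹ ∈ K x
  hB : ∀ {x : Ω} {T : Subgroup H}, Fl x T → Zc T ≤ K x
  join : ∀ {x y : Ω}, x ≠ y → stabilizer H x ⊔ stabilizer H y = ⊤
  faith : ∀ g : H, (∀ x : Ω, g • x = x) → g = 1
  ex_fl : ∀ x : Ω, ∃ T, Fl x T
  line : ∀ {x : Ω} {T : Subgroup H}, Fl x T → ∃ y, y ≠ x ∧ Fl y T
  ntriv : ∀ {x : Ω} {T : Subgroup H}, Fl x T → ∃ z ∈ Zc T, z ≠ 1

namespace Fq

variable {D : Fq H Ω}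

theorem exists_smul_eq (D : Fq H Ω) (x y : Ω) : ∃ g : H, g • x = y := by
  obtain ⟨T, hT⟩ := D.ex_fl x
  obtain ⟨T', hT'⟩ := D.ex_fl y
  obtain ⟨g, h, -⟩ := D.trans hT hT'
  exact ⟨g, h⟩

theorem fl_conj {x : Ω} {T : Subgroup H} (h : D.Fl x T) {g : H} (hg : g ∈ stabilizer H x) :
    D.Fl x (cj g T) := by
  have := D.smul g h
  rwa [mem_stabilizer_iff.1 hg] at this

/-- The subgroup generated by the centers of the flags at `x`. -/
def V (D : Fq H Ω) (x : Ω) : Subgroup H := Subgroup.closure {z | ∃ S, D.Fl x S ∧ z ∈ Zc S}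

theorem Zc_le_V {x : Ω} {S : Subgroup H} (h : D.Fl x S) : Zc S ≤ D.V x :=
  fun _ hz => Subgroup.subset_closure ⟨S, h, hz⟩

theorem conj_mem_V {x : Ω} (g : H) {v : H} (hv : v ∈ D.V x) : g * v * g⁻¹ ∈ D.V (g • x) := by
  unfold V at hv
  induction hv using Subgroup.closure_induction with
  | mem z hz =>
    obtain ⟨S, hS, hzS⟩ := hz
    apply Zc_le_V (D.smul g hS)
    rw [Zc_cj]
    exact conj_mem_cj.2 hzS
  | one => simp
  | mul a b _ _ ha hb =>
    have : g * (a * b) * g⁻¹ = (g * a * g⁻¹) * (g * b * g⁻¹) := by group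
    rw [this]
    exact Subgroup.mul_mem _ ha hb
  | inv a _ ha =>
    have : g * a⁻¹ * g⁻¹ = (g * a * g⁻¹)⁻¹ := by group
    rw [this]
    exact Subgroup.inv_mem _ ha

theorem V_smul (g : H) (x : Ω) : D.V (g • x) = cj g (D.V x) := by
  ext v
  rw [mem_cj]
  constructor
  · intro hv
    have := conj_mem_V g⁻¹ hv
    simpa using this
  · intro hv
    have := conj_mem_V g hv
    simpa [mul_assoc] using this

theorem V_normal {x : Ω} {g v : H} (hg : g ∈ stabilizer H x) (hv : v ∈ D.V x) :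
    g * v * g⁻¹ ∈ D.V x := by
  have := conj_mem_V (D := D) g hv
  rwa [mem_stabilizer_iff.1 hg] at this

theorem V_le_K {x : Ω} : D.V x ≤ D.K x := by
  unfold V
  rw [Subgroup.closure_le]
  rintro z ⟨S, hS, hz⟩
  exact D.hB hS hz

theorem V_le_flag {x : Ω} {S : Subgroup H} (h : D.Fl x S) : D.V x ≤ S :=
  V_le_K.trans (D.K_le h)

theorem K_le_St {x : Ω} : D.K x ≤ stabilizer H x := by
  obtain ⟨T, hT⟩ := D.ex_fl x
  exact (D.K_le hT).trans (D.le_St hT)

theorem K_comm_V {x : Ω} {k v : H} (hk : k ∈ D.K x) (hv : v ∈ D.V x) : k * v = v * k := by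
  unfold V at hv
  induction hv using Subgroup.closure_induction with
  | mem z hz =>
    obtain ⟨S, hS, hzS⟩ := hz
    exact (mem_Zc.1 hzS).2 k (D.K_le hS hk)
  | one => simp
  | mul a b _ _ ha hb =>
    calc k * (a * b) = (k * a) * b := by group
      _ = (a * k) * b := by rw [ha]
      _ = a * (k * b) := by group
      _ = a * (b * k) := by rw [hb]
      _ = a * b * k := by group
  | inv a _ ha =>
    have h1 : a⁻¹ * (k * a) * a⁻¹ = a⁻¹ * (a * k) * a⁻¹ := by rw [ha]
    have h2 : k * a⁻¹ = a⁻¹ * k := by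
      have h3 : a⁻¹ * (a * k) * a⁻¹ = k * a⁻¹ := by group
      have h4 : a⁻¹ * (k * a) * a⁻¹ = a⁻¹ * k := by group
      rw [h3, h4] at h1
      exact h1.symm
    exact h2

theorem V_comm {x : Ω} {v w : H} (hv : v ∈ D.V x) (hw : w ∈ D.V x) : v * w = w * v :=
  K_comm_V (V_le_K hv) hw

/-- A subgroup inside a point stabilizer normalized by two different stabilizers is trivial. -/
theorem normal_two (D : Fq H Ω) {x y : Ω} (hne : x ≠ y) {X : Subgroup H} (hX : X ≤ stabilizer H x)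
    (hx : ∀ s ∈ stabilizer H x, ∀ t ∈ X, s * t * s⁻¹ ∈ X)
    (hy : ∀ s ∈ stabilizer H y, ∀ t ∈ X, s * t * s⁻¹ ∈ X) : X = ⊥ := by
  have hnorm : stabilizer H x ⊔ stabilizer H y ≤ Subgroup.normalizer (X : Set H) := by
    apply sup_le
    · intro s hs
      rw [Subgroup.mem_normalizer_iff]
      intro t
      constructor
      · exact fun h => hx s hs t h
      · intro h
        have := hx s⁻¹ (Subgroup.inv_mem _ hs) _ h
        simpa [mul_assoc] using this
    · intro s hs
      rw [Subgroup.mem_normalizer_iff]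
      intro t
      constructor
      · exact fun h => hy s hs t h
      · intro h
        have := hy s⁻¹ (Subgroup.inv_mem _ hs) _ h
        simpa [mul_assoc] using this
  rw [D.join hne] at hnorm
  rw [eq_bot_iff]
  intro t ht
  rw [Subgroup.mem_bot]
  apply D.faith
  intro w
  obtain ⟨g, rfl⟩ := D.exists_smul_eq x w
  have hg : g⁻¹ ∈ Subgroup.normalizer (X : Set H) := hnorm trivial
  have h1 : g⁻¹ * t * g⁻¹⁻¹ ∈ X := (Subgroup.mem_normalizer_iff.1 hg t).1 ht
  have h2 := mem_stabilizer_iff.1 (hX h1)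
  have h3 : g⁻¹ • t • g • x = x := by simpa [mul_smul] using h2
  rw [← smul_left_cancel_iff g⁻¹, h3]
  simp

/-- No element outside `K` in a flag centralizes `V`. -/
theorem ncp {u : Ω} {S : Subgroup H} (hS : D.Fl u S) {v : H} (hv : v ∈ S)
    (hvK : v ∉ D.K u) : ∃ w ∈ D.V u, v * w ≠ w * v := by
  by_contra hcon
  push Not at hcon
  have hle0 : D.V u ≤ Zc S := by
    intro a ha
    refine mem_Zc.2 ⟨V_le_flag hS ha, fun s hs => ?_⟩
    by_cases hsK : s ∈ D.K u
    · exact K_comm_V hsK ha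
    have h1 := D.index2 hS hs hv hsK hvK
    have h2 := K_comm_V h1 ha
    have h3 := hcon a ha
    calc s * a = s * v⁻¹ * v * a := by group
      _ = s * v⁻¹ * (v * a) := by group
      _ = s * v⁻¹ * (a * v) := by rw [h3]
      _ = s * v⁻¹ * a * v := by group
      _ = a * (s * v⁻¹) * v := by rw [h2]
      _ = a * s := by group
  have hle : ∀ x T, D.Fl x T → D.V x ≤ Zc T := by
    intro x T hT
    obtain ⟨g, rfl, rfl⟩ := D.trans hS hT
    rw [V_smul, Zc_cj]
    intro t ht
    rw [mem_cj] at ht ⊢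
    exact hle0 ht
  obtain ⟨w, hwu, hw⟩ := D.line hS
  have h1 : D.V u = D.V w :=
    le_antisymm ((hle u _ hS).trans (Zc_le_V hw)) ((hle w _ hw).trans (Zc_le_V hS))
  have hbot : D.V u = ⊥ := by
    apply D.normal_two hwu.symm (V_le_K.trans K_le_St)
    · intro s hs t ht
      exact V_normal hs ht
    · intro s hs t ht
      rw [h1] at ht ⊢
      exact V_normal hs ht
  obtain ⟨z, hz, hz1⟩ := D.ntriv hS
  have := Zc_le_V hS hz
  rw [hbot, Subgroup.mem_bot] at this
  exact hz1 this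

/-! ### Collinearity and reachability -/

/-- Collinear points. -/
def Coll (D : Fq H Ω) (x y : Ω) : Prop := ∃ T, D.Fl x T ∧ D.Fl y T

theorem Coll.symm {x y : Ω} (h : D.Coll x y) : D.Coll y x :=
  let ⟨T, h1, h2⟩ := h; ⟨T, h2, h1⟩

theorem Coll.smul {x y : Ω} (h : D.Coll x y) (g : H) : D.Coll (g • x) (g • y) :=
  let ⟨T, h1, h2⟩ := h; ⟨cj g T, D.smul g h1, D.smul g h2⟩

/-- Points joined by a chain of `k` collinearities. -/
def Reach (D : Fq H Ω) : ℕ → Ω → Ω → Prop
  | 0, x, y => x = y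
  | k + 1, x, y => ∃ z, D.Coll x z ∧ Reach D k z y

theorem Reach.snoc {k : ℕ} {x y z : Ω} (h : D.Reach k x z) (hz : D.Coll z y) :
    D.Reach (k + 1) x y := by
  induction k generalizing x with
  | zero =>
    obtain rfl : x = z := h
    exact ⟨y, hz, rfl⟩
  | succ k ih =>
    obtain ⟨w, hw, hr⟩ := h
    exact ⟨w, hw, ih hr⟩

theorem Reach.symm {k : ℕ} {x y : Ω} (h : D.Reach k x y) : D.Reach k y x := by
  induction k generalizing x with
  | zero => exact (show x = y from h).symm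
  | succ k ih =>
    obtain ⟨w, hw, hr⟩ := h
    exact (ih hr).snoc hw.symm

theorem Reach.unsnoc {k : ℕ} {x y : Ω} (h : D.Reach (k + 1) x y) :
    ∃ z, D.Reach k x z ∧ D.Coll z y := by
  obtain ⟨z, hz, hr⟩ := h.symm
  exact ⟨z, hr.symm, hz.symm⟩

theorem Reach.smul {k : ℕ} {x y : Ω} (h : D.Reach k x y) (g : H) :
    D.Reach k (g • x) (g • y) := by
  induction k generalizing x with
  | zero =>
    obtain rfl : x = y := h
    rfl
  | succ k ih =>
    obtain ⟨w, hw, hr⟩ := h
    exact ⟨g • w, hw.smul g, ih hr⟩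

theorem Reach.trans {k l : ℕ} {x y z : Ω} (h : D.Reach k x y) (h' : D.Reach l y z) :
    D.Reach (k + l) x z := by
  induction l generalizing z with
  | zero =>
    obtain rfl : y = z := h'
    exact h
  | succ l ih =>
    obtain ⟨w, hr, hw⟩ := h'.unsnoc
    exact (ih hr).snoc hw

/-- Any two points are joined. -/
theorem exists_reach (x y : Ω) : ∃ k, D.Reach k x y := by
  obtain ⟨T, hT⟩ := D.ex_fl x
  obtain ⟨b, hbx, hb⟩ := D.line hT
  obtain ⟨n, hn⟩ := D.exists_smul_eq x b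
  let M : Subgroup H :=
    { carrier := {g | ∃ k, D.Reach k x (g • x)}
      mul_mem' := by
        rintro g h ⟨k, hk⟩ ⟨l, hl⟩
        refine ⟨k + l, hk.trans ?_⟩
        rw [mul_smul]
        exact hl.smul g
      one_mem' := ⟨0, by simp [Reach]⟩
      inv_mem' := by
        rintro g ⟨k, hk⟩
        refine ⟨k, ?_⟩
        have := (hk.smul g⁻¹).symm
        simpa using this }
  have hMx : stabilizer H x ≤ M := by
    intro s hs
    refine ⟨0, ?_⟩
    rw [mem_stabilizer_iff.1 hs]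
    rfl
  have hnM : n ∈ M := by
    refine ⟨1, ?_⟩
    rw [hn]
    exact ⟨b, ⟨T, hT, hb⟩, rfl⟩
  have hMb : stabilizer H b ≤ M := by
    rw [← hn, stabilizer_smul_cj]
    intro s hs
    rw [mem_cj] at hs
    have := M.mul_mem (M.mul_mem hnM (hMx hs)) (M.inv_mem hnM)
    simpa [mul_assoc] using this
  have htop : M = ⊤ := by
    rw [eq_top_iff, ← D.join hbx.symm]
    exact sup_le hMx hMb
  obtain ⟨g, rfl⟩ := D.exists_smul_eq x y
  have : g ∈ M := by rw [htop]; trivial
  exact this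

/-- The critical pair. -/
theorem exists_crit (x₀ : Ω) : ∃ x y : Ω, ∃ S T : Subgroup H, D.Fl x S ∧ D.Fl y T ∧ D.V x ≤ T ∧
    D.V y ≤ S ∧ ¬ D.V x ≤ D.K y := by
  classical
  let P : ℕ → Prop := fun k => ∃ x y : Ω, D.Reach k x y ∧ ¬ D.V x ≤ D.K y
  have hex : ∃ k, P k := by
    by_contra hcon
    push Not at hcon
    have hall : ∀ y : Ω, D.V x₀ ≤ D.K y := by
      intro y
      obtain ⟨k, hk⟩ := exists_reach (D := D) x₀ y
      by_contra h
      exact hcon k ⟨x₀, y, hk, h⟩
    obtain ⟨T, hT⟩ := D.ex_fl x₀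
    obtain ⟨z, hz, hz1⟩ := D.ntriv hT
    apply hz1
    apply D.faith
    intro w
    exact K_le_St (hall w (Zc_le_V hT hz))
  have hm0 : Nat.find hex ≠ 0 := by
    intro h0
    have := Nat.find_spec hex
    rw [h0] at this
    obtain ⟨x, y, h1, h2⟩ := this
    obtain rfl : x = y := h1
    exact h2 V_le_K
  obtain ⟨d, hd⟩ : ∃ d, Nat.find hex = d + 1 := ⟨Nat.find hex - 1, by omega⟩
  have hmin : ∀ x y : Ω, D.Reach d x y → D.V x ≤ D.K y := by
    intro x y hr
    have h1 : ¬ P d := Nat.find_min hex (by omega)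
    by_contra h
    exact h1 ⟨x, y, hr, h⟩
  have hcrit : P (d + 1) := by
    have := Nat.find_spec hex
    rwa [hd] at this
  obtain ⟨x, y, hr, hne⟩ := hcrit
  obtain ⟨y', hy', T, hT', hT⟩ := Reach.unsnoc hr
  obtain ⟨x', ⟨S, hS, hS'⟩, hx'⟩ := hr
  refine ⟨x, y, S, T, hS, hT, ?_, ?_, hne⟩
  · exact (hmin x y' hy').trans (D.K_le hT')
  · exact (hmin y x' hx'.symm).trans (D.K_le hS')

/-- The transvection property of a flag. -/
def Tv (D : Fq H Ω) (x : Ω) (S : Subgroup H) : Prop :=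
  (∃ a ∈ D.V x, a ∉ Zc S) ∧ ∀ a ∈ D.V x, ∀ b ∈ D.V x, a ∉ Zc S → b ∉ Zc S → a * b⁻¹ ∈ Zc S

theorem Tv_of_crit {x y : Ω} {S T : Subgroup H} (hS : D.Fl x S) (hT : D.Fl y T) (hxT : D.V x ≤ T)
    (hyS : D.V y ≤ S) (hn : ¬ D.V x ≤ D.K y) : D.Tv x S := by
  obtain ⟨a, ha, haK⟩ := SetLike.not_le_iff_exists.1 hn
  obtain ⟨b, hb, hab⟩ := ncp hT (hxT ha) haK
  have hbK : b ∉ D.K x := by
    intro h
    exact hab (K_comm_V h ha).symm
  have hZ : ∀ z, z ∈ Zc S ↔ z ∈ D.V x ∧ z ∈ D.K y := by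
    intro z
    constructor
    · intro hz
      refine ⟨Zc_le_V hS hz, ?_⟩
      by_contra hzK
      obtain ⟨w, hw, hzw⟩ := ncp hT (hxT (Zc_le_V hS hz)) hzK
      exact hzw ((mem_Zc.1 hz).2 w (hyS hw)).symm
    · rintro ⟨h1, h2⟩
      refine mem_Zc.2 ⟨V_le_flag hS h1, fun s hs => ?_⟩
      by_cases hsK : s ∈ D.K x
      · exact K_comm_V hsK h1
      have h3 := D.index2 hS hs (hyS hb) hsK hbK
      have h4 := K_comm_V h3 h1
      have h5 := K_comm_V h2 hb
      calc s * z = s * b⁻¹ * (b * z) := by group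
        _ = s * b⁻¹ * (z * b) := by rw [h5]
        _ = (s * b⁻¹ * z) * b := by group
        _ = (z * (s * b⁻¹)) * b := by rw [h4]
        _ = z * s := by group
  refine ⟨⟨a, ha, fun h => haK ((hZ a).1 h).2⟩, ?_⟩
  intro u hu v hv huZ hvZ
  have huK : u ∉ D.K y := fun h => huZ ((hZ u).2 ⟨hu, h⟩)
  have hvK : v ∉ D.K y := fun h => hvZ ((hZ v).2 ⟨hv, h⟩)
  exact (hZ _).2 ⟨(D.V x).mul_mem hu ((D.V x).inv_mem hv), D.index2 hT (hxT hu) (hxT hv) huK hvK⟩

theorem Tv.smul {x : Ω} {S : Subgroup H} (h : D.Tv x S) (g : H) : D.Tv (g • x) (cj g S) := by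
  obtain ⟨⟨a, ha, haZ⟩, h2⟩ := h
  refine ⟨⟨g * a * g⁻¹, conj_mem_V g ha, ?_⟩, ?_⟩
  · rw [Zc_cj, conj_mem_cj]
    exact haZ
  · intro u hu v hv huZ hvZ
    rw [V_smul, mem_cj] at hu hv
    rw [Zc_cj, mem_cj] at huZ hvZ ⊢
    have := h2 _ hu _ hv huZ hvZ
    have h3 : g⁻¹ * (u * v⁻¹) * g = g⁻¹ * u * g * (g⁻¹ * v * g)⁻¹ := by group
    rw [h3]
    exact this

/-- Every flag has the transvection property. -/
theorem tv_all (x₀ : Ω) {x : Ω} {S : Subgroup H} (h : D.Fl x S) : D.Tv x S := by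
  obtain ⟨u, v, S', T', hS', hT', h1, h2, h3⟩ := exists_crit (D := D) x₀
  obtain ⟨g, rfl, rfl⟩ := D.trans hS' h
  exact (Tv_of_crit hS' hT' h1 h2 h3).smul g

/-- **The order of the rotation is at most three.**  An element `ρ` of prime order `q ≥ 5` at a
point `x` together with a flag `T` such that `T` and its `ρ`-conjugate generate the stabilizer
cannot exist. -/
theorem no_rot [Finite H] {x : Ω} {T : Subgroup H} (hT : D.Fl x T) {ρ : H} {q : ℕ} (hq : q.Prime)
    (hq5 : 5 ≤ q) (hρ : ρ ∈ stabilizer H x) (hρq : orderOf ρ = q)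
    (hodd : ∀ w ∈ T, w ^ q = 1 → w = 1) (hgen : T ⊔ cj ρ T = stabilizer H x) : False := by
  classical
  have hT2 : D.Fl x (cj ρ T) := fl_conj hT hρ
  obtain ⟨⟨a₀, ha₀, ha₀Z⟩, hT1v⟩ := tv_all (D := D) x hT
  obtain ⟨-, hT2v⟩ := tv_all (D := D) x hT2
  -- central elements
  have hcentral : ∀ w, w ∈ Zc T → w ∈ Zc (cj ρ T) → ∀ g ∈ stabilizer H x, g * w = w * g := by
    intro w h1 h2 g hg
    rw [← hgen] at hg
    have hle : T ⊔ cj ρ T ≤ Subgroup.centralizer ({w} : Set H) := by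
      apply sup_le
      · intro s hs
        rw [Subgroup.mem_centralizer_singleton_iff]
        exact (mem_Zc.1 h1).2 s hs
      · intro s hs
        rw [Subgroup.mem_centralizer_singleton_iff]
        exact (mem_Zc.1 h2).2 s hs
    have := hle hg
    rwa [Subgroup.mem_centralizer_singleton_iff] at this
  -- powers
  have hpowS : ∀ n : ℕ, ρ ^ n ∈ stabilizer H x := fun n => Subgroup.pow_mem _ hρ n
  have hρV : ∀ v ∈ D.V x, ρ * v = v * ρ := by
    intro v hv
    -- the conjugates of `v`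
    let c : ℕ → H := fun i => ρ ^ i * v * (ρ ^ i)⁻¹
    have hcV : ∀ i, c i ∈ D.V x := fun i => V_normal (hpowS i) hv
    let φ : Fin q → Bool × Bool := fun i => (decide (c i ∈ Zc T), decide (c i ∈ Zc (cj ρ T)))
    have hcard : Fintype.card (Bool × Bool) < Fintype.card (Fin q) := by
      rw [Fintype.card_prod, Fintype.card_bool, Fintype.card_fin]
      omega
    obtain ⟨i, j, hij, hφ⟩ := Fintype.exists_ne_map_eq_of_card_lt φ hcard
    -- without loss of generality `i < j`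
    have key : ∀ i j : ℕ, i < j → j < q → (c i ∈ Zc T ↔ c j ∈ Zc T) →
        (c i ∈ Zc (cj ρ T) ↔ c j ∈ Zc (cj ρ T)) → ρ * v = v * ρ := by
      intro i j hij hj h1 h2
      have hw1 : c j * (c i)⁻¹ ∈ Zc T := by
        by_cases h : c j ∈ Zc T
        · exact (Zc T).mul_mem h ((Zc T).inv_mem (h1.2 h))
        · exact hT1v _ (hcV j) _ (hcV i) h (fun h' => h (h1.1 h'))
      have hw2 : c j * (c i)⁻¹ ∈ Zc (cj ρ T) := by
        by_cases h : c j ∈ Zc (cj ρ T)
        · exact (Zc _).mul_mem h ((Zc _).inv_mem (h2.2 h))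
        · exact hT2v _ (hcV j) _ (hcV i) h (fun h' => h (h2.1 h'))
      set w := c j * (c i)⁻¹ with hw
      have hwc := hcentral w hw1 hw2
      have hwT : w ∈ T := Zc_le T hw1
      have hm : j - i + i = j := by omega
      -- `r = ρ ^ (j - i)` moves `c i` to `w * c i`
      set r := ρ ^ (j - i) with hr
      have hrS : r ∈ stabilizer H x := hpowS _
      have hrw : r * w = w * r := hwc r hrS
      have hstep : r * c i * r⁻¹ = w * c i := by
        have h3 : r * c i * r⁻¹ = c j := by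
          simp only [c, hr]
          rw [show ρ ^ j = ρ ^ (j - i) * ρ ^ i by rw [← pow_add, hm]]
          group
        rw [h3, hw]
        group
      have hpow : ∀ n : ℕ, r ^ n * c i * (r ^ n)⁻¹ = w ^ n * c i := by
        intro n
        induction n with
        | zero => simp
        | succ n ih =>
          have hrwn : Commute r (w ^ n) := (show Commute r w from hrw).pow_right n
          calc r ^ (n + 1) * c i * (r ^ (n + 1))⁻¹ = r * (r ^ n * c i * (r ^ n)⁻¹) * r⁻¹ := by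
                rw [pow_succ']; group
            _ = r * (w ^ n * c i) * r⁻¹ := by rw [ih]
            _ = (r * w ^ n) * c i * r⁻¹ := by group
            _ = (w ^ n * r) * c i * r⁻¹ := by rw [hrwn.eq]
            _ = w ^ n * (r * c i * r⁻¹) := by group
            _ = w ^ n * (w * c i) := by rw [hstep]
            _ = w ^ (n + 1) * c i := by rw [pow_succ]; group
      have hrq : r ^ q = 1 := by
        rw [hr, ← pow_mul, mul_comm, pow_mul, ← hρq, pow_orderOf_eq_one, one_pow]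
      have hwq : w ^ q = 1 := by
        have := hpow q
        rw [hrq] at this
        simpa using this.symm
      have hw1' : w = 1 := hodd w hwT hwq
      have hrc : r * c i * r⁻¹ = c i := by rw [hstep, hw1', one_mul]
      -- `r` commutes with `v`
      have hrv : r * v * r⁻¹ = v := by
        simp only [c] at hrc
        have hcomm : Commute r (ρ ^ i) := by
          rw [hr]
          exact (Commute.refl ρ).pow_pow _ _
        have h5 : (ρ ^ i) * (r * v * r⁻¹) * (ρ ^ i)⁻¹ = ρ ^ i * v * (ρ ^ i)⁻¹ := by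
          rw [← hrc]
          calc (ρ ^ i) * (r * v * r⁻¹) * (ρ ^ i)⁻¹
              = ((ρ ^ i) * r) * v * ((ρ ^ i) * r)⁻¹ := by group
            _ = (r * (ρ ^ i)) * v * (r * (ρ ^ i))⁻¹ := by rw [hcomm.eq]
            _ = _ := by group
        have h6 := congrArg (fun t => (ρ ^ i)⁻¹ * t * (ρ ^ i)) h5
        simpa [mul_assoc] using h6
      -- `ρ` is a power of `r`
      have hcop : Nat.Coprime (j - i) (orderOf ρ) := by
        rw [hρq]
        have h7 : 0 < j - i := by omega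
        have h8 : j - i < q := by omega
        exact ((Nat.Prime.coprime_iff_not_dvd hq).2 (Nat.not_dvd_of_pos_of_lt h7 h8)).symm
      obtain ⟨u, hu⟩ := exists_pow_eq_self_of_coprime hcop
      have hru : ∀ n : ℕ, r ^ n * v = v * r ^ n := by
        intro n
        have hrv' : r * v = v * r := by
          calc r * v = (r * v * r⁻¹) * r := by group
            _ = v * r := by rw [hrv]
        exact ((show Commute r v from hrv').pow_left n).eq
      have := hru u
      rwa [hr, hu] at this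
    have hφ1 : (c i ∈ Zc T ↔ c j ∈ Zc T) := by
      have := congrArg Prod.fst hφ
      simpa [φ] using this
    have hφ2 : (c i ∈ Zc (cj ρ T) ↔ c j ∈ Zc (cj ρ T)) := by
      have := congrArg Prod.snd hφ
      simpa [φ] using this
    have hne : (i : ℕ) ≠ j := fun h => hij (Fin.ext h)
    rcases lt_or_gt_of_ne hne with hlt | hlt
    · exact key i j hlt j.2 hφ1 hφ2
    · exact key j i hlt i.2 hφ1.symm hφ2.symm
  -- the centers are all equal
  have hzc : ∀ z ∈ Zc T, ∀ g ∈ stabilizer H x, g * z = z * g := by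
    intro z hz g hg
    rw [← hgen] at hg
    have hzV := Zc_le_V hT hz
    have hle : T ⊔ cj ρ T ≤ Subgroup.centralizer ({z} : Set H) := by
      apply sup_le
      · intro s hs
        rw [Subgroup.mem_centralizer_singleton_iff]
        exact (mem_Zc.1 hz).2 s hs
      · intro s hs
        rw [mem_cj] at hs
        rw [Subgroup.mem_centralizer_singleton_iff]
        have h1 := (mem_Zc.1 hz).2 _ hs
        have h2 := hρV z hzV
        have h3 : z * ρ⁻¹ = ρ⁻¹ * z := by
          have : ρ⁻¹ * (ρ * z) * ρ⁻¹ = ρ⁻¹ * (z * ρ) * ρ⁻¹ := by rw [h2]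
          simpa [mul_assoc] using this
        calc s * z = ρ * (ρ⁻¹ * s * ρ) * ρ⁻¹ * z := by group
          _ = ρ * (ρ⁻¹ * s * ρ) * (ρ⁻¹ * z) := by group
          _ = ρ * (ρ⁻¹ * s * ρ) * (z * ρ⁻¹) := by rw [h3]
          _ = ρ * ((ρ⁻¹ * s * ρ) * z) * ρ⁻¹ := by group
          _ = ρ * (z * (ρ⁻¹ * s * ρ)) * ρ⁻¹ := by rw [h1]
          _ = (ρ * z) * (ρ⁻¹ * s * ρ) * ρ⁻¹ := by group
          _ = (z * ρ) * (ρ⁻¹ * s * ρ) * ρ⁻¹ := by rw [h2]
          _ = z * s := by group
    have := hle hg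
    rwa [Subgroup.mem_centralizer_singleton_iff] at this
  apply ha₀Z
  have hVle : D.V x ≤ Zc T := by
    unfold V
    rw [Subgroup.closure_le]
    rintro z ⟨T', hT', hz⟩
    obtain ⟨g, hg, rfl⟩ := D.trans hT hT'
    rw [Zc_cj, mem_cj] at hz
    have hgS : g ∈ stabilizer H x := hg
    have h1 := hzc _ hz g hgS
    have h2 : g * (g⁻¹ * z * g) * g⁻¹ = z := by group
    have h3 : g⁻¹ * z * g = z := by
      have h4 : g * (g⁻¹ * z * g) = (g⁻¹ * z * g) * g := h1
      rw [h4] at h2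
      simpa using h2
    rwa [h3] at hz
  exact hVle ha₀

end Fq

end SimsQ
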