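import Mathlib
import Cfsg.Agent.Lib.SimsQA
import Cfsg.Agent.Lib.Sims3J
import Cfsg.Agent.Lib.PCore

/-!
# Sims' theorem in local form: maximal subgroups with dihedral quotient
-/

set_option autoImplicit false

namespace SimsQ

open MulAction Sims3

section Construction

variable {H Ω : Type*} [Group H] [MulAction H Ω]

/-- The family of kernels. -/
def Kf (a : Ω) (Q₀ : Subgroup H) (x : Ω) : Subgroup H := ⨅ g : {g : H // g • a = x}, cj (g : H) Q₀

theorem Kf_smul (a : Ω) (Q₀ : Subgroup H) (hQn : ∀ t ∈ stabilizer H a, cj t Q₀ = Q₀) (g : H) :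
    Kf a Q₀ (g • a) = cj g Q₀ := by
  apply le_antisymm
  · exact iInf_le_of_le ⟨g, rfl⟩ le_rfl
  · apply le_iInf
    rintro ⟨h, hh⟩
    have ht : g⁻¹ * h ∈ stabilizer H a := by rw [mem_stabilizer_iff, mul_smul, hh, inv_smul_smul]
    have h1 : h = g * (g⁻¹ * h) := by group
    change cj g Q₀ ≤ cj h Q₀
    rw [h1, cj_mul, hQn _ ht]

/-- The flag system of a maximal subgroup. -/
def fqOf (a : Ω) (S₀ Q₀ : Subgroup H) (htrans : ∀ x : Ω, ∃ g : H, g • a = x)
    (hS : S₀ ≤ stabilizer H a) (hQn : ∀ t ∈ stabilizer H a, cj t Q₀ = Q₀) (hQS : Q₀ ≤ S₀)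
    (hidx : ∀ s t, s ∈ S₀ → t ∈ S₀ → s ∉ Q₀ → t ∉ Q₀ → s * t⁻¹ ∈ Q₀)
    (hZ : Zc S₀ ≤ Q₀)
    (hjoin : ∀ {x y : Ω}, x ≠ y → stabilizer H x ⊔ stabilizer H y = ⊤)
    (hfaith : ∀ g : H, (∀ x : Ω, g • x = x) → g = 1)
    (n : H) (hn : cj n S₀ = S₀) (hna : n • a ≠ a) (hntriv : ∃ z ∈ Zc S₀, z ≠ 1) : Fq H Ω where
  Fl x T := ∃ g : H, g • a = x ∧ T = cj g S₀
  K := Kf a Q₀
  smul := by
    rintro g x T ⟨h, rfl, rfl⟩
    exact ⟨g * h, mul_smul _ _ _, (cj_mul _ _ _).symm⟩
  trans := by
    rintro x x' T T' ⟨h, rfl, rfl⟩ ⟨h', rfl, rfl⟩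
    refine ⟨h' * h⁻¹, by simp [mul_smul], ?_⟩
    rw [← cj_mul]
    simp
  le_St := by
    rintro x T ⟨h, rfl, rfl⟩
    rw [stabilizer_smul_cj]
    intro s hs
    rw [mem_cj] at hs ⊢
    exact hS hs
  K_smul := by
    intro g x
    obtain ⟨h, rfl⟩ := htrans x
    rw [← mul_smul, Kf_smul _ _ hQn, Kf_smul _ _ hQn, cj_mul]
  K_le := by
    rintro x T ⟨h, rfl, rfl⟩
    rw [Kf_smul _ _ hQn]
    intro s hs
    rw [mem_cj] at hs ⊢
    exact hQS hs
  index2 := by
    rintro x T ⟨h, rfl, rfl⟩ s t hs ht hsK htK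
    rw [Kf_smul _ _ hQn] at hsK htK ⊢
    rw [mem_cj] at hs ht hsK htK ⊢
    have := hidx _ _ hs ht hsK htK
    have h3 : h⁻¹ * (s * t⁻¹) * h = h⁻¹ * s * h * (h⁻¹ * t * h)⁻¹ := by group
    rw [h3]
    exact this
  hB := by
    rintro x T ⟨h, rfl, rfl⟩
    rw [Kf_smul _ _ hQn, Zc_cj]
    intro s hs
    rw [mem_cj] at hs ⊢
    exact hZ hs
  join := hjoin
  faith := hfaith
  ex_fl := by
    intro x
    obtain ⟨h, rfl⟩ := htrans x
    exact ⟨_, h, rfl, rfl⟩
  line := by
    rintro x T ⟨h, rfl, rfl⟩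
    refine ⟨(h * n) • a, ?_, h * n, rfl, ?_⟩
    · rw [mul_smul]
      intro h2
      exact hna (smul_left_cancel _ h2)
    · rw [cj_mul, hn]
  ntriv := by
    rintro x T ⟨h, rfl, rfl⟩
    obtain ⟨z, hz, hz1⟩ := hntriv
    refine ⟨h * z * h⁻¹, ?_, ?_⟩
    · rw [Zc_cj]
      exact conj_mem_cj.2 hz
    · intro h2
      apply hz1
      have h3 : z = h⁻¹ * (h * z * h⁻¹) * h := by group
      rw [h3, h2]
      group

end Construction

section Between

variable {H : Type*} [Group H]

theorem prime_between [Finite H] {A I B : Subgroup H} {q : ℕ} (hq : q.Prime) (hAI : A ≤ I)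
    (hIB : I ≤ B) (hcard : Nat.card B = q * Nat.card A) : I = A ∨ I = B := by
  obtain ⟨u, hu⟩ := Subgroup.card_dvd_of_le hAI
  obtain ⟨w, hw⟩ := Subgroup.card_dvd_of_le hIB
  have hA : 0 < Nat.card A := Nat.card_pos
  have huw : u * w = q := by
    have : Nat.card A * (u * w) = Nat.card A * q := by
      rw [← mul_assoc, ← hu, ← hw, hcard]
      ring
    exact Nat.eq_of_mul_eq_mul_left hA this
  rcases (Nat.dvd_prime hq).1 ⟨w, huw.symm⟩ with h | h
  · subst h
    left
    exact (Subgroup.eq_of_le_of_card_ge hAI (by rw [hu]; simp)).symm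
  · right
    rw [h] at huw
    have hw1 : w = 1 := by
      have h2 : q * w = q * 1 := by rw [huw]; ring
      exact Nat.eq_of_mul_eq_mul_left hq.pos h2
    exact Subgroup.eq_of_le_of_card_ge hIB (by rw [hw, hw1]; simp)

end Between

section Points

variable {H Ω : Type*} [Group H] [Finite H] [IsSimpleGroup H] [MulAction H Ω] [IsPretransitive H Ω]

theorem St_ne {x y : Ω} (hC : IsCoatom (stabilizer H x)) (hbot : stabilizer H x ≠ ⊥) (hne : x ≠ y) :
    stabilizer H x ≠ stabilizer H y := by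
  intro heq
  obtain ⟨g, rfl⟩ := exists_smul_eq H x y
  have hgn : g ∈ Subgroup.normalizer (stabilizer H x : Set H) := by
    rw [Subgroup.mem_normalizer_iff]
    intro t
    rw [← conj_mem_cj (g := g), ← stabilizer_smul_cj, ← heq]
  have hgx : g ∉ stabilizer H x := fun h => hne (mem_stabilizer_iff.1 h).symm
  have hN : Subgroup.normalizer (stabilizer H x : Set H) = ⊤ := by
    apply hC.2
    rw [lt_iff_le_not_ge]
    exact ⟨Subgroup.le_normalizer, fun h => hgx (h hgn)⟩
  have hnorm : (stabilizer H x).Normal := Subgroup.normalizer_eq_top_iff.1 hN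
  rcases hnorm.eq_bot_or_eq_top with h | h
  · exact hbot h
  · exact hC.1 h

theorem join_of_coatom {x y : Ω} (hC : IsCoatom (stabilizer H x)) (hbot : stabilizer H x ≠ ⊥)
    (hne : x ≠ y) : stabilizer H x ⊔ stabilizer H y = ⊤ := by
  by_contra hcon
  have hle : stabilizer H y ≤ stabilizer H x := by
    by_contra hnot
    apply hcon
    apply hC.2
    rw [lt_iff_le_not_ge]
    exact ⟨le_sup_left, fun h => hnot (le_sup_right.trans h)⟩
  apply St_ne hC hbot hne
  obtain ⟨g, rfl⟩ := exists_smul_eq H x y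
  exact (Subgroup.eq_of_le_of_card_ge hle (by rw [card_stab_smul])).symm

end Points

set_option maxHeartbeats 1000000 in
/-- Sims' theorem in local form. -/
theorem main {H : Type*} [Group H] [Finite H] [IsSimpleGroup H] (G : Subgroup H) (hG : IsCoatom G)
    (hchar : Subgroup.centralizer (Cfsg.pCore 2 ↥G : Set ↥G) ≤ Cfsg.pCore 2 ↥G) (S : Sylow 2 ↥G)
    (hN : ¬ Subgroup.normalizer (((S : Subgroup ↥G).map G.subtype : Subgroup H) : Set H) ≤ G)
    (q : ℕ) (hq : q.Prime) (hD : Nonempty (↥G ⧸ Cfsg.pCore 2 ↥G ≃* DihedralGroup q)) :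
    Nonempty (↥G ≃* Equiv.Perm (Fin 4)) ∨
      Nonempty (↥G ≃* Equiv.Perm (Fin 4) × Multiplicative (ZMod 2)) := by
  classical
  haveI : Fact (Nat.Prime 2) := ⟨Nat.prime_two⟩
  haveI : Fact q.Prime := ⟨hq⟩
  set Q := Cfsg.pCore 2 ↥G with hQdef
  haveI hQnorm : Q.Normal := Cfsg.Agent.Lib.PCore.pCore_normal 2
  have hQ2 : IsPGroup 2 Q := Cfsg.Agent.Lib.PCore.isPGroup_pCore 2
  obtain ⟨e⟩ := hD
  have hcardquot : Nat.card (↥G ⧸ Q) = 2 * q := by
    rw [Nat.card_congr e.toEquiv, DihedralGroup.nat_card]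
  have hcardG : Nat.card G = 2 * q * Nat.card Q := by
    rw [← hcardquot]
    exact Subgroup.card_eq_card_quotient_mul_card_subgroup Q
  obtain ⟨m, hm⟩ := IsPGroup.iff_card.1 hQ2
  have hq2 : q ≠ 2 := by
    rintro rfl
    have h1 : IsPGroup 2 G := IsPGroup.of_card (n := m + 2) (by rw [hcardG, hm]; ring)
    have htop : Q = ⊤ := (Cfsg.Agent.Lib.PCore.pCore_eq_top_iff 2).2 h1
    have h2 : Nat.card (↥G ⧸ Q) = 1 := by
      rw [htop]
      exact Subgroup.index_top
    omega
  have hqodd : Odd q := hq.odd_of_ne_two hq2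
  have hcop : Nat.Coprime 2 q := Nat.coprime_two_left.2 hqodd
  have hQS : Q ≤ S := Cfsg.Agent.Lib.PCore.pCore_le_sylow 2 S
  have hScard : Nat.card S = 2 ^ (m + 1) := by
    apply Nat.dvd_antisymm
    · obtain ⟨k, hk⟩ := IsPGroup.iff_card.1 S.isPGroup'
      have h1 : Nat.card S ∣ Nat.card G := Subgroup.card_subgroup_dvd_card _
      rw [hcardG, hm] at h1
      rw [hk] at h1 ⊢
      have h2 : (2 : ℕ) ^ k ∣ 2 ^ (m + 1) * q := by
        convert h1 using 1
        ring
      exact (Nat.Coprime.pow_left k hcop).dvd_of_dvd_mul_right h2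
    · apply Sylow.pow_dvd_card_of_pow_dvd_card
      rw [hcardG, hm]
      exact ⟨q, by ring⟩
  have hScardG : Nat.card G = q * Nat.card S := by
    rw [hcardG, hm, hScard]
    ring
  set S₀ : Subgroup H := (S : Subgroup ↥G).map G.subtype with hS₀
  set Q₀ : Subgroup H := Q.map G.subtype with hQ₀
  have hS₀card : Nat.card S₀ = 2 ^ (m + 1) := by
    rw [hS₀, Subgroup.card_map_of_injective G.subtype_injective, hScard]
  have hQ₀S₀ : Q₀ ≤ S₀ := Subgroup.map_mono hQS
  have hS₀G : S₀ ≤ G := Subgroup.map_subtype_le _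
  -- the conjugates of `Q₀`
  have hQn₀ : ∀ t ∈ G, cj t Q₀ = Q₀ := by
    intro t ht
    apply Subgroup.eq_of_le_of_card_ge
    · rintro x ⟨y, hy, rfl⟩
      obtain ⟨y', hy', rfl⟩ := hy
      refine ⟨⟨t, ht⟩ * y' * ⟨t, ht⟩⁻¹, hQnorm.conj_mem y' hy' ⟨t, ht⟩, ?_⟩
      simp [MulAut.conj_apply]
    · rw [card_cj]
  -- index two
  have hidx : ∀ s t, s ∈ S₀ → t ∈ S₀ → s ∉ Q₀ → t ∉ Q₀ → s * t⁻¹ ∈ Q₀ := by
    rintro s t ⟨s', hs', rfl⟩ ⟨t', ht', rfl⟩ hs hth
    have hsQ : s' ∉ Q := fun h => hs ⟨s', h, rfl⟩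
    have htQ : t' ∉ Q := fun h => hth ⟨t', h, rfl⟩
    have hindex : (Q.subgroupOf (S : Subgroup ↥G)).index = 2 := by
      have h1 := (Q.subgroupOf (S : Subgroup ↥G)).index_mul_card
      have h2 : Nat.card (Q.subgroupOf (S : Subgroup ↥G)) = Nat.card Q :=
        Nat.card_congr (Subgroup.subgroupOfEquivOfLe hQS).toEquiv
      rw [h2, hm] at h1
      have h3 : Nat.card (S : Subgroup ↥G) = 2 ^ (m + 1) := hScard
      rw [h3, pow_succ] at h1
      have h4 : 0 < 2 ^ m := by positivity
      nlinarith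
    have h1 := Subgroup.mul_mem_iff_of_index_two hindex (a := ⟨s', hs'⟩)
      (b := (⟨t', ht'⟩ : (S : Subgroup ↥G))⁻¹)
    have h2 : (⟨s', hs'⟩ : (S : Subgroup ↥G)) ∉ Q.subgroupOf (S : Subgroup ↥G) := by
      rw [Subgroup.mem_subgroupOf]
      exact hsQ
    have h3 : (⟨t', ht'⟩ : (S : Subgroup ↥G))⁻¹ ∉ Q.subgroupOf (S : Subgroup ↥G) := by
      rw [Subgroup.mem_subgroupOf]
      intro h
      apply htQ
      simpa using Q.inv_mem h
    have h4 := h1.2 (by tauto)
    rw [Subgroup.mem_subgroupOf] at h4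
    refine ⟨s' * t'⁻¹, by simpa using h4, by simp⟩
  -- centers
  have hZ : Zc S₀ ≤ Q₀ := by
    intro z hz
    obtain ⟨hz1, hz2⟩ := mem_Zc.1 hz
    obtain ⟨z', hz', rfl⟩ := hz1
    refine ⟨z', ?_, rfl⟩
    apply hchar
    rw [Subgroup.mem_centralizer_iff]
    intro y hy
    have hyS : (y : H) ∈ S₀ := ⟨y, hQS hy, rfl⟩
    have := hz2 _ hyS
    apply Subtype.ext
    simpa using this
  have hS₀bot : S₀ ≠ ⊥ := by
    intro h
    rw [h, Subgroup.card_bot] at hS₀card
    have h1 : 2 ≤ 2 ^ (m + 1) := by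
      rw [pow_succ]
      have : 0 < 2 ^ m := by positivity
      omega
    omega
  have hntriv : ∃ z ∈ Zc S₀, z ≠ 1 := by
    obtain ⟨z, hz, hz1, hz2⟩ := exists_fixed_of_two_group hS₀card le_rfl
      (fun s hs t ht => S₀.mul_mem (S₀.mul_mem hs ht) (S₀.inv_mem hs)) hS₀bot
    exact ⟨z, mem_Zc.2 ⟨hz, hz2⟩, hz1⟩
  -- the element
  have hN' : ∃ n ∈ Subgroup.normalizer (S₀ : Set H), n ∉ G := by
    by_contra hcon
    push Not at hcon
    exact hN hcon
  obtain ⟨n, hnN, hnG⟩ := hN'
  have hn : cj n S₀ = S₀ := by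
    ext x
    rw [mem_cj]
    have := Subgroup.mem_normalizer_iff.1 hnN (n⁻¹ * x * n)
    rw [this]
    simp [mul_assoc]
  -- the action
  let a : H ⧸ G := ((1 : H) : H ⧸ G)
  have hstab : stabilizer H a = G := MulAction.stabilizer_quotient G
  have hna : n • a ≠ a := by
    intro h
    apply hnG
    rw [← hstab]
    exact h
  haveI : Nontrivial (H ⧸ G) := ⟨⟨n • a, a, hna⟩⟩
  have hfaith : ∀ g : H, (∀ x : H ⧸ G, g • x = x) → g = 1 := by
    intro g hg
    have hnorm : (MulAction.toPermHom H (H ⧸ G)).ker.Normal := inferInstance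
    rcases hnorm.eq_bot_or_eq_top with h | h
    · have : g ∈ (MulAction.toPermHom H (H ⧸ G)).ker := by
        rw [MonoidHom.mem_ker]
        ext x
        simpa using hg x
      rw [h, Subgroup.mem_bot] at this
      exact this
    · exfalso
      apply hna
      have : n ∈ (MulAction.toPermHom H (H ⧸ G)).ker := by rw [h]; trivial
      rw [MonoidHom.mem_ker] at this
      have h2 := congrArg (fun p : Equiv.Perm (H ⧸ G) => p a) this
      simpa using h2
  haveI : FaithfulSMul H (H ⧸ G) := ⟨fun {g g'} h => by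
    have := hfaith (g'⁻¹ * g) (fun x => by rw [mul_smul, h, inv_smul_smul])
    rw [inv_mul_eq_one] at this
    exact this.symm⟩
  have hprim : IsPreprimitive H (H ⧸ G) :=
    (isCoatom_stabilizer_iff_preprimitive (G := H) (X := H ⧸ G) a).1 (by rw [hstab]; exact hG)
  have hCo : ∀ x : H ⧸ G, IsCoatom (stabilizer H x) := fun x =>
    IsPreprimitive.isCoatom_stabilizer_of_isPreprimitive H x
  have hStcard : ∀ x : H ⧸ G, Nat.card (stabilizer H x) = Nat.card G := by
    intro x
    obtain ⟨g, rfl⟩ := MulAction.exists_smul_eq H a x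
    rw [card_stab_smul, hstab]
  have hStbot : ∀ x : H ⧸ G, stabilizer H x ≠ ⊥ := by
    intro x h
    have h1 := hStcard x
    rw [h, Subgroup.card_bot, hScardG, hScard, pow_succ] at h1
    have h2 : 0 < 2 ^ m := by positivity
    have h3 := hq.two_le
    nlinarith
  have hjoin : ∀ {x y : H ⧸ G}, x ≠ y → stabilizer H x ⊔ stabilizer H y = ⊤ :=
    fun {x y} hne => join_of_coatom (hCo x) (hStbot x) hne
  have hstcard : Nat.card (stabilizer H a) = q * Nat.card S₀ := by
    rw [hstab, hScardG, hS₀card, hScard]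
  by_cases hq3 : q = 3
  · -- the case `q = 3`
    subst hq3
    let b : H ⧸ G := n • a
    have hS₀b : S₀ ≤ stabilizer H b := by
      change S₀ ≤ stabilizer H (n • a)
      rw [stabilizer_smul_cj]
      intro s hs
      rw [← hn, mem_cj] at hs
      rw [mem_cj, hstab]
      exact hS₀G hs
    have hI : (stabilizer H a ⊓ stabilizer H b : Subgroup H) = S₀ := by
      rcases prime_between hq (le_inf (by rw [hstab]; exact hS₀G) hS₀b)
        (inf_le_left : (stabilizer H a ⊓ stabilizer H b : Subgroup H) ≤ stabilizer H a) hstcard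
        with h | h
      · exact h
      · exfalso
        have h1 : stabilizer H a ≤ stabilizer H b := by
          rw [← h]
          exact inf_le_right
        exact St_ne (hCo a) (hStbot a) hna.symm (Subgroup.eq_of_le_of_card_ge h1
          (by rw [hStcard, hStcard]))
    have h3 : Nat.card (orbit (stabilizer H a) b) = 3 := by
      have h1 := card_orbit_stab (G := H) a b
      rw [hI, hstcard] at h1
      have h2 : 0 < Nat.card S₀ := Nat.card_pos
      exact Nat.eq_of_mul_eq_mul_right h2 h1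
    -- small cases
    have hQbig : 3 ≤ Nat.card Q := by
      by_contra hlt
      have hcomm : ∀ y ∈ Q, ∀ g : ↥G, g * y * g⁻¹ = y := by
        intro y hy g
        by_cases hy1 : y = 1
        · subst hy1
          simp
        have h2 : Nat.card Q = 2 := by
          have hne1 : Nat.card Q ≠ 1 := by
            intro h
            have := Subgroup.card_eq_one.1 h
            rw [this, Subgroup.mem_bot] at hy
            exact hy1 hy
          have hpos : 0 < Nat.card Q := Nat.card_pos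
          omega
        obtain ⟨w, -, hw⟩ := (Nat.card_eq_two_iff' (1 : Q)).1 h2
        have h3 : (⟨y, hy⟩ : Q) = w := hw _ (fun h => hy1 (congrArg Subtype.val h))
        have h4 : (⟨g * y * g⁻¹, hQnorm.conj_mem y hy g⟩ : Q) = w := by
          apply hw
          intro h
          apply hy1
          have h5 : g * y * g⁻¹ = 1 := congrArg Subtype.val h
          have h6 : y = g⁻¹ * (g * y * g⁻¹) * g := by group
          rw [h6, h5]
          group
        have h5 := h4.trans h3.symm
        exact congrArg Subtype.val h5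
      have htop : (⊤ : Subgroup ↥G) ≤ Q := by
        refine le_trans ?_ hchar
        intro g _
        rw [Subgroup.mem_centralizer_iff]
        intro y hy
        have := hcomm y hy g
        calc y * g = (g * y * g⁻¹) * g := by rw [this]
          _ = g * y := by group
      have h4 := Subgroup.card_le_of_le htop
      rw [Subgroup.card_top, hcardG] at h4
      have hpos : 0 < Nat.card Q := Nat.card_pos
      nlinarith
    have hGbig : 18 ≤ Nat.card G := by
      rw [hcardG]
      nlinarith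
    have hSt := stabilizer_iso_of_suborbit_three hprim a b h3
    have hst : stabilizer H a = G := hstab
    have hcardst : Nat.card (stabilizer H a) = Nat.card G := hStcard a
    rcases hSt with h | h | h | h | h
    · exfalso
      obtain ⟨h⟩ := h
      have h1 := Nat.card_congr h.toEquiv
      have h2 : Nat.card (Multiplicative (ZMod 3)) = 3 := by
        rw [Nat.card_eq_fintype_card]
        rfl
      omega
    · exfalso
      obtain ⟨h⟩ := h
      have h1 := Nat.card_congr h.toEquiv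
      have h2 : Nat.card (Equiv.Perm (Fin 3)) = 6 := by
        rw [Nat.card_eq_fintype_card, Fintype.card_perm]
        rfl
      omega
    · exfalso
      obtain ⟨h⟩ := h
      have h1 := Nat.card_congr h.toEquiv
      have h2 : Nat.card (DihedralGroup 6) = 12 := DihedralGroup.nat_card
      omega
    · obtain ⟨h⟩ := h
      exact Or.inl ⟨(MulEquiv.subgroupCongr hst).symm.trans h⟩
    · obtain ⟨h⟩ := h
      exact Or.inr ⟨(MulEquiv.subgroupCongr hst).symm.trans h⟩
  · -- the case `q ≥ 5`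
    exfalso
    have hq5 : 5 ≤ q := by
      by_contra hlt
      have h1 := hq.two_le
      have h2 : q = 4 := by omega
      rw [h2] at hq
      exact absurd hq (by norm_num)
    have hS₀St : S₀ ≤ stabilizer H a := by
      rw [hstab]
      exact hS₀G
    let D : Fq H (H ⧸ G) := fqOf a S₀ Q₀ (fun x => MulAction.exists_smul_eq H a x) hS₀St
      (fun t ht => hQn₀ t (by rwa [hstab] at ht)) hQ₀S₀ hidx hZ hjoin hfaith n hn hna hntriv
    have hDFl : D.Fl a S₀ := ⟨1, one_smul _ _, (cj_one S₀).symm⟩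
    obtain ⟨x, hx⟩ := exists_prime_orderOf_dvd_card' q (G := ↥G) (by rw [hScardG]; exact ⟨_, rfl⟩)
    let ρ : H := x
    have hρG : ρ ∈ G := x.2
    have hρord : orderOf ρ = q := by
      have : orderOf ρ = orderOf x := Subgroup.orderOf_coe x
      rw [this, hx]
    have hodd : ∀ w ∈ S₀, w ^ q = 1 → w = 1 := by
      intro w hw hwq
      have h1 : orderOf w ∣ q := orderOf_dvd_of_pow_eq_one hwq
      have h2 : orderOf w ∣ 2 ^ (m + 1) := by
        rw [← hS₀card]
        exact Subgroup.orderOf_dvd_natCard S₀ hw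
      have h3 : Nat.Coprime (2 ^ (m + 1)) q := Nat.Coprime.pow_left _ hcop
      have h4 := Nat.Coprime.eq_one_of_dvd (h3.coprime_dvd_left h2) h1
      exact orderOf_eq_one_iff.1 h4
    have hρS₀ : ρ ∉ S₀ := by
      intro h
      have h1 := hodd ρ h (by rw [← hρord]; exact pow_orderOf_eq_one ρ)
      rw [h1, orderOf_one] at hρord
      exact hq.one_lt.ne hρord
    have hne : ¬ cj ρ S₀ ≤ S₀ := by
      intro hle
      have heq : cj ρ S₀ = S₀ := Subgroup.eq_of_le_of_card_ge hle (by rw [card_cj])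
      have hx1 : x ∈ Subgroup.normalizer ((S : Subgroup ↥G) : Set ↥G) := by
        rw [Subgroup.mem_normalizer_iff]
        intro t
        have h1 : ∀ u : ↥G, u ∈ (S : Subgroup ↥G) ↔ (u : H) ∈ S₀ := by
          intro u
          constructor
          · exact fun h => ⟨u, h, rfl⟩
          · rintro ⟨u', hu', h⟩
            have : u' = u := Subtype.ext h
            rwa [← this]
        rw [h1, h1]
        have h2 : ((x * t * x⁻¹ : ↥G) : H) = ρ * t * ρ⁻¹ := by simp [ρ]
        rw [h2]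
        rw [← conj_mem_cj (g := ρ) (s := (t : H)), heq]
      have hx2 : x ∉ (S : Subgroup ↥G) := fun h => hρS₀ ⟨x, h, rfl⟩
      rcases prime_between (A := (S : Subgroup ↥G))
        (I := Subgroup.normalizer ((S : Subgroup ↥G) : Set ↥G)) (B := ⊤) hq
        Subgroup.le_normalizer le_top (by rw [Subgroup.card_top]; exact hScardG) with h | h
      · rw [h] at hx1
        exact hx2 hx1
      · have hnorm : (S : Subgroup ↥G).Normal := Subgroup.normalizer_eq_top_iff.1 h
        have hle2 : (S : Subgroup ↥G) ≤ Q :=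
          Cfsg.Agent.Lib.PCore.le_pCore hnorm S.isPGroup'
        have h3 := Subgroup.card_le_of_le hle2
        rw [hScard, hm, pow_succ] at h3
        have h4 : 0 < 2 ^ m := by positivity
        omega
    have hρSt : ρ ∈ stabilizer H a := by rw [hstab]; exact hρG
    have hgen : S₀ ⊔ cj ρ S₀ = stabilizer H a := by
      rcases prime_between (A := S₀) (I := S₀ ⊔ cj ρ S₀) (B := stabilizer H a) hq le_sup_left
        (sup_le hS₀St (D.le_St (Fq.fl_conj hDFl hρSt))) hstcard with h | h
      · exfalso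
        exact hne (le_sup_right.trans h.le)
      · exact h
    exact Fq.no_rot hDFl hq hq5 hρSt hρord hodd hgen

end SimsQ
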