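import Mathlib
import Cfsg.Agent.Lib.CoprimeClass
import Cfsg.Agent.Lib.CoprimeParts
import Cfsg.Agent.Lib.QuadSection
import Cfsg.Agent.Lib.Frat

/-!
# The class size graph on `p`-singular elements

Two `p`-elements with coprime class sizes: some `p`-singular element has class size
divisible by a prime of each of the two sizes.  This gives that the graph on the primes
dividing class sizes of `p`-singular elements has diameter at most three when `p` does not divide the
order of the centre.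
-/

set_option autoImplicit false
set_option linter.all false

namespace Cfsg.Agent.Lib.SingGraph

open Subgroup Cfsg.Agent.Lib.CoprimeClass

variable {G : Type*} [Group G] [Finite G] {p : ℕ} [hp : Fact p.Prime]

omit [Finite G] hp in
theorem mem_smul_sylow (g : G) (P : Sylow p G) (x : G) :
    x ∈ ((g • P : Sylow p G) : Subgroup G) ↔ g⁻¹ * x * g ∈ (P : Subgroup G) := by
  rw [Sylow.coe_subgroup_smul, Subgroup.mem_pointwise_smul_iff_inv_smul_mem, MulAut.smul_def]
  simp [MulAut.conj_apply]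

omit [Finite G] hp in
/-- Primary decomposition of an element. -/
theorem exists_parts [Finite G] (hp : p.Prime) (x : G) : ∃ a g : G, a * g = x ∧ Commute a g ∧ (∃ k : ℕ, a ^ p ^ k = 1) ∧
    (∃ n : ℕ, Nat.Coprime n p ∧ g ^ n = 1) ∧ a ∈ zpowers x ∧ g ∈ zpowers x := by
  set n := orderOf x with hn
  have hn0 : n ≠ 0 := (orderOf_pos x).ne'
  set k := n.factorization p with hk
  set m := n / p ^ k with hm
  have hfac : p ^ k * m = n := Nat.ordProj_mul_ordCompl_eq_self n p
  have hm_cop : Nat.Coprime m p := (Nat.coprime_ordCompl hp hn0).symm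
  have hcop : Nat.Coprime (p ^ k) m := (Nat.Coprime.pow_left k hm_cop.symm)
  have hbez : ((p ^ k : ℕ) : ℤ) * Nat.gcdA (p ^ k) m + (m : ℤ) * Nat.gcdB (p ^ k) m = 1 := by
    have := Nat.gcd_eq_gcd_ab (p ^ k) m
    rw [hcop] at this
    push_cast at this ⊢
    linarith
  have hxn : x ^ (n : ℤ) = 1 := by
    rw [zpow_natCast, hn, pow_orderOf_eq_one]
  refine ⟨x ^ ((m : ℤ) * Nat.gcdB (p ^ k) m), x ^ (((p ^ k : ℕ) : ℤ) * Nat.gcdA (p ^ k) m), ?_, ?_,
    ⟨k, ?_⟩, ⟨m, hm_cop, ?_⟩, ⟨_, rfl⟩, ⟨_, rfl⟩⟩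
  · rw [← zpow_add, add_comm, hbez, zpow_one]
  · exact (Commute.refl x).zpow_zpow _ _
  · rw [← zpow_natCast, ← zpow_mul]
    have : (m : ℤ) * Nat.gcdB (p ^ k) m * ((p ^ k : ℕ) : ℤ) = (n : ℤ) * Nat.gcdB (p ^ k) m := by
      rw [← hfac]; push_cast; ring
    rw [show ((p ^ k : ℕ) : ℤ) = ((p ^ k : ℕ) : ℤ) from rfl, this, zpow_mul, hxn, one_zpow]
  · rw [← zpow_natCast, ← zpow_mul]
    have : ((p ^ k : ℕ) : ℤ) * Nat.gcdA (p ^ k) m * (m : ℤ) = (n : ℤ) * Nat.gcdA (p ^ k) m := by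
      rw [← hfac]; push_cast; ring
    rw [this, zpow_mul, hxn, one_zpow]

omit [Finite G] hp in
theorem dvd_orderOf_of_ne_one (hp : p.Prime) {a : G} {k : ℕ} (ha : a ^ p ^ k = 1) (hne : a ≠ 1) : p ∣ orderOf a := by
  have h := orderOf_dvd_of_pow_eq_one ha
  obtain ⟨j, -, hj⟩ := (Nat.dvd_prime_pow hp).1 h
  rw [hj]
  have hj0 : j ≠ 0 := by
    rintro rfl
    rw [pow_zero, orderOf_eq_one_iff] at hj
    exact hne hj
  exact dvd_pow_self p hj0

omit [Finite G] hp in
/-- The `p`-part of a `p`-singular element is nontrivial. -/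
theorem part_ne_one [Finite G] (hp : p.Prime) {x a g : G} (h : a * g = x) {n : ℕ} (hn : Nat.Coprime n p) (hg : g ^ n = 1)
    (hx : p ∣ orderOf x) : a ≠ 1 := by
  rintro rfl
  rw [one_mul] at h
  subst h
  have := hx.trans (orderOf_dvd_of_pow_eq_one hg)
  exact hp.one_lt.ne' (Nat.Coprime.eq_one_of_dvd hn.symm this)


/-- An index prime to `p` gives a Sylow subgroup inside. -/
theorem exists_sylow_le_of_index (C : Subgroup G) (h : ¬ p ∣ C.index) : ∃ S : Sylow p G, (S : Subgroup G) ≤ C := by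
  classical
  let S₀ : Sylow p G := default
  haveI : Fintype (G ⧸ C) := Fintype.ofFinite _
  obtain ⟨q, hq⟩ := S₀.2.nonempty_fixed_point_of_prime_not_dvd_card (G ⧸ C) (by
    rw [← index_eq_card]; exact h)
  induction q using QuotientGroup.induction_on with | _ g => ?_
  refine ⟨g⁻¹ • S₀, ?_⟩
  intro u hu
  rw [mem_smul_sylow] at hu
  have hu' : g * u * g⁻¹ ∈ (S₀ : Subgroup G) := by simpa using hu
  have h1 := hq ⟨g * u * g⁻¹, hu'⟩
  have h2 : (((g * u * g⁻¹) * g : G) : G ⧸ C) = (g : G ⧸ C) := by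
    have : (g * u * g⁻¹ : G) • ((g : G) : G ⧸ C) = (g : G ⧸ C) := h1
    rwa [MulAction.Quotient.smul_coe, smul_eq_mul] at this
  have h3 := QuotientGroup.eq.1 h2.symm
  have h4 : g⁻¹ * (g * u * g⁻¹ * g) = u := by group
  rwa [h4] at h3

/-- A class size prime to `p` gives a Sylow subgroup in the centralizer. -/
theorem exists_sylow_le {a : G} (h : ¬ p ∣ cs a) : ∃ S : Sylow p G, (S : Subgroup G) ≤ centralizer ({a} : Set G) :=
  exists_sylow_le_of_index _ h

theorem not_dvd_of_sylow_le {a : G} (S : Sylow p G) (h : (S : Subgroup G) ≤ centralizer ({a} : Set G)) : ¬ p ∣ cs a := by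
  intro hd
  exact S.not_dvd_index (hd.trans (index_dvd_of_le h))

/-- A `p`-element lies in a Sylow subgroup. -/
theorem exists_sylow_mem {b : G} {k : ℕ} (hb : b ^ p ^ k = 1) : ∃ S : Sylow p G, b ∈ (S : Subgroup G) := by
  have hP : IsPGroup p (zpowers b) := by
    intro a
    obtain ⟨a, ha⟩ := a
    obtain ⟨i, rfl⟩ := mem_zpowers_iff.1 ha
    refine ⟨k, ?_⟩
    apply Subtype.ext
    show (b ^ i) ^ (p ^ k) = 1
    rw [← zpow_natCast, ← zpow_mul, mul_comm, zpow_mul, zpow_natCast, hb, one_zpow]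
  obtain ⟨S, hS⟩ := hP.exists_le_sylow
  exact ⟨S, hS (mem_zpowers b)⟩

omit [Finite G] hp in
theorem commute_iff_mem_cent {a b : G} : Commute a b ↔ b ∈ centralizer ({a} : Set G) := by
  rw [mem_cent]; exact ⟨fun h => h.symm.eq, fun h => (show Commute b a from h).symm⟩

theorem commute_aux {a b : G} {k : ℕ} (h : Nat.Coprime (cs a) (cs b)) (hp' : ¬ p ∣ cs a) (hb : b ^ p ^ k = 1) :
    Commute a b := by
  obtain ⟨S, hS⟩ := exists_sylow_le hp'
  obtain ⟨S₁, hS₁⟩ := exists_sylow_mem hb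
  obtain ⟨c, hc⟩ := MulAction.exists_smul_eq G S S₁
  rw [← hc, mem_smul_sylow] at hS₁
  have h1 : Commute a (c⁻¹ * b * c) := commute_iff_mem_cent.2 (hS hS₁)
  obtain ⟨t, ht1, ht2⟩ := exists_conj_both h 1 c⁻¹
  have h3 : t * a * t⁻¹ = a := by simpa using ht1
  have h4 : t * b * t⁻¹ = c⁻¹ * b * c := by simpa using ht2
  have h5 : (t * a * t⁻¹) * (t * b * t⁻¹) = (t * b * t⁻¹) * (t * a * t⁻¹) := by
    rw [h3, h4]; exact h1
  have h6 : t * (a * b) * t⁻¹ = t * (b * a) * t⁻¹ := by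
    calc t * (a * b) * t⁻¹ = (t * a * t⁻¹) * (t * b * t⁻¹) := by group
      _ = (t * b * t⁻¹) * (t * a * t⁻¹) := h5
      _ = _ := by group
  exact mul_left_cancel (mul_right_cancel h6)

/-- `p`-elements with coprime class sizes commute. -/
theorem commute_of_coprime (hp : p.Prime) {a b : G} {k l : ℕ} (h : Nat.Coprime (cs a) (cs b)) (ha : a ^ p ^ k = 1)
    (hb : b ^ p ^ l = 1) : Commute a b := by
  by_cases hpa : p ∣ cs a
  · have hpb : ¬ p ∣ cs b := fun hpb => hp.one_lt.ne' (Nat.eq_one_of_dvd_coprimes h hpa hpb)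
    exact (commute_aux h.symm hpb ha).symm
  · exact commute_aux h hpa hb

/-- Commuting with all conjugates. -/
theorem commute_conj (hp : p.Prime) {a b : G} {k l : ℕ} (h : Nat.Coprime (cs a) (cs b)) (ha : a ^ p ^ k = 1)
    (hb : b ^ p ^ l = 1) (g : G) : Commute a (g * b * g⁻¹) := by
  refine commute_of_coprime hp (k := k) (l := l) ?_ ha ?_
  · rw [cs_conj]; exact h
  · rw [conj_pow, hb, mul_one, mul_inv_cancel]

omit [Finite G] hp in
theorem cs_one : cs (1 : G) = 1 := by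
  rw [cs_eq_one_iff]; exact one_mem _

/-- Class size of a product of commuting elements with coprime class sizes. -/
theorem cs_mul_dvd {a b : G} (hab : Commute a b) (h : Nat.Coprime (cs a) (cs b)) : cs (a * b) ∣ cs a * cs b := by
  have hle : centralizer ({a} : Set G) ⊓ centralizer ({b} : Set G) ≤ centralizer ({a * b} : Set G) := by
    intro c hc
    have hc1 := mem_cent.1 (mem_inf.1 hc).1
    have hc2 := mem_cent.1 (mem_inf.1 hc).2
    rw [mem_cent, ← mul_assoc, hc1, mul_assoc, hc2, mul_assoc]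
  have h1 := index_dvd_of_le hle
  have h2 : cs a ∣ (centralizer ({a} : Set G) ⊓ centralizer ({b} : Set G)).index := index_dvd_of_le inf_le_left
  have h3 : cs b ∣ (centralizer ({a} : Set G) ⊓ centralizer ({b} : Set G)).index := index_dvd_of_le inf_le_right
  have h4 := Nat.Coprime.mul_dvd_of_dvd_of_dvd h h2 h3
  have h5 : (centralizer ({a} : Set G) ⊓ centralizer ({b} : Set G)).index ≤ cs a * cs b := Subgroup.index_inf_le
  have h6 : (centralizer ({a} : Set G) ⊓ centralizer ({b} : Set G)).index = cs a * cs b := by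
    apply le_antisymm h5
    exact Nat.le_of_dvd (Nat.pos_of_ne_zero index_ne_zero_of_finite) h4
  rw [← h6]; exact h1

/-- The stabilizer step: if the class of `a * b` is as small as the class of `a`, then `p` divides `cs a`. -/
theorem dvd_of_cs_mul (hp : p.Prime) {a b : G} {k l : ℕ} (h : Nat.Coprime (cs a) (cs b)) (ha : a ^ p ^ k = 1)
    (hb : b ^ p ^ l = 1) (hmb : cs b ≠ 1) (hc : cs (a * b) = cs a) : p ∣ cs a := by
  have hbz : b ∉ center G := fun hz => hmb (cs_eq_one_iff.2 hz)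
  rw [mem_center_iff] at hbz
  push Not at hbz
  obtain ⟨g, hg⟩ := hbz
  set r := g * b * g⁻¹ * b⁻¹ with hr
  have hr1 : r ≠ 1 := by
    intro h0
    apply hg
    have : g * b * g⁻¹ = b := by
      calc g * b * g⁻¹ = r * b := by rw [hr]; group
        _ = b := by rw [h0, one_mul]
    calc g * b = (g * b * g⁻¹) * g := by group
      _ = b * g := by rw [this]
  have hrs : r ∈ stabR a := mem_stabR_of_cs_mul h hc g
  have hconj : IsConj a (a * r) := (hrs a).1 (IsConj.refl a)
  have h1 : Commute a (g * b * g⁻¹) := commute_conj hp h ha hb g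
  have h2 : Commute a b := commute_of_coprime hp h ha hb
  have h3 : Commute a r := h1.mul_right h2.inv_right
  have h4 : (a * r) ^ p ^ k = 1 := by
    obtain ⟨c, hc'⟩ := isConj_iff.1 hconj
    rw [← hc', conj_pow, ha, mul_one, mul_inv_cancel]
  have h5 : r ^ p ^ k = 1 := by
    rw [h3.mul_pow, ha, one_mul] at h4
    exact h4
  have h6 : p ∣ orderOf r := dvd_orderOf_of_ne_one hp h5 hr1
  have h7 : orderOf r ∣ Nat.card (stabR a) := Subgroup.orderOf_dvd_natCard _ hrs
  exact h6.trans (h7.trans (card_stabR_dvd a))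

/-- Jordan's lemma. -/
theorem exists_derangement {X Ω : Type*} [Group X] [Finite X] [MulAction X Ω] [Finite Ω] [Nontrivial Ω]
    [MulAction.IsPretransitive X Ω] : ∃ y : X, ∀ ω : Ω, y • ω ≠ ω := by
  classical
  by_contra hcon
  push Not at hcon
  haveI := Fintype.ofFinite X
  haveI := Fintype.ofFinite Ω
  have hb := MulAction.sum_card_fixedBy_eq_card_orbits_mul_card_group X Ω
  have h1 : Fintype.card (MulAction.orbitRel.Quotient X Ω) = 1 := by
    haveI : Nonempty Ω := inferInstance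
    obtain ⟨x⟩ := ‹Nonempty Ω›
    rw [Fintype.card_eq_one_iff]
    refine ⟨Quotient.mk'' x, fun q => ?_⟩
    induction q using Quotient.inductionOn' with
    | h y =>
      apply Quotient.sound'
      rw [MulAction.orbitRel_apply]
      exact MulAction.exists_smul_eq X x y
  rw [h1, one_mul] at hb
  have h2 : ∀ y : X, 1 ≤ Fintype.card (MulAction.fixedBy Ω y) := by
    intro y
    obtain ⟨ω, hω⟩ := hcon y
    exact Fintype.card_pos_iff.2 ⟨⟨ω, hω⟩⟩
  have h3 : 2 ≤ Fintype.card (MulAction.fixedBy Ω (1 : X)) := by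
    have : Fintype.card (MulAction.fixedBy Ω (1 : X)) = Fintype.card Ω := by
      apply Fintype.card_congr
      refine ⟨fun x => x.1, fun x => ⟨x, by simp⟩, fun x => rfl, fun x => rfl⟩
    rw [this]
    exact Fintype.one_lt_card
  have h4 : ∑ y : X, 1 < ∑ y : X, Fintype.card (MulAction.fixedBy Ω y) := by
    apply Finset.sum_lt_sum (fun y _ => h2 y)
    exact ⟨1, Finset.mem_univ _, by omega⟩
  simp only [Finset.sum_const, Finset.card_univ, smul_eq_mul, mul_one] at h4
  rw [hb] at h4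
  exact lt_irrefl _ h4


/-- If every `p'`-element of `H` centralizes a Sylow `p`-subgroup inside `H`, then `H` has a unique Sylow
`p`-subgroup. -/
theorem sylow_subsingleton (hp : p.Prime) (H : Subgroup G)
    (hg : ∀ g ∈ H, (∃ n : ℕ, Nat.Coprime n p ∧ g ^ n = 1) →
      ∃ S : Sylow p G, (S : Subgroup G) ≤ H ∧ (S : Subgroup G) ≤ centralizer ({g} : Set G)) :
    Subsingleton (Sylow p H) := by
  by_contra hns
  rw [not_subsingleton_iff_nontrivial] at hns
  obtain ⟨y, hy⟩ := exists_derangement (X := H) (Ω := Sylow p H)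
  obtain ⟨a, g, hag, hcomm, ⟨k, hk⟩, ⟨n, hn, hgn⟩, -, -⟩ := exists_parts hp y
  obtain ⟨S, hSH, hSg⟩ := hg g.1 g.2 ⟨n, hn, by
    have := congrArg Subtype.val hgn
    simpa using this⟩
  -- the Sylow subgroup of `H` given by `S`
  let T : Sylow p H := S.subtype hSH
  have hTmem : ∀ z : H, z ∈ (T : Subgroup H) ↔ (z : G) ∈ (S : Subgroup G) := by
    intro z
    show z ∈ ((S : Subgroup G).subgroupOf H) ↔ _
    exact mem_subgroupOf
  let C : Subgroup H := centralizer ({g} : Set H)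
  have hTC : (T : Subgroup H) ≤ C := by
    intro z hz
    have h1 := hSg ((hTmem z).1 hz)
    rw [mem_cent] at h1 ⊢
    exact Subtype.ext h1
  have haC : a ∈ C := by
    rw [mem_cent]; exact hcomm.eq
  have hidx : ¬ p ∣ ((T : Subgroup H).subgroupOf C).index := by
    intro hd
    have h1 : ((T : Subgroup H).subgroupOf C).index ∣ (T : Subgroup H).index :=
      Subgroup.relIndex_dvd_index_of_le hTC
    exact T.not_dvd_index (hd.trans h1)
  obtain ⟨c, hc⟩ := exists_conj_mem_of_not_dvd (p := p) _ hidx (u := (⟨a, haC⟩ : C)) (k := k)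
    (Subtype.ext (by simpa using hk))
  have hc' : (c : H)⁻¹ * a * (c : H) ∈ (T : Subgroup H) := by
    have := mem_subgroupOf.1 hc
    simpa using this
  let T' : Sylow p H := (c : H) • T
  have haT' : a ∈ (T' : Subgroup H) := (mem_smul_sylow _ _ _).2 hc'
  have hgT' : ∀ z ∈ (T' : Subgroup H), g * z = z * g := by
    intro z hz
    have h1 := (mem_smul_sylow _ _ _).1 hz
    have h2 := mem_cent.1 (hTC h1)
    have h3 : (c : H) * g = g * (c : H) := mem_cent.1 c.2
    have h4 : (c : H)⁻¹ * g = g * (c : H)⁻¹ := by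
      calc (c : H)⁻¹ * g = (c : H)⁻¹ * (g * (c : H)) * (c : H)⁻¹ := by group
        _ = (c : H)⁻¹ * ((c : H) * g) * (c : H)⁻¹ := by rw [h3]
        _ = _ := by group
    -- `h2 : (c⁻¹ z c) g = g (c⁻¹ z c)`
    have h5 : (c : H)⁻¹ * (z * g) * (c : H) = (c : H)⁻¹ * (g * z) * (c : H) := by
      calc (c : H)⁻¹ * (z * g) * (c : H) = ((c : H)⁻¹ * z * (c : H)) * ((c : H)⁻¹ * g * (c : H)) := by group
        _ = ((c : H)⁻¹ * z * (c : H)) * (g * (c : H)⁻¹ * (c : H)) := by rw [h4]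
        _ = ((c : H)⁻¹ * z * (c : H)) * g := by group
        _ = g * ((c : H)⁻¹ * z * (c : H)) := h2
        _ = (g * (c : H)⁻¹) * z * (c : H) := by group
        _ = ((c : H)⁻¹ * g) * z * (c : H) := by rw [h4]
        _ = _ := by group
    exact (mul_left_cancel (mul_right_cancel h5)).symm
  have hnorm : y ∈ Subgroup.normalizer (((T' : Subgroup H) : Set H)) := by
    rw [← hag]
    refine mul_mem (le_normalizer haT') ?_
    rw [mem_normalizer_iff]
    intro z
    constructor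
    · intro hz
      have : g * z * g⁻¹ = z := by rw [hgT' z hz]; group
      rw [this]; exact hz
    · intro hz
      have h1 := hgT' _ hz
      have h2 : z = g * z * g⁻¹ := by
        calc z = g⁻¹ * ((g * z * g⁻¹) * g) := by group
          _ = g⁻¹ * (g * (g * z * g⁻¹)) := by rw [← h1]
          _ = g * z * g⁻¹ := by group
      rw [h2]; exact hz
  exact hy T' (Sylow.smul_eq_iff_mem_normalizer.2 hnorm)

/-- With a unique Sylow subgroup of `H`: a Sylow subgroup of `G` inside `H` contains all `p`-elements of `H`. -/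
theorem mem_of_subsingleton (H : Subgroup G) [Subsingleton (Sylow p H)] (T : Sylow p G) (hT : (T : Subgroup G) ≤ H)
    {y : G} (hy : y ∈ H) {k : ℕ} (hk : y ^ p ^ k = 1) : y ∈ (T : Subgroup G) := by
  obtain ⟨T', hT'⟩ := exists_sylow_mem (p := p) (b := (⟨y, hy⟩ : H)) (k := k) (Subtype.ext (by simpa using hk))
  have h1 : T' = T.subtype hT := Subsingleton.elim _ _
  rw [h1] at hT'
  exact mem_subgroupOf.1 hT'

omit [Finite G] hp in
theorem alg_key (A B q b' : G) (h1 : q⁻¹ * b' = b' * q⁻¹) (h2 : q⁻¹ * B = B * q⁻¹) :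
    A * q⁻¹ = (A * B * (q * b')⁻¹) * (B * b'⁻¹)⁻¹ := by
  symm
  calc (A * B * (q * b')⁻¹) * (B * b'⁻¹)⁻¹ = A * B * b'⁻¹ * (q⁻¹ * b') * B⁻¹ := by group
    _ = A * B * b'⁻¹ * (b' * q⁻¹) * B⁻¹ := by rw [h1]
    _ = A * (B * q⁻¹) * B⁻¹ := by group
    _ = A * (q⁻¹ * B) * B⁻¹ := by rw [h2]
    _ = A * q⁻¹ := by group

/-- The sub-case: `p` divides `cs b` but not `cs a`. -/
theorem edge_sub (hp : p.Prime) {a b : G} {k l : ℕ} (ha : a ^ p ^ k = 1) (hb : b ^ p ^ l = 1)
    (hcop : Nat.Coprime (cs a) (cs b)) (hpa : ¬ p ∣ cs a) (hpb : p ∣ cs b) (hma : cs a ≠ 1) :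
    ∃ (t : ℕ) (w : G), t.Prime ∧ t ∣ cs a ∧ p ∣ orderOf w ∧ t * p ∣ cs w := by
  by_contra hne
  push Not at hne
  obtain ⟨t₀, ht₀, ht₀a⟩ := Nat.exists_prime_and_dvd hma
  have ht₀p : t₀ ≠ p := fun h => hpa (h ▸ ht₀a)
  have ha1 : a ≠ 1 := by
    rintro rfl
    exact hma cs_one
  have hpord : p ∣ orderOf a := dvd_orderOf_of_ne_one hp ha ha1
  set H := centralizer ({a} : Set G) with hH
  -- Step 1
  have step1 : ∀ g ∈ H, (∃ n : ℕ, Nat.Coprime n p ∧ g ^ n = 1) →
      ∃ S : Sylow p G, (S : Subgroup G) ≤ H ∧ (S : Subgroup G) ≤ centralizer ({g} : Set G) := by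
    rintro g hg ⟨n, hn, hgn⟩
    have hcomm : Commute a g := commute_iff_mem_cent.2 hg
    have hn' : Nat.Coprime n (p ^ k) := Nat.Coprime.pow_right k hn
    obtain ⟨s, hs⟩ := Cfsg.Agent.Lib.CoprimeParts.exists_pow_mul_eq_left hcomm hn' (pow_pos hp.pos k).ne' ha hgn
    have hn0 : n ≠ 0 := by
      rintro rfl
      exact hp.one_lt.ne' (Nat.coprime_zero_left p |>.1 hn)
    obtain ⟨s', hs'⟩ := Cfsg.Agent.Lib.CoprimeParts.exists_pow_mul_eq_left hcomm.symm hn'.symm
      hn0 hgn ha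
    rw [hcomm.symm.eq] at hs'
    set w := a * g with hw
    have h1 : centralizer ({w} : Set G) ≤ H := by
      have := cent_le_pow w s
      rwa [hs] at this
    have h2 : centralizer ({w} : Set G) ≤ centralizer ({g} : Set G) := by
      have := cent_le_pow w s'
      rwa [hs'] at this
    have h3 : t₀ ∣ cs w := ht₀a.trans (index_dvd_of_le h1)
    have h4 : p ∣ orderOf w := by
      have : orderOf a ∣ orderOf w := by
        rw [← hs]; exact orderOf_pow_dvd s
      exact hpord.trans this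
    have h5 : ¬ p ∣ cs w := by
      intro hd
      apply hne t₀ w ht₀ ht₀a h4
      exact Nat.Coprime.mul_dvd_of_dvd_of_dvd ((Nat.coprime_primes ht₀ hp).2 ht₀p) h3 hd
    obtain ⟨S, hS⟩ := exists_sylow_le h5
    exact ⟨S, hS.trans h1, hS.trans h2⟩
  -- Step 2
  haveI hsub : Subsingleton (Sylow p H) := sylow_subsingleton hp H step1
  obtain ⟨S₀, hS₀⟩ := exists_sylow_le hpa
  have hpel : ∀ y ∈ H, ∀ k' : ℕ, y ^ p ^ k' = 1 → y ∈ (S₀ : Subgroup G) := fun y hy k' hk' =>
    mem_of_subsingleton H S₀ hS₀ hy hk'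
  have hq : ∀ g ∈ H, (∃ n : ℕ, Nat.Coprime n p ∧ g ^ n = 1) → (S₀ : Subgroup G) ≤ centralizer ({g} : Set G) := by
    intro g hg hn z hz
    obtain ⟨S, hSH, hSg⟩ := step1 g hg hn
    have hzH : z ∈ H := hS₀ hz
    obtain ⟨k', hk'⟩ := (IsPGroup.iff_orderOf.1 S₀.2) ⟨z, hz⟩
    have hzp : z ^ p ^ k' = 1 := by
      have : (⟨z, hz⟩ : (S₀ : Subgroup G)) ^ p ^ k' = 1 := by rw [← hk']; exact pow_orderOf_eq_one _
      exact congrArg Subtype.val this
    exact hSg (mem_of_subsingleton H S hSH hzH hzp)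
  have haS : a ∈ (S₀ : Subgroup G) := hpel a (by rw [hH, mem_cent]) k ha
  -- Step 3
  have hcop' : ∀ (y : G) (k' : ℕ), y ^ p ^ k' = 1 → p ∣ cs y → Nat.Coprime (cs y) (cs a) := by
    intro y k' hy hpy
    have hy1 : y ≠ 1 := by
      rintro rfl
      rw [cs_one] at hpy
      exact hp.one_lt.ne' (Nat.dvd_one.1 hpy)
    have hpo : p ∣ orderOf y := dvd_orderOf_of_ne_one hp hy hy1
    by_contra hnc
    obtain ⟨t, ht, hty, hta⟩ := Nat.Prime.not_coprime_iff_dvd.1 hnc
    have htp : t ≠ p := fun h => hpa (h ▸ hta)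
    exact hne t y ht hta hpo (Nat.Coprime.mul_dvd_of_dvd_of_dvd ((Nat.coprime_primes ht hp).2 htp) hty hpy)
  have hcore : ∀ (y : G) (k' : ℕ), y ^ p ^ k' = 1 → p ∣ cs y → ∀ x : G, x⁻¹ * y * x ∈ (S₀ : Subgroup G) := by
    intro y k' hy hpy x
    have hc := hcop' y k' hy hpy
    have h1 : Commute y (x * a * x⁻¹) := commute_conj hp hc hy ha x
    have h2 : x⁻¹ * y * x ∈ H := by
      rw [hH, mem_cent]
      have h3 : y * (x * a * x⁻¹) = (x * a * x⁻¹) * y := h1
      calc x⁻¹ * y * x * a = x⁻¹ * (y * (x * a * x⁻¹)) * x := by group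
        _ = x⁻¹ * ((x * a * x⁻¹) * y) * x := by rw [h3]
        _ = _ := by group
    refine hpel _ h2 k' ?_
    have := conj_pow (a := x⁻¹) (b := y) (i := p ^ k')
    rw [hy] at this
    simpa using this
  -- p-elements of S₀
  have hS₀p : ∀ z ∈ (S₀ : Subgroup G), ∃ k' : ℕ, z ^ p ^ k' = 1 := by
    intro z hz
    obtain ⟨k', hk'⟩ := (IsPGroup.iff_orderOf.1 S₀.2) ⟨z, hz⟩
    refine ⟨k', ?_⟩
    have : (⟨z, hz⟩ : (S₀ : Subgroup G)) ^ p ^ k' = 1 := by rw [← hk']; exact pow_orderOf_eq_one _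
    exact congrArg Subtype.val this
  -- Step 4: `S₀` is normal
  have hbcore := hcore b l hb hpb
  have hnorm' : ∀ z ∈ (S₀ : Subgroup G), ∀ x : G, x⁻¹ * z * x ∈ (S₀ : Subgroup G) := by
    by_contra hnot
    push Not at hnot
    obtain ⟨x₀, hx₀, hx₀'⟩ := hnot
    have claim1 : ∀ w ∈ (S₀ : Subgroup G), (¬ ∀ x : G, x⁻¹ * w * x ∈ (S₀ : Subgroup G)) → Commute w b := by
      intro w hw hw'
      obtain ⟨k', hk'⟩ := hS₀p w hw
      have h1 : ¬ p ∣ cs w := fun hd => hw' (hcore w k' hk' hd)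
      obtain ⟨S₁, hS₁⟩ := exists_sylow_le h1
      obtain ⟨c, hc⟩ := MulAction.exists_smul_eq G S₀ S₁
      have h2 : b ∈ (S₁ : Subgroup G) := by
        rw [← hc, mem_smul_sylow]; exact hbcore c
      exact commute_iff_mem_cent.2 (hS₁ h2)
    have hx₀1 : ¬ ∀ x : G, x⁻¹ * x₀ * x ∈ (S₀ : Subgroup G) := fun h => by
      obtain ⟨x, hx⟩ := hx₀'
      exact hx (h x)
    have claim2 : ∀ w ∈ (S₀ : Subgroup G), Commute w b := by
      intro w hw
      by_cases hw' : ∀ x : G, x⁻¹ * w * x ∈ (S₀ : Subgroup G)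
      · have h1 : ¬ ∀ x : G, x⁻¹ * (w * x₀) * x ∈ (S₀ : Subgroup G) := by
          intro h
          apply hx₀1
          intro x
          have h2 := mul_mem (inv_mem (hw' x)) (h x)
          have h3 : (x⁻¹ * w * x)⁻¹ * (x⁻¹ * (w * x₀) * x) = x⁻¹ * x₀ * x := by group
          rwa [h3] at h2
        have h2 := claim1 _ (mul_mem hw hx₀) h1
        have h3 := claim1 _ hx₀ hx₀1
        have h4 : (w * x₀) * b = b * (w * x₀) := h2
        have h5 : x₀ * b = b * x₀ := h3
        have h6 : (w * b) * x₀ = (b * w) * x₀ := by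
          calc (w * b) * x₀ = w * (b * x₀) := by group
            _ = w * (x₀ * b) := by rw [h5]
            _ = (w * x₀) * b := by group
            _ = b * (w * x₀) := h4
            _ = _ := by group
        exact mul_right_cancel h6
      · exact claim1 w hw hw'
    have h1 : (S₀ : Subgroup G) ≤ centralizer ({b} : Set G) := fun w hw => by
      rw [mem_cent]; exact claim2 w hw
    exact not_dvd_of_sylow_le S₀ h1 hpb
  -- all Sylow subgroups equal `S₀`
  have hunique : ∀ S₁ : Sylow p G, (S₀ : Subgroup G) ≤ (S₁ : Subgroup G) := by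
    intro S₁ z hz
    obtain ⟨c, hc⟩ := MulAction.exists_smul_eq G S₀ S₁
    rw [← hc, mem_smul_sylow]
    exact hnorm' z hz c
  have hunique2 : ∀ (y : G) (k' : ℕ), y ^ p ^ k' = 1 → y ∈ (S₀ : Subgroup G) := by
    intro y k' hy
    obtain ⟨S₁, hS₁⟩ := exists_sylow_mem hy
    obtain ⟨c, hc⟩ := MulAction.exists_smul_eq G S₀ S₁
    rw [← hc, mem_smul_sylow] at hS₁
    have h1 := hnorm' _ hS₁ c⁻¹
    have h2 : (c⁻¹)⁻¹ * (c⁻¹ * y * c) * c⁻¹ = y := by group
    rwa [h2] at h1
  have hbS : b ∈ (S₀ : Subgroup G) := hunique2 b l hb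
  have hbnc : ¬ (S₀ : Subgroup G) ≤ centralizer ({b} : Set G) := fun h => not_dvd_of_sylow_le S₀ h hpb
  -- Step 5
  have hnc : ∀ y ∈ (S₀ : Subgroup G), ¬ (S₀ : Subgroup G) ≤ centralizer ({y} : Set G) → ∀ g : G,
      ∃ s ∈ (S₀ : Subgroup G), g * y * g⁻¹ = s * y * s⁻¹ := by
    intro y hy hy' g
    obtain ⟨k', hk'⟩ := hS₀p y hy
    have hpy : p ∣ cs y := by
      by_contra hd
      obtain ⟨S₁, hS₁⟩ := exists_sylow_le hd
      exact hy' ((hunique S₁).trans hS₁)
    have hc := hcop' y k' hk' hpy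
    obtain ⟨h, hh, c, hc2, hg⟩ := exists_mul_of_coprime H (centralizer ({y} : Set G)) hc.symm g
    obtain ⟨u, v, e, hcomm, ⟨k₁, hk₁⟩, ⟨n, hn, hvn⟩, hu, hv⟩ := exists_parts hp h
    have hle : zpowers h ≤ H := Subgroup.zpowers_le.2 hh
    have huS : u ∈ (S₀ : Subgroup G) := hpel u (hle hu) k₁ hk₁
    have hvc : y * v = v * y := by
      have h1 := hq v (hle hv) ⟨n, hn, hvn⟩ hy
      exact mem_cent.1 h1
    have hcy : c * y = y * c := mem_cent.1 hc2
    refine ⟨u, huS, ?_⟩
    calc g * y * g⁻¹ = h * (c * y) * c⁻¹ * h⁻¹ := by rw [hg]; group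
      _ = h * y * h⁻¹ := by rw [hcy]; group
      _ = u * (v * y) * v⁻¹ * u⁻¹ := by rw [← e]; group
      _ = u * (y * v) * v⁻¹ * u⁻¹ := by rw [hvc]
      _ = _ := by group
  -- Step 7
  have hpq : ∀ g : G, (∃ n : ℕ, Nat.Coprime n p ∧ g ^ n = 1) → (S₀ : Subgroup G) ≤ centralizer ({g} : Set G) := by
    rintro g ⟨n, hn, hgn⟩
    haveI hN : (S₀ : Subgroup G).Normal := ⟨fun z hz x => by
      have := hnorm' z hz x⁻¹
      simpa using this⟩
    let σ : MulAut (S₀ : Subgroup G) := MulAut.conjNormal g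
    have hσc : ∀ q : (S₀ : Subgroup G), ((σ q : (S₀ : Subgroup G)) : G) = g * q * g⁻¹ := fun q => MulAut.conjNormal_apply g q
    have hQ : IsPGroup p (S₀ : Subgroup G) := S₀.2
    have hcomm_frat : ∀ s q : (S₀ : Subgroup G), s * q * s⁻¹ * q⁻¹ ∈ frattini (S₀ : Subgroup G) := by
      intro s q
      apply Cfsg.Agent.Lib.Frat.commutator_le_frattini hQ
      rw [commutator_def, ← commutatorElement_def]
      exact Subgroup.commutator_mem_commutator (Subgroup.mem_top _) (Subgroup.mem_top _)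
    have hnon : ∀ q : (S₀ : Subgroup G), ¬ (S₀ : Subgroup G) ≤ centralizer ({(q : G)} : Set G) →
        σ q * q⁻¹ ∈ frattini (S₀ : Subgroup G) := by
      intro q hq'
      obtain ⟨s, hs, e⟩ := hnc q q.2 hq' g
      have : σ q = ⟨s, hs⟩ * q * (⟨s, hs⟩ : (S₀ : Subgroup G))⁻¹ := Subtype.ext (by
        rw [hσc]; exact e)
      rw [this]
      exact hcomm_frat _ _
    have hσ : ∀ q : (S₀ : Subgroup G), σ q * q⁻¹ ∈ frattini (S₀ : Subgroup G) := by
      intro q
      by_cases hq' : (S₀ : Subgroup G) ≤ centralizer ({(q : G)} : Set G)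
      · let b' : (S₀ : Subgroup G) := ⟨b, hbS⟩
        have hcq : ∀ z : (S₀ : Subgroup G), z * q = q * z := fun z => Subtype.ext (mem_cent.1 (hq' z.2))
        have hqb : ¬ (S₀ : Subgroup G) ≤ centralizer ({((q * b' : (S₀ : Subgroup G)) : G)} : Set G) := by
          intro h
          apply hbnc
          intro z hz
          have h1 := mem_cent.1 (h hz)
          have h2 : z * q = q * z := mem_cent.1 (hq' hz)
          rw [mem_cent]
          have h3 : z * ((q : G) * b) = ((q : G) * b) * z := h1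
          have h4 : (q : G) * (z * b) = (q : G) * (b * z) := by
            calc (q : G) * (z * b) = ((q : G) * z) * b := by group
              _ = (z * (q : G)) * b := by rw [h2]
              _ = z * ((q : G) * b) := by group
              _ = ((q : G) * b) * z := h3
              _ = _ := by group
          exact mul_left_cancel h4
        have hbn : ¬ (S₀ : Subgroup G) ≤ centralizer ({(b' : G)} : Set G) := hbnc
        have h1 := hnon (q * b') hqb
        have h2 := hnon b' hbn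
        have e : σ q * q⁻¹ = (σ (q * b') * (q * b')⁻¹) * (σ b' * b'⁻¹)⁻¹ := by
          have hc1 : q⁻¹ * b' = b' * q⁻¹ := by
            have := hcq b'
            calc q⁻¹ * b' = q⁻¹ * (b' * q) * q⁻¹ := by group
              _ = q⁻¹ * (q * b') * q⁻¹ := by rw [this]
              _ = _ := by group
          have hc2 : q⁻¹ * σ b' = σ b' * q⁻¹ := by
            have := hcq (σ b')
            calc q⁻¹ * σ b' = q⁻¹ * (σ b' * q) * q⁻¹ := by group
              _ = q⁻¹ * (q * σ b') * q⁻¹ := by rw [this]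
              _ = _ := by group
          rw [map_mul]
          exact alg_key _ _ _ _ hc1 hc2
        rw [e]
        exact mul_mem h1 (inv_mem h2)
      · exact hnon q hq'
    obtain ⟨m, hm⟩ := Cfsg.Agent.Lib.QuadSection.exists_pow_eq_one_of_frattini hQ σ hσ
    have hσn : σ ^ n = 1 := by
      have : σ ^ n = MulAut.conjNormal (g ^ n) := (map_pow (MulAut.conjNormal (H := (S₀ : Subgroup G))) g n).symm
      rw [this, hgn, map_one]
    have hσ1 : σ = 1 := by
      have h1 : orderOf σ ∣ p ^ m := orderOf_dvd_of_pow_eq_one hm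
      have h2 : orderOf σ ∣ n := orderOf_dvd_of_pow_eq_one hσn
      have h3 : Nat.Coprime (p ^ m) n := Nat.Coprime.pow_left m hn.symm
      exact orderOf_eq_one_iff.1 (Nat.eq_one_of_dvd_coprimes h3 h1 h2)
    intro z hz
    have h1 : σ ⟨z, hz⟩ = ⟨z, hz⟩ := by rw [hσ1]; rfl
    have h2 : g * z * g⁻¹ = z := by
      have := congrArg Subtype.val h1
      rwa [hσc] at this
    rw [mem_cent]
    calc z * g = (g * z * g⁻¹) * g := by rw [h2]
      _ = g * z := by group
  -- Step 8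
  apply hma
  rw [cs_eq_one_iff, mem_center_iff]
  intro g
  obtain ⟨u, v, e, hcomm, ⟨k₁, hk₁⟩, ⟨n, hn, hvn⟩, -, -⟩ := exists_parts hp g
  have hu : u * a = a * u := by
    have h1 : u ∈ H := hS₀ (hunique2 u k₁ hk₁)
    exact mem_cent.1 h1
  have hv : a * v = v * a := mem_cent.1 (hpq v ⟨n, hn, hvn⟩ haS)
  rw [← e]
  calc u * v * a = u * (v * a) := by group
    _ = u * (a * v) := by rw [hv]
    _ = (u * a) * v := by group
    _ = (a * u) * v := by rw [hu]
    _ = _ := by group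

/-- The edge, assuming `p` does not divide `cs a`. -/
theorem edge_aux (hp : p.Prime) {a b : G} {k l : ℕ} (ha : a ^ p ^ k = 1) (hb : b ^ p ^ l = 1)
    (hcop : Nat.Coprime (cs a) (cs b)) (hpa : ¬ p ∣ cs a) (hma : cs a ≠ 1) (hmb : cs b ≠ 1) :
    ∃ (t u : ℕ) (w : G), t.Prime ∧ u.Prime ∧ t ∣ cs a ∧ u ∣ cs b ∧ p ∣ orderOf w ∧ t * u ∣ cs w := by
  have hab : Commute a b := commute_of_coprime hp hcop ha hb
  set x := a * b with hx
  have hxp : x ^ p ^ (k + l) = 1 := by
    rw [hx, hab.mul_pow, pow_add, pow_mul, ha, one_pow, one_mul, mul_comm, pow_mul, hb, one_pow]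
  have hd := cs_mul_dvd hab hcop
  have hle1 : cs a ≤ cs x := cs_le_cs_mul hcop
  have hle2 : cs b ≤ cs x := by
    have := cs_le_cs_mul hcop.symm
    rwa [hab.symm.eq] at this
  have hpos : ∀ g : G, 0 < cs g := fun g => Nat.pos_of_ne_zero (cs_ne_zero g)
  have hx1 : x ≠ 1 := by
    intro h0
    rw [h0, cs_one] at hle1
    have := hpos a
    omega
  have hpo : p ∣ orderOf x := dvd_orderOf_of_ne_one hp hxp hx1
  by_cases h1 : Nat.Coprime (cs x) (cs b)
  · have h2 : cs x ∣ cs a := h1.dvd_of_dvd_mul_right hd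
    have h3 : cs x = cs a := le_antisymm (Nat.le_of_dvd (hpos a) h2) hle1
    exact absurd (dvd_of_cs_mul hp hcop ha hb hmb h3) hpa
  by_cases h2 : Nat.Coprime (cs x) (cs a)
  · have h3 : cs x ∣ cs b := h2.dvd_of_dvd_mul_left hd
    have h4 : cs x = cs b := le_antisymm (Nat.le_of_dvd (hpos b) h3) hle2
    have h5 : cs (b * a) = cs b := by rw [← hab.eq]; exact h4
    have hpb : p ∣ cs b := dvd_of_cs_mul hp hcop.symm hb ha hma h5
    obtain ⟨t, w, ht, hta, hw, htw⟩ := edge_sub hp ha hb hcop hpa hpb hma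
    exact ⟨t, p, w, ht, hp, hta, hpb, hw, htw⟩
  · obtain ⟨u, hu, hux, hub⟩ := Nat.Prime.not_coprime_iff_dvd.1 h1
    obtain ⟨t, ht, htx, hta⟩ := Nat.Prime.not_coprime_iff_dvd.1 h2
    have htu : t ≠ u := by
      rintro rfl
      exact ht.one_lt.ne' (Nat.eq_one_of_dvd_coprimes hcop hta hub)
    exact ⟨t, u, x, ht, hu, hta, hub, hpo,
      Nat.Coprime.mul_dvd_of_dvd_of_dvd ((Nat.coprime_primes ht hu).2 htu) htx hux⟩

/-- The edge between the prime sets of two `p`-elements with coprime nontrivial class sizes. -/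
theorem exists_edge (hp : p.Prime) {a b : G} {k l : ℕ} (ha : a ^ p ^ k = 1) (hb : b ^ p ^ l = 1)
    (hcop : Nat.Coprime (cs a) (cs b)) (hma : cs a ≠ 1) (hmb : cs b ≠ 1) :
    ∃ (t u : ℕ) (w : G), t.Prime ∧ u.Prime ∧ t ∣ cs a ∧ u ∣ cs b ∧ p ∣ orderOf w ∧ t * u ∣ cs w := by
  by_cases hpa : p ∣ cs a
  · have hpb : ¬ p ∣ cs b := fun hpb => hp.one_lt.ne' (Nat.eq_one_of_dvd_coprimes hcop hpa hpb)
    obtain ⟨t, u, w, ht, hu, hta, hub, hw, htw⟩ := edge_aux hp hb ha hcop.symm hpb hmb hma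
    exact ⟨u, t, w, hu, ht, hub, hta, hw, by rwa [mul_comm]⟩
  · exact edge_aux hp ha hb hcop hpa hma hmb

/-- The `p`-part of a `p`-singular element in a group whose centre has order prime to `p`. -/
theorem exists_ppart (hp : p.Prime) (hZ : ¬ p ∣ Nat.card (center G)) {x : G} (hx : p ∣ orderOf x) :
    ∃ (a : G) (k : ℕ), a ^ p ^ k = 1 ∧ cs a ≠ 1 ∧ cs a ∣ cs x := by
  obtain ⟨a, g, e, hcomm, ⟨k, hk⟩, ⟨n, hn, hgn⟩, ha, -⟩ := exists_parts hp x
  refine ⟨a, k, hk, ?_, ?_⟩
  · intro h1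
    rw [cs_eq_one_iff] at h1
    have h2 := part_ne_one hp e hn hgn hx
    have h3 := dvd_orderOf_of_ne_one hp hk h2
    have h4 : orderOf a ∣ Nat.card (center G) := Subgroup.orderOf_dvd_natCard _ h1
    exact hZ (h3.trans h4)
  · obtain ⟨i, rfl⟩ := mem_zpowers_iff.1 ha
    apply cs_dvd_of_le
    intro c hc
    have h1 : Commute x c := (commute_iff_mem_cent.2 hc)
    rw [mem_cent]
    exact (h1.zpow_left i).symm.eq

end Cfsg.Agent.Lib.SingGraph
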