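import Mathlib
import Cfsg.Agent.Lib.SpSubfield

/-!
# Subfield subgroups of Sp_2m(q), q even, all m ≥ 2
-/

set_option autoImplicit false
set_option linter.unusedSectionVars false
set_option linter.unusedVariables false

namespace Cfsg.Agent.Lib.Sp4E97B

open Matrix Cfsg Cfsg.Geo Cfsg.Agent.Lib.TvGL Cfsg.Agent.Lib.SympT Cfsg.Agent.Lib.SubfieldMax
  Cfsg.Agent.Lib.SpSubfield

local notation:70 g:71 " ⋆ " x:70 => Matrix.mulVec (Units.val g) x

section Gen

variable {ι : Type} [Fintype ι] [DecidableEq ι] {F : Type*} [Field F]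
  {f : (ι → F) → (ι → F) → F} (hf : IsSymplecticForm f)

/-- The element `sg a y c * t_{a,d}`. -/
noncomputable def zz (a y : ι → F) (c d : F) : GL ι F := sg hf a y c * tvS hf a d

theorem zz_apply {a y : ι → F} (hay : f a y = 0) (c d : F) (x : ι → F) :
    zz hf a y c d ⋆ x = x + (c * f x a) • y + (c * f x y + d * f x a) • a := by
  have hb := hf.bilinear
  have hya : f y a = 0 := by rw [hf.skew, hay, neg_zero]
  unfold zz
  rw [mulVec_mul_GL, sg_apply hf hay, tvS_apply]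
  simp only [hb.add_left, hb.smul_left, hf.alternating, hay, hya]
  ext i
  simp only [Pi.add_apply, Pi.smul_apply, smul_eq_mul]
  ring

theorem zz_pres (a y : ι → F) (c d : F) : zz hf a y c d ∈ preserving (glToMat ι F) f :=
  Subgroup.mul_mem _ (sg_pres hf _ _ _) (tvS_pres hf _ _)

theorem sg_conj' {g : GL ι F} (hg : g ∈ preserving (glToMat ι F) f) (a y : ι → F) (c : F) :
    g * sg hf a y c * g⁻¹ = sg hf (g ⋆ a) (g ⋆ y) c := by
  unfold sg
  have e : ∀ A B C : GL ι F, g * (A * B * C) * g⁻¹ = (g * A * g⁻¹) * (g * B * g⁻¹) * (g * C * g⁻¹) := by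
    intro A B C
    group
  rw [e, tvS_conj hf hg, tvS_conj hf hg, tvS_conj hf hg, Matrix.mulVec_add]

theorem zz_conj {g : GL ι F} (hg : g ∈ preserving (glToMat ι F) f) (a y : ι → F) (c d : F) :
    g * zz hf a y c d * g⁻¹ = zz hf (g ⋆ a) (g ⋆ y) c d := by
  unfold zz
  have e : ∀ A B : GL ι F, g * (A * B) * g⁻¹ = (g * A * g⁻¹) * (g * B * g⁻¹) := by
    intro A B
    group
  rw [e, sg_conj' hf hg, tvS_conj hf hg]

theorem zz_mul {a y₁ y₂ : ι → F} (h₁ : f a y₁ = 0) (h₂ : f a y₂ = 0) (c d₁ d₂ : F) :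
    zz hf a y₁ c d₁ * zz hf a y₂ c d₂ = zz hf a (y₁ + y₂) c (d₁ + d₂ + c ^ 2 * f y₂ y₁) := by
  have hb := hf.bilinear
  have h1' : f y₁ a = 0 := by rw [hf.skew, h₁, neg_zero]
  have h2' : f y₂ a = 0 := by rw [hf.skew, h₂, neg_zero]
  have h12 : f a (y₁ + y₂) = 0 := by rw [hb.add_right, h₁, h₂, add_zero]
  apply GL_ext
  intro x
  rw [mulVec_mul_GL, zz_apply hf h₂, zz_apply hf h₁, zz_apply hf h12]
  simp only [hb.add_left, hb.add_right, hb.smul_left, hb.smul_right, hf.alternating, h₁, h₂, h1', h2']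
  ext i
  simp only [Pi.add_apply, Pi.smul_apply, smul_eq_mul]
  ring

theorem zz_zero (a : ι → F) (c d : F) : zz hf a 0 c d = tvS hf a d := by
  have hb := hf.bilinear
  have h0 : f a 0 = 0 := f_zero_right hb a
  apply GL_ext
  intro x
  rw [zz_apply hf h0, tvS_apply, f_zero_right hb x]
  ext i
  simp

theorem swap_apply (h2 : (2 : F) = 0) {x y : ι → F} (hd : f x y ≠ 0) :
    tvS hf (x + y) (f x y)⁻¹ ⋆ x = y := by
  have hb := hf.bilinear
  rw [tvS_apply, hb.add_right, hf.alternating, zero_add, inv_mul_cancel₀ hd, one_smul]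
  ext i
  simp only [Pi.add_apply]
  linear_combination (x i) * h2

end Gen

section Sub

variable {F : Type*} [Field F] [Fintype F]

theorem exists_sqrt_sub (h2 : (2 : F) = 0) (F₀ : Subfield F) (x : F) (hx : x ∈ F₀) : ∃ y ∈ F₀, y ^ 2 = x := by
  classical
  haveI : Fintype F₀ := Fintype.ofFinite _
  have h : (2 : F₀) = 0 := by
    have e : (2 : F₀) = 1 + 1 := by norm_num
    rw [e]
    apply Subtype.ext
    show (1 : F) + 1 = 0
    linear_combination h2
  have hch : ringChar F₀ = 2 := CharP.ringChar_of_prime_eq_zero Nat.prime_two (by exact_mod_cast h)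
  obtain ⟨s, hs⟩ := FiniteField.isSquare_of_char_two hch ⟨x, hx⟩
  refine ⟨s, s.2, ?_⟩
  have := congrArg Subtype.val hs
  simp only [Subfield.coe_mul] at this
  rw [this, pow_two]

theorem mem_of_sq_mem (h2 : (2 : F) = 0) (F₀ : Subfield F) {x : F} (hx : x ^ 2 ∈ F₀) : x ∈ F₀ := by
  obtain ⟨y, hy, e⟩ := exists_sqrt_sub h2 F₀ _ hx
  have h1 : (x - y) ^ 2 = 0 := by linear_combination e + (x ^ 2 - x * y) * h2
  have h3 : x - y = 0 := pow_eq_zero_iff two_ne_zero |>.mp h1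
  rw [sub_eq_zero.mp h3]
  exact hy

end Sub

section Core

variable {F : Type*} [Field F] [Fintype F] {m : ℕ} {F₀ : Subfield F} {M : Subgroup (GL (Fin m ⊕ Fin m) F)}

local notation "hfS" => (sympForm_isSymplectic (m := m) (F := F))

theorem sgn_two (h2 : (2 : F) = 0) (a : Fin m ⊕ Fin m) : (sgn a : F) = 1 := by
  rcases a with i | i
  · rfl
  · show (-1 : F) = 1
    linear_combination -h2

theorem f_e (h2 : (2 : F) = 0) (x : Fin m ⊕ Fin m → F) (a : Fin m ⊕ Fin m) :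
    sympForm m F x (ee a) = x a.swap := by
  rw [f_ee, sgn_two h2, one_mul]

theorem f_swap (h2 : (2 : F) = 0) (a : Fin m ⊕ Fin m) : sympForm m F (ee a) (ee a.swap) = 1 := by
  rw [f_ee_swap, sgn_two h2]

theorem f_swap' (h2 : (2 : F) = 0) (a : Fin m ⊕ Fin m) : sympForm m F (ee a.swap) (ee a) = 1 := by
  rw [f_ee_swap', sgn_two h2]

theorem f_comm (h2 : (2 : F) = 0) (x y : Fin m ⊕ Fin m → F) : sympForm m F x y = sympForm m F y x := by
  rw [(hfS).skew]
  linear_combination (-(sympForm m F y x)) * h2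

theorem f_self (a : Fin m ⊕ Fin m) : sympForm m F (ee a) (ee a) = 0 := (hfS).alternating _

theorem long_trans (h2 : (2 : F) = 0) (hR : ∀ u : Fin m ⊕ Fin m → F, IsRat F₀ u → ∀ c ∈ F₀, tvS hfS u c ∈ M)
    {x y : Fin m ⊕ Fin m → F} (hx : IsRat F₀ x) (hy : IsRat F₀ y) (hxy : sympForm m F x y ≠ 0) {c : F}
    (h : tvS hfS x c ∈ M) : tvS hfS y c ∈ M := by
  have h1 := hR _ (hx.add hy) _ (F₀.inv_mem (rat_f hx hy))
  have h3 := M.mul_mem (M.mul_mem h1 h) (M.inv_mem h1)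
  rwa [tvS_conj hfS (tvS_pres hfS _ _), swap_apply hfS h2 hxy] at h3

theorem long_swap (h2 : (2 : F) = 0) (hR : ∀ u : Fin m ⊕ Fin m → F, IsRat F₀ u → ∀ c ∈ F₀, tvS hfS u c ∈ M)
    {a : Fin m ⊕ Fin m} {c : F} (h : tvS hfS (ee a) c ∈ M) : tvS hfS (ee a.swap) c ∈ M :=
  long_trans h2 hR (rat_ee a) (rat_ee a.swap) (by rw [f_swap h2]; exact one_ne_zero) h

theorem long_pair (h2 : (2 : F) = 0) (hR : ∀ u : Fin m ⊕ Fin m → F, IsRat F₀ u → ∀ c ∈ F₀, tvS hfS u c ∈ M)
    {a b : Fin m ⊕ Fin m} (hab : idx a ≠ idx b) {c : F} (h : tvS hfS (ee a) c ∈ M) :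
    tvS hfS (ee a + ee b) c ∈ M := by
  refine long_trans h2 hR (rat_ee a.swap) ((rat_ee a).add (rat_ee b)) ?_ (long_swap h2 hR h)
  rw [(hfS).bilinear.add_right, f_swap' h2, f_idx (by simpa using hab), add_zero]
  exact one_ne_zero

theorem long_all (hm : 2 ≤ m) (h2 : (2 : F) = 0) (hR : ∀ u : Fin m ⊕ Fin m → F, IsRat F₀ u → ∀ c ∈ F₀, tvS hfS u c ∈ M)
    {a b : Fin m ⊕ Fin m} {c : F} (h : tvS hfS (ee a) c ∈ M) : tvS hfS (ee b) c ∈ M := by
  by_cases hi : idx b = idx a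
  · by_cases hba : b = a
    · rw [hba]; exact h
    · rw [eq_swap_of_idx hi hba]
      exact long_swap h2 hR h
  · have hab : idx a ≠ idx b := Ne.symm hi
    have h1 := long_pair h2 hR hab h
    have h3 : tvS hfS (ee b.swap) c ∈ M := by
      refine long_trans h2 hR ((rat_ee a).add (rat_ee b)) (rat_ee b.swap) ?_ h1
      rw [(hfS).bilinear.add_left, f_swap h2, f_idx (by simpa using hab), zero_add]
      exact one_ne_zero
    have h4 := long_swap h2 hR h3
    rwa [swap_swap'] at h4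

theorem long_scale (h2 : (2 : F) = 0) (hR : ∀ u : Fin m ⊕ Fin m → F, IsRat F₀ u → ∀ c ∈ F₀, tvS hfS u c ∈ M)
    {a : Fin m ⊕ Fin m} {c μ : F} (hμ : μ ∈ F₀) (hμ0 : μ ≠ 0) (h : tvS hfS (ee a) c ∈ M) :
    tvS hfS (ee a) (μ ^ 2 * c) ∈ M := by
  have h1 : tvS hfS (μ • ee a) c ∈ M := by
    refine long_trans h2 hR (rat_ee a.swap) ((rat_ee a).smul hμ) ?_ (long_swap h2 hR h)
    rw [(hfS).bilinear.smul_right, f_swap' h2, mul_one]
    exact hμ0
  rwa [tvS_smul] at h1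

/-- From a transvection with a non-rational vector to one in an isotropic plane. -/
theorem lemA (h2 : (2 : F) = 0) (hR : ∀ u : Fin m ⊕ Fin m → F, IsRat F₀ u → ∀ c ∈ F₀, tvS hfS u c ∈ M)
    {v : Fin m ⊕ Fin m → F} (hv : tvS hfS v 1 ∈ M) {a b : Fin m ⊕ Fin m} (hab : idx a ≠ idx b) :
    tvS hfS ((1 + sympForm m F v (ee a) * sympForm m F v (ee b)) • ee a + (sympForm m F v (ee a)) ^ 2 • ee b) 1 ∈ M := by
  have hb' := (hfS).bilinear
  set p := sympForm m F v (ee a) with hp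
  set q := sympForm m F v (ee b) with hq
  have h0 : sympForm m F (ee a) (ee b) = 0 := f_idx hab
  have h0' : sympForm m F (ee b) (ee a) = 0 := f_idx (Ne.symm hab)
  have hg := sg_rat hR (rat_ee a) (rat_ee b) (c := 1) F₀.one_mem
  have hgv := sg_one_apply hfS h0 v
  rw [← hp, ← hq] at hgv
  have h3 := M.mul_mem (M.mul_mem hg hv) (M.inv_mem hg)
  rw [tvS_conj hfS (sg_pres hfS _ _ _), hgv] at h3
  have hz := M.mul_mem hv h3
  have hzS : tvS hfS v 1 * tvS hfS (v + p • ee b + q • ee a) 1 ∈ preserving (glToMat (Fin m ⊕ Fin m) F) (sympForm m F) :=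
    Subgroup.mul_mem _ (tvS_pres hfS _ _) (tvS_pres hfS _ _)
  have hev : sympForm m F (ee a) v = p := f_comm h2 _ _
  have hev' : sympForm m F (ee b) v = q := f_comm h2 _ _
  have hvv : sympForm m F v v = 0 := (hfS).alternating _
  have hee : sympForm m F (ee a) (ee a) = 0 := (hfS).alternating _
  have hbb : sympForm m F (ee b) (ee b) = 0 := (hfS).alternating _
  have key : (tvS hfS v 1 * tvS hfS (v + p • ee b + q • ee a) 1) ⋆ (ee a : Fin m ⊕ Fin m → F) =
      (1 + p * q) • ee a + p ^ 2 • ee b := by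
    rw [mulVec_mul_GL, tvS_apply, tvS_apply]
    simp only [hb'.add_left, hb'.add_right, hb'.smul_left, hb'.smul_right, hev, hev', hvv, hee, h0, h0', ← hp, ← hq]
    ext i
    simp only [Pi.add_apply, Pi.smul_apply, smul_eq_mul]
    linear_combination (p * v i + p ^ 2 * q * v i) * h2
  have h4 := M.mul_mem (M.mul_mem hz (hR _ (rat_ee a) 1 F₀.one_mem)) (M.inv_mem hz)
  rwa [tvS_conj hfS hzS, key] at h4

/-- From a transvection in an isotropic plane to the element `zz`. -/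
theorem lemY (h2 : (2 : F) = 0) (hR : ∀ u : Fin m ⊕ Fin m → F, IsRat F₀ u → ∀ c ∈ F₀, tvS hfS u c ∈ M)
    {a b : Fin m ⊕ Fin m} (hab : idx a ≠ idx b) {w₁ w₂ : F}
    (hw : tvS hfS (w₁ • ee a + w₂ • ee b) 1 ∈ M) :
    zz hfS (ee a) (ee b) (w₂ ^ 2) (w₂ ^ 2) ∈ M := by
  have hb' := (hfS).bilinear
  have h0 : sympForm m F (ee a) (ee b) = 0 := f_idx hab
  have h0' : sympForm m F (ee b) (ee a) = 0 := f_idx (Ne.symm hab)
  have hee : sympForm m F (ee a) (ee a) = 0 := (hfS).alternating _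
  have hbb : sympForm m F (ee b) (ee b) = 0 := (hfS).alternating _
  have h1 : sympForm m F (ee a) (ee b.swap) = 0 := f_idx (by simpa using hab)
  have h1' : sympForm m F (ee b.swap) (ee a) = 0 := f_idx (by simpa using Ne.symm hab)
  have hg := sg_rat hR (rat_ee a) (rat_ee b.swap) (c := 1) F₀.one_mem
  have hgw : sg hfS (ee a) (ee b.swap) 1 ⋆ (w₁ • ee a + w₂ • ee b) = (w₁ • ee a + w₂ • ee b) + w₂ • ee a := by
    rw [sg_one_apply hfS h1]
    simp only [hb'.add_left, hb'.smul_left, hee, h0', h1, f_swap h2]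
    simp
  have h3 := M.mul_mem (M.mul_mem hg hw) (M.inv_mem hg)
  rw [tvS_conj hfS (sg_pres hfS _ _ _), hgw] at h3
  have hz := M.mul_mem hw h3
  convert hz using 1
  apply GL_ext
  intro x
  rw [zz_apply hfS h0, mulVec_mul_GL, tvS_apply, tvS_apply]
  simp only [hb'.add_left, hb'.add_right, hb'.smul_left, hb'.smul_right, hee, hbb, h0, h0']
  generalize sympForm m F x (ee a) = X
  generalize sympForm m F x (ee b) = X'
  ext i
  simp only [Pi.add_apply, Pi.smul_apply, smul_eq_mul]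
  linear_combination (-((w₁ * X + w₂ * X') * (w₁ * (ee a : Fin m ⊕ Fin m → F) i + w₂ * (ee b : Fin m ⊕ Fin m → F) i) + w₁ * w₂ * X * (ee a : Fin m ⊕ Fin m → F) i)) * h2

/-- Using the `F₀`-rational part of the group to isolate a long root element. -/
theorem lemB (h2 : (2 : F) = 0) (hR : ∀ u : Fin m ⊕ Fin m → F, IsRat F₀ u → ∀ c ∈ F₀, tvS hfS u c ∈ M)
    {a b : Fin m ⊕ Fin m} (hab : idx a ≠ idx b) {β : F} (hY : zz hfS (ee a) (ee b) β β ∈ M)
    {l : F} (hl : l ∈ F₀) (hl0 : l ≠ 0) : tvS hfS (ee a) (β + l * β ^ 2) ∈ M := by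
  have hb' := (hfS).bilinear
  have h0 : sympForm m F (ee a) (ee b) = 0 := f_idx hab
  have h0' : sympForm m F (ee b) (ee a) = 0 := f_idx (Ne.symm hab)
  have h1 : sympForm m F (ee a) (ee b.swap) = 0 := f_idx (by simpa using hab)
  have h1' : sympForm m F (ee b.swap) (ee a) = 0 := f_idx (by simpa using Ne.symm hab)
  have hbb : sympForm m F (ee b) (ee b) = 0 := (hfS).alternating _
  have hss : sympForm m F (ee b.swap) (ee b.swap) = 0 := (hfS).alternating _
  -- the first rational element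
  have hfl : sympForm m F (ee b) (l • ee b.swap) = l := by
    rw [hb'.smul_right, f_swap h2, mul_one]
  have hω := hR _ ((rat_ee b).add ((rat_ee b.swap).smul hl)) _
    (F₀.inv_mem (rat_f (F₀ := F₀) (rat_ee b) ((rat_ee b.swap).smul hl)))
  have hω1 := swap_apply hfS h2 (x := ee b) (y := l • ee b.swap) (by rw [hfl]; exact hl0)
  have hω2 : tvS hfS (ee b + l • ee b.swap) (sympForm m F (ee b) (l • ee b.swap))⁻¹ ⋆ (ee a : Fin m ⊕ Fin m → F) = ee a := by
    have e0 : sympForm m F (ee a) (ee b + l • ee b.swap) = 0 := by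
      rw [hb'.add_right, hb'.smul_right, h0, h1, mul_zero, add_zero]
    rw [tvS_apply, e0]
    simp
  have hY1 := M.mul_mem (M.mul_mem hω hY) (M.inv_mem hω)
  rw [zz_conj hfS (tvS_pres hfS _ _), hω1, hω2] at hY1
  have hY2 := M.mul_mem hY hY1
  rw [zz_mul hfS h0 (by rw [hb'.smul_right, h1, mul_zero])] at hY2
  have e1 : β + β + β ^ 2 * sympForm m F (l • ee b.swap) (ee b) = l * β ^ 2 := by
    rw [hb'.smul_left, f_swap' h2]
    linear_combination β * h2
  rw [e1] at hY2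
  -- the second rational element
  have hω' := hR _ (rat_ee b.swap) l hl
  have hω'1 : tvS hfS (ee b.swap) l ⋆ (ee b + l • ee b.swap : Fin m ⊕ Fin m → F) = ee b := by
    rw [tvS_apply, hb'.add_left, hb'.smul_left, hss, f_swap h2]
    ext i
    simp only [Pi.add_apply, Pi.smul_apply, smul_eq_mul]
    linear_combination (l * (ee b.swap : Fin m ⊕ Fin m → F) i) * h2
  have hω'2 : tvS hfS (ee b.swap) l ⋆ (ee a : Fin m ⊕ Fin m → F) = ee a := by
    rw [tvS_apply, h1]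
    simp
  have hY3 := M.mul_mem (M.mul_mem hω' hY2) (M.inv_mem hω')
  rw [zz_conj hfS (tvS_pres hfS _ _), hω'1, hω'2] at hY3
  have hY4 := M.mul_mem hY3 hY
  rw [zz_mul hfS h0 h0, hbb] at hY4
  have e2 : (ee b + ee b : Fin m ⊕ Fin m → F) = 0 := by
    ext i
    simp only [Pi.add_apply, Pi.zero_apply]
    linear_combination ((ee b : Fin m ⊕ Fin m → F) i) * h2
  rw [e2, zz_zero] at hY4
  convert hY4 using 2
  ring

/-- The exceptional case. -/
theorem lemC (h2 : (2 : F) = 0) (hR : ∀ u : Fin m ⊕ Fin m → F, IsRat F₀ u → ∀ c ∈ F₀, tvS hfS u c ∈ M)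
    {a b : Fin m ⊕ Fin m} (hab : idx a ≠ idx b) {β : F} (hY : zz hfS (ee a) (ee b) β β ∈ M)
    (hβ : β ^ 2 = β + 1) : tvS hfS (ee a) β ∈ M := by
  have hb' := (hfS).bilinear
  have h0 : sympForm m F (ee a) (ee b) = 0 := f_idx hab
  have h0' : sympForm m F (ee b) (ee a) = 0 := f_idx (Ne.symm hab)
  have h1 : sympForm m F (ee b) (ee a.swap) = 0 := f_idx (by simpa using Ne.symm hab)
  have h1' : sympForm m F (ee a.swap) (ee b) = 0 := f_idx (by simpa using hab)
  have hbb : sympForm m F (ee b) (ee b) = 0 := (hfS).alternating _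
  have haa : sympForm m F (ee a) (ee a) = 0 := (hfS).alternating _
  have hss : sympForm m F (ee a.swap) (ee a.swap) = 0 := (hfS).alternating _
  have hg := sg_rat hR (rat_ee b) (rat_ee a.swap) (c := 1) F₀.one_mem
  have hg1 : sg hfS (ee b) (ee a.swap) 1 ⋆ (ee a : Fin m ⊕ Fin m → F) = ee a + ee b := by
    rw [sg_one_apply hfS h1, h0, f_swap h2]
    simp
  have hg2 : sg hfS (ee b) (ee a.swap) 1 ⋆ (ee b : Fin m ⊕ Fin m → F) = ee b := by
    rw [sg_one_apply hfS h1, hbb, h1]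
    simp
  have hY1 := M.mul_mem (M.mul_mem hg hY) (M.inv_mem hg)
  rw [zz_conj hfS (sg_pres hfS _ _ _), hg1, hg2] at hY1
  have hab' : sympForm m F (ee a + ee b) (ee b) = 0 := by
    rw [hb'.add_left, h0, hbb, add_zero]
  -- the vector in the hyperbolic plane
  have hw : zz hfS (ee a + ee b) (ee b) β β ⋆ (ee a.swap : Fin m ⊕ Fin m → F) = ee a.swap + β • ee a := by
    rw [zz_apply hfS hab']
    simp only [hb'.add_right, f_swap' h2, h1', add_zero, mul_one, mul_zero]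
    ext i
    simp only [Pi.add_apply, Pi.smul_apply, smul_eq_mul, zero_add]
    linear_combination (β * (ee b : Fin m ⊕ Fin m → F) i) * h2
  have h3 := M.mul_mem (M.mul_mem hY1 (hR _ (rat_ee a.swap) 1 F₀.one_mem)) (M.inv_mem hY1)
  rw [tvS_conj hfS (zz_pres hfS _ _ _ _), hw] at h3
  have h4 : tvS hfS (ee a.swap + β • ee a) 1 ⋆ (ee a.swap : Fin m ⊕ Fin m → F) = β ^ 2 • (ee a.swap + ee a) := by
    rw [tvS_apply]
    simp only [hb'.add_right, hb'.smul_right, hss, f_swap' h2, mul_one, zero_add, one_mul]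
    ext i
    simp only [Pi.add_apply, Pi.smul_apply, smul_eq_mul]
    linear_combination (-((ee a.swap : Fin m ⊕ Fin m → F) i)) * hβ
  have h5 := M.mul_mem (M.mul_mem h3 (hR _ (rat_ee a.swap) 1 F₀.one_mem)) (M.inv_mem h3)
  rw [tvS_conj hfS (tvS_pres hfS _ _), h4, tvS_smul] at h5
  have h6 : (β ^ 2) ^ 2 * 1 = β := by
    rw [hβ]
    linear_combination hβ + (β + 1) * h2 
  rw [h6] at h5
  refine long_trans h2 hR ((rat_ee a.swap).add (rat_ee a)) (rat_ee a) ?_ h5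
  rw [hb'.add_left, f_swap' h2, haa, add_zero]
  exact one_ne_zero

/-- A long root element with non-rational parameter. -/
theorem exists_long (hm : 2 ≤ m) (h2 : (2 : F) = 0)
    (hR : ∀ u : Fin m ⊕ Fin m → F, IsRat F₀ u → ∀ c ∈ F₀, tvS hfS u c ∈ M)
    {v : Fin m ⊕ Fin m → F} (hv : tvS hfS v 1 ∈ M)
    (hne : ∃ k l, v k * cov (sympForm m F) v l ∉ F₀) :
    ∃ (a₁ : Fin m ⊕ Fin m) (s : F), s ∉ F₀ ∧ tvS hfS (ee a₁) s ∈ M := by
  obtain ⟨a₀, ha₀⟩ : ∃ a₀, v a₀ ∉ F₀ := by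
    by_contra hcon
    push Not at hcon
    obtain ⟨k, l, hkl⟩ := hne
    exact hkl (F₀.mul_mem (hcon k) (rat_cov hcon l))
  set a := a₀.swap with ha
  obtain ⟨t, ht⟩ := exists_other_idx hm (idx a)
  set b : Fin m ⊕ Fin m := Sum.inl t with hb
  have hab : idx a ≠ idx b := Ne.symm ht
  have hp : sympForm m F v (ee a) = v a₀ := by rw [f_e h2, ha, swap_swap']
  have h1 := lemA h2 hR hv hab
  have h3 := lemY h2 hR hab h1
  set p := sympForm m F v (ee a) with hpdef
  have hpn : p ∉ F₀ := by rw [hp]; exact ha₀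
  set β := (p ^ 2) ^ 2 with hβdef
  have hβ : β ∉ F₀ := fun h => hpn (mem_of_sq_mem h2 F₀ (mem_of_sq_mem h2 F₀ h))
  by_cases hcase : ∃ l ∈ F₀, l ≠ 0 ∧ β + l * β ^ 2 ∉ F₀
  · obtain ⟨l, hl, hl0, hn⟩ := hcase
    exact ⟨a, _, hn, lemB h2 hR hab h3 hl hl0⟩
  · push Not at hcase
    have hk := hcase 1 F₀.one_mem one_ne_zero
    rw [one_mul] at hk
    by_cases hk0 : β + β ^ 2 = 0
    · exfalso
      have h4 : β * (1 + β) = 0 := by linear_combination hk0
      rcases mul_eq_zero.mp h4 with h5 | h5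
      · exact hβ (by rw [h5]; exact F₀.zero_mem)
      · have h6 : β = -1 := by linear_combination h5
        exact hβ (by rw [h6]; exact F₀.neg_mem F₀.one_mem)
    by_cases hk1 : β + β ^ 2 = 1
    · have h4 : β ^ 2 = β + 1 := by linear_combination hk1 - β * h2
      exact ⟨a, β, hβ, lemC h2 hR hab h3 h4⟩
    · exfalso
      have hk2 := hcase _ hk hk0
      have hk3 := F₀.sub_mem hk2 hk
      have hne1 : β + β ^ 2 - 1 ≠ 0 := fun h => hk1 (sub_eq_zero.mp h)
      have hmem1 : β + β ^ 2 - 1 ∈ F₀ := F₀.sub_mem hk F₀.one_mem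
      have h5 := F₀.mul_mem (F₀.inv_mem hmem1) hk3
      have h6 : (β + β ^ 2 - 1)⁻¹ * (β + (β + β ^ 2) * β ^ 2 - (β + β ^ 2)) = β ^ 2 := by
        have e : β + (β + β ^ 2) * β ^ 2 - (β + β ^ 2) = (β + β ^ 2 - 1) * β ^ 2 := by ring
        rw [e, inv_mul_cancel_left₀ hne1]
      rw [h6] at h5
      exact hβ (mem_of_sq_mem h2 F₀ h5)

/-- All long root elements. -/
theorem all_long (hm : 2 ≤ m) (h2 : (2 : F) = 0) {r : ℕ} (hr : r.Prime)
    (hcard : Fintype.card F = Nat.card F₀ ^ r)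
    (hR : ∀ u : Fin m ⊕ Fin m → F, IsRat F₀ u → ∀ c ∈ F₀, tvS hfS u c ∈ M)
    {a₁ : Fin m ⊕ Fin m} {s : F} (hs : s ∉ F₀) (h : tvS hfS (ee a₁) s ∈ M)
    (a : Fin m ⊕ Fin m) (c : F) : tvS hfS (ee a) c ∈ M := by
  classical
  have hb' := (hfS).bilinear
  let AL : F → Prop := fun c => ∀ a, tvS hfS (ee a) c ∈ M
  have hsAL : AL s := fun a => long_all hm h2 hR h
  have hadd : ∀ {x y : F}, AL x → AL y → AL (x + y) := fun {x y} hx hy a => by
    rw [← tvS_add]
    exact M.mul_mem (hx a) (hy a)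
  have hF0 : ∀ {x : F}, x ∈ F₀ → AL x := fun {x} hx a => hR _ (rat_ee a) _ hx
  have hscale : ∀ {μ x : F}, μ ∈ F₀ → AL x → AL (μ * x) := by
    intro μ x hμ hx a
    by_cases h0 : μ = 0
    · rw [h0, zero_mul]
      exact hF0 F₀.zero_mem a
    · obtain ⟨ν, hν, e⟩ := exists_sqrt_sub h2 F₀ μ hμ
      have hν0 : ν ≠ 0 := by
        rintro rfl
        apply h0
        rw [← e]
        ring
      rw [← e]
      exact long_scale h2 hR hν hν0 (hx a)
  have hneg : ∀ {x : F}, AL x → AL (-x) := fun {x} hx a => by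
    rw [← tvS_inv]
    exact M.inv_mem (hx a)
  have hsg : ∀ {x : F}, AL x → ∀ {a b : Fin m ⊕ Fin m}, idx a ≠ idx b → sg hfS (ee a) (ee b) x ∈ M := by
    intro x hx a b hab
    exact M.mul_mem (M.mul_mem (long_pair h2 hR hab (hx a)) (hneg hx a)) (hneg hx b)
  obtain ⟨t, ht⟩ := exists_other_idx hm (idx a₁)
  set b₁ : Fin m ⊕ Fin m := Sum.inl t with hb₁
  have hab₁ : idx a₁ ≠ idx b₁ := Ne.symm ht
  have hstep : ∀ {β : F}, AL β → AL (s * β) → AL (s ^ 2 * β) := by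
    intro β h1 h3
    have hg := hsg hsAL (a := a₁) (b := b₁.swap) (by simpa using hab₁)
    have e1 : sg hfS (ee a₁) (ee b₁.swap) s ⋆ (ee b₁ : Fin m ⊕ Fin m → F) = ee b₁ + s • ee a₁ := by
      rw [sg_apply hfS (f_idx (by simpa using hab₁)), f_idx (Ne.symm hab₁), f_swap h2]
      simp
    have h4 := M.mul_mem (M.mul_mem hg (h1 b₁)) (M.inv_mem hg)
    rw [tvS_conj hfS (sg_pres hfS _ _ _), e1] at h4
    have h5 : sg hfS (ee b₁) (s • ee a₁) β ∈ M := by
      have e2 : sg hfS (ee b₁) (s • ee a₁) β = sg hfS ((1 : F) • ee b₁) (s • ee a₁) β := by rw [one_smul]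
      rw [e2, sg_smul hfS (f_idx (Ne.symm hab₁)), one_mul]
      exact hsg h3 (Ne.symm hab₁)
    have h6 : tvS hfS (s • ee a₁) (-β) ∈ M := by
      have e : sg hfS (ee b₁) (s • ee a₁) β =
          tvS hfS (ee b₁ + s • ee a₁) β * tvS hfS (ee b₁) (-β) * tvS hfS (s • ee a₁) (-β) := rfl
      rw [e] at h5
      have h7 := M.mul_mem (M.inv_mem (M.mul_mem h4 (hneg h1 b₁))) h5
      rwa [inv_mul_cancel_left] at h7
    rw [tvS_smul] at h6
    have h8 := M.inv_mem h6
    rw [tvS_inv] at h8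
    have e3 : -(s ^ 2 * -β) = s ^ 2 * β := by ring
    rw [e3] at h8
    exact fun a => long_all hm h2 hR h8
  have hpow : ∀ n : ℕ, ∀ x ∈ F₀, AL (x * s ^ n) := by
    intro n
    induction n using Nat.twoStepInduction with
    | zero =>
      intro x hx
      rw [pow_zero, mul_one]
      exact hF0 hx
    | one =>
      intro x hx
      rw [pow_one]
      exact hscale hx hsAL
    | more n ih1 ih2 =>
      intro x hx
      have h3 := hstep (ih1 x hx) (by
        have e : s * (x * s ^ n) = x * s ^ (n + 1) := by ring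
        rw [e]
        exact ih2 x hx)
      have e : s ^ 2 * (x * s ^ n) = x * s ^ (n + 2) := by ring
      rw [e] at h3
      exact h3
  have hfr : Module.finrank F₀ F = r := by
    have h1 : Nat.card F = Nat.card F₀ ^ Module.finrank F₀ F := Module.natCard_eq_pow_finrank
    rw [Nat.card_eq_fintype_card, hcard] at h1
    exact (Nat.pow_right_injective (Finite.one_lt_card (α := F₀))) h1.symm
  let E : IntermediateField F₀ F := IntermediateField.adjoin F₀ {s}
  have hsE : s ∈ E := IntermediateField.mem_adjoin_simple_self F₀ s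
  have htower := Module.finrank_mul_finrank F₀ E F
  rw [hfr] at htower
  have hbig : E = ⊤ := by
    have hd : Module.finrank F₀ E ∣ r := ⟨_, htower.symm⟩
    rcases (Nat.dvd_prime hr).mp hd with h1 | h1
    · exfalso
      have h3 := IntermediateField.finrank_eq_one_iff.mp h1
      rw [h3, IntermediateField.mem_bot] at hsE
      obtain ⟨y, hy⟩ := hsE
      apply hs
      rw [← hy]
      exact y.2
    · rw [h1] at htower
      have hr0 := hr.pos
      have h3 : Module.finrank E F = 1 := by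
        have h4 : r * Module.finrank E F = r * 1 := by rw [htower, mul_one]
        exact Nat.eq_of_mul_eq_mul_left hr0 h4
      exact IntermediateField.finrank_eq_one_iff_eq_top.mp h3
  have hint : IsIntegral F₀ s := Algebra.IsIntegral.isIntegral s
  have hsub : E.toSubalgebra = Algebra.adjoin F₀ {s} :=
    IntermediateField.adjoin_simple_toSubalgebra_of_isAlgebraic hint.isAlgebraic
  have hc1 : c ∈ E := by
    rw [hbig]
    trivial
  have hc2 : c ∈ Algebra.adjoin F₀ {s} := by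
    rw [← hsub]
    exact hc1
  rw [Algebra.adjoin_singleton_eq_range_aeval] at hc2
  obtain ⟨p, hp⟩ := hc2
  have hAL : AL c := by
    rw [← hp]
    show AL (Polynomial.aeval s p)
    rw [Polynomial.aeval_eq_sum_range]
    refine Finset.sum_induction _ AL (fun _ _ => hadd) (hF0 F₀.zero_mem) ?_
    intro i _
    exact hpow i _ (p.coeff i).2
  exact hAL a

/-- **The core of the symplectic case in even characteristic.** -/
theorem core_sp4 (hm : 2 ≤ m) (h2 : (2 : F) = 0) {r : ℕ} (hr : r.Prime)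
    (hcard : Fintype.card F = Nat.card F₀ ^ r)
    (hR : ∀ u : Fin m ⊕ Fin m → F, IsRat F₀ u → ∀ c ∈ F₀, tvS hfS u c ∈ M)
    {g : GL (Fin m ⊕ Fin m) F} (hgM : g ∈ M) (hgS : g ∈ spGL m F)
    (hgK : g ∉ (Matrix.GeneralLinearGroup.map (F₀.subtype : F₀ →+* F)).range ⊔ scalars (Fin m ⊕ Fin m) F) :
    spGL m F ≤ M := by
  obtain ⟨u, hu, k, l, hkl⟩ : ∃ u : Fin m ⊕ Fin m → F, IsRat F₀ u ∧ ∃ k l,
      (g ⋆ u) k * cov (sympForm m F) (g ⋆ u) l ∉ F₀ := by
    by_contra hcon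
    push Not at hcon
    exact hgK (mem_sup_of_conj_rat hm hgS hcon)
  have ht : tvS hfS (g ⋆ u) 1 ∈ M := by
    have := M.mul_mem (M.mul_mem hgM (hR u hu 1 F₀.one_mem)) (M.inv_mem hgM)
    rwa [tvS_conj hfS hgS] at this
  obtain ⟨a₁, s, hs, h1⟩ := exists_long hm h2 hR ht ⟨k, l, hkl⟩
  have hL := all_long hm h2 hr hcard hR hs h1
  apply spGL_le
  intro v c
  refine mem_TS (F₀ := F₀) hm hR (fun {a b} hab x => ?_) v c
  exact M.mul_mem (M.mul_mem (long_pair h2 hR hab (hL a x)) (hL a _)) (hL b _)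

end Core

section Final

variable {F : Type*} [Field F] [Fintype F] {m : ℕ} {F₀ : Subfield F}

local notation "hfS" => (sympForm_isSymplectic (m := m) (F := F))

theorem subfield_sp4_isMaximalIn (hm : 2 ≤ m) (h2 : (2 : F) = 0) {r : ℕ} (hr : r.Prime) (hcard : Fintype.card F = Nat.card F₀ ^ r)
    (P : GL (Fin m ⊕ Fin m) F) (ζ : F) (hζ : ζ ≠ 0)
    (hP : IsFormRationalStructure (sympForm m F) F₀ ζ P) :
    IsMaximalIn (spGL m F) (subfieldSubgroup F₀ P ⊓ spGL m F) := by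
  classical
  obtain ⟨Q₁, hQ₁, hQ⟩ := exists_frame P ζ hζ hP
  set K₀ := (Matrix.GeneralLinearGroup.map (F₀.subtype : F₀ →+* F)).range ⊔ scalars (Fin m ⊕ Fin m) F with hK₀
  have hQ₁K : Q₁ ∈ K₀ := Subgroup.mem_sup_left hQ₁
  set Q := P * Q₁ with hQdef
  have hmemS : ∀ x, x ∈ K₀ → Q * x * Q⁻¹ ∈ subfieldSubgroup F₀ P := by
    intro x hx
    refine ⟨Q₁ * x * Q₁⁻¹, K₀.mul_mem (K₀.mul_mem hQ₁K hx) (K₀.inv_mem hQ₁K), ?_⟩
    simp [MulAut.conj_apply, hQdef]
    group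
  have hmemS' : ∀ x, x ∈ subfieldSubgroup F₀ P → Q⁻¹ * x * Q ∈ K₀ := by
    rintro _ ⟨y, hy, rfl⟩
    have : Q⁻¹ * ((MulAut.conj P).toMonoidHom y) * Q = Q₁⁻¹ * y * Q₁ := by
      simp [MulAut.conj_apply, hQdef]
      group
    rw [this]
    exact K₀.mul_mem (K₀.mul_mem (K₀.inv_mem hQ₁K) hy) hQ₁K
  clear_value Q
  have hmv : ∀ (g h : GL (Fin m ⊕ Fin m) F) (x : Fin m ⊕ Fin m → F), (g * h) ⋆ x = g ⋆ (h ⋆ x) := by
    intro g h x
    rw [Units.val_mul, Matrix.mulVec_mulVec]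
  have hQQ : ∀ y, Q ⋆ (Q⁻¹ ⋆ y) = y := by
    intro y
    rw [← hmv, mul_inv_cancel, Units.val_one, Matrix.one_mulVec]
  have hsp1 : ∀ x, x ∈ spGL m F → Q⁻¹ * x * Q ∈ spGL m F := by
    intro x hx u w
    show sympForm m F ((Q⁻¹ * x * Q) ⋆ u) ((Q⁻¹ * x * Q) ⋆ w) = sympForm m F u w
    have e : ∀ y, (Q⁻¹ * x * Q) ⋆ y = Q⁻¹ ⋆ (x ⋆ (Q ⋆ y)) := fun y => by rw [hmv, hmv]
    rw [← hQ ((Q⁻¹ * x * Q) ⋆ u) ((Q⁻¹ * x * Q) ⋆ w), e, e, hQQ, hQQ, ← hQ u w]
    congr 1
    exact hx _ _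
  have hsp2 : ∀ x, x ∈ spGL m F → Q * x * Q⁻¹ ∈ spGL m F := by
    intro x hx u w
    show sympForm m F ((Q * x * Q⁻¹) ⋆ u) ((Q * x * Q⁻¹) ⋆ w) = sympForm m F u w
    apply mul_left_cancel₀ hζ
    have e : ∀ y, (Q * x * Q⁻¹) ⋆ y = Q ⋆ (x ⋆ (Q⁻¹ ⋆ y)) := fun y => by rw [hmv, hmv]
    rw [e, e, hQ]
    have h1 := hQ (Q⁻¹ ⋆ u) (Q⁻¹ ⋆ w)
    rw [hQQ, hQQ] at h1
    rw [h1]
    exact hx _ _
  constructor
  · refine lt_of_le_of_ne inf_le_right ?_
    intro heq
    obtain ⟨c, hc⟩ : ∃ a, a ∉ F₀ := by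
      by_contra hall
      push Not at hall
      have h1 : Nat.card F₀ = Nat.card F :=
        Nat.card_congr (Equiv.subtypeUnivEquiv hall)
      rw [Nat.card_eq_fintype_card (α := F), hcard] at h1
      have h2 : 1 < Nat.card F₀ := Finite.one_lt_card
      have h3 : 2 ≤ r := hr.two_le
      have h4 : Nat.card F₀ ^ 1 < Nat.card F₀ ^ r := Nat.pow_lt_pow_right h2 (by omega)
      rw [pow_one] at h4
      omega
    let a : Fin m ⊕ Fin m := Sum.inl ⟨0, by omega⟩
    have h1 : tvS hfS (ee a) c ∈ spGL m F := tvS_pres hfS _ _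
    have h2 := hsp2 _ h1
    rw [← heq] at h2
    have h3 := hmemS' _ h2.1
    have h4 : Q⁻¹ * (Q * tvS hfS (ee a) c * Q⁻¹) * Q = tvS hfS (ee a) c := by group
    rw [h4] at h3
    exact hc (tvS_entry_mem_of_mem_sup h3)
  · intro M hHM hMG
    by_cases hMH : M ≤ subfieldSubgroup F₀ P ⊓ spGL m F
    · exact Or.inl (le_antisymm hMH hHM)
    right
    apply le_antisymm hMG
    obtain ⟨g, hgM, hgH⟩ := SetLike.not_le_iff_exists.mp hMH
    set M' : Subgroup (GL (Fin m ⊕ Fin m) F) := M.comap (MulAut.conj Q).toMonoidHom with hM'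
    have hM'mem : ∀ x, x ∈ M' ↔ Q * x * Q⁻¹ ∈ M := fun x => Iff.rfl
    have hR : ∀ u : Fin m ⊕ Fin m → F, IsRat F₀ u → ∀ c ∈ F₀, tvS hfS u c ∈ M' := by
      intro u hu c hc
      rw [hM'mem]
      apply hHM
      exact ⟨hmemS _ (tvS_mem_sup hu hc), hsp2 _ (tvS_pres hfS _ _)⟩
    set g' := Q⁻¹ * g * Q with hg'
    have hg'M : g' ∈ M' := by
      rw [hM'mem, hg']
      have : Q * (Q⁻¹ * g * Q) * Q⁻¹ = g := by group
      rwa [this]
    have hg'S : g' ∈ spGL m F := hsp1 _ (hMG hgM)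
    have hg'K : g' ∉ K₀ := by
      intro hmem
      apply hgH
      refine ⟨?_, hMG hgM⟩
      have h1 := hmemS _ hmem
      have : Q * g' * Q⁻¹ = g := by rw [hg']; group
      rwa [this] at h1
    have hle := core_sp4 hm h2 hr hcard hR hg'M hg'S hg'K
    intro x hx
    have h1 := hle (hsp1 _ hx)
    have h3 := (hM'mem _).1 h1
    have h4 : Q * (Q⁻¹ * x * Q) * Q⁻¹ = x := by group
    rwa [h4] at h3

end Final

end Cfsg.Agent.Lib.Sp4E97B
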