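import Mathlib
import Cfsg.Agent.S5652
import Cfsg.Agent.Lib.SpSubfield

/-!
# The orthogonal groups in Sp_2m(q), q even, q ≥ 4, all m ≥ 2

A variant of `Cfsg.Agent.S5652` (which needs m ≥ 7), valid down to m = 2 when q ≥ 4.
-/

set_option autoImplicit false
set_option linter.unusedSectionVars false
set_option linter.unusedVariables false
open Cfsg

namespace Cfsg.Agent.Lib.Sp4E97D

open Matrix Cfsg.Geo Cfsg.Agent.Lib.TvGL Cfsg.Agent.Lib.SympT Cfsg.Agent.S5652

local notation:70 g:71 " ⋆ " x:70 => Matrix.mulVec (Units.val g) x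

section Core

variable {ι : Type} [Fintype ι] [DecidableEq ι] {F : Type*} [Field F] [Fintype F]
  {f : (ι → F) → (ι → F) → F} (hf : IsSymplecticForm f)
  {Q : (ι → F) → F} (hQ : QF f Q) (h2 : ∀ a : F, a + a = 0) (hsq : ∀ a : F, ∃ b : F, b * b = a)

omit hf in
theorem exists_ne3 (hq : 4 ≤ Fintype.card F) (a b c : F) : ∃ t, t ≠ a ∧ t ≠ b ∧ t ≠ c := by
  classical
  by_contra h
  push Not at h
  have h1 : (Finset.univ : Finset F) ⊆ {a, b, c} := by
    intro t _
    simp only [Finset.mem_insert, Finset.mem_singleton]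
    by_cases h3 : t = a
    · exact Or.inl h3
    by_cases h4 : t = b
    · exact Or.inr (Or.inl h4)
    exact Or.inr (Or.inr (h t h3 h4))
  have h3 := Finset.card_le_card h1
  have h4 : ({a, b, c} : Finset F).card ≤ 3 := Finset.card_le_three
  rw [Finset.card_univ] at h3
  omega

include hf in
theorem avoid3 (hq : 4 ≤ Fintype.card F) {x y w : ι → F} (hx : x ≠ 0) (hy : y ≠ 0) (hw : w ≠ 0) :
    ∃ z, f x z ≠ 0 ∧ f y z ≠ 0 ∧ f w z ≠ 0 := by
  classical
  have hb := hf.bilinear
  obtain ⟨a, ha⟩ := (hf.nondegenerate x hx).2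
  obtain ⟨b, hb'⟩ := (hf.nondegenerate y hy).2
  obtain ⟨z₀, -, h1, h3⟩ := exists_two hf ⊤ ⟨a, trivial, ha⟩ ⟨b, trivial, hb'⟩
  by_cases h4 : f w z₀ = 0
  · obtain ⟨c, hc⟩ := (hf.nondegenerate w hw).2
    obtain ⟨t, ht0, ht1, ht2⟩ := exists_ne3 hq 0 (- f x z₀ / f x c) (- f y z₀ / f y c)
    refine ⟨z₀ + t • c, ?_, ?_, ?_⟩
    · rw [hb.add_right, hb.smul_right]
      intro h5
      by_cases h6 : f x c = 0
      · rw [h6, mul_zero, add_zero] at h5
        exact h1 h5
      · apply ht1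
        field_simp
        linear_combination h5
    · rw [hb.add_right, hb.smul_right]
      intro h5
      by_cases h6 : f y c = 0
      · rw [h6, mul_zero, add_zero] at h5
        exact h3 h5
      · apply ht2
        field_simp
        linear_combination h5
    · rw [hb.add_right, hb.smul_right, h4, zero_add]
      exact mul_ne_zero ht0 hc
  · exact ⟨z₀, h1, h3, h4⟩

include hf hQ hsq in
theorem exists_z (hq : 4 ≤ Fintype.card F) (hn : 4 ≤ Fintype.card ι) {x y : ι → F} (hx : x ≠ 0)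
    (hy : y ≠ 0) (δ : F) : ∃ z, Q z = δ ∧ f x z ≠ 0 ∧ f y z ≠ 0 := by
  classical
  have hb := hf.bilinear
  obtain ⟨a, ha⟩ := (hf.nondegenerate x hx).2
  obtain ⟨b, hb'⟩ := (hf.nondegenerate y hy).2
  obtain ⟨z₀, -, h1, h3⟩ := exists_two hf ⊤ ⟨a, trivial, ha⟩ ⟨b, trivial, hb'⟩
  set S : Submodule F (ι → F) := Submodule.span F (({x, y, z₀} : Finset (ι → F)) : Set (ι → F)) with hS
  have hfS : Module.finrank F S ≤ 3 :=
    (finrank_span_finset_le_card (R := F) ({x, y, z₀} : Finset (ι → F))).trans Finset.card_le_three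
  have hP : perp hf S ≠ ⊥ := by
    intro h0
    have := finrank_perp hf S
    rw [h0, finrank_bot] at this
    omega
  obtain ⟨e, he, he0⟩ := Submodule.exists_mem_ne_zero_of_ne_bot hP
  have hxe : f x e = 0 := (mem_perp hf).1 he x (Submodule.subset_span (by simp))
  have hye : f y e = 0 := (mem_perp hf).1 he y (Submodule.subset_span (by simp))
  have hze : f z₀ e = 0 := (mem_perp hf).1 he z₀ (Submodule.subset_span (by simp))
  by_cases hQe : Q e = 0
  · obtain ⟨z₁, h4, h5, h6⟩ := avoid3 hf hq hx hy he0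
    have h7 : f z₁ e ≠ 0 := by
      rw [hf.skew]
      exact neg_ne_zero.2 h6
    refine ⟨z₁ + ((δ - Q z₁) / f z₁ e) • e, ?_, ?_, ?_⟩
    · rw [hQ.add, hQ.smul, hQe, hb.smul_right]
      field_simp
      ring
    · rw [hb.add_right, hb.smul_right, hxe, mul_zero, add_zero]
      exact h4
    · rw [hb.add_right, hb.smul_right, hye, mul_zero, add_zero]
      exact h5
  · obtain ⟨μ, hμ⟩ := hsq ((δ - Q z₀) / Q e)
    refine ⟨z₀ + μ • e, ?_, ?_, ?_⟩
    · rw [hQ.add, hQ.smul, hb.smul_right, hze, mul_zero, add_zero, pow_two, hμ]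
      field_simp
      ring
    · rw [hb.add_right, hb.smul_right, hxe, mul_zero, add_zero]
      exact h1
    · rw [hb.add_right, hb.smul_right, hye, mul_zero, add_zero]
      exact h3

variable {M : Subgroup (GL ι F)}

include hf hQ h2 hsq in
theorem same_of_value' (hq : 4 ≤ Fintype.card F) (hn : 4 ≤ Fintype.card ι)
    (hM : M ≤ preserving (glToMat ι F) f)
    (hrefl : ∀ v, Q v ≠ 0 → tvS hf v (Q v)⁻¹ ∈ M) {x y : ι → F} (hx : x ≠ 0) (hy : y ≠ 0)
    (hval : Q x = Q y) : Same hf M x y := by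
  obtain ⟨z, hz, hxz, hyz⟩ := exists_z hf hQ hsq hq hn hx hy (Q x)
  have h4 := same_of_pair hf hQ h2 hM hrefl (x := x) (y := z) hz.symm hxz
  have h5 := same_of_pair hf hQ h2 hM hrefl (x := y) (y := z) (hz.trans hval).symm hyz
  exact Same.trans hf h4 (Same.symm hf h5)

include hf hQ h2 hsq in
theorem exists_zz (hn : 4 ≤ Fintype.card ι) {a : ι → F} (ha0 : a ≠ 0) (β δ : F) :
    ∃ z, z ≠ 0 ∧ f a z = β ∧ Q z = δ := by
  classical
  have hb := hf.bilinear
  by_cases hβ : β = 0
  · subst hβ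
    have hfa : Module.finrank F (Submodule.span F {a}) = 1 := finrank_span_singleton ha0
    have hP := finrank_perp hf (Submodule.span F {a})
    rw [hfa] at hP
    have haP : ∀ e ∈ perp hf (Submodule.span F {a}), f a e = 0 := fun e he =>
      (mem_perp hf).1 he a (Submodule.mem_span_singleton_self a)
    by_cases hδ : δ = 0
    · subst hδ
      by_cases hQa : Q a = 0
      · exact ⟨a, ha0, hf.alternating a, hQa⟩
      · obtain ⟨e, he, hea⟩ : ∃ e ∈ perp hf (Submodule.span F {a}), e ∉ Submodule.span F {a} := by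
          by_contra hcon
          push Not at hcon
          have h1 := Submodule.finrank_mono (show perp hf (Submodule.span F {a}) ≤ Submodule.span F {a} from hcon)
          omega
        obtain ⟨μ, hμ⟩ := hsq (Q e / Q a)
        have hae := haP e he
        refine ⟨e + μ • a, ?_, ?_, ?_⟩
        · intro h0
          apply hea
          have h1 : e = (-μ) • a := by
            rw [neg_smul]
            exact eq_neg_of_add_eq_zero_left h0
          rw [h1]
          exact Submodule.smul_mem _ _ (Submodule.mem_span_singleton_self a)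
        · rw [hb.add_right, hb.smul_right, hae, hf.alternating, mul_zero, add_zero]
        · rw [hQ.add, hQ.smul, hb.smul_right, hf.skew e a, hae, neg_zero, mul_zero, add_zero, pow_two, hμ]
          have := h2 (Q e)
          field_simp
          linear_combination this
    · obtain ⟨e, he, hQe⟩ := exists_nonsing hf hQ (perp hf (Submodule.span F {a})) (by omega)
      obtain ⟨μ, hμ⟩ := hsq (δ / Q e)
      have hz : Q (μ • e) = δ := by
        rw [hQ.smul, pow_two, hμ]
        field_simp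
      refine ⟨μ • e, ?_, ?_, hz⟩
      · intro h0
        apply hδ
        rw [← hz, h0]
        have := hQ.smul 0 0
        simpa using this
      · rw [hb.smul_right, haP e he, mul_zero]
  · obtain ⟨z₁, hz₁⟩ := (hf.nondegenerate a ha0).2
    set z₀ : ι → F := (β / f a z₁) • z₁ with hz₀
    have hz₀a : f a z₀ = β := by
      rw [hz₀, hb.smul_right]
      field_simp
    clear_value z₀
    set S : Submodule F (ι → F) := Submodule.span F (({a, z₀} : Finset (ι → F)) : Set (ι → F)) with hS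
    have hfS : Module.finrank F S ≤ 2 :=
      (finrank_span_finset_le_card (R := F) ({a, z₀} : Finset (ι → F))).trans Finset.card_le_two
    have hPS := finrank_perp hf S
    have haP : ∀ e ∈ perp hf S, f a e = 0 := fun e he =>
      (mem_perp hf).1 he a (Submodule.subset_span (by simp))
    have hzP : ∀ e ∈ perp hf S, f z₀ e = 0 := fun e he =>
      (mem_perp hf).1 he z₀ (Submodule.subset_span (by simp))
    obtain ⟨e, he, hQe⟩ : ∃ e ∈ perp hf S, Q e ≠ 0 := by
      by_contra hcon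
      push Not at hcon
      have hle : perp hf S ≤ perp hf (perp hf S) := by
        intro y hy
        rw [mem_perp]
        intro w hw
        have h1 := hQ.add w y
        rw [hcon w hw, hcon y hy, hcon _ ((perp hf S).add_mem hw hy)] at h1
        simpa using h1.symm
      have h1 := Submodule.finrank_mono hle
      have h3 := finrank_perp hf (perp hf S)
      have heq : perp hf S = perp hf (perp hf S) := Submodule.eq_of_le_of_finrank_eq hle (by omega)
      have haS : a ∈ perp hf (perp hf S) := by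
        rw [mem_perp]
        intro w hw
        rw [hf.skew, haP w hw, neg_zero]
      rw [← heq] at haS
      have h4 := hzP a haS
      rw [hf.skew, hz₀a] at h4
      exact hβ (neg_eq_zero.1 h4)
    obtain ⟨μ, hμ⟩ := hsq ((δ - Q z₀) / Q e)
    have hfz : f a (z₀ + μ • e) = β := by
      rw [hb.add_right, hb.smul_right, haP e he, mul_zero, add_zero, hz₀a]
    refine ⟨z₀ + μ • e, ?_, hfz, ?_⟩
    · intro h0
      rw [h0, f_zero_right hb] at hfz
      exact hβ hfz.symm
    · rw [hQ.add, hQ.smul, hb.smul_right, hzP e he, mul_zero, add_zero, pow_two, hμ]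
      field_simp
      ring

include hf hQ h2 hsq in
theorem all_same' (hq : 4 ≤ Fintype.card F) (hn : 4 ≤ Fintype.card ι)
    {Q' : (ι → F) → F} (hQ' : QF f Q') {y₀ : ι → F} (hy₀ : Q' y₀ ≠ Q y₀)
    (hM : M ≤ preserving (glToMat ι F) f)
    (hrefl : ∀ v, Q v ≠ 0 → tvS hf v (Q v)⁻¹ ∈ M)
    (hrefl' : ∀ v, Q' v ≠ 0 → tvS hf v (Q' v)⁻¹ ∈ M)
    {v w : ι → F} (hv : v ≠ 0) (hw : w ≠ 0) : Same hf M v w := by
  obtain ⟨a, ha0, ha⟩ := exists_diff hf hQ h2 hsq hQ' hy₀
  obtain ⟨β, hβ⟩ := hsq (Q' w + Q v)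
  obtain ⟨z, hz0, hza, hz2⟩ := exists_zz hf hQ h2 hsq hn ha0 β (Q v)
  have hQ'z : Q' z = Q' w := by
    rw [ha, hz2, hza, hβ]
    have h6 := h2 (Q v)
    linear_combination h6
  have h4 := same_of_value' hf hQ h2 hsq hq hn hM hrefl hv hz0 hz2.symm
  have h5 := same_of_value' hf hQ' h2 hsq hq hn hM hrefl' hz0 hw hQ'z
  exact Same.trans hf h4 h5

include hf hQ h2 hsq in
theorem all_tv' (hq : 4 ≤ Fintype.card F) (hn : 4 ≤ Fintype.card ι)
    {Q' : (ι → F) → F} (hQ' : QF f Q') {y₀ : ι → F} (hy₀ : Q' y₀ ≠ Q y₀)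
    (hM : M ≤ preserving (glToMat ι F) f)
    (hrefl : ∀ v, Q v ≠ 0 → tvS hf v (Q v)⁻¹ ∈ M)
    (hrefl' : ∀ v, Q' v ≠ 0 → tvS hf v (Q' v)⁻¹ ∈ M)
    (w : ι → F) (d : F) : tvS hf w d ∈ M := by
  classical
  by_cases hw : w = 0
  · subst hw
    have h1 : tvS hf (0 : ι → F) d = 1 := by
      have h3 := tvS_smul hf 0 (0 : ι → F) d
      rw [zero_smul] at h3
      rw [h3]
      simpa using tvS_zero hf (0 : ι → F)
    rw [h1]
    exact M.one_mem
  by_cases hd : d = 0
  · subst hd
    rw [tvS_zero]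
    exact M.one_mem
  -- a nonsingular vector
  obtain ⟨v, -, hv⟩ := exists_nonsing hf hQ ⊤ (by
    rw [finrank_top, Module.finrank_fintype_fun_eq_card]
    omega)
  have hv0 : v ≠ 0 := by
    rintro rfl
    apply hv
    have := hQ.smul 0 0
    simpa using this
  obtain ⟨a, ha⟩ := hsq (d * Q v)
  have ha0 : a ≠ 0 := by
    rintro rfl
    simp only [mul_zero] at ha
    exact (mul_ne_zero hd hv) ha.symm
  have h1 : a • w ≠ 0 := smul_ne_zero ha0 hw
  have h3 := all_same' hf hQ h2 hsq hq hn hQ' hy₀ hM hrefl hrefl' hv0 h1 (Q v)⁻¹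
  have h4 := h3.1 (hrefl v hv)
  rw [tvS_smul] at h4
  have h5 : a ^ 2 * (Q v)⁻¹ = d := by
    rw [pow_two, ha]
    field_simp
  rwa [h5] at h4

include hf hQ h2 hsq in
/-- Two orthogonal independent vectors span a nonzero singular vector. -/
theorem exists_sing {e₁ e₂ : ι → F} (h0 : e₂ ≠ 0) (h1 : e₁ ≠ 0) (hind : ∀ μ : F, e₂ + μ • e₁ ≠ 0)
    (h12 : f e₂ e₁ = 0) : ∃ v : ι → F, v ≠ 0 ∧ Q v = 0 := by
  have hb := hf.bilinear
  by_cases hQ1 : Q e₁ = 0
  · exact ⟨e₁, h1, hQ1⟩
  · obtain ⟨μ, hμ⟩ := hsq (Q e₂ / Q e₁)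
    refine ⟨e₂ + μ • e₁, hind μ, ?_⟩
    rw [hQ.add, hQ.smul, hb.smul_right, h12, mul_zero, add_zero, pow_two, hμ]
    have := h2 (Q e₂)
    field_simp
    linear_combination this

end Core

theorem o_max {F : Type*} [Field F] [Fintype F] (m : ℕ) (hm : 2 ≤ m) (hq4 : 4 ≤ Fintype.card F) (heven : ¬ Odd (Fintype.card F)) (Q : (Fin m ⊕ Fin m → F) → F) (hQ : Cfsg.Geo.IsNondegenerateQuadraticForm Q) (hpol : ∀ u v, QuadraticMap.polar Q u v = Cfsg.sympForm m F u v) : Cfsg.Geo.IsMaximalIn (Cfsg.spGL m F) (Cfsg.Geo.quadSimilarityGroup Q ⊓ Cfsg.spGL m F) := by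
  classical
  have hS := sympForm_isSymplectic (m := m) (F := F)
  have hbil := hS.bilinear
  have hchar : ringChar F = 2 := by
    rw [FiniteField.even_card_iff_char_two]
    exact Nat.not_odd_iff.mp heven
  have h2' : ((2 : ℕ) : F) = 0 := by
    have := ringChar.Nat.cast_ringChar (R := F)
    rwa [hchar] at this
  have h2 : ∀ a : F, a + a = 0 := by
    intro a
    have : a + a = ((2 : ℕ) : F) * a := by
      push_cast
      ring
    rw [this, h2', zero_mul]
  have hsq : ∀ a : F, ∃ b : F, b * b = a := by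
    intro a
    obtain ⟨b, hb⟩ := FiniteField.isSquare_of_char_two hchar a
    exact ⟨b, hb.symm⟩
  have hsub : ∀ a b : F, a - b = a + b := by
    intro a b
    have := h2 b
    rw [sub_eq_add_neg, neg_eq_of_add_eq_zero_left this]
  have hQF : QF (sympForm m F) Q := by
    refine ⟨hQ.smul, ?_⟩
    intro u v
    rw [← hpol]
    show Q (u + v) = Q u + Q v + (Q (u + v) - Q u - Q v)
    ring
  have hcard : Fintype.card (Fin m ⊕ Fin m) = 2 * m := by
    rw [Fintype.card_sum, Fintype.card_fin]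
    ring
  have hn : 4 ≤ Fintype.card (Fin m ⊕ Fin m) := by
    rw [hcard]
    omega
  have hbil' := hS.bilinear
  have hiso : ∀ g : GL (Fin m ⊕ Fin m) F, g ∈ quadSimilarityGroup Q → g ∈ spGL m F →
      ∀ x, Q (g ⋆ x) = Q x := by
    intro g hg hgS x
    obtain ⟨c, hc⟩ := hg
    -- scaling factor one via the polar form
    obtain ⟨u, v, huv⟩ : ∃ u v, sympForm m F u v ≠ 0 := by
      have hne : Nonempty (Fin m) := ⟨⟨0, by omega⟩⟩
      obtain ⟨i⟩ := hne
      have h0 : (Pi.single (Sum.inl i) 1 : Fin m ⊕ Fin m → F) ≠ 0 := by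
        intro h
        have := congrFun h (Sum.inl i)
        simp at this
      obtain ⟨-, w, hw⟩ := hS.nondegenerate _ h0
      exact ⟨_, w, hw⟩
    have hgp := pres_apply hgS u v
    have h1 := hQF.add (g ⋆ u) (g ⋆ v)
    rw [← Matrix.mulVec_add, hc, hc, hc, hgp, hQF.add] at h1
    have h3 : ((c : F) - 1) * sympForm m F u v = 0 := by
      linear_combination h1
    have h4 : (c : F) = 1 := by
      have := (mul_eq_zero.1 h3).resolve_right huv
      exact sub_eq_zero.1 this
    rw [hc, h4, one_mul]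
  have hrefl : ∀ v, Q v ≠ 0 → tvS hS v (Q v)⁻¹ ∈ quadSimilarityGroup Q ⊓ spGL m F := by
    intro v hv
    refine ⟨⟨1, fun x => ?_⟩, tvS_pres hS _ _⟩
    rw [refl_pres hS hQF h2 hv]
    simp
  refine ⟨?_, ?_⟩
  · refine lt_of_le_of_ne inf_le_right ?_
    intro heq
    -- a non-zero singular vector
    obtain ⟨v, hv0, hv⟩ : ∃ v : Fin m ⊕ Fin m → F, v ≠ 0 ∧ Q v = 0 := by
      let i : Fin m := ⟨0, by omega⟩
      let j : Fin m := ⟨1, by omega⟩
      have hij : (Sum.inl i : Fin m ⊕ Fin m) ≠ Sum.inl j := by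
        intro h
        have := Sum.inl.inj h
        simp [i, j, Fin.ext_iff] at this
      have hi0 : (Pi.single (Sum.inl i) 1 : Fin m ⊕ Fin m → F) ≠ 0 := by
        intro h
        have := congrFun h (Sum.inl i)
        simp at this
      have hj0 : (Pi.single (Sum.inl j) 1 : Fin m ⊕ Fin m → F) ≠ 0 := by
        intro h
        have := congrFun h (Sum.inl j)
        simp at this
      refine exists_sing hS hQF h2 hsq hj0 hi0 ?_ ?_
      · intro μ h
        have := congrFun h (Sum.inl j)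
        simp [Pi.single_apply, hij.symm] at this
      · exact Cfsg.Agent.Lib.SpSubfield.f_ee_ee_zero (a := Sum.inl j) (b := Sum.inl i) (by simp)
    obtain ⟨x, hx⟩ := (hS.nondegenerate v hv0).1
    have hmem : tvS hS v 1 ∈ quadSimilarityGroup Q ⊓ spGL m F := by
      rw [heq]
      exact tvS_pres hS _ _
    have h1 := hiso _ hmem.1 hmem.2 x
    rw [tvS_apply, hQF.add, hQF.smul, hv, hbil'.smul_right] at h1
    have h3 : (1 * sympForm m F x v) * (1 * sympForm m F x v) = 0 := by
      have : (1 * sympForm m F x v) * (1 * sympForm m F x v) = Q x + (1 * sympForm m F x v) ^ 2 * 0 + (1 * sympForm m F x v) * sympForm m F x v - Q x := by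
        ring
      rw [this, sub_eq_zero]
      simpa using h1
    simp only [one_mul, mul_self_eq_zero] at h3
    exact hx h3
  · intro M hHM hMS
    by_cases hMH : M ≤ quadSimilarityGroup Q ⊓ spGL m F
    · exact Or.inl (le_antisymm hMH hHM)
    right
    refine le_antisymm hMS ?_
    obtain ⟨g, hgM, hgH⟩ := SetLike.not_le_iff_exists.1 hMH
    have hgS : g ∈ spGL m F := hMS hgM
    have hg' : ¬ ∀ y, Q (g ⋆ y) = Q y := by
      intro h
      apply hgH
      refine ⟨⟨1, fun x => ?_⟩, hgS⟩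
      rw [h]
      simp
    push Not at hg'
    obtain ⟨y, hy⟩ := hg'
    let Q' : (Fin m ⊕ Fin m → F) → F := fun x => Q (g⁻¹ ⋆ x)
    have hgi : g⁻¹ ∈ spGL m F := (spGL m F).inv_mem hgS
    have hQ' : QF (sympForm m F) Q' := by
      refine ⟨?_, ?_⟩
      · intro c v
        show Q (g⁻¹ ⋆ (c • v)) = c ^ 2 * Q (g⁻¹ ⋆ v)
        rw [Matrix.mulVec_smul, hQF.smul]
      · intro u v
        show Q (g⁻¹ ⋆ (u + v)) = Q (g⁻¹ ⋆ u) + Q (g⁻¹ ⋆ v) + sympForm m F u v
        rw [Matrix.mulVec_add, hQF.add, pres_apply hgi]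
    have hy' : Q' (g ⋆ y) ≠ Q (g ⋆ y) := by
      show Q (g⁻¹ ⋆ (g ⋆ y)) ≠ _
      rw [inv_mulVec_GL]
      exact Ne.symm hy
    have hrefl1 : ∀ v, Q v ≠ 0 → tvS hS v (Q v)⁻¹ ∈ M := fun v hv => hHM (hrefl v hv)
    have hrefl2 : ∀ v, Q' v ≠ 0 → tvS hS v (Q' v)⁻¹ ∈ M := by
      intro v hv
      have h1 := hrefl1 (g⁻¹ ⋆ v) hv
      have h3 := M.mul_mem (M.mul_mem hgM h1) (M.inv_mem hgM)
      rw [tvS_conj hS hgS, mulVec_inv_GL] at h3
      exact h3
    exact spGL_le M (fun v c => all_tv' hS hQF h2 hsq hq4 hn hQ' hy' hMS hrefl1 hrefl2 v c)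


end Cfsg.Agent.Lib.Sp4E97D
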