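-- Shared library: the Schur multiplier of Sp6(2): a presentation, the double cover and the bound on kernels.
import Mathlib
import Cfsg.Agent.Lib.Sp62Tc0
import Cfsg.Agent.Lib.Sp62C2
import Cfsg.Agent.Lib.Sp62C3
import Cfsg.Agent.Lib.Sp62Loop
import Cfsg.Agent.Lib.Sp62Words
import Cfsg.Agent.Lib.U33Main
import Cfsg.Agent.Lib.SchurAsm
import Cfsg.Agent.Lib.SchurFib
import Cfsg.Agent.Lib.SpOrder
import Cfsg.Agent.Lib.SpCenter

set_option autoImplicit false
set_option maxRecDepth 100000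
set_option linter.unusedVariables false
set_option linter.unusedSectionVars false

namespace Cfsg.Agent.Lib.Sp62Mult

open Cfsg Matrix Subgroup Cfsg.Agent.Lib.SchurCoset46 Cfsg.Agent.Lib.SchurPack Cfsg.Agent.Lib.SchurPackC
  Cfsg.Agent.Lib.SchurPerf Cfsg.Agent.Lib.SchurRep Cfsg.Agent.Lib.SchurTower Cfsg.Agent.Lib.SpBasic
  Cfsg.Agent.Lib.Sp62Words

/-- The index set. -/
abbrev Idx := Fin 3 ⊕ Fin 3

/-- Matrices. -/
abbrev MM := Matrix Idx Idx (ZMod 2)

/-- The group. -/
abbrev S0 := Sp (Fin 3) (ZMod 2)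

/-- The positions. -/
def ix : Idx → ℕ
  | .inl i => i.1
  | .inr i => 3 + i.1

/-- Matrices by their codes. -/
def dec (c : ℕ) : MM := fun i j => ((c >>> (6 * ix i + ix j)) % 2 : ℕ)

/-- The letters. -/
def lM (l : ℕ) : MM := dec (lC.getD l 0)

theorem card_S0 : Nat.card S0 = 240 * 6048 := by
  rw [Cfsg.Agent.Lib.SpOrder.card_Sp]
  simp only [ZMod.card, Finset.prod_range_succ, Finset.prod_range_zero]
  norm_num

/-- The representation relation. -/
def Rp (g : S0) (x : MM) : Prop := (g : MM) = x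

theorem Rp_mul {g h : S0} {x y : MM} (h1 : Rp g x) (h2 : Rp h y) : Rp (g * h) (x * y) := by
  unfold Rp at *
  rw [← h1, ← h2]
  rfl

theorem Rp_inj {g h : S0} {x : MM} (h1 : Rp g x) (h2 : Rp h x) : g = h :=
  Subtype.ext (h1.trans h2.symm)

theorem Rp_one : Rp 1 1 := rfl

theorem Rp_inv {g : S0} {x y : MM} (h1 : Rp g x) (h2 : x * y = 1) : Rp g⁻¹ y := by
  have h3 : ((g⁻¹ * g : S0) : MM) = 1 := by rw [inv_mul_cancel]; rfl
  unfold Rp at *
  have h4 : ((g⁻¹ : S0) : MM) * (g : MM) = 1 := h3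
  rw [h1] at h4
  calc ((g⁻¹ : S0) : MM) = ((g⁻¹ : S0) : MM) * (x * y) := by rw [h2, Matrix.mul_one]
    _ = _ := by rw [← Matrix.mul_assoc, h4, Matrix.one_mul]

theorem mem0 : lM 0 ∈ symplecticGroup (Fin 3) (ZMod 2) :=
  SymplecticGroup.mem_iff.mpr (by decide +kernel)
theorem mem2 : lM 2 ∈ symplecticGroup (Fin 3) (ZMod 2) :=
  SymplecticGroup.mem_iff.mpr (by decide +kernel)
theorem mem4 : lM 4 ∈ symplecticGroup (Fin 3) (ZMod 2) :=
  SymplecticGroup.mem_iff.mpr (by decide +kernel)
theorem mem6 : lM 6 ∈ symplecticGroup (Fin 3) (ZMod 2) :=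
  SymplecticGroup.mem_iff.mpr (by decide +kernel)

/-- The generators. -/
def sG : ℕ → S0
  | 0 => ⟨lM 0, mem0⟩
  | 1 => ⟨lM 2, mem2⟩
  | 2 => ⟨lM 4, mem4⟩
  | _ => ⟨lM 6, mem6⟩

theorem Rp_lett : ∀ l, l < 8 → Rp (lett sG l) (lM l) := by
  intro l hl
  interval_cases l
  · exact rfl
  · exact Rp_inv (x := lM 0) rfl (by decide +kernel)
  · exact rfl
  · exact Rp_inv (x := lM 2) rfl (by decide +kernel)
  · exact rfl
  · exact Rp_inv (x := lM 4) rfl (by decide +kernel)
  · exact rfl
  · exact Rp_inv (x := lM 6) rfl (by decide +kernel)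

/-- The value of a word. -/
def evM (w : List ℕ) : MM := w.foldr (fun l y => lM l * y) 1

/-- The test for a relator. -/
def relChk (w : List ℕ) : Bool := w.all (fun l => Nat.blt l 8) && decide (evM w = 1)

theorem ev_of {w : List ℕ} (h : ∀ l ∈ w, l < 8) : Rp (evW sG w) (evM w) :=
  evW_rep (Rp := Rp) (mulX := (· * ·)) (oneX := 1) (lM := lM) (s := sG) Rp_mul Rp_one (L := 8) Rp_lett w h

theorem rel_of_chk {w : List ℕ} (h : relChk w = true) : evW sG w = 1 := by
  simp only [relChk, Bool.and_eq_true, List.all_eq_true, decide_eq_true_eq] at h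
  obtain ⟨h1, h2⟩ := h
  have h3 := ev_of (w := w) (fun l hl => by simpa using h1 l hl)
  rw [h2] at h3
  exact Rp_inj h3 Rp_one

/-- The relators. -/
abbrev R : List (List ℕ) := Sp62Tc0.relsL

theorem rels_chk : R.all relChk = true := by decide +kernel

theorem rels_ok : ∀ r ∈ R, evW sG r = 1 := fun r hr => rel_of_chk (List.all_eq_true.mp rels_chk r hr)

theorem rels_lt : ∀ r ∈ R, ∀ l ∈ r, l < 2 * 4 := by decide +kernel

/-! ### Generation -/

/-- Vectors by their codes. -/
def E0 (k : ℕ) : Idx → ZMod 2 := fun i => ((k >>> ix i) % 2 : ℕ)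

/-- The code of a vector. -/
def enc (v : Idx → ZMod 2) : ℕ :=
  (v (.inl 0)).val + 2 * (v (.inl 1)).val + 4 * (v (.inl 2)).val + 8 * (v (.inr 0)).val + 16 * (v (.inr 1)).val +
    32 * (v (.inr 2)).val

theorem enc_E0 : ∀ k : Fin 64, enc (E0 k.val) = k.val := by decide +kernel

theorem E0_surj (v : Idx → ZMod 2) : ∃ k, k < 64 ∧ E0 k = v := by
  have hinj : Function.Injective (fun k : Fin 64 => E0 k.val) := by
    intro a b hab
    have h := congrArg enc hab
    simp only [enc_E0] at h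
    exact Fin.ext h
  have hc : Nat.card (Idx → ZMod 2) ≤ Nat.card (Fin 64) := by
    simp [Nat.card_eq_fintype_card, ZMod.card]
  obtain ⟨k, hk⟩ := (hinj.bijective_of_nat_card_le hc).2 v
  exact ⟨k.val, k.2, hk⟩

theorem words_chk : (List.range 64).all (fun k => Nat.beq k 0 || (decide (evM (wordsL.getD k []) = tMat (E0 k) 1) &&
    (wordsL.getD k []).all (fun l => Nat.blt l 4))) = true := by decide +kernel

theorem E0_zero : E0 0 = 0 := by decide +kernel

theorem closure_sG2 : Subgroup.closure (sG '' Set.Iio 2) = ⊤ := by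
  rw [eq_top_iff, ← G_top (l := Fin 3) (F := ZMod 2), G, Subgroup.closure_le]
  rintro _ ⟨u, -, c, rfl⟩
  have hs : ∀ i, i < 2 → sG i ∈ Subgroup.closure (sG '' Set.Iio 2) := fun i hi => subset_closure ⟨i, hi, rfl⟩
  have hw : ∀ w : List ℕ, (∀ l ∈ w, l < 4) → evW sG w ∈ Subgroup.closure (sG '' Set.Iio 2) := by
    intro w
    induction w with
    | nil => intro _; exact one_mem _
    | cons l w ih =>
      intro h
      refine mul_mem ?_ (ih (fun a ha => h a (List.mem_cons_of_mem _ ha)))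
      have hl := h l List.mem_cons_self
      rcases Nat.even_or_odd' l with ⟨i, rfl | rfl⟩
      · rw [lett_even]
        exact hs i (by omega)
      · rw [lett_odd]
        exact inv_mem (hs i (by omega))
  have hc : c = 0 ∨ c = 1 := by
    revert c
    decide
  rcases hc with rfl | rfl
  · rw [T_zero_right]
    exact one_mem _
  · obtain ⟨k, hk, rfl⟩ := E0_surj u
    rcases Nat.eq_zero_or_pos k with rfl | hpos
    · rw [E0_zero, T_zero_left]
      exact one_mem _
    · have h1 := List.all_eq_true.mp words_chk k (List.mem_range.mpr hk)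
      have hk0 : Nat.beq k 0 = false := by
        cases k with
        | zero => omega
        | succ n => rfl
      rw [hk0, Bool.false_or, Bool.and_eq_true, decide_eq_true_eq, List.all_eq_true] at h1
      obtain ⟨h2, h3⟩ := h1
      have h4 : ∀ l ∈ wordsL.getD k [], l < 4 := fun l hl => by simpa using h3 l hl
      have h5 := ev_of (w := wordsL.getD k []) (fun l hl => by have := h4 l hl; omega)
      rw [h2] at h5
      have h6 : evW sG (wordsL.getD k []) = T (E0 k) 1 := Subtype.ext h5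
      rw [← h6]
      exact hw _ h4

theorem closure_sG4 : Subgroup.closure (sG '' Set.Iio 4) = ⊤ := by
  rw [eq_top_iff, ← closure_sG2]
  refine closure_mono (Set.image_mono ?_)
  intro i hi
  have h : i < 2 := hi
  show i < 4
  omega

/-! ### The presentation -/

theorem tcf0 : TCf 4 240 R [4, 5, 6, 7] := fun W _ x hg hr H hH => Sp62Tc0.index_le x hg hr H hH

theorem ordBd0 : OrdBd 4 R (240 * 6048) :=
  OrdBd.step (k := 2) (m' := 2) tcf0 U33Main.ordBd (by decide) U33Main.rels_lt (by decide +kernel)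

theorem hFP : FP sG 4 R := ⟨closure_sG4, rels_ok, rels_lt, by rw [card_S0]; exact ordBd0⟩

theorem hT4 : Tab 240 4 Sp62Tab.T4 Sp62Tab.par4 :=
  Cfsg.Agent.Lib.SchurLoop.LoopC.check_tab Sp62Loop.lcert Sp62Loop.lcert_ok

theorem loops4 : ∀ r ∈ R, ∀ c, c < 240 → endV Sp62Tab.T4 c r = c := by
  have h : R.all (fun r => (List.range 240).all (fun c => Nat.beq (endV Sp62Tab.T4 c r) c)) = true := by
    decide +kernel
  intro r hr c hc
  have h1 := (List.all_eq_true.mp h) r hr
  exact Nat.eq_of_beq_eq_true ((List.all_eq_true.mp h1) c (List.mem_range.mpr hc))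

theorem exists_H : ∃ (H : Subgroup S0) (s' : ℕ → H), H.index = 240 ∧ Nat.card H = 6048 ∧
      (∀ c, c < 240 → tOf sG Sp62Tab.par4 c ∈ H → c = 0) ∧
      (∀ c, c < 240 → ∀ i, i < 4 → tOf sG Sp62Tab.par4 c * sG i * (tOf sG Sp62Tab.par4 (Sp62Tab.T4 c (2 * i)))⁻¹ ∈ H) ∧
      (∀ i, i < 2 → (s' i : S0) = sG (2 + i)) ∧ FP s' 2 U33Main.rels :=
  FP.sub hFP hT4 loops4 tcf0 U33Main.ordBd card_S0 (by decide) U33Main.rels_lt (by decide +kernel) (by
    intro i hi
    interval_cases i
    · exact ⟨by norm_num, by decide +kernel⟩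
    · exact ⟨by norm_num, by decide +kernel⟩)

/-! ### Existence -/

/-- The target. -/
abbrev AT := Multiplicative (ZMod 2)

/-- The labels. -/
def τL : ℕ → AT := fun _ => Multiplicative.ofAdd 1

theorem τL_pow (j : ℕ) : τL j ^ Sp62Loop.lcert.M = 1 := by
  show (Multiplicative.ofAdd (1 : ZMod 2) : AT) ^ 2 = 1
  decide

theorem τL_top : Subgroup.closure (τL '' Set.Iio Sp62Loop.lcert.g) = ⊤ := by
  have h0 : τL 0 ∈ Subgroup.closure (τL '' Set.Iio Sp62Loop.lcert.g) :=
    Subgroup.subset_closure ⟨0, by show 0 < 1; norm_num, rfl⟩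
  have key : ∀ x : AT, x = τL 0 ^ (Multiplicative.toAdd x).val := by
    decide
  rw [eq_top_iff]
  intro x _
  rw [key x]
  exact pow_mem h0 _

theorem relsEq : Sp62Tc0.relsL = Sp62Loop.relsL := by decide +kernel

theorem exists_AT : ∃ (Γ : Type) (_ : Group Γ) (_ : Finite Γ) (σ : Γ →* S0),
    IsStemExtension σ ∧ Nonempty (σ.ker ≃* AT) := by
  have hN : Nat.Coprime 7 (Nat.card AT) := by
    rw [Nat.card_eq_fintype_card]
    decide +kernel
  have hrel : ∀ j, j < Sp62Loop.lcert.R → evW sG (Sp62Loop.lcert.rels j) = 1 := by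
    intro j hj
    have h2 : Sp62Loop.lcert.rels j = Sp62Loop.relsL[j] := List.getD_eq_getElem _ _ hj
    rw [h2]
    exact rels_ok _ (by
      show Sp62Loop.relsL[j] ∈ Sp62Tc0.relsL
      rw [relsEq]
      exact List.getElem_mem _)
  refine Cfsg.Agent.Lib.SchurLoop.LoopC.exists_cover Sp62Loop.lcert Sp62Loop.lcert_ok τL_pow τL_top
    (s := sG) closure_sG4 hrel ?_ (N := 7) hN ?_
  · intro W _ _ x hgen hrelW
    rw [card_S0]
    refine ordBd0 W x hgen ?_
    intro r hr
    rw [show R = Sp62Loop.relsL from relsEq] at hr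
    obtain ⟨j, hj, rfl⟩ := List.mem_iff_getElem.mp hr
    have h1 := hrelW j hj
    have h2 : Sp62Loop.lcert.rels j = Sp62Loop.relsL[j] := List.getD_eq_getElem _ _ hj
    rwa [h2] at h1
  · intro i hi
    have hi' : i < 4 := hi
    interval_cases i
    · exact ⟨0, by show 0 < 15; norm_num, 7, by norm_num, by decide +kernel, by decide +kernel⟩
    · exact ⟨1, by show 1 < 15; norm_num, 7, by norm_num, by decide +kernel, by decide +kernel⟩
    · exact ⟨10, by show 10 < 15; norm_num, 7, by norm_num, by decide +kernel, by decide +kernel⟩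
    · exact ⟨11, by show 11 < 15; norm_num, 7, by norm_num, by decide +kernel, by decide +kernel⟩

/-! ### The bound -/

theorem primes_of_sq {p : ℕ} (hp : p.Prime) (h : p ^ 2 ∣ 240 * 6048) : p = 2 ∨ p = 3 := by
  have h1 : p ∣ 2 ^ 9 * 3 ^ 4 * 5 * 7 := by
    refine Dvd.dvd.trans (dvd_pow_self p two_ne_zero) ?_
    exact h.trans (by norm_num)
  rcases (Nat.Prime.dvd_mul hp).mp h1 with h2 | h2
  · rcases (Nat.Prime.dvd_mul hp).mp h2 with h3 | h3
    · rcases (Nat.Prime.dvd_mul hp).mp h3 with h4 | h4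
      · exact Or.inl ((Nat.prime_dvd_prime_iff_eq hp Nat.prime_two).mp (hp.dvd_of_dvd_pow h4))
      · exact Or.inr ((Nat.prime_dvd_prime_iff_eq hp Nat.prime_three).mp (hp.dvd_of_dvd_pow h4))
    · have := (Nat.prime_dvd_prime_iff_eq hp Nat.prime_five).mp h3
      subst this
      norm_num at h
  · have := (Nat.prime_dvd_prime_iff_eq hp (by norm_num : Nat.Prime 7)).mp h2
    subst this
    norm_num at h

theorem sp62C2_rel : ∀ j, j < Sp62C2.cert.R → Sp62C2.cert.rels j ∈ R := by
  have h : (List.range 8).all (fun j => R.contains (Sp62C2.cert.rels j)) = true := by decide +kernel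
  intro j hj
  have h1 := List.all_eq_true.mp h j (List.mem_range.mpr hj)
  simpa using h1

theorem sp62C3_rel : ∀ j, j < Sp62C3.cert.R → Sp62C3.cert.rels j ∈ R := by
  have h : (List.range 8).all (fun j => R.contains (Sp62C3.cert.rels j)) = true := by decide +kernel
  intro j hj
  have h1 := List.all_eq_true.mp h j (List.mem_range.mpr hj)
  simpa using h1

theorem sp62C2_lt : ∀ j, j < Sp62C2.cert.R → ∀ l ∈ Sp62C2.cert.rels j, l < 2 * Sp62C2.cert.m := by
  have h : (List.range 8).all (fun j => (Sp62C2.cert.rels j).all (fun l => Nat.blt l 4)) = true := by decide +kernel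
  intro j hj l hl
  have h1 := List.all_eq_true.mp (List.all_eq_true.mp h j (List.mem_range.mpr hj)) l hl
  have h2 : l < 4 := by simpa using h1
  exact h2

theorem sp62C3_lt : ∀ j, j < Sp62C3.cert.R → ∀ l ∈ Sp62C3.cert.rels j, l < 2 * Sp62C3.cert.m := by
  have h : (List.range 8).all (fun j => (Sp62C3.cert.rels j).all (fun l => Nat.blt l 4)) = true := by decide +kernel
  intro j hj l hl
  have h1 := List.all_eq_true.mp (List.all_eq_true.mp h j (List.mem_range.mpr hj)) l hl
  have h2 : l < 4 := by simpa using h1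
  exact h2

/-- The kernel of every finite stem extension is an image of the target. -/
theorem upper {Γ : Type*} [Group Γ] [Finite Γ] (σ : Γ →* S0) (hσ : IsStemExtension σ) :
    ∃ π : AT →* σ.ker, Function.Surjective π := by
  obtain ⟨H, s', h1, h2, hne, hms, hs', hFP'⟩ := exists_H
  have hperf : commutator H = ⊤ := U33Main.perfect hFP'
  have hN2 : Norm Sp62C2.cert 7 7 := by
    refine ⟨rfl, by decide +kernel, by decide +kernel, ?_, by show 2 ≤ 8; norm_num⟩
    intro j hj
    have h1 : Nat.ble (j + 1) 2 = true := hj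
    have h2 := Nat.le_of_ble_eq_true h1
    omega
  have hN3 : Norm Sp62C3.cert 7 7 := by
    refine ⟨rfl, by decide +kernel, by decide +kernel, ?_, by show 2 ≤ 8; norm_num⟩
    intro j hj
    have h1 : Nat.ble (j + 1) 2 = true := hj
    have h2 := Nat.le_of_ble_eq_true h1
    omega
  obtain ⟨e, g, he, hg, ho, hcl⟩ := bound_perfect hσ hperf Nat.prime_two (U33Main.PT2 hFP' h2) Sp62C2.cert Sp62C2.cert_ok
    (E := 4) rfl (by rw [card_S0]; norm_num) hN2 (by norm_num) (by norm_num) (t := tOf sG Sp62Tab.par4) (tOf_zero _ _)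
    hne (s := sG) (fun c hc i hi => hms c hc i (by have : i < 2 := hi; omega)) closure_sG2
    sp62C2_lt (fun j hj => rels_ok _ (sp62C2_rel j hj))
  obtain ⟨e', g', he', hg', ho', hcl'⟩ := bound_perfect hσ hperf Nat.prime_three (U33Main.PT3 hFP' h2) Sp62C3.cert Sp62C3.cert_ok
    (E := 2) rfl (by rw [card_S0]; norm_num) hN3 (by norm_num) (by norm_num) (t := tOf sG Sp62Tab.par4) (tOf_zero _ _)
    hne (s := sG) (fun c hc i hi => hms c hc i (by have : i < 2 := hi; omega)) closure_sG2
    sp62C3_lt (fun j hj => rels_ok _ (sp62C3_rel j hj))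
  have h0 : g 0 ^ 2 = 1 := ho (0, 2, _) List.mem_cons_self
  have hGlen : Sp62C2.cert.G.length = 1 := rfl
  have hGlen' : Sp62C3.cert.G.length = 0 := rfl
  rw [hGlen] at hcl
  rw [hGlen'] at hcl'
  haveI : Fact (1 < 2) := ⟨by norm_num⟩
  refine Cfsg.Agent.Lib.SchurAsm.exists_surj1 hσ (hg 0) h0 ?_
  refine le_of_primes (fun a ha b => (Subgroup.mem_center_iff.mp (hσ.2.1 ha) b).symm) ?_
  intro p hp hd
  have : Fact p.Prime := ⟨hp⟩
  obtain ⟨x, hx⟩ := exists_prime_orderOf_dvd_card' p hd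
  have hs : orderOf (x : Γ) ^ 2 ∣ Nat.card S0 := sq_orderOf_dvd hσ x.2
  rw [Subgroup.orderOf_coe, hx, card_S0] at hs
  rcases primes_of_sq hp hs with rfl | rfl
  · refine ⟨e, he, fun k hk => ?_⟩
    refine closure_mono ?_ (hcl k hk)
    rintro _ ⟨i, hi, rfl⟩
    have hi' : i < 1 := hi
    interval_cases i
    exact rfl
  · refine ⟨e', he', fun k hk => ?_⟩
    refine closure_mono ?_ (hcl' k hk)
    rintro _ ⟨i, hi, rfl⟩
    have hi' : i < 0 := hi
    omega

end Cfsg.Agent.Lib.Sp62Mult
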