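-- Shared library: sparse coset deductions. Facts `gen x • c p = c q` are kept in a persistent tree; each step scans a relator from a name, and adds the one missing edge.
import Mathlib
import Cfsg.Agent.Lib.BitClose

set_option autoImplicit false
set_option linter.all false

namespace Cfsg.Agent.Lib.SpClose

open Cfsg.Agent.Lib.CoxCert Cfsg.Agent.Lib.BitClose

/-- Binary trees with values in the leaves. -/
inductive Tr where
  | lf : Tr
  | leaf (v : ℕ) : Tr
  | nd (l r : Tr) : Tr

/-- The children of a node. -/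
noncomputable def splitT {α : Type} (t : Tr) (g : Tr → Tr → α) : α :=
  Tr.rec (motive := fun _ => α) (g .lf .lf) (fun _ => g .lf .lf) (fun l r _ _ => g l r) t

/-- The evaluation of a tree. -/
noncomputable def fc {α : Type} (t : Tr) (g : Tr → α) : α :=
  Tr.rec (motive := fun _ => α) (g .lf) (fun v => g (.leaf v)) (fun l r _ _ => g (.nd l r)) t

theorem fc_eq {α : Type} (t : Tr) (g : Tr → α) : fc t g = g t := by cases t <;> rfl

/-- The left child. -/
def Tr.lft : Tr → Tr
  | .nd l _ => l
  | _ => .lf

/-- The right child. -/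
def Tr.rgt : Tr → Tr
  | .nd _ r => r
  | _ => .lf

/-- The value of a leaf. -/
noncomputable def Tr.val (t : Tr) : ℕ := Tr.rec (motive := fun _ => ℕ) 0 (fun v => v) (fun _ _ _ _ => 0) t

theorem splitT_eq {α : Type} (t : Tr) (g : Tr → Tr → α) : splitT t g = g t.lft t.rgt := by cases t <;> rfl

/-- Lookup. -/
noncomputable def getT (f : ℕ) : Tr → ℕ → ℕ :=
  Nat.rec (motive := fun _ => Tr → ℕ → ℕ)
    (fun t k => Bool.rec 0 t.val (Nat.beq k 0))
    (fun _ ih t k => splitT t fun l r =>
      Bool.rec (ih r (Nat.shiftRight k 1)) (ih l (Nat.shiftRight k 1)) (Nat.beq (Nat.land k 1) 0)) f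

/-- Insertion. -/
noncomputable def insT (f : ℕ) : Tr → ℕ → ℕ → Tr :=
  Nat.rec (motive := fun _ => Tr → ℕ → ℕ → Tr)
    (fun t k v => Bool.rec t (.leaf v) (Nat.beq k 0))
    (fun _ ih t k v => splitT t fun l r =>
      Bool.rec (fc (ih r (Nat.shiftRight k 1) v) fun b => .nd l b)
        (fc (ih l (Nat.shiftRight k 1) v) fun a => .nd a r) (Nat.beq (Nat.land k 1) 0)) f

theorem beq_false {a b : ℕ} (h : a ≠ b) : Nat.beq a b = false := by
  rw [← Bool.not_eq_true]
  intro h2
  exact h (Nat.eq_of_beq_eq_true h2)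

theorem beq_bit (k : ℕ) : Nat.beq (Nat.land k 1) 0 = decide (k % 2 = 0) := by
  have h : Nat.land k 1 = k % 2 := Nat.and_one_is_mod k
  rw [h]
  by_cases h2 : k % 2 = 0
  · rw [h2]
    simp
  · rw [decide_eq_false h2]
    exact beq_false h2

theorem shr_one (k : ℕ) : Nat.shiftRight k 1 = k / 2 := by
  show k >>> 1 = k / 2
  rw [Nat.shiftRight_eq_div_pow]

theorem beq_zero (k : ℕ) : Nat.beq k 0 = decide (k = 0) := by
  by_cases h : k = 0
  · subst h
    simp
  · rw [decide_eq_false h]
    exact beq_false h

theorem getT_zero (t : Tr) (k : ℕ) : getT 0 t k = if k = 0 then t.val else 0 := by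
  show (Bool.rec 0 t.val (Nat.beq k 0) : ℕ) = _
  rw [beq_zero]
  by_cases h : k = 0 <;> simp [h]

theorem getT_succ (f : ℕ) (t : Tr) (k : ℕ) :
    getT (f + 1) t k = if k % 2 = 0 then getT f t.lft (k / 2) else getT f t.rgt (k / 2) := by
  show splitT t (fun l r => (Bool.rec (getT f r (Nat.shiftRight k 1)) (getT f l (Nat.shiftRight k 1)) (Nat.beq (Nat.land k 1) 0) : ℕ)) = _
  rw [splitT_eq, beq_bit, shr_one]
  by_cases h : k % 2 = 0 <;> simp [h]

theorem insT_zero (t : Tr) (k v : ℕ) : insT 0 t k v = if k = 0 then .leaf v else t := by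
  show (Bool.rec t (.leaf v) (Nat.beq k 0) : Tr) = _
  rw [beq_zero]
  by_cases h : k = 0 <;> simp [h]

theorem insT_succ (f : ℕ) (t : Tr) (k v : ℕ) :
    insT (f + 1) t k v = if k % 2 = 0 then .nd (insT f t.lft (k / 2) v) t.rgt else .nd t.lft (insT f t.rgt (k / 2) v) := by
  show splitT t (fun l r => (Bool.rec (fc (insT f r (Nat.shiftRight k 1) v) fun b => .nd l b)
        (fc (insT f l (Nat.shiftRight k 1) v) fun a => .nd a r) (Nat.beq (Nat.land k 1) 0) : Tr)) = _
  rw [splitT_eq, beq_bit, shr_one, fc_eq, fc_eq]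
  by_cases h : k % 2 = 0 <;> simp [h]

/-- The values of a tree after an insertion. -/
theorem get_ins (f : ℕ) (t : Tr) (k k' v : ℕ) :
    getT f (insT f t k v) k' = getT f t k' ∨ (k' = k ∧ getT f (insT f t k v) k' = v) := by
  induction f generalizing t k k' with
  | zero =>
    rw [insT_zero]
    by_cases hk : k = 0
    · rw [if_pos hk, getT_zero]
      by_cases hk' : k' = 0
      · right
        rw [if_pos hk']
        exact ⟨by omega, rfl⟩
      · left
        rw [if_neg hk', getT_zero, if_neg hk']
    · left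
      rw [if_neg hk]
  | succ f ih =>
    rw [insT_succ]
    by_cases hk : k % 2 = 0
    · rw [if_pos hk, getT_succ, getT_succ]
      by_cases hk' : k' % 2 = 0
      · rw [if_pos hk', if_pos hk']
        rcases ih t.lft (k / 2) (k' / 2) with h | ⟨h1, h2⟩
        · left
          exact h
        · right
          exact ⟨by omega, h2⟩
      · rw [if_neg hk', if_neg hk']
        left
        rfl
    · rw [if_neg hk, getT_succ, getT_succ]
      by_cases hk' : k' % 2 = 0
      · rw [if_pos hk', if_pos hk']
        left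
        rfl
      · rw [if_neg hk', if_neg hk']
        rcases ih t.rgt (k / 2) (k' / 2) with h | ⟨h1, h2⟩
        · left
          exact h
        · right
          exact ⟨by omega, h2⟩

/-- A walk along the known edges: the end of the walk plus one, or zero. -/
noncomputable def walkT (f : ℕ) (M : Tr) (w : List ℕ) : ℕ → ℕ :=
  List.rec (motive := fun _ => ℕ → ℕ) (fun p => Nat.add p 1)
    (fun x _ ih p => wl (getT f M (Nat.add x (Nat.mul 16 p))) fun q =>
      Bool.rec (ih (Nat.sub q 1)) 0 (Nat.beq q 0)) w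

/-- A step: the relator split at a letter, from a name. -/
noncomputable def stepW (f : ℕ) (M : Tr) (u rest : List ℕ) (s : ℕ) : Tr :=
  List.rec (motive := fun _ => Tr) M
    (fun x v _ => wl (walkT f M u s) fun p => wl (walkT f M v.reverse s) fun q =>
      Bool.rec (Bool.rec
        (fc (insT f M (Nat.add x (Nat.mul 16 (Nat.sub p 1))) q) fun M' => insT f M' (Nat.add x (Nat.mul 16 (Nat.sub q 1))) p)
        M (Nat.beq q 0)) M (Nat.beq p 0)) rest

/-- Steps with the same relator split at the same place. -/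
noncomputable def loopS (f : ℕ) (u rest : List ℕ) (ss : List ℕ) : Tr → Tr :=
  List.rec (motive := fun _ => Tr → Tr) (fun M => M) (fun s _ ih M => fc (stepW f M u rest s) ih) ss

/-- A block of steps: the code of the relator and the place, and the names. -/
noncomputable def blkT (f : ℕ) (R : List (List ℕ)) (b : List ℕ) (M : Tr) : Tr :=
  List.rec (motive := fun _ => Tr) M
    (fun hd ss _ => (fun w pos => loopS f (List.take pos w) (List.drop pos w) ss M)
      (wget R (Nat.land hd 127)) (Nat.shiftRight hd 7)) b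

/-- A sequence of blocks. -/
noncomputable def runT (f : ℕ) (R : List (List ℕ)) (sc : List (List ℕ)) : Tr → Tr :=
  List.rec (motive := fun _ => Tr → Tr) (fun M => M) (fun c _ ih M => fc (blkT f R c M) ih) sc

/-- The edges of the letters fixing the first name. -/
noncomputable def initB (f : ℕ) (Sb : List ℕ) : Tr → Tr :=
  List.rec (motive := fun _ => Tr → Tr) (fun M => M)
    (fun x _ ih M => fc (insT f M x 1) ih) Sb

/-- The edges of the spanning tree: name `i + 1` comes from the code `x + 16 q`, with `x` a letter and `q` a name. -/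
noncomputable def initT (f : ℕ) (Par : List ℕ) : ℕ → Tr → Tr :=
  List.rec (motive := fun _ => ℕ → Tr → Tr) (fun _ M => M)
    (fun c _ ih i M =>
      wl (Nat.land c 15) fun x => wl (Nat.shiftRight c 4) fun q =>
      Bool.rec (ih (Nat.add i 1) M)
        (fc (insT f M (Nat.add x (Nat.mul 16 q)) (Nat.add i 2)) fun M' =>
          fc (insT f M' (Nat.add x (Nat.mul 16 (Nat.add i 1))) (Nat.add q 1)) fun M'' => ih (Nat.add i 1) M'')
        (Nat.ble q i)) Par

/-- The whole check. -/
noncomputable def spChk (f : ℕ) (R : List (List ℕ)) (Par Sb : List ℕ) (sc : List (List ℕ)) (w : List ℕ) : Bool :=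
  fc (initB f Sb .lf) fun M0 => fc (initT f Par 0 M0) fun M1 => fc (runT f R sc M1) fun M2 =>
    Nat.beq (walkT f M2 w 0) 1

section sem

variable {G : Type*} [Group G] {H : Subgroup G} {gen : ℕ → G}

/-- The names. -/
noncomputable def cS (gen : ℕ → G) (H : Subgroup G) (Par : List ℕ) : ℕ → G ⧸ H
  | 0 => ((1 : G) : G ⧸ H)
  | i + 1 =>
    if h : Nat.shiftRight (Par.getD i 0) 4 ≤ i then
      gen (Nat.land (Par.getD i 0) 15) • cS gen H Par (Nat.shiftRight (Par.getD i 0) 4)
    else ((1 : G) : G ⧸ H)
  decreasing_by exact Nat.lt_succ_of_le h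

/-- All the entries are true. -/
def GoodT (gen : ℕ → G) (c : ℕ → G ⧸ H) (f : ℕ) (M : Tr) : Prop :=
  ∀ x p q, x < 16 → getT f M (x + 16 * p) = q + 1 → gen x • c p = c q

theorem good_ins {c : ℕ → G ⧸ H} {f : ℕ} {M : Tr} (hM : GoodT gen c f M) {x p q : ℕ} (hx : x < 16)
    (h : gen x • c p = c q) : GoodT gen c f (insT f M (x + 16 * p) (q + 1)) := by
  intro y a b hy he
  rcases get_ins f M (x + 16 * p) (y + 16 * a) (q + 1) with h1 | ⟨h1, h2⟩
  · rw [h1] at he
    exact hM y a b hy he
  · have e1 : y = x := by omega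
    have e2 : a = p := by omega
    subst e1 e2
    rw [h2] at he
    have : q = b := by omega
    rw [← this]
    exact h

theorem walk_spec {c : ℕ → G ⧸ H} {f : ℕ} {M : Tr} (hM : GoodT gen c f M) (w : List ℕ) (hw : ∀ x ∈ w, x < 16) :
    ∀ p q, walkT f M w p = q + 1 → ev gen w • c p = c q := by
  induction w with
  | nil =>
    intro p q h
    have h1 : p + 1 = q + 1 := h
    have h2 : p = q := by omega
    subst h2
    simp
  | cons x r ih =>
    intro p q h
    have e : walkT f M (x :: r) p = wl (getT f M (Nat.add x (Nat.mul 16 p))) fun q =>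
      Bool.rec (walkT f M r (Nat.sub q 1)) 0 (Nat.beq q 0) := rfl
    rw [e, wl_eq, beq_zero] at h
    set t := getT f M (Nat.add x (Nat.mul 16 p)) with ht
    by_cases h0 : t = 0
    · rw [h0] at h
      simp at h
    · rw [decide_eq_false h0] at h
      have h1 : walkT f M r (t - 1) = q + 1 := h
      have h2 := ih (fun y hy => hw y (List.mem_cons_of_mem _ hy)) _ _ h1
      have h3 : getT f M (x + 16 * p) = (t - 1) + 1 := by
        rw [Nat.sub_add_cancel (Nat.pos_of_ne_zero h0)]
        exact ht.symm
      have h4 := hM x p (t - 1) (hw x List.mem_cons_self) h3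
      rw [ev_cons, mul_smul, h4]
      exact h2

theorem ev_reverse (hinv : ∀ x, gen x * gen x = 1) (w : List ℕ) : ev gen w.reverse = (ev gen w)⁻¹ := by
  induction w with
  | nil => simp
  | cons x r ih =>
    rw [List.reverse_cons, ev_append, ih, ev_cons, ev_cons, ev_nil, one_mul, mul_inv_rev,
      inv_eq_of_mul_eq_one_left (hinv x)]

theorem good_stepW (hinv : ∀ x, gen x * gen x = 1) {c : ℕ → G ⧸ H} {f : ℕ} {M : Tr} (hM : GoodT gen c f M)
    (u rest : List ℕ) (s : ℕ) (hw : ev gen (u ++ rest) = 1) (hl : ∀ x ∈ u ++ rest, x < 16) :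
    GoodT gen c f (stepW f M u rest s) := by
  cases rest with
  | nil => exact hM
  | cons x v =>
    have e : stepW f M u (x :: v) s = wl (walkT f M u s) fun p => wl (walkT f M v.reverse s) fun q =>
      Bool.rec (Bool.rec
        (fc (insT f M (Nat.add x (Nat.mul 16 (Nat.sub p 1))) q) fun M' => insT f M' (Nat.add x (Nat.mul 16 (Nat.sub q 1))) p)
        M (Nat.beq q 0)) M (Nat.beq p 0) := rfl
    rw [e, wl_eq, wl_eq, beq_zero, beq_zero]
    set p := walkT f M u s with hp
    set q := walkT f M v.reverse s with hq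
    by_cases hp0 : p = 0
    · simp [hp0]
      exact hM
    by_cases hq0 : q = 0
    · simp [hq0, hp0]
      exact hM
    rw [decide_eq_false hp0, decide_eq_false hq0]
    show GoodT gen c f (fc (insT f M (Nat.add x (Nat.mul 16 (Nat.sub p 1))) q) fun M' => insT f M' (Nat.add x (Nat.mul 16 (Nat.sub q 1))) p)
    rw [fc_eq]
    have hp1 : p = (p - 1) + 1 := (Nat.sub_add_cancel (Nat.pos_of_ne_zero hp0)).symm
    have hq1 : q = (q - 1) + 1 := (Nat.sub_add_cancel (Nat.pos_of_ne_zero hq0)).symm
    have hlu : ∀ y ∈ u, y < 16 := fun y hy => hl y (List.mem_append_left _ hy)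
    have hlr : ∀ y ∈ x :: v, y < 16 := fun y hy => hl y (List.mem_append_right _ hy)
    have hlv : ∀ y ∈ v.reverse, y < 16 := fun y hy => hlr y (List.mem_cons_of_mem _ (List.mem_reverse.mp hy))
    have hx : x < 16 := hlr x List.mem_cons_self
    have h1 := walk_spec hM u hlu s (p - 1) (by rw [← hp]; exact hp1)
    have h2 := walk_spec hM v.reverse hlv s (q - 1) (by rw [← hq]; exact hq1)
    rw [ev_reverse hinv] at h2
    rw [ev_append, ev_cons] at hw
    have h3 : gen x • c (p - 1) = c (q - 1) := by
      rw [← h1, ← h2, ← mul_smul]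
      congr 1
      have : gen x * ev gen u = (ev gen v)⁻¹ := by
        apply eq_inv_of_mul_eq_one_right
        rw [← mul_assoc]
        exact hw
      exact this
    have h4 : gen x • c (q - 1) = c (p - 1) := by
      rw [← h3, ← mul_smul, hinv, one_smul]
    have h5 := good_ins hM hx h3
    rw [← hq1] at h5
    have h6 := good_ins h5 hx h4
    rw [← hp1] at h6
    exact h6

theorem good_loopS (hinv : ∀ x, gen x * gen x = 1) {c : ℕ → G ⧸ H} {f : ℕ}
    {u rest : List ℕ} (hw : ev gen (u ++ rest) = 1) (hl : ∀ x ∈ u ++ rest, x < 16) (ss : List ℕ) :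
    ∀ M, GoodT gen c f M → GoodT gen c f (loopS f u rest ss M) := by
  induction ss with
  | nil => exact fun M hM => hM
  | cons a r ih =>
    intro M hM
    show GoodT gen c f (fc (stepW f M u rest a) (loopS f u rest r))
    rw [fc_eq]
    exact ih _ (good_stepW hinv hM u rest a hw hl)

theorem good_blkT (hinv : ∀ x, gen x * gen x = 1) {c : ℕ → G ⧸ H} {f : ℕ} {M : Tr} (hM : GoodT gen c f M)
    {R : List (List ℕ)} (hR : ∀ w ∈ R, ev gen w = 1) (hl : ∀ w ∈ R, ∀ x ∈ w, x < 16) (b : List ℕ) :
    GoodT gen c f (blkT f R b M) := by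
  cases b with
  | nil => exact hM
  | cons hd ss =>
    show GoodT gen c f (loopS f (List.take _ (wget R (Nat.land hd 127))) (List.drop _ (wget R (Nat.land hd 127))) ss M)
    apply good_loopS hinv _ _ ss _ hM
    · rw [List.take_append_drop]
      rcases wget_mem_or R (Nat.land hd 127) with h | h
      · rw [h]
        rfl
      · exact hR _ h
    · rw [List.take_append_drop]
      rcases wget_mem_or R (Nat.land hd 127) with h | h
      · rw [h]
        simp
      · exact hl _ h

theorem good_runT (hinv : ∀ x, gen x * gen x = 1) {c : ℕ → G ⧸ H} {f : ℕ}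
    {R : List (List ℕ)} (hR : ∀ w ∈ R, ev gen w = 1) (hl : ∀ w ∈ R, ∀ x ∈ w, x < 16) (sc : List (List ℕ)) :
    ∀ M, GoodT gen c f M → GoodT gen c f (runT f R sc M) := by
  induction sc with
  | nil => exact fun M hM => hM
  | cons a r ih =>
    intro M hM
    show GoodT gen c f (fc (blkT f R a M) (runT f R r))
    rw [fc_eq]
    exact ih _ (good_blkT hinv hM hR hl a)

theorem good_initB {c : ℕ → G ⧸ H} (hc0 : c 0 = ((1 : G) : G ⧸ H)) {f : ℕ} (Sb : List ℕ)
    (hS : ∀ x ∈ Sb, x < 16 ∧ gen x ∈ H) : ∀ M, GoodT gen c f M → GoodT gen c f (initB f Sb M) := by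
  induction Sb with
  | nil => exact fun M hM => hM
  | cons a r ih =>
    intro M hM
    show GoodT gen c f (fc (insT f M a 1) (initB f r))
    rw [fc_eq]
    apply ih (fun y hy => hS y (List.mem_cons_of_mem _ hy))
    obtain ⟨h1, h2⟩ := hS a List.mem_cons_self
    have h3 : gen a • c 0 = c 0 := by
      rw [hc0]
      exact smul_base_eq h2
    have h4 := good_ins hM h1 h3
    simpa using h4

theorem good_initT (hinv : ∀ x, gen x * gen x = 1) {f : ℕ} (Par : List ℕ) (L : List ℕ) :
    ∀ i M, (∀ j, j < L.length → Par.getD (i + j) 0 = L.getD j 0) → GoodT gen (cS gen H Par) f M →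
      GoodT gen (cS gen H Par) f (initT f L i M) := by
  induction L with
  | nil => exact fun i M _ hM => hM
  | cons a r ih =>
    intro i M hj hM
    have hj0 := hj 0 (by simp)
    simp only [Nat.add_zero, List.getD_cons_zero] at hj0
    have hj1 : ∀ j, j < r.length → Par.getD (i + 1 + j) 0 = r.getD j 0 := by
      intro j hjl
      have := hj (j + 1) (by simp; omega)
      rw [show i + (j + 1) = i + 1 + j by omega] at this
      simpa using this
    have e : initT f (a :: r) i M = wl (Nat.land a 15) fun x => wl (Nat.shiftRight a 4) fun q =>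
      Bool.rec (initT f r (Nat.add i 1) M)
        (fc (insT f M (Nat.add x (Nat.mul 16 q)) (Nat.add i 2)) fun M' =>
          fc (insT f M' (Nat.add x (Nat.mul 16 (Nat.add i 1))) (Nat.add q 1)) fun M'' => initT f r (Nat.add i 1) M'')
        (Nat.ble q i) := rfl
    rw [e, wl_eq, wl_eq]
    by_cases hq : Nat.shiftRight a 4 ≤ i
    · have hb : Nat.ble (Nat.shiftRight a 4) i = true := Nat.ble_eq_true_of_le hq
      rw [hb]
      show GoodT gen (cS gen H Par) f (fc (insT f M (Nat.add (Nat.land a 15) (Nat.mul 16 (Nat.shiftRight a 4))) (Nat.add i 2)) fun M' =>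
          fc (insT f M' (Nat.add (Nat.land a 15) (Nat.mul 16 (Nat.add i 1))) (Nat.add (Nat.shiftRight a 4) 1)) fun M'' => initT f r (Nat.add i 1) M'')
      rw [fc_eq, fc_eq]
      apply ih _ _ hj1
      have hx : Nat.land a 15 < 16 := by
        show a &&& 15 < 16
        exact Nat.and_lt_two_pow (n := 4) a (by norm_num)
      have hc : cS gen H Par (i + 1) = gen (Nat.land a 15) • cS gen H Par (Nat.shiftRight a 4) := by
        rw [cS, hj0, dif_pos hq]
      have h1 : gen (Nat.land a 15) • cS gen H Par (Nat.shiftRight a 4) = cS gen H Par (i + 1) := hc.symm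
      have h2 : gen (Nat.land a 15) • cS gen H Par (i + 1) = cS gen H Par (Nat.shiftRight a 4) := by
        rw [hc, ← mul_smul, hinv, one_smul]
      have h3 := good_ins hM hx h1
      have h4 := good_ins h3 hx h2
      exact h4
    · have hb : Nat.ble (Nat.shiftRight a 4) i = false := by
        rw [← Bool.not_eq_true]
        intro h
        exact hq (Nat.le_of_ble_eq_true h)
      rw [hb]
      exact ih _ _ hj1 hM

/-- A checked table of deductions gives the membership of a word. -/
theorem sp_mem (hinv : ∀ x, gen x * gen x = 1) {f : ℕ} {R : List (List ℕ)} {Par Sb w : List ℕ} {sc : List (List ℕ)}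
    (h : spChk f R Par Sb sc w = true) (hR : ∀ w ∈ R, ev gen w = 1) (hl : ∀ w ∈ R, ∀ x ∈ w, x < 16)
    (hw : ∀ x ∈ w, x < 16) (hS : ∀ x ∈ Sb, x < 16 ∧ gen x ∈ H) : ev gen w ∈ H := by
  have h' : Nat.beq (walkT f (runT f R sc (initT f Par 0 (initB f Sb .lf))) w 0) 1 = true := by
    unfold spChk at h
    rwa [fc_eq, fc_eq, fc_eq] at h
  have h1 : walkT f (runT f R sc (initT f Par 0 (initB f Sb .lf))) w 0 = 0 + 1 := Nat.eq_of_beq_eq_true h'
  set c := cS gen H Par with hc
  have hc0 : c 0 = ((1 : G) : G ⧸ H) := by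
    rw [hc, cS]
  have hg0 : GoodT gen c f .lf := by
    intro x p q _ he
    have : ∀ f k, getT f Tr.lf k = 0 := by
      intro f
      induction f with
      | zero =>
        intro k
        rw [getT_zero]
        by_cases hk : k = 0
        · simp [hk]
          rfl
        · simp [hk]
      | succ f ih =>
        intro k
        rw [getT_succ]
        by_cases hk : k % 2 = 0
        · rw [if_pos hk]
          exact ih _
        · rw [if_neg hk]
          exact ih _
    rw [this] at he
    omega
  have hg1 := good_initB hc0 (f := f) Sb hS _ hg0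
  have hg2 : GoodT gen c f (initT f Par 0 (initB f Sb .lf)) := by
    apply good_initT hinv Par Par
    · intro j _
      rw [Nat.zero_add]
    · exact hg1
  have hg3 := good_runT hinv hR hl sc _ hg2
  have h2 := walk_spec hg3 w hw 0 0 h1
  rw [hc0] at h2
  exact mem_of_smul_base h2

end sem

end Cfsg.Agent.Lib.SpClose
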