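import Mathlib

/-!
# Form modules: nilpotent skew endomorphisms of antisymmetric nondegenerate spaces
-/

set_option autoImplicit false

namespace Cfsg.Agent.Lib.SpFM

open Module

universe u

/-- A nilpotent skew endomorphism of a nondegenerate antisymmetric space. -/
structure FM (F : Type u) [Field F] where
  V : Type u
  [acg : AddCommGroup V]
  [mdl : Module F V]
  [fd : FiniteDimensional F V]
  ω : V →ₗ[F] V →ₗ[F] F
  N : V →ₗ[F] V
  anti : ∀ x y, ω x y = - ω y x
  nd : ∀ x, (∀ y, ω x y = 0) → x = 0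
  skew : ∀ x y, ω (N x) y = - ω x (N y)
  nil : ∃ k : ℕ, N ^ k = 0

attribute [instance] FM.acg FM.mdl FM.fd

variable {F : Type u} [Field F]

namespace FM

/-- Isometric equivariant isomorphism. -/
def Iso (A B : FM F) : Prop :=
  ∃ e : A.V ≃ₗ[F] B.V, (∀ x y, B.ω (e x) (e y) = A.ω x y) ∧ ∀ x, e (A.N x) = B.N (e x)

theorem Iso.refl (A : FM F) : Iso A A := ⟨LinearEquiv.refl F _, fun _ _ => rfl, fun _ => rfl⟩

theorem Iso.symm {A B : FM F} (h : Iso A B) : Iso B A := by
  obtain ⟨e, h1, h2⟩ := h
  refine ⟨e.symm, fun x y => ?_, fun x => ?_⟩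
  · have := h1 (e.symm x) (e.symm y)
    simpa using this.symm
  · apply e.injective
    rw [h2]; simp

theorem Iso.trans {A B C : FM F} (h : Iso A B) (h' : Iso B C) : Iso A C := by
  obtain ⟨e, h1, h2⟩ := h
  obtain ⟨e', h1', h2'⟩ := h'
  refine ⟨e.trans e', fun x y => ?_, fun x => ?_⟩
  · simp [h1, h1']
  · simp [h2, h2']

theorem pow_intertwine {A B : FM F} (e : A.V ≃ₗ[F] B.V) (h : ∀ x, e (A.N x) = B.N (e x)) (k : ℕ)
    (x : A.V) : e ((A.N ^ k) x) = (B.N ^ k) (e x) := by
  induction k generalizing x with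
  | zero => simp
  | succ k ih => rw [pow_succ, Module.End.mul_apply, ih, h, pow_succ, Module.End.mul_apply]

/-- Orthogonal direct sum. -/
abbrev sum (A B : FM F) : FM F where
  V := A.V × B.V
  ω := (A.ω.compl₁₂ (LinearMap.fst F _ _) (LinearMap.fst F _ _)) +
    (B.ω.compl₁₂ (LinearMap.snd F _ _) (LinearMap.snd F _ _))
  N := A.N.prodMap B.N
  anti x y := by
    simp only [LinearMap.add_apply, LinearMap.compl₁₂_apply, LinearMap.fst_apply, LinearMap.snd_apply]
    rw [A.anti, B.anti]; ring
  nd x hx := by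
    have h1 : x.1 = 0 := A.nd _ fun y => by simpa using hx (y, 0)
    have h2 : x.2 = 0 := B.nd _ fun y => by simpa using hx (0, y)
    exact Prod.ext h1 h2
  skew x y := by
    simp only [LinearMap.add_apply, LinearMap.compl₁₂_apply, LinearMap.fst_apply, LinearMap.snd_apply,
      LinearMap.prodMap_apply]
    rw [A.skew, B.skew]; ring
  nil := by
    obtain ⟨a, ha⟩ := A.nil
    obtain ⟨b, hb⟩ := B.nil
    refine ⟨max a b, ?_⟩
    ext x
    · have : ∀ k, (((A.N.prodMap B.N) ^ k) (x, 0)).1 = (A.N ^ k) x := by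
        intro k
        induction k with
        | zero => simp
        | succ k ih => 
          rw [pow_succ', Module.End.mul_apply, pow_succ', Module.End.mul_apply]
          simp [ih]
      simp only [LinearMap.coe_comp, Function.comp_apply, LinearMap.inl_apply]
      rw [this, show max a b = a + (max a b - a) by omega, add_comm, pow_add, ha, mul_zero]
      simp
    · have : ∀ k, (((A.N.prodMap B.N) ^ k) (x, 0)).2 = 0 := by
        intro k
        induction k with
        | zero => simp
        | succ k ih => 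
          rw [pow_succ', Module.End.mul_apply]
          simp [ih]
      simpa using this _
    · have : ∀ k, (((A.N.prodMap B.N) ^ k) (0, x)).1 = 0 := by
        intro k
        induction k with
        | zero => simp
        | succ k ih => 
          rw [pow_succ', Module.End.mul_apply]
          simp [ih]
      simpa using this _
    · have : ∀ k, (((A.N.prodMap B.N) ^ k) (0, x)).2 = (B.N ^ k) x := by
        intro k
        induction k with
        | zero => simp
        | succ k ih => 
          rw [pow_succ', Module.End.mul_apply, pow_succ', Module.End.mul_apply]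
          simp [ih]
      simp only [LinearMap.coe_comp, Function.comp_apply, LinearMap.inr_apply]
      rw [this, show max a b = b + (max a b - b) by omega, add_comm, pow_add, hb, mul_zero]
      simp

theorem sum_ω (A B : FM F) (x y : A.V × B.V) : (A.sum B).ω x y = A.ω x.1 y.1 + B.ω x.2 y.2 := rfl

theorem sum_N (A B : FM F) (x : A.V × B.V) : (A.sum B).N x = (A.N x.1, B.N x.2) := rfl

theorem sum_pow (A B : FM F) (k : ℕ) (x : A.V × B.V) :
    ((A.sum B).N ^ k) x = ((A.N ^ k) x.1, (B.N ^ k) x.2) := by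
  induction k generalizing x with
  | zero => rfl
  | succ k ih =>
    rw [pow_succ, Module.End.mul_apply, ih, pow_succ, pow_succ]
    rfl

theorem Iso.sum_congr {A A' B B' : FM F} (h : Iso A A') (h' : Iso B B') :
    Iso (A.sum B) (A'.sum B') := by
  obtain ⟨e, h1, h2⟩ := h
  obtain ⟨e', h1', h2'⟩ := h'
  refine ⟨e.prodCongr e', fun x y => ?_, fun x => ?_⟩
  · change A'.ω (e x.1) (e y.1) + B'.ω (e' x.2) (e' y.2) = A.ω x.1 y.1 + B.ω x.2 y.2
    rw [h1, h1']
  · change (e (A.N x.1), e' (B.N x.2)) = (A'.N (e x.1), B'.N (e' x.2))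
    rw [h2, h2']

theorem Iso.sum_swap (A B C : FM F) : Iso (A.sum (B.sum C)) (B.sum (A.sum C)) := by
  refine ⟨(LinearEquiv.prodAssoc F A.V B.V C.V).symm.trans
    (((LinearEquiv.prodComm F A.V B.V).prodCongr (LinearEquiv.refl F C.V)).trans
      (LinearEquiv.prodAssoc F B.V A.V C.V)), fun x y => ?_, fun x => rfl⟩
  change B.ω x.2.1 y.2.1 + (A.ω x.1 y.1 + C.ω x.2.2 y.2.2) = A.ω x.1 y.1 + (B.ω x.2.1 y.2.1 + C.ω x.2.2 y.2.2)
  ring

theorem Iso.sum_assoc (A B C : FM F) : Iso ((A.sum B).sum C) (A.sum (B.sum C)) := by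
  refine ⟨LinearEquiv.prodAssoc F A.V B.V C.V, fun x y => ?_, fun x => rfl⟩
  change A.ω x.1.1 y.1.1 + (B.ω x.1.2 y.1.2 + C.ω x.2 y.2) = A.ω x.1.1 y.1.1 + B.ω x.1.2 y.1.2 + C.ω x.2 y.2
  ring

/-- The shift on coordinates. -/
def Sh (j : ℕ) : (Fin j → F) →ₗ[F] (Fin j → F) where
  toFun x a := if h : 0 < (a : ℕ) then x ⟨a - 1, by omega⟩ else 0
  map_add' x y := by ext a; by_cases h : 0 < (a : ℕ) <;> simp [h]
  map_smul' c x := by ext a; by_cases h : 0 < (a : ℕ) <;> simp [h]

theorem Sh_apply (j : ℕ) (x : Fin j → F) (a : Fin j) :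
    Sh j x a = if h : 0 < (a : ℕ) then x ⟨a - 1, by omega⟩ else 0 := rfl

theorem Sh_pow (j k : ℕ) (x : Fin j → F) (a : Fin j) :
    ((Sh j ^ k) x) a = if h : k ≤ (a : ℕ) then x ⟨a - k, by omega⟩ else 0 := by
  induction k generalizing a with
  | zero => simp
  | succ k ih =>
    rw [pow_succ', Module.End.mul_apply, Sh_apply]
    by_cases h : k + 1 ≤ (a : ℕ)
    · rw [dif_pos (by omega), dif_pos h, ih, dif_pos (by simp; omega)]
      congr 1
      apply Fin.ext
      simp; omega
    · rw [dif_neg h]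
      by_cases h0 : 0 < (a : ℕ)
      · rw [dif_pos h0, ih, dif_neg (by simp; omega)]
      · rw [dif_neg h0]

theorem Sh_pow_eq_zero (j k : ℕ) (hk : j ≤ k) : (Sh j : (Fin j → F) →ₗ[F] (Fin j → F)) ^ k = 0 := by
  ext x a
  simp only [LinearMap.coe_comp, Function.comp_apply, LinearMap.zero_apply, Pi.zero_apply]
  rw [Sh_pow, dif_neg]
  have := a.2
  omega

theorem Sh_pow_zero_iff (j k : ℕ) (x : Fin j → F) :
    (Sh j ^ k) x = 0 ↔ ∀ b : Fin j, (b : ℕ) + k < j → x b = 0 := by
  constructor
  · intro h b hb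
    have := congrFun h ⟨b + k, hb⟩
    rw [Sh_pow, dif_pos (by simp)] at this
    simpa using this
  · intro h
    ext a
    rw [Sh_pow]
    split_ifs with hk
    · exact h _ (by simp; have := a.2; omega)
    · rfl

/-- The standard pairing between coordinates. -/
def P (j : ℕ) : (Fin j → F) →ₗ[F] (Fin j → F) →ₗ[F] F :=
  LinearMap.mk₂ F (fun x y => ∑ a : Fin j, (-1 : F) ^ (a : ℕ) * x a * y (Fin.rev a))
    (by intros; simp [mul_add, add_mul, Finset.sum_add_distrib])
    (by intros; simp [Finset.mul_sum, mul_left_comm, mul_assoc])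
    (by intros; simp [mul_add, Finset.sum_add_distrib])
    (by intros; simp [Finset.mul_sum, mul_left_comm, mul_assoc])

theorem P_apply (j : ℕ) (x y : Fin j → F) :
    P j x y = ∑ a : Fin j, (-1 : F) ^ (a : ℕ) * x a * y (Fin.rev a) := rfl

theorem P_Sh (j : ℕ) (x y : Fin j → F) : P j (Sh j x) y = - P j x (Sh j y) := by
  cases j with
  | zero => simp [P_apply]
  | succ n =>
    rw [P_apply, P_apply, Fin.sum_univ_succ, Fin.sum_univ_castSucc (n := n)]
    rw [neg_add, Sh_apply, dif_neg (by simp)]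
    have hl : Sh (n + 1) y (Fin.rev (Fin.last n)) = 0 := by
      rw [Sh_apply, dif_neg]
      simp
    rw [hl]
    simp only [mul_zero, zero_mul, add_zero, neg_zero, ← Finset.sum_neg_distrib, zero_add]
    apply Finset.sum_congr rfl
    intro b _
    rw [Sh_apply, dif_pos (by simp), Sh_apply, dif_pos]
    · have e1 : (⟨(b.succ : Fin (n+1)).val - 1, by simp⟩ : Fin (n + 1)) = b.castSucc := by
        apply Fin.ext; simp
      rw [e1]
      have e2 : (b.succ).rev = b.rev.castSucc := Fin.rev_succ b
      have e3 : (b.castSucc).rev = b.rev.succ := Fin.rev_castSucc b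
      simp only [e2, e3, Fin.val_succ, Fin.val_castSucc]
      have e4 : (⟨(b.rev.succ : Fin (n+1)).val - 1, by simp⟩ : Fin (n + 1)) = b.rev.castSucc := by
        apply Fin.ext; simp
      simp only [Fin.val_succ, Nat.add_sub_cancel] at e4 ⊢
      rw [e4, pow_succ]; ring
    · simp [Fin.rev_castSucc]

theorem P_left_nd (j : ℕ) (x : Fin j → F) (h : ∀ y, P j x y = 0) : x = 0 := by
  ext a
  have := h (Pi.single (Fin.rev a) 1)
  rw [P_apply, Finset.sum_eq_single a] at this
  · simpa [neg_one_pow_ne_zero] using this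
  · intro b _ hb
    rw [Pi.single_eq_of_ne (by simpa using hb)]
    simp
  · simp

theorem P_right_nd (j : ℕ) (y : Fin j → F) (h : ∀ x, P j x y = 0) : y = 0 := by
  ext a
  have := h (Pi.single (Fin.rev a) 1)
  rw [P_apply, Finset.sum_eq_single (Fin.rev a)] at this
  · simpa [neg_one_pow_ne_zero] using this
  · intro b _ hb
    rw [Pi.single_eq_of_ne hb]
    simp
  · simp

theorem neg_one_pow_rev {j : ℕ} (a : Fin j) :
    (-1 : F) ^ ((Fin.rev a : Fin j) : ℕ) * (-1 : F) ^ (a : ℕ) = (-1 : F) ^ (j - 1) := by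
  rw [← pow_add]
  congr 1
  have := a.2
  simp only [Fin.val_rev]
  omega

theorem P_symm (j : ℕ) (x y : Fin j → F) : P j x y = (-1 : F) ^ (j - 1) * P j y x := by
  rw [P_apply, P_apply, Finset.mul_sum, ← Equiv.sum_comp (Fin.revPerm) (fun a : Fin j => (-1 : F) ^ (j - 1) * ((-1 : F) ^ (a : ℕ) * y a * x (Fin.rev a)))]
  apply Finset.sum_congr rfl
  intro a _
  simp only [Fin.revPerm_apply, Fin.rev_rev]
  rw [← neg_one_pow_rev a]
  have h2 : ((-1 : F) ^ (a : ℕ)) * (-1 : F) ^ (a : ℕ) = 1 := by
    rw [← mul_pow]; simp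
  have h3 : ((-1 : F) ^ ((Fin.rev a : Fin j) : ℕ)) * (-1 : F) ^ ((Fin.rev a : Fin j) : ℕ) = 1 := by
    rw [← mul_pow]; simp
  linear_combination (-(-1 : F) ^ (a : ℕ) * x a * y (Fin.rev a)) * h3

theorem P_anti {j : ℕ} (hj : Even j) (hpos : 0 < j) (x y : Fin j → F) : P j x y = - P j y x := by
  rw [P_symm, Odd.neg_one_pow]
  · ring
  · obtain ⟨r, hr⟩ := hj
    exact ⟨r - 1, by omega⟩

/-- The block of even size with form scaled by `c`. -/
abbrev E (j : ℕ) (hj : Even j) (c : F) (hc : c ≠ 0) : FM F where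
  V := Fin j → F
  ω := c • P j
  N := Sh j
  anti x y := by
    rcases Nat.eq_zero_or_pos j with h0 | h0
    · subst h0; simp [P_apply]
    · simp only [LinearMap.smul_apply, smul_eq_mul]
      rw [P_anti hj h0]; ring
  nd x hx := by
    apply P_left_nd
    intro y
    have := hx y
    simpa [hc] using this
  skew x y := by
    simp only [LinearMap.smul_apply, smul_eq_mul]
    rw [P_Sh]; ring
  nil := ⟨j, Sh_pow_eq_zero j j le_rfl⟩

theorem E_ω (j : ℕ) (hj : Even j) (c : F) (hc : c ≠ 0) (x y : Fin j → F) :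
    (E j hj c hc).ω x y = c * P j x y := rfl

/-- The hyperbolic block. -/
abbrev H (j : ℕ) : FM F where
  V := (Fin j → F) × (Fin j → F)
  ω := (P j).compl₁₂ (LinearMap.fst F _ _) (LinearMap.snd F _ _) -
    (P j).flip.compl₁₂ (LinearMap.snd F _ _) (LinearMap.fst F _ _)
  N := (Sh j).prodMap (Sh j)
  anti x y := by
    simp only [LinearMap.sub_apply, LinearMap.compl₁₂_apply, LinearMap.fst_apply, LinearMap.snd_apply,
      LinearMap.flip_apply]
    ring
  nd x hx := by
    refine Prod.ext (P_left_nd _ _ fun y => ?_) (P_right_nd _ _ fun y => ?_)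
    · simpa using hx (0, y)
    · simpa using hx (y, 0)
  skew x y := by
    simp only [LinearMap.sub_apply, LinearMap.compl₁₂_apply, LinearMap.fst_apply, LinearMap.snd_apply,
      LinearMap.flip_apply, LinearMap.prodMap_apply]
    rw [P_Sh, P_Sh]; ring
  nil := by
    refine ⟨j, ?_⟩
    have : ∀ k (x : (Fin j → F) × (Fin j → F)), (((Sh j).prodMap (Sh j)) ^ k) x = ((Sh j ^ k) x.1, (Sh j ^ k) x.2) := by
      intro k x
      induction k generalizing x with
      | zero => rfl
      | succ k ih =>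
        rw [pow_succ, Module.End.mul_apply, ih, pow_succ]
        rfl
    apply LinearMap.ext
    intro x
    rw [this, Sh_pow_eq_zero j j le_rfl]
    rfl

theorem H_ω (j : ℕ) (x y : (Fin j → F) × (Fin j → F)) :
    (H j).ω x y = P j x.1 y.2 - P j y.1 x.2 := rfl

theorem H_pow (j k : ℕ) (x : (Fin j → F) × (Fin j → F)) :
    ((H (F := F) j).N ^ k) x = ((Sh j ^ k) x.1, (Sh j ^ k) x.2) := by
  induction k generalizing x with
  | zero => rfl
  | succ k ih =>
    rw [pow_succ, Module.End.mul_apply, ih, pow_succ]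
    rfl

/-- The trivial form module. -/
abbrev triv (F : Type u) [Field F] : FM F where
  V := PUnit
  ω := 0
  N := 0
  anti _ _ := by simp
  nd _ _ := rfl
  skew _ _ := by simp
  nil := ⟨1, by simp⟩

theorem Iso.of_subsingleton {A B : FM F} (hA : Subsingleton A.V) (hB : Subsingleton B.V) : Iso A B := by
  refine ⟨LinearEquiv.ofSubsingleton _ _, fun x y => ?_, fun x => Subsingleton.elim _ _⟩
  have hx : x = 0 := Subsingleton.elim _ _
  simp only [hx, map_zero, LinearMap.zero_apply]

theorem skew_pow (A : FM F) (k : ℕ) (x y : A.V) :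
    A.ω ((A.N ^ k) x) y = (-1) ^ k * A.ω x ((A.N ^ k) y) := by
  induction k generalizing x y with
  | zero => simp
  | succ k ih =>
    have h1 : (A.N ^ (k + 1)) x = (A.N ^ k) (A.N x) := by rw [pow_succ]; rfl
    have h2 : (A.N ^ (k + 1)) y = A.N ((A.N ^ k) y) := by rw [pow_succ']; rfl
    rw [h1, h2, ih, A.skew, pow_succ]
    ring

theorem gram_pow (A : FM F) (a b : ℕ) (x y : A.V) :
    A.ω ((A.N ^ a) x) ((A.N ^ b) y) = (-1) ^ a * A.ω x ((A.N ^ (a + b)) y) := by
  rw [skew_pow, pow_add, Module.End.mul_apply]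

theorem sym_pow (A : FM F) (k : ℕ) (x y : A.V) :
    A.ω x ((A.N ^ k) y) = (-1) ^ (k + 1) * A.ω y ((A.N ^ k) x) := by
  rw [A.anti, skew_pow, pow_succ]
  ring

/-- The map from coordinates given by a cyclic chain. -/
noncomputable def chain (A : FM F) (v : A.V) (j : ℕ) : (Fin j → F) →ₗ[F] A.V :=
  Fintype.linearCombination F (fun a : Fin j => (A.N ^ (a : ℕ)) v)

theorem chain_apply (A : FM F) (v : A.V) (j : ℕ) (x : Fin j → F) :
    chain A v j x = ∑ a, x a • (A.N ^ (a : ℕ)) v := by
  simp [chain, Fintype.linearCombination_apply]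

theorem chain_N (A : FM F) (v : A.V) (j : ℕ) (hj : (A.N ^ j) v = 0) (x : Fin j → F) :
    chain A v j (Sh j x) = A.N (chain A v j x) := by
  cases j with
  | zero => simp [chain_apply]
  | succ n =>
    rw [chain_apply, chain_apply, map_sum, Fin.sum_univ_succ, Fin.sum_univ_castSucc (n := n)]
    rw [Sh_apply, dif_neg (by simp)]
    simp only [zero_smul, zero_add, map_smul]
    have hl : A.N ((A.N ^ ((Fin.last n : Fin (n + 1)) : ℕ)) v) = 0 := by
      rw [← Module.End.mul_apply, ← pow_succ']
      simpa using hj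
    rw [hl, smul_zero, add_zero]
    apply Finset.sum_congr rfl
    intro b _
    rw [Sh_apply, dif_pos (by simp), ← Module.End.mul_apply, ← pow_succ']
    congr 1

theorem chain_form (A : FM F) (u u' : A.V) (j : ℕ) (c : F)
    (h : ∀ k, A.ω u ((A.N ^ k) u') = if k = j - 1 then c else 0) (x y : Fin j → F) :
    A.ω (chain A u j x) (chain A u' j y) = c * P j x y := by
  simp only [chain_apply, map_sum, LinearMap.sum_apply, map_smul, LinearMap.smul_apply, smul_eq_mul,
    gram_pow, h]
  rw [P_apply, Finset.mul_sum]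
  simp only [Finset.mul_sum]
  rw [Finset.sum_comm]
  apply Finset.sum_congr rfl
  intro a _
  rw [Finset.sum_eq_single (Fin.rev a)]
  · rw [if_pos]
    · ring
    · have := a.2
      simp only [Fin.val_rev]
      omega
  · intro b _ hb
    rw [if_neg]
    · simp
    · intro hab
      apply hb
      apply Fin.ext
      have := a.2
      simp only [Fin.val_rev]
      omega
  · simp

/-- A nondegenerate isometric equivariant embedding splits off. -/
theorem exists_split (X A : FM F) (φ : X.V →ₗ[F] A.V) (hω : ∀ x y, A.ω (φ x) (φ y) = X.ω x y)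
    (hN : ∀ x, φ (X.N x) = A.N (φ x)) :
    ∃ A₁ : FM F, Iso A (X.sum A₁) ∧ finrank F A.V = finrank F X.V + finrank F A₁.V := by
  classical
  let W : Submodule F A.V :=
    { carrier := {v | ∀ x, A.ω v (φ x) = 0}
      add_mem' := fun {a b} ha hb x => by
        simp only [map_add, LinearMap.add_apply, ha x, hb x, add_zero]
      zero_mem' := fun x => by simp
      smul_mem' := fun c a ha x => by simp [ha x] }
  have hmem : ∀ v, v ∈ W ↔ ∀ x, A.ω v (φ x) = 0 := fun v => Iff.rfl
  have hWN : ∀ v ∈ W, A.N v ∈ W := by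
    intro v hv x
    rw [A.skew, ← hN, hv, neg_zero]
  have hsurj : Function.Surjective X.ω := by
    have hinj : Function.Injective X.ω := by
      rw [injective_iff_map_eq_zero]
      intro x hx
      exact X.nd x (fun y => by rw [hx]; rfl)
    exact (LinearMap.injective_iff_surjective_of_finrank_eq_finrank
      (Subspace.dual_finrank_eq (K := F) (V := X.V)).symm).mp hinj
  have hdec : ∀ u : A.V, ∃ x, u - φ x ∈ W := by
    intro u
    obtain ⟨x, hx⟩ := hsurj ((A.ω u).comp φ)
    refine ⟨x, fun y => ?_⟩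
    have := LinearMap.congr_fun hx y
    simp only [LinearMap.comp_apply] at this
    rw [map_sub, LinearMap.sub_apply, hω, this, sub_self]
  let A₁ : FM F :=
    { V := W
      ω := A.ω.domRestrict₁₂ W W
      N := A.N.restrict hWN
      anti := fun x y => A.anti x.1 y.1
      nd := fun v hv => by
        apply Subtype.ext
        apply A.nd
        intro u
        obtain ⟨x, hx⟩ := hdec u
        have h1 := hv ⟨u - φ x, hx⟩
        have h2 : A.ω v.1 (u - φ x) = 0 := h1
        rw [map_sub, sub_eq_zero, v.2 x] at h2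
        exact h2
      skew := fun x y => A.skew x.1 y.1
      nil := by
        obtain ⟨k, hk⟩ := A.nil
        refine ⟨k, ?_⟩
        apply LinearMap.ext
        intro x
        apply Subtype.ext
        have : ∀ (k : ℕ) (x : W), (((A.N.restrict hWN) ^ k) x : A.V) = (A.N ^ k) x.1 := by
          intro k x
          induction k generalizing x with
          | zero => simp
          | succ k ih =>
            rw [pow_succ, Module.End.mul_apply, ih, pow_succ, Module.End.mul_apply]
            rfl
        rw [this, hk]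
        rfl }
  let e₀ : (X.V × W) →ₗ[F] A.V := LinearMap.coprod φ W.subtype
  have he₀ : ∀ x w, e₀ (x, w) = φ x + w.1 := fun x w => by simp [e₀]
  have hbij : Function.Bijective e₀ := by
    constructor
    · rw [injective_iff_map_eq_zero]
      rintro ⟨x, w⟩ h
      rw [he₀] at h
      have hx : x = 0 := by
        apply X.nd
        intro y
        rw [← hω]
        have : φ x = - w.1 := eq_neg_of_add_eq_zero_left h
        rw [this, map_neg, LinearMap.neg_apply, w.2 y, neg_zero]
      subst hx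
      have hw : w = 0 := by
        apply Subtype.ext
        simpa using h
      rw [hw]
      rfl
    · intro u
      obtain ⟨x, hx⟩ := hdec u
      exact ⟨(x, ⟨_, hx⟩), by rw [he₀]; exact add_sub_cancel _ _⟩
  let e := LinearEquiv.ofBijective e₀ hbij
  refine ⟨A₁, Iso.symm ⟨e, fun x y => ?_, fun x => ?_⟩, ?_⟩
  · obtain ⟨x, w⟩ := x
    obtain ⟨y, w'⟩ := y
    change A.ω (e₀ (x, w)) (e₀ (y, w')) = X.ω x y + A.ω w.1 w'.1
    rw [he₀, he₀]
    simp only [map_add, LinearMap.add_apply, hω]
    rw [w.2 y, A.anti (φ x) w'.1, w'.2 x]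
    ring
  · obtain ⟨x, w⟩ := x
    change e₀ (X.N x, ⟨A.N w.1, hWN _ w.2⟩) = A.N (e₀ (x, w))
    rw [he₀, he₀, hN, map_add]
  · rw [← e.finrank_eq, Module.finrank_prod]

/-- Admissible decomposition types. -/
inductive HasType : FM F → Multiset ℕ → (ℕ → F) → Prop
  | zero (A : FM F) (h : Subsingleton A.V) : HasType A 0 (fun _ => 1)
  | addE (j : ℕ) (hj : Even j) (hpos : 0 < j) (c : F) (hc : c ≠ 0) {A : FM F} {μ : Multiset ℕ}
      {d : ℕ → F} : HasType A μ d →
      HasType ((E j hj c hc).sum A) (j ::ₘ μ) (Function.update d j (c * d j))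
  | addH (j : ℕ) (hj : Odd j) {A : FM F} {μ : Multiset ℕ} {d : ℕ → F} : HasType A μ d →
      HasType ((H j).sum A) (j ::ₘ j ::ₘ μ) d
  | iso {A B : FM F} {μ : Multiset ℕ} {d : ℕ → F} : Iso A B → HasType B μ d → HasType A μ d

end FM

end Cfsg.Agent.Lib.SpFM
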