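import Cfsg.Agent.Lib.SpFMClass

/-!
# Cayley transform between symplectic elements of order dividing `p` and skew nilpotents
-/

set_option autoImplicit false

namespace Cfsg.Agent.Lib.SpFM

open Module Matrix

universe u

section RingLemmas

variable {R : Type*} [Ring R]

theorem cay_left {g N : R} (h : N * (g + 1) = g - 1) : (1 - N) * g = 1 + N := by
  have h1 : N * g = g - 1 - N := by
    rw [← h]; noncomm_ring
  calc (1 - N) * g = g - N * g := by noncomm_ring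
    _ = 1 + N := by rw [h1]; noncomm_ring

theorem cay_conj_of_N {g N g' N' h : R} (hu : IsUnit (1 - N')) (h1 : N * (g + 1) = g - 1)
    (h2 : N' * (g' + 1) = g' - 1) (hN : h * N = N' * h) : h * g = g' * h := by
  apply hu.mul_left_cancel
  have h3 := cay_left h1
  have h4 := cay_left h2
  calc (1 - N') * (h * g) = h * ((1 - N) * g) := by
        have : h * ((1 - N) * g) = h * g - (h * N) * g := by noncomm_ring
        rw [this, hN]; noncomm_ring
    _ = h + h * N := by rw [h3]; noncomm_ring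
    _ = h + N' * h := by rw [hN]
    _ = (1 + N') * h := by noncomm_ring
    _ = ((1 - N') * g') * h := by rw [h4]
    _ = (1 - N') * (g' * h) := by noncomm_ring

theorem cay_N_of_conj {g N g' N' h : R} (hu : IsUnit (g + 1)) (h1 : N * (g + 1) = g - 1)
    (h2 : N' * (g' + 1) = g' - 1) (hg : h * g = g' * h) : h * N = N' * h := by
  apply hu.mul_right_cancel
  have h3 : h * (g + 1) = (g' + 1) * h := by
    rw [mul_add, hg]; noncomm_ring
  calc h * N * (g + 1) = h * (N * (g + 1)) := by noncomm_ring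
    _ = h * g - h := by rw [h1]; noncomm_ring
    _ = (g' - 1) * h := by rw [hg]; noncomm_ring
    _ = N' * (g' + 1) * h := by rw [h2]
    _ = N' * ((g' + 1) * h) := by noncomm_ring
    _ = N' * h * (g + 1) := by rw [← h3]; noncomm_ring

theorem unit_g1 {g N : R} (h2 : IsUnit (2 : R)) (hN : IsNilpotent N) (h1 : N * (g + 1) = g - 1) :
    IsUnit (g + 1) := by
  obtain ⟨u, hu⟩ := hN.isUnit_one_sub
  have h3 : (1 - N) * (g + 1) = 2 := by
    have := cay_left h1
    calc (1 - N) * (g + 1) = (1 - N) * g + (1 - N) := by noncomm_ring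
      _ = (1 + N) + (1 - N) := by rw [this]
      _ = 1 + 1 := by noncomm_ring
      _ = 2 := one_add_one_eq_two
  have h4 : g + 1 = ((u⁻¹ : Rˣ) : R) * 2 := by
    rw [← h3, ← hu, ← mul_assoc, Units.inv_mul, one_mul]
  rw [h4]
  exact (Units.isUnit _).mul h2

theorem exists_g_of_N {N W : R} (h1 : W * (1 - N) = 1) (h2 : (1 - N) * W = 1) :
    N * ((1 + N) * W + 1) = (1 + N) * W - 1 := by
  have h3 : (1 + N) * W + 1 = ((1 + N) + (1 - N)) * W := by
    rw [add_mul (1 + N) (1 - N) W, h2]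
  have h4 : (1 + N) * W - 1 = ((1 + N) - (1 - N)) * W := by
    rw [sub_mul (1 + N) (1 - N) W, h2]
  rw [h3, h4]
  noncomm_ring

end RingLemmas

variable {F : Type u} [Field F]

/-- Square matrices on the doubled index. -/
abbrev Mt (m : ℕ) (F : Type u) := Matrix (Fin m ⊕ Fin m) (Fin m ⊕ Fin m) F

theorem Mt_add_pow {m p : ℕ} [Fact p.Prime] [CharP F p] {x y : Mt m F} (h : Commute x y) :
    (x + y) ^ p = x ^ p + y ^ p := by
  rcases isEmpty_or_nonempty (Fin m ⊕ Fin m) with he | hne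
  · exact Subsingleton.elim _ _
  · haveI : CharP (Mt m F) p := Matrix.charP p
    exact add_pow_char_of_commute _ h

theorem Mt_sub_pow {m p : ℕ} [Fact p.Prime] [CharP F p] {x y : Mt m F} (h : Commute x y) :
    (x - y) ^ p = x ^ p - y ^ p := by
  rcases isEmpty_or_nonempty (Fin m ⊕ Fin m) with he | hne
  · exact Subsingleton.elim _ _
  · haveI : CharP (Mt m F) p := Matrix.charP p
    exact sub_pow_char_of_commute _ h

theorem Mt_two_unit {m : ℕ} (h2 : (2 : F) ≠ 0) : IsUnit (2 : Mt m F) := by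
  refine IsUnit.of_mul_eq_one (((2 : F)⁻¹) • (1 : Mt m F)) ?_
  have : (2 : Mt m F) = (2 : F) • (1 : Mt m F) := by
    rw [two_smul, one_add_one_eq_two]
  rw [this, smul_mul_smul_comm, mul_one, mul_inv_cancel₀ h2, one_smul]

theorem Mt_form_eq {m : ℕ} {M M' : Mt m F} (h : ∀ x y : Fin m ⊕ Fin m → F, x ⬝ᵥ M *ᵥ y = x ⬝ᵥ M' *ᵥ y) :
    M = M' := by
  classical
  ext a b
  have := h (Pi.single a 1) (Pi.single b 1)
  simpa [Matrix.mulVec_single] using this

theorem dot_mulVec_left {m : ℕ} (h : Mt m F) (x y : Fin m ⊕ Fin m → F) :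
    (h *ᵥ x) ⬝ᵥ y = x ⬝ᵥ (hᵀ *ᵥ y) := by
  rw [Matrix.dotProduct_mulVec, Matrix.vecMul_transpose]

theorem mvl_pow {m : ℕ} (N : Mt m F) (k : ℕ) : N.mulVecLin ^ k = (N ^ k).mulVecLin := by
  induction k with
  | zero =>
    rw [pow_zero, pow_zero]
    exact Matrix.mulVecLin_one.symm
  | succ k ih =>
    rw [pow_succ, pow_succ, ih, Matrix.mulVecLin_mul]
    rfl

namespace FM

/-- The form module of a skew nilpotent matrix. -/
abbrev stdFM {m : ℕ} (N : Mt m F) (hN : Nᵀ * J (Fin m) F + J (Fin m) F * N = 0)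
    (hnil : ∃ k, N ^ k = 0) : FM F where
  V := Fin m ⊕ Fin m → F
  ω := LinearMap.mk₂ F (fun x y => x ⬝ᵥ (J (Fin m) F *ᵥ y))
    (by intros; simp [add_dotProduct])
    (by intros; simp [smul_dotProduct])
    (by intros; simp [mulVec_add, dotProduct_add])
    (by intros; simp [mulVec_smul, dotProduct_smul])
  N := N.mulVecLin
  anti x y := by
    simp only [LinearMap.mk₂_apply]
    rw [dotProduct_comm y, dot_mulVec_left, J_transpose, neg_mulVec, dotProduct_neg, neg_neg]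
  nd x hx := by
    simp only [LinearMap.mk₂_apply] at hx
    have h1 : x ᵥ* J (Fin m) F = 0 := by
      apply dotProduct_eq
      intro u
      rw [← Matrix.dotProduct_mulVec, hx, zero_dotProduct]
    have h3 : x ᵥ* (J (Fin m) F * J (Fin m) F) = 0 := by
      rw [← Matrix.vecMul_vecMul, h1, Matrix.zero_vecMul]
    rw [J_squared, Matrix.vecMul_neg, Matrix.vecMul_one] at h3
    exact neg_eq_zero.mp h3
  skew x y := by
    simp only [LinearMap.mk₂_apply, mulVecLin_apply]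
    have h1 : Nᵀ * J (Fin m) F = - (J (Fin m) F * N) := eq_neg_of_add_eq_zero_left hN
    rw [dot_mulVec_left, Matrix.mulVec_mulVec, h1, neg_mulVec, dotProduct_neg, Matrix.mulVec_mulVec]
  nil := by
    obtain ⟨k, hk⟩ := hnil
    refine ⟨k, ?_⟩
    rw [mvl_pow, hk]
    exact Matrix.mulVecLin_zero

theorem stdFM_ω {m : ℕ} (N : Mt m F) (hN : Nᵀ * J (Fin m) F + J (Fin m) F * N = 0)
    (hnil : ∃ k, N ^ k = 0) (x y : Fin m ⊕ Fin m → F) :
    (stdFM N hN hnil).ω x y = x ⬝ᵥ (J (Fin m) F *ᵥ y) := rfl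

theorem stdFM_N {m : ℕ} (N : Mt m F) (hN : Nᵀ * J (Fin m) F + J (Fin m) F * N = 0)
    (hnil : ∃ k, N ^ k = 0) (x : Fin m ⊕ Fin m → F) :
    (stdFM N hN hnil).N x = N *ᵥ x := rfl

theorem Mt_eq_of_mulVec {m : ℕ} {M M' : Mt m F} (h : ∀ x, M *ᵥ x = M' *ᵥ x) : M = M' := by
  apply Matrix.toLin'.injective
  exact LinearMap.ext h

/-- Isomorphism of standard form modules is conjugacy by a symplectic matrix. -/
theorem iso_stdFM_iff {m : ℕ} (N N' : Mt m F) (hN : Nᵀ * J (Fin m) F + J (Fin m) F * N = 0)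
    (hN' : N'ᵀ * J (Fin m) F + J (Fin m) F * N' = 0)
    (hnil : ∃ k, N ^ k = 0) (hnil' : ∃ k, N' ^ k = 0) :
    Iso (stdFM N hN hnil) (stdFM N' hN' hnil') ↔
      ∃ c : symplecticGroup (Fin m) F, c.1 * N = N' * c.1 := by
  constructor
  · rintro ⟨e, h1, h3⟩
    let h : Mt m F := LinearMap.toMatrix' (e : (Fin m ⊕ Fin m → F) →ₗ[F] (Fin m ⊕ Fin m → F))
    have hh : ∀ x, h *ᵥ x = e x := fun x => by
      simp only [h, LinearMap.toMatrix'_mulVec]
      rfl
    have hsp : h ∈ symplecticGroup (Fin m) F := by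
      rw [SymplecticGroup.mem_iff']
      apply Mt_form_eq
      intro x y
      have := h1 x y
      rw [stdFM_ω, stdFM_ω, ← hh, ← hh, dot_mulVec_left, Matrix.mulVec_mulVec, Matrix.mulVec_mulVec] at this
      exact this
    refine ⟨⟨h, hsp⟩, Mt_eq_of_mulVec fun x => ?_⟩
    rw [← Matrix.mulVec_mulVec, ← Matrix.mulVec_mulVec, hh, hh]
    exact h3 x
  · rintro ⟨c, hc⟩
    have hc1 : c.1 * (c⁻¹).1 = 1 := congrArg Subtype.val (mul_inv_cancel c)
    have hc2 : (c⁻¹).1 * c.1 = 1 := congrArg Subtype.val (inv_mul_cancel c)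
    have hsp := (SymplecticGroup.mem_iff'.mp c.2)
    refine ⟨LinearEquiv.ofLinearMap c.1.mulVecLin (c⁻¹).1.mulVecLin ?_ ?_, fun x y => ?_, fun x => ?_⟩
    · rw [← Matrix.mulVecLin_mul, hc1]
      exact Matrix.mulVecLin_one
    · rw [← Matrix.mulVecLin_mul, hc2]
      exact Matrix.mulVecLin_one
    · change (c.1 *ᵥ x) ⬝ᵥ (J (Fin m) F *ᵥ (c.1 *ᵥ y)) = x ⬝ᵥ (J (Fin m) F *ᵥ y)
      rw [dot_mulVec_left, Matrix.mulVec_mulVec, Matrix.mulVec_mulVec, hsp]
    · change c.1 *ᵥ (N *ᵥ x) = N' *ᵥ (c.1 *ᵥ x)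
      rw [Matrix.mulVec_mulVec, Matrix.mulVec_mulVec, hc]

theorem exists_cay {m p : ℕ} [Fact p.Prime] [CharP F p] (h2 : (2 : F) ≠ 0)
    (g : symplecticGroup (Fin m) F) (hg : g ^ p = 1) :
    ∃ N : Mt m F, Nᵀ * J (Fin m) F + J (Fin m) F * N = 0 ∧ N ^ p = 0 ∧ N * (g.1 + 1) = g.1 - 1 := by
  obtain ⟨G, hGmem⟩ := g
  have hGp : G ^ p = 1 := by
    have := congrArg Subtype.val hg
    simpa using this
  have hU : (G - 1) ^ p = 0 := by
    rw [Mt_sub_pow (Commute.one_right G), hGp, one_pow, sub_self]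
  have hcomm2 : Commute (G - 1) (2 : Mt m F) := by
    change (G - 1) * 2 = 2 * (G - 1)
    noncomm_ring
  have hunit : IsUnit (G + 1) := by
    have := IsNilpotent.isUnit_add_left_of_commute ⟨p, hU⟩ (Mt_two_unit (m := m) h2) hcomm2
    have h3 : (2 : Mt m F) + (G - 1) = G + 1 := by
      rw [← one_add_one_eq_two]; noncomm_ring
    rwa [h3] at this
  obtain ⟨u, hu⟩ := hunit
  have hc1 : Commute (G - 1) (u : Mt m F) := by
    rw [hu]
    change (G - 1) * (G + 1) = (G + 1) * (G - 1)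
    noncomm_ring
  have hc2 : Commute (G - 1) ((u⁻¹ : (Mt m F)ˣ) : Mt m F) := hc1.units_inv_right
  have hrel : ((G - 1) * ((u⁻¹ : (Mt m F)ˣ) : Mt m F)) * (G + 1) = G - 1 := by
    rw [← hu, mul_assoc, Units.inv_mul, mul_one]
  refine ⟨(G - 1) * ((u⁻¹ : (Mt m F)ˣ) : Mt m F), ?_, ?_, hrel⟩
  · obtain ⟨N, hNdef⟩ : ∃ N, N = (G - 1) * ((u⁻¹ : (Mt m F)ˣ) : Mt m F) := ⟨_, rfl⟩
    rw [← hNdef] at hrel ⊢
    obtain ⟨Y, hY⟩ : ∃ Y : Mt m F, Y = ((u⁻¹ : (Mt m F)ˣ) : Mt m F) := ⟨_, rfl⟩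
    have hPY : (G + 1) * Y = 1 := by rw [hY, ← hu, Units.mul_inv]
    have hYt : Yᵀ * (G + 1)ᵀ = 1 := by
      rw [← transpose_mul, hPY, transpose_one]
    have hsp := SymplecticGroup.mem_iff'.mp hGmem
    have hrelt : (G + 1)ᵀ * Nᵀ = (G - 1)ᵀ := by
      rw [← transpose_mul, hrel]
    obtain ⟨K, hK⟩ : ∃ K, K = J (Fin m) F := ⟨_, rfl⟩
    rw [← hK] at hsp ⊢
    obtain ⟨Gt, hGt⟩ : ∃ Gt, Gt = Gᵀ := ⟨_, rfl⟩
    rw [← hGt] at hsp
    have hP1 : (G + 1)ᵀ = Gt + 1 := by rw [transpose_add, transpose_one, hGt]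
    have hP2 : (G - 1)ᵀ = Gt - 1 := by rw [transpose_sub, transpose_one, hGt]
    rw [hP1] at hYt hrelt
    rw [hP2] at hrelt
    have key : (Gt + 1) * (Nᵀ * K + K * N) * (G + 1) = 0 := by
      calc (Gt + 1) * (Nᵀ * K + K * N) * (G + 1)
          = ((Gt + 1) * Nᵀ) * K * (G + 1) + (Gt + 1) * K * (N * (G + 1)) := by noncomm_ring
        _ = (Gt - 1) * K * (G + 1) + (Gt + 1) * K * (G - 1) := by rw [hrelt, hrel]
        _ = 2 * (Gt * K * G) - 2 * K := by noncomm_ring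
        _ = 0 := by rw [hsp]; noncomm_ring
    calc Nᵀ * K + K * N = Yᵀ * (Gt + 1) * (Nᵀ * K + K * N) * ((G + 1) * Y) := by
          rw [hYt, hPY, one_mul, mul_one]
      _ = Yᵀ * ((Gt + 1) * (Nᵀ * K + K * N) * (G + 1)) * Y := by noncomm_ring
      _ = 0 := by rw [key]; noncomm_ring
  · rw [hc2.mul_pow, hU, zero_mul]

theorem exists_of_N {m p : ℕ} [Fact p.Prime] [CharP F p] (N : Mt m F)
    (hN : Nᵀ * J (Fin m) F + J (Fin m) F * N = 0) (hp : N ^ p = 0) :
    ∃ g : symplecticGroup (Fin m) F, g ^ p = 1 ∧ N * (g.1 + 1) = g.1 - 1 := by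
  have hnil : IsNilpotent N := ⟨p, hp⟩
  obtain ⟨u, hu⟩ := hnil.isUnit_one_sub
  obtain ⟨W, hWdef⟩ : ∃ W : Mt m F, W = ((u⁻¹ : (Mt m F)ˣ) : Mt m F) := ⟨_, rfl⟩
  have hW1 : W * (1 - N) = 1 := by rw [hWdef, ← hu, Units.inv_mul]
  have hW2 : (1 - N) * W = 1 := by rw [hWdef, ← hu, Units.mul_inv]
  have hcomm : Commute W N := by
    change W * N = N * W
    have h1 : W - W * N = 1 := by rw [← hW1]; noncomm_ring
    have h3 : W - N * W = 1 := by rw [← hW2]; noncomm_ring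
    have h4 : W - W * N = W - N * W := by rw [h1, h3]
    exact sub_right_injective h4
  have hWt : Wᵀ * (1 - Nᵀ) = 1 := by
    have := congrArg transpose hW2
    rwa [transpose_mul, transpose_sub, transpose_one] at this
  have hsp : (1 + N) * W ∈ symplecticGroup (Fin m) F := by
    rw [SymplecticGroup.mem_iff', transpose_mul, transpose_add, transpose_one]
    obtain ⟨K, hK⟩ : ∃ K, K = J (Fin m) F := ⟨_, rfl⟩
    rw [← hK] at hN ⊢
    have h1 : Nᵀ * K = - (K * N) := eq_neg_of_add_eq_zero_left hN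
    have h3 : (1 + Nᵀ) * K = K * (1 - N) := by
      rw [add_mul, h1]; noncomm_ring
    have h4 : (1 - Nᵀ) * K = K * (1 + N) := by
      rw [sub_mul, h1]; noncomm_ring
    calc Wᵀ * (1 + Nᵀ) * K * ((1 + N) * W) = Wᵀ * ((1 + Nᵀ) * K) * ((1 + N) * W) := by noncomm_ring
      _ = Wᵀ * (K * (1 - N)) * ((1 + N) * W) := by rw [h3]
      _ = Wᵀ * (K * (1 + N)) * ((1 - N) * W) := by noncomm_ring
      _ = Wᵀ * ((1 - Nᵀ) * K) * ((1 - N) * W) := by rw [h4]
      _ = (Wᵀ * (1 - Nᵀ)) * K * ((1 - N) * W) := by noncomm_ring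
      _ = K := by rw [hWt, hW2, one_mul, mul_one]
  refine ⟨⟨(1 + N) * W, hsp⟩, ?_, exists_g_of_N hW1 hW2⟩
  apply Subtype.ext
  have hc3 : Commute (1 + N) W := ((Commute.one_left W).add_left hcomm.symm)
  have h3 : (1 + N) ^ p = 1 := by
    rw [Mt_add_pow (Commute.one_left N), hp, add_zero, one_pow]
  have h4 : (1 - N) ^ p = 1 := by
    rw [Mt_sub_pow (Commute.one_left N), hp, sub_zero, one_pow]
  have hc4 : Commute W (1 - N) := (Commute.one_right W).sub_right hcomm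
  have h5 : W ^ p = 1 := by
    have := hc4.mul_pow p
    rw [hW1, one_pow, h4, mul_one] at this
    exact this.symm
  change ((1 + N) * W) ^ p = 1
  rw [hc3.mul_pow, h3, h5, one_mul]

/-- The same space with zero endomorphism. -/
abbrev zeroN (A : FM F) : FM F where
  V := A.V
  ω := A.ω
  N := 0
  anti := A.anti
  nd := A.nd
  skew _ _ := by simp
  nil := ⟨1, by simp⟩

theorem eq_replicate_of_zero {B : FM F} {μ : Multiset ℕ} {d : ℕ → F} (hB : B.N = 0)
    (h : HasType B μ d) : μ = Multiset.replicate (finrank F B.V) 1 := by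
  have h1 : ∀ p ∈ μ, p ≤ 1 := (h.pow_eq_zero_iff 1).1 (by rw [pow_one, hB])
  have h3 : ∀ p ∈ μ, p = 1 := fun p hp => by
    have := h1 p hp
    have := h.pos p hp
    omega
  have h4 := Multiset.eq_replicate_card.mpr h3
  have h5 := h.finrank_eq
  rw [h4] at h5
  simp only [Multiset.sum_replicate, smul_eq_mul, mul_one] at h5
  rw [h5]
  exact h4

theorem iso_of_zero [Fintype F] (h2 : (2 : F) ≠ 0) {B C : FM F} (hB : B.N = 0) (hC : C.N = 0)
    (hdim : finrank F B.V = finrank F C.V) : Iso B C := by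
  obtain ⟨μ, d, h⟩ := exists_type h2 B
  obtain ⟨μ', d', h'⟩ := exists_type h2 C
  have e1 := eq_replicate_of_zero hB h
  have e2 := eq_replicate_of_zero hC h'
  rw [← hdim] at e2
  have hμ : μ = μ' := e1.trans e2.symm
  subst hμ
  refine type_change h2 h h' fun j hj hje => ?_
  have hj1 : j ∉ μ := by
    rw [e1]
    intro hm
    have := Multiset.eq_of_mem_replicate hm
    subst this
    exact absurd hje (by decide)
  rw [h.d_one j hj1, h'.d_one j hj1]
  simp

theorem realize [Fintype F] {m : ℕ} (h2 : (2 : F) ≠ 0) (A : FM F) (hdim : finrank F A.V = 2 * m) :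
    ∃ (N : Mt m F) (hN : Nᵀ * J (Fin m) F + J (Fin m) F * N = 0) (hnil : ∃ k, N ^ k = 0),
      Iso A (stdFM N hN hnil) ∧ ∀ k, A.N ^ k = 0 → N ^ k = 0 := by
  have hZ0 : (0 : Mt m F)ᵀ * J (Fin m) F + J (Fin m) F * 0 = 0 := by simp
  have hZ1 : ∃ k, (0 : Mt m F) ^ k = 0 := ⟨1, by simp⟩
  have hiso : Iso (zeroN A) (stdFM (0 : Mt m F) hZ0 hZ1) := by
    apply iso_of_zero h2 rfl Matrix.mulVecLin_zero
    change finrank F A.V = finrank F (Fin m ⊕ Fin m → F)
    rw [hdim]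
    simp
    ring
  obtain ⟨e, he, _⟩ := hiso
  have he' : ∀ x y : A.V, (e x) ⬝ᵥ (J (Fin m) F *ᵥ (e y)) = A.ω x y := he
  let T : (Fin m ⊕ Fin m → F) →ₗ[F] (Fin m ⊕ Fin m → F) :=
    (e : A.V →ₗ[F] _) ∘ₗ A.N ∘ₗ (e.symm : _ →ₗ[F] A.V)
  let N : Mt m F := LinearMap.toMatrix' T
  have hNT : ∀ y, N *ᵥ y = e (A.N (e.symm y)) := fun y => by
    simp only [N, LinearMap.toMatrix'_mulVec]
    rfl
  have hNp : ∀ k y, (N ^ k) *ᵥ y = e ((A.N ^ k) (e.symm y)) := by
    intro k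
    induction k with
    | zero => intro y; simp
    | succ k ih =>
      intro y
      rw [pow_succ, ← Matrix.mulVec_mulVec, ih, hNT, LinearEquiv.symm_apply_apply, pow_succ,
        Module.End.mul_apply]
  have hN : Nᵀ * J (Fin m) F + J (Fin m) F * N = 0 := by
    apply Mt_form_eq
    intro x y
    rw [Matrix.zero_mulVec, dotProduct_zero, Matrix.add_mulVec, dotProduct_add,
      ← Matrix.mulVec_mulVec, ← Matrix.mulVec_mulVec, ← dot_mulVec_left, hNT, hNT]
    have h3 : ∀ u v, (e u) ⬝ᵥ (J (Fin m) F *ᵥ (e v)) = A.ω u v := he'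
    have h4 : x = e (e.symm x) := by simp
    have h5 : y = e (e.symm y) := by simp
    have h6 := A.skew (e.symm x) (e.symm y)
    rw [← he', ← he', LinearEquiv.apply_symm_apply, LinearEquiv.apply_symm_apply] at h6
    rw [h6]
    ring
  have hall : ∀ k, A.N ^ k = 0 → N ^ k = 0 := by
    intro k hk
    apply Mt_eq_of_mulVec
    intro x
    rw [hNp, hk]
    simp
  obtain ⟨k, hk⟩ := A.nil
  have hnil : ∃ k, N ^ k = 0 := ⟨k, hall k hk⟩
  refine ⟨N, hN, hnil, ⟨e, he, fun x => ?_⟩, hall⟩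
  change e (A.N x) = N *ᵥ (e x)
  rw [hNT, LinearEquiv.symm_apply_apply]

end FM

end Cfsg.Agent.Lib.SpFM
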