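import Cfsg.Agent.Lib.SpFMSub
import Cfsg.Agent.S5983

/-!
# Invariant nondegenerate subspaces of involutions in characteristic two
-/

set_option autoImplicit false

namespace Cfsg.Agent.Lib.SpFM

open Module Matrix

universe u

variable {F : Type u} [Field F]

namespace FM

/-- The form is alternating. -/
def Alt (A : FM F) : Prop := ∀ x, A.ω x x = 0

theorem Iso.sum_comm (A B : FM F) : Iso (A.sum B) (B.sum A) := by
  refine ⟨LinearEquiv.prodComm F A.V B.V, fun x y => ?_, fun x => rfl⟩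
  change B.ω x.2 y.2 + A.ω x.1 y.1 = A.ω x.1 y.1 + B.ω x.2 y.2
  ring

theorem Iso.alt_right {A X B : FM F} (h : Iso A (X.sum B)) (hA : Alt A) : Alt B := fun y => by
  obtain ⟨e, h1, -⟩ := h
  have := h1 (e.symm (0, y)) (e.symm (0, y))
  rw [hA, LinearEquiv.apply_symm_apply, sum_ω] at this
  simpa using this

theorem Iso.nil_right {A X B : FM F} (h : Iso A (X.sum B)) {j : ℕ} (hA : A.N ^ j = 0) : B.N ^ j = 0 := by
  apply LinearMap.ext
  intro y
  obtain ⟨e, -, h2⟩ := h
  have := pow_intertwine e h2 j (e.symm (0, y))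
  rw [hA, LinearEquiv.apply_symm_apply, sum_pow] at this
  simp only [LinearMap.zero_apply, map_zero] at this
  exact (Prod.ext_iff.1 this).2.symm

theorem Iso.beta_right {A X B : FM F} (h : Iso A (X.sum B)) (hA : ∀ x, A.ω x (A.N x) = 0) :
    ∀ y, B.ω y (B.N y) = 0 := fun y => by
  obtain ⟨e, h1, h2⟩ := h
  have := h1 (e.symm (0, y)) (A.N (e.symm (0, y)))
  rw [hA, h2, LinearEquiv.apply_symm_apply, sum_N, sum_ω] at this
  simpa using this

theorem split_core (A : FM F) {j : ℕ} (hN : A.N ^ j = 0) (v w : A.V)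
    (hvv : ∀ k, A.ω v ((A.N ^ k) v) = 0) (hww : ∀ k, A.ω w ((A.N ^ k) w) = 0)
    (hvw : ∀ k, A.ω v ((A.N ^ k) w) = if k = j - 1 then 1 else 0) :
    ∃ A₁ : FM F, Iso A ((H j).sum A₁) ∧ finrank F A.V = 2 * j + finrank F A₁.V := by
  have hgg : ∀ k, A.ω v ((A.N ^ k) v) = if k = j - 1 then 0 else 0 := by simpa using hvv
  have hww' : ∀ k, A.ω w ((A.N ^ k) w) = if k = j - 1 then 0 else 0 := by simpa using hww
  obtain ⟨A₁, h3, h4⟩ := exists_split (H j) A
    ((chain A v j).coprod (chain A w j))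
    (fun a b => by
      obtain ⟨a₁, a₂⟩ := a
      obtain ⟨b₁, b₂⟩ := b
      simp only [LinearMap.coprod_apply, map_add, LinearMap.add_apply]
      rw [chain_form A _ _ j 0 hgg, chain_form A _ _ j 1 hvw, chain_form A _ _ j 0 hww',
        A.anti (chain A w j a₂) (chain A v j b₁), chain_form A _ _ j 1 hvw, H_ω]
      ring)
    (fun a => by
      obtain ⟨a₁, a₂⟩ := a
      change chain A v j (Sh j a₁) + chain A w j (Sh j a₂) = A.N (chain A v j a₁ + chain A w j a₂)
      rw [chain_N A _ j (by rw [hN]; rfl), chain_N A _ j (by rw [hN]; rfl), map_add])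
  refine ⟨A₁, h3, ?_⟩
  rw [h4, Module.finrank_prod]
  simp
  ring

theorem split_H1 (A : FM F) (halt : Alt A) (h0 : A.N ^ 1 = 0) (u v : A.V) (huv : A.ω u v ≠ 0) :
    ∃ A₁ : FM F, Iso A ((H 1).sum A₁) ∧ finrank F A.V = 2 * 1 + finrank F A₁.V := by
  have hall : ∀ (k : ℕ) (x y : A.V), 1 ≤ k → A.ω x ((A.N ^ k) y) = 0 := fun k x y hk => van A h0 hk x y
  apply split_core A h0 ((A.ω u v)⁻¹ • u) v
  · intro k
    rcases Nat.eq_zero_or_pos k with rfl | hk
    · rw [pow_zero]
      exact halt _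
    · exact hall k _ _ hk
  · intro k
    rcases Nat.eq_zero_or_pos k with rfl | hk
    · rw [pow_zero]
      exact halt _
    · exact hall k _ _ hk
  · intro k
    rcases Nat.eq_zero_or_pos k with rfl | hk
    · simp [huv]
    · rw [hall k _ _ hk, if_neg (by omega)]

theorem split_H2 (A : FM F) (halt : Alt A) (hN : A.N ^ 2 = 0) (hβ : ∀ x, A.ω x (A.N x) = 0) (u v : A.V)
    (huv : A.ω u (A.N v) ≠ 0) :
    ∃ A₁ : FM F, Iso A ((H 2).sum A₁) ∧ finrank F A.V = 2 * 2 + finrank F A₁.V := by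
  have hall : ∀ (x : A.V) (k : ℕ), A.ω x ((A.N ^ k) x) = 0 := by
    intro x k
    match k with
    | 0 =>
      rw [pow_zero]
      exact halt _
    | 1 =>
      rw [pow_one]
      exact hβ _
    | k + 2 => exact van A hN (by omega) _ _
  have hp : A.ω ((A.ω u (A.N v))⁻¹ • u) ((A.N ^ (2 - 1)) v) = 1 := by
    simp [huv]
  obtain ⟨w', h1, h3⟩ := pair_step A (by norm_num) hN _ v (hall v) hp
  exact split_core A hN _ w' (hall _) h1 h3

theorem split_E2 (A : FM F) (halt : Alt A) (hN : A.N ^ 2 = 0) (v : A.V) (hv : A.ω v (A.N v) ≠ 0) :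
    ∃ (c : F) (hc : c ≠ 0) (A₁ : FM F), Iso A ((E 2 even_two c hc).sum A₁) ∧
      finrank F A.V = 2 + finrank F A₁.V := by
  have hk : ∀ k, A.ω v ((A.N ^ k) v) = if k = 2 - 1 then A.ω v (A.N v) else 0 := by
    intro k
    match k with
    | 0 =>
      rw [pow_zero, if_neg (by norm_num)]
      exact halt _
    | 1 =>
      rw [pow_one, if_pos (by norm_num)]
    | k + 2 =>
      rw [if_neg (by omega)]
      exact van A hN (by omega) _ _
  obtain ⟨A₁, h3, h4⟩ := exists_split (E 2 even_two _ hv) A (chain A v 2)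
    (fun x y => chain_form A v v 2 _ hk x y)
    (fun x => chain_N A v 2 (by rw [hN]; rfl) x)
  refine ⟨_, hv, A₁, h3, ?_⟩
  rw [h4]
  simp

theorem T_zero (A : FM F) (halt : Alt A) (h0 : A.N ^ 1 = 0) (t : ℕ) (hle : 2 * t ≤ finrank F A.V) :
    ∃ A₁ A₂ : FM F, Iso A (A₁.sum A₂) ∧ finrank F A₁.V = 2 * t := by
  induction t generalizing A with
  | zero =>
    exact ⟨triv F, A, iso_triv_sum A, finrank_zero_of_subsingleton⟩
  | succ t ih =>
    have hnt : Nontrivial A.V := by
      by_contra hc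
      rw [not_nontrivial_iff_subsingleton] at hc
      have := finrank_zero_of_subsingleton (R := F) (M := A.V)
      omega
    obtain ⟨u, hu⟩ := exists_ne (0 : A.V)
    obtain ⟨v, hv⟩ : ∃ v, A.ω u v ≠ 0 := by
      by_contra hc
      push Not at hc
      exact hu (A.nd u hc)
    obtain ⟨A', hi, hf⟩ := split_H1 A halt h0 u v hv
    obtain ⟨B₁, B₂, hB, hfB⟩ := ih A' (Iso.alt_right hi halt) (Iso.nil_right hi h0) (by omega)
    refine ⟨(H 1).sum B₁, B₂, ?_, ?_⟩
    · exact hi.trans ((Iso.sum_congr (Iso.refl _) hB).trans (Iso.sum_assoc _ _ _).symm)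
    · rw [Module.finrank_prod, hfB, Module.finrank_prod]
      simp
      ring

theorem T_two (A : FM F) (halt : Alt A) (hN : A.N ^ 2 = 0) (m : ℕ) (hm : Even m) (hn : Even (finrank F A.V))
    (hle : m ≤ finrank F A.V) (hc : finrank F A.V % 4 = 2 ∨ m % 4 = 0) :
    ∃ A₁ A₂ : FM F, Iso A (A₁.sum A₂) ∧ finrank F A₁.V = m := by
  induction hnn : finrank F A.V using Nat.strong_induction_on generalizing A m with
  | _ n ih =>
  subst hnn
  by_cases hm0 : m = 0
  · subst hm0
    exact ⟨triv F, A, iso_triv_sum A, finrank_zero_of_subsingleton⟩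
  by_cases hmn : m = finrank F A.V
  · exact ⟨A, triv F, iso_sum_triv A, hmn.symm⟩
  have hmev := hm
  obtain ⟨a, ha⟩ := hm
  obtain ⟨b, hb⟩ := hn
  by_cases hzero : A.N ^ 1 = 0
  · obtain ⟨B₁, B₂, hB, hf⟩ := T_zero A halt hzero a (by omega)
    exact ⟨B₁, B₂, hB, by omega⟩
  by_cases hβ : ∀ x, A.ω x (A.N x) = 0
  · obtain ⟨y, hy⟩ : ∃ y, (A.N ^ 1) y ≠ 0 := by
      by_contra hc
      push Not at hc
      exact hzero (LinearMap.ext hc)
    obtain ⟨u, hu⟩ : ∃ u, A.ω u (A.N y) ≠ 0 := by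
      by_contra hc
      push Not at hc
      apply hy
      rw [pow_one]
      apply A.nd
      intro z
      rw [A.anti, hc, neg_zero]
    obtain ⟨A', hi, hf⟩ := split_H2 A halt hN hβ u y hu
    have halt' := Iso.alt_right hi halt
    have hN' := Iso.nil_right hi hN
    by_cases h4 : 4 ≤ m
    · obtain ⟨B₁, B₂, hB, hfB⟩ := ih _ (by omega) A' halt' hN' (m - 4) ⟨a - 2, by omega⟩ ⟨b - 2, by omega⟩ (by omega)
        (by omega) rfl
      refine ⟨(H 2).sum B₁, B₂, ?_, ?_⟩
      · exact hi.trans ((Iso.sum_congr (Iso.refl _) hB).trans (Iso.sum_assoc _ _ _).symm)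
      · rw [Module.finrank_prod, hfB, Module.finrank_prod]
        simp
        omega
    · have hm2 : m = 2 := by omega
      obtain ⟨B₁, B₂, hB, hfB⟩ := ih _ (by omega) A' halt' hN' 2 even_two ⟨b - 2, by omega⟩ (by omega)
        (by omega) rfl
      refine ⟨B₁, (H 2).sum B₂, ?_, by omega⟩
      exact hi.trans ((Iso.sum_congr (Iso.refl _) hB).trans (Iso.sum_swap _ _ _))
  · push Not at hβ
    obtain ⟨v, hv⟩ := hβ
    obtain ⟨c, hc', A', hi, hf⟩ := split_E2 A halt hN v hv
    have halt' := Iso.alt_right hi halt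
    have hN' := Iso.nil_right hi hN
    by_cases h4 : m % 4 = 0
    · obtain ⟨B₁, B₂, hB, hfB⟩ := ih _ (by omega) A' halt' hN' m hmev ⟨b - 1, by omega⟩ (by omega)
        (Or.inr h4) rfl
      refine ⟨B₁, (E 2 even_two c hc').sum B₂, ?_, hfB⟩
      exact hi.trans ((Iso.sum_congr (Iso.refl _) hB).trans (Iso.sum_swap _ _ _))
    · obtain ⟨B₁, B₂, hB, hfB⟩ := ih _ (by omega) A' halt' hN' (m - 2) ⟨a - 1, by omega⟩ ⟨b - 1, by omega⟩ (by omega)
        (Or.inr (by omega)) rfl
      refine ⟨(E 2 even_two c hc').sum B₁, B₂, ?_, ?_⟩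
      · exact hi.trans ((Iso.sum_congr (Iso.refl _) hB).trans (Iso.sum_assoc _ _ _).symm)
      · rw [Module.finrank_prod, hfB]
        simp
        omega

theorem finrank_ker_H (j : ℕ) : finrank F (LinearMap.ker ((H (F := F) j).N ^ 1)) = 2 * min j 1 := by
  rw [finrank_ker_pair ((Sh j : (Fin j → F) →ₗ[F] (Fin j → F)) ^ 1) ((Sh j : (Fin j → F) →ₗ[F] (Fin j → F)) ^ 1) _
    (fun x => H_pow j 1 x), finrank_ker_Sh]
  ring

theorem exists_dim (A : FM F) (halt : Alt A) (hN : A.N ^ 2 = 0) (hβ : ∀ x, A.ω x (A.N x) = 0) :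
    ∃ a b : ℕ, finrank F A.V = 4 * a + 2 * b ∧ finrank F (LinearMap.ker (A.N ^ 1)) = 2 * a + 2 * b := by
  induction hnn : finrank F A.V using Nat.strong_induction_on generalizing A with
  | _ n ih =>
  subst hnn
  by_cases hsub : Subsingleton A.V
  · refine ⟨0, 0, finrank_zero_of_subsingleton, ?_⟩
    have : Subsingleton (LinearMap.ker (A.N ^ 1)) := inferInstance
    exact finrank_zero_of_subsingleton
  have hnt : Nontrivial A.V := not_subsingleton_iff_nontrivial.mp hsub
  by_cases hzero : A.N ^ 1 = 0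
  · obtain ⟨u, hu⟩ := exists_ne (0 : A.V)
    obtain ⟨v, hv⟩ : ∃ v, A.ω u v ≠ 0 := by
      by_contra hc
      push Not at hc
      exact hu (A.nd u hc)
    obtain ⟨A', hi, hf⟩ := split_H1 A halt hzero u v hv
    obtain ⟨a, b, h1, h3⟩ := ih _ (by omega) A' (Iso.alt_right hi halt) (Iso.nil_right hi hN) (Iso.beta_right hi hβ) rfl
    refine ⟨a, b + 1, by omega, ?_⟩
    rw [finrank_ker_iso hi, finrank_ker_pair _ _ _ (fun x => sum_pow _ _ 1 x), finrank_ker_H, h3]
    simp
    ring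
  · obtain ⟨y, hy⟩ : ∃ y, (A.N ^ 1) y ≠ 0 := by
      by_contra hc
      push Not at hc
      exact hzero (LinearMap.ext hc)
    obtain ⟨u, hu⟩ : ∃ u, A.ω u (A.N y) ≠ 0 := by
      by_contra hc
      push Not at hc
      apply hy
      rw [pow_one]
      apply A.nd
      intro z
      rw [A.anti, hc, neg_zero]
    obtain ⟨A', hi, hf⟩ := split_H2 A halt hN hβ u y hu
    obtain ⟨a, b, h1, h3⟩ := ih _ (by omega) A' (Iso.alt_right hi halt) (Iso.nil_right hi hN) (Iso.beta_right hi hβ) rfl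
    refine ⟨a + 1, b, by omega, ?_⟩
    rw [finrank_ker_iso hi, finrank_ker_pair _ _ _ (fun x => sum_pow _ _ 1 x), finrank_ker_H, h3]
    simp
    ring

theorem four_dvd (A A₁ A₂ : FM F) (hi : Iso A (A₁.sum A₂)) (halt : Alt A) (hN : A.N ^ 2 = 0)
    (hβ : ∀ x, A.ω x (A.N x) = 0) (hk : 2 * finrank F (LinearMap.ker (A.N ^ 1)) = finrank F A.V) :
    4 ∣ finrank F A₁.V := by
  have hi' := hi.trans (Iso.sum_comm _ _)
  obtain ⟨a₁, b₁, h1, h3⟩ := exists_dim A₁ (Iso.alt_right hi' halt) (Iso.nil_right hi' hN) (Iso.beta_right hi' hβ)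
  obtain ⟨a₂, b₂, h4, h5⟩ := exists_dim A₂ (Iso.alt_right hi halt) (Iso.nil_right hi hN) (Iso.beta_right hi hβ)
  have h6 : finrank F A.V = finrank F A₁.V + finrank F A₂.V := by
    obtain ⟨e, -, -⟩ := hi
    rw [e.finrank_eq, Module.finrank_prod]
  have h7 : finrank F (LinearMap.ker (A.N ^ 1)) = finrank F (LinearMap.ker (A₁.N ^ 1)) + finrank F (LinearMap.ker (A₂.N ^ 1)) := by
    rw [finrank_ker_iso hi, finrank_ker_pair _ _ _ (fun x => sum_pow _ _ 1 x)]
  rw [h1]
  exact ⟨a₁, by omega⟩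

theorem partB [CharP F 2] [Fintype F] (d m : ℕ) (hd : 0 < d) (hm : Even m) (hm2 : m ≤ 2 * d)
    (scalar_sq : ∀ (x : symplecticGroup (Fin d) F) (z : F),
      (x : Matrix (Fin d ⊕ Fin d) (Fin d ⊕ Fin d) F) = z • (1 : Matrix (Fin d ⊕ Fin d) (Fin d ⊕ Fin d) F) → z * z = 1) :
    (∀ x : symplecticGroup (Fin d) F,
      (∃ z : F, ((x ^ 2 : symplecticGroup (Fin d) F) : Matrix (Fin d ⊕ Fin d) (Fin d ⊕ Fin d) F) = z • (1 : Matrix (Fin d ⊕ Fin d) (Fin d ⊕ Fin d) F)) →
      (∀ z : F, (x : Matrix (Fin d ⊕ Fin d) (Fin d ⊕ Fin d) F) ≠ z • (1 : Matrix (Fin d ⊕ Fin d) (Fin d ⊕ Fin d) F)) →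
      ∃ W : Submodule F (Fin d ⊕ Fin d → F), finrank F W = m ∧ (∀ u ∈ W, u ≠ 0 → ∃ v ∈ W, Cfsg.sympForm d F u v ≠ 0) ∧
        W.map (Matrix.toLin' (x : Matrix (Fin d ⊕ Fin d) (Fin d ⊕ Fin d) F)) ≤ W) ↔
    ((2 * d) % 4 = 2 ∨ m % 4 = 0) := by
  classical
  have h2 : (2 : F) = 0 := CharTwo.two_eq_zero
  have hadd : ∀ Y : Mt d F, Y + Y = 0 := fun Y => by rw [← two_smul F Y, h2, zero_smul]
  have hdimV : finrank F (Fin d ⊕ Fin d → F) = 2 * d := by
    rw [Module.finrank_fintype_fun_eq_card]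
    simp
    ring
  have hskew : ∀ X : Mt d F, X * X = 1 → X ∈ symplecticGroup (Fin d) F →
      (X - 1)ᵀ * J (Fin d) F + J (Fin d) F * (X - 1) = 0 := by
    intro X hXX hX
    have h3 := SymplecticGroup.mem_iff'.mp hX
    have h4 : Xᵀ * J (Fin d) F = J (Fin d) F * X := by
      calc Xᵀ * J (Fin d) F = Xᵀ * J (Fin d) F * (X * X) := by rw [hXX, mul_one]
        _ = (Xᵀ * J (Fin d) F * X) * X := by noncomm_ring
        _ = J (Fin d) F * X := by rw [h3]
    rw [Matrix.transpose_sub, Matrix.transpose_one, Matrix.sub_mul, Matrix.mul_sub, h4, one_mul, mul_one]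
    have h5 := hadd (J (Fin d) F * X)
    have h6 := hadd (J (Fin d) F)
    calc J (Fin d) F * X - J (Fin d) F + (J (Fin d) F * X - J (Fin d) F)
        = (J (Fin d) F * X + J (Fin d) F * X) - (J (Fin d) F + J (Fin d) F) := by abel
      _ = 0 := by rw [h5, h6, sub_zero]
  have hsq : ∀ X : Mt d F, X * X = 1 → (X - 1) ^ 2 = 0 := by
    intro X hXX
    have h5 := hadd X
    have h6 := hadd (1 : Mt d F)
    calc (X - 1) ^ 2 = X * X + (1 + 1) - (X + X) - 1 := by noncomm_ring
      _ = 0 := by rw [hXX, h5, h6, sub_zero]; simp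
  constructor
  · intro H
    by_contra hc
    push Not at hc
    obtain ⟨hc1, hc2⟩ := hc
    have hde : Even d := ⟨d / 2, by omega⟩
    obtain ⟨A, hAdot, hAs⟩ := Cfsg.Agent.S5983.exists_alt_matrix (F := F) hde
    have hAA : A + A = 0 := by
      rw [← two_smul F A, h2, zero_smul]
    obtain ⟨X, hXdef⟩ : ∃ X : Mt d F, X = fromBlocks 1 A 0 1 := ⟨_, rfl⟩
    have hXX : X * X = 1 := by
      rw [hXdef, fromBlocks_multiply]
      simp [hAA, fromBlocks_one]
    let x₀ : GL (Fin d ⊕ Fin d) F := ⟨X, X, hXX, hXX⟩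
    have hiso : ∀ v, Cfsg.Agent.Lib.OrthoCount.qPlus d F (X *ᵥ v) = Cfsg.Agent.Lib.OrthoCount.qPlus d F v := by
      intro v
      rw [Cfsg.Agent.Lib.OrthoCount.qPlus_apply, Cfsg.Agent.Lib.OrthoCount.qPlus_apply, Cfsg.Agent.S5983.q_eq,
        Cfsg.Agent.S5983.q_eq, hXdef, Cfsg.Agent.S5983.block_inl, Cfsg.Agent.S5983.block_inr, add_dotProduct, hAdot, add_zero]
    have hXsp : X ∈ symplecticGroup (Fin d) F := by
      rw [Cfsg.Agent.Lib.SympForm.mem_symplecticGroup_iff_preserves]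
      exact (Cfsg.Agent.S5983.mem_spGL_iff x₀).1 (Cfsg.Agent.S5983.spGL_of_qPlus x₀ hiso)
    have hns : ∀ z : F, X ≠ z • (1 : Mt d F) := by
      intro z hz
      have hA0 : A = 0 := by
        ext i j
        have := congrFun (congrFun hz (Sum.inl i)) (Sum.inr j)
        rw [hXdef] at this
        simpa using this
      obtain ⟨s, hs⟩ := hAs (Pi.single ⟨0, hd⟩ 1)
      rw [hA0, Matrix.zero_mulVec] at hs
      have h4 := congrFun hs ⟨0, hd⟩
      simp at h4
    obtain ⟨W, hfin, hnd, hinv⟩ := H ⟨X, hXsp⟩ ⟨1, by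
      rw [one_smul, SubmonoidClass.coe_pow, pow_two]
      exact hXX⟩ hns
    have hN := hskew X hXX hXsp
    have hN2 := hsq X hXX
    have hnil : ∃ k, (X - 1) ^ k = 0 := ⟨2, hN2⟩
    have hNW : ∀ u ∈ W, (stdFM (X - 1) hN hnil).N u ∈ W := by
      intro u hu
      change (X - 1) *ᵥ u ∈ W
      rw [Matrix.sub_mulVec, Matrix.one_mulVec]
      exact W.sub_mem (hinv ⟨u, hu, rfl⟩) hu
    have hnd' : ∀ u ∈ W, (∀ v ∈ W, (stdFM (X - 1) hN hnil).ω u v = 0) → u = 0 := by
      intro u hu hv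
      by_contra hu0
      obtain ⟨v, hv1, hv2⟩ := hnd u hu hu0
      exact hv2 (hv v hv1)
    obtain ⟨A₂, hiso₂⟩ := exists_sum_of_sub (stdFM (X - 1) hN hnil) W hNW hnd'
    have hN3 : ∀ v : Fin d ⊕ Fin d → F, (X - 1) *ᵥ v = Sum.elim (A *ᵥ (v ∘ Sum.inr)) 0 := by
      intro v
      have h5 := Cfsg.Agent.S5983.block_inl A v
      have h6 := Cfsg.Agent.S5983.block_inr A v
      rw [← hXdef] at h5 h6
      rw [Matrix.sub_mulVec, Matrix.one_mulVec]
      funext i
      rcases i with i | i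
      · have := congrFun h5 i
        simp only [Function.comp_apply, Pi.add_apply] at this
        simp only [Pi.sub_apply, Sum.elim_inl]
        rw [this]
        ring
      · have := congrFun h6 i
        simp only [Function.comp_apply] at this
        simp only [Pi.sub_apply, Sum.elim_inr, Pi.zero_apply]
        rw [this]
        ring
    have h4 := four_dvd _ _ _ hiso₂ (fun u => Cfsg.Agent.Lib.SympForm.sympForm_self u)
      (by
        change (X - 1).mulVecLin ^ 2 = 0
        rw [mvl_pow, hN2]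
        exact Matrix.mulVecLin_zero)
      (by
        intro v
        change Cfsg.sympForm d F v ((X - 1) *ᵥ v) = 0
        rw [Cfsg.Agent.Lib.SympForm.sympForm_apply, hN3]
        simp only [Sum.elim_inl, Sum.elim_inr, Pi.zero_apply, mul_zero, sub_zero]
        have := hAdot (v ∘ Sum.inr)
        rw [dotProduct_comm] at this
        exact this)
      (by
        have hker : LinearMap.ker ((stdFM (X - 1) hN hnil).N ^ 1) = Cfsg.Agent.Lib.QuadClass2.L0 d F := by
          ext v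
          rw [LinearMap.mem_ker, pow_one, Cfsg.Agent.Lib.QuadClass2.mem_L0]
          change (X - 1) *ᵥ v = 0 ↔ _
          rw [hN3]
          have hinj : Function.Injective (Matrix.toLin' A) :=
            LinearMap.injective_iff_surjective.2 (fun w => (hAs w).imp fun s hs => by rw [Matrix.toLin'_apply, hs])
          constructor
          · intro h i
            have h5 : A *ᵥ (v ∘ Sum.inr) = 0 := by
              funext a
              exact congrFun h (Sum.inl a)
            have h6 : v ∘ Sum.inr = 0 := by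
              apply hinj
              rw [Matrix.toLin'_apply, h5, map_zero]
            exact congrFun h6 i
          · intro h
            have h6 : v ∘ Sum.inr = 0 := funext h
            rw [h6, Matrix.mulVec_zero]
            funext i
            rcases i with i | i <;> rfl
        rw [hker, Cfsg.Agent.Lib.QuadClass2.finrank_L0]
        exact hdimV.symm)
    have h5 : finrank F (ofSub (stdFM (X - 1) hN hnil) W hNW hnd').V = m := hfin
    rw [h5] at h4
    omega
  · rintro hc ⟨X, hXsp⟩ ⟨z, hz⟩ -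
    have hz2 : z * z = 1 := scalar_sq _ z hz
    have hz1 : z = 1 := by
      have h3 : (z - 1) * (z - 1) = 0 := by linear_combination hz2 - z * h2 + h2
      have := mul_self_eq_zero.1 h3
      exact sub_eq_zero.1 this
    have hXX : X * X = 1 := by
      have := hz
      rw [hz1, one_smul, SubmonoidClass.coe_pow, pow_two] at this
      exact this
    have hN := hskew X hXX hXsp
    have hN2 := hsq X hXX
    have hnil : ∃ k, (X - 1) ^ k = 0 := ⟨2, hN2⟩
    obtain ⟨A₁, A₂, hi, hf⟩ := T_two (stdFM (X - 1) hN hnil) (fun u => Cfsg.Agent.Lib.SympForm.sympForm_self u)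
      (by
        change (X - 1).mulVecLin ^ 2 = 0
        rw [mvl_pow, hN2]
        exact Matrix.mulVecLin_zero) m hm
      (by
        change Even (finrank F (Fin d ⊕ Fin d → F))
        rw [hdimV]
        exact even_two_mul d)
      (by
        change m ≤ finrank F (Fin d ⊕ Fin d → F)
        rw [hdimV]
        exact hm2)
      (by
        change finrank F (Fin d ⊕ Fin d → F) % 4 = 2 ∨ _
        rw [hdimV]
        exact hc)
    obtain ⟨W, hfin, hnd, hinv⟩ := exists_sub_of_iso hi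
    refine ⟨W, hfin.trans hf, hnd, ?_⟩
    rintro _ ⟨u, hu, rfl⟩
    have h3 : (X - 1) *ᵥ u ∈ W := hinv u hu
    rw [Matrix.sub_mulVec, Matrix.one_mulVec] at h3
    have h4 := W.add_mem h3 hu
    rw [sub_add_cancel] at h4
    exact h4

end FM

end Cfsg.Agent.Lib.SpFM
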