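import Cfsg.Agent.Lib.SpFMInv

/-!
# Classification of form modules over a finite field of odd characteristic
-/

set_option autoImplicit false

namespace Cfsg.Agent.Lib.SpFM

open Module

universe u

variable {F : Type u} [Field F]

namespace FM

theorem E_iso_of_square {j : ℕ} (hj : Even j) {c c' : F} (hc : c ≠ 0) (hc' : c' ≠ 0)
    (h : IsSquare (c * c')) : Iso (E j hj c hc) (E j hj c' hc') := by
  obtain ⟨s, hs⟩ := h
  have hs0 : s ≠ 0 := by
    rintro rfl
    simp [hc, hc'] at hs
  have ht : c / s ≠ 0 := div_ne_zero hc hs0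
  refine ⟨LinearEquiv.smulOfNeZero F _ (c / s) ht, fun x y => ?_, fun x => ?_⟩
  · change c' * P j ((c / s) • x) ((c / s) • y) = c * P j x y
    simp only [map_smul, LinearMap.smul_apply, smul_eq_mul]
    have : c' * (c / s * (c / s * P j x y)) = (c' * c) * c / s ^ 2 * P j x y := by
      field_simp
    rw [this, mul_comm c' c, hs]
    field_simp
  · change (c / s) • Sh j x = Sh j ((c / s) • x)
    rw [map_smul]

theorem E_witt {j : ℕ} (hj : Even j) {c b α β : F} (hc : c ≠ 0) (hb : b ≠ 0)
    (h : c * α ^ 2 + b * β ^ 2 = 1) :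
    Iso ((E j hj 1 one_ne_zero).sum (E j hj (c * b) (mul_ne_zero hc hb)))
      ((E j hj c hc).sum (E j hj b hb)) := by
  let e : ((Fin j → F) × (Fin j → F)) ≃ₗ[F] ((Fin j → F) × (Fin j → F)) :=
    { toFun := fun x => (α • x.1 - (b * β) • x.2, β • x.1 + (c * α) • x.2)
      map_add' := fun x y => by
        ext i <;> simp <;> ring
      map_smul' := fun r x => by
        ext i <;> simp <;> ring
      invFun := fun x => ((c * α) • x.1 + (b * β) • x.2, (-β) • x.1 + α • x.2)
      left_inv := fun x => by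
        ext i
        · simp only [Pi.add_apply, Pi.smul_apply, Pi.sub_apply, smul_eq_mul]
          linear_combination (x.1 i) * h
        · simp only [Pi.add_apply, Pi.smul_apply, Pi.sub_apply, smul_eq_mul]
          linear_combination (x.2 i) * h
      right_inv := fun x => by
        ext i
        · simp only [Pi.add_apply, Pi.smul_apply, Pi.sub_apply, smul_eq_mul]
          linear_combination (x.1 i) * h
        · simp only [Pi.add_apply, Pi.smul_apply, Pi.sub_apply, smul_eq_mul]
          linear_combination (x.2 i) * h }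
  refine ⟨e, fun x y => ?_, fun x => ?_⟩
  · change c * P j (α • x.1 - (b * β) • x.2) (α • y.1 - (b * β) • y.2) +
      b * P j (β • x.1 + (c * α) • x.2) (β • y.1 + (c * α) • y.2) =
      1 * P j x.1 y.1 + (c * b) * P j x.2 y.2
    simp only [map_sub, map_add, map_smul, LinearMap.sub_apply, LinearMap.add_apply, LinearMap.smul_apply,
      smul_eq_mul]
    linear_combination (P j x.1 y.1 + c * b * P j x.2 y.2) * h
  · change (α • Sh j x.1 - (b * β) • Sh j x.2, β • Sh j x.1 + (c * α) • Sh j x.2) =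
      (Sh j (α • x.1 - (b * β) • x.2), Sh j (β • x.1 + (c * α) • x.2))
    simp only [map_sub, map_add, map_smul]

theorem exists_repr [Fintype F] (h2 : (2 : F) ≠ 0) {c b : F} (hc : c ≠ 0) (hb : b ≠ 0) :
    ∃ α β : F, c * α ^ 2 + b * β ^ 2 = 1 := by
  have hodd : Fintype.card F % 2 = 1 := by
    apply FiniteField.odd_card_of_char_ne_two
    intro h
    apply h2
    have := ringChar.Nat.cast_ringChar (R := F)
    rw [h] at this
    exact_mod_cast this
  open Polynomial in
  have hf : (C c * X ^ 2 - 1 : F[X]).degree = 2 := by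
    rw [Polynomial.degree_sub_eq_left_of_degree_lt]
    · exact Polynomial.degree_C_mul_X_pow 2 hc
    · rw [Polynomial.degree_C_mul_X_pow 2 hc]
      simp
  open Polynomial in
  have hg : (C b * X ^ 2 : F[X]).degree = 2 := Polynomial.degree_C_mul_X_pow 2 hb
  obtain ⟨x, y, hxy⟩ := FiniteField.exists_root_sum_quadratic hf hg hodd
  refine ⟨x, y, ?_⟩
  simp at hxy
  linear_combination hxy

theorem HasType.extractH {A : FM F} {μ : Multiset ℕ} {d : ℕ → F} (h : HasType A μ d) {j : ℕ} (hj : Odd j)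
    (hm : j ∈ μ) : ∃ (A₁ : FM F) (μ₁ : Multiset ℕ), Iso A ((H j).sum A₁) ∧ HasType A₁ μ₁ d ∧ μ = j ::ₘ j ::ₘ μ₁ := by
  induction h with
  | zero A h => simp at hm
  | @addE k hk hkpos c hc A μ d ht ih =>
    rw [Multiset.mem_cons] at hm
    rcases hm with rfl | hm
    · exact absurd hk (Nat.not_even_iff_odd.mpr hj)
    have hne : j ≠ k := by
      rintro rfl
      exact absurd hk (Nat.not_even_iff_odd.mpr hj)
    obtain ⟨A₁, μ₁, h1, h3, rfl⟩ := ih hm
    refine ⟨(E k hk c hc).sum A₁, k ::ₘ μ₁, (Iso.sum_congr (Iso.refl _) h1).trans (Iso.sum_swap _ _ _),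
      HasType.addE k hk hkpos c hc h3, ?_⟩
    rw [Multiset.cons_swap, Multiset.cons_swap (a := j) (b := k)]
    rw [Multiset.cons_swap k j, Multiset.cons_swap k j]
  | @addH k hk A μ d ht ih =>
    by_cases hjk : j = k
    · subst hjk
      exact ⟨A, μ, Iso.refl _, ht, rfl⟩
    · have hm' : j ∈ μ := by
        simpa [hjk] using hm
      obtain ⟨A₁, μ₁, h1, h3, rfl⟩ := ih hm'
      refine ⟨(H k).sum A₁, k ::ₘ k ::ₘ μ₁, (Iso.sum_congr (Iso.refl _) h1).trans (Iso.sum_swap _ _ _),
        HasType.addH k hk h3, ?_⟩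
      ext a
      simp only [Multiset.count_cons]
      omega
  | iso hI _ ih =>
    obtain ⟨A₁, μ₁, h1, h3, h4⟩ := ih hm
    exact ⟨A₁, μ₁, hI.trans h1, h3, h4⟩

theorem HasType.extractE {A : FM F} {μ : Multiset ℕ} {d : ℕ → F} (h : HasType A μ d) {j : ℕ} (hj : Even j)
    (hm : j ∈ μ) : ∃ (c : F) (hc : c ≠ 0) (A₁ : FM F) (μ₁ : Multiset ℕ) (d₁ : ℕ → F),
      Iso A ((E j hj c hc).sum A₁) ∧ HasType A₁ μ₁ d₁ ∧ μ = j ::ₘ μ₁ ∧ d j = c * d₁ j ∧ ∀ k, k ≠ j → d₁ k = d k := by
  induction h with
  | zero A h => simp at hm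
  | @addE k hk hkpos c₀ hc₀ A μ d ht ih =>
    by_cases hjk : j = k
    · subst hjk
      refine ⟨c₀, hc₀, A, μ, d, Iso.refl _, ht, rfl, by simp, fun k hk => ?_⟩
      rw [Function.update_of_ne hk]
    · have hm' : j ∈ μ := by
        simpa [hjk] using hm
      obtain ⟨c, hc, A₁, μ₁, d₁, h1, h3, rfl, h5, h6⟩ := ih hm'
      refine ⟨c, hc, (E k hk c₀ hc₀).sum A₁, k ::ₘ μ₁, Function.update d₁ k (c₀ * d₁ k),
        (Iso.sum_congr (Iso.refl _) h1).trans (Iso.sum_swap _ _ _), HasType.addE k hk hkpos c₀ hc₀ h3,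
        Multiset.cons_swap _ _ _, ?_, fun i hi => ?_⟩
      · rw [Function.update_of_ne hjk, Function.update_of_ne hjk, h5]
      · by_cases hik : i = k
        · subst hik
          rw [Function.update_self, Function.update_self, h6 i hi]
        · rw [Function.update_of_ne hik, Function.update_of_ne hik, h6 i hi]
  | @addH k hk A μ d ht ih =>
    have hjk : j ≠ k := by
      rintro rfl
      exact absurd hj (Nat.not_even_iff_odd.mpr hk)
    have hm' : j ∈ μ := by
      simpa [hjk] using hm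
    obtain ⟨c, hc, A₁, μ₁, d₁, h1, h3, rfl, h5, h6⟩ := ih hm'
    refine ⟨c, hc, (H k).sum A₁, k ::ₘ k ::ₘ μ₁, d₁,
      (Iso.sum_congr (Iso.refl _) h1).trans (Iso.sum_swap _ _ _), HasType.addH k hk h3, ?_, h5, h6⟩
    ext a
    simp only [Multiset.count_cons]
    omega
  | iso hI _ ih =>
    obtain ⟨c, hc, A₁, μ₁, d₁, h1, h3, h4, h5, h6⟩ := ih hm
    exact ⟨c, hc, A₁, μ₁, d₁, hI.trans h1, h3, h4, h5, h6⟩

theorem HasType.extractN [Fintype F] (h2 : (2 : F) ≠ 0) {A : FM F} {μ : Multiset ℕ} {d : ℕ → F}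
    (h : HasType A μ d) {j : ℕ} (hj : Even j) (hpos : 0 < j)
    (hm : j ∈ μ) : ∃ (c : F) (hc : c ≠ 0) (A₁ : FM F) (μ₁ : Multiset ℕ) (d₁ : ℕ → F),
      Iso A ((E j hj c hc).sum A₁) ∧ HasType A₁ μ₁ d₁ ∧ μ = j ::ₘ μ₁ ∧ (∀ k, k ≠ j → d₁ k = d k) ∧
        ((j ∈ μ₁ ∧ c = 1 ∧ d₁ j = d j) ∨ (j ∉ μ₁ ∧ c = d j ∧ d₁ j = 1)) := by
  obtain ⟨c, hc, A₁, μ₁, d₁, h1, h3, h4, h5, h6⟩ := h.extractE hj hm
  by_cases hj₁ : j ∈ μ₁
  · obtain ⟨b, hb, A₂, μ₂, d₂, h1', h3', h4', h5', h6'⟩ := h3.extractE hj hj₁
    obtain ⟨α, β, hαβ⟩ := exists_repr h2 hc hb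
    refine ⟨1, one_ne_zero, (E j hj (c * b) (mul_ne_zero hc hb)).sum A₂, μ₁,
      Function.update d₂ j ((c * b) * d₂ j), ?_, ?_, h4, fun k hk => ?_, Or.inl ⟨hj₁, rfl, ?_⟩⟩
    · refine h1.trans ((Iso.sum_congr (Iso.refl _) h1').trans ?_)
      refine ((Iso.sum_assoc _ _ _).symm).trans ((Iso.sum_congr (E_witt hj hc hb hαβ).symm (Iso.refl _)).trans ?_)
      exact Iso.sum_assoc _ _ _
    · rw [h4']
      exact HasType.addE j hj hpos _ _ h3'
    · rw [Function.update_of_ne hk, h6' k hk, h6 k hk]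
    · rw [Function.update_self, h5, h5']
      ring
  · refine ⟨c, hc, A₁, μ₁, d₁, h1, h3, h4, h6, Or.inr ⟨hj₁, ?_, h3.d_one j hj₁⟩⟩
    rw [h5, h3.d_one j hj₁, mul_one]

theorem type_change [Fintype F] (h2 : (2 : F) ≠ 0) {A A' : FM F} {μ : Multiset ℕ} {d d' : ℕ → F}
    (h : HasType A μ d) (h' : HasType A' μ d') (hs : ∀ j, 0 < j → Even j → IsSquare (d j * d' j)) :
    Iso A A' := by
  induction hn : Multiset.card μ using Nat.strong_induction_on generalizing A A' μ d d' with
  | _ n ih =>
  rcases Multiset.empty_or_exists_mem μ with rfl | ⟨j, hj⟩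
  · apply Iso.of_subsingleton
    · have := h.finrank_eq
      simp only [Multiset.sum_zero] at this
      exact Module.finrank_zero_iff.mp this
    · have := h'.finrank_eq
      simp only [Multiset.sum_zero] at this
      exact Module.finrank_zero_iff.mp this
  have hpos : 0 < j := h.pos j hj
  rcases Nat.even_or_odd j with hev | hodd
  · obtain ⟨c, hc, A₁, μ₁, d₁, h1, h3, h4, h5, h6⟩ := h.extractN h2 hev hpos hj
    obtain ⟨c', hc', A₁', μ₁', d₁', h1', h3', h4', h5', h6'⟩ := h'.extractN h2 hev hpos hj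
    have hμ : μ₁ = μ₁' := by
      rw [h4] at h4'
      exact (Multiset.cons_inj_right j).mp h4'
    subst hμ
    have hcard : Multiset.card μ₁ < n := by
      rw [← hn, h4, Multiset.card_cons]
      omega
    rcases h6 with ⟨hin, hc1, hd1⟩ | ⟨hin, hc1, hd1⟩
    · rcases h6' with ⟨_, hc1', hd1'⟩ | ⟨hin', _, _⟩
      · have hI := ih _ hcard h3 h3' (fun k hk hke => by
          by_cases hkj : k = j
          · rw [hkj, hd1, hd1']
            exact hs j hpos hev
          · rw [h5 k hkj, h5' k hkj]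
            exact hs k hk hke) rfl
        subst hc1
        subst hc1'
        exact h1.trans ((Iso.sum_congr (Iso.refl _) hI).trans h1'.symm)
      · exact absurd hin hin'
    · rcases h6' with ⟨hin', _, _⟩ | ⟨_, hc1', hd1'⟩
      · exact absurd hin' hin
      · have hI := ih _ hcard h3 h3' (fun k hk hke => by
          by_cases hkj : k = j
          · rw [hkj, hd1, hd1']
            simp
          · rw [h5 k hkj, h5' k hkj]
            exact hs k hk hke) rfl
        have hE : Iso (E j hev c hc) (E j hev c' hc') :=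
          E_iso_of_square hev hc hc' (by rw [hc1, hc1']; exact hs j hpos hev)
        exact h1.trans ((Iso.sum_congr hE hI).trans h1'.symm)
  · obtain ⟨A₁, μ₁, h1, h3, h4⟩ := h.extractH hodd hj
    obtain ⟨A₁', μ₁', h1', h3', h4'⟩ := h'.extractH hodd hj
    have hμ : μ₁ = μ₁' := by
      rw [h4] at h4'
      exact (Multiset.cons_inj_right j).mp ((Multiset.cons_inj_right j).mp h4')
    subst hμ
    have hcard : Multiset.card μ₁ < n := by
      rw [← hn, h4, Multiset.card_cons, Multiset.card_cons]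
      omega
    have hI := ih _ hcard h3 h3' hs rfl
    exact h1.trans ((Iso.sum_congr (Iso.refl _) hI).trans h1'.symm)

theorem exists_hasType [Fintype F] (h2 : (2 : F) ≠ 0) (S : Set ℕ) (μ : Multiset ℕ) (hμ : ∀ p ∈ μ, 0 < p)
    (hpar : ∀ j, Odd j → Even (μ.count j)) :
    ∃ (A : FM F) (d : ℕ → F), HasType A μ d ∧ ∀ j ∈ μ, Even j → (IsSquare (d j) ↔ j ∈ S) := by
  induction hn : Multiset.card μ using Nat.strong_induction_on generalizing μ with
  | _ n ih =>
  rcases Multiset.empty_or_exists_mem μ with rfl | ⟨j, hj⟩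
  · exact ⟨triv F, _, HasType.zero _ inferInstance, by simp⟩
  rcases Nat.even_or_odd j with hev | hodd
  · obtain ⟨μ₁, rfl⟩ := Multiset.exists_cons_of_mem hj
    have hpos : 0 < j := hμ j hj
    have hcard : Multiset.card μ₁ < n := by
      rw [← hn, Multiset.card_cons]
      omega
    obtain ⟨A₁, d₁, h1, h3⟩ := ih _ hcard μ₁ (fun p hp => hμ p (Multiset.mem_cons_of_mem hp))
      (fun k hk => by
        have := hpar k hk
        rwa [Multiset.count_cons_of_ne] at this
        rintro rfl
        exact absurd hev (Nat.not_even_iff_odd.mpr hk)) rfl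
    by_cases hj₁ : j ∈ μ₁
    · refine ⟨_, _, HasType.addE j hev hpos 1 one_ne_zero h1, fun k hk hke => ?_⟩
      by_cases hkj : k = j
      · subst hkj
        rw [Function.update_self, one_mul]
        exact h3 k hj₁ hke
      · rw [Function.update_of_ne hkj]
        exact h3 k ((Multiset.mem_cons.mp hk).resolve_left hkj) hke
    · have hd1 := h1.d_one j hj₁
      obtain ⟨c, hc, hcs⟩ : ∃ c : F, c ≠ 0 ∧ (IsSquare c ↔ j ∈ S) := by
        by_cases hS : j ∈ S
        · exact ⟨1, one_ne_zero, by simp [hS]⟩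
        · obtain ⟨a, ha⟩ := FiniteField.exists_nonsquare (F := F) (by
            intro h
            apply h2
            have := ringChar.Nat.cast_ringChar (R := F)
            rw [h] at this
            exact_mod_cast this)
          refine ⟨a, ?_, by simp [ha, hS]⟩
          rintro rfl
          exact ha (IsSquare.zero)
      refine ⟨_, _, HasType.addE j hev hpos c hc h1, fun k hk hke => ?_⟩
      by_cases hkj : k = j
      · subst hkj
        rw [Function.update_self, hd1, mul_one]
        exact hcs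
      · rw [Function.update_of_ne hkj]
        exact h3 k ((Multiset.mem_cons.mp hk).resolve_left hkj) hke
  · obtain ⟨μ₁, rfl⟩ := Multiset.exists_cons_of_mem hj
    have hmem : j ∈ μ₁ := by
      obtain ⟨r, hr⟩ := hpar j hodd
      rw [Multiset.count_cons_self] at hr
      apply Multiset.count_pos.mp
      omega
    obtain ⟨μ₂, rfl⟩ := Multiset.exists_cons_of_mem hmem
    have hcard : Multiset.card μ₂ < n := by
      rw [← hn, Multiset.card_cons, Multiset.card_cons]
      omega
    obtain ⟨A₁, d₁, h1, h3⟩ := ih _ hcard μ₂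
      (fun p hp => hμ p (Multiset.mem_cons_of_mem (Multiset.mem_cons_of_mem hp)))
      (fun k hk => by
        have := hpar k hk
        by_cases hkj : k = j
        · subst hkj
          rw [Multiset.count_cons_self, Multiset.count_cons_self] at this
          obtain ⟨r, hr⟩ := this
          exact ⟨r - 1, by omega⟩
        · rwa [Multiset.count_cons_of_ne hkj, Multiset.count_cons_of_ne hkj] at this) rfl
    refine ⟨_, _, HasType.addH j hodd h1, fun k hk hke => ?_⟩
    have hkj : k ≠ j := by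
      rintro rfl
      exact absurd hke (Nat.not_even_iff_odd.mpr hodd)
    have : k ∈ μ₂ := by
      simpa [hkj] using hk
    exact h3 k this hke

end FM

end Cfsg.Agent.Lib.SpFM
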