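import Cfsg.Agent.Lib.SpFMBase

/-!
# Decomposition of form modules into indecomposable blocks
-/

set_option autoImplicit false

namespace Cfsg.Agent.Lib.SpFM

open Module

universe u

variable {F : Type u} [Field F]

namespace FM

theorem pow_zero_of_le (A : FM F) {j k : ℕ} (hN : A.N ^ j = 0) (hk : j ≤ k) : A.N ^ k = 0 := by
  rw [show k = j + (k - j) by omega, pow_add, hN, zero_mul]

theorem van (A : FM F) {j k : ℕ} (hN : A.N ^ j = 0) (hk : j ≤ k) (x y : A.V) :
    A.ω x ((A.N ^ k) y) = 0 := by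
  rw [pow_zero_of_le A hN hk]
  simp

theorem pow_add_smul (A : FM F) (k e : ℕ) (x y : A.V) (a : F) :
    (A.N ^ k) (x + a • (A.N ^ e) y) = (A.N ^ k) x + a • (A.N ^ (k + e)) y := by
  rw [map_add, map_smul, pow_add, Module.End.mul_apply]

theorem expand (A : FM F) (k e : ℕ) (x y : A.V) (a : F) :
    A.ω (x + a • (A.N ^ e) y) ((A.N ^ k) (x + a • (A.N ^ e) y)) =
      A.ω x ((A.N ^ k) x) + a * A.ω x ((A.N ^ (k + e)) y)
        + a * (-1) ^ e * A.ω y ((A.N ^ (e + k)) x)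
        + a ^ 2 * (-1) ^ e * A.ω y ((A.N ^ (e + (k + e))) y) := by
  rw [pow_add_smul]
  simp only [map_add, map_smul, LinearMap.add_apply, LinearMap.smul_apply, smul_eq_mul, gram_pow]
  ring

theorem g_even_zero (h2 : (2 : F) ≠ 0) (A : FM F) {n : ℕ} (hn : Even n) (x : A.V) :
    A.ω x ((A.N ^ n) x) = 0 := by
  have := sym_pow A n x x
  rw [Odd.neg_one_pow (Even.add_one hn)] at this
  have h3 : (2 : F) * A.ω x ((A.N ^ n) x) = 0 := by linear_combination this
  exact (mul_eq_zero.mp h3).resolve_left h2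

theorem even_normal (h2 : (2 : F) ≠ 0) (A : FM F) {j : ℕ} (hj : Even j) (hpos : 0 < j)
    (hN : A.N ^ j = 0) (v : A.V) (hv : A.ω v ((A.N ^ (j - 1)) v) ≠ 0) :
    ∃ (v' : A.V) (c : F), c ≠ 0 ∧ ∀ k, A.ω v' ((A.N ^ k) v') = if k = j - 1 then c else 0 := by
  have claim : ∀ t, t ≤ j - 1 → ∃ w : A.V, A.ω w ((A.N ^ (j - 1)) w) = A.ω v ((A.N ^ (j - 1)) v) ∧
      ∀ k, j - 1 - t ≤ k → k < j - 1 → A.ω w ((A.N ^ k) w) = 0 := by
    intro t
    induction t with
    | zero => exact fun _ => ⟨v, rfl, fun k h1 h2 => by omega⟩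
    | succ t ih =>
      intro ht
      obtain ⟨w, hw, hw'⟩ := ih (by omega)
      obtain ⟨n, hn⟩ : ∃ n, n = j - 1 - (t + 1) := ⟨_, rfl⟩
      by_cases hd : A.ω w ((A.N ^ n) w) = 0
      · refine ⟨w, hw, fun k h1 h3 => ?_⟩
        by_cases hk : k = n
        · rw [hk, hd]
        · exact hw' k (by omega) h3
      · have hnodd : ¬ Even n := fun h => hd (g_even_zero h2 A h w)
        obtain ⟨e, he⟩ : ∃ e, e = t + 1 := ⟨_, rfl⟩
        have heven : Even e := by
          obtain ⟨r, hr⟩ := hj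
          rw [Nat.not_even_iff_odd] at hnodd
          obtain ⟨s, hs⟩ := hnodd
          exact ⟨r - s - 1, by omega⟩
        have hc : A.ω w ((A.N ^ (j - 1)) w) ≠ 0 := by rw [hw]; exact hv
        obtain ⟨c, hcdef⟩ : ∃ c, c = A.ω w ((A.N ^ (j - 1)) w) := ⟨_, rfl⟩
        obtain ⟨d, hddef⟩ : ∃ d, d = A.ω w ((A.N ^ n) w) := ⟨_, rfl⟩
        have hc' : c ≠ 0 := by rw [hcdef]; exact hc
        have form : ∀ k, A.ω (w + (-d / (2 * c)) • (A.N ^ e) w) ((A.N ^ k) (w + (-d / (2 * c)) • (A.N ^ e) w)) =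
            A.ω w ((A.N ^ k) w) + (-d / (2 * c)) * A.ω w ((A.N ^ (k + e)) w)
            + (-d / (2 * c)) * (-1) ^ e * A.ω w ((A.N ^ (e + k)) w)
            + (-d / (2 * c)) ^ 2 * (-1) ^ e * A.ω w ((A.N ^ (e + (k + e))) w) := fun k => expand A k e w w _
        refine ⟨w + (-d / (2 * c)) • (A.N ^ e) w, ?_, fun k h1 h3 => ?_⟩
        · rw [form, van A hN (k := j - 1 + e) (by omega), van A hN (k := e + (j - 1)) (by omega),
            van A hN (k := e + (j - 1 + e)) (by omega), hw]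
          ring
        · rw [form, heven.neg_one_pow]
          by_cases hk : k = n
          · subst hk
            have h4 : k + e = j - 1 := by omega
            rw [h4, show e + k = j - 1 by omega, show e + (j - 1) = j + (e - 1) by omega,
              van A hN (k := j + (e - 1)) (by omega) w w, ← hcdef, ← hddef]
            field_simp
            ring
          · rw [van A hN (k := k + e) (by omega), van A hN (k := e + k) (by omega),
              van A hN (k := e + (k + e)) (by omega), hw' k (by omega) h3]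
            ring
  obtain ⟨w, hw, hw'⟩ := claim (j - 1) le_rfl
  refine ⟨w, _, hv, fun k => ?_⟩
  split_ifs with hk
  · rw [hk, hw]
  · by_cases h1 : k < j - 1
    · exact hw' k (by omega) h1
    · exact van A hN (by omega) _ _

theorem iso_step (h2 : (2 : F) ≠ 0) (A : FM F) {j : ℕ} (hj : Odd j) (hN : A.N ^ j = 0) (v w : A.V)
    (hvw : A.ω v ((A.N ^ (j - 1)) w) = 1) :
    ∃ w' : A.V, A.ω v ((A.N ^ (j - 1)) w') = 1 ∧ ∀ k, A.ω w' ((A.N ^ k) w') = 0 := by
  have hjev : Even (j - 1) := by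
    obtain ⟨r, hr⟩ := hj
    exact ⟨r, by omega⟩
  have claim : ∀ t, t ≤ j - 1 → ∃ w' : A.V, A.ω v ((A.N ^ (j - 1)) w') = 1 ∧
      ∀ k, j - 1 - t ≤ k → A.ω w' ((A.N ^ k) w') = 0 := by
    intro t
    induction t with
    | zero =>
      refine fun _ => ⟨w, hvw, fun k hk => ?_⟩
      by_cases h : k = j - 1
      · rw [h]; exact g_even_zero h2 A hjev w
      · exact van A hN (by omega) _ _
    | succ t ih =>
      intro ht
      obtain ⟨w₁, hw, hw'⟩ := ih (by omega)
      obtain ⟨n, hn⟩ : ∃ n, n = j - 1 - (t + 1) := ⟨_, rfl⟩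
      by_cases hd : A.ω w₁ ((A.N ^ n) w₁) = 0
      · refine ⟨w₁, hw, fun k h1 => ?_⟩
        by_cases hk : k = n
        · rw [hk, hd]
        · exact hw' k (by omega)
      · have hnodd : ¬ Even n := fun h => hd (g_even_zero h2 A h w₁)
        obtain ⟨e, he⟩ : ∃ e, e = t + 1 := ⟨_, rfl⟩
        have hodd : Odd e := by
          rw [Nat.not_even_iff_odd] at hnodd
          obtain ⟨s, hs⟩ := hnodd
          obtain ⟨r, hr⟩ := hjev
          exact ⟨r - s - 1, by omega⟩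
        obtain ⟨d, hddef⟩ : ∃ d, d = A.ω w₁ ((A.N ^ n) w₁) := ⟨_, rfl⟩
        have form : ∀ k, A.ω (w₁ + (d / 2) • (A.N ^ e) v) ((A.N ^ k) (w₁ + (d / 2) • (A.N ^ e) v)) =
            A.ω w₁ ((A.N ^ k) w₁) + (d / 2) * A.ω w₁ ((A.N ^ (k + e)) v)
            + (d / 2) * (-1) ^ e * A.ω v ((A.N ^ (e + k)) w₁)
            + (d / 2) ^ 2 * (-1) ^ e * A.ω v ((A.N ^ (e + (k + e))) v) := fun k => expand A k e w₁ v _
        refine ⟨w₁ + (d / 2) • (A.N ^ e) v, ?_, fun k h1 => ?_⟩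
        · rw [pow_add_smul, map_add, map_smul, van A hN (k := j - 1 + e) (by omega), hw]
          simp
        · rw [form, hodd.neg_one_pow]
          by_cases hk : k = n
          · subst hk
            have h4 : k + e = j - 1 := by omega
            have h5 : A.ω w₁ ((A.N ^ (j - 1)) v) = -1 := by
              rw [sym_pow, hw, Odd.neg_one_pow]
              · simp
              · exact hjev.add_one
            rw [h4, show e + k = j - 1 by omega, show e + (j - 1) = j + (e - 1) by omega,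
              van A hN (k := j + (e - 1)) (by omega) v v, h5, hw, ← hddef]
            field_simp
            ring
          · rw [van A hN (k := k + e) (by omega), van A hN (k := e + k) (by omega),
              van A hN (k := e + (k + e)) (by omega), hw' k (by omega)]
            ring
  obtain ⟨w', hw, hw'⟩ := claim (j - 1) le_rfl
  exact ⟨w', hw, fun k => hw' k (by omega)⟩

theorem pair_step (A : FM F) {j : ℕ} (hpos : 0 < j) (hN : A.N ^ j = 0) (v w : A.V)
    (hw : ∀ k, A.ω w ((A.N ^ k) w) = 0)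
    (hvw : A.ω v ((A.N ^ (j - 1)) w) = 1) :
    ∃ w' : A.V, (∀ k, A.ω w' ((A.N ^ k) w') = 0) ∧
      ∀ k, A.ω v ((A.N ^ k) w') = if k = j - 1 then 1 else 0 := by
  have claim : ∀ t, t ≤ j - 1 → ∃ w' : A.V, (∀ k, A.ω w' ((A.N ^ k) w') = 0) ∧
      A.ω v ((A.N ^ (j - 1)) w') = 1 ∧ ∀ k, j - 1 - t ≤ k → k < j - 1 → A.ω v ((A.N ^ k) w') = 0 := by
    intro t
    induction t with
    | zero => exact fun _ => ⟨w, hw, hvw, fun k h1 h3 => by omega⟩
    | succ t ih =>
      intro ht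
      obtain ⟨w₁, hw₁, hw₂, hw₃⟩ := ih (by omega)
      obtain ⟨n, hn⟩ : ∃ n, n = j - 1 - (t + 1) := ⟨_, rfl⟩
      obtain ⟨e, he⟩ : ∃ e, e = t + 1 := ⟨_, rfl⟩
      obtain ⟨d, hddef⟩ : ∃ d, d = A.ω v ((A.N ^ n) w₁) := ⟨_, rfl⟩
      have form : ∀ k, A.ω v ((A.N ^ k) (w₁ + (-d) • (A.N ^ e) w₁)) =
          A.ω v ((A.N ^ k) w₁) + (-d) * A.ω v ((A.N ^ (k + e)) w₁) := by
        intro k
        rw [pow_add_smul, map_add, map_smul, smul_eq_mul]
      refine ⟨w₁ + (-d) • (A.N ^ e) w₁, fun k => ?_, ?_, fun k h1 h3 => ?_⟩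
      · rw [expand, hw₁, hw₁, hw₁, hw₁]
        ring
      · rw [form, van A hN (k := j - 1 + e) (by omega), hw₂]
        ring
      · rw [form]
        by_cases hk : k = n
        · subst hk
          rw [show k + e = j - 1 by omega, hw₂, ← hddef]
          ring
        · rw [van A hN (k := k + e) (by omega), hw₃ k (by omega) h3]
          ring
  obtain ⟨w', h1, h3, h4⟩ := claim (j - 1) le_rfl
  refine ⟨w', h1, fun k => ?_⟩
  split_ifs with hk
  · rw [hk, h3]
  · by_cases h5 : k < j - 1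
    · exact h4 k (by omega) h5
    · exact van A hN (by omega) _ _

theorem split_E (h2 : (2 : F) ≠ 0) (A : FM F) {j : ℕ} (hj : Even j) (hpos : 0 < j)
    (hN : A.N ^ j = 0) (v : A.V) (hv : A.ω v ((A.N ^ (j - 1)) v) ≠ 0) :
    ∃ (c : F) (hc : c ≠ 0) (A₁ : FM F), Iso A ((E j hj c hc).sum A₁) ∧
      finrank F A.V = j + finrank F A₁.V := by
  obtain ⟨v', c, hc, hv'⟩ := even_normal h2 A hj hpos hN v hv
  obtain ⟨A₁, h3, h4⟩ := exists_split (E j hj c hc) A (chain A v' j)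
    (fun x y => chain_form A v' v' j c hv' x y)
    (fun x => chain_N A v' j (by rw [hN]; rfl) x)
  refine ⟨c, hc, A₁, h3, ?_⟩
  rw [h4]
  simp

theorem split_H (h2 : (2 : F) ≠ 0) (A : FM F) {j : ℕ} (hj : Odd j)
    (hN : A.N ^ j = 0) (x y : A.V) (hv : A.ω x ((A.N ^ (j - 1)) y) ≠ 0) :
    ∃ (A₁ : FM F), Iso A ((H j).sum A₁) ∧ finrank F A.V = 2 * j + finrank F A₁.V := by
  have hjev : Even (j - 1) := by
    obtain ⟨r, hr⟩ := hj
    exact ⟨r, by omega⟩
  have hpos : 0 < j := hj.pos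
  have hsym : ∀ a b : A.V, A.ω a ((A.N ^ (j - 1)) b) = - A.ω b ((A.N ^ (j - 1)) a) := by
    intro a b
    rw [sym_pow, hjev.add_one.neg_one_pow]
    ring
  obtain ⟨w₁, hw₁, hw₁'⟩ := iso_step h2 A hj hN ((A.ω x ((A.N ^ (j - 1)) y))⁻¹ • x) y
    (by simp [hv])
  obtain ⟨v₁, hv₁, hv₁'⟩ := iso_step h2 A hj hN w₁ (-((A.ω x ((A.N ^ (j - 1)) y))⁻¹ • x))
    (by rw [map_neg, map_neg, hsym, hw₁, neg_neg])
  have hp : A.ω (-v₁) ((A.N ^ (j - 1)) w₁) = 1 := by
    rw [map_neg, LinearMap.neg_apply, hsym, neg_neg]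
    exact hv₁
  have hg : ∀ k, A.ω (-v₁) ((A.N ^ k) (-v₁)) = 0 := by
    intro k
    simpa using hv₁' k
  obtain ⟨w₂, hw₂, hw₂'⟩ := pair_step A hpos hN (-v₁) w₁ hw₁' hp
  have hgg : ∀ k, A.ω (-v₁) ((A.N ^ k) (-v₁)) = if k = j - 1 then 0 else 0 := by simpa using hg
  have hww : ∀ k, A.ω w₂ ((A.N ^ k) w₂) = if k = j - 1 then 0 else 0 := by simpa using hw₂
  have hvw : ∀ k, A.ω (-v₁) ((A.N ^ k) w₂) = if k = j - 1 then 1 else 0 := hw₂'
  obtain ⟨A₁, h3, h4⟩ := exists_split (H j) A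
    ((chain A (-v₁) j).coprod (chain A w₂ j))
    (fun a b => by
      obtain ⟨a₁, a₂⟩ := a
      obtain ⟨b₁, b₂⟩ := b
      simp only [LinearMap.coprod_apply, map_add, LinearMap.add_apply]
      rw [chain_form A _ _ j 0 hgg, chain_form A _ _ j 1 hvw, chain_form A _ _ j 0 hww,
        A.anti (chain A w₂ j a₂) (chain A (-v₁) j b₁), chain_form A _ _ j 1 hvw, H_ω]
      ring)
    (fun a => by
      obtain ⟨a₁, a₂⟩ := a
      change chain A (-v₁) j (Sh j a₁) + chain A w₂ j (Sh j a₂) = A.N (chain A (-v₁) j a₁ + chain A w₂ j a₂)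
      rw [chain_N A _ j (by rw [hN]; rfl), chain_N A _ j (by rw [hN]; rfl), map_add])
  refine ⟨A₁, h3, ?_⟩
  rw [h4, Module.finrank_prod]
  simp
  ring

theorem exists_type (h2 : (2 : F) ≠ 0) (A : FM F) : ∃ μ d, HasType A μ d := by
  induction hn : finrank F A.V using Nat.strong_induction_on generalizing A with
  | _ n ih =>
  by_cases hsub : Subsingleton A.V
  · exact ⟨0, _, HasType.zero A hsub⟩
  have hnt : Nontrivial A.V := not_subsingleton_iff_nontrivial.mp hsub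
  have hex : ∃ k, A.N ^ k = 0 := A.nil
  classical
  obtain ⟨j, hjdef⟩ : ∃ j, j = Nat.find hex := ⟨_, rfl⟩
  have hNj : A.N ^ j = 0 := by rw [hjdef]; exact Nat.find_spec hex
  have hpos : 0 < j := by
    rcases Nat.eq_zero_or_pos j with h | h
    · exfalso
      rw [h, pow_zero] at hNj
      obtain ⟨x, hx⟩ := exists_ne (0 : A.V)
      exact hx (by simpa using LinearMap.congr_fun hNj x)
    · exact h
  have hne : A.N ^ (j - 1) ≠ 0 := by
    rw [hjdef]
    apply Nat.find_min hex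
    rw [← hjdef]
    omega
  obtain ⟨y, hy⟩ : ∃ y, (A.N ^ (j - 1)) y ≠ 0 := by
    by_contra h
    push Not at h
    exact hne (LinearMap.ext h)
  obtain ⟨x, hx⟩ : ∃ x, A.ω x ((A.N ^ (j - 1)) y) ≠ 0 := by
    by_contra h
    push Not at h
    apply hy
    apply A.nd
    intro z
    rw [A.anti, h, neg_zero]
  rcases Nat.even_or_odd j with hj | hj
  · have hsym : ∀ a b : A.V, A.ω a ((A.N ^ (j - 1)) b) = A.ω b ((A.N ^ (j - 1)) a) := by
      intro a b
      rw [sym_pow, show j - 1 + 1 = j by omega, hj.neg_one_pow, one_mul]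
    obtain ⟨v, hv⟩ : ∃ v, A.ω v ((A.N ^ (j - 1)) v) ≠ 0 := by
      by_contra h
      push Not at h
      apply hx
      have h3 := h (x + y)
      simp only [map_add, LinearMap.add_apply, h x, h y, hsym y x] at h3
      have h4 : (2 : F) * A.ω x ((A.N ^ (j - 1)) y) = 0 := by linear_combination h3
      exact (mul_eq_zero.mp h4).resolve_left h2
    obtain ⟨c, hc, A₁, h3, h4⟩ := split_E h2 A hj hpos hNj v hv
    obtain ⟨μ, d, ht⟩ := ih (finrank F A₁.V) (by omega) A₁ rfl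
    exact ⟨_, _, HasType.iso h3 (HasType.addE j hj hpos c hc ht)⟩
  · obtain ⟨A₁, h3, h4⟩ := split_H h2 A hj hNj x y hx
    obtain ⟨μ, d, ht⟩ := ih (finrank F A₁.V) (by have := hj.pos; omega) A₁ rfl
    exact ⟨_, _, HasType.iso h3 (HasType.addH j hj ht)⟩

end FM

end Cfsg.Agent.Lib.SpFM
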