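import Cfsg.Agent.Lib.SpFMCayley

/-!
# Signatures of form modules and the resulting class count
-/

set_option autoImplicit false

namespace Cfsg.Agent.Lib.SpFM

open Module Matrix

universe u

variable {F : Type u} [Field F]

namespace FM

/-- Signature: the partition and the set of even parts with square discriminant. -/
def Sig (A : FM F) (μ : Multiset ℕ) (S : Finset ℕ) : Prop :=
  ∃ d, HasType A μ d ∧ ∀ j, j ∈ S ↔ (j ∈ μ ∧ Even j ∧ IsSquare (d j))

theorem sig_exists (h2 : (2 : F) ≠ 0) (A : FM F) : ∃ μ S, Sig A μ S := by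
  classical
  obtain ⟨μ, d, h⟩ := exists_type h2 A
  exact ⟨μ, μ.toFinset.filter (fun j => Even j ∧ IsSquare (d j)), d, h, fun j => by simp⟩

theorem sq_iff_of_mul {a b : F} (ha : a ≠ 0) (hb : b ≠ 0) (h : IsSquare (a * b)) :
    IsSquare a ↔ IsSquare b := by
  constructor
  · intro ha'
    have : b = (a * b) / a := by field_simp
    rw [this]
    exact h.div ha'
  · intro hb'
    have : a = (a * b) / b := by field_simp
    rw [this]
    exact h.div hb'

theorem sig_unique {A A' : FM F} {μ μ' : Multiset ℕ} {S S' : Finset ℕ} (h : Sig A μ S)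
    (h' : Sig A' μ' S') (hI : Iso A A') : μ = μ' ∧ S = S' := by
  obtain ⟨d, ht, hS⟩ := h
  obtain ⟨d', ht', hS'⟩ := h'
  obtain ⟨h1, h3⟩ := ht.unique ht' hI
  refine ⟨h1, ?_⟩
  subst h1
  ext j
  rw [hS, hS']
  constructor
  · rintro ⟨hm, he, hs⟩
    exact ⟨hm, he, (sq_iff_of_mul (ht.d_ne j) (ht'.d_ne j) (h3 j (ht.pos j hm) he)).1 hs⟩
  · rintro ⟨hm, he, hs⟩
    exact ⟨hm, he, (sq_iff_of_mul (ht.d_ne j) (ht'.d_ne j) (h3 j (ht.pos j hm) he)).2 hs⟩

theorem sq_mul_of_not [Fintype F] (h2 : (2 : F) ≠ 0) {a b : F} (ha : a ≠ 0) (hb : b ≠ 0) (h : ¬ IsSquare a)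
    (h' : ¬ IsSquare b) : IsSquare (a * b) := by
  classical
  have hc : ringChar F ≠ 2 := by
    intro hc
    apply h2
    have := ringChar.Nat.cast_ringChar (R := F)
    rw [hc] at this
    exact_mod_cast this
  rw [← quadraticChar_one_iff_isSquare (mul_ne_zero ha hb), map_mul,
    quadraticChar_neg_one_iff_not_isSquare.mpr h, quadraticChar_neg_one_iff_not_isSquare.mpr h']
  norm_num

theorem sig_inj [Fintype F] (h2 : (2 : F) ≠ 0) {A A' : FM F} {μ : Multiset ℕ} {S : Finset ℕ}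
    (h : Sig A μ S) (h' : Sig A' μ S) : Iso A A' := by
  obtain ⟨d, ht, hS⟩ := h
  obtain ⟨d', ht', hS'⟩ := h'
  refine type_change h2 ht ht' fun j hj he => ?_
  by_cases hm : j ∈ μ
  · have h3 : IsSquare (d j) ↔ IsSquare (d' j) := by
      have h4 := hS j
      have h5 := hS' j
      simp only [hm, he, true_and] at h4 h5
      rw [← h4, h5]
    by_cases hs : IsSquare (d j)
    · exact hs.mul (h3.1 hs)
    · exact sq_mul_of_not h2 (ht.d_ne j) (ht'.d_ne j) hs (fun h4 => hs (h3.2 h4))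
  · rw [ht.d_one j hm, ht'.d_one j hm]
    simp

theorem sig_surj [Fintype F] (h2 : (2 : F) ≠ 0) (μ : Multiset ℕ) (hμ : ∀ p ∈ μ, 0 < p)
    (hpar : ∀ j, Odd j → Even (μ.count j)) (S : Finset ℕ) (hS : ∀ j ∈ S, j ∈ μ ∧ Even j) :
    ∃ A : FM F, Sig A μ S := by
  obtain ⟨A, d, ht, h3⟩ := exists_hasType (F := F) h2 (S : Set ℕ) μ hμ hpar
  refine ⟨A, d, ht, fun j => ⟨fun hj => ?_, fun hj => ?_⟩⟩
  · obtain ⟨hm, he⟩ := hS j hj
    exact ⟨hm, he, (h3 j hm he).2 hj⟩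
  · exact (h3 j hj.1 hj.2.1).1 hj.2.2

theorem isConj_iff_iso {m : ℕ} (h2 : (2 : F) ≠ 0) (g g' : symplecticGroup (Fin m) F) (N N' : Mt m F)
    (hN : Nᵀ * J (Fin m) F + J (Fin m) F * N = 0) (hN' : N'ᵀ * J (Fin m) F + J (Fin m) F * N' = 0)
    (hnil : ∃ k, N ^ k = 0) (hnil' : ∃ k, N' ^ k = 0)
    (hr : N * (g.1 + 1) = g.1 - 1) (hr' : N' * (g'.1 + 1) = g'.1 - 1) :
    IsConj g g' ↔ Iso (stdFM N hN hnil) (stdFM N' hN' hnil') := by
  rw [iso_stdFM_iff, isConj_iff]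
  constructor
  · rintro ⟨c, hc⟩
    refine ⟨c, ?_⟩
    have h3 : c * g = g' * c := by
      rw [← hc]
      group
    have h4 : c.1 * g.1 = g'.1 * c.1 := congrArg Subtype.val h3
    have hnp : IsNilpotent N := hnil
    exact cay_N_of_conj (unit_g1 (Mt_two_unit h2) hnp hr) hr hr' h4
  · rintro ⟨c, hc⟩
    refine ⟨c, ?_⟩
    have hnp : IsNilpotent N' := hnil'
    have h4 := cay_conj_of_N hnp.isUnit_one_sub hr hr' hc
    have h3 : c * g = g' * c := Subtype.ext h4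
    rw [h3]
    group

theorem card_of_rel {X Y : Type*} (𝒮 : Finset Y) (R : X → Y → Prop) (h1 : ∀ x, ∃ y ∈ 𝒮, R x y)
    (h2 : ∀ x x' y, R x y → R x' y → x = x') (h3 : ∀ y ∈ 𝒮, ∃ x, R x y)
    (h4 : ∀ x y y', R x y → R x y' → y = y') : Nat.card X = 𝒮.card := by
  classical
  choose f hf hf' using h1
  let φ : X → {y // y ∈ 𝒮} := fun x => ⟨f x, hf x⟩
  have hbij : Function.Bijective φ := by
    constructor
    · intro x x' hx
      have : f x = f x' := congrArg Subtype.val hx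
      exact h2 x x' (f x) (hf' x) (this ▸ hf' x')
    · rintro ⟨y, hy⟩
      obtain ⟨x, hx⟩ := h3 y hy
      exact ⟨x, Subtype.ext (h4 x _ _ (hf' x) hx)⟩
  rw [Nat.card_congr (Equiv.ofBijective φ hbij), Nat.card_eq_fintype_card, Fintype.card_coe]

end FM

end Cfsg.Agent.Lib.SpFM
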