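import Cfsg.Agent.Lib.SpFMSig
import Cfsg.Prelude.Def_ClassicalGeometry
import Cfsg.Agent.Lib.SympForm
import Cfsg.Agent.Lib.SpInvol

/-!
# Invariant nondegenerate subspaces of form modules
-/

set_option autoImplicit false

namespace Cfsg.Agent.Lib.SpFM

open Module Matrix

universe u

variable {F : Type u} [Field F]

namespace FM

theorem iso_triv_sum (A : FM F) : Iso A ((triv F).sum A) := by
  refine ⟨{ toFun := fun x => (PUnit.unit, x), map_add' := fun _ _ => rfl, map_smul' := fun _ _ => rfl,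
            invFun := Prod.snd, left_inv := fun _ => rfl, right_inv := fun _ => rfl }, fun x y => ?_, fun x => rfl⟩
  change (0 : (triv F).V →ₗ[F] (triv F).V →ₗ[F] F) PUnit.unit PUnit.unit + A.ω x y = A.ω x y
  simp

theorem iso_sum_triv (A : FM F) : Iso A (A.sum (triv F)) := by
  refine ⟨{ toFun := fun x => (x, PUnit.unit), map_add' := fun _ _ => rfl, map_smul' := fun _ _ => rfl,
            invFun := Prod.fst, left_inv := fun _ => rfl, right_inv := fun _ => rfl }, fun x y => ?_, fun x => rfl⟩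
  change A.ω x y + (0 : (triv F).V →ₗ[F] (triv F).V →ₗ[F] F) PUnit.unit PUnit.unit = A.ω x y
  simp

/-- Restriction to a nondegenerate invariant subspace. -/
def ofSub (A : FM F) (W : Submodule F A.V) (hinv : ∀ u ∈ W, A.N u ∈ W)
    (hnd : ∀ u ∈ W, (∀ v ∈ W, A.ω u v = 0) → u = 0) : FM F where
  V := W
  ω := A.ω.domRestrict₁₂ W W
  N := A.N.restrict hinv
  anti := fun x y => A.anti x.1 y.1
  nd := fun x hx => Subtype.ext (hnd x.1 x.2 (fun v hv => hx ⟨v, hv⟩))
  skew := fun x y => A.skew x.1 y.1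
  nil := by
    obtain ⟨k, hk⟩ := A.nil
    refine ⟨k, ?_⟩
    apply LinearMap.ext
    intro x
    apply Subtype.ext
    have : ∀ (k : ℕ) (x : W), (((A.N.restrict hinv) ^ k) x : A.V) = (A.N ^ k) x.1 := by
      intro k x
      induction k generalizing x with
      | zero => simp
      | succ k ih =>
        rw [pow_succ, Module.End.mul_apply, ih, pow_succ, Module.End.mul_apply]
        rfl
    rw [this, hk]
    rfl

theorem exists_sum_of_sub (A : FM F) (W : Submodule F A.V) (hinv : ∀ u ∈ W, A.N u ∈ W)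
    (hnd : ∀ u ∈ W, (∀ v ∈ W, A.ω u v = 0) → u = 0) :
    ∃ A₁ : FM F, Iso A ((ofSub A W hinv hnd).sum A₁) :=
  (exists_split (ofSub A W hinv hnd) A W.subtype (fun _ _ => rfl) (fun _ => rfl)).imp fun _ h => h.1

theorem exists_sub_of_iso {A A₁ A₂ : FM F} (h : Iso A (A₁.sum A₂)) :
    ∃ W : Submodule F A.V, finrank F W = finrank F A₁.V ∧ (∀ u ∈ W, u ≠ 0 → ∃ v ∈ W, A.ω u v ≠ 0) ∧
      ∀ u ∈ W, A.N u ∈ W := by
  obtain ⟨e, h1, h2⟩ := h
  let ι : A₁.V →ₗ[F] A.V := (e.symm : A₁.V × A₂.V →ₗ[F] A.V) ∘ₗ LinearMap.inl F A₁.V A₂.V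
  have hι : ∀ a, e (ι a) = (a, 0) := fun a => by simp [ι]
  have hinj : Function.Injective ι := by
    intro a b hab
    have := congrArg e hab
    rw [hι, hι] at this
    exact (Prod.ext_iff.1 this).1
  have hω : ∀ a b, A.ω (ι a) (ι b) = A₁.ω a b := by
    intro a b
    rw [← h1, hι, hι, sum_ω]
    simp
  refine ⟨LinearMap.range ι, LinearMap.finrank_range_of_inj hinj, ?_, ?_⟩
  · rintro _ ⟨a, rfl⟩ hu
    have ha : a ≠ 0 := by
      rintro rfl
      exact hu (map_zero _)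
    obtain ⟨b, hb⟩ : ∃ b, A₁.ω a b ≠ 0 := by
      by_contra hc
      push Not at hc
      exact ha (A₁.nd a hc)
    exact ⟨ι b, ⟨b, rfl⟩, by rw [hω]; exact hb⟩
  · rintro _ ⟨a, rfl⟩
    refine ⟨A₁.N a, ?_⟩
    apply e.injective
    rw [hι, h2, hι, sum_N]
    simp

theorem HasType.sum {X B : FM F} {ν μ : Multiset ℕ} {d d' : ℕ → F} (h : HasType X ν d)
    (h' : HasType B μ d') : ∃ d'', HasType (X.sum B) (ν + μ) d'' := by
  induction h with
  | zero X hs =>
    refine ⟨d', HasType.iso ?_ (by rwa [zero_add])⟩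
    exact (Iso.sum_congr (Iso.of_subsingleton hs inferInstance) (Iso.refl B)).trans (iso_triv_sum B).symm
  | addE j hj hpos c hc _ ih =>
    obtain ⟨d'', h3⟩ := ih
    have h4 := HasType.addE j hj hpos c hc h3
    rw [← Multiset.cons_add] at h4
    exact ⟨_, HasType.iso (Iso.sum_assoc _ _ _) h4⟩
  | addH j hj _ ih =>
    obtain ⟨d'', h3⟩ := ih
    have h4 := HasType.addH j hj h3
    rw [← Multiset.cons_add, ← Multiset.cons_add] at h4
    exact ⟨_, HasType.iso (Iso.sum_assoc _ _ _) h4⟩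
  | iso hI _ ih =>
    obtain ⟨d'', h3⟩ := ih
    exact ⟨d'', HasType.iso (Iso.sum_congr hI (Iso.refl B)) h3⟩

theorem HasType.split_sub {A : FM F} {μ : Multiset ℕ} {d : ℕ → F} (h : HasType A μ d) (ν : Multiset ℕ)
    (hν : ν ≤ μ) (hpar : ∀ j, Odd j → Even (ν.count j)) :
    ∃ (A₁ A₂ : FM F) (d₁ : ℕ → F), Iso A (A₁.sum A₂) ∧ HasType A₁ ν d₁ := by
  induction hn : Multiset.card ν using Nat.strong_induction_on generalizing A μ d ν with
  | _ n ih =>
  rcases Multiset.empty_or_exists_mem ν with rfl | ⟨j, hj⟩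
  · exact ⟨triv F, A, _, iso_triv_sum A, HasType.zero _ inferInstance⟩
  have hjμ : j ∈ μ := Multiset.mem_of_le hν hj
  have hpos := h.pos j hjμ
  rcases Nat.even_or_odd j with hev | hodd
  · obtain ⟨c, hc, A', μ', d', h1, h3, rfl, -, -⟩ := h.extractE hev hjμ
    obtain ⟨ν', rfl⟩ := Multiset.exists_cons_of_mem hj
    have hle : ν' ≤ μ' := (Multiset.cons_le_cons_iff j).1 hν
    obtain ⟨B₁, B₂, d₁, h4, h5⟩ := ih (Multiset.card ν') (by rw [← hn, Multiset.card_cons]; omega) h3 ν' hle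
      (fun a ha => by
        have := hpar a ha
        rwa [Multiset.count_cons_of_ne] at this
        rintro rfl
        exact absurd hev (Nat.not_even_iff_odd.mpr ha)) rfl
    exact ⟨(E j hev c hc).sum B₁, B₂, _, h1.trans ((Iso.sum_congr (Iso.refl _) h4).trans (Iso.sum_assoc _ _ _).symm),
      HasType.addE j hev hpos c hc h5⟩
  · obtain ⟨A', μ', h1, h3, rfl⟩ := h.extractH hodd hjμ
    obtain ⟨ν', rfl⟩ := Multiset.exists_cons_of_mem hj
    have hmem : j ∈ ν' := by
      obtain ⟨r, hr⟩ := hpar j hodd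
      rw [Multiset.count_cons_self] at hr
      apply Multiset.count_pos.mp
      omega
    obtain ⟨ν'', rfl⟩ := Multiset.exists_cons_of_mem hmem
    have hle : ν'' ≤ μ' := (Multiset.cons_le_cons_iff j).1 ((Multiset.cons_le_cons_iff j).1 hν)
    obtain ⟨B₁, B₂, d₁, h4, h5⟩ := ih (Multiset.card ν'') (by rw [← hn, Multiset.card_cons, Multiset.card_cons]; omega) h3 ν'' hle
      (fun a ha => by
        have := hpar a ha
        by_cases haj : a = j
        · subst haj
          rw [Multiset.count_cons_self, Multiset.count_cons_self] at this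
          obtain ⟨r, hr⟩ := this
          exact ⟨r - 1, by omega⟩
        · rwa [Multiset.count_cons_of_ne haj, Multiset.count_cons_of_ne haj] at this) rfl
    exact ⟨(H j).sum B₁, B₂, _, h1.trans ((Iso.sum_congr (Iso.refl _) h4).trans (Iso.sum_assoc _ _ _).symm),
      HasType.addH j hodd h5⟩

theorem sum_mulVec' {m : ℕ} {ι : Type*} (s : Finset ι) (M : ι → Mt m F) (v : Fin m ⊕ Fin m → F) :
    (∑ i ∈ s, M i) *ᵥ v = ∑ i ∈ s, (M i *ᵥ v) := by
  classical
  induction s using Finset.induction_on with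
  | empty => simp
  | insert a s ha ih => rw [Finset.sum_insert ha, Finset.sum_insert ha, Matrix.add_mulVec, ih]

theorem pow_inv {m : ℕ} (N : Mt m F) (W : Submodule F (Fin m ⊕ Fin m → F)) (hW : ∀ u ∈ W, N *ᵥ u ∈ W)
    (k : ℕ) : ∀ u ∈ W, (N ^ k) *ᵥ u ∈ W := by
  induction k with
  | zero => intro u hu; simpa using hu
  | succ k ih =>
    intro u hu
    rw [pow_succ, ← Matrix.mulVec_mulVec]
    exact ih _ (hW u hu)

theorem inv_of_N {m p : ℕ} (N y : Mt m F) (hp : N ^ p = 0) (hrel : N * (y + 1) = y - 1)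
    (W : Submodule F (Fin m ⊕ Fin m → F)) (hW : ∀ u ∈ W, N *ᵥ u ∈ W) : ∀ u ∈ W, y *ᵥ u ∈ W := by
  intro u hu
  have h1 := cay_left hrel
  have h2 : (∑ i ∈ Finset.range p, N ^ i) * (1 - N) = 1 := by
    rw [geom_sum_mul_neg, hp, sub_zero]
  have h3 : y = (∑ i ∈ Finset.range p, N ^ i) * (1 + N) := by
    calc y = ((∑ i ∈ Finset.range p, N ^ i) * (1 - N)) * y := by rw [h2, one_mul]
      _ = (∑ i ∈ Finset.range p, N ^ i) * ((1 - N) * y) := mul_assoc _ _ _
      _ = _ := by rw [h1]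
  rw [h3, ← Matrix.mulVec_mulVec, sum_mulVec']
  apply Submodule.sum_mem
  intro i _
  apply pow_inv N W hW
  rw [Matrix.add_mulVec, Matrix.one_mulVec]
  exact W.add_mem hu (hW u hu)

theorem N_inv_of_g {m : ℕ} (N g : Mt m F) (hu : IsUnit (g + 1)) (hrel : N * (g + 1) = g - 1)
    (W : Submodule F (Fin m ⊕ Fin m → F)) (hW : ∀ u ∈ W, g *ᵥ u ∈ W) : ∀ u ∈ W, N *ᵥ u ∈ W := by
  intro u hu'
  have hT : ∀ v ∈ W, (g + 1).mulVecLin v ∈ W := by
    intro v hv
    rw [Matrix.mulVecLin_apply, Matrix.add_mulVec, Matrix.one_mulVec]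
    exact W.add_mem (hW v hv) hv
  let T : W →ₗ[F] W := (g + 1).mulVecLin.restrict hT
  have hinj : Function.Injective T := by
    intro a b hab
    obtain ⟨v, hv⟩ := hu
    apply Subtype.ext
    have h1 : (g + 1) *ᵥ a.1 = (g + 1) *ᵥ b.1 := congrArg Subtype.val hab
    have h2 := congrArg (fun w => ((v⁻¹ : (Mt m F)ˣ) : Mt m F) *ᵥ w) h1
    simp only [Matrix.mulVec_mulVec, ← hv, Units.inv_mul, Matrix.one_mulVec] at h2
    exact h2
  have hsurj := LinearMap.injective_iff_surjective.1 hinj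
  obtain ⟨w, hw⟩ := hsurj ⟨u, hu'⟩
  have hw' : (g + 1) *ᵥ w.1 = u := congrArg Subtype.val hw
  rw [← hw', Matrix.mulVec_mulVec, hrel, Matrix.sub_mulVec, Matrix.one_mulVec]
  exact W.sub_mem (hW _ w.2) w.2

theorem N_zero_of_scalar {m : ℕ} (hm : 0 < m) (h2 : (2 : F) ≠ 0) (N g : Mt m F) (z : F) (hz : g = z • 1)
    (hrel : N * (g + 1) = g - 1) (hnil : ∃ k, N ^ k = 0) : N = 0 := by
  classical
  obtain ⟨i₀⟩ : Nonempty (Fin m ⊕ Fin m) := ⟨Sum.inl ⟨0, hm⟩⟩
  have h1 : (z + 1) • N = (z - 1) • (1 : Mt m F) := by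
    have : g + 1 = (z + 1) • (1 : Mt m F) := by rw [hz, add_smul, one_smul]
    rw [this, mul_smul_comm, mul_one] at hrel
    rw [hrel, hz, sub_smul, one_smul]
  by_cases hz1 : z + 1 = 0
  · exfalso
    rw [hz1, zero_smul] at h1
    have h3 := congrFun (congrFun h1 i₀) i₀
    simp only [Matrix.zero_apply, Matrix.smul_apply, Matrix.one_apply_eq, smul_eq_mul, mul_one] at h3
    apply h2
    linear_combination hz1 + h3
  · have h3 : N = ((z - 1) / (z + 1)) • (1 : Mt m F) := by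
      rw [div_eq_inv_mul, mul_smul, ← h1, smul_smul, inv_mul_cancel₀ hz1, one_smul]
    obtain ⟨k, hk⟩ := hnil
    rw [h3, _root_.smul_pow, one_pow] at hk
    have h4 := congrFun (congrFun hk i₀) i₀
    simp only [Matrix.zero_apply, Matrix.smul_apply, Matrix.one_apply_eq, smul_eq_mul, mul_one] at h4
    have h5 : (z - 1) / (z + 1) = 0 := by
      by_contra hne
      exact pow_ne_zero k hne h4
    rw [h3, h5, zero_smul]

theorem partA {p : ℕ} [Fact p.Prime] [CharP F p] [Fintype F] (hp : 2 < p) (d m : ℕ) (hd : 0 < d) (hm : Even m) (hm2 : m ≤ 2 * d)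
    (scalar_sq : ∀ (x : symplecticGroup (Fin d) F) (z : F),
      (x : Matrix (Fin d ⊕ Fin d) (Fin d ⊕ Fin d) F) = z • (1 : Matrix (Fin d ⊕ Fin d) (Fin d ⊕ Fin d) F) → z * z = 1) :
    (∀ x : symplecticGroup (Fin d) F,
      (∃ z : F, ((x ^ p : symplecticGroup (Fin d) F) : Matrix (Fin d ⊕ Fin d) (Fin d ⊕ Fin d) F) = z • (1 : Matrix (Fin d ⊕ Fin d) (Fin d ⊕ Fin d) F)) →
      (∀ z : F, (x : Matrix (Fin d ⊕ Fin d) (Fin d ⊕ Fin d) F) ≠ z • (1 : Matrix (Fin d ⊕ Fin d) (Fin d ⊕ Fin d) F)) →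
      ∃ W : Submodule F (Fin d ⊕ Fin d → F), finrank F W = m ∧ (∀ u ∈ W, u ≠ 0 → ∃ v ∈ W, Cfsg.sympForm d F u v ≠ 0) ∧
        W.map (Matrix.toLin' (x : Matrix (Fin d ⊕ Fin d) (Fin d ⊕ Fin d) F)) ≤ W) ↔
    (∀ μ : Multiset ℕ, (∀ a ∈ μ, 0 < a ∧ a ≤ p) → (∀ a : ℕ, Odd a → Even (μ.count a)) → μ.sum = 2 * d →
        ∃ ν : Multiset ℕ, ν ≤ μ ∧ ν.sum = m ∧ ∀ a : ℕ, Odd a → Even (ν.count a)) := by
  classical
  have hpp : p.Prime := Fact.out
  have h2 : (2 : F) ≠ 0 := by
    intro h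
    have h3 := (CharP.cast_eq_zero_iff F p 2).1 (by exact_mod_cast h)
    have := (Nat.prime_dvd_prime_iff_eq hpp Nat.prime_two).1 h3
    omega
  have hdimV : finrank F (Fin d ⊕ Fin d → F) = 2 * d := by
    simp
    ring
  constructor
  · intro H μ hμ hpar hsum
    by_cases hall : ∀ a ∈ μ, a ≤ 1
    · have h1 : μ = Multiset.replicate (2 * d) 1 := by
        have h3 : ∀ a ∈ μ, a = 1 := fun a ha => by
          have := hall a ha
          have := (hμ a ha).1
          omega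
        have h4 := Multiset.eq_replicate_card.mpr h3
        rw [h4] at hsum ⊢
        simp only [Multiset.sum_replicate, smul_eq_mul, mul_one] at hsum
        rw [hsum]
      refine ⟨Multiset.replicate m 1, ?_, by simp, fun a ha => ?_⟩
      · rw [h1]
        exact (Multiset.replicate_le_replicate _).2 hm2
      · rw [Multiset.count_replicate]
        split_ifs
        · exact hm
        · exact Even.zero
    · push Not at hall
      obtain ⟨j, hjμ, hj⟩ := hall
      obtain ⟨A, d₀, ht, -⟩ := exists_hasType (F := F) h2 ∅ μ (fun a ha => (hμ a ha).1) hpar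
      have hdim : finrank F A.V = 2 * d := by rw [ht.finrank_eq, hsum]
      obtain ⟨N, hN, hnil, hiso, hall'⟩ := realize h2 A hdim
      have hNp : N ^ p = 0 := hall' p ((ht.pow_eq_zero_iff p).2 fun a ha => (hμ a ha).2)
      obtain ⟨g, hg, hrel⟩ := exists_of_N N hN hNp
      have ht' := HasType.iso hiso.symm ht
      have hns : ∀ z : F, (g : Matrix (Fin d ⊕ Fin d) (Fin d ⊕ Fin d) F) ≠ z • (1 : Matrix (Fin d ⊕ Fin d) (Fin d ⊕ Fin d) F) := by
        intro z hz
        have hN0 := N_zero_of_scalar hd h2 N g.1 z hz hrel hnil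
        have h3 := (ht'.pow_eq_zero_iff 1).1 (by
          rw [pow_one]
          subst hN0
          exact Matrix.mulVecLin_zero)
        have := h3 j hjμ
        omega
      obtain ⟨W, hfin, hnd, hinv⟩ := H g ⟨1, by
        rw [hg, one_smul]
        rfl⟩ hns
      have hgW : ∀ u ∈ W, g.1 *ᵥ u ∈ W := fun u hu => hinv ⟨u, hu, rfl⟩
      have hNW := N_inv_of_g N g.1 (unit_g1 (Mt_two_unit h2) ⟨p, hNp⟩ hrel) hrel W hgW
      have hnd' : ∀ u ∈ W, (∀ v ∈ W, (stdFM N hN hnil).ω u v = 0) → u = 0 := by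
        intro u hu hv
        by_contra hu0
        obtain ⟨v, hv1, hv2⟩ := hnd u hu hu0
        exact hv2 (hv v hv1)
      obtain ⟨A₁, hiso₂⟩ := exists_sum_of_sub (stdFM N hN hnil) W hNW hnd'
      obtain ⟨ν, d₁, hν⟩ := exists_type h2 (ofSub (stdFM N hN hnil) W hNW hnd')
      obtain ⟨μ₁, d₂, hμ₁⟩ := exists_type h2 A₁
      obtain ⟨d'', h5⟩ := hν.sum hμ₁
      have h6 := HasType.iso hiso₂ h5
      have h7 := (ht'.unique h6 (Iso.refl _)).1
      refine ⟨ν, ?_, ?_, hν.parity⟩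
      · rw [h7]
        exact Multiset.le_add_right _ _
      · rw [← hν.finrank_eq]
        exact hfin
  · rintro H x ⟨z, hz⟩ hns
    have hz2 : z * z = 1 := scalar_sq _ z hz
    obtain ⟨X, hXmem⟩ := x
    have hXsp := SymplecticGroup.mem_iff'.mp hXmem
    have hYmem : z • X ∈ symplecticGroup (Fin d) F := by
      rw [SymplecticGroup.mem_iff', Matrix.transpose_smul, Matrix.smul_mul, Matrix.smul_mul, Matrix.mul_smul, smul_smul,
        hXsp, hz2, one_smul]
    have hXp : X ^ p = z • (1 : Mt d F) := by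
      have := hz
      rw [SubmonoidClass.coe_pow] at this
      exact this
    have hz3 : z ^ p * z = 1 := by
      obtain ⟨k, hk⟩ := hpp.odd_of_ne_two (by omega)
      rw [hk, pow_succ, pow_mul, pow_two, hz2, one_pow, one_mul, hz2]
    have hy1 : (⟨z • X, hYmem⟩ : symplecticGroup (Fin d) F) ^ p = 1 := by
      apply Subtype.ext
      rw [SubmonoidClass.coe_pow]
      change (z • X) ^ p = 1
      rw [_root_.smul_pow, hXp, smul_smul, hz3, one_smul]
    obtain ⟨N, hN, hNp, hrel⟩ := exists_cay h2 _ hy1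
    have hnil : ∃ k, N ^ k = 0 := ⟨p, hNp⟩
    obtain ⟨μ, d₀, ht⟩ := exists_type h2 (stdFM N hN hnil)
    obtain ⟨ν, hle, hsum, hpar⟩ := H μ (fun a ha => ⟨ht.pos a ha, (ht.pow_eq_zero_iff p).1 (by
      change (N.mulVecLin) ^ p = 0
      rw [mvl_pow, hNp]
      exact Matrix.mulVecLin_zero) a ha⟩) ht.parity (by
        rw [← ht.finrank_eq]
        exact hdimV)
    obtain ⟨A₁, A₂, d₁, hiso, hA₁⟩ := ht.split_sub ν hle hpar
    obtain ⟨W, hfin, hnd, hinv⟩ := exists_sub_of_iso hiso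
    refine ⟨W, hfin.trans (hA₁.finrank_eq.trans hsum), hnd, ?_⟩
    rintro _ ⟨u, hu, rfl⟩
    have h3 := inv_of_N N (z • X) hNp hrel W hinv u hu
    have h4 : Matrix.toLin' X u = z • ((z • X) *ᵥ u) := by
      rw [Matrix.toLin'_apply, Matrix.smul_mulVec, smul_smul, hz2, one_smul]
    change Matrix.toLin' X u ∈ W
    rw [h4]
    exact W.smul_mem z h3

end FM

end Cfsg.Agent.Lib.SpFM
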