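import Mathlib
import Cfsg.Agent.Lib.SpRoot

set_option autoImplicit false
set_option linter.unusedSectionVars false
set_option linter.unusedSimpArgs false

/-!
# The unitriangular subgroup of `Sp_{2m}(K)`: rank functions, centers, centralizers
-/

namespace Cfsg.Agent.Lib.SpFusion1

open Matrix Cfsg.Agent.Lib.SpBasic Cfsg.Agent.Lib.UnipCrit Cfsg.Agent.Lib.SpRoot

variable {K : Type*} [Field K] {m : ℕ}

local notation "Sp'" => Matrix.symplecticGroup (Fin m) K
local notation "I'" => (Fin m ⊕ Fin m)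

/-- The embedding into matrices. -/
def toM (K : Type*) [Field K] (m : ℕ) : Matrix.symplecticGroup (Fin m) K →* Matrix (Fin m ⊕ Fin m) (Fin m ⊕ Fin m) K :=
  (Matrix.symplecticGroup (Fin m) K).subtype

theorem toM_apply (g : Sp') : toM K m g = g.1 := rfl

theorem toM_injective : Function.Injective (toM K m) := Subtype.val_injective

/-- The rank function: `inl 0 < inl 1 < ⋯ < inl (m-1) < inr (m-1) < ⋯ < inr 0`. -/
def ρ (m : ℕ) : Fin m ⊕ Fin m → ℕ := Sum.elim (fun i => (i : ℕ)) (fun i => 2 * m - 1 - i)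

@[simp] theorem ρ_inl (i : Fin m) : ρ m (Sum.inl i) = i := rfl
@[simp] theorem ρ_inr (i : Fin m) : ρ m (Sum.inr i) = 2 * m - 1 - i := rfl

theorem ρ_injective : Function.Injective (ρ m) := by
  rintro (i | i) (j | j) h
  · simp only [ρ_inl] at h
    rw [Fin.ext h]
  · simp only [ρ_inl, ρ_inr] at h
    have := i.2
    have := j.2
    omega
  · simp only [ρ_inl, ρ_inr] at h
    have := i.2
    have := j.2
    omega
  · simp only [ρ_inr] at h
    have := i.2
    have := j.2
    rw [Fin.ext (by omega : (i : ℕ) = j)]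

theorem ρ_swap (a : I') : ρ m a.swap + ρ m a = 2 * m - 1 := by
  rcases a with i | i
  · simp only [Sum.swap_inl, ρ_inl, ρ_inr]
    have := i.2
    omega
  · simp only [Sum.swap_inr, ρ_inl, ρ_inr]
    have := i.2
    omega

/-- The coarsening attached to the `t`-th simple root. -/
def fc (m t s : ℕ) : ℕ := if s = t + 1 then t else if s = 2 * m - 1 - t then 2 * m - 2 - t else s

/-- The rank function of the `t`-th minimal parabolic subgroup. -/
def rc (t : Fin m) (a : Fin m ⊕ Fin m) : ℕ := fc m t (ρ m a)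

theorem fc_spec (m t s : ℕ) : (s = t + 1 ∧ fc m t s = t) ∨ (s ≠ t + 1 ∧ s = 2 * m - 1 - t ∧ fc m t s = 2 * m - 2 - t) ∨
    (s ≠ t + 1 ∧ s ≠ 2 * m - 1 - t ∧ fc m t s = s) := by
  unfold fc
  by_cases h1 : s = t + 1
  · left
    exact ⟨h1, if_pos h1⟩
  · right
    by_cases h2 : s = 2 * m - 1 - t
    · left
      refine ⟨h1, h2, ?_⟩
      rw [if_neg h1, if_pos h2]
    · right
      refine ⟨h1, h2, ?_⟩
      rw [if_neg h1, if_neg h2]

theorem fc_mono {t : ℕ} (ht : t < m) {s s' : ℕ} (h : s < s') : fc m t s ≤ fc m t s' := by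
  have h1 := fc_spec m t s
  have h2 := fc_spec m t s'
  omega

theorem rc_mono (t : Fin m) (a b : I') (h : ρ m b < ρ m a) : rc t b ≤ rc t a := fc_mono t.2 h

theorem T_mem_blk {r : I' → ℕ} {a : I'} (h : r a < r a.swap) (c : K) : IsBlk r (toM K m (T (e a) c)) := by
  rw [toM_apply, T_coe]
  exact isBlk_single1 _ h

theorem B_mem_blk {r : I' → ℕ} {a b : I'} (hb : b ≠ a.swap) (h : r a < r b.swap) (h' : r b < r a.swap) (c : K) :
    IsBlk r (toM K m (B (e a) (e b) c)) := by
  rw [toM_apply, B_coe hb]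
  exact isBlk_single2 _ _ h h'

theorem T_mem_par {r : I' → ℕ} {a : I'} (h : r a.swap ≥ r a) (c : K) : IsPar r (toM K m (T (e a) c)) := by
  rw [toM_apply, T_coe]
  exact isPar_single1 _ h

theorem B_mem_par {r : I' → ℕ} {a b : I'} (hb : b ≠ a.swap) (h : r b.swap ≥ r a) (h' : r a.swap ≥ r b) (c : K) :
    IsPar r (toM K m (B (e a) (e b) c)) := by
  rw [toM_apply, B_coe hb]
  exact isPar_single2 _ _ h h'

/-- Commuting with a long root element. -/
theorem comm_T {A : Sp'} {a : I'} {c : K} (hc : c ≠ 0) (h : A * T (e a) c = T (e a) c * A) :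
    (∀ s, s ≠ a.swap → A.1 a.swap s = 0) ∧ (∀ r, r ≠ a → A.1 r a = 0) ∧ A.1 a a = A.1 a.swap a.swap := by
  apply comm1 (mul_ne_zero hc (sg_ne_zero a))
  have h1 : A.1 * (T (e a) c : Sp').1 = (T (e a) c : Sp').1 * A.1 := congrArg Subtype.val h
  rw [T_coe, Matrix.mul_add, Matrix.add_mul, Matrix.mul_one, Matrix.one_mul] at h1
  exact add_left_cancel h1

/-- Commuting with a short root element. -/
theorem comm_B {A : Sp'} {a b : I'} {c : K} (hc : c ≠ 0) (hb : b ≠ a.swap) (hab : a ≠ b)
    (h : A * B (e a) (e b) c = B (e a) (e b) c * A) :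
    (∀ s, s ≠ b.swap → s ≠ a.swap → A.1 b.swap s = 0) ∧ (∀ s, s ≠ b.swap → s ≠ a.swap → A.1 a.swap s = 0) ∧
    (∀ r, r ≠ a → r ≠ b → A.1 r a = 0) ∧ (∀ r, r ≠ a → r ≠ b → A.1 r b = 0) ∧
    A.1 a a = A.1 b.swap b.swap ∧ A.1 b b = A.1 a.swap a.swap ∧
    A.1 a b * (c * sg a) = (c * sg b) * A.1 b.swap a.swap := by
  apply comm2 (mul_ne_zero hc (sg_ne_zero b)) (mul_ne_zero hc (sg_ne_zero a)) hab
  · intro h'
    exact hab (swap_eq_iff.mp h').symm
  have h1 : A.1 * (B (e a) (e b) c : Sp').1 = (B (e a) (e b) c : Sp').1 * A.1 := congrArg Subtype.val h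
  rw [B_coe hb, add_assoc, Matrix.mul_add, Matrix.add_mul, Matrix.mul_one, Matrix.one_mul] at h1
  exact add_left_cancel h1

/-- Central elements are scalars. -/
theorem center_scalar (z : Sp') (hz : z ∈ Subgroup.center Sp') : ∃ c : K, toM K m z = c • 1 := by
  classical
  have hcomm : ∀ g : Sp', z * g = g * z := fun g => (Subgroup.mem_center_iff.mp hz g).symm
  rcases isEmpty_or_nonempty (Fin m) with he | ⟨⟨i₀⟩⟩
  · refine ⟨1, ?_⟩
    ext a
    rcases a with a | a <;> exact (he.false a).elim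
  have hT := fun a => comm_T (K := K) (A := z) (a := a) one_ne_zero (hcomm _)
  have hM : ∀ i j : Fin m, i ≠ j → z.1 (Sum.inl i) (Sum.inl i) = z.1 (Sum.inl j) (Sum.inl j) := by
    intro i j hij
    have h1 : ∀ h : (Sum.inr j : I') ≠ (Sum.inl i : I').swap, _ := fun h =>
      comm_B (K := K) (A := z) (a := Sum.inl i) (b := Sum.inr j) one_ne_zero h (by simp) (hcomm _)
    obtain ⟨-, -, -, -, h5, -, -⟩ := h1 (by simpa using fun h => hij h.symm)
    simpa using h5
  refine ⟨z.1 (Sum.inl i₀) (Sum.inl i₀), ?_⟩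
  ext r s
  rw [toM_apply, Matrix.smul_apply]
  by_cases hrs : r = s
  · subst hrs
    rw [Matrix.one_apply_eq, smul_eq_mul, mul_one]
    rcases r with i | i
    · by_cases h : i = i₀
      · rw [h]
      · exact hM i i₀ h
    · have h1 := (hT (Sum.inl i)).2.2
      simp only [Sum.swap_inl] at h1
      rw [← h1]
      by_cases h : i = i₀
      · rw [h]
      · exact hM i i₀ h
  · rw [Matrix.one_apply_ne hrs, smul_zero]
    exact (hT s).2.1 r hrs

/-- Root elements in `U`, with a prescribed row. -/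
theorem root_exists (k l : I') (hkl : ρ m k < ρ m l) : ∃ x : Sp', IsBlk (ρ m) (toM K m x) ∧
    ∀ s, toM K m x k s = (if s = k then 1 else 0) + (if s = l then 1 else 0) := by
  have hkl' : k ≠ l := fun h => by subst h; exact lt_irrefl _ hkl
  have hs := ρ_swap k
  have hs' := ρ_swap l
  by_cases h : l = k.swap
  · subst h
    refine ⟨T (e k) (sg k), T_mem_blk hkl _, fun s => ?_⟩
    rw [toM_apply, T_coe, Matrix.add_apply, Matrix.one_apply, sg_mul_self]
    by_cases h2 : s = k.swap
    · subst h2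
      rw [Matrix.single_apply_same, if_neg hkl', if_neg hkl'.symm, if_pos rfl]
    · have h3 : Matrix.single k k.swap (1 : K) k s = 0 := Matrix.single_apply_of_ne _ _ _ _ _ (fun h' => h2 h'.2.symm)
      rw [h3, if_neg h2, add_zero, add_zero]
      by_cases h1 : s = k
      · rw [if_pos h1.symm, if_pos h1]
      · rw [if_neg (fun h' => h1 h'.symm), if_neg h1]
  · have hne : l.swap ≠ k.swap := fun h' => hkl' (swap_eq_iff.mp h').symm
    have hne2 : k ≠ l.swap := fun h' => h (by rw [h']; simp)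
    refine ⟨B (e k) (e l.swap) (sg l.swap), B_mem_blk hne (by simpa using hkl) (by
      have h1 : ρ m l.swap < ρ m k.swap := by omega
      exact h1) _, fun s => ?_⟩
    rw [toM_apply, B_coe hne]
    simp only [swap_swap', Matrix.add_apply, Matrix.one_apply, sg_mul_self]
    have h0 : Matrix.single l.swap k.swap ((sg l.swap : K) * sg k) k s = 0 :=
      Matrix.single_apply_of_ne _ _ _ _ _ (fun h' => hne2 h'.1.symm)
    rw [h0, add_zero]
    by_cases h2 : s = l
    · subst h2
      rw [Matrix.single_apply_same, if_neg hkl', if_neg hkl'.symm, if_pos rfl]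
    · have h3 : Matrix.single k l (1 : K) k s = 0 := Matrix.single_apply_of_ne _ _ _ _ _ (fun h' => h2 h'.2.symm)
      rw [h3, if_neg h2, add_zero, add_zero]
      by_cases h1 : s = k
      · rw [if_pos h1.symm, if_pos h1]
      · rw [if_neg (fun h' => h1 h'.symm), if_neg h1]

/-- Upper triangular elements with constant diagonal are scalar multiples of unitriangular elements. -/
theorem exists_scalar {A : Sp'} {c : K} (hup : IsPar (ρ m) A.1) (hd : ∀ a, A.1 a a = c) (a₀ : I') :
    ∃ w : Sp', w.1 = c • A.1 ∧ prj Sp' w = prj Sp' A ∧ c * c = 1 := by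
  have hcc : c * c = 1 := by
    have := diag_mul_swap (ρ m) ρ_injective _ ρ_swap A hup a₀
    rwa [hd, hd] at this
  have hz : c • (1 : Matrix I' I' K) ∈ Matrix.symplecticGroup (Fin m) K := by
    rw [mem_symplecticGroup_iff]
    intro x y
    simp only [Matrix.smul_mulVec, Matrix.one_mulVec, ω_smul_left, ω_smul_right]
    rw [← mul_assoc, hcc, one_mul]
  let z : Sp' := ⟨c • 1, hz⟩
  have hzc : z ∈ Subgroup.center Sp' := by
    rw [Subgroup.mem_center_iff]
    intro g
    apply Subtype.ext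
    show g.1 * (c • 1) = (c • 1) * g.1
    simp
  refine ⟨z * A, by
    show (c • (1 : Matrix I' I' K)) * A.1 = _
    rw [Matrix.smul_mul, Matrix.one_mul], ?_, hcc⟩
  rw [map_mul, prj_eq_one_iff.mpr hzc, one_mul]

end Cfsg.Agent.Lib.SpFusion1
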