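import Mathlib
import Cfsg.Agent.Lib.SpFusion1

set_option autoImplicit false
set_option linter.unusedSectionVars false
set_option linter.unusedSimpArgs false

/-!
# The unitriangular subgroup of `Sp_{2m}(K)`: centralizers of the radicals of minimal parabolics
-/

namespace Cfsg.Agent.Lib.SpFusion2

open Matrix Cfsg.Agent.Lib.SpBasic Cfsg.Agent.Lib.UnipCrit Cfsg.Agent.Lib.SpRoot Cfsg.Agent.Lib.SpFusion1

variable {K : Type*} [Field K] {m : ℕ}

local notation "Sp'" => Matrix.symplecticGroup (Fin m) K
local notation "I'" => (Fin m ⊕ Fin m)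

theorem exists_ne (hm : 2 ≤ m) (j : Fin m) : ∃ s : Fin m, s ≠ j := by
  by_cases h : (j : ℕ) = 0
  · exact ⟨⟨1, by omega⟩, fun h' => by have := congrArg Fin.val h'; simp at this; omega⟩
  · exact ⟨⟨0, by omega⟩, fun h' => by have := congrArg Fin.val h'; simp at this; omega⟩

/-- The radical of a minimal parabolic subgroup is self-centralizing, modulo the center. -/
theorem self_centralizing (hm : 2 ≤ m) (t : Fin m) (A : Sp')
    (hA : ∀ v, IsBlk (rc t) (toM K m v) → A * v = v * A) :
    ∃ w, IsBlk (rc t) (toM K m w) ∧ prj Sp' w = prj Sp' A := by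
  have ht := t.2
  -- long roots
  have hL : ∀ i : Fin m, ¬ ((i : ℕ) = t ∧ (t : ℕ) + 1 = m) →
      (∀ s, s ≠ Sum.inr i → A.1 (Sum.inr i) s = 0) ∧ (∀ r, r ≠ Sum.inl i → A.1 r (Sum.inl i) = 0) ∧
        A.1 (Sum.inl i) (Sum.inl i) = A.1 (Sum.inr i) (Sum.inr i) := by
    intro i hi
    refine comm_T (K := K) (a := Sum.inl i) one_ne_zero (hA _ (T_mem_blk ?_ _))
    have := i.2
    simp only [rc, Sum.swap_inl, ρ_inl, ρ_inr]
    have h1 := fc_spec m t i
    have h2 := fc_spec m t (2 * m - 1 - i)
    omega
  -- the roots `e_i + e_j`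
  have hP : ∀ i j : Fin m, i ≠ j →
      (∀ r, r ≠ Sum.inl i → r ≠ Sum.inl j → A.1 r (Sum.inl i) = 0) ∧
        A.1 (Sum.inl i) (Sum.inl i) = A.1 (Sum.inr j) (Sum.inr j) := by
    intro i j hij
    have hij' : (i : ℕ) ≠ j := fun h => hij (Fin.ext h)
    have h1 := comm_B (K := K) (A := A) (a := Sum.inl i) (b := Sum.inl j) (c := 1) one_ne_zero (by simp)
      (by simpa using hij) (hA _ (B_mem_blk (by simp) ?_ ?_ _))
    · exact ⟨h1.2.2.1, by simpa using h1.2.2.2.2.1⟩
    all_goals
      have := i.2
      have := j.2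
      simp only [rc, Sum.swap_inl, ρ_inl, ρ_inr]
      have h1 := fc_spec m t i
      have h2 := fc_spec m t (2 * m - 1 - i)
      have h3 := fc_spec m t j
      have h4 := fc_spec m t (2 * m - 1 - j)
      omega
  -- the roots `e_i - e_j`
  have hM : ∀ i j : Fin m, i < j → ¬ ((i : ℕ) = t ∧ (j : ℕ) = t + 1) →
      (∀ s, s ≠ Sum.inl j → s ≠ Sum.inr i → A.1 (Sum.inr i) s = 0) ∧
      (∀ r, r ≠ Sum.inl i → r ≠ Sum.inr j → A.1 r (Sum.inl i) = 0) ∧
      (∀ r, r ≠ Sum.inl i → r ≠ Sum.inr j → A.1 r (Sum.inr j) = 0) ∧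
        A.1 (Sum.inl i) (Sum.inl i) = A.1 (Sum.inl j) (Sum.inl j) := by
    intro i j hij hne
    have hij' : (i : ℕ) < j := hij
    have h1 := comm_B (K := K) (A := A) (a := Sum.inl i) (b := Sum.inr j) (c := 1) one_ne_zero
      (by simpa using (ne_of_lt hij).symm) (by simp) (hA _ (B_mem_blk (by simpa using (ne_of_lt hij).symm) ?_ ?_ _))
    · obtain ⟨-, h2, h3, h4, h5, -, -⟩ := h1
      exact ⟨by simpa using h2, h3, h4, by simpa using h5⟩
    all_goals
      have := i.2
      have := j.2
      simp only [rc, Sum.swap_inl, Sum.swap_inr, ρ_inl, ρ_inr]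
      have h1 := fc_spec m t i
      have h2 := fc_spec m t (2 * m - 1 - i)
      have h3 := fc_spec m t j
      have h4 := fc_spec m t (2 * m - 1 - j)
      omega
  -- lower triangular entries
  have hup : IsPar (ρ m) A.1 := by
    rintro (i | i) (j | j) hab
    · simp only [ρ_inl] at hab
      by_cases hne : (j : ℕ) = t ∧ (i : ℕ) = t + 1
      · have hjt : j = t := Fin.ext hne.1
        subst hjt
        refine (hL j (by omega)).2.1 _ ?_
        intro h
        have : i = j := Sum.inl.inj h
        rw [this] at hab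
        exact lt_irrefl _ hab
      · refine (hM j i hab hne).2.1 _ ?_ (by simp)
        intro h
        have : i = j := Sum.inl.inj h
        rw [this] at hab
        exact lt_irrefl _ hab
    · simp only [ρ_inl, ρ_inr] at hab
      have := i.2
      have := j.2
      omega
    · obtain ⟨s, hs⟩ := exists_ne hm j
      exact (hP j s hs.symm).1 _ (by simp) (by simp)
    · simp only [ρ_inr] at hab
      have hi := i.2
      have hj := j.2
      have hij : i < j := Fin.lt_def.mpr (by omega)
      by_cases hne : (i : ℕ) = t ∧ (j : ℕ) = t + 1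
      · have hjt : i = t := Fin.ext hne.1
        subst hjt
        refine (hL i (by omega)).1 _ ?_
        intro h
        have : j = i := Sum.inr.inj h
        rw [this] at hij
        exact lt_irrefl _ hij
      · exact (hM i j hij hne).1 _ (by simp) (by
          intro h
          have : j = i := Sum.inr.inj h
          rw [this] at hij
          exact lt_irrefl _ hij)
  -- constant diagonal
  have hdl : ∀ i j : Fin m, i < j → A.1 (Sum.inl i) (Sum.inl i) = A.1 (Sum.inl j) (Sum.inl j) := by
    intro i j hij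
    have hij' : (i : ℕ) < j := hij
    by_cases hne : (i : ℕ) = t ∧ (j : ℕ) = t + 1
    · have hjt : i = t := Fin.ext hne.1
      subst hjt
      have hj := j.2
      rw [(hL i (by omega)).2.2, (hP j i (ne_of_lt hij).symm).2]
    · exact (hM i j hij hne).2.2.2
  have hdl' : ∀ i : Fin m, A.1 (Sum.inl i) (Sum.inl i) = A.1 (Sum.inl t) (Sum.inl t) := by
    intro i
    rcases lt_trichotomy i t with h | h | h
    · exact hdl i t h
    · rw [h]
    · exact (hdl t i h).symm
  have hd : ∀ a, A.1 a a = A.1 (Sum.inl t) (Sum.inl t) := by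
    rintro (i | i)
    · exact hdl' i
    · obtain ⟨s, hs⟩ := exists_ne hm i
      rw [← (hP s i hs).2]
      exact hdl' s
  obtain ⟨w, hw, hwp, hcc⟩ := exists_scalar hup hd (Sum.inl t)
  set c := A.1 (Sum.inl t) (Sum.inl t) with hcdef
  have hwa : ∀ a b, w.1 a b = c * A.1 a b := by
    intro a b
    rw [hw]
    rfl
  have hroot : ∀ a b, rc t a = rc t b → ρ m a < ρ m b → A.1 a b = 0 := by
    rintro (i | i) (j | j) hrc hab
    · simp only [rc, ρ_inl] at hrc
      simp only [ρ_inl] at hab
      have hi := i.2
      have hj := j.2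
      have h1 : (i : ℕ) = t ∧ (j : ℕ) = t + 1 := by
        have h3 := fc_spec m t i
        have h4 := fc_spec m t j
        omega
      exact (hL j (by omega)).2.1 _ (by
        intro h
        have : i = j := Sum.inl.inj h
        rw [this] at hab
        exact lt_irrefl _ hab)
    · simp only [rc, ρ_inl, ρ_inr] at hrc
      simp only [ρ_inl, ρ_inr] at hab
      have hi := i.2
      have hj := j.2
      have h1 : (i : ℕ) = t ∧ (j : ℕ) = t ∧ (t : ℕ) + 1 = m := by
        have h3 := fc_spec m t i
        have h4 := fc_spec m t (2 * m - 1 - j)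
        omega
      have hit : i = t := Fin.ext h1.1
      have hjt : j = t := Fin.ext h1.2.1
      rw [hit, hjt]
      obtain ⟨s, hs⟩ := exists_ne hm t
      have hs' : (s : ℕ) < t := by
        have : (s : ℕ) ≠ t := fun h => hs (Fin.ext h)
        have := s.2
        omega
      refine (hM s t hs' (by omega)).2.2.1 _ ?_ (by simp)
      intro h
      exact hs (Sum.inl.inj h).symm
    · simp only [ρ_inl, ρ_inr] at hab
      have hi := i.2
      have hj := j.2
      omega
    · simp only [rc, ρ_inr] at hrc
      simp only [ρ_inr] at hab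
      have hi := i.2
      have hj := j.2
      have h1 : (j : ℕ) = t ∧ (i : ℕ) = t + 1 := by
        have h3 := fc_spec m t (2 * m - 1 - i)
        have h4 := fc_spec m t (2 * m - 1 - j)
        omega
      refine (hL i (by omega)).1 _ ?_
      intro h
      have : j = i := Sum.inr.inj h
      rw [this] at hab
      exact lt_irrefl _ hab
  refine ⟨w, ⟨?_, ?_⟩, hwp⟩
  · intro a b hab
    rw [toM_apply, hwa]
    have h1 : ρ m b < ρ m a := by
      by_contra hcon
      rcases eq_or_lt_of_le (not_lt.mp hcon) with h | h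
      · have := ρ_injective h
        subst this
        exact lt_irrefl _ hab
      · have := fc_mono (m := m) t.2 h
        exact absurd hab (not_lt.mpr this)
    rw [hup a b h1, mul_zero]
  · intro a b hab
    rw [toM_apply, hwa]
    by_cases h : a = b
    · subst h
      rw [if_pos rfl, hd, hcc]
    · rw [if_neg h]
      rcases lt_or_gt_of_ne (fun h' => h (ρ_injective h') : ρ m a ≠ ρ m b) with h1 | h1
      · rw [hroot a b hab h1, mul_zero]
      · rw [hup a b h1, mul_zero]

end Cfsg.Agent.Lib.SpFusion2
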