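import Mathlib
import Cfsg.Agent.Lib.SpFusion2

set_option autoImplicit false
set_option linter.unusedSectionVars false
set_option linter.unusedSimpArgs false
set_option linter.unusedVariables false

/-!
# The Borel subgroup of `Sp_{2m}(K)`: generation by `U` and the minimal parabolic tori
-/

namespace Cfsg.Agent.Lib.SpFusion3

open Matrix Cfsg.Agent.Lib.SpBasic Cfsg.Agent.Lib.UnipCrit Cfsg.Agent.Lib.SpRoot Cfsg.Agent.Lib.SpFusion1

variable {K : Type*} [Field K] {m : ℕ}

local notation "Sp'" => Matrix.symplecticGroup (Fin m) K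
local notation "I'" => (Fin m ⊕ Fin m)

/-- The elementary elements attached to the `t`-th simple root. -/
def Yt (K : Type*) [Field K] {m : ℕ} (t : Fin m) : Set (Matrix.symplecticGroup (Fin m) K) :=
  {y | (∃ (t' : Fin m) (c : K), (t' : ℕ) = t + 1 ∧
      (y = B (e (Sum.inl t)) (e (Sum.inr t')) c ∨ y = B (e (Sum.inl t')) (e (Sum.inr t)) c)) ∨
    (∃ c : K, (t : ℕ) + 1 = m ∧ (y = T (e (Sum.inl t)) c ∨ y = T (e (Sum.inr t)) c))}

theorem ω_inl_inr {i j : Fin m} (h : i ≠ j) : ω (e (Sum.inl i) : I' → K) (e (Sum.inr j)) = 0 := by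
  rw [ω_e_left, e_apply]
  simp [Ne.symm h, h]

theorem Yt_par {t : Fin m} {y : Sp'} (hy : y ∈ Yt K t) : IsPar (rc t) (toM K m y) := by
  have ht := t.2
  rcases hy with ⟨t', c, ht', rfl | rfl⟩ | ⟨c, h1, rfl | rfl⟩
  · have hne : (Sum.inr t' : I') ≠ (Sum.inl t : I').swap := by
      simp only [Sum.swap_inl, ne_eq, Sum.inr.injEq]
      intro h
      rw [h] at ht'
      omega
    refine B_mem_par hne ?_ ?_ c
    all_goals
      have := t'.2
      simp only [rc, Sum.swap_inl, Sum.swap_inr, ρ_inl, ρ_inr]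
      have h1 := fc_spec m t t
      have h2 := fc_spec m t t'
      have h3 := fc_spec m t (2 * m - 1 - t)
      have h4 := fc_spec m t (2 * m - 1 - t')
      omega
  · have hne : (Sum.inr t : I') ≠ (Sum.inl t' : I').swap := by
      simp only [Sum.swap_inl, ne_eq, Sum.inr.injEq]
      intro h
      rw [← h] at ht'
      omega
    refine B_mem_par hne ?_ ?_ c
    all_goals
      have := t'.2
      simp only [rc, Sum.swap_inl, Sum.swap_inr, ρ_inl, ρ_inr]
      have h1 := fc_spec m t t
      have h2 := fc_spec m t t'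
      have h3 := fc_spec m t (2 * m - 1 - t)
      have h4 := fc_spec m t (2 * m - 1 - t')
      omega
  · refine T_mem_par ?_ c
    simp only [rc, Sum.swap_inl, ρ_inl, ρ_inr]
    have h1 := fc_spec m t t
    have h3 := fc_spec m t (2 * m - 1 - t)
    omega
  · refine T_mem_par ?_ c
    simp only [rc, Sum.swap_inr, ρ_inl, ρ_inr]
    have h1 := fc_spec m t t
    have h3 := fc_spec m t (2 * m - 1 - t)
    omega

theorem Yt_inv {t : Fin m} {y : Sp'} (hy : y ∈ Yt K t) : y⁻¹ ∈ Yt K t := by
  rcases hy with ⟨t', c, ht', rfl | rfl⟩ | ⟨c, h1, rfl | rfl⟩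
  · have hne : t ≠ t' := by
      intro h
      rw [← h] at ht'
      omega
    exact Or.inl ⟨t', -c, ht', Or.inl (B_inv (ω_inl_inr hne) c)⟩
  · have hne : t' ≠ t := by
      intro h
      rw [h] at ht'
      omega
    exact Or.inl ⟨t', -c, ht', Or.inr (B_inv (ω_inl_inr hne) c)⟩
  · exact Or.inr ⟨-c, h1, Or.inl (T_inv _ c)⟩
  · exact Or.inr ⟨-c, h1, Or.inr (T_inv _ c)⟩

theorem Yt_pow (p : ℕ) [CharP K p] {t : Fin m} {y : Sp'} (hy : y ∈ Yt K t) : y ^ p = 1 := by
  rcases hy with ⟨t', c, ht', rfl | rfl⟩ | ⟨c, h1, rfl | rfl⟩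
  · have hne : t ≠ t' := by
      intro h
      rw [← h] at ht'
      omega
    rw [B_pow (ω_inl_inr hne), CharP.cast_eq_zero, zero_mul, B_zero (ω_inl_inr hne)]
  · have hne : t' ≠ t := by
      intro h
      rw [h] at ht'
      omega
    rw [B_pow (ω_inl_inr hne), CharP.cast_eq_zero, zero_mul, B_zero (ω_inl_inr hne)]
  · rw [T_pow, CharP.cast_eq_zero, zero_mul, T_zero_right]
  · rw [T_pow, CharP.cast_eq_zero, zero_mul, T_zero_right]

/-- The diagonal element attached to the `t`-th simple root. -/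
def hd (t : Fin m) (a : K) (i : Fin m) : K := if i = t then a else if (i : ℕ) = t + 1 then a⁻¹ else 1

theorem hd_ne {a : K} (ha : a ≠ 0) (t i : Fin m) : hd t a i ≠ 0 := by
  unfold hd
  split_ifs
  · exact ha
  · exact inv_ne_zero ha
  · exact one_ne_zero

/-- The coroot element. -/
def ht (t : Fin m) (a : K) (ha : a ≠ 0) : Sp' := tor (hd t a) (hd_ne ha t)

theorem rel_one {ι : Type*} [Fintype ι] [DecidableEq ι] {i j : ι} (hij : i ≠ j) :
    let P : Matrix ι ι K := Matrix.single i j 1
    let Q : Matrix ι ι K := Matrix.single j i 1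
    P * P = 0 ∧ Q * Q = 0 ∧ P * Q * P = P ∧ Q * P * Q = Q ∧ P * Q = Matrix.single i i 1 ∧ Q * P = Matrix.single j j 1 := by
  intro P Q
  simp only [P, Q, Matrix.single_mul_single_same, mul_one]
  rw [Matrix.single_mul_single_of_ne _ _ _ _ hij.symm, Matrix.single_mul_single_of_ne _ _ _ _ hij]
  simp

theorem rel_two {ι : Type*} [Fintype ι] [DecidableEq ι] {i j k l : ι} (hij : i ≠ j) (hik : i ≠ k) (hil : i ≠ l)
    (hjk : j ≠ k) (hjl : j ≠ l) (hkl : k ≠ l) :
    let P : Matrix ι ι K := Matrix.single i j 1 - Matrix.single k l 1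
    let Q : Matrix ι ι K := Matrix.single j i 1 - Matrix.single l k 1
    P * P = 0 ∧ Q * Q = 0 ∧ P * Q * P = P ∧ Q * P * Q = Q ∧
      P * Q = Matrix.single i i 1 + Matrix.single k k 1 ∧ Q * P = Matrix.single j j 1 + Matrix.single l l 1 := by
  intro P Q
  have h1 : ∀ (a b c d : ι), b ≠ c → (Matrix.single a b (1 : K) * Matrix.single c d (1 : K)) = 0 :=
    fun a b c d h => Matrix.single_mul_single_of_ne _ _ _ _ h _
  have hPQ : P * Q = Matrix.single i i 1 + Matrix.single k k 1 := by
    simp only [P, Q, mul_sub, sub_mul, Matrix.single_mul_single_same, mul_one]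
    rw [h1 _ _ _ _ hjl, h1 _ _ _ _ hjl.symm]
    abel
  have hQP : Q * P = Matrix.single j j 1 + Matrix.single l l 1 := by
    simp only [P, Q, mul_sub, sub_mul, Matrix.single_mul_single_same, mul_one]
    rw [h1 _ _ _ _ hik, h1 _ _ _ _ hik.symm]
    abel
  refine ⟨?_, ?_, ?_, ?_, hPQ, hQP⟩
  · simp only [P, mul_sub, sub_mul]
    rw [h1 _ _ _ _ hij.symm, h1 _ _ _ _ hjk, h1 _ _ _ _ hil.symm, h1 _ _ _ _ hkl.symm]
    simp
  · simp only [Q, mul_sub, sub_mul]
    rw [h1 _ _ _ _ hij, h1 _ _ _ _ hil, h1 _ _ _ _ hjk.symm, h1 _ _ _ _ hkl]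
    simp
  · rw [hPQ]
    simp only [P, mul_sub, add_mul, Matrix.single_mul_single_same, mul_one]
    rw [h1 _ _ _ _ hik, h1 _ _ _ _ hik.symm]
    abel
  · rw [hQP]
    simp only [Q, mul_sub, add_mul, Matrix.single_mul_single_same, mul_one]
    rw [h1 _ _ _ _ hjl, h1 _ _ _ _ hjl.symm]
    abel

theorem single_diag_eq (x r : I') : Matrix.single x x (1 : K) r r = if r = x then 1 else 0 := by
  by_cases h : r = x
  · subst h
    simp
  · rw [if_neg h]
    exact Matrix.single_apply_of_ne _ _ _ _ _ (fun h' => h h'.1.symm)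

theorem single_diag_ne (x : I') {r s : I'} (h : r ≠ s) : Matrix.single x x (1 : K) r s = 0 :=
  Matrix.single_apply_of_ne _ _ _ _ _ (fun h' => h (h'.1.symm.trans h'.2))

theorem diag_identity2 {t t' : Fin m} (hne : t ≠ t') (ht' : (t' : ℕ) = t + 1) (a : K) (ha : a ≠ 0) :
    (1 : Matrix I' I' K) + (a - 1) • (Matrix.single (Sum.inl t) (Sum.inl t) 1 + Matrix.single (Sum.inr t') (Sum.inr t') 1) +
      (a⁻¹ - 1) • (Matrix.single (Sum.inl t') (Sum.inl t') 1 + Matrix.single (Sum.inr t) (Sum.inr t) 1) =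
      Matrix.diagonal (Sum.elim (hd t a) fun i => (hd t a i)⁻¹) := by
  ext r s
  simp only [Matrix.add_apply, Matrix.smul_apply, smul_eq_mul]
  by_cases hrs : r = s
  · subst hrs
    simp only [single_diag_eq, Matrix.one_apply_eq, Matrix.diagonal_apply_eq]
    have hdv : ∀ i : Fin m, hd t a i = if i = t then a else if i = t' then a⁻¹ else 1 := by
      intro i
      unfold hd
      have : (i : ℕ) = t + 1 ↔ i = t' := by
        rw [← ht']
        exact Fin.ext_iff.symm
      simp only [this]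
    have hne' := hne.symm
    rcases r with i | i
    · by_cases h1 : i = t
      · subst h1
        simp [hdv, hne]
      · by_cases h2 : i = t'
        · subst h2
          simp [hdv, hne']
        · simp [hdv, h1, h2]
    · by_cases h1 : i = t
      · subst h1
        simp [hdv, hne]
      · by_cases h2 : i = t'
        · subst h2
          simp [hdv, hne']
        · simp [hdv, h1, h2]
  · simp only [single_diag_ne _ hrs, Matrix.one_apply_ne hrs, Matrix.diagonal_apply_ne _ hrs]
    simp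

theorem diag_identity1 {t : Fin m} (h1 : (t : ℕ) + 1 = m) (a : K) (ha : a ≠ 0) :
    (1 : Matrix I' I' K) + (a - 1) • Matrix.single (Sum.inl t) (Sum.inl t) 1 +
      (a⁻¹ - 1) • Matrix.single (Sum.inr t) (Sum.inr t) 1 =
      Matrix.diagonal (Sum.elim (hd t a) fun i => (hd t a i)⁻¹) := by
  ext r s
  simp only [Matrix.add_apply, Matrix.smul_apply, smul_eq_mul]
  by_cases hrs : r = s
  · subst hrs
    simp only [single_diag_eq, Matrix.one_apply_eq, Matrix.diagonal_apply_eq]
    have hdv : ∀ i : Fin m, hd t a i = if i = t then a else 1 := by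
      intro i
      unfold hd
      have : (i : ℕ) ≠ t + 1 := by
        have := i.2
        omega
      simp only [this, if_false]
    rcases r with i | i
    · by_cases h1 : i = t
      · subst h1
        simp [hdv]
      · simp [hdv, h1]
    · by_cases h1 : i = t
      · subst h1
        simp [hdv]
      · simp [hdv, h1]
  · simp only [single_diag_ne _ hrs, Matrix.one_apply_ne hrs, Matrix.diagonal_apply_ne _ hrs]
    simp

/-- The coroot elements are products of elementary elements. -/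
theorem ht_mem_closure (t : Fin m) (a : K) (ha : a ≠ 0) : ht t a ha ∈ Subgroup.closure (Yt K t) := by
  classical
  have hcases : (∃ t' : Fin m, (t' : ℕ) = t + 1) ∨ (t : ℕ) + 1 = m := by
    by_cases h : (t : ℕ) + 1 = m
    · exact Or.inr h
    · exact Or.inl ⟨⟨t + 1, by have := t.2; omega⟩, rfl⟩
  rcases hcases with ⟨t', ht'⟩ | h1
  · have hne : t ≠ t' := by
      intro h
      rw [← h] at ht'
      omega
    have hx : ∀ c : K, (B (e (Sum.inl t)) (e (Sum.inr t')) c : Sp').1 =
        1 + c • (Matrix.single (Sum.inl t) (Sum.inl t') 1 - Matrix.single (Sum.inr t') (Sum.inr t) 1) := by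
      intro c
      rw [B_coe (by simpa using hne.symm)]
      simp only [Sum.swap_inr, Sum.swap_inl, sg, Sum.elim_inr, Sum.elim_inl, mul_one, mul_neg, smul_sub,
        Matrix.smul_single, smul_eq_mul]
      rw [add_assoc, sub_eq_add_neg, Matrix.single_neg]
    have hy : ∀ c : K, (B (e (Sum.inl t')) (e (Sum.inr t)) c : Sp').1 =
        1 + c • (Matrix.single (Sum.inl t') (Sum.inl t) 1 - Matrix.single (Sum.inr t) (Sum.inr t') 1) := by
      intro c
      rw [B_coe (by simpa using hne)]
      simp only [Sum.swap_inr, Sum.swap_inl, sg, Sum.elim_inr, Sum.elim_inl, mul_one, mul_neg, smul_sub,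
        Matrix.smul_single, smul_eq_mul]
      rw [add_assoc, sub_eq_add_neg, Matrix.single_neg]
    obtain ⟨hP, hQ, hPQP, hQPQ, hPQ, hQP⟩ := rel_two (K := K) (i := (Sum.inl t : I')) (j := Sum.inl t') (k := Sum.inr t')
      (l := Sum.inr t) (by simpa using hne) (by simp) (by simp) (by simp) (by simp) (by simpa using hne.symm)
    have hprod : ht t a ha = B (e (Sum.inl t)) (e (Sum.inr t')) a * B (e (Sum.inl t')) (e (Sum.inr t)) (-a⁻¹) *
        B (e (Sum.inl t)) (e (Sum.inr t')) a * (B (e (Sum.inl t)) (e (Sum.inr t')) (-1) *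
          B (e (Sum.inl t')) (e (Sum.inr t)) 1 * B (e (Sum.inl t)) (e (Sum.inr t')) (-1)) := by
      apply Subtype.ext
      show (ht t a ha : Sp').1 = (B (e (Sum.inl t)) (e (Sum.inr t')) a : Sp').1 * (B (e (Sum.inl t')) (e (Sum.inr t)) (-a⁻¹) : Sp').1 *
        (B (e (Sum.inl t)) (e (Sum.inr t')) a : Sp').1 * ((B (e (Sum.inl t)) (e (Sum.inr t')) (-1) : Sp').1 *
          (B (e (Sum.inl t')) (e (Sum.inr t)) 1 : Sp').1 * (B (e (Sum.inl t)) (e (Sum.inr t')) (-1) : Sp').1)
      simp only [hx, hy]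
      rw [six_product _ _ hP hQ hPQP hQPQ a ha, hPQ, hQP, ht, tor_coe, diag_identity2 hne ht' a ha]
    rw [hprod]
    have hX : ∀ c : K, B (e (Sum.inl t)) (e (Sum.inr t')) c ∈ Subgroup.closure (Yt K t) := fun c =>
      Subgroup.subset_closure (Or.inl ⟨t', c, ht', Or.inl rfl⟩)
    have hY : ∀ c : K, B (e (Sum.inl t')) (e (Sum.inr t)) c ∈ Subgroup.closure (Yt K t) := fun c =>
      Subgroup.subset_closure (Or.inl ⟨t', c, ht', Or.inr rfl⟩)
    exact mul_mem (mul_mem (mul_mem (hX _) (hY _)) (hX _)) (mul_mem (mul_mem (hX _) (hY _)) (hX _))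
  · have hne : (Sum.inl t : I') ≠ Sum.inr t := by simp
    have hx : ∀ c : K, (T (e (Sum.inl t)) (-c) : Sp').1 = 1 + c • Matrix.single (Sum.inl t) (Sum.inr t) 1 := by
      intro c
      rw [T_coe]
      simp [sg]
    have hy : ∀ c : K, (T (e (Sum.inr t)) c : Sp').1 = 1 + c • Matrix.single (Sum.inr t) (Sum.inl t) 1 := by
      intro c
      rw [T_coe]
      simp [sg]
    obtain ⟨hP, hQ, hPQP, hQPQ, hPQ, hQP⟩ := rel_one (K := K) hne
    have hprod : ht t a ha = T (e (Sum.inl t)) (-a) * T (e (Sum.inr t)) (-a⁻¹) *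
        T (e (Sum.inl t)) (-a) * (T (e (Sum.inl t)) (-(-1)) *
          T (e (Sum.inr t)) 1 * T (e (Sum.inl t)) (-(-1))) := by
      apply Subtype.ext
      show (ht t a ha : Sp').1 = (T (e (Sum.inl t)) (-a) : Sp').1 * (T (e (Sum.inr t)) (-a⁻¹) : Sp').1 *
        (T (e (Sum.inl t)) (-a) : Sp').1 * ((T (e (Sum.inl t)) (-(-1)) : Sp').1 *
          (T (e (Sum.inr t)) 1 : Sp').1 * (T (e (Sum.inl t)) (-(-1)) : Sp').1)
      simp only [hx, hy]
      rw [six_product _ _ hP hQ hPQP hQPQ a ha, hPQ, hQP, ht, tor_coe, diag_identity1 h1 a ha]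
    rw [hprod]
    have hX : ∀ c : K, T (e (Sum.inl t)) c ∈ Subgroup.closure (Yt K t) := fun c =>
      Subgroup.subset_closure (Or.inr ⟨c, h1, Or.inl rfl⟩)
    have hY : ∀ c : K, T (e (Sum.inr t)) c ∈ Subgroup.closure (Yt K t) := fun c =>
      Subgroup.subset_closure (Or.inr ⟨c, h1, Or.inr rfl⟩)
    exact mul_mem (mul_mem (mul_mem (hX _) (hY _)) (hX _)) (mul_mem (mul_mem (hX _) (hY _)) (hX _))

/-- Diagonal elements are generated by coroot elements. -/
theorem tor_mem (H : Subgroup Sp') (hH : ∀ (t : Fin m) (a : K) (ha : a ≠ 0), ht t a ha ∈ H) (d : Fin m → K)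
    (hd' : ∀ i, d i ≠ 0) : tor d hd' ∈ H := by
  have key : ∀ (n k : ℕ), k + n = m → ∀ (d : Fin m → K) (hd' : ∀ i, d i ≠ 0), (∀ i : Fin m, (i : ℕ) < k → d i = 1) →
      tor d hd' ∈ H := by
    intro n
    induction n with
    | zero =>
      intro k hk d hd' h1
      have h2 : d = fun _ => 1 := funext fun i => h1 i (by have := i.2; omega)
      subst h2
      rw [tor_one]
      exact H.one_mem
    | succ n ih =>
      intro k hk d hd' h1
      let t : Fin m := ⟨k, by omega⟩
      have ha := hd' t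
      let d₂ : Fin m → K := fun i => (hd t (d t)⁻¹ i) * d i
      have hd₂ : ∀ i, d₂ i ≠ 0 := fun i => mul_ne_zero (hd_ne (inv_ne_zero ha) t i) (hd' i)
      have h2 : tor d₂ hd₂ ∈ H := by
        refine ih (k + 1) (by omega) d₂ hd₂ ?_
        intro i hi
        by_cases hit : i = t
        · subst hit
          simp only [d₂, hd, if_true]
          exact inv_mul_cancel₀ ha
        · have h3 : (i : ℕ) < k := by
            have : (i : ℕ) ≠ k := fun h => hit (Fin.ext h)
            omega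
          simp only [d₂, hd, if_neg hit]
          rw [if_neg (by simp [t]; omega), one_mul]
          exact h1 i h3
      have h3 : tor d₂ hd₂ = ht t (d t)⁻¹ (inv_ne_zero ha) * tor d hd' := by
        rw [ht, tor_mul]
      have h4 : tor d hd' = (ht t (d t)⁻¹ (inv_ne_zero ha))⁻¹ * tor d₂ hd₂ := by
        rw [h3]
        group
      rw [h4]
      exact H.mul_mem (H.inv_mem (hH _ _ _)) h2
  exact key m 0 (by omega) d hd' (fun i hi => absurd hi (Nat.not_lt_zero _))

theorem isPar_diag (r : I' → ℕ) (D : I' → K) : IsPar r (Matrix.diagonal D) := by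
  intro a b hab
  apply Matrix.diagonal_apply_ne
  rintro rfl
  exact lt_irrefl _ hab

instance instFiniteSp [Finite K] : Finite (Matrix.symplecticGroup (Fin m) K) := by
  classical
  exact Finite.of_injective (fun g : Matrix.symplecticGroup (Fin m) K => g.1) Subtype.val_injective

/-- Upper triangular elements are generated by `U` and the coroot elements. -/
theorem upper_mem [Finite K] (H : Subgroup Sp') (hU : blkSub (toM K m) (ρ m) ≤ H)
    (hH : ∀ (t : Fin m) (a : K) (ha : a ≠ 0), ht t a ha ∈ H) {A : Sp'} (hA : IsPar (ρ m) (toM K m A)) : A ∈ H := by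
  have hdm : ∀ a : I', A.1 a a * A.1 a.swap a.swap = 1 := diag_mul_swap (ρ m) ρ_injective _ ρ_swap A hA
  have hne : ∀ i : Fin m, A.1 (Sum.inl i) (Sum.inl i) ≠ 0 := by
    intro i h
    have := hdm (Sum.inl i)
    rw [h, zero_mul] at this
    exact zero_ne_one this
  let δ : Fin m → K := fun i => (A.1 (Sum.inl i) (Sum.inl i))⁻¹
  have hδ : ∀ i, δ i ≠ 0 := fun i => inv_ne_zero (hne i)
  have hw := tor_mem H hH δ hδ
  have hwA : tor δ hδ * A ∈ blkSub (toM K m) (ρ m) := by
    have h1 : ∀ r s, ((tor δ hδ * A : Sp') : Matrix I' I' K) r s = (Sum.elim δ fun i => (δ i)⁻¹) r * A.1 r s := by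
      intro r s
      show (Matrix.diagonal (Sum.elim δ fun i => (δ i)⁻¹) * A.1) r s = _
      rw [Matrix.diagonal_mul]
    refine ⟨fun a b hab => ?_, fun a b hab => ?_⟩
    · have h0 : A.1 a b = 0 := hA a b hab
      rw [toM_apply, h1, h0, mul_zero]
    · have hab' := ρ_injective hab
      subst hab'
      rw [toM_apply, h1, if_pos rfl]
      rcases a with i | i
      · exact inv_mul_cancel₀ (hne i)
      · simp only [Sum.elim_inr, δ, inv_inv]
        exact hdm (Sum.inl i)
  have h3 := H.mul_mem (H.inv_mem hw) (hU hwA)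
  rwa [inv_mul_cancel_left] at h3

/-- The criterion's generation hypothesis. -/
theorem upper_gen [Finite K] (A : Sp') (hA : IsPar (ρ m) (toM K m A)) :
    A ∈ Subgroup.closure ((blkSub (toM K m) (ρ m) : Set Sp') ∪
      {h | ∃ t : Fin m, h ∈ Subgroup.closure (Yt K t) ∧
        ∀ u, IsBlk (ρ m) (toM K m u) → IsBlk (ρ m) (toM K m (h * u * h⁻¹))}) := by
  refine upper_mem _ (fun u hu => Subgroup.subset_closure (Or.inl hu)) ?_ hA
  intro t a ha
  refine Subgroup.subset_closure (Or.inr ⟨t, ht_mem_closure t a ha, fun u hu => ?_⟩)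
  rw [map_mul, map_mul]
  refine IsBlk.conj ?_ ?_ ?_ hu
  · exact isPar_diag _ _
  · rw [ht, tor_inv]
    exact isPar_diag _ _
  · rw [← map_mul, mul_inv_cancel, map_one]

end Cfsg.Agent.Lib.SpFusion3
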