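import Mathlib
import Cfsg.Agent.Lib.SpFusion3

set_option autoImplicit false
set_option linter.unusedSectionVars false
set_option linter.unusedSimpArgs false
set_option linter.unusedVariables false

/-!
# `U` in `Sp_{2m}(K)` is generated by root elements
-/

namespace Cfsg.Agent.Lib.SpFusion4

open Matrix Cfsg.Agent.Lib.SpBasic Cfsg.Agent.Lib.UnipCrit Cfsg.Agent.Lib.SpRoot Cfsg.Agent.Lib.SpFusion1
  Cfsg.Agent.Lib.SpFusion3

variable {K : Type*} [Field K] {m : ℕ}

local notation "Sp'" => Matrix.symplecticGroup (Fin m) K
local notation "I'" => (Fin m ⊕ Fin m)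

variable [Finite K]

/-- The relation between dual entries at the lowest height. -/
theorem dual_entry (u : Sp') (hu : IsBlk (ρ m) (toM K m u)) {h : ℕ}
    (hP : ∀ a b, ρ m a < ρ m b → ρ m b < ρ m a + h → u.1 a b = 0) {k l : I'} (hkl : ρ m k < ρ m l)
    (hh : ρ m l = ρ m k + h) (hne : l ≠ k.swap) :
    (sg l : K) * u.1 l.swap k.swap + sg k * u.1 k l = 0 := by
  have hkl' : k ≠ l := fun h' => by subst h'; exact lt_irrefl _ hkl
  have h1 := sp_rel u l k.swap
  rw [if_neg (fun h' => hkl' (swap_eq_iff.mp h'))] at h1
  have hsw := ρ_swap (m := m)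
  have hd : ∀ a, u.1 a a = 1 := fun a => by
    have := hu.2 a a rfl
    rwa [if_pos rfl] at this
  rw [Finset.sum_eq_add l k hkl'.symm] at h1
  · rw [hd, hd, mul_one, mul_one] at h1
    exact h1
  · intro s _ hs
    have hsl : s ≠ l := hs.1
    have hsk : s ≠ k := hs.2
    have hρl : ρ m s ≠ ρ m l := fun h' => hsl (ρ_injective h')
    have hρk : ρ m s ≠ ρ m k := fun h' => hsk (ρ_injective h')
    by_cases h2 : ρ m l < ρ m s
    · rw [show u.1 s l = 0 from hu.1 s l h2, mul_zero, zero_mul]
    · by_cases h3 : ρ m k < ρ m s
      · rw [hP s l (by omega) (by omega), mul_zero, zero_mul]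
      · have h4 : ρ m k.swap < ρ m s.swap := by
          have := hsw k
          have := hsw s
          omega
        rw [show u.1 s.swap k.swap = 0 from hu.1 _ _ h4, mul_zero]
  · simp
  · simp

/-- `U` is generated by root elements. -/
theorem U_le_of_roots (H : Subgroup Sp')
    (H1 : ∀ k l : I', ρ m k < ρ m l → l ≠ k.swap → ∀ c : K, B (e k) (e l.swap) c ∈ H)
    (H2 : ∀ k : I', ρ m k < ρ m k.swap → ∀ c : K, T (e k) c ∈ H) : blkSub (toM K m) (ρ m) ≤ H := by
  refine blk_le_of_step toM_injective H ?_
  intro u hu h hP k l hkl hh hc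
  have hkl' : k ≠ l := fun h' => by subst h'; exact lt_irrefl _ hkl
  have hsw := ρ_swap (m := m)
  have hlow : ∀ a b, ρ m b < ρ m a → u.1 a b = 0 := hu.1
  have hP' : ∀ a b, ρ m a < ρ m b → ρ m b < ρ m a + h → u.1 a b = 0 := hP
  have hd : ∀ a, u.1 a a = 1 := fun a => by
    have := hu.2 a a rfl
    rwa [if_pos rfl] at this
  have hinj : ∀ a b, ρ m a = ρ m b → a = b := fun a b h => ρ_injective h
  by_cases hlk : l = k.swap
  · subst hlk
    set c := - u.1 k k.swap * sg k with hcdef
    have hcs : c * sg k = - u.1 k k.swap := by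
      rw [hcdef, mul_assoc, sg_mul_self, mul_one]
    have hxu : ∀ r s, (T (e k) c * u : Sp').1 r s = u.1 r s + (if r = k then - u.1 k k.swap * u.1 k.swap s else 0) := by
      intro r s
      show ((T (e k) c : Sp').1 * u.1) r s = _
      rw [T_coe, Matrix.add_mul, Matrix.one_mul, Matrix.add_apply, single_mul_apply', hcs]
    refine ⟨T (e k) c, H2 k hkl c, ?_, ?_, ?_, ?_⟩
    · exact (blkSub (toM K m) (ρ m)).mul_mem (T_mem_blk hkl c) hu
    · intro a b hab hb
      rw [toM_apply, hxu]
      by_cases ha : a = k
      · subst ha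
        rw [if_pos rfl, hP' a b hab hb, hlow a.swap b (by omega), mul_zero, add_zero]
      · rw [if_neg ha, hP' a b hab hb, add_zero]
    · intro a b hab hb hne
      rw [toM_apply, hxu] at hne
      by_cases ha : a = k
      · subst ha
        have hb' : b = a.swap := hinj _ _ (by omega)
        subst hb'
        rw [if_pos rfl, hd] at hne
        exact absurd (by ring) hne
      · rwa [if_neg ha, add_zero] at hne
    · rw [toM_apply, hxu, if_pos rfl, hd]
      ring
  · set c := - u.1 k l * sg l.swap with hcdef
    have hcs : c * sg l.swap = - u.1 k l := by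
      rw [hcdef, mul_assoc, sg_mul_self, mul_one]
    have hne1 : l.swap ≠ k.swap := fun h' => hkl' (swap_eq_iff.mp h').symm
    have hdual := dual_entry u hu hP hkl hh hlk
    have hcs2 : c * sg k = - u.1 l.swap k.swap := by
      have h1 : (sg l : K) * (c * sg k + u.1 l.swap k.swap) = 0 := by
        rw [hcdef, sg_swap]
        have h2 := sg_mul_self (K := K) l
        linear_combination (u.1 k l * sg k) * h2 + hdual
      have h3 := (mul_eq_zero.mp h1).resolve_left (sg_ne_zero l)
      exact eq_neg_of_add_eq_zero_left h3
    have hkl2 : k ≠ l.swap := fun h' => hlk (by rw [h']; simp)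
    have hxu : ∀ r s, (B (e k) (e l.swap) c * u : Sp').1 r s = u.1 r s +
        (if r = k then - u.1 k l * u.1 l s else 0) + (if r = l.swap then - u.1 l.swap k.swap * u.1 k.swap s else 0) := by
      intro r s
      show ((B (e k) (e l.swap) c : Sp').1 * u.1) r s = _
      rw [B_coe hne1, Matrix.add_mul, Matrix.add_mul, Matrix.one_mul, Matrix.add_apply, Matrix.add_apply,
        single_mul_apply', single_mul_apply', swap_swap', hcs, hcs2]
    refine ⟨B (e k) (e l.swap) c, H1 k l hkl hlk c, ?_, ?_, ?_, ?_⟩
    · refine (blkSub (toM K m) (ρ m)).mul_mem (B_mem_blk hne1 ?_ ?_ c) hu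
      · simpa using hkl
      · have := hsw k
        have := hsw l
        have h1 : ρ m l.swap < ρ m k.swap := by omega
        exact h1
    · intro a b hab hb
      rw [toM_apply, hxu]
      have h1 : (if a = k then - u.1 k l * u.1 l b else 0) = 0 := by
        by_cases ha : a = k
        · subst ha
          rw [if_pos rfl, hlow l b (by omega), mul_zero]
        · rw [if_neg ha]
      have h2 : (if a = l.swap then - u.1 l.swap k.swap * u.1 k.swap b else 0) = 0 := by
        by_cases ha : a = l.swap
        · subst ha
          rw [if_pos rfl, hlow k.swap b (by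
            have := hsw k
            have := hsw l
            omega), mul_zero]
        · rw [if_neg ha]
      rw [h1, h2, hP' a b hab hb, add_zero, add_zero]
    · intro a b hab hb hne
      rw [toM_apply, hxu] at hne
      by_cases ha : a = k
      · subst ha
        have hb' : b = l := hinj _ _ (by omega)
        subst hb'
        rw [if_pos rfl, hd, if_neg hkl2] at hne
        exact absurd (by ring) hne
      · by_cases ha2 : a = l.swap
        · subst ha2
          have hb' : b = k.swap := hinj _ _ (by
            have := hsw k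
            have := hsw l
            omega)
          subst hb'
          rw [if_neg ha, if_pos rfl, hd] at hne
          exact absurd (by ring) hne
        · rwa [if_neg ha, if_neg ha2, add_zero, add_zero] at hne
    · rw [toM_apply, hxu, if_pos rfl, if_neg hkl2, hd]
      ring

end Cfsg.Agent.Lib.SpFusion4
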