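import Mathlib
import Cfsg.Agent.Lib.SpFusion4

set_option autoImplicit false
set_option linter.unusedSectionVars false
set_option linter.unusedSimpArgs false
set_option linter.unusedVariables false
set_option linter.style.haveILetI false

/-!
# Subgroups of `U` in `Sp_{2m}(K)` closed under fusion
-/

namespace Cfsg.Agent.Lib.SpFusion5

open Matrix Cfsg.Agent.Lib.SpBasic Cfsg.Agent.Lib.UnipCrit Cfsg.Agent.Lib.SpRoot Cfsg.Agent.Lib.SpFusion1
  Cfsg.Agent.Lib.SpFusion3 Cfsg.Agent.Lib.SpFusion4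

variable {K : Type*} [Field K] {m : ℕ}

local notation "Sp'" => Matrix.symplecticGroup (Fin m) K
local notation "I'" => (Fin m ⊕ Fin m)

variable [Finite K]

omit [Finite K] in
/-- Every element of a finite field is a sum of two squares. -/
theorem exists_sum_sq [Finite K] (c : K) : ∃ a b : K, a ^ 2 + b ^ 2 = c := by
  classical
  haveI := Fintype.ofFinite K
  by_cases h : ringChar K = 2
  · obtain ⟨a, ha⟩ := FiniteField.isSquare_of_char_two h c
    exact ⟨a, 0, by rw [ha]; ring⟩
  · have hodd := FiniteField.odd_card_of_char_ne_two h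
    have hf : (Polynomial.X ^ 2 - Polynomial.C c : Polynomial K).degree = 2 := by
      exact Polynomial.degree_X_pow_sub_C (by norm_num) c
    have hg : (Polynomial.X ^ 2 : Polynomial K).degree = 2 := Polynomial.degree_X_pow 2
    obtain ⟨a, b, hab⟩ := FiniteField.exists_root_sum_quadratic hf hg hodd
    simp only [Polynomial.eval_sub, Polynomial.eval_pow, Polynomial.eval_X, Polynomial.eval_C] at hab
    exact ⟨a, b, by linear_combination hab⟩

/-- Transvections with centre in the Siegel space lie in `U`. -/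
theorem T_siegel_blk {x : I' → K} (hx : ∀ j, x (Sum.inr j) = 0) (c : K) : IsBlk (ρ m) (toM K m (T x c)) := by
  have hap : ∀ r s, (T x c : Sp').1 r s = (e s : I' → K) r + (c * (-(sg s * x s.swap))) * x r := by
    intro r s
    rw [coe_apply_eq, T_smul, ω_e_right]
    rfl
  refine ⟨fun r s hrs => ?_, fun r s hrs => ?_⟩
  · rw [toM_apply, hap, e_apply, if_neg (fun h => by subst h; exact lt_irrefl _ hrs)]
    rcases r with i | i
    · rcases s with j | j
      · simp [hx]
      · simp only [ρ_inl, ρ_inr] at hrs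
        have := i.2
        have := j.2
        omega
    · simp [hx]
  · have h1 := ρ_injective hrs
    subst h1
    rw [toM_apply, hap, e_apply, if_pos rfl]
    rcases r with i | i <;> simp [hx]

/-- A long root element in a fusion-closed subgroup forces everything. -/
theorem long_gives_all (Hs : Subgroup Sp')
    (hconj : ∀ t ∈ Hs, ∀ g : Sp', IsBlk (ρ m) (toM K m (g * t * g⁻¹)) → g * t * g⁻¹ ∈ Hs) (i₀ : Fin m) {a : K} (ha : a ≠ 0) (h0 : T (e (Sum.inl i₀)) a ∈ Hs) :
    blkSub (toM K m) (ρ m) ≤ Hs := by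
  have he0 : ∀ b : I', (e b : I' → K) ≠ 0 := by
    intro b h
    have := congrFun h b
    simp [e] at this
  have hS : ∀ x : I' → K, x ≠ 0 → (∀ j, x (Sum.inr j) = 0) → T x a ∈ Hs := by
    intro x hx hx0
    obtain ⟨g, hg⟩ := exists_smul_eq_of_ne_zero (he0 (Sum.inl i₀)) hx
    have h1 : g * T (e (Sum.inl i₀)) a * g⁻¹ = T x a := by rw [T_conj, hg]
    rw [← h1]
    apply hconj _ h0
    rw [h1]
    exact T_siegel_blk hx0 a
  have hesg : ∀ (i : Fin m) (j : Fin m), (e (Sum.inl i) : I' → K) (Sum.inr j) = 0 := by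
    intro i j
    simp [e_apply]
  have hl : ∀ (i : Fin m) (l : K), T (e (Sum.inl i)) (l ^ 2 * a) ∈ Hs := by
    intro i l
    by_cases hl0 : l = 0
    · subst hl0
      simp only [ne_eq, OfNat.ofNat_ne_zero, not_false_eq_true, zero_pow, zero_mul]
      rw [T_zero_right]
      exact Hs.one_mem
    · rw [← T_smul_vec]
      apply hS
      · intro h
        have := congrFun h (Sum.inl i)
        simp [e] at this
        exact hl0 this
      · intro j
        simp [hesg]
  have hlong : ∀ (i : Fin m) (c : K), T (e (Sum.inl i)) c ∈ Hs := by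
    intro i c
    obtain ⟨l, n, hln⟩ := exists_sum_sq (c / a)
    have h1 : c = l ^ 2 * a + n ^ 2 * a := by
      rw [← add_mul, hln]
      field_simp
    rw [h1, ← T_mul]
    exact Hs.mul_mem (hl i l) (hl i n)
  have hB : ∀ i j : Fin m, i ≠ j → ∀ c : K, B (e (Sum.inl i)) (e (Sum.inl j)) c ∈ Hs := by
    intro i j hij c
    have hω : ω (e (Sum.inl i) : I' → K) (e (Sum.inl j)) = 0 := by
      rw [ω_e_left, e_apply]
      simp
    by_cases hc : c = 0
    · subst hc
      rw [B_zero hω]
      exact Hs.one_mem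
    · have h1 : B (e (Sum.inl i)) ((c / a) • e (Sum.inl j)) a = (B (e (Sum.inl i)) (e (Sum.inl j)) c : Sp') := by
        have := B_smul_vec hω (1 : K) (c / a) a
        rw [one_smul] at this
        rw [this]
        congr 1
        field_simp
      rw [← h1, B, T_smul_vec]
      refine Hs.mul_mem (Hs.mul_mem (hS _ ?_ ?_) (hlong _ _)) (hlong _ _)
      · intro h
        have := congrFun h (Sum.inl i)
        simp [e, hij.symm] at this
      · intro k
        simp [hesg]
  have hB' : ∀ i j : Fin m, i < j → ∀ c : K, B (e (Sum.inl i)) (e (Sum.inr j)) c ∈ Hs := by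
    intro i j hij c
    have hne : i ≠ j := ne_of_lt hij
    have h1 : SpRoot.flip j * B (e (Sum.inl i)) (e (Sum.inl j)) c * (SpRoot.flip j)⁻¹ = (B (e (Sum.inl i)) (e (Sum.inr j)) c : Sp') := by
      rw [B_conj, flip_smul_inl, flip_smul_of_ne j (Sum.inl i) (by simpa using hne) (by simp)]
    rw [← h1]
    apply hconj _ (hB i j hne c)
    rw [h1]
    refine B_mem_blk (by simpa using hne.symm) ?_ ?_ c
    · simpa using hij
    · have h2 : (i : ℕ) < j := hij
      have := j.2
      simp only [Sum.swap_inl, ρ_inr]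
      omega
  refine U_le_of_roots Hs ?_ ?_
  · rintro (i | i) (j | j) hkl hne c
    · exact hB' i j hkl c
    · refine hB i j ?_ c
      rintro rfl
      exact hne rfl
    · simp only [ρ_inl, ρ_inr] at hkl
      have := i.2
      have := j.2
      omega
    · have hji : j < i := by
        simp only [ρ_inr] at hkl
        have := i.2
        have := j.2
        exact Fin.lt_def.mpr (by omega)
      simp only [Sum.swap_inr]
      rw [B_comm]
      · exact hB' j i hji c
      · rw [ω_e_left, e_apply]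
        simp [(ne_of_lt hji).symm]
  · rintro (i | i) hk c
    · exact hlong i c
    · simp only [Sum.swap_inr, ρ_inl, ρ_inr] at hk
      have := i.2
      omega

/-- A short root element in a fusion-closed subgroup produces a long root element. -/
theorem short_gives_all (Hs : Subgroup Sp')
    (hconj : ∀ t ∈ Hs, ∀ g : Sp', IsBlk (ρ m) (toM K m (g * t * g⁻¹)) → g * t * g⁻¹ ∈ Hs) (i₀ j : Fin m) (hj : i₀ < j) {s : K} (hs : s ≠ 0)
    (h0 : B (e (Sum.inl i₀)) (e (Sum.inr j)) s ∈ Hs) : blkSub (toM K m) (ρ m) ≤ Hs := by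
  have hne : i₀ ≠ j := ne_of_lt hj
  have hω1 : ω (e (Sum.inl i₀) : I' → K) (e (Sum.inr j)) = 0 := by
    rw [ω_e_left, e_apply]
    simp [hne]
  have hω2 : ω (e (Sum.inl i₀) : I' → K) (-e (Sum.inl j)) = 0 := by
    rw [ω_neg_right, ω_e_left, e_apply]
    simp
  have hY1 : IsBlk (ρ m) (toM K m (B (e (Sum.inl i₀)) (e (Sum.inr j)) s)) := by
    refine B_mem_blk (by simpa using hne.symm) ?_ ?_ s
    · simpa using hj
    · have h2 : (i₀ : ℕ) < j := hj
      have := j.2
      simp only [Sum.swap_inl, ρ_inr]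
      omega
  have hx2 : IsBlk (ρ m) (toM K m (T (e (Sum.inl j)) (1 : K))) := by
    refine T_mem_blk ?_ _
    have := j.2
    simp only [Sum.swap_inl, ρ_inl, ρ_inr]
    omega
  have hx2e0 : (T (e (Sum.inl j)) (1 : K) : Sp') • (e (Sum.inl i₀) : I' → K) = e (Sum.inl i₀) := by
    rw [T_e, e_apply]
    simp
  have hx2ej : (T (e (Sum.inl j)) (1 : K) : Sp') • (e (Sum.inr j) : I' → K) = e (Sum.inr j) + -e (Sum.inl j) := by
    rw [T_e, e_apply]
    simp [sg]
  have hY2 : B (e (Sum.inl i₀)) (e (Sum.inr j) + -e (Sum.inl j)) s ∈ Hs := by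
    have h1 : T (e (Sum.inl j)) (1 : K) * B (e (Sum.inl i₀)) (e (Sum.inr j)) s * (T (e (Sum.inl j)) (1 : K))⁻¹ =
        (B (e (Sum.inl i₀)) (e (Sum.inr j) + -e (Sum.inl j)) s : Sp') := by
      rw [B_conj, hx2e0, hx2ej]
    rw [← h1]
    apply hconj _ h0
    have h2 : T (e (Sum.inl j)) (1 : K) * B (e (Sum.inl i₀)) (e (Sum.inr j)) s * (T (e (Sum.inl j)) (1 : K))⁻¹ ∈
        blkSub (toM K m) (ρ m) :=
      (blkSub (toM K m) (ρ m)).mul_mem ((blkSub (toM K m) (ρ m)).mul_mem hx2 hY1) ((blkSub (toM K m) (ρ m)).inv_mem hx2)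
    exact h2
  have hY3 : B (e (Sum.inl i₀)) (-e (Sum.inl j)) s ∈ Hs := by
    have h1 : SpRoot.flip j * B (e (Sum.inl i₀)) (e (Sum.inr j)) s * (SpRoot.flip j)⁻¹ =
        (B (e (Sum.inl i₀)) (-e (Sum.inl j)) s : Sp') := by
      rw [B_conj, flip_smul_inr, flip_smul_of_ne j (Sum.inl i₀) (by simpa using hne) (by simp)]
    rw [← h1]
    apply hconj _ h0
    rw [h1]
    have h2 : (-e (Sum.inl j) : I' → K) = (-1 : K) • e (Sum.inl j) := by simp
    have hω3 : ω (e (Sum.inl i₀) : I' → K) (e (Sum.inl j)) = 0 := by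
      rw [ω_e_left, e_apply]
      simp
    have h3 : (B (e (Sum.inl i₀)) (-e (Sum.inl j)) s : Sp') = B (e (Sum.inl i₀)) (e (Sum.inl j)) (-s) := by
      have := B_smul_vec hω3 (1 : K) (-1) s
      rw [one_smul, ← h2] at this
      rw [this]
      congr 1
      ring
    rw [h3]
    refine B_mem_blk (by simp) ?_ ?_ _
    · have := i₀.2
      have := j.2
      simp only [Sum.swap_inl, ρ_inl, ρ_inr]
      omega
    · have := i₀.2
      have := j.2
      simp only [Sum.swap_inl, ρ_inl, ρ_inr]
      omega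
  have hadd := B_add_vec hω1 hω2 s
  have hωv : ω (e (Sum.inr j) : I' → K) (-e (Sum.inl j)) = -1 := by
    rw [ω_neg_right, ω_e_left, e_apply]
    simp [sg]
  rw [hωv] at hadd
  have h4 : T (e (Sum.inl i₀)) (s * s * -1) ∈ Hs := by
    have h5 : T (e (Sum.inl i₀)) (s * s * -1) = (B (e (Sum.inl i₀)) (e (Sum.inr j) + -e (Sum.inl j)) s : Sp')⁻¹ *
        (B (e (Sum.inl i₀)) (e (Sum.inr j)) s * B (e (Sum.inl i₀)) (-e (Sum.inl j)) s) := by
      rw [hadd]
      group
    rw [h5]
    exact Hs.mul_mem (Hs.inv_mem hY2) (Hs.mul_mem h0 hY3)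
  refine long_gives_all Hs hconj i₀ ?_ h4
  simp [hs]

end Cfsg.Agent.Lib.SpFusion5
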