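import Mathlib
import Cfsg.Agent.Lib.SpFusion5
import Cfsg.Agent.Lib.SpFusion2

set_option autoImplicit false
set_option linter.unusedSectionVars false
set_option linter.unusedSimpArgs false
set_option linter.unusedVariables false
set_option linter.style.haveILetI false

/-!
# The `p`-fusion system of `PSp_{2m}(K)` in defining characteristic is simple
-/

namespace Cfsg.Agent.Lib.SpFusion6

open Matrix Cfsg.Agent.Lib.SpBasic Cfsg.Agent.Lib.UnipCrit Cfsg.Agent.Lib.SpRoot Cfsg.Agent.Lib.SpFusion1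
  Cfsg.Agent.Lib.SpFusion3 Cfsg.Agent.Lib.SpFusion4 Cfsg.Agent.Lib.SpFusion5 Cfsg.Agent.Lib.FusionSimpleCrit

variable {K : Type*} [Field K] {m : ℕ}

local notation "Sp'" => Matrix.symplecticGroup (Fin m) K
local notation "I'" => (Fin m ⊕ Fin m)

variable [Finite K]

/-- The central elements of `U`. -/
theorem central_form (i₀ i₁ : Fin m) (h0 : (i₀ : ℕ) = 0) (h1 : (i₁ : ℕ) = 1) (u : Sp')
    (hu : IsBlk (ρ m) (toM K m u)) (hcomm : ∀ v, IsBlk (ρ m) (toM K m v) → u * v = v * u) :
    ∃ a c : K, u = T (e (Sum.inl i₀)) a * B (e (Sum.inl i₀)) (e (Sum.inl i₁)) c ∧ 2 * c = 0 := by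
  have hne01 : i₀ ≠ i₁ := fun h => by
    rw [h] at h0
    omega
  have hL : ∀ i : Fin m, (∀ s, s ≠ Sum.inr i → u.1 (Sum.inr i) s = 0) ∧ (∀ r, r ≠ Sum.inl i → u.1 r (Sum.inl i) = 0) := by
    intro i
    have h2 := comm_T (K := K) (A := u) (a := Sum.inl i) (c := 1) one_ne_zero (hcomm _ (T_mem_blk (by
      have := i.2
      simp only [Sum.swap_inl, ρ_inl, ρ_inr]
      omega) _))
    exact ⟨h2.1, h2.2.1⟩
  have hM : ∀ i j : Fin m, i < j → (∀ s, s ≠ Sum.inl j → s ≠ Sum.inr i → u.1 (Sum.inl j) s = 0) ∧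
      (∀ r, r ≠ Sum.inl i → r ≠ Sum.inr j → u.1 r (Sum.inr j) = 0) ∧
      u.1 (Sum.inl i) (Sum.inr j) * (1 * sg (Sum.inl i)) = (1 * sg (Sum.inr j)) * u.1 (Sum.inl j) (Sum.inr i) := by
    intro i j hij
    have hij' : (i : ℕ) < j := hij
    have hne : (Sum.inr j : I') ≠ (Sum.inl i : I').swap := by simpa using (ne_of_lt hij).symm
    have h2 := comm_B (K := K) (A := u) (a := Sum.inl i) (b := Sum.inr j) (c := 1) one_ne_zero hne (by simp)
      (hcomm _ (B_mem_blk hne (by simpa using hij) (by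
        have := j.2
        simp only [Sum.swap_inl, ρ_inr]
        omega) _))
    obtain ⟨h3, -, -, h6, -, -, h9⟩ := h2
    exact ⟨h3, h6, h9⟩
  have hdiag : ∀ a, u.1 a a = 1 := fun a => by
    have := hu.2 a a rfl
    rwa [if_pos rfl] at this
  set S00 := u.1 (Sum.inl i₀) (Sum.inr i₀) with hS00
  set S01 := u.1 (Sum.inl i₀) (Sum.inr i₁) with hS01
  have h01 : i₀ < i₁ := Fin.lt_def.mpr (by omega)
  -- the relation `S01 = S10`
  have hsym : u.1 (Sum.inl i₁) (Sum.inr i₀) = S01 := by
    have h2 := sp_rel u (Sum.inr i₀) (Sum.inr i₁)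
    rw [if_neg (by simp), Finset.sum_eq_add (Sum.inr i₀) (Sum.inl i₁) (by simp)] at h2
    · simp only [sg, Sum.elim_inl, Sum.elim_inr, Sum.swap_inl, Sum.swap_inr, hdiag] at h2
      rw [← hS01] at h2
      linear_combination -h2
    · rintro (s | s) - ⟨hs1, hs2⟩
      · have hs : s ≠ i₁ := fun h => hs2 (by rw [h])
        have := (hL s).1 (Sum.inr i₁) (by simpa using hs.symm)
        simp only [Sum.swap_inl, this, mul_zero]
      · have hs : s ≠ i₀ := fun h => hs1 (by rw [h])
        have := (hL s).1 (Sum.inr i₀) (by simpa using hs.symm)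
        simp only [this, mul_zero, zero_mul]
    · simp
    · simp
  have hS_10 : u.1 (Sum.inl i₁) (Sum.inr i₀) = - S01 := by
    have := (hM i₀ i₁ h01).2.2
    simp only [sg, Sum.elim_inl, Sum.elim_inr, one_mul, mul_neg, mul_one] at this
    linear_combination -this
  -- the entries
  have hent : ∀ i j : Fin m, u.1 (Sum.inl i) (Sum.inr j) =
      if i = i₀ ∧ j = i₀ then S00 else if i = i₀ ∧ j = i₁ then S01 else if i = i₁ ∧ j = i₀ then S01 else 0 := by
    intro i j
    by_cases hi0 : i = i₀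
    · subst hi0
      by_cases hj0 : j = i
      · subst hj0
        simp [hS00]
      · by_cases hj1 : j = i₁
        · subst hj1
          simp [hj0, hS01]
        · rw [if_neg (fun h => hj0 h.2), if_neg (fun h => hj1 h.2), if_neg (fun h => hne01 h.1)]
          have hj : (1 : ℕ) < j := by
            have h2 : (j : ℕ) ≠ i := fun h => hj0 (Fin.ext h)
            have h3 : (j : ℕ) ≠ i₁ := fun h => hj1 (Fin.ext h)
            omega
          exact (hM i₁ j (Fin.lt_def.mpr (by omega))).2.1 _ (by simpa using hne01) (by simp)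
    · by_cases hi1 : i = i₁
      · subst hi1
        by_cases hj0 : j = i₀
        · subst hj0
          simp [hi0, hsym]
        · rw [if_neg (fun h => hi0 h.1), if_neg (fun h => hi0 h.1), if_neg (fun h => hj0 h.2)]
          exact (hM i₀ i h01).1 _ (by simp) (by simpa using hj0)
      · rw [if_neg (fun h => hi0 h.1), if_neg (fun h => hi0 h.1), if_neg (fun h => hi1 h.1)]
        have hi2 : 1 < (i : ℕ) := by
          have h2 : (i : ℕ) ≠ i₀ := fun h => hi0 (Fin.ext h)
          have h3 : (i : ℕ) ≠ i₁ := fun h => hi1 (Fin.ext h)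
          omega
        by_cases hj0 : j = i₀
        · subst hj0
          exact (hM i₁ i (Fin.lt_def.mpr (by omega))).1 _ (by simp) (by simpa using hne01)
        · exact (hM i₀ i (Fin.lt_def.mpr (by omega))).1 _ (by simp) (by simpa using hj0)
  refine ⟨S00 * sg (Sum.inl i₀), S01 * sg (Sum.inl i₁), ?_, ?_⟩
  · apply Subtype.ext
    show u.1 = (T (e (Sum.inl i₀)) _ : Sp').1 * (B (e (Sum.inl i₀)) (e (Sum.inl i₁)) _ : Sp').1
    have hne' : (Sum.inl i₁ : I') ≠ (Sum.inl i₀ : I').swap := by simp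
    rw [T_coe, B_coe hne']
    have hs1 : (S00 * sg (Sum.inl i₀) * sg (Sum.inl i₀) : K) = S00 := by rw [mul_assoc, sg_mul_self, mul_one]
    have hs2 : (S01 * sg (Sum.inl i₁) * sg (Sum.inl i₁) : K) = S01 := by rw [mul_assoc, sg_mul_self, mul_one]
    have hs3 : (S01 * sg (Sum.inl i₁) * sg (Sum.inl i₀) : K) = S01 := by
      simp [sg]
    rw [hs1, hs2, hs3]
    simp only [Sum.swap_inl]
    have hX1 : Matrix.single (Sum.inl i₀) (Sum.inr i₀) S00 * Matrix.single (Sum.inl i₀) (Sum.inr i₁) S01 = (0 : Matrix I' I' K) :=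
      Matrix.single_mul_single_of_ne _ _ _ _ (by simp) _
    have hX2 : Matrix.single (Sum.inl i₀) (Sum.inr i₀) S00 * Matrix.single (Sum.inl i₁) (Sum.inr i₀) S01 = (0 : Matrix I' I' K) :=
      Matrix.single_mul_single_of_ne _ _ _ _ (by simp) _
    simp only [Matrix.add_mul, Matrix.mul_add, hX1, hX2, Matrix.one_mul, Matrix.mul_one, add_zero]
    ext r s
    simp only [Matrix.add_apply, Matrix.one_apply, Matrix.single_apply]
    rcases r with i | i <;> rcases s with j | j
    · by_cases hij : i = j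
      · subst hij
        simp [hdiag]
      · have h2 : (Sum.inl i : I') ≠ Sum.inl j := by simpa using hij
        simp [(hL j).2 _ h2, hij]
    · rw [hent]
      simp only [Sum.inl.injEq, Sum.inr.injEq, reduceCtorEq, if_false, zero_add]
      by_cases hi0 : i = i₀
      · subst hi0
        by_cases hj0 : j = i
        · subst hj0
          simp [hne01, hne01.symm]
        · by_cases hj1 : j = i₁
          · subst hj1
            simp [hj0, Ne.symm hj0, hne01, hne01.symm]
          · simp [hj0, hj1, Ne.symm hj0, Ne.symm hj1, hne01, hne01.symm]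
      · by_cases hi1 : i = i₁
        · subst hi1
          by_cases hj0 : j = i₀
          · subst hj0
            simp [hi0, Ne.symm hi0, hne01, hne01.symm]
          · simp [hi0, hj0, Ne.symm hi0, Ne.symm hj0, hne01, hne01.symm]
        · simp [hi0, hi1, Ne.symm hi0, Ne.symm hi1]
    · have h2 : (Sum.inl j : I') ≠ Sum.inr i := by simp
      simp [(hL i).1 _ h2]
    · by_cases hij : i = j
      · subst hij
        simp [hdiag]
      · have h2 : (Sum.inr j : I') ≠ Sum.inr i := by simpa using (Ne.symm hij)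
        simp [(hL i).1 _ h2, hij]
  · have h2 : S01 + S01 = 0 := by
      have h3 := hS_10
      rw [hsym] at h3
      linear_combination h3
    simp only [sg, Sum.elim_inl]
    linear_combination -h2


/-- The final dichotomy for fusion-closed subgroups. -/
theorem closed_dichotomy (p : ℕ) [hp : Fact p.Prime] [CharP K p] (hm : 2 ≤ m) (hex : m = 2 → ∃ τ : K, τ ≠ 0 ∧ τ ≠ 1)
    (Ts : Subgroup (Sp' ⧸ Subgroup.center Sp')) (hT : Ts ≤ (blkSub (toM K m) (ρ m)).map (prj Sp'))
    (hc : FusionClosed ((blkSub (toM K m) (ρ m)).map (prj Sp')) Ts) :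
    Ts = ⊥ ∨ Ts = (blkSub (toM K m) (ρ m)).map (prj Sp') := by
  classical
  by_cases hbot : Ts = ⊥
  · exact Or.inl hbot
  right
  apply le_antisymm hT
  let Ub := (blkSub (toM K m) (ρ m)).map (prj Sp')
  have hP : IsPGroup p Ub := by
    rintro ⟨_, u, hu, rfl⟩
    obtain ⟨n, hn⟩ := pow_eq_one_of_blk p toM_injective hu
    refine ⟨n, Subtype.ext ?_⟩
    show (prj Sp' u) ^ p ^ n = 1
    rw [← map_pow, hn, map_one]
  haveI hnorm : (Ts.subgroupOf Ub).Normal := by
    refine ⟨fun t ht g => ?_⟩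
    rw [Subgroup.mem_subgroupOf] at ht ⊢
    exact hc _ ht _ (Ub.mul_mem (Ub.mul_mem g.2 t.2) (Ub.inv_mem g.2))
  have hne : Ts.subgroupOf Ub ≠ ⊥ := by
    intro h
    apply hbot
    rw [eq_bot_iff]
    intro t ht
    have h1 : (⟨t, hT ht⟩ : Ub) ∈ Ts.subgroupOf Ub := Subgroup.mem_subgroupOf.mpr ht
    rw [h, Subgroup.mem_bot] at h1
    exact congrArg Subtype.val h1
  obtain ⟨z, hzT, hz1, hzc⟩ := Cfsg.Agent.Lib.PuigBasic.exists_mem_center_of_normal hP _ hne
  obtain ⟨⟨_, u, hu, rfl⟩, hzdef⟩ : ∃ z' : Ub, z' = z := ⟨z, rfl⟩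
  subst hzdef
  have htT : prj Sp' u ∈ Ts := Subgroup.mem_subgroupOf.mp hzT
  have hne1 : prj Sp' u ≠ 1 := fun h => hz1 (Subtype.ext h)
  have hi₀m : 0 < m := by omega
  let i₀ : Fin m := ⟨0, by omega⟩
  let i₁ : Fin m := ⟨1, by omega⟩
  have h01 : i₀ < i₁ := Fin.lt_def.mpr (by simp [i₀, i₁])
  have hne01 : i₀ ≠ i₁ := ne_of_lt h01
  haveI : Nonempty I' := ⟨Sum.inl i₀⟩
  have hcomm : ∀ v, IsBlk (ρ m) (toM K m v) → u * v = v * u := by
    intro v hv
    obtain ⟨n, hn⟩ := pow_eq_one_of_blk p toM_injective hv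
    have h1 := Subgroup.mem_center_iff.mp hzc ⟨prj Sp' v, v, hv, rfl⟩
    have h2 : prj Sp' v * prj Sp' u = prj Sp' u * prj Sp' v := congrArg Subtype.val h1
    exact comm_of_prj_comm toM_injective center_scalar h2.symm hn
  obtain ⟨a, c, hue, h2c⟩ := central_form i₀ i₁ rfl rfl u hu hcomm
  -- closure under conjugation
  let Hs : Subgroup Sp' := Ts.comap (prj Sp')
  have hconj : ∀ t ∈ Hs, ∀ g : Sp', IsBlk (ρ m) (toM K m (g * t * g⁻¹)) → g * t * g⁻¹ ∈ Hs := by
    intro t ht g hg
    show prj Sp' (g * t * g⁻¹) ∈ Ts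
    rw [map_mul, map_mul, map_inv]
    apply hc _ ht
    rw [← map_inv, ← map_mul, ← map_mul]
    exact ⟨_, hg, rfl⟩
  have huH : u ∈ Hs := htT
  have hω01 : ω (e (Sum.inl i₀) : I' → K) (e (Sum.inl i₁)) = 0 := by
    rw [ω_e_left, e_apply]
    simp
  have hfin : blkSub (toM K m) (ρ m) ≤ Hs := by
    by_cases hc0 : c = 0
    · -- a long root element
      rw [hc0, B_zero hω01, mul_one] at hue
      have ha : a ≠ 0 := by
        rintro rfl
        apply hne1
        rw [hue, T_zero_right, map_one]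
      exact long_gives_all Hs hconj i₀ ha (hue ▸ huH)
    · -- the remaining case, characteristic two
      have h20 : (2 : K) = 0 := (mul_eq_zero.mp h2c).resolve_right hc0
      -- flip at `i₁`
      have hf0 : SpRoot.flip i₁ • (e (Sum.inl i₀) : I' → K) = e (Sum.inl i₀) :=
        flip_smul_of_ne i₁ _ (by simpa using hne01) (by simp)
      have hf1 : SpRoot.flip i₁ • (e (Sum.inl i₁) : I' → K) = e (Sum.inr i₁) := flip_smul_inl i₁
      have hz' : T (e (Sum.inl i₀)) a * B (e (Sum.inl i₀)) (e (Sum.inr i₁)) c ∈ Hs := by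
        have h1 : SpRoot.flip i₁ * u * (SpRoot.flip i₁)⁻¹ =
            (T (e (Sum.inl i₀)) a * B (e (Sum.inl i₀)) (e (Sum.inr i₁)) c : Sp') := by
          rw [hue]
          have h2 : ∀ x y g : Sp', g * (x * y) * g⁻¹ = (g * x * g⁻¹) * (g * y * g⁻¹) := fun x y g => by group
          rw [h2, T_conj, B_conj, hf0, hf1]
        rw [← h1]
        apply hconj _ huH
        rw [h1]
        refine (blkSub (toM K m) (ρ m)).mul_mem (T_mem_blk ?_ _) (B_mem_blk ?_ ?_ ?_ _)
        · simp only [Sum.swap_inl, ρ_inl, ρ_inr, i₀]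
          omega
        · simpa using hne01.symm
        · simpa using h01
        · simp only [Sum.swap_inl, ρ_inl, ρ_inr, i₀, i₁]
          omega
      by_cases hm3 : m = 2
      · obtain ⟨τ, hτ0, hτ1⟩ := hex hm3
        by_cases ha : a = 0
        · rw [ha, T_zero_right, one_mul] at hz'
          exact short_gives_all Hs hconj i₀ i₁ h01 hc0 hz'
        · -- the torus trick
          let d : Fin m → K := fun i => if i = i₀ then τ else τ⁻¹
          have hd : ∀ i, d i ≠ 0 := by
            intro i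
            simp only [d]
            split_ifs
            · exact hτ0
            · exact inv_ne_zero hτ0
          have hd0 : d i₀ = τ := by simp [d]
          have hd1 : d i₁ = τ⁻¹ := by simp [d, hne01.symm]
          have h1 : tor d hd * u * (tor d hd)⁻¹ = (T (e (Sum.inl i₀)) (τ ^ 2 * a) * B (e (Sum.inl i₀)) (e (Sum.inl i₁)) c : Sp') := by
            rw [hue]
            have h2 : ∀ x y g : Sp', g * (x * y) * g⁻¹ = (g * x * g⁻¹) * (g * y * g⁻¹) := fun x y g => by group
            rw [h2, T_conj, B_conj, tor_smul_e_inl, tor_smul_e_inl, hd0, hd1, T_smul_vec, B_smul_vec hω01]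
            congr 2
            field_simp
          have hw : (T (e (Sum.inl i₀)) (τ ^ 2 * a) * B (e (Sum.inl i₀)) (e (Sum.inl i₁)) c : Sp') ∈ Hs := by
            rw [← h1]
            apply hconj _ huH
            rw [h1]
            refine (blkSub (toM K m) (ρ m)).mul_mem (T_mem_blk ?_ _) (B_mem_blk ?_ ?_ ?_ _)
            · simp only [Sum.swap_inl, ρ_inl, ρ_inr, i₀]
              omega
            · simp
            · simp only [Sum.swap_inl, ρ_inl, ρ_inr, i₀, i₁]
              omega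
            · simp only [Sum.swap_inl, ρ_inl, ρ_inr, i₀, i₁]
              omega
          have h3 : T (e (Sum.inl i₀)) (τ ^ 2 * a + -a) ∈ Hs := by
            have h4 : (T (e (Sum.inl i₀)) (τ ^ 2 * a + -a) : Sp') =
                (T (e (Sum.inl i₀)) (τ ^ 2 * a) * B (e (Sum.inl i₀)) (e (Sum.inl i₁)) c) * u⁻¹ := by
              rw [hue, ← T_mul, ← T_inv]
              group
            rw [h4]
            exact Hs.mul_mem hw (Hs.inv_mem huH)
          refine long_gives_all Hs hconj i₀ ?_ h3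
          have h5 : τ ^ 2 * a + -a = (τ - 1) ^ 2 * a := by
            linear_combination (τ * a - a) * h20
          rw [h5]
          exact mul_ne_zero (pow_ne_zero _ (sub_ne_zero.mpr hτ1)) ha
      · -- `m ≥ 3`
        have hm3' : 3 ≤ m := by omega
        let i₂ : Fin m := ⟨2, hm3'⟩
        have h12 : i₁ < i₂ := Fin.lt_def.mpr (by simp [i₁, i₂])
        have h02 : i₀ < i₂ := h01.trans h12
        have hω12 : ω (e (Sum.inl i₁) : I' → K) (e (Sum.inr i₂)) = 0 := by
          rw [ω_e_left, e_apply]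
          simp [(ne_of_lt h12)]
        have hx0 : (B (e (Sum.inl i₁)) (e (Sum.inr i₂)) 1 : Sp') • (e (Sum.inl i₀) : I' → K) = e (Sum.inl i₀) := by
          rw [B_smul hω12, ω_e_left, ω_e_left, e_apply, e_apply]
          simp [(ne_of_lt h02).symm, (ne_of_lt h01).symm]
        have hx1 : (B (e (Sum.inl i₁)) (e (Sum.inr i₂)) 1 : Sp') • (e (Sum.inr i₁) : I' → K) = e (Sum.inr i₁) + -e (Sum.inr i₂) := by
          rw [B_smul hω12, ω_e_left, ω_e_left, e_apply, e_apply]
          simp [sg]
        have hxU : IsBlk (ρ m) (toM K m (B (e (Sum.inl i₁)) (e (Sum.inr i₂)) 1)) := by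
          refine B_mem_blk (by simpa using (ne_of_lt h12).symm) ?_ ?_ _
          · simp only [Sum.swap_inr, ρ_inl, i₁, i₂]
            omega
          · simp only [Sum.swap_inl, ρ_inr, i₁, i₂]
            omega
        have hzU : IsBlk (ρ m) (toM K m (T (e (Sum.inl i₀)) a * B (e (Sum.inl i₀)) (e (Sum.inr i₁)) c)) := by
          refine (blkSub (toM K m) (ρ m)).mul_mem (T_mem_blk ?_ _) (B_mem_blk ?_ ?_ ?_ _)
          · simp only [Sum.swap_inl, ρ_inl, ρ_inr, i₀]
            omega
          · simpa using hne01.symm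
          · simpa using h01
          · simp only [Sum.swap_inl, ρ_inl, ρ_inr, i₀, i₁]
            omega
        have hconjx : (B (e (Sum.inl i₁)) (e (Sum.inr i₂)) 1 : Sp') * (T (e (Sum.inl i₀)) a * B (e (Sum.inl i₀)) (e (Sum.inr i₁)) c) *
            (B (e (Sum.inl i₁)) (e (Sum.inr i₂)) 1 : Sp')⁻¹ =
            T (e (Sum.inl i₀)) a * B (e (Sum.inl i₀)) (e (Sum.inr i₁) + -e (Sum.inr i₂)) c := by
          have h2 : ∀ x y g : Sp', g * (x * y) * g⁻¹ = (g * x * g⁻¹) * (g * y * g⁻¹) := fun x y g => by group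
          rw [h2, T_conj, B_conj, hx0, hx1]
        have hmemx : T (e (Sum.inl i₀)) a * B (e (Sum.inl i₀)) (e (Sum.inr i₁) + -e (Sum.inr i₂)) c ∈ Hs := by
          rw [← hconjx]
          apply hconj _ hz'
          exact (blkSub (toM K m) (ρ m)).mul_mem ((blkSub (toM K m) (ρ m)).mul_mem hxU hzU)
            ((blkSub (toM K m) (ρ m)).inv_mem hxU)
        have hωa : ω (e (Sum.inl i₀) : I' → K) (e (Sum.inr i₁)) = 0 := by
          rw [ω_e_left, e_apply]
          simp [hne01]
        have hωb : ω (e (Sum.inl i₀) : I' → K) (e (Sum.inr i₂)) = 0 := by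
          rw [ω_e_left, e_apply]
          simp [ne_of_lt h02]
        have hωb' : ω (e (Sum.inl i₀) : I' → K) (-e (Sum.inr i₂)) = 0 := by
          rw [ω_neg_right, hωb, neg_zero]
        have hωc : ω (e (Sum.inr i₁) : I' → K) (-e (Sum.inr i₂)) = 0 := by
          rw [ω_neg_right, ω_e_left, e_apply]
          simp
        have hadd := B_add_vec hωa hωb' c
        rw [hωc, mul_zero, T_zero_right, mul_one] at hadd
        have hB2 : B (e (Sum.inl i₀)) (-e (Sum.inr i₂)) c ∈ Hs := by
          have h4 : B (e (Sum.inl i₀)) (-e (Sum.inr i₂)) c =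
              (T (e (Sum.inl i₀)) a * B (e (Sum.inl i₀)) (e (Sum.inr i₁)) c : Sp')⁻¹ *
                (T (e (Sum.inl i₀)) a * B (e (Sum.inl i₀)) (e (Sum.inr i₁) + -e (Sum.inr i₂)) c) := by
            rw [← hadd]
            group
          rw [h4]
          exact Hs.mul_mem (Hs.inv_mem hz') hmemx
        have hB3 : (B (e (Sum.inl i₀)) (-e (Sum.inr i₂)) c : Sp') = B (e (Sum.inl i₀)) (e (Sum.inr i₂)) (-c) := by
          have h5 := B_smul_vec hωb (1 : K) (-1) c
          have h6 : (-e (Sum.inr i₂) : I' → K) = (-1 : K) • e (Sum.inr i₂) := by simp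
          rw [one_smul, ← h6] at h5
          rw [h5]
          congr 1
          ring
        rw [hB3] at hB2
        exact short_gives_all Hs hconj i₀ i₂ h02 (neg_ne_zero.mpr hc0) hB2
  rintro _ ⟨v, hv, rfl⟩
  exact hfin hv


/-- The image of `U` is not trivial. -/
theorem Ubar_ne_bot (hm : 2 ≤ m) : (blkSub (toM K m) (ρ m)).map (prj Sp') ≠ ⊥ := by
  intro h
  let i₀ : Fin m := ⟨0, by omega⟩
  have h1 : T (e (Sum.inl i₀)) (1 : K) ∈ blkSub (toM K m) (ρ m) := by
    refine T_mem_blk ?_ _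
    simp only [Sum.swap_inl, ρ_inl, ρ_inr, i₀]
    omega
  have h2 : prj Sp' (T (e (Sum.inl i₀)) (1 : K)) ∈ (blkSub (toM K m) (ρ m)).map (prj Sp') := ⟨_, h1, rfl⟩
  rw [h, Subgroup.mem_bot, prj_eq_one_iff] at h2
  obtain ⟨c, hc⟩ := center_scalar _ h2
  have h3 := congrFun (congrFun hc (Sum.inl i₀)) (Sum.inr i₀)
  rw [toM_apply, T_coe, Matrix.smul_apply, Matrix.one_apply_ne (by simp), smul_zero, Matrix.add_apply,
    Matrix.one_apply_ne (by simp)] at h3
  simp [sg] at h3

/-- **The `p`-fusion system of `PSp_{2m}(K)` is simple** -/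
theorem main (p : ℕ) [hp : Fact p.Prime] [CharP K p] (hm : 2 ≤ m) (hex : m = 2 → ∃ τ : K, τ ≠ 0 ∧ τ ≠ 1)
    (S : Sylow p (Sp' ⧸ Subgroup.center Sp')) :
    (Cfsg.groupFusionSystem (S : Subgroup (Sp' ⧸ Subgroup.center Sp'))).IsSimple p := by
  have hi₀m : 0 < m := by omega
  let i₀ : Fin m := ⟨0, by omega⟩
  haveI : Nonempty I' := ⟨Sum.inl i₀⟩
  refine isSimple_generic toM_injective center_scalar ρ_injective (hasRoots_of_row root_exists) ?_ rc rc_mono
    (Cfsg.Agent.Lib.SpFusion2.self_centralizing hm) (Yt K) ?_ upper_gen (Ubar_ne_bot hm)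
    (closed_dichotomy p hm hex) S
  · intro A c hA hd
    obtain ⟨w, hw, hwp, hcc⟩ := exists_scalar hA hd (Sum.inl i₀)
    refine ⟨w, ⟨fun a b hab => ?_, fun a b hab => ?_⟩, hwp⟩
    · have h0 : A.1 a b = 0 := hA a b hab
      rw [toM_apply, hw, Matrix.smul_apply, h0, smul_zero]
    · have hab' := ρ_injective hab
      subst hab'
      have h3 := hd a
      rw [toM_apply] at h3
      rw [toM_apply, hw, Matrix.smul_apply, if_pos rfl, h3, smul_eq_mul, hcc]
  · intro t y hy
    refine ⟨Yt_par hy, Yt_par (Yt_inv hy), 1, ?_⟩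
    rw [pow_one]
    exact Yt_pow p hy

end Cfsg.Agent.Lib.SpFusion6
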