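import Mathlib
import Cfsg.Agent.Lib.SpBasic

/-!
# Unipotent radical of a point stabiliser in the symplectic group

`qel x w c` is the element `z ↦ z + ω(x,z) w + ω(w,z) x + c ω(x,z) x` (for `ω(x,w)=0`).
-/

set_option autoImplicit false
set_option linter.unusedSectionVars false
set_option linter.unusedVariables false

namespace Cfsg.Agent.Lib.SpIdx

open Matrix Cfsg.Agent.Lib.SpBasic
open scoped MatrixGroups

variable {l F : Type*} [Fintype l] [DecidableEq l] [Field F]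

local notation "V" => (l ⊕ l → F)

/-- the matrix -/
def qMat (x w : l ⊕ l → F) (c : F) : Matrix (l ⊕ l) (l ⊕ l) F :=
  1 + vecMulVec w (x ᵥ* J l F) + vecMulVec x (w ᵥ* J l F) + c • vecMulVec x (x ᵥ* J l F)

lemma qMat_mulVec (x w : l ⊕ l → F) (c : F) (z : l ⊕ l → F) :
    qMat x w c *ᵥ z = z + ω x z • w + ω w z • x + (c * ω x z) • x := by
  rw [qMat, add_mulVec, add_mulVec, add_mulVec, one_mulVec, smul_mulVec, vecMulVec_mulVec,
    vecMulVec_mulVec, vecMulVec_mulVec, ω, ω, dotProduct_mulVec, dotProduct_mulVec,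
    op_smul_eq_smul, op_smul_eq_smul, op_smul_eq_smul, mul_smul]

open Classical in
/-- The element `z ↦ z + ω(x,z) w + ω(w,z) x + c ω(x,z) x`, or `1` if `ω x w ≠ 0`. -/
noncomputable def qel (x w : l ⊕ l → F) (c : F) : Sp l F :=
  if h : ω x w = 0 then
    ⟨qMat x w c, by
      rw [mem_symplecticGroup_iff]
      intro u v
      have hwx : ω w x = 0 := by rw [ω_comm, h, neg_zero]
      simp only [qMat_mulVec, ω_add_left, ω_add_right, ω_smul_left, ω_smul_right, ω_self, h, hwx]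
      rw [ω_comm u x, ω_comm u w]
      ring⟩
  else 1

lemma qel_smul {x w : l ⊕ l → F} (h : ω x w = 0) (c : F) (z : l ⊕ l → F) :
    qel x w c • z = z + ω x z • w + ω w z • x + (c * ω x z) • x := by
  rw [qel, dif_pos h, Sp_smul_def]
  exact qMat_mulVec x w c z

lemma qel_zero (x : l ⊕ l → F) (c : F) : qel x 0 c = T x c := by
  apply Sp_ext
  intro z
  rw [qel_smul (ω_zero_right x), T_smul]
  simp [ω_zero_left]

lemma ω_comm0 {x w : l ⊕ l → F} (h : ω x w = 0) : ω w x = 0 := by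
  rw [ω_comm, h, neg_zero]

lemma qel_mul {x w w' : l ⊕ l → F} (h : ω x w = 0) (h' : ω x w' = 0) (c c' : F) :
    qel x w c * qel x w' c' = qel x (w + w') (c + c' + ω w w') := by
  apply Sp_ext
  intro z
  have h2 : ω x (w + w') = 0 := by rw [ω_add_right, h, h', add_zero]
  rw [mul_smul, qel_smul h', qel_smul h, qel_smul h2]
  simp only [ω_add_left, ω_add_right, ω_smul_right, ω_self, h', ω_comm0 h, ω_comm0 h', add_smul,
    smul_add, mul_zero, add_zero, zero_add, zero_smul, mul_add, smul_smul]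
  ext i
  simp only [Pi.add_apply, Pi.smul_apply, smul_eq_mul]
  ring

lemma qel_zero_zero (x : l ⊕ l → F) : qel x (0 : l ⊕ l → F) 0 = 1 := by
  rw [qel_zero, T_zero_right]

lemma qel_inv {x w : l ⊕ l → F} (h : ω x w = 0) (c : F) :
    (qel x w c)⁻¹ = qel x (-w) (-c) := by
  apply inv_eq_of_mul_eq_one_right
  have h' : ω x (-w) = 0 := by rw [ω_neg_right, h, neg_zero]
  rw [qel_mul h h', add_neg_cancel, ω_neg_right, ω_self, neg_zero, add_zero, add_neg_cancel,
    qel_zero_zero]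

lemma qel_conj (g : Sp l F) {x w : l ⊕ l → F} (h : ω x w = 0) (c : F) :
    g * qel x w c * g⁻¹ = qel (g • x) (g • w) c := by
  apply Sp_ext
  intro z
  have h2 : ω (g • x) (g • w) = 0 := by rw [ω_smul_smul, h]
  rw [mul_smul, mul_smul, qel_smul h, qel_smul h2, smul_add, smul_add, smul_add, smul_inv_smul,
    smul_comm g _ w, smul_comm g _ x, smul_comm g _ x, ω_smul_left_eq, ω_smul_left_eq]

lemma qel_scale {x w : l ⊕ l → F} (h : ω x w = 0) (a c : F) :
    qel (a • x) w c = qel x (a • w) (a ^ 2 * c) := by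
  apply Sp_ext
  intro z
  have h1 : ω (a • x) w = 0 := by rw [ω_smul_left, h, mul_zero]
  have h2 : ω x (a • w) = 0 := by rw [ω_smul_right, h, mul_zero]
  rw [qel_smul h1, qel_smul h2]
  simp only [ω_smul_left, smul_smul]
  ext i
  simp only [Pi.add_apply, Pi.smul_apply, smul_eq_mul]
  ring

lemma qel_add_self {x w : l ⊕ l → F} (h : ω x w = 0) (a c : F) :
    qel x (w + a • x) c = qel x w (c + 2 * a) := by
  apply Sp_ext
  intro z
  have h1 : ω x (w + a • x) = 0 := by rw [ω_add_right, ω_smul_right, ω_self, h]; simp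
  rw [qel_smul h1, qel_smul h]
  simp only [ω_add_left, ω_smul_left, smul_add, smul_smul]
  ext i
  simp only [Pi.add_apply, Pi.smul_apply, smul_eq_mul]
  ring

lemma qel_smul_x {x w : l ⊕ l → F} (h : ω x w = 0) (c : F) : qel x w c • x = x := by
  rw [qel_smul h, ω_self, ω_comm0 h]
  simp

lemma qel_smul_perp {x w z : l ⊕ l → F} (h : ω x w = 0) (c : F) (hz : ω x z = 0) :
    qel x w c • z = z + ω w z • x := by
  rw [qel_smul h, hz]
  simp

/-- Commutation of two elements with orthogonal centres, in terms of the action. -/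
lemma T_smul_x_of_perp {x u : l ⊕ l → F} (h : ω u x = 0) (c : F) : T u c • x = x := by
  rw [T_smul, h]
  simp

/-! ### The radical, stabilisers -/

/-- The radical `Q_x`. -/
noncomputable def Q (x : l ⊕ l → F) : Subgroup (Sp l F) where
  carrier := {g | ∃ w c, ω x w = 0 ∧ g = qel x w c}
  mul_mem' := by
    rintro _ _ ⟨w, c, h, rfl⟩ ⟨w', c', h', rfl⟩
    exact ⟨w + w', c + c' + ω w w', by rw [ω_add_right, h, h', add_zero], qel_mul h h' c c'⟩
  one_mem' := ⟨0, 0, ω_zero_right x, (qel_zero_zero x).symm⟩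
  inv_mem' := by
    rintro _ ⟨w, c, h, rfl⟩
    exact ⟨-w, -c, by rw [ω_neg_right, h, neg_zero], qel_inv h c⟩

lemma mem_Q {x : l ⊕ l → F} {g : Sp l F} : g ∈ Q x ↔ ∃ w c, ω x w = 0 ∧ g = qel x w c := Iff.rfl

/-- The stabiliser of the vector `x`. -/
def Fx (x : l ⊕ l → F) : Subgroup (Sp l F) := MulAction.stabilizer (Sp l F) x

lemma mem_Fx {x : l ⊕ l → F} {g : Sp l F} : g ∈ Fx x ↔ g • x = x := Iff.rfl

/-- The stabiliser of the point `⟨x⟩`. -/
def Pt (x : l ⊕ l → F) (hx : x ≠ 0) : Subgroup (Sp l F) where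
  carrier := {g | ∃ c : F, g • x = c • x}
  mul_mem' := by
    rintro a b ⟨c, hc⟩ ⟨d, hd⟩
    exact ⟨d * c, by rw [mul_smul, hd, smul_comm, hc, smul_smul]⟩
  one_mem' := ⟨1, by simp⟩
  inv_mem' := by
    rintro a ⟨c, hc⟩
    have hc0 : c ≠ 0 := by
      rintro rfl
      rw [zero_smul] at hc
      have : a⁻¹ • (a • x) = a⁻¹ • (0 : l ⊕ l → F) := by rw [hc]
      rw [inv_smul_smul] at this
      exact hx (by simpa using this)
    refine ⟨c⁻¹, ?_⟩
    rw [inv_smul_eq_iff, smul_comm, hc, smul_smul, inv_mul_cancel₀ hc0, one_smul]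

lemma mem_Pt {x : l ⊕ l → F} {hx : x ≠ 0} {g : Sp l F} : g ∈ Pt x hx ↔ ∃ c : F, g • x = c • x :=
  Iff.rfl

lemma Q_le_Fx (x : l ⊕ l → F) : Q x ≤ Fx x := by
  rintro _ ⟨w, c, h, rfl⟩
  exact qel_smul_x h c

lemma Fx_le_Pt (x : l ⊕ l → F) (hx : x ≠ 0) : Fx x ≤ Pt x hx := fun g hg => ⟨1, by rw [one_smul]; exact hg⟩

/-- Normality of `Q` under `Fx`. -/
lemma conj_mem_Q {x : l ⊕ l → F} {g y : Sp l F} (hg : g • x = x) (hy : y ∈ Q x) :
    g * y * g⁻¹ ∈ Q x := by
  obtain ⟨w, c, h, rfl⟩ := hy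
  rw [qel_conj g h, hg]
  refine ⟨g • w, c, ?_, rfl⟩
  have := ω_smul_smul g x w
  rw [hg] at this
  rw [this, h]

/-! ### Non-degeneracy -/

lemma eq_smul_of_perp {x w f : l ⊕ l → F} (hf : ω x f = 1) (h : ∀ z, ω x z = 0 → ω w z = 0) :
    w = ω w f • x := by
  rw [← sub_eq_zero]
  apply eq_zero_of_ω_eq_zero
  intro z
  have h1 := h (z - ω x z • f) (by
    rw [ω_sub_right, ω_smul_right, hf]
    ring)
  rw [ω_sub_right, ω_smul_right] at h1
  rw [ω_sub_left, ω_smul_left]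
  linear_combination h1

/-- There is a vector orthogonal to `x` not orthogonal to a given vector outside `Fx`. -/
lemma exists_perp_ne {x w : l ⊕ l → F} (hx : x ≠ 0) (h : ∀ a : F, w ≠ a • x) :
    ∃ z, ω x z = 0 ∧ ω w z ≠ 0 := by
  obtain ⟨f0, hf0⟩ := exists_ω_ne_zero hx
  have hf : ω x ((ω x f0)⁻¹ • f0) = 1 := by
    rw [ω_smul_right, inv_mul_cancel₀ hf0]
  by_contra hc
  push Not at hc
  exact h _ (eq_smul_of_perp hf hc)

lemma exists_f {x : l ⊕ l → F} (hx : x ≠ 0) : ∃ f, ω x f = 1 := by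
  obtain ⟨f0, hf0⟩ := exists_ω_ne_zero hx
  exact ⟨(ω x f0)⁻¹ • f0, by rw [ω_smul_right, inv_mul_cancel₀ hf0]⟩

/-- Fixing `x`, the stabiliser is transitive on `x^⊥` minus the line. -/
lemma exists_fix_smul_eq {x w w' : l ⊕ l → F} (hx : x ≠ 0) (h1 : ω x w = 0) (h2 : ω x w' = 0)
    (hw : ∀ a : F, w ≠ a • x) (hw' : ∀ a : F, w' ≠ a • x) :
    ∃ g : Sp l F, g • x = x ∧ g • w = w' := by
  have step : ∀ {a b : l ⊕ l → F}, ω x a = 0 → ω x b = 0 → ω b a ≠ 0 →
      ∃ g : Sp l F, g • x = x ∧ g • a = b := by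
    intro a b ha hb hab
    refine ⟨T (b - a) (ω b a)⁻¹, ?_, T_step hab⟩
    apply T_smul_x_of_perp
    rw [ω_sub_left, ω_comm0 hb, ω_comm0 ha, sub_zero]
  by_cases h : ω w' w = 0
  · have key : ∃ z, ω x z = 0 ∧ ω z w ≠ 0 ∧ ω w' z ≠ 0 := by
      obtain ⟨a, ha, ha'⟩ := exists_perp_ne hx hw
      obtain ⟨b, hb, hb'⟩ := exists_perp_ne hx hw'
      have ha'' : ω a w ≠ 0 := by rw [ω_comm]; simpa using ha'
      by_cases h1 : ω w' a = 0
      · by_cases h2 : ω w b = 0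
        · refine ⟨a + b, by rw [ω_add_right, ha, hb, add_zero], ?_, ?_⟩
          · rw [ω_add_left, ω_comm b w, h2]; simpa using ha''
          · rw [ω_add_right, h1]; simpa using hb'
        · exact ⟨b, hb, by rw [ω_comm]; simpa using h2, hb'⟩
      · exact ⟨a, ha, ha'', h1⟩
    obtain ⟨z, hz, hz1, hz2⟩ := key
    obtain ⟨g₁, hg₁, hg₁'⟩ := step h1 hz hz1
    obtain ⟨g₂, hg₂, hg₂'⟩ := step hz h2 hz2
    exact ⟨g₂ * g₁, by rw [mul_smul, hg₁, hg₂], by rw [mul_smul, hg₁', hg₂']⟩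
  · exact step h1 h2 h

end Cfsg.Agent.Lib.SpIdx
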