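import Mathlib
import Cfsg.Agent.Lib.SpIdxA
import Cfsg.Agent.Lib.PSUIdxA

/-!
# Counting for subgroups of the symplectic group along the radical of a point stabiliser
-/

set_option autoImplicit false
set_option linter.unusedSectionVars false
set_option linter.unusedVariables false

namespace Cfsg.Agent.Lib.SpIdx

open Matrix Cfsg.Agent.Lib.SpBasic
open scoped MatrixGroups

section Dual

variable {p : ℕ} [Fact p.Prime] {M : Type*} [AddCommGroup M] [Module (ZMod p) M] [Finite M]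

/-- The perp of an additive subgroup inside `M₀`. -/
def perpS (φ : M → M → ZMod p) (hl : ∀ a b c, φ (a + b) c = φ a c + φ b c)
    (M₀ Y : AddSubgroup M) : AddSubgroup M where
  carrier := {u | u ∈ M₀ ∧ ∀ s ∈ Y, φ u s = 0}
  add_mem' := by
    rintro a b ⟨ha, ha'⟩ ⟨hb, hb'⟩
    exact ⟨add_mem ha hb, fun s hs => by rw [hl, ha' s hs, hb' s hs, add_zero]⟩
  zero_mem' := ⟨zero_mem _, fun s _ => by have := hl 0 0 s; simpa using this⟩
  neg_mem' := by
    rintro a ⟨ha, ha'⟩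
    refine ⟨neg_mem ha, fun s hs => ?_⟩
    have := hl a (-a) s
    have h0 : φ 0 s = 0 := by have := hl 0 0 s; simpa using this
    rw [add_neg_cancel, h0, ha' s hs, zero_add] at this
    exact this.symm

/-- `|Y| |Y^⊥| = |M₀|` for a non-degenerate pairing on `M₀`. -/
theorem card_mul_perp (φ : M → M → ZMod p) (hl : ∀ a b c, φ (a + b) c = φ a c + φ b c)
    (hr : ∀ a b c, φ a (b + c) = φ a b + φ a c) (M₀ Y : AddSubgroup M) (hY : Y ≤ M₀)
    (hnd : ∀ y ∈ M₀, y ≠ 0 → ∃ y' ∈ M₀, φ y' y ≠ 0) :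
    Nat.card Y * Nat.card (perpS φ hl M₀ Y) = Nat.card M₀ := by
  classical
  let M₁ : Submodule (ZMod p) M := AddSubgroup.toZModSubmodule p M₀
  let Y₁ : Submodule (ZMod p) M₁ := (AddSubgroup.toZModSubmodule p Y).comap M₁.subtype
  let g₀ : M₁ → M₁ →+ ZMod p := fun y =>
    { toFun := fun y' => φ y'.1 y.1
      map_zero' := by
        have := hl 0 0 y.1
        simpa using this
      map_add' := fun a b => hl a.1 b.1 y.1 }
  let g₁ : M₁ → Module.Dual (ZMod p) M₁ := fun y => (g₀ y).toZModLinearMap p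
  have hg₁ : ∀ a b, g₁ (a + b) = g₁ a + g₁ b := by
    intro a b
    ext y'
    exact hr y'.1 a.1 b.1
  let g₂ : M₁ →+ Module.Dual (ZMod p) M₁ :=
    { toFun := g₁
      map_zero' := by
        ext y'
        have := hr y'.1 0 0
        have h0 : φ y'.1 0 = 0 := by simpa using this
        exact h0
      map_add' := hg₁ }
  let g : M₁ →ₗ[ZMod p] Module.Dual (ZMod p) M₁ := g₂.toZModLinearMap p
  have hg : Function.Injective g := by
    rw [injective_iff_map_eq_zero]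
    intro y hy
    by_contra hy0
    obtain ⟨y', hy'1, hy'2⟩ := hnd y.1 y.2 (by
      intro h
      exact hy0 (Subtype.ext h))
    apply hy'2
    have := congrArg (fun f : Module.Dual (ZMod p) M₁ => f ⟨y', hy'1⟩) hy
    exact this
  let W₁ : Subspace (ZMod p) (Module.Dual (ZMod p) M₁) := Y₁.map g
  have h1 := Subspace.finrank_add_finrank_dualCoannihilator_eq (K := ZMod p) (V := M₁) W₁
  have h2 : Module.finrank (ZMod p) Y₁ = Module.finrank (ZMod p) W₁ :=
    LinearEquiv.finrank_eq (Submodule.equivMapOfInjective g hg Y₁)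
  have hc1 : Nat.card Y = Nat.card Y₁ := by
    refine Nat.card_congr ⟨fun y => ⟨⟨y.1, hY y.2⟩, y.2⟩, fun y => ⟨y.1.1, y.2⟩, fun y => rfl, fun y => rfl⟩
  have hc2 : Nat.card M₀ = Nat.card M₁ := rfl
  have hc3 : Nat.card (perpS φ hl M₀ Y) = Nat.card W₁.dualCoannihilator := by
    refine Nat.card_congr
      ⟨fun u => ⟨⟨u.1, u.2.1⟩, ?_⟩, fun u => ⟨u.1.1, ⟨u.1.2, ?_⟩⟩, fun y => rfl, fun y => rfl⟩
    · rw [Submodule.mem_dualCoannihilator]
      rintro f ⟨y', hy', rfl⟩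
      exact u.2.2 y'.1 hy'
    · intro s hs
      have hu := u.2
      rw [Submodule.mem_dualCoannihilator] at hu
      exact hu (g ⟨s, hY hs⟩) ⟨⟨s, hY hs⟩, hs, rfl⟩
  rw [hc1, hc2, hc3, Module.natCard_eq_pow_finrank (K := ZMod p) (V := Y₁),
    Module.natCard_eq_pow_finrank (K := ZMod p) (V := M₁),
    Module.natCard_eq_pow_finrank (K := ZMod p) (V := W₁.dualCoannihilator), Nat.card_zmod, ← pow_add]
  congr 1
  omega

lemma mem_perpS {φ : M → M → ZMod p} {hl : ∀ a b c, φ (a + b) c = φ a c + φ b c}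
    {M₀ Y : AddSubgroup M} {u : M} : u ∈ perpS φ hl M₀ Y ↔ u ∈ M₀ ∧ ∀ s ∈ Y, φ u s = 0 := Iff.rfl

end Dual

variable {l F : Type*} [Fintype l] [DecidableEq l] [Field F]

/-! ### The objects attached to a subgroup `K` and a vector `x` -/

/-- Parameters of the transvections with centre `x` in `K`. -/
def AA (K : Subgroup (Sp l F)) (x : l ⊕ l → F) : AddSubgroup F where
  carrier := {c | T x c ∈ K}
  add_mem' := by
    rintro a b ha hb
    have := K.mul_mem ha hb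
    rwa [T_mul] at this
  zero_mem' := by
    show T x 0 ∈ K
    rw [T_zero_right]; exact K.one_mem
  neg_mem' := by
    rintro a ha
    have := K.inv_mem ha
    rwa [T_inv] at this

lemma mem_AA {K : Subgroup (Sp l F)} {x : l ⊕ l → F} {c : F} : c ∈ AA K x ↔ T x c ∈ K := Iff.rfl

/-- The vectors `s ⟂ x` such that some `qel x s c` lies in `K`. -/
def YY (K : Subgroup (Sp l F)) (x : l ⊕ l → F) : AddSubgroup (l ⊕ l → F) where
  carrier := {s | ω x s = 0 ∧ ∃ c, qel x s c ∈ K}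
  add_mem' := by
    rintro a b ⟨ha, c, hc⟩ ⟨hb, d, hd⟩
    refine ⟨by rw [ω_add_right, ha, hb, add_zero], c + d + ω a b, ?_⟩
    rw [← qel_mul ha hb]
    exact K.mul_mem hc hd
  zero_mem' := ⟨ω_zero_right x, 0, by rw [qel_zero_zero]; exact K.one_mem⟩
  neg_mem' := by
    rintro a ⟨ha, c, hc⟩
    refine ⟨by rw [ω_neg_right, ha, neg_zero], -c, ?_⟩
    rw [← qel_inv ha]
    exact K.inv_mem hc

lemma mem_YY {K : Subgroup (Sp l F)} {x s : l ⊕ l → F} :
    s ∈ YY K x ↔ ω x s = 0 ∧ ∃ c, qel x s c ∈ K := Iff.rfl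

lemma smul_x_mem_YY (K : Subgroup (Sp l F)) (x : l ⊕ l → F) (a : F) : a • x ∈ YY K x := by
  refine ⟨by rw [ω_smul_right, ω_self, mul_zero], -(2 * a), ?_⟩
  have h := qel_add_self (ω_zero_right x) a (-(2 * a))
  rw [zero_add] at h
  rw [h, neg_add_cancel, qel_zero_zero]
  exact K.one_mem

/-- The complement `⟨x, f⟩^⊥`. -/
def Vp (x f : l ⊕ l → F) : Submodule F (l ⊕ l → F) where
  carrier := {v | ω x v = 0 ∧ ω f v = 0}
  add_mem' := by
    rintro a b ⟨h1, h2⟩ ⟨h3, h4⟩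
    exact ⟨by rw [ω_add_right, h1, h3, add_zero], by rw [ω_add_right, h2, h4, add_zero]⟩
  zero_mem' := ⟨ω_zero_right _, ω_zero_right _⟩
  smul_mem' := by
    rintro c a ⟨h1, h2⟩
    exact ⟨by rw [ω_smul_right, h1, mul_zero], by rw [ω_smul_right, h2, mul_zero]⟩

lemma mem_Vp {x f v : l ⊕ l → F} : v ∈ Vp x f ↔ ω x v = 0 ∧ ω f v = 0 := Iff.rfl

/-- The perp of `x`. -/
def XP (x : l ⊕ l → F) : AddSubgroup (l ⊕ l → F) where
  carrier := {v | ω x v = 0}
  add_mem' := by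
    rintro a b h1 h3
    show ω x (a + b) = 0
    rw [ω_add_right, h1, h3, add_zero]
  zero_mem' := ω_zero_right _
  neg_mem' := by
    rintro a h1
    show ω x (-a) = 0
    rw [ω_neg_right, h1, neg_zero]

lemma mem_XP {x v : l ⊕ l → F} : v ∈ XP x ↔ ω x v = 0 := Iff.rfl

/-- Decomposition: `w = v + a x` with `v ∈ Vp`. -/
lemma exists_decomp {x f w : l ⊕ l → F} (hf : ω x f = 1) (hw : ω x w = 0) :
    ∃ (v : l ⊕ l → F) (a : F), v ∈ Vp x f ∧ w = v + a • x := by
  refine ⟨w - (-(ω f w)) • x, -(ω f w), ⟨?_, ?_⟩, by abel⟩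
  · rw [ω_sub_right, ω_smul_right, ω_self, hw]; ring
  · rw [ω_sub_right, ω_smul_right, ω_comm f x, hf]; ring

lemma decomp_unique {x f v v' : l ⊕ l → F} {a a' : F} (hf : ω x f = 1) (hv : v ∈ Vp x f)
    (hv' : v' ∈ Vp x f) (h : v + a • x = v' + a' • x) : v = v' ∧ a = a' := by
  have h1 := congrArg (ω f) h
  rw [ω_add_right, ω_add_right, ω_smul_right, ω_smul_right, hv.2, hv'.2, ω_comm f x, hf] at h1
  have h2 : a = a' := by linear_combination -h1
  subst h2
  exact ⟨by simpa using h, rfl⟩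

section Card

variable [Fintype F]

/-- Sizes of additive subgroups of `x^⊥` containing `x`. -/
lemma card_eq_of_XP {x f : l ⊕ l → F} (hf : ω x f = 1) (S : AddSubgroup (l ⊕ l → F))
    (h1 : ∀ a : F, a • x ∈ S) (h2 : S ≤ XP x) :
    Nat.card S = Fintype.card F * Nat.card (S ⊓ (Vp x f).toAddSubgroup : AddSubgroup _) := by
  rw [← Nat.card_eq_fintype_card, ← Nat.card_prod]
  refine Nat.card_congr ?_ 
  symm
  refine Equiv.ofBijective (fun p => ⟨p.2.1 + p.1 • x, add_mem p.2.2.1 (h1 _)⟩) ⟨?_, ?_⟩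
  · rintro ⟨a, v⟩ ⟨a', v'⟩ h
    have h3 := congrArg Subtype.val h
    obtain ⟨h4, h5⟩ := decomp_unique hf v.2.2 v'.2.2 h3
    subst h5
    have : v = v' := Subtype.ext h4
    rw [this]
  · rintro ⟨s, hs⟩
    obtain ⟨v, a, hv, rfl⟩ := exists_decomp hf (h2 hs)
    have hv' : v ∈ S := by
      have := sub_mem hs (h1 a)
      simpa using this
    exact ⟨(a, ⟨v, hv', hv⟩), rfl⟩

/-- The radical has `|Vp| q` elements. -/
lemma card_Q {x f : l ⊕ l → F} (hf : ω x f = 1) :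
    Nat.card (Q x) = Nat.card (Vp x f) * Fintype.card F := by
  rw [← Nat.card_eq_fintype_card, ← Nat.card_prod]
  symm
  refine Nat.card_congr (Equiv.ofBijective (fun p : Vp x f × F =>
    (⟨qel x p.1.1 p.2, p.1.1, p.2, p.1.2.1, rfl⟩ : Q x)) ⟨?_, ?_⟩)
  · rintro ⟨⟨v, hv⟩, c⟩ ⟨⟨v', hv'⟩, c'⟩ h
    have h3 := congrArg Subtype.val h
    have h4 := congrArg (fun g : Sp l F => g • f) h3
    simp only at h4
    rw [qel_smul hv.1, qel_smul hv'.1, hf, ω_comm v f, ω_comm v' f, hv.2, hv'.2] at h4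
    simp only [one_smul, neg_zero, zero_smul, add_zero, mul_one] at h4
    have h5 : v + c • x = v' + c' • x := by
      have := add_left_cancel (a := f) (by simpa [add_assoc] using h4)
      exact this
    obtain ⟨h6, h7⟩ := decomp_unique hf hv hv' h5
    subst h6; subst h7
    rfl
  · rintro ⟨_, w, c, hw, rfl⟩
    obtain ⟨v, a, hv, rfl⟩ := exists_decomp hf hw
    refine ⟨(⟨v, hv⟩, c + 2 * a), Subtype.ext ?_⟩
    exact (qel_add_self hv.1 a c).symm

/-- `K ∩ Q` has `|Y| |A|` elements. -/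
lemma card_K_Q {x f : l ⊕ l → F} (hf : ω x f = 1) (K : Subgroup (Sp l F)) :
    Nat.card (K.subgroupOf (Q x)) =
      Nat.card (YY K x ⊓ (Vp x f).toAddSubgroup : AddSubgroup _) * Nat.card (AA K x) := by
  classical
  rw [← Nat.card_prod]
  symm
  have hch : ∀ v : (YY K x ⊓ (Vp x f).toAddSubgroup : AddSubgroup _), ∃ c, qel x v.1 c ∈ K :=
    fun v => v.2.1.2
  choose c0 hc0 using hch
  refine Nat.card_congr (Equiv.ofBijective (fun p : (YY K x ⊓ (Vp x f).toAddSubgroup : AddSubgroup _) × AA K x =>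
    (⟨⟨qel x p.1.1 (c0 p.1 + p.2.1), p.1.1, _, p.1.2.1.1, rfl⟩, ?_⟩ : K.subgroupOf (Q x))) ⟨?_, ?_⟩)
  · rw [Subgroup.mem_subgroupOf]
    have h1 := qel_mul p.1.2.1.1 (ω_zero_right x) (c0 p.1) p.2.1
    rw [add_zero, ω_zero_right, add_zero, qel_zero] at h1
    show qel x p.1.1 (c0 p.1 + p.2.1) ∈ K
    rw [← h1]
    exact K.mul_mem (hc0 _) p.2.2
  · rintro ⟨⟨v, hv⟩, ⟨a, ha⟩⟩ ⟨⟨v', hv'⟩, ⟨a', ha'⟩⟩ h
    have h3 := congrArg (fun y => (y.1.1 : Sp l F)) h
    have h4 := congrArg (fun g : Sp l F => g • f) h3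
    simp only at h4
    have hv1 := hv.2
    have hv1' := hv'.2
    rw [qel_smul hv1.1, qel_smul hv1'.1, hf, ω_comm v f, ω_comm v' f, hv1.2, hv1'.2] at h4
    simp only [one_smul, neg_zero, zero_smul, add_zero, mul_one] at h4
    have h5 : v + (c0 ⟨v, hv⟩ + a) • x = v' + (c0 ⟨v', hv'⟩ + a') • x := by
      have := add_left_cancel (a := f) (by simpa [add_assoc] using h4)
      exact this
    obtain ⟨h6, h7⟩ := decomp_unique hf hv1 hv1' h5
    subst h6
    have h8 : a = a' := by simpa using h7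
    subst h8
    rfl
  · rintro ⟨⟨_, w, c, hw, rfl⟩, hK⟩
    rw [Subgroup.mem_subgroupOf] at hK
    change qel x w c ∈ K at hK
    obtain ⟨v, a, hv, rfl⟩ := exists_decomp hf hw
    rw [qel_add_self hv.1 a c] at hK
    have hvY : v ∈ (YY K x ⊓ (Vp x f).toAddSubgroup : AddSubgroup _) :=
      ⟨⟨hv.1, _, hK⟩, hv⟩
    have h9 : T x (c + 2 * a - c0 ⟨v, hvY⟩) ∈ K := by
      have h10 := K.mul_mem (K.inv_mem (hc0 ⟨v, hvY⟩)) hK
      rw [qel_inv hv.1, qel_mul (by rw [ω_neg_right, hv.1, neg_zero]) hv.1] at h10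
      rw [neg_add_cancel, ω_neg_left, ω_self, neg_zero, add_zero, qel_zero] at h10
      rwa [show c + 2 * a - c0 ⟨v, hvY⟩ = -c0 ⟨v, hvY⟩ + (c + 2 * a) by ring]
    refine ⟨(⟨v, hvY⟩, ⟨_, h9⟩), ?_⟩
    apply Subtype.ext
    apply Subtype.ext
    show qel x v (c0 ⟨v, hvY⟩ + (c + 2 * a - c0 ⟨v, hvY⟩)) = qel x (v + a • x) c
    rw [qel_add_self hv.1 a c]
    congr 1
    ring

/-- The index of `K ∩ Q` in `Q`. -/
lemma index_formula {x f : l ⊕ l → F} (hf : ω x f = 1) (K : Subgroup (Sp l F)) :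
    (K.subgroupOf (Q x)).index *
      (Nat.card (YY K x ⊓ (Vp x f).toAddSubgroup : AddSubgroup _) * Nat.card (AA K x))
      = Nat.card (Vp x f) * Fintype.card F := by
  rw [← card_K_Q hf K, ← card_Q hf, mul_comm]
  exact Subgroup.card_mul_index _

end Card

end Cfsg.Agent.Lib.SpIdx
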