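import Mathlib
import Cfsg.Agent.Lib.SpIdxB

/-!
# The key inequality and the orbit bound
-/

set_option autoImplicit false
set_option linter.unusedSectionVars false
set_option linter.unusedVariables false

namespace Cfsg.Agent.Lib.SpIdx

open Matrix Cfsg.Agent.Lib.SpBasic
open scoped MatrixGroups

variable {l F : Type*} [Fintype l] [DecidableEq l] [Field F]

/-- The scalars by which elements of `K` act on `x`. -/
def T1 (K : Subgroup (Sp l F)) (x : l ⊕ l → F) : Subgroup Fˣ where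
  carrier := {c | ∃ g ∈ K, g • x = (c : F) • x}
  mul_mem' := by
    rintro a b ⟨g, hg, hga⟩ ⟨h, hh, hhb⟩
    exact ⟨g * h, K.mul_mem hg hh, by rw [mul_smul, hhb, smul_comm, hga, smul_smul]; simp [mul_comm]⟩
  one_mem' := ⟨1, K.one_mem, by simp⟩
  inv_mem' := by
    rintro a ⟨g, hg, hga⟩
    refine ⟨g⁻¹, K.inv_mem hg, ?_⟩
    rw [inv_smul_eq_iff, smul_comm, hga, smul_smul]
    simp

lemma mem_T1 {K : Subgroup (Sp l F)} {x : l ⊕ l → F} {c : Fˣ} :
    c ∈ T1 K x ↔ ∃ g ∈ K, g • x = (c : F) • x := Iff.rfl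

lemma hNQ (x : l ⊕ l → F) : ∀ (d : Fx x), ∀ y ∈ Q x,
    (Fx x).subtype d * y * ((Fx x).subtype d)⁻¹ ∈ Q x :=
  fun d y hy => conj_mem_Q d.2 hy

/-- The elements of the vector stabiliser which lift to `K` modulo `Q`. -/
noncomputable def DD (K : Subgroup (Sp l F)) (x : l ⊕ l → F) : Subgroup (Fx x) :=
  Cfsg.Agent.Lib.PSUIdx.K1 (Q x) K (Fx x).subtype (hNQ x)

lemma mem_DD {K : Subgroup (Sp l F)} {x : l ⊕ l → F} {d : Fx x} :
    d ∈ DD K x ↔ ∃ u ∈ Q x, u * d.1 ∈ K := Iff.rfl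

/-- Elements of `DD` preserve `YY`. -/
lemma smul_mem_YY {K : Subgroup (Sp l F)} {x : l ⊕ l → F} {d : Fx x} (hd : d ∈ DD K x)
    {s : l ⊕ l → F} (hs : s ∈ YY K x) : d.1 • s ∈ YY K x := by
  obtain ⟨u, ⟨w, c, hw, rfl⟩, hu⟩ := hd
  obtain ⟨hs1, c', hc'⟩ := hs
  have hdx : d.1 • x = x := d.2
  have h1 : ω x (d.1 • s) = 0 := by
    have := ω_smul_smul d.1 x s
    rw [hdx] at this
    rw [this, hs1]
  have hu' : qel x w c * d.1 ∈ K := hu
  have h2 := K.mul_mem (K.mul_mem hu' hc') (K.inv_mem hu')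
  rw [qel_conj _ hs1, mul_smul, hdx, qel_smul_x hw, mul_smul, qel_smul_perp hw c h1] at h2
  have h3 : d.1 • s + ω w (d.1 • s) • x ∈ YY K x := by
    refine ⟨?_, c', h2⟩
    rw [ω_add_right, ω_smul_right, ω_self, h1]
    ring
  have := sub_mem h3 (smul_x_mem_YY K x (ω w (d.1 • s)))
  simpa using this

lemma smul_inv_mem_YY {K : Subgroup (Sp l F)} {x : l ⊕ l → F} {d : Fx x} (hd : d ∈ DD K x)
    {s : l ⊕ l → F} (hs : s ∈ YY K x) : (d.1)⁻¹ • s ∈ YY K x :=
  smul_mem_YY (d := d⁻¹) (inv_mem hd) hs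

section Perp

variable {p : ℕ}

/-- The `ψ`-perp of `YY` in `x^⊥`. -/
def UU (K : Subgroup (Sp l F)) (x : l ⊕ l → F) (ψ : F →+ ZMod p) : AddSubgroup (l ⊕ l → F) where
  carrier := {u | ω x u = 0 ∧ ∀ s ∈ YY K x, ψ (ω u s) = 0}
  add_mem' := by
    rintro a b ⟨ha, ha'⟩ ⟨hb, hb'⟩
    exact ⟨by rw [ω_add_right, ha, hb, add_zero], fun s hs => by
      rw [ω_add_left, map_add, ha' s hs, hb' s hs, add_zero]⟩
  zero_mem' := ⟨ω_zero_right _, fun s _ => by rw [ω_zero_left, map_zero]⟩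
  neg_mem' := by
    rintro a ⟨ha, ha'⟩
    exact ⟨by rw [ω_neg_right, ha, neg_zero], fun s hs => by
      rw [ω_neg_left, map_neg, ha' s hs, neg_zero]⟩

lemma mem_UU {K : Subgroup (Sp l F)} {x : l ⊕ l → F} {ψ : F →+ ZMod p} {u : l ⊕ l → F} :
    u ∈ UU K x ψ ↔ ω x u = 0 ∧ ∀ s ∈ YY K x, ψ (ω u s) = 0 := Iff.rfl

lemma smul_x_mem_UU (K : Subgroup (Sp l F)) (x : l ⊕ l → F) (ψ : F →+ ZMod p) (a : F) :
    a • x ∈ UU K x ψ := by
  refine ⟨by rw [ω_smul_right, ω_self, mul_zero], fun s hs => ?_⟩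
  rw [ω_smul_left, hs.1, mul_zero, map_zero]

lemma smul_mem_UU {K : Subgroup (Sp l F)} {x : l ⊕ l → F} {ψ : F →+ ZMod p} {d : Fx x}
    (hd : d ∈ DD K x) {u : l ⊕ l → F} (hu : u ∈ UU K x ψ) : d.1 • u ∈ UU K x ψ := by
  have hdx : d.1 • x = x := d.2
  refine ⟨?_, fun s hs => ?_⟩
  · have := ω_smul_smul d.1 x u
    rw [hdx] at this
    rw [this, hu.1]
  · rw [ω_smul_left_eq]
    exact hu.2 _ (smul_inv_mem_YY hd hs)

end Perp

/-! ### Orbit bound -/

section Orbit

variable [Fintype F]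

/-- The orbit of `w ∈ x^⊥ \ Fx` under the vector stabiliser. -/
lemma card_orbit_perp {x w f : l ⊕ l → F} (hf : ω x f = 1) (hw : ω x w = 0)
    (hw' : ∀ a : F, w ≠ a • x) :
    (MulAction.stabilizer (Fx x) w).index + Fintype.card F = Nat.card (XP x) := by
  classical
  have hx : x ≠ 0 := by
    rintro rfl
    rw [ω_zero_left] at hf
    exact zero_ne_one hf
  rw [MulAction.index_stabilizer]
  have h1 : MulAction.orbit (Fx x) w = {z | ω x z = 0 ∧ ∀ a : F, z ≠ a • x} := by
    ext z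
    constructor
    · rintro ⟨d, rfl⟩
      have hdx : d.1 • x = x := d.2
      constructor
      · have := ω_smul_smul d.1 x w
        rw [hdx] at this
        show ω x (d.1 • w) = 0
        rw [this, hw]
      · intro a ha
        have ha' : d.1 • w = a • x := ha
        apply hw' a
        rw [← inv_smul_smul d.1 w, ha', smul_comm, ]
        congr 1
        rw [inv_smul_eq_iff, hdx]
    · rintro ⟨h1, h2⟩
      obtain ⟨g, hg, hg'⟩ := exists_fix_smul_eq hx hw h1 hw' h2
      exact ⟨⟨g, hg⟩, hg'⟩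
  rw [h1]
  have h2 : Nat.card (XP x) = Nat.card ({z | ω x z = 0 ∧ ∀ a : F, z ≠ a • x} : Set (l ⊕ l → F))
      + Nat.card F := by
    rw [← Nat.card_sum]
    refine Nat.card_congr ?_
    refine Equiv.ofBijective (fun z : XP x =>
      if h : ∀ a : F, z.1 ≠ a • x then Sum.inl ⟨z.1, z.2, h⟩
      else Sum.inr (ω z.1 f)) ⟨?_, ?_⟩
    · rintro ⟨z, hz⟩ ⟨z', hz'⟩ h
      dsimp only at h
      by_cases h1 : ∀ a : F, z ≠ a • x <;> by_cases h2 : ∀ a : F, z' ≠ a • x
      · rw [dif_pos h1, dif_pos h2] at h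
        have := Sum.inl.inj h
        have h9 : z = z' := congrArg (fun y : ({z | ω x z = 0 ∧ ∀ a : F, z ≠ a • x} : Set (l ⊕ l → F)) => y.1) this
        subst h9
        rfl
      · rw [dif_pos h1, dif_neg h2] at h
        cases h
      · rw [dif_neg h1, dif_pos h2] at h
        cases h
      · rw [dif_neg h1, dif_neg h2] at h
        have h3 := Sum.inr.inj h
        push Not at h1 h2
        obtain ⟨a, rfl⟩ := h1
        obtain ⟨b, rfl⟩ := h2
        have h4 : a = b := by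
          rw [ω_smul_left, ω_smul_left, hf, mul_one, mul_one] at h3
          exact h3
        subst h4
        rfl
    · rintro (⟨z, h1, h2⟩ | a)
      · refine ⟨⟨z, h1⟩, ?_⟩
        dsimp only
        rw [dif_pos h2]
      · refine ⟨⟨a • x, by show ω x (a • x) = 0; rw [ω_smul_right, ω_self, mul_zero]⟩, ?_⟩
        dsimp only
        rw [dif_neg (by push Not; exact ⟨a, rfl⟩), ω_smul_left, hf, mul_one]
  rw [h2, Set.ncard_eq_toFinset_card', Nat.card_eq_fintype_card, Nat.card_eq_fintype_card]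
  simp

/-- The orbit bound for an invariant additive subgroup. -/
theorem orbit_bound {x w f : l ⊕ l → F} (hf : ω x f = 1) (hw : ω x w = 0)
    (hw' : ∀ a : F, w ≠ a • x) (D : Subgroup (Fx x)) (S : AddSubgroup (l ⊕ l → F))
    (hS1 : ∀ a : F, a • x ∈ S) (hS2 : S ≤ XP x) (hD : ∀ d ∈ D, ∀ s ∈ S, d.1 • s ∈ S)
    (hwS : w ∈ S) :
    D.relIndex (MulAction.stabilizer (Fx x) w) * (Nat.card (XP x) - Fintype.card F) ≤
      D.index * (Nat.card S - Fintype.card F) := by
  classical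
  have h1 := Cfsg.Agent.Lib.PSUIdx.relIndex_swap (MulAction.stabilizer (Fx x) w) D
  have h2 := card_orbit_perp hf hw hw'
  have h3 : (MulAction.stabilizer (Fx x) w).index = Nat.card (XP x) - Fintype.card F := by omega
  rw [← h3, ← h1, mul_comm]
  apply Nat.mul_le_mul_left
  rw [← Cfsg.Agent.Lib.PSUIdx.card_orbit_eq (MulAction.stabilizer (Fx x) w) D
    (fun g => g • w) (fun g g' => by
      rw [MulAction.mem_stabilizer_iff, mul_smul, inv_smul_eq_iff]
      exact eq_comm)]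
  -- the orbit injects into `S` minus the line
  have h4 : Nat.card S = Nat.card {z : S // ∀ a : F, z.1 ≠ a • x} + Nat.card F := by
    rw [← Nat.card_sum]
    refine Nat.card_congr ?_
    refine Equiv.ofBijective (fun z : S =>
      if h : ∀ a : F, z.1 ≠ a • x then Sum.inl ⟨z, h⟩
      else Sum.inr (ω z.1 f)) ⟨?_, ?_⟩
    · rintro ⟨z, hz⟩ ⟨z', hz'⟩ h
      dsimp only at h
      by_cases h1 : ∀ a : F, z ≠ a • x <;> by_cases h2 : ∀ a : F, z' ≠ a • x
      · rw [dif_pos h1, dif_pos h2] at h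
        have := Sum.inl.inj h
        exact congrArg Subtype.val this
      · rw [dif_pos h1, dif_neg h2] at h
        cases h
      · rw [dif_neg h1, dif_pos h2] at h
        cases h
      · rw [dif_neg h1, dif_neg h2] at h
        have h3 := Sum.inr.inj h
        push Not at h1 h2
        obtain ⟨a, rfl⟩ := h1
        obtain ⟨b, rfl⟩ := h2
        have h4 : a = b := by
          rw [ω_smul_left, ω_smul_left, hf, mul_one, mul_one] at h3
          exact h3
        subst h4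
        rfl
    · rintro (⟨z, h2⟩ | a)
      · refine ⟨z, ?_⟩
        dsimp only
        rw [dif_pos h2]
      · refine ⟨⟨a • x, hS1 a⟩, ?_⟩
        dsimp only
        rw [dif_neg (by push Not; exact ⟨a, rfl⟩), ω_smul_left, hf, mul_one]
  have h5 : Nat.card S - Fintype.card F = Nat.card {z : S // ∀ a : F, z.1 ≠ a • x} := by
    rw [h4, Nat.card_eq_fintype_card (α := F)]
    omega
  rw [h5]
  haveI : Finite ((fun g : Fx x => g • w) '' (D : Set (Fx x))) := Set.toFinite _
  refine Nat.card_le_card_of_injective (fun z => ⟨⟨z.1, ?_⟩, ?_⟩) ?_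
  · obtain ⟨z, g, hg, rfl⟩ := z
    exact hD g hg w hwS
  · obtain ⟨z, g, hg, rfl⟩ := z
    intro a ha
    have ha' : g.1 • w = a • x := ha
    have hdx : g.1 • x = x := g.2
    apply hw' a
    rw [← inv_smul_smul g.1 w, ha', smul_comm]
    congr 1
    rw [inv_smul_eq_iff, hdx]
  · rintro ⟨a, ha⟩ ⟨b, hb⟩ h
    have := congrArg (fun z : {z : S // ∀ a : F, z.1 ≠ a • x} => (z.1 : l ⊕ l → F)) h
    exact Subtype.ext this

end Orbit

/-! ### The key inequality -/

section KI

variable [Fintype F]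

/-- The index of the vector stabiliser in the point stabiliser, and in `K ⊓ Pt`. -/
lemma key_index {x : l ⊕ l → F} (hx : x ≠ 0) (K : Subgroup (Sp l F)) :
    (Fintype.card F - 1) * K.relIndex (Fx x) ≤ K.index * Nat.card (T1 K x) := by
  classical
  set P := Pt x hx with hP
  have hle : Fx x ≤ P := Fx_le_Pt x hx
  have hain : ∀ g g' : Sp l F, g • x = g' • x ↔ g⁻¹ * g' ∈ Fx x := by
    intro g g'
    rw [mem_Fx, mul_smul, inv_smul_eq_iff]
    exact eq_comm
  have hA1 := Cfsg.Agent.Lib.PSUIdx.card_orbit_eq (Fx x) P (fun g => g • x) hain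
  have hA2 := Cfsg.Agent.Lib.PSUIdx.card_orbit_eq (Fx x) (K ⊓ P) (fun g => g • x) hain
  -- the image of `P` is the set of non-zero multiples of `x`
  have hinj : ∀ c d : F, c • x = d • x → c = d := by
    intro c d h
    obtain ⟨f, hf⟩ := exists_f hx
    have := congrArg (fun z => ω z f) h
    simpa [ω_smul_left, hf] using this
  have hB1 : Nat.card ((fun g : Sp l F => g • x) '' (P : Set (Sp l F))) = Fintype.card F - 1 := by
    have : Nat.card ((fun g : Sp l F => g • x) '' (P : Set (Sp l F))) = Nat.card Fˣ := by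
      symm
      refine Nat.card_congr (Equiv.ofBijective (fun c : Fˣ => ⟨(c : F) • x, ?_⟩) ⟨?_, ?_⟩)
      · have hc : (c : F) • x ≠ 0 := smul_ne_zero c.ne_zero hx
        obtain ⟨g, hg⟩ := exists_smul_eq_of_ne_zero hx hc
        exact ⟨g, ⟨c, hg⟩, hg⟩
      · intro c d h
        exact Units.ext (hinj _ _ (congrArg Subtype.val h))
      · rintro ⟨_, g, ⟨c, hc⟩, rfl⟩
        have hc0 : c ≠ 0 := by
          rintro rfl
          rw [zero_smul] at hc
          have : g⁻¹ • (g • x) = g⁻¹ • (0 : l ⊕ l → F) := by rw [hc]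
          rw [inv_smul_smul] at this
          exact hx (by simpa using this)
        refine ⟨Units.mk0 c hc0, Subtype.ext ?_⟩
        exact hc.symm
    rw [this, Nat.card_units, Nat.card_eq_fintype_card]
  have hB2 : Nat.card ((fun g : Sp l F => g • x) '' ((K ⊓ P : Subgroup _) : Set (Sp l F)))
      = Nat.card (T1 K x) := by
    symm
    refine Nat.card_congr (Equiv.ofBijective (fun c : T1 K x => ⟨(c.1 : F) • x, ?_⟩) ⟨?_, ?_⟩)
    · obtain ⟨g, hg, hg'⟩ := c.2
      exact ⟨g, ⟨hg, ⟨_, hg'⟩⟩, hg'⟩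
    · intro c d h
      exact Subtype.ext (Units.ext (hinj _ _ (congrArg Subtype.val h)))
    · rintro ⟨_, g, ⟨hg, ⟨c, hc⟩⟩, rfl⟩
      have hc0 : c ≠ 0 := by
        rintro rfl
        rw [zero_smul] at hc
        have : g⁻¹ • (g • x) = g⁻¹ • (0 : l ⊕ l → F) := by rw [hc]
        rw [inv_smul_smul] at this
        exact hx (by simpa using this)
      refine ⟨⟨Units.mk0 c hc0, ⟨g, hg, hc⟩⟩, Subtype.ext ?_⟩
      exact hc.symm
  rw [hB1] at hA1
  rw [hB2] at hA2
  have h1 : (K ⊓ Fx x).relIndex P = (K ⊓ Fx x).relIndex (K ⊓ P) * (K ⊓ P).relIndex P :=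
    (Subgroup.relIndex_mul_relIndex _ _ _ (inf_le_inf_left _ hle) inf_le_right).symm
  have h2 : (K ⊓ Fx x).relIndex P = (K ⊓ Fx x).relIndex (Fx x) * (Fx x).relIndex P :=
    (Subgroup.relIndex_mul_relIndex _ _ _ inf_le_right hle).symm
  have h3 : (K ⊓ Fx x).relIndex (Fx x) = K.relIndex (Fx x) := Subgroup.inf_relIndex_right _ _
  have h4 : (K ⊓ P).relIndex P = K.relIndex P := Subgroup.inf_relIndex_right _ _
  have h5 : (K ⊓ Fx x).relIndex (K ⊓ P) = (Fx x).relIndex (K ⊓ P) := by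
    have h6 : K ⊓ Fx x = Fx x ⊓ (K ⊓ P) := by
      ext g
      simp only [Subgroup.mem_inf]
      constructor
      · rintro ⟨h1, h2⟩
        exact ⟨h2, h1, hle h2⟩
      · rintro ⟨h1, h2, h3⟩
        exact ⟨h2, h1⟩
    rw [h6]
    exact Subgroup.inf_relIndex_right _ _
  have h7 : K.relIndex P ≤ K.index := by
    have h8 := Subgroup.relIndex_le_of_le_right (H := K) (K := P) (L := ⊤) le_top
      (by rw [Subgroup.relIndex_top_right]; exact Subgroup.index_ne_zero_of_finite)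
    rwa [Subgroup.relIndex_top_right] at h8
  calc (Fintype.card F - 1) * K.relIndex (Fx x)
      = K.relIndex (Fx x) * (Fx x).relIndex P := by rw [← hA1]; ring
    _ = (K ⊓ Fx x).relIndex P := by rw [h2, h3]
    _ = Nat.card (T1 K x) * K.relIndex P := by rw [h1, h5, h4, hA2]
    _ ≤ K.index * Nat.card (T1 K x) := by
      rw [mul_comm]
      exact Nat.mul_le_mul_right _ h7

/-- The key inequality. -/
theorem key_ineq {x : l ⊕ l → F} (hx : x ≠ 0) (K : Subgroup (Sp l F)) :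
    (Fintype.card F - 1) * ((DD K x).index * (K.subgroupOf (Q x)).index) ≤
      K.index * Nat.card (T1 K x) := by
  refine le_trans ?_ (key_index hx K)
  apply Nat.mul_le_mul_left
  exact Cfsg.Agent.Lib.PSUIdx.mi_sub (hNQ x) (Q_le_Fx x) (fun d => d.2)

end KI

end Cfsg.Agent.Lib.SpIdx
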