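import Mathlib
import Cfsg.Agent.Lib.SpIdxC

/-!
# Numerical relations between the objects attached to `K` and `x`
-/

set_option autoImplicit false
set_option linter.unusedSectionVars false
set_option linter.unusedVariables false

namespace Cfsg.Agent.Lib.SpIdx

open Matrix Cfsg.Agent.Lib.SpBasic
open scoped MatrixGroups

variable {l F : Type*} [Fintype l] [DecidableEq l] [Field F]

/-- projection to the orthogonal complement of a hyperbolic pair -/
def hproj (a b z : l ⊕ l → F) : l ⊕ l → F := z - ω a z • b + ω b z • a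

lemma ω_a_hproj {a b : l ⊕ l → F} (h : ω a b = 1) (z : l ⊕ l → F) : ω a (hproj a b z) = 0 := by
  rw [hproj, ω_add_right, ω_sub_right, ω_smul_right, ω_smul_right, ω_self, h]
  ring

lemma ω_b_hproj {a b : l ⊕ l → F} (h : ω a b = 1) (z : l ⊕ l → F) : ω b (hproj a b z) = 0 := by
  rw [hproj, ω_add_right, ω_sub_right, ω_smul_right, ω_smul_right, ω_self, ω_comm b a, h]
  ring

lemma hproj_mem_Vp {a b : l ⊕ l → F} (h : ω a b = 1) (z : l ⊕ l → F) : hproj a b z ∈ Vp a b :=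
  ⟨ω_a_hproj h z, ω_b_hproj h z⟩

lemma ω_hproj_of_perp {a b z w : l ⊕ l → F} (h1 : ω a w = 0) (h2 : ω b w = 0) :
    ω (hproj a b z) w = ω z w := by
  rw [hproj, ω_add_left, ω_sub_left, ω_smul_left, ω_smul_left, h1, h2]
  ring

lemma ω_of_hproj {a b z w : l ⊕ l → F} (h1 : ω w a = 0) (h2 : ω w b = 0) :
    ω w (hproj a b z) = ω w z := by
  rw [hproj, ω_add_right, ω_sub_right, ω_smul_right, ω_smul_right, h1, h2]
  ring

/-- `Vp` is non-degenerate -/
lemma exists_Vp_ne {x f y : l ⊕ l → F} (hf : ω x f = 1) (hy : y ∈ Vp x f) (hy0 : y ≠ 0) (c : F) :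
    ∃ y' ∈ Vp x f, ω y' y = c := by
  obtain ⟨z, hz⟩ := exists_ω_ne_zero hy0
  have h0 : ω (hproj x f z) y ≠ 0 := by
    rw [ω_hproj_of_perp hy.1 hy.2, ω_comm]
    simpa using hz
  refine ⟨(c * (ω (hproj x f z) y)⁻¹) • hproj x f z, Submodule.smul_mem _ _ (hproj_mem_Vp hf z), ?_⟩
  rw [ω_smul_left, mul_assoc, inv_mul_cancel₀ h0, mul_one]

lemma ne_smul_of_Vp {x f v : l ⊕ l → F} (hf : ω x f = 1) (hv : v ∈ Vp x f) (hv0 : v ≠ 0) (a : F) :
    v ≠ a • x := by
  rintro rfl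
  have h := hv.2
  rw [ω_smul_right, ω_comm f x, hf] at h
  have ha : a = 0 := by linear_combination -h
  subst ha
  exact hv0 (zero_smul _ _)

section Numbers

variable [Fintype F]

lemma XP_le (K : Subgroup (Sp l F)) (x : l ⊕ l → F) : YY K x ≤ XP x := fun _ h => h.1

lemma card_XP {x f : l ⊕ l → F} (hf : ω x f = 1) :
    Nat.card (XP x) = Fintype.card F * Nat.card (Vp x f) := by
  have h := card_eq_of_XP hf (XP x) (fun a => by
    show ω x (a • x) = 0
    rw [ω_smul_right, ω_self, mul_zero]) le_rfl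
  rw [h]
  congr 1
  refine Nat.card_congr ⟨fun v => ⟨v.1, v.2.2⟩, fun v => ⟨v.1, v.2.1, v.2⟩, fun v => rfl, fun v => rfl⟩

lemma card_V_eq {x f : l ⊕ l → F} (hf : ω x f = 1) :
    Nat.card (l ⊕ l → F) = Fintype.card F * Nat.card (XP x) := by
  rw [← Nat.card_eq_fintype_card, ← Nat.card_prod]
  refine Nat.card_congr (Equiv.ofBijective (fun z : l ⊕ l → F => (ω x z, (⟨z - ω x z • f, ?_⟩ : XP x))) ⟨?_, ?_⟩)
  · show ω x (z - ω x z • f) = 0
    rw [ω_sub_right, ω_smul_right, hf]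
    ring
  · intro a b h
    simp only [Prod.mk.injEq, Subtype.mk.injEq] at h
    obtain ⟨h1, h2⟩ := h
    rw [h1] at h2
    exact sub_left_injective h2
  · rintro ⟨a, b, hb⟩
    refine ⟨b + a • f, ?_⟩
    have hb' : ω x b = 0 := hb
    have h1 : ω x (b + a • f) = a := by
      rw [ω_add_right, ω_smul_right, hf, hb']
      ring
    simp only [Prod.mk.injEq, Subtype.mk.injEq, h1, true_and]
    simp

/-- `|Vp| = q^(2m-2)`. -/
lemma card_Vp {x f : l ⊕ l → F} (hf : ω x f = 1) :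
    Fintype.card F ^ 2 * Nat.card (Vp x f) = Fintype.card F ^ (2 * Fintype.card l) := by
  have h1 := card_V_eq hf
  have h2 := card_XP hf
  have h3 : Nat.card (l ⊕ l → F) = Fintype.card F ^ (2 * Fintype.card l) := by
    rw [Nat.card_eq_fintype_card, Fintype.card_fun, Fintype.card_sum]
    congr 1
    ring
  rw [h3] at h1
  rw [h1, h2]
  ring

variable {p : ℕ} [hp : Fact p.Prime] [CharP F p]

/-- The duality. -/
theorem card_YY_mul_UU {x f : l ⊕ l → F} (hf : ω x f = 1) (K : Subgroup (Sp l F)) (ψ : F →+ ZMod p)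
    (hψ : ψ ≠ 0) :
    Nat.card (YY K x ⊓ (Vp x f).toAddSubgroup : AddSubgroup _) *
      Nat.card (UU K x ψ ⊓ (Vp x f).toAddSubgroup : AddSubgroup _) = Nat.card (Vp x f) := by
  classical
  letI : Algebra (ZMod p) F := ZMod.algebra F p
  have hl : ∀ a b c : l ⊕ l → F, ψ (ω (a + b) c) = ψ (ω a c) + ψ (ω b c) := by
    intro a b c
    rw [ω_add_left, map_add]
  have hr : ∀ a b c : l ⊕ l → F, ψ (ω a (b + c)) = ψ (ω a b) + ψ (ω a c) := by
    intro a b c
    rw [ω_add_right, map_add]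
  have hψ' : ∃ c, ψ c ≠ 0 := by
    by_contra h
    push Not at h
    exact hψ (AddMonoidHom.ext h)
  obtain ⟨c, hc⟩ := hψ'
  have h := card_mul_perp (p := p) (M := l ⊕ l → F) (fun a b => ψ (ω a b)) hl hr
    (Vp x f).toAddSubgroup (YY K x ⊓ (Vp x f).toAddSubgroup) inf_le_right (by
      intro y hy hy0
      obtain ⟨y', hy', h1⟩ := exists_Vp_ne hf hy hy0 c
      exact ⟨y', hy', by rw [h1]; exact hc⟩)
  have h2 : Nat.card (perpS (fun a b => ψ (ω a b)) hl (Vp x f).toAddSubgroup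
      (YY K x ⊓ (Vp x f).toAddSubgroup)) =
      Nat.card (UU K x ψ ⊓ (Vp x f).toAddSubgroup : AddSubgroup _) := by
    refine Nat.card_congr
      ⟨fun u => ⟨u.1, ⟨u.2.1.1, fun s hs => ?_⟩, u.2.1⟩, fun u => ⟨u.1, u.2.2, fun s hs => u.2.1.2 s hs.1⟩,
        fun u => rfl, fun u => rfl⟩
    obtain ⟨v, a, hv, rfl⟩ := exists_decomp hf hs.1
    have hvY : v ∈ YY K x := by
      have := sub_mem hs (smul_x_mem_YY K x a)
      simpa using this
    have h5 : ψ (ω u.1 v) = 0 := u.2.2 v ⟨hvY, hv⟩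
    show ψ (ω u.1 (v + a • x)) = 0
    rw [ω_add_right, ω_smul_right, map_add, h5, ω_comm0 u.2.1.1]
    simp
  rw [h2] at h
  exact h

/-- Duality with the size of `YY`, `UU` in `x^⊥`. -/
lemma card_YY {x f : l ⊕ l → F} (hf : ω x f = 1) (K : Subgroup (Sp l F)) :
    Nat.card (YY K x) =
      Fintype.card F * Nat.card (YY K x ⊓ (Vp x f).toAddSubgroup : AddSubgroup _) :=
  card_eq_of_XP hf _ (smul_x_mem_YY K x) (XP_le K x)

lemma card_UU {x f : l ⊕ l → F} (hf : ω x f = 1) (K : Subgroup (Sp l F)) (ψ : F →+ ZMod p) :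
    Nat.card (UU K x ψ) =
      Fintype.card F * Nat.card (UU K x ψ ⊓ (Vp x f).toAddSubgroup : AddSubgroup _) :=
  card_eq_of_XP hf _ (smul_x_mem_UU K x ψ) (fun _ h => h.1)

end Numbers

end Cfsg.Agent.Lib.SpIdx
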