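import Mathlib
import Cfsg.Agent.Lib.SpIdxD

/-!
# General consequences: index of `K ⊓ Q`, the orbit bounds in terms of numbers, existence of `ψ`
-/

set_option autoImplicit false
set_option linter.unusedSectionVars false
set_option linter.unusedVariables false

namespace Cfsg.Agent.Lib.SpIdx

open Matrix Cfsg.Agent.Lib.SpBasic
open scoped MatrixGroups

variable {l F : Type*} [Fintype l] [DecidableEq l] [Field F]

section

variable [Fintype F]

/-- An additive functional killing a given additive subgroup, non-zero on a given element. -/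
lemma exists_psi {p : ℕ} [Fact p.Prime] [CharP F p] (A : AddSubgroup F) {c : F} (hc : c ∉ A) :
    ∃ ψ : F →+ ZMod p, ψ c ≠ 0 ∧ ∀ a ∈ A, ψ a = 0 := by
  classical
  letI : Algebra (ZMod p) F := ZMod.algebra F p
  let Z' : Submodule (ZMod p) F := AddSubgroup.toZModSubmodule p A
  obtain ⟨ψ, hψ1, hψ2⟩ := Submodule.exists_le_ker_of_notMem (p := Z') (v := c) hc
  exact ⟨ψ.toAddMonoidHom, hψ1, fun a ha => hψ2 (show a ∈ Z' from ha)⟩

lemma psi_ne_zero {p : ℕ} {ψ : F →+ ZMod p} {c : F} (h : ψ c ≠ 0) : ψ ≠ 0 := by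
  rintro rfl
  exact h rfl

variable {p : ℕ} [hp : Fact p.Prime] [CharP F p]

/-- `YY` is everything iff all vectors of `x^⊥` lift. -/
lemma YY_lt {x f v : l ⊕ l → F} (hf : ω x f = 1) {K : Subgroup (Sp l F)} (hv : ω x v = 0)
    (hv' : ∀ c, qel x v c ∉ K) :
    Nat.card (YY K x ⊓ (Vp x f).toAddSubgroup : AddSubgroup _) < Nat.card (Vp x f) := by
  classical
  obtain ⟨v', a, hv1, rfl⟩ := exists_decomp hf hv
  have hv2 : v' ∉ YY K x := by
    rintro ⟨-, c, hc⟩
    apply hv' (c - 2 * a)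
    rw [qel_add_self hv1.1, sub_add_cancel]
    exact hc
  have h1 : Nat.card (YY K x ⊓ (Vp x f).toAddSubgroup : AddSubgroup _) ≠
      Nat.card (Vp x f).toAddSubgroup := by
    intro h
    have h2 : (YY K x ⊓ (Vp x f).toAddSubgroup : AddSubgroup _) = (Vp x f).toAddSubgroup := by
      apply AddSubgroup.eq_of_le_of_card_ge inf_le_right h.ge
    have h3 : v' ∈ (YY K x ⊓ (Vp x f).toAddSubgroup : AddSubgroup _) := by
      rw [h2]
      exact hv1
    exact hv2 h3.1
  have h2 : Nat.card (YY K x ⊓ (Vp x f).toAddSubgroup : AddSubgroup _) ≤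
      Nat.card (Vp x f).toAddSubgroup := by
    apply Nat.card_le_card_of_injective
      (fun v : (YY K x ⊓ (Vp x f).toAddSubgroup : AddSubgroup _) =>
        (⟨v.1, v.2.2⟩ : (Vp x f).toAddSubgroup))
    intro a b h
    exact Subtype.ext (congrArg (fun y : (Vp x f).toAddSubgroup => y.1) h)
  exact lt_of_le_of_ne h2 h1

/-- An element of `UU` in `Vp` when `YY` is proper. -/
lemma exists_UU_ne {x f v : l ⊕ l → F} (hf : ω x f = 1) {K : Subgroup (Sp l F)} (hv : ω x v = 0)
    (hv' : ∀ c, qel x v c ∉ K) (ψ : F →+ ZMod p) (hψ : ψ ≠ 0) :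
    ∃ w ∈ UU K x ψ, w ∈ Vp x f ∧ w ≠ 0 := by
  classical
  have h1 := YY_lt hf hv hv'
  have h2 := card_YY_mul_UU hf K ψ hψ
  have h3 : 1 < Nat.card (UU K x ψ ⊓ (Vp x f).toAddSubgroup : AddSubgroup _) := by
    by_contra h
    have h4 : Nat.card (UU K x ψ ⊓ (Vp x f).toAddSubgroup : AddSubgroup _) ≤ 1 := by omega
    have h5 := Nat.mul_le_mul_left (Nat.card (YY K x ⊓ (Vp x f).toAddSubgroup : AddSubgroup _)) h4
    omega
  haveI := Finite.one_lt_card_iff_nontrivial.mp h3
  obtain ⟨⟨w, hw⟩, hw0⟩ := exists_ne (0 : (UU K x ψ ⊓ (Vp x f).toAddSubgroup : AddSubgroup _))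
  refine ⟨w, hw.1, hw.2, fun h => hw0 (Subtype.ext h)⟩

/-- The orbit bound on `UU`. -/
lemma orbit_UU {x f w : l ⊕ l → F} (hf : ω x f = 1) {K : Subgroup (Sp l F)} (ψ : F →+ ZMod p)
    (hw : w ∈ UU K x ψ) (hw1 : w ∈ Vp x f) (hw0 : w ≠ 0) :
    (DD K x).relIndex (MulAction.stabilizer (Fx x) w) * (Nat.card (Vp x f) - 1) ≤
      (DD K x).index * (Nat.card (UU K x ψ ⊓ (Vp x f).toAddSubgroup : AddSubgroup _) - 1) := by
  classical
  have h := orbit_bound hf hw1.1 (ne_smul_of_Vp hf hw1 hw0) (DD K x) (UU K x ψ)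
    (smul_x_mem_UU K x ψ) (fun _ h => h.1) (fun d hd s hs => smul_mem_UU hd hs) hw
  rw [card_XP hf, card_UU hf] at h
  have hq : 0 < Fintype.card F := Fintype.card_pos
  have h1 : ∀ a : ℕ, Fintype.card F * a - Fintype.card F = Fintype.card F * (a - 1) := by
    intro a
    rw [Nat.mul_sub, mul_one]
  rw [h1, h1] at h
  have h2 : Fintype.card F * ((DD K x).relIndex (MulAction.stabilizer (Fx x) w) * (Nat.card (Vp x f) - 1)) ≤
      Fintype.card F * ((DD K x).index * (Nat.card (UU K x ψ ⊓ (Vp x f).toAddSubgroup : AddSubgroup _) - 1)) := by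
    calc _ = (DD K x).relIndex (MulAction.stabilizer (Fx x) w) * (Fintype.card F * (Nat.card (Vp x f) - 1)) := by ring
      _ ≤ _ := h
      _ = _ := by ring
  exact Nat.le_of_mul_le_mul_left h2 hq

/-- The orbit bound on `YY`. -/
lemma orbit_YY {x f w : l ⊕ l → F} (hf : ω x f = 1) {K : Subgroup (Sp l F)}
    (hw : w ∈ YY K x) (hw1 : w ∈ Vp x f) (hw0 : w ≠ 0) :
    (DD K x).relIndex (MulAction.stabilizer (Fx x) w) * (Nat.card (Vp x f) - 1) ≤
      (DD K x).index * (Nat.card (YY K x ⊓ (Vp x f).toAddSubgroup : AddSubgroup _) - 1) := by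
  classical
  have h := orbit_bound hf hw1.1 (ne_smul_of_Vp hf hw1 hw0) (DD K x) (YY K x)
    (smul_x_mem_YY K x) (XP_le K x) (fun d hd s hs => smul_mem_YY hd hs) hw
  rw [card_XP hf, card_YY hf] at h
  have hq : 0 < Fintype.card F := Fintype.card_pos
  have h1 : ∀ a : ℕ, Fintype.card F * a - Fintype.card F = Fintype.card F * (a - 1) := by
    intro a
    rw [Nat.mul_sub, mul_one]
  rw [h1, h1] at h
  have h2 : Fintype.card F * ((DD K x).relIndex (MulAction.stabilizer (Fx x) w) * (Nat.card (Vp x f) - 1)) ≤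
      Fintype.card F * ((DD K x).index * (Nat.card (YY K x ⊓ (Vp x f).toAddSubgroup : AddSubgroup _) - 1)) := by
    calc _ = (DD K x).relIndex (MulAction.stabilizer (Fx x) w) * (Fintype.card F * (Nat.card (Vp x f) - 1)) := by ring
      _ ≤ _ := h
      _ = _ := by ring
  exact Nat.le_of_mul_le_mul_left h2 hq

lemma relIndex_pos {G : Type*} [Group G] [Finite G] (A B : Subgroup G) : 0 < A.relIndex B :=
  by
  unfold Subgroup.relIndex
  exact Nat.pos_of_ne_zero Subgroup.index_ne_zero_of_finite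

/-- Relation between `c2`, `u`, and the index of `A`. -/
lemma c2_eq {x f : l ⊕ l → F} (hf : ω x f = 1) (K : Subgroup (Sp l F)) (ψ : F →+ ZMod p) (hψ : ψ ≠ 0) :
    (K.subgroupOf (Q x)).index * Nat.card (AA K x) =
      Nat.card (UU K x ψ ⊓ (Vp x f).toAddSubgroup : AddSubgroup _) * Fintype.card F := by
  have h1 := index_formula hf K
  have h2 := card_YY_mul_UU hf K ψ hψ
  have hy : 0 < Nat.card (YY K x ⊓ (Vp x f).toAddSubgroup : AddSubgroup _) := Nat.card_pos
  apply Nat.eq_of_mul_eq_mul_left hy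
  rw [← h2] at h1
  calc _ = (K.subgroupOf (Q x)).index *
      (Nat.card (YY K x ⊓ (Vp x f).toAddSubgroup : AddSubgroup _) * Nat.card (AA K x)) := by ring
    _ = _ := h1
    _ = _ := by ring

end

end Cfsg.Agent.Lib.SpIdx
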