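import Mathlib
import Cfsg.Agent.Lib.SpIdxE

/-!
# Subgroups of `Sp_{2m}(2)`: case analysis, the quadratic form
-/

set_option autoImplicit false
set_option linter.unusedSectionVars false
set_option linter.unusedVariables false

namespace Cfsg.Agent.Lib.SpIdx

open Matrix Cfsg.Agent.Lib.SpBasic
open scoped MatrixGroups

variable {l F : Type*} [Fintype l] [DecidableEq l] [Field F] [Fintype F]

/-- A vector orthogonal to finitely many given ones, when the dimension is large. -/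
lemma exists_perp_ne_zero {k : ℕ} (hk : k < 2 * Fintype.card l) (v : Fin k → (l ⊕ l → F)) :
    ∃ w : l ⊕ l → F, w ≠ 0 ∧ ∀ i, ω (v i) w = 0 := by
  classical
  let φ : (l ⊕ l → F) →ₗ[F] (Fin k → F) :=
    LinearMap.pi (fun i =>
      { toFun := fun w => ω (v i) w
        map_add' := fun a b => ω_add_right _ _ _
        map_smul' := fun c a => by simp [ω_smul_right] })
  have h : LinearMap.ker φ ≠ ⊥ := by
    apply LinearMap.ker_ne_bot_of_finrank_lt
    rw [Module.finrank_fin_fun, Module.finrank_fintype_fun_eq_card, Fintype.card_sum]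
    omega
  obtain ⟨w, hw, hw0⟩ := Submodule.exists_mem_ne_zero_of_ne_bot h
  refine ⟨w, hw0, fun i => ?_⟩
  exact congrFun (LinearMap.mem_ker.mp hw) i

/-- Two orthogonal independent vectors have a common perp which is not isotropic. -/
lemma exists_comm_pair (hm : 3 ≤ Fintype.card l) {x y : l ⊕ l → F} (hx : x ≠ 0) (hxy : ω x y = 0)
    (hy : ∀ a : F, y ≠ a • x) :
    ∃ w w' : l ⊕ l → F, ω x w = 0 ∧ ω y w = 0 ∧ ω x w' = 0 ∧ ω y w' = 0 ∧ ω w' w ≠ 0 := by
  classical
  obtain ⟨f, hf⟩ := exists_f hx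
  -- `y' = y - a x` in `Vp x f`
  obtain ⟨y', a, hy', rfl⟩ := exists_decomp hf hxy
  have hy0 : y' ≠ 0 := by
    rintro rfl
    exact hy a (by simp)
  obtain ⟨f', hf'1, hf'⟩ := exists_Vp_ne hf hy' hy0 (-1)
  have hf'' : ω y' f' = 1 := by rw [ω_comm, hf']; ring
  obtain ⟨w, hw0, hw⟩ := exists_perp_ne_zero (F := F) (k := 4) (by omega) ![x, f, y', f']
  have h1 : ω x w = 0 := hw 0
  have h2 : ω f w = 0 := hw 1
  have h3 : ω y' w = 0 := hw 2
  have h4 : ω f' w = 0 := hw 3
  obtain ⟨z, hz⟩ := exists_ω_ne_zero hw0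
  have hz' : ω z w ≠ 0 := by
    rw [ω_comm]
    simpa using hz
  have h5 : ω x (hproj y' f' (hproj x f z)) = 0 := by
    rw [ω_of_hproj hy'.1 hf'1.1]
    exact ω_a_hproj hf z
  refine ⟨w, hproj y' f' (hproj x f z), h1, ?_, h5, ?_, ?_⟩
  · rw [ω_add_left, h3, ω_smul_left, h1]
    ring
  · rw [ω_add_left, ω_smul_left, ω_a_hproj hf'', h5]
    ring
  · rw [ω_hproj_of_perp h3 h4, ω_hproj_of_perp h1 h2]
    exact hz'


section Two

variable (hF : Fintype.card F = 2)
include hF

lemma two_cases (a : F) : a = 0 ∨ a = 1 := by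
  by_cases h : a = 0
  · exact Or.inl h
  · right
    have := FiniteField.pow_card_sub_one_eq_one a h
    rw [hF] at this
    simpa using this

lemma two_zero : (2 : F) = 0 := by
  rcases two_cases hF (1 + 1) with h | h
  · rw [← h]; norm_num
  · exfalso
    have : (1 : F) = 0 := by linear_combination h
    exact one_ne_zero this

lemma two_neg (a : F) : -a = a := by
  have := two_zero hF
  linear_combination (-a) * this

lemma two_add_self (a : F) : a + a = 0 := by
  have := two_zero hF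
  linear_combination a * this

lemma two_ne_one_eq {a : F} (h : a ≠ 0) : a = 1 := (two_cases hF a).resolve_left h

omit hF in
open Classical in
/-- The function attached to a subgroup: `1` on the centres of transvections in `K`. -/
noncomputable def Quad (K : Subgroup (Sp l F)) (v : l ⊕ l → F) : F :=
  if v ≠ 0 ∧ T v 1 ∈ K then 1 else 0

omit hF in
lemma Quad_of_mem {K : Subgroup (Sp l F)} {v : l ⊕ l → F} (h0 : v ≠ 0) (h : T v 1 ∈ K) :
    Quad K v = 1 := by
  rw [Quad, if_pos ⟨h0, h⟩]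

omit hF in
lemma Quad_of_not_mem {K : Subgroup (Sp l F)} {v : l ⊕ l → F} (h : T v 1 ∉ K) :
    Quad K v = 0 := by
  rw [Quad, if_neg (fun h' => h h'.2)]

omit hF in
lemma Quad_zero (K : Subgroup (Sp l F)) : Quad K (0 : l ⊕ l → F) = 0 := by
  rw [Quad, if_neg (fun h' => h'.1 rfl)]

variable {K : Subgroup (Sp l F)}

/-- The basic property: elements of `K` in `Q_x`. -/
lemma qel_Quad_mem (hm : 3 ≤ Fintype.card l)
    (hB : ∀ x : l ⊕ l → F, x ≠ 0 → T x 1 ∉ K → ∀ v, ω x v = 0 → ∃ c, qel x v c ∈ K)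
    {x y : l ⊕ l → F} (hx : x ≠ 0) (hxK : T x 1 ∉ K) (hy : ω x y = 0) :
    qel x y (Quad K y) ∈ K := by
  classical
  by_cases hy0 : y = 0
  · subst hy0
    rw [Quad_zero, qel_zero_zero]
    exact K.one_mem
  by_cases hyx : y = x
  · subst hyx
    rw [Quad_of_not_mem hxK]
    have h := qel_add_self (ω_zero_right y) 1 0
    rw [zero_add, one_smul, two_zero hF] at h
    rw [h]
    simp only [mul_one, add_zero, qel_zero_zero]
    exact K.one_mem
  have hya : ∀ a : F, y ≠ a • x := by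
    intro a
    rcases two_cases hF a with rfl | rfl
    · simpa using hy0
    · simpa using hyx
  by_cases hyK : T y 1 ∈ K
  · rw [Quad_of_mem hy0 hyK]
    obtain ⟨z, hz, hz'⟩ := exists_perp_ne hx hya
    have hz1 : ω y z = 1 := two_ne_one_eq hF hz'
    obtain ⟨c, hc⟩ := hB x hx hxK z hz
    have h1 := K.mul_mem (K.mul_mem hyK hc) (K.inv_mem hyK)
    rw [qel_conj _ hz, T_smul_x_of_perp (ω_comm0 hy), T_smul, hz1, one_mul, one_smul] at h1
    have hz2 : ω x (z + y) = 0 := by rw [ω_add_right, hz, hy, add_zero]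
    have h2 := K.mul_mem (K.inv_mem hc) h1
    rw [qel_inv hz, qel_mul (by rw [ω_neg_right, hz, neg_zero]) hz2] at h2
    have h3 : -z + (z + y) = y := by abel
    have h4 : -c + c + ω (-z) (z + y) = 1 := by
      rw [ω_neg_left, ω_add_right, ω_self, zero_add, ω_comm z y, hz1, neg_add_cancel, zero_add,
        neg_neg]
    rwa [h3, h4] at h2
  · rw [Quad_of_not_mem hyK]
    obtain ⟨w, w', h1, h2, h3, h4, h5⟩ := exists_comm_pair hm hx hy hya
    have h5' : ω w' w = 1 := two_ne_one_eq hF h5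
    obtain ⟨c, hc⟩ := hB x hx hxK w h1
    obtain ⟨c', hc'⟩ := hB y hy0 hyK w' h4
    have h6 := K.mul_mem (K.mul_mem hc' hc) (K.inv_mem hc')
    rw [qel_conj _ h1, qel_smul_perp h4 c' (ω_comm0 hy), qel_smul_perp h4 c' h2, h5', one_smul,
      ω_comm w' x, h3, neg_zero, zero_smul, add_zero] at h6
    have h7 : ω x (w + y) = 0 := by rw [ω_add_right, h1, hy, add_zero]
    have h8 := K.mul_mem (K.inv_mem hc) h6
    rw [qel_inv h1, qel_mul (by rw [ω_neg_right, h1, neg_zero]) h7] at h8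
    have h9 : -w + (w + y) = y := by abel
    have h10 : -c + c + ω (-w) (w + y) = 0 := by
      rw [ω_neg_left, ω_add_right, ω_self, zero_add, ω_comm w y, h2]
      simp
    rwa [h9, h10] at h8

/-- Polarisation on `x^⊥`. -/
lemma Quad_polar_perp (hm : 3 ≤ Fintype.card l)
    (hB : ∀ x : l ⊕ l → F, x ≠ 0 → T x 1 ∉ K → ∀ v, ω x v = 0 → ∃ c, qel x v c ∈ K)
    {x u v : l ⊕ l → F} (hx : x ≠ 0) (hxK : T x 1 ∉ K) (hu : ω x u = 0) (hv : ω x v = 0) :
    Quad K (u + v) = Quad K u + Quad K v + ω u v := by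
  have huv : ω x (u + v) = 0 := by rw [ω_add_right, hu, hv, add_zero]
  have h1 := K.mul_mem (qel_Quad_mem hF hm hB hx hxK hu) (qel_Quad_mem hF hm hB hx hxK hv)
  rw [qel_mul hu hv] at h1
  have h2 := K.mul_mem (K.inv_mem h1) (qel_Quad_mem hF hm hB hx hxK huv)
  rw [qel_inv huv, qel_mul (by rw [ω_neg_right, huv, neg_zero]) huv, neg_add_cancel, ω_neg_left,
    ω_self, neg_zero, add_zero, qel_zero] at h2
  rcases two_cases hF (-(Quad K u + Quad K v + ω u v) + Quad K (u + v)) with h3 | h3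
  · linear_combination h3
  · rw [h3] at h2
    exact absurd h2 hxK

/-- The polarisation in general. -/
theorem Quad_polar (hm : 3 ≤ Fintype.card l)
    (hB : ∀ x : l ⊕ l → F, x ≠ 0 → T x 1 ∉ K → ∀ v, ω x v = 0 → ∃ c, qel x v c ∈ K)
    (hex : ∃ x : l ⊕ l → F, x ≠ 0 ∧ T x 1 ∉ K) (u v : l ⊕ l → F) :
    Quad K (u + v) = Quad K u + Quad K v + ω u v := by
  classical
  by_cases h : ∃ x : l ⊕ l → F, x ≠ 0 ∧ T x 1 ∉ K ∧ ω x u = 0 ∧ ω x v = 0
  · obtain ⟨x, hx, hxK, hu, hv⟩ := h
    exact Quad_polar_perp hF hm hB hx hxK hu hv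
  push Not at h
  exfalso
  obtain ⟨x0, hx0, hx0K⟩ := hex
  obtain ⟨a, ha0, ha⟩ := exists_perp_ne_zero (F := F) (k := 3) (by omega) ![u, v, x0]
  obtain ⟨g, hg⟩ := exists_ω_ne_zero ha0
  obtain ⟨b, hb0, hb⟩ := exists_perp_ne_zero (F := F) (k := 5) (by omega) ![u, v, x0, a, g]
  have hau : ω u a = 0 := ha 0
  have hav : ω v a = 0 := ha 1
  have hax : ω x0 a = 0 := ha 2
  have hbu : ω u b = 0 := hb 0
  have hbv : ω v b = 0 := hb 1
  have hbx : ω x0 b = 0 := hb 2
  have hab : ω a b = 0 := hb 3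
  have hgb : ω g b = 0 := hb 4
  have hne : a ≠ b := by
    rintro rfl
    apply hg
    rw [ω_comm, hgb, neg_zero]
  have hab0 : a + b ≠ 0 := by
    intro h0
    apply hne
    have : a = -b := eq_neg_of_add_eq_zero_left h0
    rw [this]
    ext i
    exact two_neg hF (b i)
  have hmem : ∀ c : l ⊕ l → F, c ≠ 0 → ω u c = 0 → ω v c = 0 → T c 1 ∈ K := by
    intro c hc h1 h2
    by_contra hcK
    exact h c hc hcK (ω_comm0 h1) (ω_comm0 h2) 
  have e1 := Quad_of_mem hab0 (hmem (a + b) hab0 (by rw [ω_add_right, hau, hbu, add_zero])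
    (by rw [ω_add_right, hav, hbv, add_zero]))
  have e2 := Quad_of_mem ha0 (hmem a ha0 hau hav)
  have e3 := Quad_of_mem hb0 (hmem b hb0 hbu hbv)
  have e4 := Quad_polar_perp hF hm hB hx0 hx0K hax hbx
  rw [e1, e2, e3, hab, add_zero, two_add_self hF] at e4
  exact one_ne_zero e4

/-- `Quad` is invariant under `K`. -/
lemma Quad_smul {g : Sp l F} (hg : g ∈ K) (v : l ⊕ l → F) : Quad K (g • v) = Quad K v := by
  classical
  by_cases hv : v ≠ 0 ∧ T v 1 ∈ K
  · have h1 : T (g • v) (1 : F) ∈ K := by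
      rw [← T_conj]
      exact K.mul_mem (K.mul_mem hg hv.2) (K.inv_mem hg)
    have h2 : g • v ≠ 0 := by
      intro h0
      apply hv.1
      have : g⁻¹ • (g • v) = g⁻¹ • (0 : l ⊕ l → F) := by rw [h0]
      rw [inv_smul_smul] at this
      simpa using this
    rw [Quad_of_mem h2 h1, Quad_of_mem hv.1 hv.2]
  · have h1 : ¬ (g • v ≠ 0 ∧ T (g • v) (1 : F) ∈ K) := by
      rintro ⟨h1, h2⟩
      apply hv
      refine ⟨?_, ?_⟩
      · rintro rfl
        exact h1 (smul_zero g)
      · rw [← T_conj] at h2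
        have := K.mul_mem (K.mul_mem (K.inv_mem hg) h2) hg
        convert this using 1
        group
    rw [Quad, Quad, if_neg hv, if_neg h1]

end Two

end Cfsg.Agent.Lib.SpIdx
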