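import Mathlib
import Cfsg.Agent.Lib.SpIdxF
import Cfsg.Agent.Lib.SpCenter

/-!
# Quadratic forms on `F_2^{2m}`: Gauss sums; index of stabilisers; the main theorem for `Sp_{2m}(2)`
-/

set_option autoImplicit false
set_option linter.unusedSectionVars false
set_option linter.unusedVariables false

namespace Cfsg.Agent.Lib.SpIdx

open Matrix Cfsg.Agent.Lib.SpBasic
open scoped MatrixGroups

variable {l F : Type*} [Fintype l] [DecidableEq l] [Field F] [Fintype F]

section Two

variable (hF : Fintype.card F = 2)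
include hF

/-- The sign of an element of `F_2`. -/
noncomputable def sg (a : F) : ℤ := by classical exact if a = 0 then 1 else -1

omit hF in
lemma sg_zero : sg (0 : F) = 1 := by
  unfold sg
  simp

lemma sg_one : sg (1 : F) = -1 := by
  unfold sg
  simp

lemma sg_add (a b : F) : sg (a + b) = sg a * sg b := by
  rcases two_cases hF a with rfl | rfl
  · rw [zero_add, sg_zero, one_mul]
  · rcases two_cases hF b with rfl | rfl
    · rw [add_zero, sg_zero, mul_one]
    · rw [two_add_self hF, sg_zero, sg_one hF]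
      norm_num

lemma sg_sq (a : F) : sg a * sg a = 1 := by
  rw [← sg_add hF, two_add_self hF, sg_zero]

/-- A function polar to the form. -/
def IsPolar (fq : (l ⊕ l → F) → F) : Prop := ∀ u v, fq (u + v) = fq u + fq v + ω u v

omit hF

/-- the Gauss sum -/
noncomputable def GS (fq : (l ⊕ l → F) → F) : ℤ := ∑ v, sg (fq v)

lemma GS_def (fq : (l ⊕ l → F) → F) : GS fq = ∑ v, sg (fq v) := rfl

include hF

lemma sum_sg_ω {w : l ⊕ l → F} (hw : w ≠ 0) : ∑ u : l ⊕ l → F, sg (ω u w) = 0 := by
  classical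
  obtain ⟨z, hz⟩ := exists_ω_ne_zero hw
  have hz' : ω z w = 1 := two_ne_one_eq hF (by rw [ω_comm]; simpa using hz)
  have h1 : ∑ u : l ⊕ l → F, sg (ω u w) = ∑ u : l ⊕ l → F, sg (ω (u + z) w) :=
    (Equiv.sum_comp (Equiv.addRight z) (fun u => sg (ω u w))).symm
  have h2 : ∑ u : l ⊕ l → F, sg (ω (u + z) w) = - ∑ u : l ⊕ l → F, sg (ω u w) := by
    rw [← Finset.sum_neg_distrib]
    apply Finset.sum_congr rfl
    intro u _
    rw [ω_add_left, hz', sg_add hF, sg_one hF]
    ring
  omega

lemma polar_zero {fq : (l ⊕ l → F) → F} (h : IsPolar fq) : fq 0 = 0 := by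
  have := h 0 0
  rw [add_zero, ω_zero_left, add_zero] at this
  linear_combination -this

/-- The Gauss sum squared. -/
theorem GS_sq {fq : (l ⊕ l → F) → F} (h : IsPolar fq) :
    GS fq * GS fq = (Nat.card (l ⊕ l → F) : ℤ) := by
  classical
  rw [GS_def, Finset.sum_mul_sum]
  have h1 : ∀ u : l ⊕ l → F, ∑ v : l ⊕ l → F, sg (fq u) * sg (fq v) =
      ∑ w : l ⊕ l → F, sg (fq w) * sg (ω u w) := by
    intro u
    rw [← Equiv.sum_comp (Equiv.addLeft u) (fun v => sg (fq u) * sg (fq v))]
    apply Finset.sum_congr rfl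
    intro w _
    simp only [Equiv.coe_addLeft]
    rw [h u w, sg_add hF, sg_add hF]
    linear_combination (sg (fq w) * sg (ω u w)) * sg_sq hF (fq u)
  rw [Finset.sum_congr rfl (fun u _ => h1 u), Finset.sum_comm]
  have h2 : ∀ w : l ⊕ l → F, ∑ u : l ⊕ l → F, sg (fq w) * sg (ω u w) =
      if w = 0 then (Nat.card (l ⊕ l → F) : ℤ) else 0 := by
    intro w
    rw [← Finset.mul_sum]
    split_ifs with hw
    · subst hw
      rw [polar_zero hF h, sg_zero, one_mul]
      simp only [ω_zero_right, sg_zero, Finset.sum_const, Finset.card_univ, nsmul_eq_mul, mul_one]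
      rw [Nat.card_eq_fintype_card]
    · rw [sum_sg_ω hF hw, mul_zero]
  rw [Finset.sum_congr rfl (fun w _ => h2 w)]
  simp

/-- The number of zeros in terms of the Gauss sum. -/
lemma GS_eq (fq : (l ⊕ l → F) → F) :
    GS fq = 2 * (Nat.card {a : l ⊕ l → F // fq a = 0} : ℤ) - (Nat.card (l ⊕ l → F) : ℤ) := by
  classical
  rw [GS_def]
  have h1 : ∀ v : l ⊕ l → F, sg (fq v) = 2 * (if fq v = 0 then 1 else 0) - 1 := by
    intro v
    rcases two_cases hF (fq v) with h | h
    · rw [h, sg_zero]
      simp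
    · rw [h, sg_one hF]
      simp
  rw [Finset.sum_congr rfl (fun v _ => h1 v), Finset.sum_sub_distrib, ← Finset.mul_sum,
    Finset.sum_boole, Nat.card_eq_fintype_card, Nat.card_eq_fintype_card, Fintype.card_subtype]
  simp

lemma card_V (m : ℕ) (hm : Fintype.card l = m) : Nat.card (l ⊕ l → F) = (2 ^ m) ^ 2 := by
  rw [Nat.card_eq_fintype_card, Fintype.card_fun, Fintype.card_sum, hF, hm, ← pow_mul]
  congr 1
  ring

/-- The Gauss sum is `± 2^m`. -/
lemma GS_abs {fq : (l ⊕ l → F) → F} (h : IsPolar fq) (m : ℕ) (hm : Fintype.card l = m) :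
    GS fq = 2 ^ m ∨ GS fq = -(2 ^ m) := by
  have h1 := GS_sq hF h
  rw [card_V hF m hm] at h1
  push_cast at h1
  have h2 : (GS fq - 2 ^ m) * (GS fq + 2 ^ m) = 0 := by linear_combination h1
  rcases mul_eq_zero.mp h2 with h3 | h3
  · left; linarith
  · right; linarith

/-- The lower bound on the number of zeros. -/
lemma card_zeros_ge {fq : (l ⊕ l → F) → F} (h : IsPolar fq) (m : ℕ) (hm1 : 1 ≤ m)
    (hm : Fintype.card l = m) :
    2 ^ (m - 1) * (2 ^ m - 1) ≤ Nat.card {a : l ⊕ l → F // fq a = 0} := by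
  have h1 := GS_eq hF fq
  rw [card_V hF m hm] at h1
  obtain ⟨k, rfl⟩ : ∃ k, m = k + 1 := ⟨m - 1, by omega⟩
  simp only [Nat.add_sub_cancel]
  have h2 : (1 : ℕ) ≤ 2 ^ (k + 1) := Nat.one_le_two_pow
  zify [h2]
  have h3 : (GS fq) ≥ -(2 ^ (k + 1)) := by
    rcases GS_abs hF h (k + 1) hm with h4 | h4
    · rw [h4]
      have : (0:ℤ) < 2 ^ (k + 1) := by positivity
      linarith
    · rw [h4]
  push_cast at h1
  rw [h1] at h3
  have h4 : (2:ℤ) ^ (k + 1) = 2 * 2 ^ k := by ring
  rw [h4] at h3 ⊢
  nlinarith [h3]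

/-- Applying a transvection with singular centre. -/
lemma polar_T {fq : (l ⊕ l → F) → F} (h : IsPolar fq) {a : l ⊕ l → F} (ha : fq a = 0)
    (v : l ⊕ l → F) : fq (T a 1 • v) = fq v + ω a v := by
  rw [T_smul, one_mul]
  rcases two_cases hF (ω a v) with h1 | h1
  · rw [h1, zero_smul, add_zero, add_zero]
  · rw [h1, one_smul, h v a, ha, ω_comm, h1, add_zero, add_right_inj]
    exact two_neg hF 1

/-- The number of zeros bounds the index of subgroups preserving the form. -/
theorem card_zeros_le_index {fq : (l ⊕ l → F) → F} (h : IsPolar fq)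
    {K : Subgroup (Sp l F)} (hK : ∀ g ∈ K, ∀ v, fq (g • v) = fq v) :
    Nat.card {a : l ⊕ l → F // fq a = 0} ≤ K.index := by
  classical
  rw [Subgroup.index]
  refine Nat.card_le_card_of_injective (fun a => ((T a.1 (1 : F) : Sp l F) : Sp l F ⧸ K)) ?_
  rintro ⟨a, ha⟩ ⟨b, hb⟩ hab
  rw [QuotientGroup.eq] at hab
  have hab' := hK _ hab
  have key : ∀ v, ω b v + ω a v + ω b v * ω a b = 0 := by
    intro v
    have h1 := hab' v
    rw [T_inv, two_neg hF, mul_smul, polar_T hF h ha, polar_T hF h hb, T_smul, one_mul,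
      ω_add_right, ω_smul_right] at h1
    linear_combination h1
  apply Subtype.ext
  show a = b
  rcases two_cases hF (ω a b) with h1 | h1
  · have h2 : a + b = 0 := by
      apply eq_zero_of_ω_eq_zero
      intro v
      have := key v
      rw [h1, mul_zero, add_zero] at this
      rw [ω_add_left]
      linear_combination this
    have : a = -b := eq_neg_of_add_eq_zero_left h2
    rw [this]
    ext i
    exact two_neg hF (b i)
  · exfalso
    have h2 : a = 0 := by
      apply eq_zero_of_ω_eq_zero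
      intro v
      have := key v
      rw [h1, mul_one] at this
      have h3 : ω b v + ω b v = 0 := two_add_self hF _
      linear_combination this - h3
    rw [h2, ω_zero_left] at h1
    exact zero_ne_one h1

end Two

end Cfsg.Agent.Lib.SpIdx
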