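import Mathlib
import Cfsg.Agent.Lib.SpIdxG

/-!
# The minimal index of a proper subgroup of `Sp_{2m}(2)`
-/

set_option autoImplicit false
set_option linter.unusedSectionVars false
set_option linter.unusedVariables false

namespace Cfsg.Agent.Lib.SpIdx

open Matrix Cfsg.Agent.Lib.SpBasic
open scoped MatrixGroups

variable {l F : Type*} [Fintype l] [DecidableEq l] [Field F] [Fintype F]

/-- A proper subgroup misses a transvection. -/
lemma exists_T_not_mem {K : Subgroup (Sp l F)} (hK : K ≠ ⊤) :
    ∃ (x : l ⊕ l → F) (c : F), x ≠ 0 ∧ T x c ∉ K := by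
  by_contra h
  push Not at h
  apply hK
  rw [eq_top_iff]
  intro g _
  induction g using T_induction with
  | h1 => exact K.one_mem
  | ht u c =>
    by_cases hu : u = 0
    · subst hu
      rw [T_zero_left]
      exact K.one_mem
    · exact h u c hu
  | hmul a b ha hb => exact K.mul_mem (ha trivial) (hb trivial)

section Two

variable (hF : Fintype.card F = 2)
include hF

/-- The inequality when some `YY` is proper. -/
theorem index_ge_of_proper {K : Subgroup (Sp l F)} {x v : l ⊕ l → F} (hx : x ≠ 0)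
    (hxK : T x 1 ∉ K) (hv : ω x v = 0) (hv' : ∀ c, qel x v c ∉ K) :
    ∃ W : ℕ, 4 * W = 2 ^ (2 * Fintype.card l) ∧ 2 * (W - 1) ≤ K.index := by
  classical
  obtain ⟨f, hf⟩ := exists_f hx
  haveI : CharP F 2 := CharTwo.of_one_ne_zero_of_two_eq_zero one_ne_zero (two_zero hF)
  haveI : Fact (Nat.Prime 2) := ⟨Nat.prime_two⟩
  obtain ⟨ψ, hψ1, -⟩ := exists_psi (p := 2) (⊥ : AddSubgroup F) (c := 1) (by
    simp)
  have hψ := psi_ne_zero hψ1
  obtain ⟨w, hw, hw1, hw0⟩ := exists_UU_ne hf hv hv' ψ hψ
  have h1 := orbit_UU hf ψ hw hw1 hw0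
  have h2 := c2_eq hf K ψ hψ
  have h3 : Nat.card (AA K x) = 1 := by
    rw [Nat.card_eq_one_iff_unique]
    refine ⟨⟨fun a b => Subtype.ext ?_⟩, ⟨0⟩⟩
    have ha : ∀ c : AA K x, c.1 = 0 := by
      rintro ⟨c, hc⟩
      rcases two_cases hF c with h | h
      · exact h
      · subst h
        exact absurd hc hxK
    rw [ha a, ha b]
  have h4 := key_ineq hx K
  have h5 : Nat.card (T1 K x) ≤ 1 := by
    have : Nat.card (T1 K x) ≤ Nat.card Fˣ := by
      refine Nat.card_le_card_of_injective (fun c => c.1) (fun a b h => Subtype.ext h)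
    rw [Nat.card_units, Nat.card_eq_fintype_card (α := F), hF] at this
    exact this
  have h6 := card_Vp hf
  rw [hF] at h2 h4 h6
  rw [h3, mul_one] at h2
  refine ⟨Nat.card (Vp x f), by rw [← h6]; ring, ?_⟩
  have h7 := relIndex_pos (DD K x) (MulAction.stabilizer (Fx x) w)
  have h8 : Nat.card (Vp x f) - 1 ≤ (DD K x).index *
      (Nat.card (UU K x ψ ⊓ (Vp x f).toAddSubgroup : AddSubgroup _) - 1) :=
    le_trans (Nat.le_mul_of_pos_left _ h7) h1
  have h9 : (DD K x).index * (K.subgroupOf (Q x)).index ≤ K.index := by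
    have := le_trans h4 (Nat.mul_le_mul_left K.index h5)
    simpa using this
  rw [h2] at h9
  have h10 : (DD K x).index * (Nat.card (UU K x ψ ⊓ (Vp x f).toAddSubgroup : AddSubgroup _) - 1)
      ≤ (DD K x).index * Nat.card (UU K x ψ ⊓ (Vp x f).toAddSubgroup : AddSubgroup _) :=
    Nat.mul_le_mul_left _ (Nat.sub_le _ _)
  nlinarith [h8, h9, h10]

/-- The main inequality. -/
theorem index_ge_two (hm : 3 ≤ Fintype.card l) {K : Subgroup (Sp l F)} (hK : K ≠ ⊤) :
    2 ^ (Fintype.card l - 1) * (2 ^ Fintype.card l - 1) ≤ K.index := by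
  classical
  obtain ⟨x, c, hx, hxc⟩ := exists_T_not_mem hK
  have hc : c = 1 := by
    rcases two_cases hF c with rfl | h
    · rw [T_zero_right] at hxc
      exact absurd K.one_mem hxc
    · exact h
  subst hc
  by_cases hB : ∀ x : l ⊕ l → F, x ≠ 0 → T x 1 ∉ K → ∀ v, ω x v = 0 → ∃ c, qel x v c ∈ K
  · have hp : IsPolar (Quad K (l := l) (F := F)) := Quad_polar hF hm hB ⟨x, hx, hxc⟩
    exact le_trans (card_zeros_ge hF hp _ (by omega) rfl)
      (card_zeros_le_index hF hp (fun g hg v => Quad_smul hF hg v))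
  · push Not at hB
    obtain ⟨x, hx, hxK, v, hv, hv'⟩ := hB
    obtain ⟨W, hW, h⟩ := index_ge_of_proper hF hx hxK hv hv'
    refine le_trans ?_ h
    obtain ⟨k, hk⟩ : ∃ k, Fintype.card l = k + 1 := ⟨Fintype.card l - 1, by omega⟩
    rw [hk] at hW ⊢
    simp only [Nat.add_sub_cancel]
    have h1 : W = 2 ^ k * 2 ^ k := by
      have : 4 * W = 4 * (2 ^ k * 2 ^ k) := by
        rw [hW]
        ring
      omega
    have h2 : 2 ≤ 2 ^ k := by
      calc 2 = 2 ^ 1 := by norm_num
        _ ≤ 2 ^ k := Nat.pow_le_pow_right (by norm_num) (by omega)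
    have h3 : 2 ^ (k + 1) = 2 * 2 ^ k := by ring
    rw [h3, h1]
    generalize 2 ^ k = a at h2
    obtain ⟨b, rfl⟩ : ∃ b, a = b + 2 := ⟨a - 2, by omega⟩
    have e1 : 2 * (b + 2) - 1 = 2 * b + 3 := by omega
    have e2 : (b + 2) * (b + 2) - 1 = b * b + 4 * b + 3 := by
      have : (b + 2) * (b + 2) = b * b + 4 * b + 4 := by ring
      omega
    rw [e1, e2]
    nlinarith

/-! ### Existence -/

/-- The stabiliser of a function. -/
def StabQ (fq : (l ⊕ l → F) → F) : Subgroup (Sp l F) where
  carrier := {g | ∀ v, fq (g • v) = fq v}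
  mul_mem' := by
    intro a b ha hb v
    rw [mul_smul, ha, hb]
  one_mem' := fun v => by simp
  inv_mem' := by
    intro a ha v
    rw [← ha (a⁻¹ • v), smul_inv_smul]

/-- Additive functions are represented by the form. -/
lemma exists_rep (h : (l ⊕ l → F) → F) (hadd : ∀ u v, h (u + v) = h u + h v) :
    ∃ a : l ⊕ l → F, ∀ v, h v = ω a v := by
  classical
  let hL : (l ⊕ l → F) →ₗ[F] F :=
    { toFun := h
      map_add' := hadd
      map_smul' := by
        intro c v
        have h0 : h 0 = 0 := by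
          have := hadd 0 0
          rw [add_zero] at this
          linear_combination -this
        rcases two_cases hF c with rfl | rfl
        · rw [zero_smul, h0]
          simp
        · simp }
  let Φ : (l ⊕ l → F) →ₗ[F] Module.Dual F (l ⊕ l → F) :=
    { toFun := fun a =>
        { toFun := fun v => ω a v
          map_add' := fun u v => ω_add_right _ _ _
          map_smul' := fun c v => by simp [ω_smul_right] }
      map_add' := fun a b => by
        ext v
        simp [ω_add_left]
      map_smul' := fun c a => by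
        ext v
        simp [ω_smul_left] }
  have hΦ : Function.Injective Φ := by
    rw [injective_iff_map_eq_zero]
    intro a ha
    apply eq_zero_of_ω_eq_zero
    intro v
    exact congrArg (fun f : Module.Dual F (l ⊕ l → F) => f v) ha
  have hs : Function.Surjective Φ :=
    (LinearMap.injective_iff_surjective_of_finrank_eq_finrank
      (Subspace.dual_finrank_eq (K := F) (V := l ⊕ l → F)).symm).mp hΦ
  obtain ⟨a, ha⟩ := hs hL
  exact ⟨a, fun v => (congrArg (fun f : Module.Dual F (l ⊕ l → F) => f v) ha).symm⟩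

/-- The difference of two polar functions. -/
lemma polar_diff {fq fq' : (l ⊕ l → F) → F} (h : IsPolar fq) (h' : IsPolar fq') :
    ∃ a : l ⊕ l → F, ∀ v, fq' v = fq v + ω a v := by
  obtain ⟨a, ha⟩ := exists_rep hF (fun v => fq' v + fq v) (by
    intro u v
    rw [h u v, h' u v]
    have := two_add_self hF (ω u v)
    linear_combination this)
  refine ⟨a, fun v => ?_⟩
  have h1 : fq' v + fq v = ω a v := ha v
  rw [← h1]
  have := two_add_self hF (fq v)
  linear_combination -this

/-- The Gauss sum of `fq + ω a`. -/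
lemma GS_add {fq : (l ⊕ l → F) → F} (h : IsPolar fq) (a : l ⊕ l → F) :
    GS (fun v => fq v + ω a v) = sg (fq a) * GS fq := by
  classical
  rw [GS_def, GS_def, Finset.mul_sum]
  have h0 : ∑ i, sg (fq a) * sg (fq i) = ∑ i, sg (fq a) * sg (fq (i + a)) :=
    (Equiv.sum_comp (Equiv.addRight a) (fun v => sg (fq a) * sg (fq v))).symm
  rw [h0]
  apply Finset.sum_congr rfl
  intro v _
  rw [h v a, sg_add hF, sg_add hF, sg_add hF]
  have h1 : ω v a = ω a v := by rw [ω_comm]; exact two_neg hF _
  rw [h1]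
  linear_combination (-sg (fq v) * sg (ω a v)) * sg_sq hF (fq a)

/-- The Gauss sum of `fq ∘ g`. -/
lemma GS_smul (fq : (l ⊕ l → F) → F) (g : Sp l F) : GS (fun v => fq (g • v)) = GS fq := by
  classical
  rw [GS_def, GS_def]
  exact Equiv.sum_comp (MulAction.toPerm g) (fun v => sg (fq v))

lemma polar_smul {fq : (l ⊕ l → F) → F} (h : IsPolar fq) (g : Sp l F) :
    IsPolar (fun v => fq (g • v)) := by
  intro u v
  show fq (g • (u + v)) = fq (g • u) + fq (g • v) + ω u v
  rw [smul_add, h, ω_smul_smul]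

lemma polar_add {fq : (l ⊕ l → F) → F} (h : IsPolar fq) (a : l ⊕ l → F) :
    IsPolar (fun v => fq v + ω a v) := by
  intro u v
  show fq (u + v) + ω a (u + v) = fq u + ω a u + (fq v + ω a v) + ω u v
  rw [h, ω_add_right]
  ring

/-- The index of the stabiliser of a polar function with non-zero Gauss sum. -/
theorem index_StabQ {fq : (l ⊕ l → F) → F} (h : IsPolar fq) (hm : Nonempty l) :
    (StabQ fq).index = Nat.card {a : l ⊕ l → F // fq a = 0} := by
  classical
  apply le_antisymm _ (card_zeros_le_index hF h (K := StabQ fq) (fun g hg v => hg v))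
  have hG : GS fq ≠ 0 := by
    intro h0
    have h1 := GS_sq hF h
    rw [h0, mul_zero] at h1
    have h2 : Nat.card (l ⊕ l → F) ≠ 0 := Nat.card_pos.ne'
    exact h2 (by exact_mod_cast h1.symm)
  rw [Subgroup.index]
  refine Nat.card_le_card_of_surjective (fun a => ((T a.1 (1 : F) : Sp l F) : Sp l F ⧸ StabQ fq)) ?_
  intro y
  obtain ⟨g, rfl⟩ := QuotientGroup.mk_surjective y
  obtain ⟨a, ha⟩ := polar_diff hF h (polar_smul hF h g⁻¹)
  have h1 : GS fq = sg (fq a) * GS fq := by
    have h2 := GS_smul hF fq g⁻¹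
    have h3 : (fun v => fq (g⁻¹ • v)) = fun v => fq v + ω a v := funext ha
    rw [h3, GS_add hF h a] at h2
    exact h2.symm
  have h2 : sg (fq a) = 1 := by
    have : (sg (fq a) - 1) * GS fq = 0 := by linear_combination -h1
    rcases mul_eq_zero.mp this with h3 | h3
    · linarith
    · exact absurd h3 hG
  have h3 : fq a = 0 := by
    rcases two_cases hF (fq a) with h4 | h4
    · exact h4
    · rw [h4, sg_one hF] at h2
      norm_num at h2
  refine ⟨⟨a, h3⟩, ?_⟩
  show ((T a (1 : F) : Sp l F) : Sp l F ⧸ StabQ fq) = g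
  rw [QuotientGroup.eq]
  intro v
  -- `(T a 1)⁻¹ * g` preserves `fq`
  rw [T_inv, two_neg hF, mul_smul, polar_T hF h h3]
  have h4 : fq (g⁻¹ • (g • v)) = fq (g • v) + ω a (g • v) := ha (g • v)
  rw [inv_smul_smul] at h4
  exact h4.symm

/-- A polar function with negative Gauss sum exists. -/
lemma exists_minus (hl : Nonempty l) :
    ∃ fq : (l ⊕ l → F) → F, IsPolar fq ∧ GS fq = -(2 ^ Fintype.card l) := by
  classical
  let fq0 : (l ⊕ l → F) → F := fun v => ∑ i, v (Sum.inl i) * v (Sum.inr i)
  have h0 : IsPolar fq0 := by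
    intro u v
    simp only [fq0]
    rw [ω_apply, ← Finset.sum_add_distrib, ← Finset.sum_add_distrib]
    apply Finset.sum_congr rfl
    intro i _
    simp only [Pi.add_apply]
    have := two_add_self hF (u (Sum.inl i) * v (Sum.inr i))
    linear_combination this
  rcases GS_abs hF h0 _ rfl with h1 | h1
  · obtain ⟨i⟩ := hl
    let a0 : l ⊕ l → F := eL i + eR i
    have h2 : fq0 a0 = 1 := by
      simp only [fq0, a0, Pi.add_apply]
      rw [Finset.sum_eq_single i]
      · simp
      · intro j _ hj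
        simp [hj]
      · simp
    refine ⟨fun v => fq0 v + ω a0 v, polar_add hF h0 a0, ?_⟩
    rw [GS_add hF h0, h2, sg_one hF, h1]
    ring
  · exact ⟨fq0, h0, h1⟩

/-- The subgroup of the minimal index. -/
theorem exists_index_two (hm : 1 ≤ Fintype.card l) :
    ∃ K : Subgroup (Sp l F), Subgroup.center (Sp l F) ≤ K ∧
      K.index = 2 ^ (Fintype.card l - 1) * (2 ^ Fintype.card l - 1) := by
  classical
  haveI hl : Nonempty l := Fintype.card_pos_iff.mp hm
  obtain ⟨fq, h1, h2⟩ := exists_minus hF hl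
  refine ⟨StabQ fq, ?_, ?_⟩
  · intro z hz v
    rcases Cfsg.Agent.Lib.SpCenter.mem_center_iff.mp hz with rfl | rfl
    · simp
    · rw [Cfsg.Agent.Lib.SpCenter.negOne_smul]
      congr 1
      ext i
      exact two_neg hF (v i)
  · rw [index_StabQ hF h1 hl]
    have h3 := GS_eq hF fq
    rw [card_V hF _ rfl, h2] at h3
    obtain ⟨k, hk⟩ : ∃ k, Fintype.card l = k + 1 := ⟨Fintype.card l - 1, by omega⟩
    rw [hk] at h3 ⊢
    simp only [Nat.add_sub_cancel]
    have h4 : (1 : ℕ) ≤ 2 ^ (k + 1) := Nat.one_le_two_pow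
    zify [h4]
    push_cast at h3
    have h5 : (2:ℤ) ^ (k + 1) = 2 * 2 ^ k := by ring
    rw [h5] at h3 ⊢
    nlinarith [h3]

end Two

end Cfsg.Agent.Lib.SpIdx
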