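import Mathlib
import Cfsg.Agent.Lib.SpIdxE

/-!
# Levi elements attached to a hyperbolic pair; normalisation of lifts
-/

set_option autoImplicit false
set_option linter.unusedSectionVars false
set_option linter.unusedVariables false

namespace Cfsg.Agent.Lib.SpIdx

open Matrix Cfsg.Agent.Lib.SpBasic
open scoped MatrixGroups

variable {l F : Type*} [Fintype l] [DecidableEq l] [Field F]

/-- An isometry as an element of the group. -/
noncomputable def ofIso (f : (l ⊕ l → F) →ₗ[F] (l ⊕ l → F)) (h : ∀ u v, ω (f u) (f v) = ω u v) :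
    Sp l F :=
  ⟨LinearMap.toMatrix' f, by
    rw [mem_symplecticGroup_iff]
    intro u v
    rw [LinearMap.toMatrix'_mulVec, LinearMap.toMatrix'_mulVec]
    exact h u v⟩

lemma ofIso_smul (f : (l ⊕ l → F) →ₗ[F] (l ⊕ l → F)) (h : ∀ u v, ω (f u) (f v) = ω u v)
    (z : l ⊕ l → F) : ofIso f h • z = f z := by
  rw [Sp_smul_def]
  exact LinearMap.toMatrix'_mulVec f z

/-- The linear map `z ↦ z + (c-1) ω(z,f) x + (d-1) ω(x,z) f`. -/
noncomputable def sigL (x f : l ⊕ l → F) (c d : F) : (l ⊕ l → F) →ₗ[F] (l ⊕ l → F) where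
  toFun z := z + ((c - 1) * ω z f) • x + ((d - 1) * ω x z) • f
  map_add' a b := by
    rw [ω_add_left, ω_add_right, mul_add, mul_add, add_smul, add_smul]
    abel
  map_smul' r a := by
    rw [ω_smul_left, ω_smul_right, RingHom.id_apply, smul_add, smul_add, smul_smul, smul_smul]
    have e1 : r * ((c - 1) * ω a f) = (c - 1) * (r * ω a f) := by ring
    have e2 : r * ((d - 1) * ω x a) = (d - 1) * (r * ω x a) := by ring
    rw [e1, e2]

open Classical in
/-- The element acting as `c` on `x`, as `c⁻¹` on `f`, trivially on `⟨x,f⟩^⊥`. -/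
noncomputable def sig (x f : l ⊕ l → F) (c : F) : Sp l F :=
  if h : ω x f = 1 ∧ c ≠ 0 then
    ofIso (sigL x f c c⁻¹) (by
      intro u v
      obtain ⟨hf, hc⟩ := h
      have hc' : c * c⁻¹ = 1 := mul_inv_cancel₀ hc
      show ω (u + ((c - 1) * ω u f) • x + ((c⁻¹ - 1) * ω x u) • f)
        (v + ((c - 1) * ω v f) • x + ((c⁻¹ - 1) * ω x v) • f) = ω u v
      simp only [ω_add_left, ω_add_right, ω_smul_left, ω_smul_right, ω_self, hf]
      rw [ω_comm f x, hf, ω_comm u x, ω_comm f v]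
      linear_combination (ω u f * ω x v - ω x u * ω v f) * hc')
  else 1

lemma sig_smul {x f : l ⊕ l → F} {c : F} (hf : ω x f = 1) (hc : c ≠ 0) (z : l ⊕ l → F) :
    sig x f c • z = z + ((c - 1) * ω z f) • x + ((c⁻¹ - 1) * ω x z) • f := by
  rw [sig, dif_pos ⟨hf, hc⟩, ofIso_smul]
  rfl

lemma sig_smul_x {x f : l ⊕ l → F} {c : F} (hf : ω x f = 1) (hc : c ≠ 0) :
    sig x f c • x = c • x := by
  rw [sig_smul hf hc, hf, ω_self]
  ext i
  simp only [Pi.add_apply, Pi.smul_apply, smul_eq_mul]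
  ring

lemma sig_smul_f {x f : l ⊕ l → F} {c : F} (hf : ω x f = 1) (hc : c ≠ 0) :
    sig x f c • f = c⁻¹ • f := by
  rw [sig_smul hf hc, hf, ω_self]
  ext i
  simp only [Pi.add_apply, Pi.smul_apply, smul_eq_mul]
  ring

lemma sig_smul_perp {x f v : l ⊕ l → F} {c : F} (hf : ω x f = 1) (hc : c ≠ 0) (hv : v ∈ Vp x f) :
    sig x f c • v = v := by
  rw [sig_smul hf hc, hv.1, ω_comm v f, hv.2]
  simp

lemma sig_conj (g : Sp l F) {x f : l ⊕ l → F} {c : F} (hf : ω x f = 1) (hc : c ≠ 0) :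
    g * sig x f c * g⁻¹ = sig (g • x) (g • f) c := by
  apply Sp_ext
  intro z
  have h2 : ω (g • x) (g • f) = 1 := by rw [ω_smul_smul, hf]
  have h3 : ω (g⁻¹ • z) f = ω z (g • f) := by rw [ω_smul_left_eq, inv_inv]
  have h4 : ω x (g⁻¹ • z) = ω (g • x) z := (ω_smul_left_eq g x z).symm
  rw [mul_smul, mul_smul, sig_smul hf hc, sig_smul h2 hc, h3, h4, smul_add, smul_add, smul_inv_smul,
    smul_comm g _ x, smul_comm g _ f]

/-- The linear map `z ↦ -z + 2 ω(z,f) x + 2 ω(x,z) f`. -/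
noncomputable def tauL (x f : l ⊕ l → F) : (l ⊕ l → F) →ₗ[F] (l ⊕ l → F) where
  toFun z := -z + (2 * ω z f) • x + (2 * ω x z) • f
  map_add' a b := by
    rw [ω_add_left, ω_add_right, mul_add, mul_add, add_smul, add_smul, neg_add]
    abel
  map_smul' r a := by
    rw [ω_smul_left, ω_smul_right, RingHom.id_apply, smul_add, smul_add, smul_smul, smul_smul,
      smul_neg]
    have e1 : r * (2 * ω a f) = 2 * (r * ω a f) := by ring
    have e2 : r * (2 * ω x a) = 2 * (r * ω x a) := by ring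
    rw [e1, e2]

open Classical in
/-- The element fixing `x, f` and acting as `-1` on `⟨x,f⟩^⊥`. -/
noncomputable def tau (x f : l ⊕ l → F) : Sp l F :=
  if h : ω x f = 1 then
    ofIso (tauL x f) (by
      intro u v
      show ω (-u + (2 * ω u f) • x + (2 * ω x u) • f) (-v + (2 * ω v f) • x + (2 * ω x v) • f)
        = ω u v
      simp only [ω_add_left, ω_add_right, ω_smul_left, ω_smul_right, ω_neg_left, ω_neg_right,
        ω_self, h]
      rw [ω_comm f x, h, ω_comm u x, ω_comm f v]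
      ring)
  else 1

lemma tau_smul {x f : l ⊕ l → F} (hf : ω x f = 1) (z : l ⊕ l → F) :
    tau x f • z = -z + (2 * ω z f) • x + (2 * ω x z) • f := by
  rw [tau, dif_pos hf, ofIso_smul]
  rfl

lemma tau_smul_x {x f : l ⊕ l → F} (hf : ω x f = 1) : tau x f • x = x := by
  rw [tau_smul hf, hf, ω_self]
  ext i
  simp only [Pi.add_apply, Pi.smul_apply, smul_eq_mul, Pi.neg_apply]
  ring

lemma tau_smul_f {x f : l ⊕ l → F} (hf : ω x f = 1) : tau x f • f = f := by
  rw [tau_smul hf, hf, ω_self]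
  ext i
  simp only [Pi.add_apply, Pi.smul_apply, smul_eq_mul, Pi.neg_apply]
  ring

lemma tau_smul_perp {x f v : l ⊕ l → F} (hf : ω x f = 1) (hv : v ∈ Vp x f) :
    tau x f • v = -v := by
  rw [tau_smul hf, hv.1, ω_comm v f, hv.2]
  simp

lemma tau_conj (g : Sp l F) {x f : l ⊕ l → F} (hf : ω x f = 1) :
    g * tau x f * g⁻¹ = tau (g • x) (g • f) := by
  apply Sp_ext
  intro z
  have h2 : ω (g • x) (g • f) = 1 := by rw [ω_smul_smul, hf]
  have h3 : ω (g⁻¹ • z) f = ω z (g • f) := by rw [ω_smul_left_eq, inv_inv]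
  have h4 : ω x (g⁻¹ • z) = ω (g • x) z := (ω_smul_left_eq g x z).symm
  rw [mul_smul, mul_smul, tau_smul hf, tau_smul h2, h3, h4, smul_add, smul_add, smul_neg,
    smul_inv_smul, smul_comm g _ x, smul_comm g _ f]

lemma tau_sq {x f : l ⊕ l → F} (hf : ω x f = 1) : tau x f * tau x f = 1 := by
  apply Sp_ext
  intro z
  have h1 : ω (tau x f • z) f = ω z f := by
    rw [tau_smul hf]
    simp only [ω_add_left, ω_smul_left, ω_neg_left, ω_self, hf]
    ring
  have h2 : ω x (tau x f • z) = ω x z := by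
    rw [tau_smul hf]
    simp only [ω_add_right, ω_smul_right, ω_neg_right, ω_self, hf]
    ring
  rw [mul_smul, tau_smul hf (tau x f • z), h1, h2, tau_smul hf z, one_smul]
  abel

section Norm

variable [Fintype F]

/-- Division by two in additive subgroups. -/
lemma half_mem {M : Type*} [AddCommGroup M] [Module F M] (A : AddSubgroup M) (h2 : (2 : F) ≠ 0)
    {v : M} (h : (2 : F) • v ∈ A) : v ∈ A := by
  have hq : 2 ≤ Fintype.card F := Fintype.one_lt_card
  have h1 : (2 : F) ^ (Fintype.card F - 1) = 1 := FiniteField.pow_card_sub_one_eq_one 2 h2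
  have h3 : v = (2 ^ (Fintype.card F - 2) : ℕ) • ((2 : F) • v) := by
    rw [← Nat.cast_smul_eq_nsmul F, smul_smul]
    have : ((2 ^ (Fintype.card F - 2) : ℕ) : F) * 2 = 1 := by
      push_cast
      rw [← pow_succ, ← h1]
      congr 1
      omega
    rw [this, one_smul]
  rw [h3]
  exact A.nsmul_mem h _

lemma qel_decomp {x f w : l ⊕ l → F} (hf : ω x f = 1) (hw : ω x w = 0) (c : F) :
    ∃ v d, v ∈ Vp x f ∧ qel x w c = qel x v d := by
  obtain ⟨v, a, hv, rfl⟩ := exists_decomp hf hw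
  exact ⟨v, c + 2 * a, hv, qel_add_self hv.1 a c⟩

/-- Commutators with an element commuting with the Levi part. -/
lemma comm_lift (K : Subgroup (Sp l F)) {σ h u : Sp l F} (hσ : σ ∈ K) (hu : u * h ∈ K)
    (hc : h * σ = σ * h) : u * (σ * u⁻¹ * σ⁻¹) ∈ K := by
  have h1 := K.mul_mem (K.mul_mem (K.mul_mem hu hσ) (K.inv_mem hu)) (K.inv_mem hσ)
  have h2 : u * h * σ * (u * h)⁻¹ * σ⁻¹ = u * (h * σ) * h⁻¹ * u⁻¹ * σ⁻¹ := by group
  rw [h2, hc] at h1
  convert h1 using 1
  group

theorem tau_norm (h2 : (2 : F) ≠ 0) {K : Subgroup (Sp l F)} {x f : l ⊕ l → F} (hf : ω x f = 1)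
    {u : Sp l F} (hu : u ∈ Q x) (h : u * tau x f ∈ K) :
    ∃ f', ω x f' = 1 ∧ tau x f' ∈ K := by
  obtain ⟨w, c, hw, rfl⟩ := hu
  obtain ⟨v, d, hv, e⟩ := qel_decomp hf hw c
  rw [e] at h
  clear e
  have hτ : tau x f * qel x v d * (tau x f)⁻¹ = qel x (-v) d := by
    rw [qel_conj _ hv.1, tau_smul_x hf, tau_smul_perp hf hv]
  have hnv : ω x (-v) = 0 := by rw [ω_neg_right, hv.1, neg_zero]
  have h3 := K.mul_mem h h
  have h4 : qel x v d * tau x f * (qel x v d * tau x f) =
      qel x v d * (tau x f * qel x v d * (tau x f)⁻¹) * (tau x f * tau x f) := by group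
  rw [h4, hτ, tau_sq hf, mul_one, qel_mul hv.1 hnv, add_neg_cancel, ω_neg_right, ω_self, neg_zero,
    add_zero, qel_zero] at h3
  have h5 : d ∈ AA K x := by
    apply half_mem _ h2
    show T x ((2 : F) • d) ∈ K
    rw [smul_eq_mul, two_mul]
    exact h3
  have h6 : qel x v 0 * tau x f ∈ K := by
    have h7 := K.mul_mem (K.inv_mem h5) h
    rw [T_inv, ← mul_assoc, ← qel_zero, qel_mul (ω_zero_right x) hv.1, zero_add, ω_zero_left,
      add_zero, neg_add_cancel] at h7
    exact h7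
  set e : l ⊕ l → F := (2 : F)⁻¹ • v with he
  have hev : e ∈ Vp x f := Submodule.smul_mem _ _ hv
  have hee : e + e = v := by
    rw [he, ← two_smul F, smul_smul, mul_inv_cancel₀ h2, one_smul]
  have hnev : -e ∈ Vp x f := Submodule.neg_mem _ hev
  refine ⟨qel x e 0 • f, ?_, ?_⟩
  · have := ω_smul_smul (qel x e 0) x f
    rw [qel_smul_x hev.1, hf] at this
    exact this
  · have h8 := tau_conj (qel x e 0) hf
    rw [qel_smul_x hev.1] at h8
    rw [← h8]
    have h9 : qel x e 0 * tau x f * (qel x e 0)⁻¹ =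
        qel x e 0 * (tau x f * (qel x e 0)⁻¹ * (tau x f)⁻¹) * tau x f := by group
    rw [h9, qel_inv hev.1, qel_conj _ hnev.1, tau_smul_x hf, tau_smul_perp hf hnev, neg_neg,
      qel_mul hev.1 hev.1, hee, ω_self, neg_zero, add_zero, add_zero]
    exact h6

theorem sig_norm {c : F} (hc : c ≠ 0) (hc2 : c ^ 2 ≠ 1) {K : Subgroup (Sp l F)} {x f : l ⊕ l → F}
    (hf : ω x f = 1) {u : Sp l F} (hu : u ∈ Q x) (h : u * sig x f c ∈ K) :
    ∃ f', ω x f' = 1 ∧ sig x f' c ∈ K := by
  obtain ⟨w, c', hw, rfl⟩ := hu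
  obtain ⟨v, d, hv, e⟩ := qel_decomp hf hw c'
  rw [e] at h
  clear e
  have hc1 : 1 - c ≠ 0 := by
    intro h0
    apply hc2
    have : c = 1 := by linear_combination -h0
    rw [this]
    ring
  have hc3 : 1 - c ^ 2 ≠ 0 := by
    intro h0
    apply hc2
    linear_combination -h0
  set e : l ⊕ l → F := (1 - c)⁻¹ • v with he
  set b : F := (1 - c ^ 2)⁻¹ * d with hb
  have hev : e ∈ Vp x f := Submodule.smul_mem _ _ hv
  have hnev : -e ∈ Vp x f := Submodule.neg_mem _ hev
  refine ⟨qel x e b • f, ?_, ?_⟩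
  · have := ω_smul_smul (qel x e b) x f
    rw [qel_smul_x hev.1, hf] at this
    exact this
  · have h8 := sig_conj (qel x e b) hf hc
    rw [qel_smul_x hev.1] at h8
    rw [← h8]
    have h9 : qel x e b * sig x f c * (qel x e b)⁻¹ =
        qel x e b * (sig x f c * (qel x e b)⁻¹ * (sig x f c)⁻¹) * sig x f c := by group
    have h10 : ω x (c • (-e)) = 0 := by rw [ω_smul_right, hnev.1, mul_zero]
    rw [h9, qel_inv hev.1, qel_conj _ hnev.1, sig_smul_x hf hc, sig_smul_perp hf hc hnev,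
      qel_scale hnev.1, qel_mul hev.1 h10]
    have h11 : e + c • (-e) = v := by
      have : e + c • (-e) = (1 - c) • e := by
        rw [sub_smul, one_smul, smul_neg, sub_eq_add_neg]
      rw [this, he, smul_smul, mul_inv_cancel₀ hc1, one_smul]
    have h12 : b + c ^ 2 * -b + ω e (c • (-e)) = d := by
      rw [ω_smul_right, ω_neg_right, ω_self, hb]
      field_simp
      ring
    rw [h11, h12]
    exact h

theorem tau_lift (h2 : (2 : F) ≠ 0) {K : Subgroup (Sp l F)} {x f : l ⊕ l → F} (hf : ω x f = 1)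
    (hτ : tau x f ∈ K) {h u : Sp l F} (hx : h • x = x) (hfx : h • f = f) (hu : u ∈ Q x)
    (huh : u * h ∈ K) : ∃ d, T x d * h ∈ K := by
  obtain ⟨w, c', hw, rfl⟩ := hu
  obtain ⟨v, d, hv, e⟩ := qel_decomp hf hw c'
  rw [e] at huh
  clear e
  have hcomm : h * tau x f = tau x f * h := by
    have := tau_conj h hf
    rw [hx, hfx] at this
    calc h * tau x f = h * tau x f * h⁻¹ * h := by group
      _ = tau x f * h := by rw [this]
  have h1 := comm_lift K hτ huh hcomm
  have hnv : -v ∈ Vp x f := Submodule.neg_mem _ hv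
  rw [qel_inv hv.1, qel_conj _ hnv.1, tau_smul_x hf, tau_smul_perp hf hnv, neg_neg,
    qel_mul hv.1 hv.1, ω_self, add_zero, add_neg_cancel] at h1
  have h3 : v ∈ YY K x := by
    apply half_mem _ h2
    refine ⟨by rw [ω_smul_right, hv.1, mul_zero], 0, ?_⟩
    rw [two_smul]
    exact h1
  obtain ⟨-, d', hd'⟩ := h3
  refine ⟨d - d', ?_⟩
  have h4 := K.mul_mem (K.inv_mem hd') huh
  rw [← mul_assoc, qel_inv hv.1, qel_mul hnv.1 hv.1, neg_add_cancel, ω_neg_left, ω_self, neg_zero,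
    add_zero, qel_zero] at h4
  rwa [show d - d' = -d' + d by ring]

theorem sig_lift {c : F} (hc : c ≠ 0) (hc2 : c ^ 2 ≠ 1) {K : Subgroup (Sp l F)} {x f : l ⊕ l → F}
    (hf : ω x f = 1) (hσ : sig x f c ∈ K) {h u : Sp l F} (hx : h • x = x) (hfx : h • f = f)
    (hu : u ∈ Q x) (huh : u * h ∈ K) (hY : ∀ v, (1 - c) • v ∈ YY K x → v ∈ YY K x)
    (hA : ∀ d, T x d ∈ K → d = 0) : h ∈ K := by
  obtain ⟨w, c', hw, rfl⟩ := hu
  obtain ⟨v, d, hv, e⟩ := qel_decomp hf hw c'
  rw [e] at huh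
  clear e
  have hc3 : 1 - c ^ 2 ≠ 0 := by
    intro h0
    apply hc2
    linear_combination -h0
  have hcomm : h * sig x f c = sig x f c * h := by
    have := sig_conj h hf hc
    rw [hx, hfx] at this
    calc h * sig x f c = h * sig x f c * h⁻¹ * h := by group
      _ = sig x f c * h := by rw [this]
  have h1 := comm_lift K hσ huh hcomm
  have hnv : -v ∈ Vp x f := Submodule.neg_mem _ hv
  have h10 : ω x (c • (-v)) = 0 := by rw [ω_smul_right, hnv.1, mul_zero]
  rw [qel_inv hv.1, qel_conj _ hnv.1, sig_smul_x hf hc, sig_smul_perp hf hc hnv,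
      qel_scale hnv.1, qel_mul hv.1 h10] at h1
  have h3 : v ∈ YY K x := by
    apply hY
    refine ⟨by rw [ω_smul_right, hv.1, mul_zero], d + c ^ 2 * -d + ω v (c • -v), ?_⟩
    have : (1 - c) • v = v + c • (-v) := by
      rw [sub_smul, one_smul, smul_neg, sub_eq_add_neg]
    rw [this]
    exact h1
  obtain ⟨-, d', hd'⟩ := h3
  have h4 := K.mul_mem (K.inv_mem hd') huh
  rw [← mul_assoc, qel_inv hv.1, qel_mul hnv.1 hv.1, neg_add_cancel, ω_neg_left, ω_self, neg_zero,
    add_zero, qel_zero] at h4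
  -- `T x e * h ∈ K`; commutator with `sig`
  set e := -d' + d with he
  have h5 := comm_lift K hσ h4 hcomm
  have h6 : sig x f c * (T x e)⁻¹ * (sig x f c)⁻¹ = T x (- c ^ 2 * e) := by
    rw [T_inv, T_conj, sig_smul_x hf hc, T_smul_vec]
    congr 1
    ring
  rw [h6, T_mul] at h5
  have h8 := hA _ h5
  have h9 : e = 0 := by
    have : (1 - c ^ 2) * e = 0 := by linear_combination h8
    exact (mul_eq_zero.mp this).resolve_left hc3
  rw [h9, T_zero_right, one_mul] at h4
  exact h4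

end Norm

end Cfsg.Agent.Lib.SpIdx
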