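import Mathlib
import Cfsg.Agent.Lib.SpIdxI
import Cfsg.Agent.Lib.SpIdxH

/-!
# Subgroups containing many full root groups
-/

set_option autoImplicit false
set_option linter.unusedSectionVars false
set_option linter.unusedVariables false

namespace Cfsg.Agent.Lib.SpIdx

open Matrix Cfsg.Agent.Lib.SpBasic
open scoped MatrixGroups

variable {l F : Type*} [Fintype l] [DecidableEq l] [Field F] [Fintype F]

/-- All transvections with centre `y` lie in `K`. -/
def Sg (K : Subgroup (Sp l F)) (y : l ⊕ l → F) : Prop := ∀ α : F, T y α ∈ K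

lemma Sg_zero (K : Subgroup (Sp l F)) : Sg K 0 := fun α => by
  rw [T_zero_left]
  exact K.one_mem

lemma Sg_smul_g {K : Subgroup (Sp l F)} {g : Sp l F} {y : l ⊕ l → F} (hg : g ∈ K) (h : Sg K y) :
    Sg K (g • y) := fun α => by
  rw [← T_conj]
  exact K.mul_mem (K.mul_mem hg (h α)) (K.inv_mem hg)

lemma Sg_scale {K : Subgroup (Sp l F)} {y : l ⊕ l → F} (a : F) (h : Sg K y) : Sg K (a • y) :=
  fun α => by
  rw [T_smul_vec]
  exact h _

lemma Sg_close {K : Subgroup (Sp l F)} {p r : l ⊕ l → F} (hp : Sg K p) (hr : Sg K r)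
    (h : ω r p ≠ 0) (c : F) : Sg K (p + c • r) := by
  have h1 := Sg_smul_g (hr (c * (ω r p)⁻¹)) hp
  rw [T_smul, mul_assoc, inv_mul_cancel₀ h, mul_one] at h1
  exact h1

/-- The inequality we aim for. -/
def Good (K : Subgroup (Sp l F)) : Prop :=
  Fintype.card F ^ (2 * Fintype.card l) - 1 ≤ K.index * (Fintype.card F - 1)

lemma card_V' : Nat.card (l ⊕ l → F) = Fintype.card F ^ (2 * Fintype.card l) := by
  rw [Nat.card_eq_fintype_card, Fintype.card_fun, Fintype.card_sum]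
  congr 1
  ring

lemma hain (x : l ⊕ l → F) : ∀ g g' : Sp l F, g • x = g' • x ↔ g⁻¹ * g' ∈ Fx x := by
  intro g g'
  rw [mem_Fx, mul_smul, inv_smul_eq_iff]
  exact eq_comm

lemma index_Fx {x : l ⊕ l → F} (hx : x ≠ 0) :
    (Fx x).index + 1 = Fintype.card F ^ (2 * Fintype.card l) := by
  classical
  have h1 := Cfsg.Agent.Lib.PSUIdx.card_orbit_eq (Fx x) ⊤ (fun g => g • x) (hain x)
  rw [Subgroup.relIndex_top_right] at h1
  have h2 : (fun g : Sp l F => g • x) '' ((⊤ : Subgroup (Sp l F)) : Set (Sp l F)) = {z | z ≠ 0} := by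
    ext z
    constructor
    · rintro ⟨g, -, rfl⟩
      intro h
      apply hx
      have : g⁻¹ • (g • x) = g⁻¹ • (0 : l ⊕ l → F) := congrArg _ h
      simpa using this
    · intro hz
      obtain ⟨g, hg⟩ := exists_smul_eq_of_ne_zero hx hz
      exact ⟨g, trivial, hg⟩
  rw [h2] at h1
  rw [← h1, ← card_V']
  have h3 := Fintype.card_subtype_compl (fun z : l ⊕ l → F => z = 0)
  have h4 : Fintype.card {z : l ⊕ l → F // z = 0} = 1 := by simp
  have h5 : 0 < Fintype.card {z : l ⊕ l → F // ¬ z = 0} + 1 := by omega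
  rw [Nat.card_eq_fintype_card (α := l ⊕ l → F)]
  have h6 : Nat.card ({z | z ≠ 0} : Set (l ⊕ l → F)) =
      Fintype.card {z : l ⊕ l → F // ¬ z = 0} := by
    rw [Nat.card_eq_fintype_card]
    rfl
  rw [h6, h3, h4]
  have : 0 < Fintype.card (l ⊕ l → F) := Fintype.card_pos
  omega

lemma orbit_count {x : l ⊕ l → F} (K : Subgroup (Sp l F)) (E : Set (l ⊕ l → F))
    (hE : ∀ g ∈ K, g • x ∈ E) : K.relIndex (Fx x) * (Fx x).index ≤ Nat.card E * K.index := by
  have h1 := Cfsg.Agent.Lib.PSUIdx.relIndex_swap (Fx x) K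
  have h2 := Cfsg.Agent.Lib.PSUIdx.card_orbit_eq (Fx x) K (fun g => g • x) (hain x)
  rw [← h1, ← h2]
  apply Nat.mul_le_mul_right
  apply Nat.card_mono (Set.toFinite E)
  rintro _ ⟨g, hg, rfl⟩
  exact hE g hg

lemma good_of_Pt {a : l ⊕ l → F} (ha : a ≠ 0) {K : Subgroup (Sp l F)}
    (h : ∀ g ∈ K, ∃ c : F, g • a = c • a) : Good K := by
  classical
  let E : Set (l ⊕ l → F) := Set.range (fun c : Fˣ => (c : F) • a)
  have hE : ∀ g ∈ K, g • a ∈ E := by
    intro g hg
    obtain ⟨c, hc⟩ := h g hg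
    have hc0 : c ≠ 0 := by
      rintro rfl
      rw [zero_smul] at hc
      apply ha
      have : g⁻¹ • (g • a) = g⁻¹ • (0 : l ⊕ l → F) := by rw [hc]
      simpa using this
    exact ⟨Units.mk0 c hc0, hc.symm⟩
  have h1 := orbit_count K E hE
  have h2 : Nat.card E ≤ Fintype.card F - 1 := by
    have h3 : Nat.card E ≤ Nat.card Fˣ :=
      Nat.card_le_card_of_surjective _ Set.rangeFactorization_surjective
    have h4 : Nat.card Fˣ = Fintype.card F - 1 := by
      rw [Nat.card_units, Nat.card_eq_fintype_card]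
    omega
  have h3 := index_Fx ha
  have h4 : 0 < K.relIndex (Fx a) := relIndex_pos _ _
  show _ ≤ _
  have h5 : (Fx a).index ≤ K.relIndex (Fx a) * (Fx a).index := Nat.le_mul_of_pos_left _ h4
  have h6 : Nat.card E * K.index ≤ (Fintype.card F - 1) * K.index := Nat.mul_le_mul_right _ h2
  rw [mul_comm K.index]
  omega

/-- If `K` contains all transvections with centres in the union of two distinct hyperplanes. -/
lemma top_of_two_perps {K : Subgroup (Sp l F)} {a a' : l ⊕ l → F} (ha' : ∀ c : F, a' ≠ c • a)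
    (h1 : ∀ z, ω a z = 0 → Sg K z) (h2 : ∀ z, ω a' z = 0 → Sg K z) : K = ⊤ := by
  by_contra hK
  obtain ⟨z, c, hz, hc⟩ := exists_T_not_mem hK
  apply hc
  have key : Sg K z := by
    by_cases hz1 : ω a z = 0
    · exact h1 z hz1
    by_cases hz2 : ω a' z = 0
    · exact h2 z hz2
    have ha'0 : a' ≠ 0 := by
      have := ha' 0
      simpa using this
    have ha0 : a ≠ 0 := by
      rintro rfl
      exact hz1 (ω_zero_left z)
    have ha1 : ∀ c : F, a ≠ c • a' := by
      intro c hc'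
      have hc0 : c ≠ 0 := by
        rintro rfl
        exact ha0 (by simpa using hc')
      apply ha' c⁻¹
      rw [hc', smul_smul, inv_mul_cancel₀ hc0, one_smul]
    have hz3 : ∀ c : F, z ≠ c • a' := by
      rintro c rfl
      exact hz2 (by rw [ω_smul_right, ω_self, mul_zero])
    obtain ⟨r1, hr1, hr1'⟩ := exists_perp_ne ha'0 hz3
    obtain ⟨r2, hr2, hr2'⟩ := exists_perp_ne ha'0 ha1
    obtain ⟨r, hr, hr3, hr4⟩ : ∃ r, ω a' r = 0 ∧ ω z r ≠ 0 ∧ ω a r ≠ 0 := by
      by_cases h3 : ω a r1 = 0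
      · by_cases h4 : ω z r2 = 0
        · refine ⟨r1 + r2, by rw [ω_add_right, hr1, hr2, add_zero], ?_, ?_⟩
          · rw [ω_add_right, h4, add_zero]; exact hr1'
          · rw [ω_add_right, h3, zero_add]; exact hr2'
        · exact ⟨r2, hr2, h4, hr2'⟩
      · exact ⟨r1, hr1, hr1', h3⟩
    set c' := ω a z * (ω a r)⁻¹ with hc'
    have hp : ω a (z - c' • r) = 0 := by
      rw [ω_sub_right, ω_smul_right, hc', mul_assoc, inv_mul_cancel₀ hr4, mul_one, sub_self]
    have hrp : ω r (z - c' • r) ≠ 0 := by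
      rw [ω_sub_right, ω_smul_right, ω_self, mul_zero, sub_zero, ω_comm]
      simpa using hr3
    have := Sg_close (h1 _ hp) (h2 _ hr) hrp c'
    rwa [sub_add_cancel] at this
  exact key c

lemma Pt_of_perp {K : Subgroup (Sp l F)} (hK : K ≠ ⊤) {a : l ⊕ l → F}
    (h1 : ∀ z, ω a z = 0 → Sg K z) : ∀ g ∈ K, ∃ c : F, g • a = c • a := by
  by_contra hc
  push Not at hc
  obtain ⟨g, hg, hc⟩ := hc
  apply hK
  refine top_of_two_perps (a' := g • a) hc h1 (fun z hz => ?_)
  have h2 := Sg_smul_g hg (h1 (g⁻¹ • z) (by rw [← ω_smul_left_eq]; exact hz))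
  rwa [smul_inv_smul] at h2

lemma good_of_perp {K : Subgroup (Sp l F)} (hK : K ≠ ⊤) {a : l ⊕ l → F} (ha : a ≠ 0)
    (h1 : ∀ z, ω a z = 0 → Sg K z) : Good K :=
  good_of_Pt ha (Pt_of_perp hK h1)

/-! ### The lemma with `Vp ⊆ Σ` -/

lemma exists_ne_zero_one (hq : 3 ≤ Fintype.card F) : ∃ κ : F, κ ≠ 0 ∧ κ ≠ 1 := by
  classical
  by_contra h
  push Not at h
  have h1 : (Finset.univ : Finset F) ⊆ {0, 1} := by
    intro c _
    by_cases hc : c = 0
    · simp [hc]
    · simp [h c hc]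
  have h2 := Finset.card_le_card h1
  have h3 : ({0, 1} : Finset F).card ≤ 2 := Finset.card_le_two
  rw [Finset.card_univ] at h2
  omega

lemma exists_Vp_ne_zero (hm : 2 ≤ Fintype.card l) (x f : l ⊕ l → F) : ∃ y ∈ Vp x f, y ≠ 0 := by
  obtain ⟨w, hw0, hw⟩ := exists_perp_ne_zero (F := F) (k := 2) (by omega) ![x, f]
  exact ⟨w, ⟨hw 0, hw 1⟩, hw0⟩

lemma T_comb {a y : l ⊕ l → F} (h : ω a y = 0) (α κ : F) :
    T y (-α) * T (κ • a + y) α = qel a ((α * κ) • y) (α * κ ^ 2) := by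
  apply Sp_ext
  intro z
  have h1 : ω a ((α * κ) • y) = 0 := by rw [ω_smul_right, h, mul_zero]
  have h2 : ω y a = 0 := ω_comm0 h
  rw [mul_smul, T_smul, T_smul, qel_smul h1]
  simp only [ω_add_left, ω_add_right, ω_smul_left, ω_smul_right, ω_self, h, h2, mul_zero, add_zero,
    zero_add]
  ext i
  simp only [Pi.add_apply, Pi.smul_apply, smul_eq_mul]
  ring

lemma exists_move {K : Subgroup (Sp l F)} {x f : l ⊕ l → F} (hf : ω x f = 1)
    (hS : ∀ y ∈ Vp x f, Sg K y) {w1 w2 a : l ⊕ l → F} (h1 : w1 ∈ Vp x f) (h2 : w2 ∈ Vp x f)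
    (h10 : w1 ≠ 0) (h20 : w2 ≠ 0) (ha : ∀ y ∈ Vp x f, ω y a = 0) :
    ∃ g ∈ K, g • a = a ∧ g • w1 = w2 := by
  have step : ∀ {b c : l ⊕ l → F}, b ∈ Vp x f → c ∈ Vp x f → ω c b ≠ 0 →
      ∃ g ∈ K, g • a = a ∧ g • b = c := by
    intro b c hb hc hcb
    have hd : c - b ∈ Vp x f := Submodule.sub_mem _ hc hb
    exact ⟨T (c - b) (ω c b)⁻¹, hS _ hd _, T_smul_x_of_perp (ha _ hd) _, T_step hcb⟩
  by_cases h : ω w2 w1 = 0
  · obtain ⟨a1, ha1, ha1'⟩ := exists_Vp_ne hf h1 h10 1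
    obtain ⟨a2, ha2, ha2'⟩ := exists_Vp_ne hf h2 h20 1
    have ha2'' : ω w2 a2 ≠ 0 := by
      rw [ω_comm, ha2']
      simp
    obtain ⟨w3, hw3, hw31, hw32⟩ : ∃ w3 ∈ Vp x f, ω w3 w1 ≠ 0 ∧ ω w2 w3 ≠ 0 := by
      by_cases h3 : ω w2 a1 = 0
      · by_cases h4 : ω a2 w1 = 0
        · refine ⟨a1 + a2, Submodule.add_mem _ ha1 ha2, ?_, ?_⟩
          · rw [ω_add_left, ha1', h4, add_zero]
            exact one_ne_zero
          · rw [ω_add_right, h3, zero_add]
            exact ha2''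
        · exact ⟨a2, ha2, h4, ha2''⟩
      · exact ⟨a1, ha1, by rw [ha1']; exact one_ne_zero, h3⟩
    obtain ⟨g1, hg1, hg1a, hg1b⟩ := step h1 hw3 hw31
    obtain ⟨g2, hg2, hg2a, hg2b⟩ := step hw3 h2 hw32
    exact ⟨g2 * g1, K.mul_mem hg2 hg1, by rw [mul_smul, hg1a, hg2a], by rw [mul_smul, hg1b, hg2b]⟩
  · exact step h1 h2 h

lemma Sg_a (hq : 3 ≤ Fintype.card F) (hm : 2 ≤ Fintype.card l) {K : Subgroup (Sp l F)}
    {x f : l ⊕ l → F} (hf : ω x f = 1)
    (hS : ∀ y ∈ Vp x f, Sg K y) {a w : l ⊕ l → F} (ha : ∀ y ∈ Vp x f, ω y a = 0)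
    (hw : w ∈ Vp x f) (hw0 : w ≠ 0) (h : Sg K (a + w)) :
    ∀ y ∈ Vp x f, ∀ κ : F, Sg K (κ • a + y) := by
  have h_all : ∀ y ∈ Vp x f, y ≠ 0 → Sg K (a + y) := by
    intro y hy hy0
    obtain ⟨g, hg, hga, hgw⟩ := exists_move hf hS hw hy hw0 hy0 ha
    have := Sg_smul_g hg h
    rwa [smul_add, hga, hgw] at this
  have h_κ : ∀ κ : F, κ ≠ 0 → ∀ y ∈ Vp x f, y ≠ 0 → Sg K (κ • a + y) := by
    intro κ hκ y hy hy0
    have := Sg_scale κ (h_all (κ⁻¹ • y) (Submodule.smul_mem _ _ hy)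
      (smul_ne_zero (inv_ne_zero hκ) hy0))
    rwa [smul_add, smul_smul, mul_inv_cancel₀ hκ, one_smul] at this
  obtain ⟨κ, hκ0, hκ1⟩ := exists_ne_zero_one hq
  obtain ⟨y0, hy0, hy00⟩ := exists_Vp_ne_zero (F := F) hm x f
  have hκ2 : 1 - κ ≠ 0 := sub_ne_zero.mpr (Ne.symm hκ1)
  have hay0 : ω a y0 = 0 := by rw [ω_comm, ha y0 hy0, neg_zero]
  have hSa : Sg K a := by
    intro β
    set ρ := β * (1 - κ)⁻¹ with hρ
    have g1 := K.mul_mem (hS y0 hy0 (-ρ)) (h_κ 1 one_ne_zero y0 hy0 hy00 ρ)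
    have g2 := K.mul_mem (hS y0 hy0 (-(ρ * κ⁻¹))) (h_κ κ hκ0 y0 hy0 hy00 (ρ * κ⁻¹))
    rw [T_comb hay0] at g1 g2
    have e1 : ρ * κ⁻¹ * κ = ρ := by rw [mul_assoc, inv_mul_cancel₀ hκ0, mul_one]
    have e2 : ρ * κ⁻¹ * κ ^ 2 = ρ * κ := by
      field_simp
    rw [e1, e2] at g2
    simp only [mul_one, one_pow] at g1
    have hρy : ω a (ρ • y0) = 0 := by rw [ω_smul_right, hay0, mul_zero]
    have g3 := K.mul_mem g1 (K.inv_mem g2)
    rw [qel_inv hρy, qel_mul hρy (by rw [ω_neg_right, hρy, neg_zero]), add_neg_cancel,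
      ω_neg_right, ω_self, neg_zero, add_zero, qel_zero] at g3
    have e3 : ρ + -(ρ * κ) = β := by
      rw [hρ]
      field_simp
      ring
    rwa [e3] at g3
  intro y hy κ'
  by_cases hκ' : κ' = 0
  · subst hκ'
    rw [zero_smul, zero_add]
    exact hS y hy
  by_cases hy0' : y = 0
  · subst hy0'
    rw [add_zero]
    exact Sg_scale κ' hSa
  exact h_κ κ' hκ' y hy hy0'

lemma eq_of_hproj0 {x f z : l ⊕ l → F} (h : hproj x f z = 0) : z = ω x z • f - ω f z • x := by
  rw [hproj] at h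
  have : z = (z - ω x z • f + ω f z • x) + (ω x z • f - ω f z • x) := by abel
  rw [this, h, zero_add]
  have h1 := congrArg (fun t => ω x t) this
  have h2 := congrArg (fun t => ω f t) this
  simp only [h, zero_add] at h1 h2
  rw [← h1, ← h2]

lemma hproj0_of_perp {x f a : l ⊕ l → F} (hf : ω x f = 1) (ha : ∀ y ∈ Vp x f, ω y a = 0) :
    hproj x f a = 0 := by
  by_contra h
  obtain ⟨y', hy', h1⟩ := exists_Vp_ne hf (hproj_mem_Vp hf a) h 1
  rw [ω_of_hproj (ω_comm0 hy'.1) (ω_comm0 hy'.2), ha y' hy'] at h1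
  exact zero_ne_one h1

lemma perp_Sg {K : Subgroup (Sp l F)} {x f a : l ⊕ l → F} (hf : ω x f = 1)
    (ha : ∀ y ∈ Vp x f, ω y a = 0) (ha0 : a ≠ 0)
    (h : ∀ y ∈ Vp x f, ∀ κ : F, Sg K (κ • a + y)) : ∀ z, ω a z = 0 → Sg K z := by
  intro z hz
  have e := eq_of_hproj0 (hproj0_of_perp hf ha)
  set a1 := ω x a with ha1
  set a2 := ω f a with ha2
  have hz' : a1 * ω f z = a2 * ω x z := by
    rw [e, ω_sub_left, ω_smul_left, ω_smul_left] at hz
    linear_combination hz
  obtain ⟨κ, hκ⟩ : ∃ κ : F, κ • a = ω x z • f - ω f z • x := by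
    have e' : a = a1 • f - a2 • x := e
    by_cases h1 : a1 = 0
    · have h2 : a2 ≠ 0 := by
        intro h2
        apply ha0
        rw [e', h1, h2]
        simp
      have h3 : ω x z = 0 := by
        rw [h1, zero_mul] at hz'
        exact (mul_eq_zero.mp hz'.symm).resolve_left h2
      refine ⟨ω f z * a2⁻¹, ?_⟩
      calc (ω f z * a2⁻¹) • a = (ω f z * a2⁻¹) • (a1 • f - a2 • x) := by rw [← e']
        _ = ω x z • f - ω f z • x := by
          rw [h1, h3, zero_smul, zero_sub, zero_sub, smul_neg, smul_smul, mul_assoc,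
            inv_mul_cancel₀ h2, mul_one]
    · refine ⟨ω x z * a1⁻¹, ?_⟩
      calc (ω x z * a1⁻¹) • a = (ω x z * a1⁻¹) • (a1 • f - a2 • x) := by rw [← e']
        _ = ω x z • f - ω f z • x := by
          rw [smul_sub, smul_smul, smul_smul, mul_assoc, inv_mul_cancel₀ h1, mul_one]
          congr 2
          field_simp
          linear_combination -hz'
  have hz2 : z = κ • a + hproj x f z := by
    rw [hκ, hproj]
    abel
  rw [hz2]
  exact h _ (hproj_mem_Vp hf z) κ

lemma case_ii (hq : 3 ≤ Fintype.card F) (hm : 2 ≤ Fintype.card l) {K : Subgroup (Sp l F)}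
    (hK : K ≠ ⊤) {x f : l ⊕ l → F} (hf : ω x f = 1)
    (hS : ∀ y ∈ Vp x f, Sg K y) {g : Sp l F} (hg : g ∈ K) {v : l ⊕ l → F} (hv : v ∈ Vp x f)
    (h1 : g • v ∉ Vp x f) (h2 : hproj x f (g • v) ≠ 0) : Good K := by
  set u := g • v with hu
  set w := hproj x f u with hw
  have hw1 : w ∈ Vp x f := hproj_mem_Vp hf u
  set a := u - w with ha
  have ha0 : a ≠ 0 := by
    intro h0
    apply h1
    have : u = w := sub_eq_zero.mp h0
    rw [this]
    exact hw1
  have ha1 : ∀ y ∈ Vp x f, ω y a = 0 := by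
    intro y hy
    rw [ha, ω_sub_right, hw, ω_of_hproj (ω_comm0 hy.1) (ω_comm0 hy.2), sub_self]
  have h3 : a + w = u := by rw [ha]; abel
  have h4 : Sg K (a + w) := by
    rw [h3, hu]
    exact Sg_smul_g hg (hS v hv)
  exact good_of_perp hK ha0 (perp_Sg hf ha1 ha0 (Sg_a hq hm hf hS ha1 hw1 h2 h4))

lemma hproj_add (x f a b : l ⊕ l → F) : hproj x f (a + b) = hproj x f a + hproj x f b := by
  simp only [hproj, ω_add_right, add_smul]
  abel

/-- Numerics. -/
lemma good_num {K : Subgroup (Sp l F)} (hq : 3 ≤ Fintype.card F) {W R I E c : ℕ} (hc : 0 < c)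
    (hI : I + 1 = Fintype.card F ^ (2 * Fintype.card l)) (hW : W ≤ R) (hO : R * I ≤ E * K.index)
    (hWc : c * (Fintype.card F + 1) ≤ W) (hE : E ≤ c * (Fintype.card F ^ 2 - 1)) : Good K := by
  show _ ≤ _
  rw [← hI, Nat.add_sub_cancel]
  obtain ⟨d, hd⟩ : ∃ d, Fintype.card F = d + 1 := ⟨Fintype.card F - 1, by omega⟩
  rw [hd] at hWc hE ⊢
  simp only [Nat.add_sub_cancel]
  have h1 : (d + 1) ^ 2 - 1 = (d + 2) * d := by
    have : (d + 1) ^ 2 = (d + 2) * d + 1 := by ring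
    omega
  rw [h1] at hE
  have h2 : c * (d + 1 + 1) * I ≤ c * ((d + 2) * d) * K.index := by
    calc c * (d + 1 + 1) * I ≤ W * I := Nat.mul_le_mul_right _ hWc
      _ ≤ R * I := Nat.mul_le_mul_right _ hW
      _ ≤ E * K.index := hO
      _ ≤ _ := Nat.mul_le_mul_right _ hE
  have h3 : 0 < c * (d + 2) := by positivity
  refine Nat.le_of_mul_le_mul_left (c := c * (d + 2)) ?_ h3
  calc c * (d + 2) * I = c * (d + 1 + 1) * I := by ring
    _ ≤ c * ((d + 2) * d) * K.index := h2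
    _ = _ := by ring

/-- The index of `K` in a vector stabiliser is at least that of `K ∩ Q`. -/
lemma relIndex_ge_c2 (K : Subgroup (Sp l F)) (x : l ⊕ l → F) :
    (K.subgroupOf (Q x)).index ≤ K.relIndex (Fx x) := by
  have h := Cfsg.Agent.Lib.PSUIdx.mi_sub (K := K) (hNQ x) (Q_le_Fx x) (fun d => d.2)
  have h2 : 0 < (DD K x).index := Nat.pos_of_ne_zero Subgroup.index_ne_zero_of_finite
  calc _ ≤ (DD K x).index * (K.subgroupOf (Q x)).index := Nat.le_mul_of_pos_left _ h2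
    _ ≤ _ := h

lemma card_AA_le (K : Subgroup (Sp l F)) (x : l ⊕ l → F) : Nat.card (AA K x) ≤ Fintype.card F := by
  rw [← Nat.card_eq_fintype_card]
  exact Nat.card_le_card_of_injective _ Subtype.val_injective

lemma card_Vp_ge {x f : l ⊕ l → F} (hm : 2 ≤ Fintype.card l) (hf : ω x f = 1) :
    Fintype.card F ^ 2 ≤ Nat.card (Vp x f) := by
  have h := card_Vp hf
  have hq : 0 < Fintype.card F ^ 2 := by
    have : 0 < Fintype.card F := Fintype.card_pos
    positivity
  apply Nat.le_of_mul_le_mul_left _ hq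
  rw [h, ← pow_add]
  exact Nat.pow_le_pow_right Fintype.card_pos (by omega)

lemma card_Vp_two {x f : l ⊕ l → F} (hm : Fintype.card l = 2) (hf : ω x f = 1) :
    Nat.card (Vp x f) = Fintype.card F ^ 2 := by
  have h := card_Vp hf
  rw [hm] at h
  have hq : 0 < Fintype.card F ^ 2 := by
    have : 0 < Fintype.card F := Fintype.card_pos
    positivity
  apply Nat.eq_of_mul_eq_mul_left hq
  rw [h, ← pow_add]

/-- `K ∩ Q` small implies the bound on the relative index. -/
lemma relIndex_ge_of_YY {K : Subgroup (Sp l F)} {x f : l ⊕ l → F} (hf : ω x f = 1)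
    (hY : ∀ v ∈ Vp x f, ∀ c, qel x v c ∈ K → v = 0) : Nat.card (Vp x f) ≤ K.relIndex (Fx x) := by
  have h1 := index_formula hf K
  have h2 : Nat.card (YY K x ⊓ (Vp x f).toAddSubgroup : AddSubgroup _) = 1 := by
    rw [Nat.card_eq_one_iff_unique]
    refine ⟨⟨fun a b => Subtype.ext ?_⟩, ⟨0⟩⟩
    have h0 : ∀ c : (YY K x ⊓ (Vp x f).toAddSubgroup : AddSubgroup _), c.1 = 0 := by
      rintro ⟨c, hc1, hc2⟩
      obtain ⟨-, d, hd⟩ := hc1
      exact hY c hc2 d hd
    rw [h0 a, h0 b]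
  rw [h2, one_mul] at h1
  have h3 := card_AA_le K x
  have hq : 0 < Fintype.card F := Fintype.card_pos
  have h4 : Nat.card (Vp x f) ≤ (K.subgroupOf (Q x)).index := by
    apply Nat.le_of_mul_le_mul_right _ hq
    rw [← h1]
    exact Nat.mul_le_mul_left _ h3
  exact le_trans h4 (relIndex_ge_c2 K x)

lemma coords_inj {x f a b : l ⊕ l → F} (ha : hproj x f a = 0) (hb : hproj x f b = 0)
    (h1 : ω x a = ω x b) (h2 : ω f a = ω f b) : a = b := by
  rw [eq_of_hproj0 ha, eq_of_hproj0 hb, h1, h2]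

lemma ω_f_x {x f : l ⊕ l → F} (hf : ω x f = 1) : ω f x = -1 := by
  rw [ω_comm, hf]

lemma hproj_x {x f : l ⊕ l → F} (hf : ω x f = 1) : hproj x f x = 0 := by
  rw [hproj, ω_self, ω_f_x hf]
  simp

lemma hproj_f {x f : l ⊕ l → F} (hf : ω x f = 1) : hproj x f f = 0 := by
  rw [hproj, ω_self, hf]
  simp

lemma card_FF : Nat.card (F × F) = Fintype.card F ^ 2 := by
  rw [Nat.card_prod, Nat.card_eq_fintype_card, pow_two]

/-- The set of non-zero vectors of `⟨x,f⟩`. -/
lemma card_E0_le {x f : l ⊕ l → F} (E : Set (l ⊕ l → F))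
    (hE : ∀ z ∈ E, z ≠ 0 ∧ hproj x f z = 0) : Nat.card E ≤ Fintype.card F ^ 2 - 1 := by
  classical
  have h1 : Nat.card E ≤ Nat.card {p : F × F // p ≠ 0} := by
    refine Nat.card_le_card_of_injective (fun z => ⟨(ω x z.1, ω f z.1), ?_⟩) ?_
    · intro h
      have h2 : ω x z.1 = 0 := congrArg Prod.fst h
      have h3 : ω f z.1 = 0 := congrArg Prod.snd h
      apply (hE z.1 z.2).1
      rw [eq_of_hproj0 (hE z.1 z.2).2, h2, h3]
      simp
    · rintro ⟨a, ha⟩ ⟨b, hb⟩ h
      have h2 : ω x a = ω x b := congrArg (fun p : {p : F × F // p ≠ 0} => p.1.1) h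
      have h3 : ω f a = ω f b := congrArg (fun p : {p : F × F // p ≠ 0} => p.1.2) h
      exact Subtype.ext (coords_inj (hE a ha).2 (hE b hb).2 h2 h3)
  have h2 : Nat.card {p : F × F // p ≠ 0} = Fintype.card F ^ 2 - 1 := by
    rw [Nat.card_eq_fintype_card]
    have h3 := Fintype.card_subtype_compl (fun p : F × F => p = 0)
    have h4 : Fintype.card {p : F × F // p = 0} = 1 := by simp
    rw [h4, Fintype.card_prod] at h3
    rw [pow_two, ← h3]
  omega

lemma card_E1_le {x f : l ⊕ l → F} (E : Set (l ⊕ l → F))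
    (hE : ∀ z ∈ E, z ≠ 0 ∧ z ∈ Vp x f) : Nat.card E + 1 ≤ Nat.card (Vp x f) := by
  classical
  have h1 : Nat.card (Option E) ≤ Nat.card (Vp x f) := by
    refine Nat.card_le_card_of_injective
      (fun o => match o with
        | none => ⟨0, Submodule.zero_mem _⟩
        | some z => ⟨z.1, (hE z.1 z.2).2⟩) ?_
    rintro (_ | ⟨a, ha⟩) (_ | ⟨b, hb⟩) h
    · rfl
    · exact absurd (congrArg Subtype.val h).symm (hE b hb).1
    · exact absurd (congrArg Subtype.val h) (hE a ha).1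
    · have : a = b := congrArg Subtype.val h
      subst this
      rfl
  rw [Finite.card_option] at h1
  exact h1

/-- The case when `K` preserves the decomposition. -/
lemma case_i (hq : 3 ≤ Fintype.card F) (hm : 2 ≤ Fintype.card l) {K : Subgroup (Sp l F)}
    {x f : l ⊕ l → F} (hf : ω x f = 1)
    (hi : ∀ g ∈ K, ∀ v ∈ Vp x f, g • v ∈ Vp x f ∨ hproj x f (g • v) = 0) : Good K := by
  classical
  have hx : x ≠ 0 := by
    rintro rfl
    rw [ω_zero_left] at hf
    exact zero_ne_one hf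
  have hfx := ω_f_x hf
  -- `K ∩ Q` is small
  have hY : ∀ v ∈ Vp x f, ∀ c, qel x v c ∈ K → v = 0 := by
    intro v hv c hc
    by_contra hv0
    obtain ⟨y', hy', h1⟩ := exists_Vp_ne hf hv hv0 1
    have h2 : ω v y' = -1 := by rw [ω_comm, h1]
    have h3 := qel_smul_perp hv.1 c hy'.1
    rw [h2] at h3
    rcases hi _ hc y' hy' with h4 | h4
    · have h5 := h4.2
      rw [h3, ω_add_right, ω_smul_right, hy'.2, hfx] at h5
      simp at h5
    · rw [h3, hproj] at h4
      simp only [ω_add_right, ω_smul_right, hy'.1, hy'.2, ω_self, hfx] at h4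
      apply (show y' ≠ 0 by
        rintro rfl
        rw [ω_zero_left] at h1
        exact zero_ne_one h1)
      have : y' = y' + (-1 : F) • x - (0 + -1 * 0 : F) • f + (0 + -1 * -1 : F) • x := by
        simp
      rw [this, h4]
  have hR := relIndex_ge_of_YY hf hY
  have hI := index_Fx hx
  have hcases : ∀ g ∈ K, (∀ v ∈ Vp x f, g • v ∈ Vp x f) ∨ (∀ v ∈ Vp x f, hproj x f (g • v) = 0) := by
    intro g hg
    by_contra hc
    push Not at hc
    obtain ⟨⟨v1, hv1, hv1'⟩, ⟨v2, hv2, hv2'⟩⟩ := hc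
    have h1 := (hi g hg v1 hv1).resolve_left hv1'
    have h2 := (hi g hg v2 hv2).resolve_right hv2'
    rcases hi g hg (v1 + v2) (Submodule.add_mem _ hv1 hv2) with h3 | h3
    · rw [smul_add] at h3
      apply hv1'
      have := Submodule.sub_mem _ h3 h2
      simpa using this
    · rw [smul_add, hproj_add, h1, zero_add] at h3
      exact hv2' h3
  -- the case of elements preserving `Vp`
  have hα : ∀ g : Sp l F, (∀ v ∈ Vp x f, g • v ∈ Vp x f) → hproj x f (g • x) = 0 := by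
    intro g hg
    apply hproj0_of_perp hf
    intro y hy
    let φ : Vp x f → Vp x f := fun v => ⟨g • v.1, hg v.1 v.2⟩
    have hφ : Function.Injective φ := by
      intro a b h
      have : g • a.1 = g • b.1 := congrArg Subtype.val h
      exact Subtype.ext (smul_left_cancel g this)
    obtain ⟨v, hv⟩ := (Finite.injective_iff_surjective.mp hφ) ⟨y, hy⟩
    have e : g • v.1 = y := congrArg Subtype.val hv
    rw [← e, ω_smul_smul, ω_comm0 v.2.1]
  have hβ : ∀ g : Sp l F, (∀ v ∈ Vp x f, hproj x f (g • v) = 0) →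
      Fintype.card l = 2 ∧ g • x ∈ Vp x f := by
    intro g hg
    let φ : Vp x f → F × F := fun v => (ω x (g • v.1), ω f (g • v.1))
    have hφ : Function.Injective φ := by
      intro a b h
      have h1 : ω x (g • a.1) = ω x (g • b.1) := congrArg Prod.fst h
      have h2 : ω f (g • a.1) = ω f (g • b.1) := congrArg Prod.snd h
      exact Subtype.ext (smul_left_cancel g (coords_inj (hg _ a.2) (hg _ b.2) h1 h2))
    have hc : Nat.card (Vp x f) ≤ Fintype.card F ^ 2 := by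
      have := Nat.card_le_card_of_injective φ hφ
      rwa [card_FF] at this
    have hm2 : Fintype.card l = 2 := by
      have h1 := card_Vp hf
      have h2 : Fintype.card F ^ (2 * Fintype.card l) ≤ Fintype.card F ^ (2 + 2) := by
        rw [← h1, pow_add]
        exact Nat.mul_le_mul_left _ hc
      have h3 := (Nat.pow_le_pow_iff_right (by omega)).mp h2
      omega
    refine ⟨hm2, ?_⟩
    have hbij : Function.Bijective φ := hφ.bijective_of_nat_card_le (by
      rw [card_FF, card_Vp_two hm2 hf])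
    obtain ⟨v1, hv1⟩ := hbij.2 (ω x x, ω f x)
    obtain ⟨v2, hv2⟩ := hbij.2 (ω x f, ω f f)
    have e1 : g • v1.1 = x := coords_inj (hg _ v1.2) (hproj_x hf)
      (congrArg Prod.fst hv1) (congrArg Prod.snd hv1)
    have e2 : g • v2.1 = f := coords_inj (hg _ v2.2) (hproj_f hf)
      (congrArg Prod.fst hv2) (congrArg Prod.snd hv2)
    constructor
    · calc ω x (g • x) = ω (g • v1.1) (g • x) := by rw [e1]
        _ = ω v1.1 x := ω_smul_smul _ _ _
        _ = 0 := ω_comm0 v1.2.1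
    · calc ω f (g • x) = ω (g • v2.1) (g • x) := by rw [e2]
        _ = ω v2.1 x := ω_smul_smul _ _ _
        _ = 0 := ω_comm0 v2.2.1
  have hne : ∀ g : Sp l F, g • x ≠ 0 := by
    intro g h
    apply hx
    have : g⁻¹ • (g • x) = g⁻¹ • (0 : l ⊕ l → F) := congrArg _ h
    simpa using this
  have hVq := card_Vp_ge (F := F) hm hf
  have h0q : Fintype.card F + 1 ≤ Fintype.card F ^ 2 := by nlinarith
  by_cases hm2 : Fintype.card l = 2
  · let E0 : Set (l ⊕ l → F) := {z | z ≠ 0 ∧ hproj x f z = 0}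
    let E1 : Set (l ⊕ l → F) := {z | z ≠ 0 ∧ z ∈ Vp x f}
    have hE : ∀ g ∈ K, g • x ∈ E0 ∪ E1 := by
      intro g hg
      rcases hcases g hg with h1 | h1
      · exact Or.inl ⟨hne g, hα g h1⟩
      · exact Or.inr ⟨hne g, (hβ g h1).2⟩
    have h1 : Nat.card (E0 ∪ E1 : Set (l ⊕ l → F)) ≤ Nat.card E0 + Nat.card E1 := by
      simp only [Nat.card_coe_set_eq]
      exact Set.ncard_union_le _ _
    have h2 := card_E0_le (x := x) (f := f) E0 (fun z hz => hz)
    have h3 := card_E1_le (x := x) (f := f) E1 (fun z hz => hz)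
    rw [card_Vp_two hm2 hf] at h3
    refine good_num (c := 2) hq (by norm_num) hI hR (orbit_count K _ hE) ?_ ?_
    · rw [card_Vp_two hm2 hf]
      nlinarith
    · omega
  · let E0 : Set (l ⊕ l → F) := {z | z ≠ 0 ∧ hproj x f z = 0}
    have hE : ∀ g ∈ K, g • x ∈ E0 := by
      intro g hg
      rcases hcases g hg with h1 | h1
      · exact ⟨hne g, hα g h1⟩
      · exact absurd (hβ g h1).1 hm2
    have h2 := card_E0_le (x := x) (f := f) E0 (fun z hz => hz)
    refine good_num (c := 1) hq (by norm_num) hI hR (orbit_count K _ hE) ?_ ?_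
    · omega
    · omega

/-- The main lemma: if all transvections with centres in `Vp` lie in a proper subgroup `K`, the
inequality holds. -/
theorem lemmaC' (hq : 3 ≤ Fintype.card F) (hm : 2 ≤ Fintype.card l) {K : Subgroup (Sp l F)}
    (hK : K ≠ ⊤) {x f : l ⊕ l → F} (hf : ω x f = 1) (hS : ∀ y ∈ Vp x f, Sg K y) : Good K := by
  by_cases hi : ∀ g ∈ K, ∀ v ∈ Vp x f, g • v ∈ Vp x f ∨ hproj x f (g • v) = 0
  · exact case_i hq hm hf hi
  · push Not at hi
    obtain ⟨g, hg, v, hv, h1, h2⟩ := hi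
    exact case_ii hq hm hK hf hS hg hv h1 h2

lemma Vp_two_span (hm2 : Fintype.card l = 2) {x f y y' : l ⊕ l → F} (hf : ω x f = 1)
    (hy : y ∈ Vp x f) (hy' : y' ∈ Vp x f) (h : ω y y' ≠ 0) :
    ∀ z ∈ Vp x f, ∃ α β : F, z = α • y + β • y' := by
  classical
  let φ : F × F → Vp x f := fun p => ⟨p.1 • y + p.2 • y', Submodule.add_mem _
    (Submodule.smul_mem _ _ hy) (Submodule.smul_mem _ _ hy')⟩
  have h' : ω y' y ≠ 0 := by
    rw [ω_comm]
    simpa using h
  have hφ : Function.Injective φ := by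
    rintro ⟨a, b⟩ ⟨a', b'⟩ e
    have e0 : a • y + b • y' = a' • y + b' • y' := congrArg Subtype.val e
    have e1 := congrArg (ω y) e0
    have e2 := congrArg (ω y') e0
    simp only [ω_add_right, ω_smul_right, ω_self, mul_zero, zero_add, add_zero] at e1 e2
    have e3 : b = b' := mul_right_cancel₀ h e1
    have e4 : a = a' := mul_right_cancel₀ h' e2
    rw [e3, e4]
  have hbij : Function.Bijective φ := hφ.bijective_of_nat_card_le (by
    rw [card_FF, card_Vp_two hm2 hf])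
  intro z hz
  obtain ⟨⟨a, b⟩, hab⟩ := hbij.2 ⟨z, hz⟩
  exact ⟨a, b, (congrArg Subtype.val hab).symm⟩

lemma card_E1_le' {S : Submodule F (l ⊕ l → F)} (E : Set (l ⊕ l → F))
    (hE : ∀ z ∈ E, z ≠ 0 ∧ z ∈ S) : Nat.card E + 1 ≤ Nat.card S := by
  classical
  have h1 : Nat.card (Option E) ≤ Nat.card S := by
    refine Nat.card_le_card_of_injective
      (fun o => match o with
        | none => ⟨0, Submodule.zero_mem _⟩
        | some z => ⟨z.1, (hE z.1 z.2).2⟩) ?_
    rintro (_ | ⟨a, ha⟩) (_ | ⟨b, hb⟩) h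
    · rfl
    · exact absurd (congrArg Subtype.val h).symm (hE b hb).1
    · exact absurd (congrArg Subtype.val h) (hE a ha).1
    · have : a = b := congrArg Subtype.val h
      subst this
      rfl
  rw [Finite.card_option] at h1
  exact h1

/-- For `Sp_4`: one full root group in a proper subgroup `K` is enough. -/
theorem lemmaC (hq : 3 ≤ Fintype.card F) (hm2 : Fintype.card l = 2) {K : Subgroup (Sp l F)}
    (hK : K ≠ ⊤) {a : l ⊕ l → F} (ha : a ≠ 0) (hSa : Sg K a) : Good K := by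
  classical
  by_cases h1 : ∃ p r, Sg K p ∧ Sg K r ∧ ω p r ≠ 0
  · obtain ⟨p, r, hp, hr, hpr⟩ := h1
    set r' := (ω p r)⁻¹ • r with hr'
    have hpr' : ω p r' = 1 := by
      rw [hr', ω_smul_right, inv_mul_cancel₀ hpr]
    have hSr' : Sg K r' := Sg_scale _ hr
    obtain ⟨x', hx', hx'0⟩ := exists_Vp_ne_zero (F := F) (l := l) (by omega) p r'
    obtain ⟨f0, hf0, hf01⟩ := exists_Vp_ne hpr' hx' hx'0 (-1)
    have hxf : ω x' f0 = 1 := by rw [ω_comm, hf01]; ring
    have hp' : p ∈ Vp x' f0 := ⟨ω_comm0 hx'.1, ω_comm0 hf0.1⟩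
    have hr'' : r' ∈ Vp x' f0 := ⟨ω_comm0 hx'.2, ω_comm0 hf0.2⟩
    have hrp : ω r' p ≠ 0 := by
      rw [ω_comm, hpr']
      simp
    refine lemmaC' hq (by omega) hK hxf (fun y hy => ?_)
    obtain ⟨α, β, rfl⟩ := Vp_two_span hm2 hxf hp' hr'' (by rw [hpr']; exact one_ne_zero) y hy
    by_cases hα : α = 0
    · subst hα
      rw [zero_smul, zero_add]
      exact Sg_scale β hSr'
    · have h2 := Sg_scale α (Sg_close hp hSr' hrp (α⁻¹ * β))
      rwa [smul_add, smul_smul, ← mul_assoc, mul_inv_cancel₀ hα, one_mul] at h2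
  push Not at h1
  by_cases h2 : ∀ y, Sg K y → ∃ c : F, y = c • a
  · exact good_of_Pt ha (fun g hg => h2 _ (Sg_smul_g hg hSa))
  push Not at h2
  obtain ⟨b, hSb, hb⟩ := h2
  have hab : ω a b = 0 := h1 a b hSa hSb
  obtain ⟨f, hf⟩ := exists_f ha
  let L : Submodule F (l ⊕ l → F) := Submodule.span F {a, b}
  have hmemL : ∀ z, z ∈ L ↔ ∃ α β : F, α • a + β • b = z := fun z => Submodule.mem_span_pair
  obtain ⟨b0, κ0, hb0, hb0e⟩ := exists_decomp hf hab
  have hb00 : b0 ≠ 0 := by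
    rintro rfl
    apply hb κ0
    rw [hb0e, zero_add]
  obtain ⟨b1, hb1, hb11⟩ := exists_Vp_ne hf hb0 hb00 (-1)
  have hb01 : ω b0 b1 = 1 := by rw [ω_comm, hb11]; ring
  have hL : ∀ y, Sg K y → y ∈ L := by
    intro y hy
    have hay : ω a y = 0 := h1 a y hSa hy
    have hby : ω b y = 0 := h1 b y hSb hy
    obtain ⟨v, κ, hv, rfl⟩ := exists_decomp hf hay
    obtain ⟨α, β, rfl⟩ := Vp_two_span hm2 hf hb0 hb1 (by rw [hb01]; exact one_ne_zero) v hv
    have h3 : β = 0 := by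
      have h4 := hby
      rw [hb0e] at h4
      simp only [ω_add_left, ω_add_right, ω_smul_left, ω_smul_right, ω_self, hb01, hb0.1, hb1.1,
        ω_comm0 hb0.1, mul_zero, add_zero, zero_add, mul_one] at h4
      exact h4
    subst h3
    rw [hmemL]
    refine ⟨κ - α * κ0, α, ?_⟩
    rw [hb0e, zero_smul, add_zero, smul_add, smul_smul, sub_smul]
    abel
  have hLg : ∀ g ∈ K, ∀ s ∈ L, g • s ∈ L := by
    intro g hg s hs
    obtain ⟨α, β, rfl⟩ := (hmemL s).mp hs
    rw [smul_add, smul_comm, smul_comm g β]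
    exact Submodule.add_mem _ (Submodule.smul_mem _ _ (hL _ (Sg_smul_g hg hSa)))
      (Submodule.smul_mem _ _ (hL _ (Sg_smul_g hg hSb)))
  have haL : a ∈ L := (hmemL a).mpr ⟨1, 0, by simp⟩
  have hbL : b ∈ L := (hmemL b).mpr ⟨0, 1, by simp⟩
  have hLp : L.toAddSubgroup ≤ XP a := by
    intro s hs
    obtain ⟨α, β, rfl⟩ := (hmemL s).mp hs
    show ω a (α • a + β • b) = 0
    rw [ω_add_right, ω_smul_right, ω_smul_right, ω_self, hab]
    ring
  have h3 := orbit_bound hf hab hb (K.subgroupOf (Fx a)) L.toAddSubgroup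
    (fun c => Submodule.smul_mem _ _ haL) hLp (fun d hd s hs => hLg d.1 hd s hs) hbL
  have h4 : 0 < (K.subgroupOf (Fx a)).relIndex (MulAction.stabilizer (Fx a) b) := relIndex_pos _ _
  have h5 : Nat.card L ≤ Fintype.card F ^ 2 := by
    have : Nat.card L ≤ Nat.card (F × F) := by
      refine Nat.card_le_card_of_surjective
        (fun p : F × F => (⟨p.1 • a + p.2 • b, (hmemL _).mpr ⟨_, _, rfl⟩⟩ : L)) ?_
      rintro ⟨s, hs⟩
      obtain ⟨α, β, rfl⟩ := (hmemL s).mp hs
      exact ⟨(α, β), rfl⟩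
    rwa [card_FF] at this
  have h6 : Nat.card L.toAddSubgroup = Nat.card L := rfl
  rw [h6, card_XP hf, card_Vp_two hm2 hf] at h3
  have hR : Fintype.card F + 1 ≤ K.relIndex (Fx a) := by
    have h7 : (Fintype.card F + 1) * (Fintype.card F ^ 2 - Fintype.card F) ≤
        (K.subgroupOf (Fx a)).index * (Fintype.card F ^ 2 - Fintype.card F) := by
      have h8 : (Fintype.card F + 1) * (Fintype.card F ^ 2 - Fintype.card F) =
          Fintype.card F * Fintype.card F ^ 2 - Fintype.card F := by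
        obtain ⟨d, hd⟩ : ∃ d, Fintype.card F = d + 1 := ⟨Fintype.card F - 1, by omega⟩
        rw [hd]
        have e1 : (d + 1) ^ 2 - (d + 1) = (d + 1) * d := by
          have : (d + 1) ^ 2 = (d + 1) * d + (d + 1) := by ring
          omega
        have e2 : (d + 1) * (d + 1) ^ 2 - (d + 1) = (d + 1 + 1) * ((d + 1) * d) := by
          have : (d + 1) * (d + 1) ^ 2 = (d + 1 + 1) * ((d + 1) * d) + (d + 1) := by ring
          omega
        rw [e1, e2]
      rw [h8]
      calc _ ≤ (K.subgroupOf (Fx a)).relIndex (MulAction.stabilizer (Fx a) b) *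
            (Fintype.card F * Fintype.card F ^ 2 - Fintype.card F) := Nat.le_mul_of_pos_left _ h4
        _ ≤ _ := h3
        _ ≤ _ := Nat.mul_le_mul_left _ (Nat.sub_le_sub_right h5 _)
    have h9 : 0 < Fintype.card F ^ 2 - Fintype.card F := by
      have : Fintype.card F + 1 ≤ Fintype.card F ^ 2 := by nlinarith
      omega
    exact Nat.le_of_mul_le_mul_right h7 h9
  let E : Set (l ⊕ l → F) := {z | z ≠ 0 ∧ z ∈ L}
  have hE : ∀ g ∈ K, g • a ∈ E := by
    intro g hg
    refine ⟨?_, hLg g hg a haL⟩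
    intro h
    apply ha
    have : g⁻¹ • (g • a) = g⁻¹ • (0 : l ⊕ l → F) := congrArg _ h
    simpa using this
  have h7 := card_E1_le' (S := L) E (fun z hz => hz)
  refine good_num (c := 1) hq (by norm_num) (index_Fx ha) hR (orbit_count K _ hE) (by omega) ?_
  omega

end Cfsg.Agent.Lib.SpIdx
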