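import Mathlib
import Cfsg.Agent.Lib.SpIdxJ

/-!
# Even characteristic: lifting all of `x^⊥` for all `x` is impossible
-/

set_option autoImplicit false
set_option linter.unusedSectionVars false
set_option linter.unusedVariables false

namespace Cfsg.Agent.Lib.SpIdx

open Matrix Cfsg.Agent.Lib.SpBasic
open scoped MatrixGroups

variable {l F : Type*} [Fintype l] [DecidableEq l] [Field F] [Fintype F]

lemma sq_surj (h2 : (2 : F) = 0) (t : F) : ∃ β : F, β ^ 2 = t := by
  have hinj : Function.Injective (fun β : F => β ^ 2) := by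
    intro a b h
    have h1 : (a - b) ^ 2 = 0 := by
      have h3 : (a - b) ^ 2 = a ^ 2 + b ^ 2 - 2 * (a * b) := by ring
      have h4 : a ^ 2 = b ^ 2 := h
      rw [h3, h2, h4, zero_mul, sub_zero, ← two_mul, h2, zero_mul]
    have h3 := pow_eq_zero_iff (two_ne_zero) |>.mp h1
    exact sub_eq_zero.mp h3
  exact (Finite.injective_iff_surjective.mp hinj) t

/-- Conjugating an element of `Q_p` by an element acting as a transvection on `p^⊥/p`. -/
lemma claim1 (h2 : (2 : F) = 0) {K : Subgroup (Sp l F)} {p y v : l ⊕ l → F} {g : Sp l F} {d c : F}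
    (hg : g ∈ K) (hgp : g • p = p) (hpy : ω p y = 0) (hpv : ω p v = 0)
    (hgv : ∃ lam : F, g • v = v + (d * ω y v) • y + lam • p) (hc : qel p v c ∈ K) :
    qel p ((d * ω y v) • y) (d * (ω y v) ^ 2) ∈ K := by
  obtain ⟨lam, hlam⟩ := hgv
  have h1 := K.mul_mem (K.mul_mem hg hc) (K.inv_mem hg)
  set s := (d * ω y v) • y with hs
  have hps : ω p s = 0 := by rw [hs, ω_smul_right, hpy, mul_zero]
  have hpvs : ω p (v + s) = 0 := by rw [ω_add_right, hpv, hps, add_zero]
  rw [qel_conj g hpv c, hgp, hlam, qel_add_self hpvs, h2, zero_mul, add_zero] at h1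
  have h3 := K.mul_mem (K.inv_mem hc) h1
  rw [qel_inv hpv, qel_mul (by rw [ω_neg_right, hpv, neg_zero]) hpvs] at h3
  have e1 : -v + (v + s) = s := by abel
  have e2 : -c + c + ω (-v) (v + s) = d * (ω y v) ^ 2 := by
    rw [ω_neg_left, ω_add_right, ω_self, zero_add, hs, ω_smul_right, ω_comm v y]
    ring
  rw [e1, e2] at h3
  exact h3

/-- Two transvection parameters on `p^⊥/p` cannot be different and non-zero. -/
lemma transv_unique (h2 : (2 : F) = 0) {K : Subgroup (Sp l F)} {p y : l ⊕ l → F} (hp : p ≠ 0)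
    (hL : ¬ Sg K p) (hB : ∀ v, ω p v = 0 → ∃ c, qel p v c ∈ K) (hpy : ω p y = 0)
    (hy : ∀ a : F, y ≠ a • p) {g g' : Sp l F} {d d' : F} (hg : g ∈ K) (hg' : g' ∈ K)
    (hgp : g • p = p) (hgp' : g' • p = p)
    (hgv : ∀ v, ω p v = 0 → ∃ lam : F, g • v = v + (d * ω y v) • y + lam • p)
    (hgv' : ∀ v, ω p v = 0 → ∃ lam : F, g' • v = v + (d' * ω y v) • y + lam • p)
    (hd : d ≠ 0) (hd' : d' ≠ 0) : d = d' := by
  by_contra hne
  apply hL
  intro c
  obtain ⟨z, hz1, hz2⟩ := exists_perp_ne hp hy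
  have hβ : ∀ β : F, ∃ v, ω p v = 0 ∧ ω y v = β := by
    intro β
    refine ⟨(β * (ω y z)⁻¹) • z, by rw [ω_smul_right, hz1, mul_zero], ?_⟩
    rw [ω_smul_right, mul_assoc, inv_mul_cancel₀ hz2, mul_one]
  have hdd : d' - d ≠ 0 := sub_ne_zero.mpr (Ne.symm hne)
  obtain ⟨β, hβ2⟩ := sq_surj h2 (c * d' * (d * (d' - d))⁻¹)
  set β' := d * β * d'⁻¹ with hβ'
  obtain ⟨v, hv1, hv2⟩ := hβ β
  obtain ⟨v', hv1', hv2'⟩ := hβ β'
  obtain ⟨c1, hc1⟩ := hB v hv1
  obtain ⟨c2, hc2⟩ := hB v' hv1'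
  have h3 := claim1 h2 hg hgp hpy hv1 (hgv v hv1) hc1
  have h4 := claim1 h2 hg' hgp' hpy hv1' (hgv' v' hv1') hc2
  rw [hv2] at h3
  rw [hv2'] at h4
  have e1 : d' * β' = d * β := by
    rw [hβ']
    field_simp
  rw [e1] at h4
  have hs : ω p ((d * β) • y) = 0 := by rw [ω_smul_right, hpy, mul_zero]
  have h5 := K.mul_mem h3 (K.inv_mem h4)
  rw [qel_inv hs, qel_mul hs (by rw [ω_neg_right, hs, neg_zero]), add_neg_cancel, ω_neg_right,
    ω_self, neg_zero, add_zero, qel_zero] at h5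
  have e2 : d * β ^ 2 + -(d' * β' ^ 2) = c := by
    rw [hβ']
    have : d * β ^ 2 + -(d' * (d * β * d'⁻¹) ^ 2) = d * β ^ 2 * (d' - d) * d'⁻¹ := by
      field_simp
      ring
    rw [this, hβ2]
    field_simp
  rwa [e2] at h5

lemma exists_two_nonzero (hq : 3 ≤ Fintype.card F) : ∃ a b : F, a ≠ 0 ∧ b ≠ 0 ∧ a ≠ b := by
  obtain ⟨κ, h0, h1⟩ := exists_ne_zero_one hq
  exact ⟨κ, 1, h0, one_ne_zero, h1⟩

/-- Closure of the set of vectors outside `Σ` under orthogonality. -/
lemma Lam_perp (h2 : (2 : F) = 0) (hq : 3 ≤ Fintype.card F) {K : Subgroup (Sp l F)}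
    {p y : l ⊕ l → F} (hp : p ≠ 0) (hL : ¬ Sg K p) (hB : ∀ v, ω p v = 0 → ∃ c, qel p v c ∈ K)
    (hpy : ω p y = 0) (hy0 : y ≠ 0) : ¬ Sg K y := by
  intro hS
  by_cases hy : ∀ a : F, y ≠ a • p
  · obtain ⟨a, b, ha, hb, hab⟩ := exists_two_nonzero hq
    have hgp : ∀ α : F, T y α • p = p := fun α => T_smul_x_of_perp (ω_comm0 hpy) α
    have hgv : ∀ α : F, ∀ v, ω p v = 0 →
        ∃ lam : F, T y α • v = v + (α * ω y v) • y + lam • p := by
      intro α v _
      exact ⟨0, by rw [T_smul]; simp⟩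
    exact hab (transv_unique h2 hp hL hB hpy hy (hS a) (hS b) (hgp a) (hgp b) (hgv a) (hgv b) ha hb)
  · push Not at hy
    obtain ⟨a, rfl⟩ := hy
    have ha : a ≠ 0 := by
      rintro rfl
      exact hy0 (zero_smul _ _)
    apply hL
    intro γ
    have := hS (γ * (a ^ 2)⁻¹)
    rw [T_smul_vec] at this
    have e : a ^ 2 * (γ * (a ^ 2)⁻¹) = γ := by
      field_simp
    rwa [e] at this

/-- The even characteristic impossibility. -/
theorem caseB (h2 : (2 : F) = 0) (hq : 3 ≤ Fintype.card F) (hm : 2 ≤ Fintype.card l)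
    {K : Subgroup (Sp l F)} (hK : K ≠ ⊤)
    (hB : ∀ x : l ⊕ l → F, x ≠ 0 → ¬ Sg K x → ∀ v, ω x v = 0 → ∃ c, qel x v c ∈ K) : False := by
  classical
  obtain ⟨x0, c0, hx0, hc0⟩ := exists_T_not_mem hK
  have hx0L : ¬ Sg K x0 := fun h => hc0 (h c0)
  -- all vectors are in the complement of `Σ`
  have hall : ∀ z : l ⊕ l → F, z ≠ 0 → ¬ Sg K z := by
    intro z hz
    obtain ⟨w, hw0, hw⟩ := exists_perp_ne_zero (F := F) (k := 2) (by omega) ![x0, z]
    have h1 : ω x0 w = 0 := hw 0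
    have h3 : ω z w = 0 := hw 1
    have hwL := Lam_perp h2 hq hx0 hx0L (hB x0 hx0 hx0L) h1 hw0
    exact Lam_perp h2 hq hw0 hwL (hB w hw0 hwL) (ω_comm0 h3) hz
  have hB' : ∀ x : l ⊕ l → F, x ≠ 0 → ∀ v, ω x v = 0 → ∃ c, qel x v c ∈ K :=
    fun x hx => hB x hx (hall x hx)
  -- the key statement
  have hkey : ∀ x f y : l ⊕ l → F, ω x f = 1 → y ∈ Vp x f → y ≠ 0 → ∀ b : F,
      qel x (b • y) 0 ∈ K := by
    intro x f y hf hy hy0 b
    have hx : x ≠ 0 := by
      rintro rfl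
      rw [ω_zero_left] at hf
      exact zero_ne_one hf
    have hxy : ω x y = 0 := hy.1
    have hyx : ω y x = 0 := ω_comm0 hxy
    obtain ⟨a0, ha0⟩ := hB' x hx (b • y) (by rw [ω_smul_right, hxy, mul_zero])
    obtain ⟨d0, hd0⟩ := hB' y hy0 (b • x) (by rw [ω_smul_right, hyx, mul_zero])
    have hsw : ∀ a : F, qel y (b • x) 0 = qel x (b • y) 0 := by
      intro _
      apply Sp_ext
      intro z
      rw [qel_smul (by rw [ω_smul_right, hyx, mul_zero]),
        qel_smul (by rw [ω_smul_right, hxy, mul_zero])]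
      simp only [ω_smul_left, smul_smul, zero_mul, zero_smul, add_zero]
      ext i
      simp only [Pi.add_apply, Pi.smul_apply, smul_eq_mul]
      ring
    by_cases hA0 : a0 = 0
    · rwa [hA0] at ha0
    by_cases hD0 : d0 = 0
    · rw [hD0] at hd0
      rwa [hsw 0] at hd0
    exfalso
    -- choose `μ`
    obtain ⟨t, ht0, ht1⟩ : ∃ t : F, t ≠ 0 ∧ t ≠ d0 * a0⁻¹ := by
      obtain ⟨a, b', ha, hb, hab⟩ := exists_two_nonzero hq
      by_cases h3 : a = d0 * a0⁻¹
      · exact ⟨b', hb, fun h => hab (h3.trans h.symm)⟩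
      · exact ⟨a, ha, h3⟩
    obtain ⟨μ, hμ⟩ := sq_surj h2 t
    set p := x + μ • y with hp
    have hpf : ω p f = 1 := by
      rw [hp, ω_add_left, ω_smul_left, hf, ω_comm y f, hy.2]
      ring
    have hp0 : p ≠ 0 := by
      intro h
      rw [h, ω_zero_left] at hpf
      exact zero_ne_one hpf
    have hpy : ω p y = 0 := by
      rw [hp, ω_add_left, ω_smul_left, ω_self, hxy]
      ring
    have hy' : ∀ a : F, y ≠ a • p := by
      intro a ha
      have h3 := congrArg (fun t => ω t f) ha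
      simp only [ω_smul_left, hpf, mul_one] at h3
      rw [ω_comm y f, hy.2, neg_zero] at h3
      apply hy0
      rw [ha, ← h3, zero_smul]
    have hneg : ∀ a : F, -a = a := by
      intro a
      have : a + a = 0 := by rw [← two_mul, h2, zero_mul]
      linear_combination (-1 : F) * this
    have hxv : ∀ v, ω p v = 0 → ω x v = μ * ω y v := by
      intro v hv
      rw [hp, ω_add_left, ω_smul_left] at hv
      have h3 : ω x v = -(μ * ω y v) := by linear_combination hv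
      rw [h3, hneg]
    have hs1 : ω x (b • y) = 0 := by rw [ω_smul_right, hxy, mul_zero]
    have hs2 : ω y (b • x) = 0 := by rw [ω_smul_right, hyx, mul_zero]
    have hgp1 : qel x (b • y) a0 • p = p := by
      rw [hp, smul_add, smul_comm, qel_smul_x hs1, qel_smul_perp hs1 a0 hxy, ω_smul_left, ω_self]
      simp
    have hgp2 : qel y (b • x) d0 • p = p := by
      rw [hp, smul_add, smul_comm, qel_smul_x hs2, qel_smul_perp hs2 d0 hyx, ω_smul_left, ω_self]
      simp
    have hgv1 : ∀ v, ω p v = 0 → ∃ lam : F,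
        qel x (b • y) a0 • v = v + ((a0 * t) * ω y v) • y + lam • p := by
      intro v hv
      refine ⟨(b + a0 * μ) * ω y v, ?_⟩
      rw [qel_smul hs1, hxv v hv, ω_smul_left, hp, smul_add, smul_smul]
      have e : ∀ a : F, a + a = 0 := fun a => by rw [← two_mul, h2, zero_mul]
      ext i
      simp only [Pi.add_apply, Pi.smul_apply, smul_eq_mul]
      rw [← hμ]
      have e3 := e (a0 * μ ^ 2 * ω y v * y i)
      linear_combination (-1 : F) * e3
    have hgv2 : ∀ v, ω p v = 0 → ∃ lam : F,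
        qel y (b • x) d0 • v = v + (d0 * ω y v) • y + lam • p := by
      intro v hv
      refine ⟨b * ω y v, ?_⟩
      rw [qel_smul hs2, ω_smul_left, hxv v hv, hp, smul_add, smul_smul]
      ext i
      simp only [Pi.add_apply, Pi.smul_apply, smul_eq_mul]
      ring
    have hd1 : a0 * t ≠ 0 := mul_ne_zero hA0 ht0
    have := transv_unique h2 hp0 (hall p hp0) (hB' p hp0) hpy hy' ha0 hd0 hgp1 hgp2 hgv1 hgv2 hd1 hD0
    apply ht1
    rw [← this]
    field_simp
  -- conclusion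
  obtain ⟨f, hf⟩ := exists_f hx0
  obtain ⟨y, hy, hy0⟩ := exists_Vp_ne_zero (F := F) hm x0 f
  obtain ⟨y', hy', hy'1⟩ := exists_Vp_ne hf hy hy0 1
  have hy'0 : y' ≠ 0 := by
    rintro rfl
    rw [ω_zero_left] at hy'1
    exact zero_ne_one hy'1
  apply hx0L
  intro γ
  -- `qel x (γ y') 0`, `qel x y 0`, `qel x (γ y' + y) 0`
  by_cases hγ : γ = 0
  · rw [hγ, T_zero_right]
    exact K.one_mem
  have h1 := hkey x0 f y' hf hy' hy'0 γ
  have h3 := hkey x0 f y hf hy hy0 1
  rw [one_smul] at h3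
  have hv : (γ • y' + y) ∈ Vp x0 f := Submodule.add_mem _ (Submodule.smul_mem _ _ hy') hy
  have hv0 : γ • y' + y ≠ 0 := by
    intro h
    have h5 := congrArg (fun t => ω t y) h
    simp only [ω_add_left, ω_smul_left, ω_self, hy'1, ω_zero_left, add_zero, mul_one] at h5
    exact hγ h5
  have h4 := hkey x0 f _ hf hv hv0 1
  rw [one_smul] at h4
  have hs1 : ω x0 (γ • y') = 0 := by rw [ω_smul_right, hy'.1, mul_zero]
  have h5 := K.mul_mem (K.mul_mem h1 h3) (K.inv_mem h4)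
  rw [qel_mul hs1 hy.1, qel_inv hv.1, qel_mul (by rw [ω_add_right, hs1, hy.1, add_zero])
    (by rw [ω_neg_right, hv.1, neg_zero]), add_neg_cancel, ω_neg_right, ω_self, neg_zero, add_zero,
    qel_zero] at h5
  have e : 0 + 0 + ω (γ • y') y + 0 = γ := by
    rw [ω_smul_left, hy'1]
    ring
  rw [e] at h5
  exact h5

end Cfsg.Agent.Lib.SpIdx
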