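import Mathlib
import Cfsg.Agent.Lib.SpIdxK

/-!
# The numerical consequences of the key inequality
-/

set_option autoImplicit false
set_option linter.unusedSectionVars false
set_option linter.unusedVariables false

namespace Cfsg.Agent.Lib.SpIdx

open Matrix Cfsg.Agent.Lib.SpBasic
open scoped MatrixGroups

variable {l F : Type*} [Fintype l] [DecidableEq l] [Field F] [Fintype F]

/-! ### Multipliers of `AA` -/

/-- The multipliers of an additive subgroup. -/
def Mult (A : AddSubgroup F) (r : F) : Prop := ∀ α ∈ A, r * α ∈ A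

lemma Mult_sub {A : AddSubgroup F} {r r' : F} (h : Mult A r) (h' : Mult A r') : Mult A (r - r') := by
  intro α hα
  rw [sub_mul]
  exact A.sub_mem (h α hα) (h' α hα)

lemma Mult_pow {A : AddSubgroup F} {r : F} (h : Mult A r) (n : ℕ) : Mult A (r ^ n) := by
  induction n with
  | zero =>
    intro α hα
    simpa using hα
  | succ n ih =>
    intro α hα
    rw [pow_succ, mul_assoc]
    exact ih _ (h α hα)

lemma Mult_inv {A : AddSubgroup F} {r : F} (h : Mult A r) (hr : r ≠ 0) : Mult A r⁻¹ := by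
  have h1 : r ^ (Fintype.card F - 1) = 1 := FiniteField.pow_card_sub_one_eq_one r hr
  have hq : 2 ≤ Fintype.card F := Fintype.one_lt_card
  have h2 : r⁻¹ = r ^ (Fintype.card F - 2) := by
    symm
    apply eq_inv_of_mul_eq_one_left
    rw [← pow_succ, ← h1]
    congr 1
    omega
  rw [h2]
  exact Mult_pow h _

lemma T1_mult {K : Subgroup (Sp l F)} {x : l ⊕ l → F} {c : F} {g : Sp l F} (hg : g ∈ K)
    (hgx : g • x = c • x) : Mult (AA K x) (c ^ 2) := by
  intro α hα
  have h1 := K.mul_mem (K.mul_mem hg hα) (K.inv_mem hg)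
  rw [T_conj, hgx, T_smul_vec] at h1
  exact h1

lemma T1_sq_inj {K : Subgroup (Sp l F)} {x : l ⊕ l → F} {c0 : F} (hc0 : c0 ∉ AA K x)
    {c c' : T1 K x} (h : ((QuotientAddGroup.mk ((c.1 : F) ^ 2 * c0) : F ⧸ AA K x)) =
      QuotientAddGroup.mk ((c'.1 : F) ^ 2 * c0)) : (c.1 : F) ^ 2 = (c'.1 : F) ^ 2 := by
  obtain ⟨g, hg, hgc⟩ := c.2
  obtain ⟨g', hg', hgc'⟩ := c'.2
  have h1 := T1_mult hg hgc
  have h2 := T1_mult hg' hgc'
  by_contra hne
  have h3 : (c'.1 : F) ^ 2 - (c.1 : F) ^ 2 ≠ 0 := sub_ne_zero.mpr (Ne.symm hne)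
  rw [QuotientAddGroup.eq] at h
  have h4 : ((c'.1 : F) ^ 2 - (c.1 : F) ^ 2) * c0 ∈ AA K x := by
    have e : ((c'.1 : F) ^ 2 - (c.1 : F) ^ 2) * c0 = -((c.1 : F) ^ 2 * c0) + (c'.1 : F) ^ 2 * c0 := by
      ring
    rw [e]
    exact h
  have h5 := Mult_inv (Mult_sub h2 h1) h3 _ h4
  rw [← mul_assoc, inv_mul_cancel₀ h3, one_mul] at h5
  exact hc0 h5

lemma T1_sq_ne {K : Subgroup (Sp l F)} {x : l ⊕ l → F} {c0 : F} (hc0 : c0 ∉ AA K x)
    (c : T1 K x) : ((QuotientAddGroup.mk ((c.1 : F) ^ 2 * c0) : F ⧸ AA K x)) ≠ 0 := by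
  obtain ⟨g, hg, hgc⟩ := c.2
  have h1 := T1_mult hg hgc
  intro h
  rw [QuotientAddGroup.eq_zero_iff] at h
  have h3 : (c.1 : F) ^ 2 ≠ 0 := pow_ne_zero _ c.1.ne_zero
  have h5 := Mult_inv h1 h3 _ h
  rw [← mul_assoc, inv_mul_cancel₀ h3, one_mul] at h5
  exact hc0 h5

lemma card_ne_zero_quot (A : AddSubgroup F) :
    Nat.card {q : F ⧸ A // q ≠ 0} + 1 = A.index := by
  classical
  have : Fintype (F ⧸ A) := Fintype.ofFinite _
  rw [AddSubgroup.index, Nat.card_eq_fintype_card, Nat.card_eq_fintype_card]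
  have h3 := Fintype.card_subtype_compl (fun z : F ⧸ A => z = 0)
  have h4 : Fintype.card {z : F ⧸ A // z = 0} = 1 := by simp
  have h5 : 0 < Fintype.card (F ⧸ A) := Fintype.card_pos
  have h6 : Fintype.card {q : F ⧸ A // q ≠ 0} = Fintype.card (F ⧸ A) - 1 := by
    rw [← h4, ← h3]
  omega

/-- The bound in even characteristic. -/
lemma T1_le_even (h2 : (2 : F) = 0) {K : Subgroup (Sp l F)} {x : l ⊕ l → F} {c0 : F}
    (hc0 : c0 ∉ AA K x) : Nat.card (T1 K x) + 1 ≤ (AA K x).index := by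
  rw [← card_ne_zero_quot]
  apply Nat.add_le_add_right
  refine Nat.card_le_card_of_injective
    (fun c => ⟨QuotientAddGroup.mk ((c.1 : F) ^ 2 * c0), T1_sq_ne hc0 c⟩) ?_
  intro c c' h
  have h1 := T1_sq_inj hc0 (congrArg Subtype.val h)
  apply Subtype.ext
  apply Units.ext
  have h3 : ((c.1 : F) - c'.1) ^ 2 = 0 := by
    have e : ((c.1 : F) - c'.1) ^ 2 = (c.1 : F) ^ 2 + (c'.1 : F) ^ 2 - 2 * ((c.1 : F) * c'.1) := by
      ring
    rw [e, h2, h1, zero_mul, sub_zero, ← two_mul, h2, zero_mul]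
  exact sub_eq_zero.mp (pow_eq_zero_iff two_ne_zero |>.mp h3)

/-- The bound in general. -/
lemma T1_le_odd {K : Subgroup (Sp l F)} {x : l ⊕ l → F} {c0 : F}
    (hc0 : c0 ∉ AA K x) : Nat.card (T1 K x) + 2 ≤ 2 * (AA K x).index := by
  classical
  have : Fintype (T1 K x) := Fintype.ofFinite _
  have : Fintype {q : F ⧸ AA K x // q ≠ 0} := Fintype.ofFinite _
  let φ : T1 K x → {q : F ⧸ AA K x // q ≠ 0} :=
    fun c => ⟨QuotientAddGroup.mk ((c.1 : F) ^ 2 * c0), T1_sq_ne hc0 c⟩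
  have h1 := Finset.card_le_mul_card_image (f := φ) (Finset.univ : Finset (T1 K x)) 2 (by
    intro b hb
    obtain ⟨c1, -, rfl⟩ := Finset.mem_image.mp hb
    have h3 : ((Finset.univ.filter (fun c => φ c = φ c1)).image (fun c : T1 K x => (c.1 : F))) ⊆
        {(c1.1 : F), -(c1.1 : F)} := by
      intro t ht
      obtain ⟨c, hc, rfl⟩ := Finset.mem_image.mp ht
      have hc' : φ c = φ c1 := (Finset.mem_filter.mp hc).2
      have h4 := T1_sq_inj hc0 (congrArg Subtype.val hc')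
      have h5 : ((c.1 : F) - c1.1) * ((c.1 : F) + c1.1) = 0 := by
        linear_combination h4
      rcases mul_eq_zero.mp h5 with h6 | h6
      · simp [sub_eq_zero.mp h6]
      · have : (c.1 : F) = -(c1.1 : F) := eq_neg_of_add_eq_zero_left h6
        simp [this]
    have h4 := Finset.card_le_card h3
    rw [Finset.card_image_of_injective _ (fun a b h => Subtype.ext (Units.ext h))] at h4
    exact le_trans h4 Finset.card_le_two)
  have h3 : (Finset.univ.image φ).card ≤ Fintype.card {q : F ⧸ AA K x // q ≠ 0} :=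
    Finset.card_le_univ _
  have h4 := card_ne_zero_quot (AA K x)
  rw [Nat.card_eq_fintype_card] at h4
  rw [Nat.card_eq_fintype_card, ← Finset.card_univ]
  have h5 := Nat.mul_le_mul_left 2 h3
  omega

lemma card_T1_le (K : Subgroup (Sp l F)) (x : l ⊕ l → F) :
    Nat.card (T1 K x) + 1 ≤ Fintype.card F := by
  have h1 : Nat.card (T1 K x) ≤ Nat.card Fˣ := Nat.card_le_card_of_injective _ Subtype.val_injective
  have h2 : Nat.card Fˣ = Fintype.card F - 1 := by
    rw [Nat.card_units, Nat.card_eq_fintype_card]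
  have h3 : 2 ≤ Fintype.card F := Fintype.one_lt_card
  omega

/-- The basic arithmetic. -/
lemma num_even_a {q X n z t : ℕ} (hz : 2 ≤ z) (hq : 2 * z ≤ q) (ht : t + 1 ≤ z)
    (h : (q - 1) * z * X ≤ n * t) : q * (q - 1) * X ≤ n * (q - 2) := by
  obtain ⟨z', rfl⟩ : ∃ z', z = z' + 1 := ⟨z - 1, by omega⟩
  obtain ⟨q', rfl⟩ : ∃ q', q = q' + 2 := ⟨q - 2, by omega⟩
  simp only [show q' + 2 - 1 = q' + 1 by omega, Nat.add_sub_cancel] at *
  have ht' : t ≤ z' := by omega
  have hz' : 0 < z' := by omega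
  have h1 : (q' + 1) * (z' + 1) * X ≤ n * z' := le_trans h (Nat.mul_le_mul_left _ ht')
  have h2 : 2 * z' ≤ q' := by omega
  apply Nat.le_of_mul_le_mul_right _ hz'
  calc (q' + 2) * (q' + 1) * X * z' = ((q' + 2) * z') * ((q' + 1) * X) := by ring
    _ ≤ (q' * (z' + 1)) * ((q' + 1) * X) := by
      apply Nat.mul_le_mul_right
      nlinarith
    _ = q' * ((q' + 1) * (z' + 1) * X) := by ring
    _ ≤ q' * (n * z') := Nat.mul_le_mul_left _ h1
    _ = n * q' * z' := by ring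

lemma num_W1_of_E1 {q X n : ℕ} (hq : 3 ≤ q) (h : q * (q - 1) * X ≤ n * (q - 2)) :
    (q + 2) * X ≤ 2 * n := by
  obtain ⟨q', rfl⟩ : ∃ q', q = q' + 3 := ⟨q - 3, by omega⟩
  simp only [show q' + 3 - 1 = q' + 2 by omega, show q' + 3 - 2 = q' + 1 by omega] at *
  apply Nat.le_of_mul_le_mul_right _ (show 0 < q' + 1 by omega)
  calc (q' + 3 + 2) * X * (q' + 1) ≤ 2 * ((q' + 3) * (q' + 2) * X) := by nlinarith [Nat.zero_le X, Nat.zero_le (q' * X), Nat.zero_le (q' * q' * X)]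
    _ ≤ 2 * (n * (q' + 1)) := Nat.mul_le_mul_left _ h
    _ = 2 * n * (q' + 1) := by ring

lemma num_odd_a {q X n z t : ℕ} (hz : 2 ≤ z) (hq : 3 * z ≤ q) (ht : t + 2 ≤ 2 * z)
    (h : (q - 1) * z * X ≤ n * t) : (q + 2) * X ≤ 2 * n := by
  obtain ⟨z', rfl⟩ : ∃ z', z = z' + 1 := ⟨z - 1, by omega⟩
  obtain ⟨q', rfl⟩ : ∃ q', q = q' + 1 := ⟨q - 1, by omega⟩
  simp only [Nat.add_sub_cancel] at *
  have ht' : t ≤ 2 * z' := by omega
  have hz' : 0 < z' := by omega
  have h1 : q' * (z' + 1) * X ≤ n * (2 * z') := le_trans h (Nat.mul_le_mul_left _ ht')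
  apply Nat.le_of_mul_le_mul_right _ hz'
  calc (q' + 1 + 2) * X * z' = ((q' + 3) * z') * X := by ring
    _ ≤ (q' * (z' + 1)) * X := by
      apply Nat.mul_le_mul_right
      nlinarith
    _ ≤ n * (2 * z') := h1
    _ = 2 * n * z' := by ring

/-- The numbers, part 1. -/
theorem numbers {p : ℕ} [Fact p.Prime] [CharP F p] {K : Subgroup (Sp l F)} {x f : l ⊕ l → F}
    (hq : 3 ≤ Fintype.card F) (hf : ω x f = 1) {c0 : F} (hc0 : c0 ∉ AA K x) (ψ : F →+ ZMod p)
    (hψ : ψ ≠ 0) :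
    ((Fintype.card F + 2) * ((DD K x).index *
        Nat.card (UU K x ψ ⊓ (Vp x f).toAddSubgroup : AddSubgroup _)) ≤ 2 * K.index) ∧
    ((2 : F) = 0 → (Nat.card (AA K x) = 1 ∧ Nat.card (T1 K x) + 1 = Fintype.card F ∧
        Fintype.card F * ((DD K x).index *
          Nat.card (UU K x ψ ⊓ (Vp x f).toAddSubgroup : AddSubgroup _)) ≤ K.index) ∨
      (Fintype.card F * (Fintype.card F - 1) * ((DD K x).index *
          Nat.card (UU K x ψ ⊓ (Vp x f).toAddSubgroup : AddSubgroup _)) ≤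
        K.index * (Fintype.card F - 2))) := by
  classical
  have hx : x ≠ 0 := by
    rintro rfl
    rw [ω_zero_left] at hf
    exact zero_ne_one hf
  set q := Fintype.card F with hqdef
  set u := Nat.card (UU K x ψ ⊓ (Vp x f).toAddSubgroup : AddSubgroup _) with hu
  set c1 := (DD K x).index with hc1
  set c2 := (K.subgroupOf (Q x)).index with hc2
  set n := K.index with hn
  set t := Nat.card (T1 K x) with ht
  set a := Nat.card (AA K x) with ha
  set z := (AA K x).index with hz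
  have h1 := key_ineq hx K
  have h3 := c2_eq hf K ψ hψ
  have h4 : a * z = q := by
    rw [ha, hz, hqdef, ← Nat.card_eq_fintype_card]
    exact AddSubgroup.card_mul_index _
  have ha0 : 0 < a := Nat.card_pos
  have hc2' : c2 = u * z := by
    apply Nat.eq_of_mul_eq_mul_right ha0
    rw [← hqdef] at h3
    rw [← hc2, ← hu] at h3
    rw [h3, ← h4]
    ring
  have hz2 : 2 ≤ z := by
    have h5 : z ≠ 1 := by
      intro h5
      apply hc0
      rw [AddSubgroup.index_eq_one] at h5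
      rw [h5]
      trivial
    have h6 : z ≠ 0 := by
      intro h6
      rw [h6, mul_zero] at h4
      omega
    omega
  have hkey : (q - 1) * z * (c1 * u) ≤ n * t := by
    calc (q - 1) * z * (c1 * u) = (q - 1) * (c1 * (u * z)) := by ring
      _ = (q - 1) * (c1 * c2) := by rw [hc2']
      _ ≤ _ := h1
  have ht1 : t + 1 ≤ q := card_T1_le K x
  -- the case `a = 1`
  have hone : a = 1 → q * (c1 * u) ≤ n := by
    intro h5
    rw [h5, one_mul] at h4
    rw [h4] at hkey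
    have h6 : 0 < q - 1 := by omega
    apply Nat.le_of_mul_le_mul_left _ h6
    calc (q - 1) * (q * (c1 * u)) = (q - 1) * q * (c1 * u) := by ring
      _ ≤ n * t := hkey
      _ ≤ n * (q - 1) := Nat.mul_le_mul_left _ (by omega)
      _ = _ := by ring
  have hW1_one : a = 1 → (q + 2) * (c1 * u) ≤ 2 * n := by
    intro h5
    have h6 := hone h5
    have : (q + 2) * (c1 * u) ≤ 2 * (q * (c1 * u)) := by
      apply le_trans (Nat.mul_le_mul_right _ (show q + 2 ≤ 2 * q by omega))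
      rw [mul_assoc]
    omega
  have heven : (2 : F) = 0 → (a = 1 ∧ t + 1 = q ∧ q * (c1 * u) ≤ n) ∨
      (q * (q - 1) * (c1 * u) ≤ n * (q - 2)) := by
    intro h2
    by_cases ha1 : a = 1
    · by_cases ht2 : t + 1 = q
      · exact Or.inl ⟨ha1, ht2, hone ha1⟩
      · right
        have h5 := h4
        rw [ha1, one_mul] at h5
        rw [h5] at hkey
        calc q * (q - 1) * (c1 * u) = (q - 1) * q * (c1 * u) := by ring
          _ ≤ n * t := hkey
          _ ≤ _ := Nat.mul_le_mul_left _ (by omega)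
    · right
      have ha2 : 2 ≤ a := by omega
      exact num_even_a hz2 (by rw [← h4]; exact Nat.mul_le_mul_right _ ha2)
        (T1_le_even h2 hc0) hkey
  refine ⟨?_, heven⟩
  by_cases h2 : (2 : F) = 0
  · rcases heven h2 with h5 | h5
    · exact hW1_one h5.1
    · exact num_W1_of_E1 hq h5
  · by_cases ha1 : a = 1
    · exact hW1_one ha1
    · have ha3 : 3 ≤ a := by
        have h6 : a ≠ 2 := by
          intro h6
          obtain ⟨n', hn', hn''⟩ := FiniteField.card F p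
          have h7 : 2 ∣ p ^ (n' : ℕ) := by
            rw [← hn'', ← hqdef, ← h4, h6]
            exact Dvd.intro _ rfl
          have h8 : 2 ∣ p := Nat.prime_two.dvd_of_dvd_pow h7
          have h9 : p = 2 := ((Nat.prime_dvd_prime_iff_eq Nat.prime_two (Fact.out)).mp h8).symm
          apply h2
          have := CharP.cast_eq_zero F p
          rw [h9] at this
          exact_mod_cast this
        omega
      exact num_odd_a hz2 (by rw [← h4]; exact Nat.mul_le_mul_right _ ha3)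
        (T1_le_odd hc0) hkey

/-- `X ≥ 2(W-1)` is enough. -/
lemma good_G1 {K : Subgroup (Sp l F)} (hq : 3 ≤ Fintype.card F) {X W : ℕ}
    (h1 : (Fintype.card F + 2) * X ≤ 2 * K.index)
    (hW : Fintype.card F ^ 2 * W = Fintype.card F ^ (2 * Fintype.card l))
    (hW2 : Fintype.card F ^ 2 ≤ W) (hX : 2 * (W - 1) ≤ X) : Good K := by
  show _ ≤ _
  rw [← hW]
  obtain ⟨d, hd⟩ : ∃ d, Fintype.card F = d + 3 := ⟨Fintype.card F - 3, by omega⟩
  rw [hd] at h1 hW2 ⊢
  have hW0 : 0 < W := lt_of_lt_of_le (by positivity) hW2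
  obtain ⟨W', rfl⟩ : ∃ W', W = W' + 1 := ⟨W - 1, by omega⟩
  simp only [Nat.add_sub_cancel] at *
  have h2 : (d + 3 + 2) * W' ≤ K.index := by
    have : (d + 3 + 2) * (2 * W') ≤ 2 * K.index := le_trans (Nat.mul_le_mul_left _ hX) h1
    nlinarith
  have h3 : (d + 3 - 1) = d + 2 := by omega
  rw [h3]
  have h4 : (d + 3) ^ 2 * (W' + 1) - 1 ≤ (d + 3 + 2) * W' * (d + 2) := by
    have h5 : (d + 3) ^ 2 ≤ W' + 1 := hW2
    have h6 : (d + 3) ^ 2 * (W' + 1) ≤ (d + 3 + 2) * W' * (d + 2) + 1 := by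
      nlinarith [Nat.zero_le (d * W'), Nat.zero_le (d * d * W'), Nat.zero_le (d * d)]
    omega
  exact le_trans h4 (Nat.mul_le_mul_right _ h2)

/-- `X ≥ W-1` is enough in the non-critical case. -/
lemma good_G2 {K : Subgroup (Sp l F)} (hq : 3 ≤ Fintype.card F) {X W : ℕ}
    (h1 : Fintype.card F * (Fintype.card F - 1) * X ≤ K.index * (Fintype.card F - 2))
    (hW : Fintype.card F ^ 2 * W = Fintype.card F ^ (2 * Fintype.card l))
    (hW2 : Fintype.card F ^ 2 ≤ W) (hX : W - 1 ≤ X) : Good K := by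
  show _ ≤ _
  rw [← hW]
  obtain ⟨d, hd⟩ : ∃ d, Fintype.card F = d + 3 := ⟨Fintype.card F - 3, by omega⟩
  rw [hd] at h1 hW2 ⊢
  have hW0 : 0 < W := lt_of_lt_of_le (by positivity) hW2
  obtain ⟨W', rfl⟩ : ∃ W', W = W' + 1 := ⟨W - 1, by omega⟩
  simp only [Nat.add_sub_cancel, show d + 3 - 1 = d + 2 by omega, show d + 3 - 2 = d + 1 by omega]
    at *
  have h2 : (d + 3) * (d + 2) * W' ≤ K.index * (d + 1) :=
    le_trans (Nat.mul_le_mul_left _ hX) h1
  have h5 : (d + 3) ^ 2 ≤ W' + 1 := hW2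
  have h3 : (d + 3) ^ 2 * (W' + 1) - 1 ≤ K.index * (d + 2) := by
    have h6 : ((d + 3) ^ 2 * (W' + 1)) * (d + 1) ≤ (K.index * (d + 2) + 1) * (d + 1) := by
      have h7 : ((d + 3) ^ 2 * (W' + 1)) * (d + 1) ≤ (d + 3) * (d + 2) * W' * (d + 2) + (d + 1) := by
        nlinarith [Nat.zero_le (d * W'), Nat.zero_le (d * d * W'), Nat.zero_le (d * d), Nat.zero_le (d * d * d)]
      calc _ ≤ (d + 3) * (d + 2) * W' * (d + 2) + (d + 1) := h7
        _ ≤ K.index * (d + 1) * (d + 2) + (d + 1) := by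
          apply Nat.add_le_add_right
          exact Nat.mul_le_mul_right _ h2
        _ = _ := by ring
    have h8 := Nat.le_of_mul_le_mul_right h6 (show 0 < d + 1 by omega)
    omega
  exact h3

/-- The critical numeric case for `Sp_4`. -/
lemma good_crit_two {K : Subgroup (Sp l F)} (hq : 3 ≤ Fintype.card F)
    (hm2 : Fintype.card l = 2) {c1 u : ℕ} (h1 : Fintype.card F * (c1 * u) ≤ K.index)
    (hu : 2 ≤ u) (hu2 : 2 * u ≤ Fintype.card F) (h2 : Fintype.card F ^ 2 - 1 ≤ c1 * (u - 1)) :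
    Good K := by
  show _ ≤ _
  rw [hm2]
  obtain ⟨d, hd⟩ : ∃ d, Fintype.card F = d + 1 := ⟨Fintype.card F - 1, by omega⟩
  rw [hd] at h1 hu2 h2 ⊢
  obtain ⟨u', rfl⟩ : ∃ u', u = u' + 1 := ⟨u - 1, by omega⟩
  simp only [Nat.add_sub_cancel] at *
  have e1 : (d + 1) ^ 2 - 1 = d * (d + 2) := by
    have : (d + 1) ^ 2 = d * (d + 2) + 1 := by ring
    omega
  have e2 : (d + 1) ^ (2 * 2) - 1 = d * (d + 2) * ((d + 1) ^ 2 + 1) := by
    have : (d + 1) ^ (2 * 2) = d * (d + 2) * ((d + 1) ^ 2 + 1) + 1 := by ring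
    omega
  rw [e1] at h2
  rw [e2]
  have hu' : 0 < u' := by omega
  apply Nat.le_of_mul_le_mul_right _ hu'
  have h3 : u' ≤ d := by omega
  have h4 : 2 * u' ≤ d := by omega
  have key : ((d + 1) ^ 2 + 1) * u' ≤ (d + 1) * (u' + 1) * d := by
    have := Nat.mul_le_mul_left d h3
    nlinarith
  calc d * (d + 2) * ((d + 1) ^ 2 + 1) * u' = d * (d + 2) * (((d + 1) ^ 2 + 1) * u') := by ring
    _ ≤ d * (d + 2) * ((d + 1) * (u' + 1) * d) := Nat.mul_le_mul_left _ key
    _ = (d + 1) * (u' + 1) * d * (d * (d + 2)) := by ring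
    _ ≤ (d + 1) * (u' + 1) * d * (c1 * u') := Nat.mul_le_mul_left _ h2
    _ = (d + 1) * (c1 * (u' + 1)) * (d * u') := by ring
    _ ≤ K.index * (d * u') := Nat.mul_le_mul_right _ h1
    _ = K.index * d * u' := by ring

end Cfsg.Agent.Lib.SpIdx
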