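import Mathlib
import Cfsg.Agent.Lib.SpIdxL

/-!
# Lifting the Levi subgroup
-/

set_option autoImplicit false
set_option linter.unusedSectionVars false
set_option linter.unusedVariables false

namespace Cfsg.Agent.Lib.SpIdx

open Matrix Cfsg.Agent.Lib.SpBasic
open scoped MatrixGroups

variable {l F : Type*} [Fintype l] [DecidableEq l] [Field F] [Fintype F]

/-- Elements preserving `YY`. -/
def StabY (K : Subgroup (Sp l F)) (x : l ⊕ l → F) (h : Sp l F) : Prop :=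
  ∀ s ∈ YY K x, h • s ∈ YY K x

lemma StabY_mul {K : Subgroup (Sp l F)} {x : l ⊕ l → F} {a b : Sp l F} (ha : StabY K x a)
    (hb : StabY K x b) : StabY K x (a * b) := fun s hs => by
  rw [mul_smul]
  exact ha _ (hb s hs)

lemma StabY_one (K : Subgroup (Sp l F)) (x : l ⊕ l → F) : StabY K x 1 := fun s hs => by
  rwa [one_smul]

lemma StabY_pow {K : Subgroup (Sp l F)} {x : l ⊕ l → F} {a : Sp l F} (ha : StabY K x a) (n : ℕ) :
    StabY K x (a ^ n) := by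
  induction n with
  | zero => simpa using StabY_one K x
  | succ n ih =>
    rw [pow_succ]
    exact StabY_mul ih ha

lemma StabY_inv {K : Subgroup (Sp l F)} {x : l ⊕ l → F} {a : Sp l F} (ha : StabY K x a) :
    StabY K x a⁻¹ := by
  have h1 : a⁻¹ = a ^ (orderOf a - 1) := by
    apply inv_eq_of_mul_eq_one_left
    rw [← pow_succ, Nat.sub_add_cancel (orderOf_pos a), pow_orderOf_eq_one]
  rw [h1]
  exact StabY_pow ha _

/-- The stabiliser of `YY` in the vector stabiliser. -/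
def BB (K : Subgroup (Sp l F)) (x : l ⊕ l → F) : Subgroup (Fx x) where
  carrier := {d | StabY K x d.1}
  mul_mem' := fun ha hb => StabY_mul ha hb
  one_mem' := StabY_one K x
  inv_mem' := fun ha => StabY_inv ha

lemma mem_BB {K : Subgroup (Sp l F)} {x : l ⊕ l → F} {d : Fx x} :
    d ∈ BB K x ↔ StabY K x d.1 := Iff.rfl

lemma DD_le_BB (K : Subgroup (Sp l F)) (x : l ⊕ l → F) : DD K x ≤ BB K x :=
  fun _ hd _ hs => smul_mem_YY hd hs

lemma StabY_tau {K : Subgroup (Sp l F)} {x f : l ⊕ l → F} (hf : ω x f = 1) :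
    StabY K x (tau x f) := by
  intro s hs
  rw [tau_smul hf, hs.1]
  simp only [mul_zero, zero_smul, add_zero]
  exact add_mem (neg_mem hs) (smul_x_mem_YY K x _)

lemma StabY_sig {K : Subgroup (Sp l F)} {x f : l ⊕ l → F} {c : F} (hf : ω x f = 1) (hc : c ≠ 0) :
    StabY K x (sig x f c) := by
  intro s hs
  rw [sig_smul hf hc, hs.1]
  simp only [mul_zero, zero_smul, add_zero]
  exact add_mem hs (smul_x_mem_YY K x _)

/-- Lifting in odd characteristic. -/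
theorem lift_odd (h2 : (2 : F) ≠ 0) {K : Subgroup (Sp l F)} {x f : l ⊕ l → F} (hf : ω x f = 1)
    (hBD : BB K x ≤ DD K x) :
    ∃ f', ω x f' = 1 ∧ ∀ h : Sp l F, h • x = x → h • f' = f' → StabY K x h → ∃ d, T x d * h ∈ K := by
  have hτ : (⟨tau x f, tau_smul_x hf⟩ : Fx x) ∈ BB K x := StabY_tau hf
  obtain ⟨u, hu, huτ⟩ := hBD hτ
  obtain ⟨f', hf', hτ'⟩ := tau_norm h2 hf hu huτ
  refine ⟨f', hf', fun h hx hfx hS => ?_⟩
  have h3 : (⟨h, hx⟩ : Fx x) ∈ BB K x := hS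
  obtain ⟨u', hu', hu'h⟩ := hBD h3
  exact tau_lift h2 hf' hτ' hx hfx hu' hu'h

/-- Lifting in even characteristic. -/
theorem lift_even {c : F} (hc : c ≠ 0) (hc2 : c ^ 2 ≠ 1) {K : Subgroup (Sp l F)} {x f : l ⊕ l → F}
    (hf : ω x f = 1) (hBD : BB K x ≤ DD K x)
    (hFS : ∀ a : F, a ≠ 0 → ∀ s ∈ YY K x, a • s ∈ YY K x) {s0 : Sp l F} (hs0 : s0 ∈ K)
    (hs0x : s0 • x = c • x) (hA : ∀ d, T x d ∈ K → d = 0) :
    ∃ f', ω x f' = 1 ∧ ∀ h : Sp l F, h • x = x → h • f' = f' → StabY K x h → h ∈ K := by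
  have hc1 : 1 - c ≠ 0 := by
    intro h0
    apply hc2
    have : c = 1 := by linear_combination -h0
    rw [this]
    ring
  have hx : x ≠ 0 := by
    rintro rfl
    rw [ω_zero_left] at hf
    exact zero_ne_one hf
  set σ := sig x f c with hσ
  have hσx : σ • x = c • x := sig_smul_x hf hc
  have hσinv : σ⁻¹ • x = c⁻¹ • x := by
    rw [inv_smul_eq_iff, smul_comm, hσx, smul_smul, inv_mul_cancel₀ hc, one_smul]
  have hgx : (s0 * σ⁻¹) • x = x := by
    rw [mul_smul, hσinv, smul_comm, hs0x, smul_smul, inv_mul_cancel₀ hc, one_smul]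
  have hS0 : StabY K x s0 := by
    intro s hs
    obtain ⟨hs1, c1, hc1'⟩ := hs
    have h3 := K.mul_mem (K.mul_mem hs0 hc1') (K.inv_mem hs0)
    have h4 : ω x (s0 • s) = 0 := by
      have h5 := ω_smul_smul s0 x s
      rw [hs0x, ω_smul_left, hs1] at h5
      exact (mul_eq_zero.mp h5).resolve_left hc
    rw [qel_conj _ hs1, hs0x, qel_scale h4] at h3
    have h6 : c • (s0 • s) ∈ YY K x := ⟨by rw [ω_smul_right, h4, mul_zero], _, h3⟩
    have h7 := hFS c⁻¹ (inv_ne_zero hc) _ h6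
    rwa [smul_smul, inv_mul_cancel₀ hc, one_smul] at h7
  have hg : (⟨s0 * σ⁻¹, hgx⟩ : Fx x) ∈ BB K x := StabY_mul hS0 (StabY_inv (StabY_sig hf hc))
  have hg' := inv_mem (hBD hg)
  obtain ⟨u, hu, hug⟩ := hg'
  have h5 := K.mul_mem hug hs0
  have h6 : u * (Fx x).subtype ((⟨s0 * σ⁻¹, hgx⟩ : Fx x)⁻¹) * s0 = u * σ := by
    show u * (s0 * σ⁻¹)⁻¹ * s0 = u * σ
    group
  rw [h6] at h5
  obtain ⟨f', hf', hσ'⟩ := sig_norm hc hc2 hf hu h5
  refine ⟨f', hf', fun h hx hfx hS => ?_⟩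
  have h3 : (⟨h, hx⟩ : Fx x) ∈ BB K x := hS
  obtain ⟨u', hu', hu'h⟩ := hBD h3
  refine sig_lift hc hc2 hf' hσ' hx hfx hu' hu'h (fun v hv => ?_) hA
  have := hFS (1 - c)⁻¹ (inv_ne_zero hc1) _ hv
  rwa [smul_smul, inv_mul_cancel₀ hc1, one_smul] at this

/-! ### Commutators -/

lemma comm_central {G : Type*} [Group G] {t t' h h' : G} (c1 : Commute t h) (c2 : Commute t h')
    (c3 : Commute t' h) (c4 : Commute t' h') (c5 : Commute t t') :
    t * h * (t' * h') * (t * h)⁻¹ * (t' * h')⁻¹ = h * h' * h⁻¹ * h'⁻¹ := by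
  have cw : Commute (t * t') (h * h' * h⁻¹ * h'⁻¹) := by
    have a1 : Commute t (h * h' * h⁻¹ * h'⁻¹) :=
      ((c1.mul_right c2).mul_right c1.inv_right).mul_right c2.inv_right
    have a2 : Commute t' (h * h' * h⁻¹ * h'⁻¹) :=
      ((c3.mul_right c4).mul_right c3.inv_right).mul_right c4.inv_right
    exact a1.mul_left a2
  calc t * h * (t' * h') * (t * h)⁻¹ * (t' * h')⁻¹
      = t * (h * t') * h' * h⁻¹ * t⁻¹ * h'⁻¹ * t'⁻¹ := by group
    _ = t * (t' * h) * h' * h⁻¹ * t⁻¹ * h'⁻¹ * t'⁻¹ := by rw [c3.eq]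
    _ = t * t' * h * h' * h⁻¹ * (t⁻¹ * h'⁻¹) * t'⁻¹ := by group
    _ = t * t' * h * h' * h⁻¹ * (h'⁻¹ * t⁻¹) * t'⁻¹ := by rw [(c2.inv_inv).eq]
    _ = (t * t') * (h * h' * h⁻¹ * h'⁻¹) * (t⁻¹ * t'⁻¹) := by group
    _ = (h * h' * h⁻¹ * h'⁻¹) * (t * t') * (t⁻¹ * t'⁻¹) := by rw [cw.eq]
    _ = (h * h' * h⁻¹ * h'⁻¹) * (t * (t' * t⁻¹) * t'⁻¹) := by group
    _ = (h * h' * h⁻¹ * h'⁻¹) * (t * (t⁻¹ * t') * t'⁻¹) := by rw [c5.inv_left.symm.eq]
    _ = h * h' * h⁻¹ * h'⁻¹ := by group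

lemma T_commute {x : l ⊕ l → F} {h : Sp l F} (hx : h • x = x) (d : F) : Commute (T x d) h := by
  show T x d * h = h * T x d
  have h1 := T_conj h x d
  rw [hx] at h1
  calc T x d * h = h * T x d * h⁻¹ * h := by rw [h1]
    _ = h * T x d := by group

lemma T_commute_T (x : l ⊕ l → F) (d d' : F) : Commute (T x d) (T x d') := by
  show T x d * T x d' = T x d' * T x d
  rw [T_mul, T_mul, add_comm]

/-- Commutators of the Levi part lie in `K`. -/
lemma comm_mem {K : Subgroup (Sp l F)} {x : l ⊕ l → F} {h h' : Sp l F} {d d' : F}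
    (hx : h • x = x) (hx' : h' • x = x) (hd : T x d * h ∈ K) (hd' : T x d' * h' ∈ K) :
    h * h' * h⁻¹ * h'⁻¹ ∈ K := by
  have h1 := K.mul_mem (K.mul_mem (K.mul_mem hd hd') (K.inv_mem hd)) (K.inv_mem hd')
  rwa [comm_central (T_commute hx d) (T_commute hx' d) (T_commute hx d') (T_commute hx' d')
    (T_commute_T x d d')] at h1

lemma sig_comm_T {y y' : l ⊕ l → F} (hyy : ω y y' = 1) {μ : F} (hμ : μ ≠ 0) (α : F) :
    sig y y' μ * T y α * (sig y y' μ)⁻¹ * (T y α)⁻¹ = T y ((μ ^ 2 - 1) * α) := by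
  rw [T_conj, sig_smul_x hyy hμ, T_smul_vec, T_inv, T_mul]
  congr 1
  ring

lemma qel_comm {y a b : l ⊕ l → F} (ha : ω y a = 0) (hb : ω y b = 0) (c c' : F) :
    qel y a c * qel y b c' * (qel y a c)⁻¹ * (qel y b c')⁻¹ = T y (2 * ω a b) := by
  have hna : ω y (-a) = 0 := by rw [ω_neg_right, ha, neg_zero]
  have hnb : ω y (-b) = 0 := by rw [ω_neg_right, hb, neg_zero]
  have hab : ω y (a + b) = 0 := by rw [ω_add_right, ha, hb, add_zero]
  rw [qel_inv ha, qel_inv hb, qel_mul ha hb, qel_mul hab hna,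
    qel_mul (by rw [ω_add_right, hab, hna, add_zero]) hnb]
  have e1 : a + b + -a + -b = 0 := by abel
  rw [e1, qel_zero]
  congr 1
  simp only [ω_add_left, ω_neg_right, ω_self, ω_neg_left]
  rw [ω_comm b a]
  ring

lemma qel_fix {y a z : l ⊕ l → F} (ha : ω y a = 0) (h1 : ω y z = 0) (h2 : ω a z = 0) (c : F) :
    qel y a c • z = z := by
  rw [qel_smul ha, h1, h2]
  simp

lemma exists_mu (hq : 4 ≤ Fintype.card F) : ∃ μ : F, μ ≠ 0 ∧ μ ^ 2 ≠ 1 := by
  classical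
  by_contra h
  push Not at h
  have h1 : (Finset.univ : Finset F) ⊆ {0, 1, -1} := by
    intro c _
    by_cases hc : c = 0
    · simp [hc]
    · have h3 := h c hc
      have h4 : (c - 1) * (c + 1) = 0 := by linear_combination h3
      rcases mul_eq_zero.mp h4 with h5 | h5
      · simp [sub_eq_zero.mp h5]
      · have : c = -1 := eq_neg_of_add_eq_zero_left h5
        simp [this]
  have h2 := Finset.card_le_card h1
  have h3 : ({0, 1, -1} : Finset F).card ≤ 3 := Finset.card_le_three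
  rw [Finset.card_univ] at h2
  omega

/-! ### Consequences -/

/-- Sigma from the Levi part using a torus element. -/
lemma Sg_of_sig {K : Subgroup (Sp l F)} {x f' y y' : l ⊕ l → F} {μ : F} (hf' : ω x f' = 1)
    (hμ : μ ≠ 0) (hμ1 : μ ^ 2 ≠ 1) (hy : y ∈ Vp x f') (hy' : y' ∈ Vp x f') (hyy : ω y y' = 1)
    (hLift : ∀ h : Sp l F, h • x = x → h • f' = f' → StabY K x h → ∃ d, T x d * h ∈ K)
    (hS1 : StabY K x (sig y y' μ)) (hS2 : ∀ α, StabY K x (T y α)) : Sg K y := by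
  have hxV : x ∈ Vp y y' := ⟨ω_comm0 hy.1, ω_comm0 hy'.1⟩
  have hfV : f' ∈ Vp y y' := ⟨ω_comm0 hy.2, ω_comm0 hy'.2⟩
  have hμ2 : μ ^ 2 - 1 ≠ 0 := sub_ne_zero.mpr hμ1
  intro β
  have h1 := sig_smul_perp hyy hμ hxV
  have h3 := sig_smul_perp hyy hμ hfV
  set α := (μ ^ 2 - 1)⁻¹ * β with hα
  have h4 : T y α • x = x := T_smul_x_of_perp (ω_comm0 hy.1) α
  have h5 : T y α • f' = f' := T_smul_x_of_perp (ω_comm0 hy.2) α
  obtain ⟨d, hd⟩ := hLift _ h1 h3 hS1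
  obtain ⟨d', hd'⟩ := hLift _ h4 h5 (hS2 α)
  have h6 := comm_mem h1 h4 hd hd'
  rw [sig_comm_T hyy hμ, hα, ← mul_assoc, mul_inv_cancel₀ hμ2, one_mul] at h6
  exact h6

theorem final_odd_1 (h2 : (2 : F) ≠ 0) (hq : 3 ≤ Fintype.card F) (hm : 2 ≤ Fintype.card l)
    (hexc : ¬ (Fintype.card l = 2 ∧ Fintype.card F = 3)) {K : Subgroup (Sp l F)} (hK : K ≠ ⊤)
    {x f' : l ⊕ l → F} (hf' : ω x f' = 1)
    (hLift : ∀ h : Sp l F, h • x = x → h • f' = f' → StabY K x h → ∃ d, T x d * h ∈ K)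
    (hYx : ∀ s ∈ YY K x, ∃ β : F, s = β • x) : Good K := by
  have hStab : ∀ h : Sp l F, h • x = x → StabY K x h := by
    intro h hx s hs
    obtain ⟨β, rfl⟩ := hYx s hs
    rw [smul_comm, hx]
    exact smul_x_mem_YY K x β
  have hx0 : x ≠ 0 := by
    rintro rfl
    rw [ω_zero_left] at hf'
    exact zero_ne_one hf'
  refine lemmaC' hq hm hK hf' (fun y0 hy0 => ?_)
  by_cases hy00 : y0 = 0
  · subst hy00
    exact Sg_zero K
  obtain ⟨y', hy', hy'1⟩ := exists_Vp_ne hf' hy0 hy00 (-1)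
  have hyy : ω y0 y' = 1 := by rw [ω_comm, hy'1]; ring
  by_cases hm3 : 3 ≤ Fintype.card l
  · obtain ⟨w, w', h1, h3, h4, h5, h6⟩ := exists_comm_pair hm3 hx0 hy0.1 (ne_smul_of_Vp hf' hy0 hy00)
    set a := hproj x f' w with ha
    set b := hproj x f' w' with hb
    have haV : a ∈ Vp x f' := hproj_mem_Vp hf' w
    have hbV : b ∈ Vp x f' := hproj_mem_Vp hf' w'
    have hy0a : ω y0 a = 0 := by
      rw [ha, ω_of_hproj (ω_comm0 hy0.1) (ω_comm0 hy0.2), h3]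
    have hy0b : ω y0 b = 0 := by
      rw [hb, ω_of_hproj (ω_comm0 hy0.1) (ω_comm0 hy0.2), h5]
    have hab : ω a b ≠ 0 := by
      have e1 : ω a b = ω w b := ω_hproj_of_perp hbV.1 hbV.2
      have e2 : ω w b = ω w w' := by
        rw [hb, hproj, ω_add_right, ω_sub_right, ω_smul_right, ω_smul_right, h4, ω_comm0 h1]
        ring
      rw [e1, e2, ω_comm]
      simpa using h6
    intro β
    set κ := β * (2 * ω a b)⁻¹ with hκ
    have h20 : 2 * ω a b ≠ 0 := mul_ne_zero h2 hab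
    have hy0κ : ω y0 (κ • b) = 0 := by rw [ω_smul_right, hy0b, mul_zero]
    have hκb : κ • b ∈ Vp x f' := Submodule.smul_mem _ _ hbV
    have f1 : qel y0 a 0 • x = x := qel_fix hy0a (ω_comm0 hy0.1) (ω_comm0 haV.1) 0
    have f2 : qel y0 a 0 • f' = f' := qel_fix hy0a (ω_comm0 hy0.2) (ω_comm0 haV.2) 0
    have f3 : qel y0 (κ • b) 0 • x = x := qel_fix hy0κ (ω_comm0 hy0.1) (ω_comm0 hκb.1) 0
    have f4 : qel y0 (κ • b) 0 • f' = f' := qel_fix hy0κ (ω_comm0 hy0.2) (ω_comm0 hκb.2) 0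
    obtain ⟨d, hd⟩ := hLift _ f1 f2 (hStab _ f1)
    obtain ⟨d', hd'⟩ := hLift _ f3 f4 (hStab _ f3)
    have h7 := comm_mem f1 f3 hd hd'
    rw [qel_comm hy0a hy0κ, ω_smul_right] at h7
    have e : 2 * (κ * ω a b) = β := by
      rw [hκ]
      field_simp
    rwa [e] at h7
  · have hm2 : Fintype.card l = 2 := by omega
    have hq4 : 4 ≤ Fintype.card F := by
      by_contra h
      exact hexc ⟨hm2, by omega⟩
    obtain ⟨μ, hμ, hμ1⟩ := exists_mu hq4
    refine Sg_of_sig hf' hμ hμ1 hy0 hy' hyy hLift (hStab _ (sig_smul_perp hyy hμ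
      ⟨ω_comm0 hy0.1, ω_comm0 hy'.1⟩)) (fun α => hStab _ (T_smul_x_of_perp (ω_comm0 hy0.1) α))

theorem final_odd_w (hq : 4 ≤ Fintype.card F) (hm2 : Fintype.card l = 2) {K : Subgroup (Sp l F)}
    (hK : K ≠ ⊤) {x f' w' : l ⊕ l → F} (hf' : ω x f' = 1)
    (hLift : ∀ h : Sp l F, h • x = x → h • f' = f' → StabY K x h → ∃ d, T x d * h ∈ K)
    (hw' : w' ∈ Vp x f') (hw0 : w' ≠ 0)
    (hYw : ∀ s ∈ YY K x, ∃ α β : F, s = α • w' + β • x)
    (hmem : ∀ α β : F, α • w' + β • x ∈ YY K x) : Good K := by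
  obtain ⟨y', hy', hy'1⟩ := exists_Vp_ne hf' hw' hw0 (-1)
  have hyy : ω w' y' = 1 := by rw [ω_comm, hy'1]; ring
  obtain ⟨μ, hμ, hμ1⟩ := exists_mu hq
  have hSg : Sg K w' := by
    refine Sg_of_sig hf' hμ hμ1 hw' hy' hyy hLift ?_ ?_
    · intro s hs
      obtain ⟨α, β, rfl⟩ := hYw s hs
      rw [smul_add, smul_comm, smul_comm _ β, sig_smul_x hyy hμ,
        sig_smul_perp hyy hμ ⟨ω_comm0 hw'.1, ω_comm0 hy'.1⟩, smul_smul]
      exact hmem _ _
    · intro α s hs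
      obtain ⟨a, b, rfl⟩ := hYw s hs
      have h3 : ω w' (a • w' + b • x) = 0 := by
        rw [ω_add_right, ω_smul_right, ω_smul_right, ω_self, ω_comm0 hw'.1]
        ring
      rw [T_smul_x_of_perp h3]
      exact hmem _ _
  exact lemmaC (by omega) hm2 hK hw0 hSg

theorem final_even_1 (hq : 3 ≤ Fintype.card F) (hm : 2 ≤ Fintype.card l) {K : Subgroup (Sp l F)}
    (hK : K ≠ ⊤) {x f' : l ⊕ l → F} (hf' : ω x f' = 1)
    (hLift : ∀ h : Sp l F, h • x = x → h • f' = f' → StabY K x h → h ∈ K)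
    (hYx : ∀ s ∈ YY K x, ∃ β : F, s = β • x) : Good K := by
  refine lemmaC' hq hm hK hf' (fun y0 hy0 α => ?_)
  have h1 : T y0 α • x = x := T_smul_x_of_perp (ω_comm0 hy0.1) α
  refine hLift _ h1 (T_smul_x_of_perp (ω_comm0 hy0.2) α) ?_
  intro s hs
  obtain ⟨β, rfl⟩ := hYx s hs
  rw [smul_comm, h1]
  exact smul_x_mem_YY K x β

theorem final_even_w (hq : 3 ≤ Fintype.card F) (hm2 : Fintype.card l = 2) {K : Subgroup (Sp l F)}
    (hK : K ≠ ⊤) {x f' w' : l ⊕ l → F} (hf' : ω x f' = 1)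
    (hLift : ∀ h : Sp l F, h • x = x → h • f' = f' → StabY K x h → h ∈ K)
    (hw' : w' ∈ Vp x f') (hw0 : w' ≠ 0)
    (hYw : ∀ s ∈ YY K x, ∃ α β : F, s = α • w' + β • x)
    (hmem : ∀ α β : F, α • w' + β • x ∈ YY K x) : Good K := by
  refine lemmaC hq hm2 hK hw0 (fun α => hLift _ (T_smul_x_of_perp (ω_comm0 hw'.1) α)
    (T_smul_x_of_perp (ω_comm0 hw'.2) α) ?_)
  intro s hs
  obtain ⟨a, b, rfl⟩ := hYw s hs
  have h3 : ω w' (a • w' + b • x) = 0 := by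
    rw [ω_add_right, ω_smul_right, ω_smul_right, ω_self, ω_comm0 hw'.1]
    ring
  rw [T_smul_x_of_perp h3]
  exact hmem _ _

end Cfsg.Agent.Lib.SpIdx
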