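import Mathlib
import Cfsg.Agent.Lib.SpIdxM

/-!
# The main flow
-/

set_option autoImplicit false
set_option linter.unusedSectionVars false
set_option linter.unusedVariables false

namespace Cfsg.Agent.Lib.SpIdx

open Matrix Cfsg.Agent.Lib.SpBasic
open scoped MatrixGroups

variable {l F : Type*} [Fintype l] [DecidableEq l] [Field F] [Fintype F]

/-- additive subgroups of a line, as subgroups of `F` -/
lemma line_aux {S : AddSubgroup (l ⊕ l → F)} {w : l ⊕ l → F} (hw0 : w ≠ 0)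
    (h : ∀ s ∈ S, ∃ κ : F, s = κ • w) :
    ∃ A : AddSubgroup F, Nat.card A = Nat.card S ∧ ∀ κ, κ ∈ A ↔ κ • w ∈ S := by
  let ι : F →+ (l ⊕ l → F) :=
    { toFun := fun κ => κ • w
      map_zero' := zero_smul _ _
      map_add' := fun a b => add_smul a b w }
  refine ⟨S.comap ι, ?_, fun κ => Iff.rfl⟩
  refine Nat.card_congr (Equiv.ofBijective (fun κ : S.comap ι => (⟨κ.1 • w, κ.2⟩ : S)) ⟨?_, ?_⟩)
  · rintro ⟨a, ha⟩ ⟨b, hb⟩ e
    have e1 : a • w = b • w := congrArg Subtype.val e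
    exact Subtype.ext (smul_left_injective F hw0 e1)
  · rintro ⟨s, hs⟩
    obtain ⟨κ, rfl⟩ := h s hs
    exact ⟨⟨κ, hs⟩, rfl⟩

lemma card_dvd_of_line {S : AddSubgroup (l ⊕ l → F)} {w : l ⊕ l → F} (hw0 : w ≠ 0)
    (h : ∀ s ∈ S, ∃ κ : F, s = κ • w) : Nat.card S ∣ Fintype.card F := by
  obtain ⟨A, hA, -⟩ := line_aux hw0 h
  rw [← hA, ← Nat.card_eq_fintype_card]
  exact AddSubgroup.card_addSubgroup_dvd_card A

lemma line_mem_of_card {S : AddSubgroup (l ⊕ l → F)} {w : l ⊕ l → F} (hw0 : w ≠ 0)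
    (h : ∀ s ∈ S, ∃ κ : F, s = κ • w) (hc : Nat.card S = Fintype.card F) (κ : F) : κ • w ∈ S := by
  obtain ⟨A, hA, hA'⟩ := line_aux hw0 h
  have h1 : A = ⊤ := AddSubgroup.eq_top_of_card_eq A (by
    rw [hA, hc, Nat.card_eq_fintype_card])
  rw [← hA', h1]
  trivial

/-- The orbit bound for groups preserving `YY`. -/
lemma orbit_D {x f w : l ⊕ l → F} (hf : ω x f = 1) {K : Subgroup (Sp l F)} (D : Subgroup (Fx x))
    (hD : ∀ d ∈ D, ∀ s ∈ YY K x, d.1 • s ∈ YY K x)
    (hw : w ∈ YY K x) (hw1 : w ∈ Vp x f) (hw0 : w ≠ 0) :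
    D.relIndex (MulAction.stabilizer (Fx x) w) * (Nat.card (Vp x f) - 1) ≤
      D.index * (Nat.card (YY K x ⊓ (Vp x f).toAddSubgroup : AddSubgroup _) - 1) := by
  classical
  have h := orbit_bound hf hw1.1 (ne_smul_of_Vp hf hw1 hw0) D (YY K x)
    (smul_x_mem_YY K x) (XP_le K x) hD hw
  rw [card_XP hf, card_YY hf] at h
  have hq : 0 < Fintype.card F := Fintype.card_pos
  have h1 : ∀ a : ℕ, Fintype.card F * a - Fintype.card F = Fintype.card F * (a - 1) := by
    intro a
    rw [Nat.mul_sub, mul_one]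
  rw [h1, h1] at h
  have h2 : Fintype.card F * (D.relIndex (MulAction.stabilizer (Fx x) w) * (Nat.card (Vp x f) - 1)) ≤
      Fintype.card F * (D.index * (Nat.card (YY K x ⊓ (Vp x f).toAddSubgroup : AddSubgroup _) - 1)) := by
    calc _ = D.relIndex (MulAction.stabilizer (Fx x) w) * (Fintype.card F * (Nat.card (Vp x f) - 1)) := by ring
      _ ≤ _ := h
      _ = _ := by ring
  exact Nat.le_of_mul_le_mul_left h2 hq

/-- The dichotomy in the case when `DD` contains the stabiliser of `w`. -/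
theorem dichotomy {p : ℕ} {K : Subgroup (Sp l F)} {x f w : l ⊕ l → F}
    (hf : ω x f = 1) (ψ : F →+ ZMod p) (hψ : ψ ≠ 0)
    (hwV : w ∈ Vp x f) (hw0 : w ≠ 0)
    (hstab : MulAction.stabilizer (Fx x) w ≤ DD K x) :
    (∀ t ∈ UU K x ψ, t ∈ Vp x f → ∃ κ : F, t = κ • w) ∨
      (∀ s ∈ YY K x, s ∈ Vp x f → ∃ κ : F, s = κ • w) := by
  classical
  by_cases h : ∀ t ∈ UU K x ψ, t ∈ Vp x f → ∃ κ : F, t = κ • w
  · exact Or.inl h
  right
  push Not at h
  obtain ⟨t0, ht0, ht0V, ht0'⟩ := h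
  have hT : ∀ y ∈ Vp x f, ω y w = 0 → ∀ α : F, ∀ t ∈ UU K x ψ, T y α • t ∈ UU K x ψ := by
    intro y hy hyw α t ht
    have h1 : (⟨T y α, T_smul_x_of_perp (ω_comm0 hy.1) α⟩ : Fx x) ∈ DD K x :=
      hstab (by
        rw [MulAction.mem_stabilizer_iff]
        exact T_smul_x_of_perp hyw α)
    exact smul_mem_UU h1 ht
  have hU1 : ∀ y ∈ Vp x f, ω y w = 0 → ω y t0 ≠ 0 → y ∈ UU K x ψ := by
    intro y hy hyw hyt
    have h1 := hT y hy hyw (ω y t0)⁻¹ t0 ht0
    rw [T_smul, inv_mul_cancel₀ hyt, one_smul] at h1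
    have := sub_mem h1 ht0
    simpa using this
  obtain ⟨z, hz1, hz2⟩ := exists_perp_ne hw0 ht0'
  have hy1V := hproj_mem_Vp hf z
  have hy1w : ω (hproj x f z) w = 0 := by
    rw [ω_hproj_of_perp hwV.1 hwV.2, ω_comm, hz1, neg_zero]
  have hy1t : ω (hproj x f z) t0 ≠ 0 := by
    rw [ω_hproj_of_perp ht0V.1 ht0V.2, ω_comm]
    simpa using hz2
  have hU : ∀ y ∈ Vp x f, ω y w = 0 → y ∈ UU K x ψ := by
    intro y hy hyw
    by_cases hyt : ω y t0 = 0
    · have h1 := hU1 (y + hproj x f z) (Submodule.add_mem _ hy hy1V)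
        (by rw [ω_add_left, hyw, hy1w, add_zero])
        (by rw [ω_add_left, hyt, zero_add]; exact hy1t)
      have h3 := hU1 _ hy1V hy1w hy1t
      have := sub_mem h1 h3
      simpa using this
    · exact hU1 y hy hyw hyt
  intro s hs hsV
  by_contra hne
  push Not at hne
  obtain ⟨z', hz'1, hz'2⟩ := exists_perp_ne hw0 hne
  have hV := hproj_mem_Vp hf z'
  have hw' : ω (hproj x f z') w = 0 := by
    rw [ω_hproj_of_perp hwV.1 hwV.2, ω_comm, hz'1, neg_zero]
  have hs' : ω (hproj x f z') s ≠ 0 := by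
    rw [ω_hproj_of_perp hsV.1 hsV.2, ω_comm]
    simpa using hz'2
  apply hψ
  ext c
  have h1 := hU ((c * (ω (hproj x f z') s)⁻¹) • hproj x f z') (Submodule.smul_mem _ _ hV)
    (by rw [ω_smul_left, hw', mul_zero])
  have h3 := h1.2 s hs
  rw [ω_smul_left, mul_assoc, inv_mul_cancel₀ hs', mul_one] at h3
  exact h3

/-- Double perp. -/
lemma double_perp {p : ℕ} [Fact p.Prime] [CharP F p] {K : Subgroup (Sp l F)} {x f w : l ⊕ l → F}
    (hf : ω x f = 1) (ψ : F →+ ZMod p) (hψ : ψ ≠ 0) (hwV : w ∈ Vp x f)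
    (hU : ∀ t ∈ UU K x ψ, t ∈ Vp x f → ∃ κ : F, t = κ • w) :
    ∀ s ∈ Vp x f, ω w s = 0 → s ∈ YY K x := by
  classical
  letI : Algebra (ZMod p) F := ZMod.algebra F p
  have hl : ∀ a b c : l ⊕ l → F, ψ (ω (a + b) c) = ψ (ω a c) + ψ (ω b c) := by
    intro a b c
    rw [ω_add_left, map_add]
  have hr : ∀ a b c : l ⊕ l → F, ψ (ω a (b + c)) = ψ (ω a b) + ψ (ω a c) := by
    intro a b c
    rw [ω_add_right, map_add]
  have hψ' : ∃ c, ψ c ≠ 0 := by
    by_contra h
    push Not at h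
    exact hψ (AddMonoidHom.ext h)
  obtain ⟨c, hc⟩ := hψ'
  set U' : AddSubgroup (l ⊕ l → F) := UU K x ψ ⊓ (Vp x f).toAddSubgroup with hU'
  set Y' : AddSubgroup (l ⊕ l → F) := YY K x ⊓ (Vp x f).toAddSubgroup with hY'
  have h := card_mul_perp (p := p) (M := l ⊕ l → F) (fun a b => ψ (ω a b)) hl hr
    (Vp x f).toAddSubgroup U' inf_le_right (by
      intro y hy hy0
      obtain ⟨y', hy', h1⟩ := exists_Vp_ne hf hy hy0 c
      exact ⟨y', hy', by rw [h1]; exact hc⟩)
  have h2 := card_YY_mul_UU hf K ψ hψ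
  set P := perpS (fun a b => ψ (ω a b)) hl (Vp x f).toAddSubgroup U' with hP
  have hle : Y' ≤ P := by
    intro s hs
    refine ⟨hs.2, fun t ht => ?_⟩
    show ψ (ω s t) = 0
    rw [ω_comm, map_neg, ht.1.2 s hs.1, neg_zero]
  have hu0 : 0 < Nat.card U' := Nat.card_pos
  have hcard : Nat.card P = Nat.card Y' := by
    apply Nat.eq_of_mul_eq_mul_left hu0
    have h3 : Nat.card (Vp x f).toAddSubgroup = Nat.card (Vp x f) := rfl
    rw [h, h3, ← h2]
    ring
  have heq : Y' = P := AddSubgroup.eq_of_le_of_card_ge hle hcard.le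
  intro s hs hws
  have h3 : s ∈ P := by
    refine ⟨hs, fun t ht => ?_⟩
    obtain ⟨κ, rfl⟩ := hU t ht.1 ht.2
    show ψ (ω s (κ • w)) = 0
    rw [ω_smul_right, ω_comm s w, hws]
    simp
  rw [← heq] at h3
  exact h3.1

/-- The contradiction in the critical even case, `m ≥ 3`. -/
theorem A1_contra (h2 : (2 : F) = 0) {p : ℕ} [Fact p.Prime] [CharP F p] (hq : 3 ≤ Fintype.card F)
    (hm3 : 3 ≤ Fintype.card l) {K : Subgroup (Sp l F)} {x f w : l ⊕ l → F}
    (hf : ω x f = 1) (ψ : F →+ ZMod p) (hψ : ψ ≠ 0) (hwV : w ∈ Vp x f) (hw0 : w ≠ 0)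
    (hU : ∀ t ∈ UU K x ψ, t ∈ Vp x f → ∃ κ : F, t = κ • w)
    (hstab : MulAction.stabilizer (Fx x) w ≤ DD K x)
    (hA : ∀ d, T x d ∈ K → d = 0) : False := by
  classical
  have hx : x ≠ 0 := by
    rintro rfl
    rw [ω_zero_left] at hf
    exact zero_ne_one hf
  have hY := double_perp hf ψ hψ hwV hU
  obtain ⟨a0, b0, h1, h3, h4, h5, h6⟩ := exists_comm_pair hm3 hx hwV.1 (ne_smul_of_Vp hf hwV hw0)
  set a := hproj x f a0 with ha
  set b := hproj x f b0 with hb
  have haV : a ∈ Vp x f := hproj_mem_Vp hf a0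
  have hbV : b ∈ Vp x f := hproj_mem_Vp hf b0
  have hwa : ω w a = 0 := by
    rw [ha, ω_of_hproj (ω_comm0 hwV.1) (ω_comm0 hwV.2), h3]
  have hwb : ω w b = 0 := by
    rw [hb, ω_of_hproj (ω_comm0 hwV.1) (ω_comm0 hwV.2), h5]
  have hba : ω b a ≠ 0 := by
    have e1 : ω b a = ω b0 a := ω_hproj_of_perp haV.1 haV.2
    have e2 : ω b0 a = ω b0 a0 := by
      rw [ha, hproj, ω_add_right, ω_sub_right, ω_smul_right, ω_smul_right, h1, ω_comm0 h4]
      ring
    rw [e1, e2]
    exact h6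
  set β := ω b a with hβ
  obtain ⟨γ, hγ0, hγ1⟩ := exists_ne_zero_one hq
  obtain ⟨-, c1, hc1⟩ := hY a haV hwa
  have hγa : γ • a ∈ Vp x f := Submodule.smul_mem _ _ haV
  obtain ⟨-, c2, hc2⟩ := hY (γ • a) hγa (by rw [ω_smul_right, hwa, mul_zero])
  -- the action of the lifted transvections
  have hact : ∀ α : F, ∃ g ∈ K, g • x = x ∧
      ∀ v, ω x v = 0 → ∃ lam : F, g • v = v + (α * ω b v) • b + lam • x := by
    intro α
    have hT : (⟨T b α, T_smul_x_of_perp (ω_comm0 hbV.1) α⟩ : Fx x) ∈ DD K x :=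
      hstab (by
        rw [MulAction.mem_stabilizer_iff]
        exact T_smul_x_of_perp (ω_comm0 hwb) α)
    obtain ⟨u, ⟨w1, c', hw1, rfl⟩, hu⟩ := hT
    refine ⟨_, hu, ?_, fun v hv => ?_⟩
    · show (qel x w1 c' * T b α) • x = x
      rw [mul_smul, T_smul_x_of_perp (ω_comm0 hbV.1), qel_smul_x hw1]
    · show ∃ lam : F, (qel x w1 c' * T b α) • v = _
      refine ⟨ω w1 (v + (α * ω b v) • b), ?_⟩
      rw [mul_smul, T_smul, qel_smul_perp hw1 _ (by
        rw [ω_add_right, hv, ω_smul_right, hbV.1, mul_zero, add_zero])]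
  obtain ⟨g1, hg1, hg1x, hg1v⟩ := hact 1
  obtain ⟨g2, hg2, hg2x, hg2v⟩ := hact γ⁻¹
  have e1 := claim1 h2 hg1 hg1x hbV.1 haV.1 (hg1v a haV.1) hc1
  have e2 := claim1 h2 hg2 hg2x hbV.1 hγa.1 (hg2v _ hγa.1) hc2
  rw [← hβ] at e1
  rw [ω_smul_right, ← hβ] at e2
  have e3 : γ⁻¹ * (γ * β) = 1 * β := by
    field_simp
  have e4 : γ⁻¹ * (γ * β) ^ 2 = γ * β ^ 2 := by
    field_simp
  rw [e3, e4] at e2
  have hs : ω x ((1 * β) • b) = 0 := by rw [ω_smul_right, hbV.1, mul_zero]
  have e5 := K.mul_mem e1 (K.inv_mem e2)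
  rw [qel_inv hs, qel_mul hs (by rw [ω_neg_right, hs, neg_zero]), add_neg_cancel, ω_neg_right,
    ω_self, neg_zero, add_zero, qel_zero] at e5
  have e6 := hA _ e5
  have e7 : β ^ 2 * (1 - γ) = 0 := by linear_combination e6
  rcases mul_eq_zero.mp e7 with h7 | h7
  · exact hba (pow_eq_zero_iff two_ne_zero |>.mp h7)
  · exact hγ1 (sub_eq_zero.mp h7).symm

/-- `K ∩ Q` is central: `YY` is the line of `x`. -/
lemma hYx_of_card {K : Subgroup (Sp l F)} {x f : l ⊕ l → F} (hf : ω x f = 1)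
    (h : Nat.card (YY K x ⊓ (Vp x f).toAddSubgroup : AddSubgroup _) = 1) :
    ∀ s ∈ YY K x, ∃ β : F, s = β • x := by
  intro s hs
  obtain ⟨v, a, hv, rfl⟩ := exists_decomp hf hs.1
  have hvY : v ∈ YY K x := by
    have := sub_mem hs (smul_x_mem_YY K x a)
    simpa using this
  rw [Nat.card_eq_one_iff_unique] at h
  have h3 := h.1.elim (⟨v, hvY, hv⟩ : (YY K x ⊓ (Vp x f).toAddSubgroup : AddSubgroup _)) 0
  have h4 : v = 0 := congrArg Subtype.val h3
  exact ⟨a, by rw [h4, zero_add]⟩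

/-- Changing the complement. -/
lemma line_data {K : Subgroup (Sp l F)} {x f f' w : l ⊕ l → F} (hf : ω x f = 1) (hf' : ω x f' = 1)
    (hwV : w ∈ Vp x f) (hw0 : w ≠ 0) (hYw : ∀ s ∈ YY K x, s ∈ Vp x f → ∃ κ : F, s = κ • w)
    (hline : ∀ κ : F, κ • w ∈ YY K x) :
    ∃ w', w' ∈ Vp x f' ∧ w' ≠ 0 ∧ (∀ s ∈ YY K x, ∃ α β : F, s = α • w' + β • x) ∧
      (∀ α β : F, α • w' + β • x ∈ YY K x) := by
  have hfx : ω f' x = -1 := by rw [ω_comm, hf']
  refine ⟨w + (ω f' w) • x, ⟨?_, ?_⟩, ?_, ?_, ?_⟩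
  · rw [ω_add_right, ω_smul_right, ω_self, hwV.1]
    ring
  · rw [ω_add_right, ω_smul_right, hfx]
    ring
  · intro h0
    apply ne_smul_of_Vp hf hwV hw0 (-(ω f' w))
    rw [neg_smul]
    exact eq_neg_of_add_eq_zero_left h0
  · intro s hs
    obtain ⟨v, a, hv, rfl⟩ := exists_decomp hf hs.1
    have hvY : v ∈ YY K x := by
      have := sub_mem hs (smul_x_mem_YY K x a)
      simpa using this
    obtain ⟨κ, rfl⟩ := hYw v hvY hv
    refine ⟨κ, a - κ * ω f' w, ?_⟩
    rw [smul_add, smul_smul, sub_smul]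
    abel
  · intro α β
    have e : α • (w + (ω f' w) • x) + β • x = α • w + (α * ω f' w + β) • x := by
      rw [smul_add, smul_smul, add_smul]
      abel
    rw [e]
    exact add_mem (hline α) (smul_x_mem_YY K x _)

/-- The `A2` flow. -/
theorem flow_A2 {p : ℕ} [Fact p.Prime] [CharP F p] (hq : 3 ≤ Fintype.card F)
    (hm : 2 ≤ Fintype.card l) {K : Subgroup (Sp l F)} {x f w : l ⊕ l → F}
    (hf : ω x f = 1) (ψ : F →+ ZMod p) (hψ : ψ ≠ 0) (hwV : w ∈ Vp x f) (hw0 : w ≠ 0)
    (hYw : ∀ s ∈ YY K x, s ∈ Vp x f → ∃ κ : F, s = κ • w)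
    (hW1 : (Fintype.card F + 2) * ((DD K x).index *
        Nat.card (UU K x ψ ⊓ (Vp x f).toAddSubgroup : AddSubgroup _)) ≤ 2 * K.index)
    (hDB : BB K x ≤ DD K x →
      (Nat.card (YY K x ⊓ (Vp x f).toAddSubgroup : AddSubgroup _) = 1 ∨
        (Fintype.card l = 2 ∧
          Nat.card (YY K x ⊓ (Vp x f).toAddSubgroup : AddSubgroup _) = Fintype.card F)) → Good K) :
    Good K := by
  classical
  set q := Fintype.card F with hqdef
  set Y' : AddSubgroup (l ⊕ l → F) := YY K x ⊓ (Vp x f).toAddSubgroup with hY'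
  set U' : AddSubgroup (l ⊕ l → F) := UU K x ψ ⊓ (Vp x f).toAddSubgroup with hU'
  set y := Nat.card Y' with hy
  set u := Nat.card U' with hu
  set W := Nat.card (Vp x f) with hW
  set c1 := (DD K x).index with hc1
  have hyu : y * u = W := card_YY_mul_UU hf K ψ hψ
  have hWeq : q ^ 2 * W = q ^ (2 * Fintype.card l) := card_Vp hf
  have hWq : q ^ 2 ≤ W := card_Vp_ge hm hf
  have hY'line : ∀ s ∈ Y', ∃ κ : F, s = κ • w := fun s hs => hYw s hs.1 hs.2
  have hyq : y ∣ q := card_dvd_of_line hw0 hY'line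
  have hq0 : 0 < q := by omega
  have hyle : y ≤ q := Nat.le_of_dvd hq0 hyq
  have hy0 : 0 < y := Nat.card_pos
  have hW0 : 0 < W := lt_of_lt_of_le (by positivity) hWq
  have hXy : c1 * u * y = c1 * W := by
    rw [← hyu]
    ring
  -- a nonzero element in `Y'` when `y ≥ 2`
  have hs0 : y ≠ 1 → ∃ s ∈ YY K x, s ∈ Vp x f ∧ s ≠ 0 := by
    intro h
    have h3 : 1 < Nat.card Y' := by omega
    haveI := Finite.one_lt_card_iff_nontrivial.mp h3
    obtain ⟨⟨s, hs⟩, hs0⟩ := exists_ne (0 : Y')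
    exact ⟨s, hs.1, hs.2, fun h => hs0 (Subtype.ext h)⟩
  -- from a bound on `c1 (y-1)`
  have hfin : ∀ M N : ℕ, M * (W - 1) ≤ c1 * (y - 1) → N * (y * (y - 1)) ≤ W →
      2 ≤ M * N → 2 * (W - 1) ≤ c1 * u := by
    intro M N h1 h3 h4
    apply Nat.le_of_mul_le_mul_right _ hW0
    calc 2 * (W - 1) * W = 2 * ((W - 1) * W) := by ring
      _ ≤ (M * N) * ((W - 1) * W) := Nat.mul_le_mul_right _ h4
      _ = N * W * (M * (W - 1)) := by ring
      _ ≤ N * W * (c1 * (y - 1)) := Nat.mul_le_mul_left _ h1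
      _ = N * (c1 * W) * (y - 1) := by ring
      _ = N * (c1 * u * y) * (y - 1) := by rw [hXy]
      _ = c1 * u * (N * (y * (y - 1))) := by ring
      _ ≤ c1 * u * W := Nat.mul_le_mul_left _ h3
  by_cases hBD : BB K x ≤ DD K x
  · by_cases hy1 : y = 1
    · exact hDB hBD (Or.inl hy1)
    by_cases hmy : Fintype.card l = 2 ∧ y = q
    · exact hDB hBD (Or.inr hmy)
    obtain ⟨s, hsY, hsV, hs00⟩ := hs0 hy1
    have h1 := orbit_YY hf hsY hsV hs00
    have h3 : 0 < (DD K x).relIndex (MulAction.stabilizer (Fx x) s) := relIndex_pos _ _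
    have h4 : W - 1 ≤ c1 * (y - 1) := le_trans (Nat.le_mul_of_pos_left _ h3) h1
    have hy2 : 2 ≤ y := by omega
    have hkey : 2 * (y * (y - 1)) ≤ W := by
      by_cases hm2 : Fintype.card l = 2
      · have hW2 : W = q ^ 2 := card_Vp_two hm2 hf
        have h5 : y ≠ q := fun h => hmy ⟨hm2, h⟩
        obtain ⟨k, hk⟩ := hyq
        have hk2 : 2 ≤ k := by
          rcases k with _ | _ | k
          · omega
          · exact absurd (by simpa using hk.symm) h5
          · omega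
        have h6 : 2 * y ≤ q := by
          rw [hk, mul_comm y k]
          exact Nat.mul_le_mul_right _ hk2
        rw [hW2]
        calc 2 * (y * (y - 1)) = (2 * y) * (y - 1) := by ring
          _ ≤ q * q := Nat.mul_le_mul h6 (by omega)
          _ = q ^ 2 := by ring
      · have hm3 : 3 ≤ Fintype.card l := by omega
        have h5 : q ^ 2 * q ^ 4 ≤ q ^ 2 * W := by
          rw [hWeq, ← pow_add]
          exact Nat.pow_le_pow_right hq0 (by omega)
        have h6 : q ^ 4 ≤ W := Nat.le_of_mul_le_mul_left h5 (by positivity)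
        calc 2 * (y * (y - 1)) ≤ 2 * (q * q) := by
              apply Nat.mul_le_mul_left
              exact Nat.mul_le_mul hyle (by omega)
          _ ≤ (q * q) * (q * q) := by
              apply Nat.mul_le_mul_right
              nlinarith
          _ = q ^ 4 := by ring
          _ ≤ W := h6
    exact good_G1 hq hW1 hWeq hWq (hfin 1 2 (by simpa using h4) hkey (by norm_num))
  · have hDB' : DD K x ≤ BB K x := DD_le_BB K x
    have hidx : (DD K x).relIndex (BB K x) * (BB K x).index = (DD K x).index :=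
      Subgroup.relIndex_mul_index hDB'
    have hr1 : (DD K x).relIndex (BB K x) ≠ 1 := by
      intro h
      exact hBD (Subgroup.relIndex_eq_one.mp h)
    have hr0 : 0 < (DD K x).relIndex (BB K x) := relIndex_pos _ _
    have hr2 : 2 ≤ (DD K x).relIndex (BB K x) := by omega
    have hc1B : 2 * (BB K x).index ≤ c1 := by
      rw [hc1, ← hidx]
      exact Nat.mul_le_mul_right _ hr2
    have hB0 : 0 < (BB K x).index := Nat.pos_of_ne_zero Subgroup.index_ne_zero_of_finite
    by_cases hy1 : y = 1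
    · have hu1 : u = W := by
        rw [hy1, one_mul] at hyu
        exact hyu
      refine good_G1 hq hW1 hWeq hWq ?_
      rw [hu1]
      have h5 : 2 ≤ c1 := by omega
      calc 2 * (W - 1) ≤ 2 * W := Nat.mul_le_mul_left _ (Nat.sub_le _ _)
        _ ≤ c1 * W := Nat.mul_le_mul_right _ h5
    · obtain ⟨s, hsY, hsV, hs00⟩ := hs0 hy1
      have h1 := orbit_D hf (BB K x) (fun d hd s hs => hd s hs) hsY hsV hs00
      have h3 : 0 < (BB K x).relIndex (MulAction.stabilizer (Fx x) s) := relIndex_pos _ _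
      have h4 : W - 1 ≤ (BB K x).index * (y - 1) := le_trans (Nat.le_mul_of_pos_left _ h3) h1
      have h5 : 2 * (W - 1) ≤ c1 * (y - 1) := by
        calc 2 * (W - 1) ≤ 2 * ((BB K x).index * (y - 1)) := Nat.mul_le_mul_left _ h4
          _ = (2 * (BB K x).index) * (y - 1) := by ring
          _ ≤ _ := Nat.mul_le_mul_right _ hc1B
      refine good_G1 hq hW1 hWeq hWq (hfin 2 1 h5 ?_ (by norm_num))
      rw [one_mul]
      calc y * (y - 1) ≤ q * q := Nat.mul_le_mul hyle (by omega)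
        _ = q ^ 2 := by ring
        _ ≤ W := hWq

/-- The odd characteristic case. -/
theorem main_odd (h2 : (2 : F) ≠ 0) (hq : 3 ≤ Fintype.card F) (hm : 2 ≤ Fintype.card l)
    (hexc : ¬ (Fintype.card l = 2 ∧ Fintype.card F = 3)) {K : Subgroup (Sp l F)} (hK : K ≠ ⊤) :
    Good K := by
  classical
  obtain ⟨p, hp⟩ := CharP.exists F
  haveI : Fact p.Prime := ⟨CharP.char_is_prime F p⟩
  obtain ⟨x, c0, hx, hc0⟩ := exists_T_not_mem hK
  obtain ⟨f, hf⟩ := exists_f hx
  have hc0' : c0 ∉ AA K x := hc0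
  obtain ⟨ψ, hψ1, hψ2⟩ := exists_psi (p := p) (AA K x) hc0'
  have hψ := psi_ne_zero hψ1
  have hW1 := (numbers hq hf hc0' ψ hψ).1
  have hYU : ∀ s ∈ YY K x, s ∈ UU K x ψ := by
    intro s hs
    refine ⟨hs.1, fun s' hs' => hψ2 _ ?_⟩
    obtain ⟨h1, c, hc⟩ := hs
    obtain ⟨h3, c', hc'⟩ := hs'
    have h4 := K.mul_mem (K.mul_mem (K.mul_mem hc hc') (K.inv_mem hc)) (K.inv_mem hc')
    rw [qel_comm h1 h3] at h4
    apply half_mem _ h2
    exact h4
  have hv : ∃ v, ω x v = 0 ∧ ∀ c, qel x v c ∉ K := by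
    by_contra hcon
    push Not at hcon
    obtain ⟨y, hy, hy0⟩ := exists_Vp_ne_zero (F := F) hm x f
    obtain ⟨y', hy', hy'1⟩ := exists_Vp_ne hf hy hy0 c0
    have h3 : y ∈ YY K x := ⟨hy.1, hcon y hy.1⟩
    have h4 : y' ∈ YY K x := ⟨hy'.1, hcon y' hy'.1⟩
    have h5 := (hYU y' h4).2 y h3
    rw [hy'1] at h5
    exact hψ1 h5
  obtain ⟨v, hv, hv'⟩ := hv
  obtain ⟨w, hwU, hwV, hw0⟩ := exists_UU_ne hf hv hv' ψ hψ
  have he := orbit_UU hf ψ hwU hwV hw0
  have hWeq := card_Vp hf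
  have hWq := card_Vp_ge (F := F) hm hf
  by_cases hstab : MulAction.stabilizer (Fx x) w ≤ DD K x
  · have hYw : ∀ s ∈ YY K x, s ∈ Vp x f → ∃ κ : F, s = κ • w := by
      rcases dichotomy hf ψ hψ hwV hw0 hstab with h1 | h1
      · exact fun s hs hsV => h1 s (hYU s hs) hsV
      · exact h1
    refine flow_A2 hq hm hf ψ hψ hwV hw0 hYw hW1 (fun hBD hc => ?_)
    obtain ⟨f', hf', hLift⟩ := lift_odd h2 hf hBD
    rcases hc with hc | ⟨hm2, hc⟩
    · exact final_odd_1 h2 hq hm hexc hK hf' hLift (hYx_of_card hf hc)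
    · have hq4 : 4 ≤ Fintype.card F := by
        by_contra h
        exact hexc ⟨hm2, by omega⟩
      have hline := line_mem_of_card (S := YY K x ⊓ (Vp x f).toAddSubgroup) hw0
        (fun s hs => hYw s hs.1 hs.2) hc
      obtain ⟨w', h1, h3, h4, h5⟩ := line_data hf hf' hwV hw0 hYw (fun κ => (hline κ).1)
      exact final_odd_w hq4 hm2 hK hf' hLift h1 h3 h4 h5
  · have hr1 : (DD K x).relIndex (MulAction.stabilizer (Fx x) w) ≠ 1 := by
      intro h
      exact hstab (Subgroup.relIndex_eq_one.mp h)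
    have hr0 : 0 < (DD K x).relIndex (MulAction.stabilizer (Fx x) w) := relIndex_pos _ _
    refine good_G1 hq hW1 hWeq hWq ?_
    calc 2 * (Nat.card (Vp x f) - 1) ≤
        (DD K x).relIndex (MulAction.stabilizer (Fx x) w) * (Nat.card (Vp x f) - 1) :=
          Nat.mul_le_mul_right _ (by omega)
      _ ≤ _ := he
      _ ≤ _ := Nat.mul_le_mul_left _ (Nat.sub_le _ _)

/-- The even characteristic case at a vector. -/
theorem main_even_at (h2 : (2 : F) = 0) (hq : 3 ≤ Fintype.card F) (hm : 2 ≤ Fintype.card l)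
    {K : Subgroup (Sp l F)} (hK : K ≠ ⊤) {x v : l ⊕ l → F} (hx : x ≠ 0) (hS : ¬ Sg K x)
    (hv : ω x v = 0) (hv' : ∀ c, qel x v c ∉ K) : Good K := by
  classical
  obtain ⟨p, hp⟩ := CharP.exists F
  haveI : Fact p.Prime := ⟨CharP.char_is_prime F p⟩
  obtain ⟨f, hf⟩ := exists_f hx
  have hc0' : ∃ c0, c0 ∉ AA K x := by
    by_contra hcon
    push Not at hcon
    exact hS hcon
  obtain ⟨c0, hc0'⟩ := hc0'
  obtain ⟨ψ, hψ1, hψ2⟩ := exists_psi (p := p) (AA K x) hc0'
  have hψ := psi_ne_zero hψ1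
  obtain ⟨hW1, hev⟩ := numbers hq hf hc0' ψ hψ
  obtain ⟨w, hwU, hwV, hw0⟩ := exists_UU_ne hf hv hv' ψ hψ
  have he := orbit_UU hf ψ hwU hwV hw0
  have hWeq := card_Vp hf
  have hWq := card_Vp_ge (F := F) hm hf
  have hr0 : 0 < (DD K x).relIndex (MulAction.stabilizer (Fx x) w) := relIndex_pos _ _
  rcases hev h2 with ⟨ha1, ht, hcrit⟩ | hE1
  · -- the critical case
    have hA : ∀ d, T x d ∈ K → d = 0 := by
      intro d hd
      rw [Nat.card_eq_one_iff_unique] at ha1
      have := ha1.1.elim (⟨d, hd⟩ : AA K x) 0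
      exact congrArg Subtype.val this
    by_cases hstab : MulAction.stabilizer (Fx x) w ≤ DD K x
    · have hflow : (∀ s ∈ YY K x, s ∈ Vp x f → ∃ κ : F, s = κ • w) → Good K := by
        intro hYw
        refine flow_A2 hq hm hf ψ hψ hwV hw0 hYw hW1 (fun hBD hc => ?_)
        -- an element of the torus
        obtain ⟨c, hc0, hc1⟩ := exists_ne_zero_one hq
        have hc2 : c ^ 2 ≠ 1 := by
          intro h3
          apply hc1
          have h4 : (c - 1) ^ 2 = 0 := by
            have e : (c - 1) ^ 2 = c ^ 2 + 1 - 2 * c := by ring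
            rw [e, h3, h2, zero_mul, sub_zero]
            have : (1 : F) + 1 = 2 := by norm_num
            rw [this, h2]
          exact sub_eq_zero.mp (pow_eq_zero_iff two_ne_zero |>.mp h4)
        have hT1 : T1 K x = ⊤ := by
          apply Subgroup.eq_top_of_card_eq
          have h7 : Nat.card Fˣ = Fintype.card F - 1 := by
            rw [Nat.card_units, Nat.card_eq_fintype_card]
          rw [h7]
          omega
        have hmem : Units.mk0 c hc0 ∈ T1 K x := by
          rw [hT1]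
          trivial
        obtain ⟨s0, hs0, hs0x⟩ := hmem
        have hs0x' : s0 • x = c • x := hs0x
        rcases hc with hc | ⟨hm2, hc⟩
        · have hYx := hYx_of_card hf hc
          obtain ⟨f', hf', hLift⟩ := lift_even hc0 hc2 hf hBD (fun a _ s hs => by
            obtain ⟨β, rfl⟩ := hYx s hs
            rw [smul_smul]
            exact smul_x_mem_YY K x _) hs0 hs0x' hA
          exact final_even_1 hq hm hK hf' hLift hYx
        · have hline := line_mem_of_card (S := YY K x ⊓ (Vp x f).toAddSubgroup) hw0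
            (fun s hs => hYw s hs.1 hs.2) hc
          obtain ⟨w', h1, h3, h4, h5⟩ := line_data hf hf hwV hw0 hYw (fun κ => (hline κ).1)
          obtain ⟨f', hf', hLift⟩ := lift_even hc0 hc2 hf hBD (fun a _ s hs => by
            obtain ⟨α, β, rfl⟩ := h4 s hs
            rw [smul_add, smul_smul, smul_smul]
            exact h5 _ _) hs0 hs0x' hA
          obtain ⟨w'', h1', h3', h4', h5'⟩ := line_data hf hf' hwV hw0 hYw (fun κ => (hline κ).1)
          exact final_even_w hq hm2 hK hf' hLift h1' h3' h4' h5'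
      rcases dichotomy hf ψ hψ hwV hw0 hstab with hU | hYw
      · by_cases hm3 : 3 ≤ Fintype.card l
        · exact (A1_contra h2 hq hm3 hf ψ hψ hwV hw0 hU hstab hA).elim
        have hm2 : Fintype.card l = 2 := by omega
        set U' : AddSubgroup (l ⊕ l → F) := UU K x ψ ⊓ (Vp x f).toAddSubgroup with hU'
        have hU'line : ∀ s ∈ U', ∃ κ : F, s = κ • w := fun s hs => hU s hs.1 hs.2
        have huq := card_dvd_of_line hw0 hU'line
        by_cases hu : Nat.card U' = Fintype.card F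
        · -- the line lies in `UU`, so `YY` is in the line
          have hline := line_mem_of_card hw0 hU'line hu
          apply hflow
          intro s hs hsV
          obtain ⟨t, ht1, ht2⟩ := exists_Vp_ne hf hwV hw0 (-1)
          have hwt : ω w t = 1 := by rw [ω_comm, ht2]; ring
          obtain ⟨α, β, hαβ⟩ := Vp_two_span hm2 hf hwV ht1 (by rw [hwt]; exact one_ne_zero) s hsV
          have hβ : β = 0 := by
            by_contra hβ
            apply hψ
            ext c
            have h3 := (hline (c * (ω w s)⁻¹)).1.2 s hs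
            have hws : ω w s ≠ 0 := by
              rw [hαβ, ω_add_right, ω_smul_right, ω_smul_right, ω_self, hwt]
              simpa using hβ
            rw [ω_smul_left, mul_assoc, inv_mul_cancel₀ hws, mul_one] at h3
            exact h3
          exact ⟨α, by rw [hαβ, hβ, zero_smul, add_zero]⟩
        · have hu2 : 2 ≤ Nat.card U' := by
            have h3 : w ∈ U' := ⟨hwU, hwV⟩
            have h4 : 1 < Nat.card U' := by
              haveI : Nontrivial U' := ⟨⟨⟨w, h3⟩, 0, fun h => hw0 (congrArg Subtype.val h)⟩⟩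
              exact Finite.one_lt_card
            omega
          have hu3 : 2 * Nat.card U' ≤ Fintype.card F := by
            obtain ⟨k, hk⟩ := huq
            have hk2 : 2 ≤ k := by
              rcases k with _ | _ | k
              · have : 0 < Fintype.card F := Fintype.card_pos
                omega
              · exact absurd (by simpa using hk.symm) hu
              · omega
            calc 2 * Nat.card U' ≤ k * Nat.card U' := Nat.mul_le_mul_right _ hk2
              _ = Fintype.card F := by rw [hk]; ring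
          refine good_crit_two hq hm2 hcrit hu2 hu3 ?_
          have h5 := Nat.le_mul_of_pos_left (Nat.card (Vp x f) - 1) hr0
          rw [card_Vp_two hm2 hf] at h5 he
          exact le_trans h5 he
      · exact hflow hYw
    · have hr1 : (DD K x).relIndex (MulAction.stabilizer (Fx x) w) ≠ 1 := by
        intro h
        exact hstab (Subgroup.relIndex_eq_one.mp h)
      refine good_G1 hq hW1 hWeq hWq ?_
      calc 2 * (Nat.card (Vp x f) - 1) ≤
          (DD K x).relIndex (MulAction.stabilizer (Fx x) w) * (Nat.card (Vp x f) - 1) :=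
            Nat.mul_le_mul_right _ (by omega)
        _ ≤ _ := he
        _ ≤ _ := Nat.mul_le_mul_left _ (Nat.sub_le _ _)
  · refine good_G2 hq hE1 hWeq hWq ?_
    calc Nat.card (Vp x f) - 1 ≤
        (DD K x).relIndex (MulAction.stabilizer (Fx x) w) * (Nat.card (Vp x f) - 1) :=
          Nat.le_mul_of_pos_left _ hr0
      _ ≤ _ := he
      _ ≤ _ := Nat.mul_le_mul_left _ (Nat.sub_le _ _)

/-- **The lower bound**. -/
theorem index_ge_main (hq : 3 ≤ Fintype.card F) (hm : 2 ≤ Fintype.card l)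
    (hexc : ¬ (Fintype.card l = 2 ∧ Fintype.card F = 3)) {K : Subgroup (Sp l F)} (hK : K ≠ ⊤) :
    Good K := by
  by_cases h2 : (2 : F) = 0
  · by_contra hg
    refine caseB h2 hq hm hK (fun x hx hS v hv => ?_)
    by_contra hc
    push Not at hc
    exact hg (main_even_at h2 hq hm hK hx hS hv hc)
  · exact main_odd h2 hq hm hexc hK

/-- The index of the point stabiliser. -/
theorem mul_index_Pt {x : l ⊕ l → F} (hx : x ≠ 0) :
    (Fintype.card F - 1) * (Pt x hx).index + 1 = Fintype.card F ^ (2 * Fintype.card l) := by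
  classical
  set P := Pt x hx with hP
  have hle : Fx x ≤ P := Fx_le_Pt x hx
  have hA1 := Cfsg.Agent.Lib.PSUIdx.card_orbit_eq (Fx x) P (fun g => g • x) (hain x)
  have hinj : ∀ c d : F, c • x = d • x → c = d := by
    intro c d h
    obtain ⟨f, hf⟩ := exists_f hx
    have := congrArg (fun z => ω z f) h
    simpa [ω_smul_left, hf] using this
  have hB1 : Nat.card ((fun g : Sp l F => g • x) '' (P : Set (Sp l F))) = Fintype.card F - 1 := by
    have : Nat.card ((fun g : Sp l F => g • x) '' (P : Set (Sp l F))) = Nat.card Fˣ := by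
      symm
      refine Nat.card_congr (Equiv.ofBijective (fun c : Fˣ => ⟨(c : F) • x, ?_⟩) ⟨?_, ?_⟩)
      · have hc : (c : F) • x ≠ 0 := smul_ne_zero c.ne_zero hx
        obtain ⟨g, hg⟩ := exists_smul_eq_of_ne_zero hx hc
        exact ⟨g, ⟨c, hg⟩, hg⟩
      · intro c d h
        exact Units.ext (hinj _ _ (congrArg Subtype.val h))
      · rintro ⟨_, g, ⟨c, hc⟩, rfl⟩
        have hc0 : c ≠ 0 := by
          rintro rfl
          rw [zero_smul] at hc
          have : g⁻¹ • (g • x) = g⁻¹ • (0 : l ⊕ l → F) := by rw [hc]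
          rw [inv_smul_smul] at this
          exact hx (by simpa using this)
        refine ⟨Units.mk0 c hc0, Subtype.ext ?_⟩
        exact hc.symm
    rw [this, Nat.card_units, Nat.card_eq_fintype_card]
  rw [hB1] at hA1
  rw [hA1, Subgroup.relIndex_mul_index hle]
  exact index_Fx hx

end Cfsg.Agent.Lib.SpIdx
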