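import Mathlib
import Cfsg.Agent.Lib.OmK
import Cfsg.Agent.Lib.SympT

/-!
# Symplectic groups and quadratic extension fields

`f` a symplectic form, `w` skew-adjoint with `w² = d` a non-square. `Q x = f (w x) x` is a quadratic form for which
`(Q, w)` has the structure `KS`. A subgroup of `Sp` containing the unitary transvections and an element not preserving
the `K`-lines of `Q`-singular vectors contains all symplectic transvections.
-/

set_option autoImplicit false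
set_option linter.unusedSectionVars false
set_option linter.unusedVariables false

namespace Cfsg.Agent.Lib.SpK

open Matrix QuadraticMap Cfsg Cfsg.Geo Module
open Cfsg.Agent.Lib.OrthoBasic Cfsg.Agent.Lib.OrthoSiegel Cfsg.Agent.Lib.OmCalc Cfsg.Agent.Lib.TvGL
  Cfsg.Agent.Lib.OmPerp Cfsg.Agent.Lib.OmNd Cfsg.Agent.Lib.OmK
open Cfsg.Agent.Lib.SympT (GL_ext mulVec_mul_GL mulVec_inv_GL inv_mulVec_GL linOf linOf_apply finrank_le_of_maps tvS tvS_apply tvS_pres TS TS_span pres_apply f_neg_right f_neg_left f_sub_left f_sub_right f_zero_left f_zero_right)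
open Cfsg.Agent.Lib.QuadFF (nondegenerate_of_ND polar_sm_r polar_sm_l Q_ad Q_sm IsHyp ND restr polar_restr restr_apply)
open Cfsg.Agent.Lib.OmGeo (exists_hyp_perp)
open Cfsg.Agent.Lib.SympTIPair (finrank_span_three finrank_span_two finrank_span_one le_or_le_of_union)

local notation:70 g:71 " ⋆ " x:70 => Matrix.mulVec (Units.val g) x

variable {ι : Type} [Fintype ι] [DecidableEq ι] {F : Type*} [Field F] [Fintype F]
  {Q : QuadraticForm F (ι → F)} {w : (ι → F) →ₗ[F] (ι → F)} {τ c : F}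

/-- Closure of a set of axes under the unitary transvections fixing `b`. -/
def Clos (Q : QuadraticForm F (ι → F)) (w : (ι → F) →ₗ[F] (ι → F)) (b : ι → F) (S : AddSubgroup (ι → F)) : Prop :=
  ∀ y ∈ S, ∀ v, Q v = 0 → polar Q b v = 0 → polar Q (w b) v = 0 → ∀ l : F, l • (polar Q y v • w v - polar Q y (w v) • v) ∈ S

/-- Two scalars can be reached by a transvection acting on a full `K`-line. -/
theorem gen_abs (hK : KS Q w τ c) {S : AddSubgroup (ι → F)} {b x v : ι → F} (hS : Clos Q w b S)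
    (hx : ∀ α β : F, α • x + β • w x ∈ S) (hv : Q v = 0) (h1 : polar Q b v = 0) (h2 : polar Q (w b) v = 0)
    (hne : polar Q x v ≠ 0 ∨ polar Q x (w v) ≠ 0) (γ ε : F) : γ • v + ε • w v ∈ S := by
  set p' := polar Q x v with hp'
  set s' := polar Q x (w v) with hs'
  have hD : c * p' ^ 2 - τ * p' * s' + s' ^ 2 ≠ 0 := by
    intro h
    obtain ⟨h3, h4⟩ := hK.irr _ _ h
    rcases hne with h5 | h5
    · exact h5 h3
    · exact h5 h4
  set D := c * p' ^ 2 - τ * p' * s' + s' ^ 2 with hDd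
  have hDi : D⁻¹ * D = 1 := inv_mul_cancel₀ hD
  set α : F := D⁻¹ * (ε * c * p' + γ * (τ * p' - s')) with hα
  set β : F := D⁻¹ * (-γ * p' - ε * s') with hβ
  have h3 := hS _ (hx α β) v hv h1 h2 1
  have hA : polar Q (α • x + β • w x) v = ε := by
    rw [polar_add_left, polar_sm_l, polar_sm_l, hK.adj, ← hp', ← hs', hα, hβ]
    rw [hDd] at hDi ⊢
    linear_combination ε * hDi
  have hB : polar Q (α • x + β • w x) (w v) = -γ := by
    rw [polar_add_left, polar_sm_l, polar_sm_l, hK.pww, ← hp', ← hs', hα, hβ]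
    rw [hDd] at hDi ⊢
    linear_combination (-γ) * hDi
  rw [hA, hB] at h3
  convert h3 using 1
  module

/-- The main propagation. -/
theorem pi_abs (h14 : 14 ≤ Fintype.card ι) (hQ' : Nondeg Q) (hK : KS Q w τ c) {S : AddSubgroup (ι → F)} {b y₀ : ι → F}
    (hS : Clos Q w b S) (hb : Q b = 0) (hy₀ : Q y₀ = 0) (h1 : polar Q b y₀ = 0) (h2 : polar Q (w b) y₀ = 0) (h3 : y₀ ∉ KL w b)
    (hR : y₀ ∈ S) {y : ι → F} (hy : Q y = 0) (hby : polar Q b y = 0) (hwby : polar Q (w b) y = 0)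
    (hyk : y ∉ KL w b) : y ∈ S := by
  classical
  have hwy₀ : w y₀ ∉ KL w b ⊔ Submodule.span F {y₀} := by
    intro hmem
    obtain ⟨k, hk, z, hz, hkz⟩ := Submodule.mem_sup.1 hmem
    obtain ⟨γ, rfl⟩ := Submodule.mem_span_singleton.1 hz
    apply h3
    refine inv_step hK (fun x hx => KL_stable hK hx) (a := -γ) (b := 1) ?_ (Or.inr one_ne_zero)
    have : -γ • y₀ + (1 : F) • w y₀ = k := by
      rw [← hkz, one_smul, neg_smul]
      abel
    rw [this]
    exact hk
  obtain ⟨z₀, hz₀, hz₀'⟩ := exists_sep hQ' hwy₀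
  obtain ⟨p₀, h4, hQp₀⟩ := Cfsg.Agent.Lib.OmGeo.prescribed (nd_of hQ') ({b, w b, y₀, w y₀} : Finset (ι → F)) z₀ 0 (by
    have : ({b, w b, y₀, w y₀} : Finset (ι → F)).card ≤ 4 := Finset.card_le_four
    simp only [Module.finrank_fintype_fun_eq_card]
    omega)
  have hρ : polar Q (w y₀) p₀ ≠ 0 := by
    rw [h4 _ (by simp)]
    exact hz₀'
  set ρ := polar Q (w y₀) p₀ with hρd
  set p : ι → F := ρ⁻¹ • p₀ with hp
  have hQp : Q p = 0 := by rw [hp, Q_sm, hQp₀, mul_zero]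
  have hbp : polar Q b p = 0 := by
    rw [hp, polar_sm_r, h4 _ (by simp), hz₀ _ (Submodule.mem_sup_left (self_mem_KL _)), mul_zero]
  have hwbp : polar Q (w b) p = 0 := by
    rw [hp, polar_sm_r, h4 _ (by simp), hz₀ _ (Submodule.mem_sup_left (w_mem_KL _)), mul_zero]
  have hy₀p : polar Q y₀ p = 0 := by
    rw [hp, polar_sm_r, h4 _ (by simp), hz₀ _ (Submodule.mem_sup_right (Submodule.mem_span_singleton_self _)), mul_zero]
  have hwy₀p : polar Q (w y₀) p = 1 := by
    rw [hp, polar_sm_r, ← hρd]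
    exact inv_mul_cancel₀ hρ
  have hy₀wp : polar Q y₀ (w p) = -1 := by
    have := hK.adj y₀ p
    rw [hy₀p, hwy₀p] at this
    linear_combination this
  have hRp : ∀ l : F, l • p ∈ S := by
    intro l
    have h5 := hS _ hR p hQp hbp hwbp l
    rw [hy₀p, hy₀wp] at h5
    convert h5 using 1
    module
  -- the orthogonal complement of the two `K`-lines
  have hww₀ : polar Q y₀ (w y₀) = 0 := hK.perp_w hy₀
  have hpp₀ : polar Q p (w p) = 0 := hK.perp_w hQp
  have hself : ∀ {z : ι → F}, Q z = 0 → polar Q z z = 0 := fun hz => polar_self_zero hz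
  have hNnd : ∀ x ∈ KL w y₀ ⊔ KL w p, (∀ z ∈ KL w y₀ ⊔ KL w p, polar Q x z = 0) → x = 0 := by
    intro x hx hxz
    obtain ⟨k, hk, m, hm, rfl⟩ := Submodule.mem_sup.1 hx
    obtain ⟨α, β, rfl⟩ := mem_KL.1 hk
    obtain ⟨γ, δ, rfl⟩ := mem_KL.1 hm
    have e1 := hxz (w p) (Submodule.mem_sup_right (w_mem_KL _))
    have e2 := hxz p (Submodule.mem_sup_right (self_mem_KL _))
    have e3 := hxz (w y₀) (Submodule.mem_sup_left (w_mem_KL _))
    have e4 := hxz y₀ (Submodule.mem_sup_left (self_mem_KL _))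
    simp only [polar_add_left, polar_sm_l] at e1 e2 e3 e4
    have h6 : polar Q p y₀ = 0 := by rw [polar_comm]; exact hy₀p
    have h7 : polar Q (w p) y₀ = -1 := by rw [polar_comm]; exact hy₀wp
    have h8 : polar Q p (w y₀) = 1 := by rw [polar_comm]; exact hwy₀p
    have h9 : polar Q (w p) p = 0 := by rw [polar_comm]; exact hpp₀
    have h10 : polar Q (w y₀) y₀ = 0 := by rw [polar_comm]; exact hww₀
    rw [hy₀wp, hK.pww, hy₀p, hpp₀, hK.pww, hself hQp] at e1
    rw [hy₀p, hwy₀p, hself hQp, h9] at e2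
    rw [hww₀, hK.pww, hself hy₀, h8, hK.pww, h6] at e3
    rw [hself hy₀, h10, h6, h7] at e4
    have a1 : α = 0 := by linear_combination -e1
    have a2 : β = 0 := by linear_combination e2
    have a3 : γ = 0 := by linear_combination e3
    have a4 : δ = 0 := by linear_combination -e4
    rw [a1, a2, a3, a4]
    simp
  have hop := opair_of_nondeg hQ' hNnd
  have hperp : ∀ z, polar Q y₀ z = 0 → polar Q (w y₀) z = 0 → polar Q p z = 0 → polar Q (w p) z = 0 →
      z ∈ perpQ Q (KL w y₀ ⊔ KL w p) := by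
    intro z a1 a2 a3 a4
    rw [mem_perpQ]
    intro x hx
    obtain ⟨k, hk, m, hm, rfl⟩ := Submodule.mem_sup.1 hx
    rw [polar_add_left, perp_KL hK a1 a2 hk, perp_KL hK a3 a4 hm, add_zero]
  have hy₀b : polar Q y₀ b = 0 := by rw [polar_comm]; exact h1
  have hy₀wb : polar Q y₀ (w b) = 0 := by rw [polar_comm]; exact h2
  have hpb : polar Q p b = 0 := by rw [polar_comm]; exact hbp
  have hpwb : polar Q p (w b) = 0 := by rw [polar_comm]; exact hwbp
  have hbN : b ∈ perpQ Q (KL w y₀ ⊔ KL w p) :=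
    hperp b hy₀b (hK.polar_w_of hy₀b hy₀wb) hpb (hK.polar_w_of hpb hpwb)
  have hwbN : w b ∈ perpQ Q (KL w y₀ ⊔ KL w p) := by
    refine hperp _ hy₀wb ?_ hpwb ?_
    · rw [hK.pww, hy₀b, mul_zero]
    · rw [hK.pww, hpb, mul_zero]
  have hfN : finrank F ↥(perpQ Q (KL w y₀ ⊔ KL w p)) = Fintype.card ι - finrank F ↥(KL w y₀ ⊔ KL w p) :=
    finrank_perpQ hQ' _
  have hfN2 : finrank F ↥(KL w y₀ ⊔ KL w p) ≤ 4 := by
    have a1 : finrank F ↥(KL w y₀) ≤ 2 := finrank_span_two _ _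
    have a2 : finrank F ↥(KL w p) ≤ 2 := finrank_span_two _ _
    have a3 := Submodule.finrank_add_le_finrank_add_finrank (KL w y₀) (KL w p)
    omega
  obtain ⟨a₁, ha₁, a₂, ha₂, hH, hbb⟩ := hop.hyp_in hQ' (C := {b, w b}) (by
    intro x hx
    simp only [Finset.mem_insert, Finset.mem_singleton] at hx
    rcases hx with rfl | rfl
    · exact hbN
    · exact hwbN) (by
    have : ({b, w b} : Finset (ι → F)).card ≤ 2 := Finset.card_le_two
    omega)
  set n' : ι → F := a₁ - a₂ with hn'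
  have hnN : n' ∈ perpQ Q (KL w y₀ ⊔ KL w p) := Submodule.sub_mem _ ha₁ ha₂
  have hn1 : polar Q y₀ n' = 0 := mem_perpQ.1 hnN _ (Submodule.mem_sup_left (self_mem_KL _))
  have hn2 : polar Q (w y₀) n' = 0 := mem_perpQ.1 hnN _ (Submodule.mem_sup_left (w_mem_KL _))
  have hn3 : polar Q p n' = 0 := mem_perpQ.1 hnN _ (Submodule.mem_sup_right (self_mem_KL _))
  have hn4 : polar Q (w p) n' = 0 := mem_perpQ.1 hnN _ (Submodule.mem_sup_right (w_mem_KL _))
  have hn5 : polar Q b n' = 0 := by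
    rw [hn', polar_sub_right, (hbb b (by simp)).1, (hbb b (by simp)).2, sub_zero]
  have hn6 : polar Q (w b) n' = 0 := by
    rw [hn', polar_sub_right, (hbb (w b) (by simp)).1, (hbb (w b) (by simp)).2, sub_zero]
  have hQn : Q n' = -1 := by
    rw [hn', sub_eq_add_neg, Q_ad, QuadraticMap.map_neg, polar_neg_right, hH.Qv, hH.Qw, hH.vw]
    ring
  set v : ι → F := w y₀ + p + n' with hv
  have hQwy₀ : Q (w y₀) = 0 := hK.sing_w hy₀
  have hQv : Q v = 0 := by
    rw [hv, Q_ad, Q_ad, polar_add_left, hQwy₀, hQp, hQn, hwy₀p, hn2, hn3]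
    ring
  have hbv : polar Q b v = 0 := by
    have a1 : polar Q b (w y₀) = 0 := by rw [polar_comm]; exact hK.polar_w_of hy₀b hy₀wb
    rw [hv, polar_add_right, polar_add_right, a1, hbp, hn5]
    ring
  have hwbv : polar Q (w b) v = 0 := by
    have a1 : polar Q (w b) (w y₀) = 0 := by rw [hK.pww, h1, mul_zero]
    rw [hv, polar_add_right, polar_add_right, a1, hwbp, hn6]
    ring
  have hwv : w v = w (w y₀) + w p + w n' := by rw [hv, map_add, map_add]
  have hy₀v : polar Q y₀ v = 0 := by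
    rw [hv, polar_add_right, polar_add_right, hww₀, hy₀p, hn1]
    ring
  have hy₀wv : polar Q y₀ (w v) = -1 := by
    rw [hwv, polar_add_right, polar_add_right, hK.polar_ww_right, hww₀, hself hy₀, hy₀wp,
      hK.polar_of_w hn1 hn2]
    ring
  have hpv : polar Q p v = 1 := by
    have a1 : polar Q p (w y₀) = 1 := by rw [polar_comm]; exact hwy₀p
    rw [hv, polar_add_right, polar_add_right, a1, hself hQp, hn3]
    ring
  have hpwv : polar Q p (w v) = τ := by
    have a1 : polar Q p (w y₀) = 1 := by rw [polar_comm]; exact hwy₀p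
    have a2 : polar Q p y₀ = 0 := by rw [polar_comm]; exact hy₀p
    rw [hwv, polar_add_right, polar_add_right, hK.polar_ww_right, a1, a2, hpp₀, hK.polar_of_w hn3 hn4]
    ring
  have hRv : ∀ α β : F, α • v + β • w v ∈ S := by
    intro α β
    have a1 := hS _ hR v hQv hbv hwbv (α + β * τ)
    have a2 : p ∈ S := by simpa using hRp 1
    have a3 := hS _ a2 v hQv hbv hwbv β
    rw [hy₀v, hy₀wv] at a1
    rw [hpv, hpwv] at a3
    have a4 := S.add_mem a1 a3
    convert a4 using 1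
    module
  have hvk : v ∉ KL w b := by
    intro h
    have a1 := perp_KL hK h1 h2 (KL_stable hK h)
    rw [polar_comm, hy₀wv] at a1
    exact neg_ne_zero.2 one_ne_zero a1
  obtain ⟨z₁, h5, h6⟩ := exists_sep hQ' hvk
  obtain ⟨z₂, h7, h8⟩ := exists_sep hQ' hyk
  obtain ⟨z₃, h9, h10, h11⟩ : ∃ z₃, (∀ x ∈ KL w b, polar Q x z₃ = 0) ∧ polar Q v z₃ ≠ 0 ∧ polar Q y z₃ ≠ 0 := by
    by_cases ha : polar Q y z₁ = 0
    · by_cases hb' : polar Q v z₂ = 0
      · refine ⟨z₁ + z₂, fun x hx => ?_, ?_, ?_⟩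
        · rw [polar_add_right, h5 x hx, h7 x hx, add_zero]
        · rwa [polar_add_right, hb', add_zero]
        · rwa [polar_add_right, ha, zero_add]
      · exact ⟨z₂, h7, hb', h8⟩
    · exact ⟨z₁, h5, h6, ha⟩
  obtain ⟨v₄, h12, hQv₄⟩ := Cfsg.Agent.Lib.OmGeo.prescribed (nd_of hQ') ({b, w b, v, y} : Finset (ι → F)) z₃ 0 (by
    have : ({b, w b, v, y} : Finset (ι → F)).card ≤ 4 := Finset.card_le_four
    simp only [Module.finrank_fintype_fun_eq_card]
    omega)
  have hbv₄ : polar Q b v₄ = 0 := by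
    rw [h12 _ (by simp)]
    exact h9 _ (self_mem_KL _)
  have hwbv₄ : polar Q (w b) v₄ = 0 := by
    rw [h12 _ (by simp)]
    exact h9 _ (w_mem_KL _)
  have hvv₄ : polar Q v v₄ ≠ 0 := by
    rw [h12 _ (by simp)]
    exact h10
  have hyv₄ : polar Q y v₄ ≠ 0 := by
    rw [h12 _ (by simp)]
    exact h11
  have h13 := gen_abs hK hS hRv hQv₄ hbv₄ hwbv₄ (Or.inl hvv₄)
  have h14' := gen_abs hK hS h13 hy hby hwby (Or.inl (by rwa [polar_comm]))
  simpa using h14' 1 0


/-! ### Geometry of `K`-lines -/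

theorem sing_KL (hK : KS Q w τ c) {v x : ι → F} (hv : Q v = 0) (hx : x ∈ KL w v) : Q x = 0 := by
  obtain ⟨α, β, rfl⟩ := mem_KL.1 hx
  rw [Q_ad, Q_sm, Q_sm, hv, hK.sing_w hv, polar_sm_l, polar_sm_r, hK.perp_w hv]
  ring

theorem perp_KL2 (hK : KS Q w τ c) {a b x y : ι → F} (h1 : polar Q a b = 0) (h2 : polar Q (w a) b = 0)
    (hx : x ∈ KL w a) (hy : y ∈ KL w b) : polar Q x y = 0 := by
  obtain ⟨α, β, rfl⟩ := mem_KL.1 hy
  obtain ⟨α', β', rfl⟩ := mem_KL.1 hx
  have h3 : polar Q a (w b) = 0 := hK.polar_of_w h1 h2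
  have h4 : polar Q (w a) (w b) = 0 := by rw [hK.pww, h1, mul_zero]
  simp only [polar_add_left, polar_add_right, polar_sm_l, polar_sm_r, h1, h2, h3, h4]
  ring

theorem KL_eq_zero (hK : KS Q w τ c) {a b : F} {z : ι → F} (h : a • z + b • w z = 0) (hab : a ≠ 0 ∨ b ≠ 0) : z = 0 := by
  have : z ∈ (⊥ : Submodule F (ι → F)) := by
    refine inv_step hK (U := ⊥) (fun y hy => ?_) (a := a) (b := b) ?_ hab
    · rw [Submodule.mem_bot] at hy ⊢
      rw [hy, map_zero]
    · rw [h]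
      exact Submodule.zero_mem _
  simpa using this

/-! ### The symplectic calculus -/

section Sp

variable {f : (ι → F) → (ι → F) → F} {d : F} {M : Subgroup (GL ι F)}

/-- The data relating the symplectic form and the quadratic form. -/
structure SK (Q : QuadraticForm F (ι → F)) (f : (ι → F) → (ι → F) → F) (w : (ι → F) →ₗ[F] (ι → F)) (d : F) : Prop where
  hf : IsSymplecticForm f
  skew_w : ∀ x y, f (w x) y = - f x (w y)
  ww : ∀ x, w (w x) = d • x
  two : (2 : F) ≠ 0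
  d0 : d ≠ 0
  Q_eq : ∀ x, Q x = f (w x) x
  ks : KS Q w 0 (-d)
  nd : Nondeg Q

theorem SK.polar_eq (h : SK Q f w d) (x y : ι → F) : polar Q x y = 2 * f (w x) y := by
  rw [polar, h.Q_eq, h.Q_eq, h.Q_eq, map_add, h.hf.bilinear.add_left, h.hf.bilinear.add_right, h.hf.bilinear.add_right,
    h.hf.skew (w y) x, h.skew_w x y, h.hf.skew x (w y)]
  ring

theorem SK.f_eq (h : SK Q f w d) (x y : ι → F) : f x y = (2 * d)⁻¹ * polar Q (w x) y := by
  rw [h.polar_eq, h.ww, h.hf.bilinear.smul_left, ← mul_assoc, ← mul_assoc, mul_assoc (2 * d)⁻¹ 2 d,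
    mul_comm 2 d, inv_mul_cancel₀ (mul_ne_zero h.two h.d0 |> fun h' => by rwa [mul_comm] at h'), one_mul] 

/-- Action of the elements of a Heisenberg group with centre `e`. -/
def IsG (f : (ι → F) → (ι → F) → F) (g : GL ι F) (e y : ι → F) (γ : F) : Prop :=
  ∀ x, g ⋆ x = x + f x e • y + f x y • e + (γ * f x e) • e

/-- The conjugates of unitary transvections. -/
def IsA (f : (ι → F) → (ι → F) → F) (d : F) (g : GL ι F) (X Y : ι → F) : Prop :=
  ∀ x, g ⋆ x = x + (d * f x X) • X - f x Y • Y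

theorem IsG.mul (hf : IsSymplecticForm f) {g₁ g₂ : GL ι F} {e y₁ y₂ : ι → F} {γ₁ γ₂ : F} (H₁ : IsG f g₁ e y₁ γ₁)
    (H₂ : IsG f g₂ e y₂ γ₂) (h1 : f e y₁ = 0) (h2 : f e y₂ = 0) :
    IsG f (g₁ * g₂) e (y₁ + y₂) (γ₁ + γ₂ + f y₂ y₁) := by
  intro x
  have hee : f e e = 0 := hf.alternating e
  have hy₂e : f y₂ e = 0 := by rw [hf.skew, h2, neg_zero]
  rw [mulVec_mul_GL, H₂ x, H₁]
  simp only [hf.bilinear.add_left, hf.bilinear.smul_left, hf.bilinear.add_right, hee, hy₂e, h1]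
  module

theorem IsG.conj {g t : GL ι F} {e y : ι → F} {γ : F} (H : IsG f g e y γ) (ht : t ∈ preserving (glToMat ι F) f) :
    IsG f (t * g * t⁻¹) (t ⋆ e) (t ⋆ y) γ := by
  intro x
  have h1 : ∀ z, f (t⁻¹ ⋆ x) z = f x (t ⋆ z) := by
    intro z
    have := pres_apply ht (t⁻¹ ⋆ x) z
    rw [mulVec_inv_GL] at this
    exact this.symm
  rw [mulVec_mul_GL, mulVec_mul_GL, H, h1, h1, Matrix.mulVec_add, Matrix.mulVec_add, Matrix.mulVec_add, Matrix.mulVec_smul,
    Matrix.mulVec_smul, Matrix.mulVec_smul, mulVec_inv_GL]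

theorem IsA.conj {g t : GL ι F} {X Y : ι → F} (H : IsA f d g X Y) (ht : t ∈ preserving (glToMat ι F) f) :
    IsA f d (t * g * t⁻¹) (t ⋆ X) (t ⋆ Y) := by
  intro x
  have h1 : ∀ z, f (t⁻¹ ⋆ x) z = f x (t ⋆ z) := by
    intro z
    have := pres_apply ht (t⁻¹ ⋆ x) z
    rw [mulVec_inv_GL] at this
    exact this.symm
  rw [mulVec_mul_GL, mulVec_mul_GL, H, h1, h1, Matrix.mulVec_sub, Matrix.mulVec_add, Matrix.mulVec_smul,
    Matrix.mulVec_smul, mulVec_inv_GL]

theorem IsA.quot (hf : IsSymplecticForm f) {g g' : GL ι F} {X Y δ : ι → F} (hA : IsA f d g X Y)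
    (hB : IsA f d g' X (Y + δ)) (h1 : f X Y = 0) (h2 : f X δ = 0) (h3 : f Y δ = 0) :
    IsG f (g⁻¹ * g') δ (-Y) (-1) := by
  intro x
  rw [mulVec_mul_GL]
  set z : ι → F := x + f x δ • (-Y) + f x (-Y) • δ + ((-1 : F) * f x δ) • δ with hz
  have hYX : f Y X = 0 := by rw [hf.skew, h1, neg_zero]
  have hδX : f δ X = 0 := by rw [hf.skew, h2, neg_zero]
  have hδY : f δ Y = 0 := by rw [hf.skew, h3, neg_zero]
  have e1 : f z X = f x X := by
    rw [hz]
    simp only [hf.bilinear.add_left, hf.bilinear.smul_left, f_neg_left hf.bilinear, hYX, hδX]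
    ring
  have e2 : f z Y = f x Y := by
    rw [hz]
    simp only [hf.bilinear.add_left, hf.bilinear.smul_left, f_neg_left hf.bilinear, hf.alternating, hδY]
    ring
  have e3 : g' ⋆ x = g ⋆ z := by
    rw [hB x, hA z, e1, e2, hz, hf.bilinear.add_right, f_neg_right hf.bilinear]
    module
  rw [e3, inv_mulVec_GL]

/-- The axes of the elements of `M` in the Heisenberg group with centre `e`. -/
def SS (hf : IsSymplecticForm f) (M : Subgroup (GL ι F)) (e : ι → F) : AddSubgroup (ι → F) where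
  carrier := {y | f e y = 0 ∧ ∃ γ, ∃ g ∈ M, IsG f g e y γ}
  add_mem' := by
    rintro y₁ y₂ ⟨h1, γ₁, g₁, hg₁, H₁⟩ ⟨h2, γ₂, g₂, hg₂, H₂⟩
    exact ⟨by rw [hf.bilinear.add_right, h1, h2, add_zero], _, _, M.mul_mem hg₁ hg₂, H₁.mul hf H₂ h1 h2⟩
  zero_mem' := by
    refine ⟨f_zero_right hf.bilinear _, 0, 1, M.one_mem, fun x => ?_⟩
    simp [f_zero_right hf.bilinear]
  neg_mem' := by
    rintro y ⟨h, γ, g, hg, H⟩
    refine ⟨by rw [f_neg_right hf.bilinear, h, neg_zero], -γ, g⁻¹, M.inv_mem hg, fun x => ?_⟩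
    set z : ι → F := x + f x e • (-y) + f x (-y) • e + (-γ * f x e) • e with hz
    have hye : f y e = 0 := by rw [hf.skew, h, neg_zero]
    have e1 : f z e = f x e := by
      rw [hz]
      simp only [hf.bilinear.add_left, hf.bilinear.smul_left, f_neg_left hf.bilinear, hye, hf.alternating]
      ring
    have e2 : f z y = f x y := by
      rw [hz]
      simp only [hf.bilinear.add_left, hf.bilinear.smul_left, f_neg_left hf.bilinear, h, hf.alternating]
      ring
    have e3 : g ⋆ z = x := by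
      rw [H z, e1, e2, hz, f_neg_right hf.bilinear]
      module
    rw [← e3, inv_mulVec_GL]

theorem mem_SS {hf : IsSymplecticForm f} {e y : ι → F} :
    y ∈ SS hf M e ↔ f e y = 0 ∧ ∃ γ, ∃ g ∈ M, IsG f g e y γ := Iff.rfl

theorem tv_of_SS (hf : IsSymplecticForm f) {e y y' : ι → F} (hy : y ∈ SS hf M e) (hy' : y' ∈ SS hf M e) :
    tvS hf e (2 * f y' y) ∈ M := by
  obtain ⟨h1, γ₁, g₁, hg₁, H₁⟩ := hy
  obtain ⟨h2, γ₂, g₂, hg₂, H₂⟩ := hy'
  have h3 := H₁.mul hf H₂ h1 h2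
  have h4 := H₂.mul hf H₁ h2 h1
  have h5 : tvS hf e (2 * f y' y) = g₁ * g₂ * (g₂ * g₁)⁻¹ := by
    rw [eq_mul_inv_iff_mul_eq]
    apply GL_ext
    intro x
    rw [mulVec_mul_GL, tvS_apply, h3 x, h4 x]
    have hy'e : f y' e = 0 := by rw [hf.skew, h2, neg_zero]
    have hye : f y e = 0 := by rw [hf.skew, h1, neg_zero]
    simp only [hf.bilinear.add_left, hf.bilinear.smul_left, hf.bilinear.add_right, hf.alternating, hy'e, hye]
    rw [hf.skew y y']
    module
  rw [h5]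
  exact M.mul_mem (M.mul_mem hg₁ hg₂) (M.inv_mem (M.mul_mem hg₂ hg₁))

theorem SS_swap (hf : IsSymplecticForm f) {e y : ι → F} (hy : y ∈ SS hf M e) (htv : ∀ c, tvS hf e c ∈ M) :
    e ∈ SS hf M y := by
  obtain ⟨h1, γ, g, hg, H⟩ := hy
  have hye : f y e = 0 := by rw [hf.skew, h1, neg_zero]
  refine ⟨hye, 0, g * tvS hf e (-γ), M.mul_mem hg (htv _), fun x => ?_⟩
  rw [mulVec_mul_GL, tvS_apply, H]
  simp only [hf.bilinear.add_left, hf.bilinear.smul_left, hf.alternating, h1]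
  module

variable {hs : SK Q f w d}

/-- A unitary transvection fixes the vectors which are `K`-orthogonal to its centre. -/
theorem SS_clos (hs : SK Q f w d) (hbase : Base hs.nd w M) (hMp : M ≤ preserving (glToMat ι F) f) (e : ι → F) :
    Clos Q w e (SS hs.hf M e) := by
  intro y hy v hv h1 h2 l
  obtain ⟨h3, h4, h5⟩ := hbase v l hv
  have hK := hs.ks
  have hp := hMp h5
  have h7 : sE hs.nd h3 h4 ⋆ e = e := by
    rw [sE_apply', h1, polar_sm_r, hK.polar_of_w h1 h2]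
    simp
  have h8 : sE hs.nd h3 h4 ⋆ y ∈ SS hs.hf M e := by
    obtain ⟨h9, γ, g, hg, H⟩ := hy
    refine ⟨?_, γ, _, M.mul_mem (M.mul_mem h5 hg) (M.inv_mem h5), ?_⟩
    · have := pres_apply hp e y
      rw [h7, h9] at this
      exact this
    · have := H.conj hp
      rwa [h7] at this
  have h9 := (SS hs.hf M e).sub_mem h8 hy
  have hQw : Q (l • w v) = 0 := by rw [Q_sm, hK.sing_w hv, mul_zero]
  rw [sE_apply', hQw, polar_sm_r] at h9
  convert h9 using 1
  module

/-- All `Q`-singular vectors which are `K`-orthogonal to `e` are axes. -/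
def PiS (hs : SK Q f w d) (M : Subgroup (GL ι F)) (e : ι → F) : Prop :=
  ∀ y, Q y = 0 → polar Q e y = 0 → polar Q (w e) y = 0 → y ∈ SS hs.hf M e

theorem piS_of (h14 : 14 ≤ Fintype.card ι) (hs : SK Q f w d) (hbase : Base hs.nd w M)
    (hMp : M ≤ preserving (glToMat ι F) f) {e y₀ : ι → F} (he : Q e = 0) (hy₀ : Q y₀ = 0) (h1 : polar Q e y₀ = 0)
    (h2 : polar Q (w e) y₀ = 0) (h3 : y₀ ∉ KL w e) (hR : y₀ ∈ SS hs.hf M e) : PiS hs M e := by
  intro y hy h4 h5
  have hclos := SS_clos hs hbase hMp e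
  by_cases hyk : y ∈ KL w e
  · have h6 : polar Q y y₀ = 0 := perp_KL hs.ks h1 h2 hyk
    have h7 : y + y₀ ∉ KL w e := by
      intro h
      apply h3
      have := Submodule.sub_mem _ h hyk
      simpa using this
    have h8 : y + y₀ ∈ SS hs.hf M e :=
      pi_abs h14 hs.nd hs.ks hclos he hy₀ h1 h2 h3 hR (by rw [Q_ad, hy, hy₀, h6]; ring)
        (by rw [polar_add_right, h4, h1, add_zero]) (by rw [polar_add_right, h5, h2, add_zero]) h7
    have := (SS hs.hf M e).sub_mem h8 hR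
    simpa using this
  · exact pi_abs h14 hs.nd hs.ks hclos he hy₀ h1 h2 h3 hR hy h4 h5 hyk

theorem tv_of_PiS (h14 : 14 ≤ Fintype.card ι) (hs : SK Q f w d) {e : ι → F} (hPi : PiS hs M e) (c' : F) :
    tvS hs.hf e c' ∈ M := by
  classical
  have hK := hs.ks
  obtain ⟨y, y', hH, hC⟩ := exists_hyp_perp (nd_of hs.nd) ({e, w e} : Finset (ι → F)) (by
    have : ({e, w e} : Finset (ι → F)).card ≤ 2 := Finset.card_le_two
    simp only [Module.finrank_fintype_fun_eq_card]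
    omega)
  have c1 := hC e (by simp)
  have c2 := hC (w e) (by simp)
  have h1 : w y ∈ SS hs.hf M e := by
    refine hPi _ (hK.sing_w hH.Qv) (hK.polar_of_w c1.1 c2.1) ?_
    rw [hK.pww, c1.1, mul_zero]
  have h2 : ((-c') • y') ∈ SS hs.hf M e := by
    refine hPi _ (by rw [Q_sm, hH.Qw, mul_zero]) ?_ ?_
    · rw [polar_sm_r, c1.2, mul_zero]
    · rw [polar_sm_r, c2.2, mul_zero]
  have h3 := tv_of_SS hs.hf h1 h2
  have h4 : 2 * f ((-c') • y') (w y) = c' := by
    have h5 := hH.vw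
    rw [hs.polar_eq] at h5
    rw [hs.hf.bilinear.smul_left, hs.hf.skew y' (w y)]
    linear_combination c' * h5
  rwa [h4] at h3

/-- Propagation. -/
theorem PiS_prop (h14 : 14 ≤ Fintype.card ι) (hs : SK Q f w d) (hbase : Base hs.nd w M)
    (hMp : M ≤ preserving (glToMat ι F) f) {b z : ι → F}
    (hb : Q b = 0) (hb0 : b ≠ 0) (hPi : PiS hs M b) (hz : Q z = 0) (hz0 : z ≠ 0) : PiS hs M z := by
  classical
  have hK := hs.ks
  obtain ⟨p', q', hH, hC⟩ := exists_hyp_perp (nd_of hs.nd) ({b, w b, z, w z} : Finset (ι → F)) (by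
    have : ({b, w b, z, w z} : Finset (ι → F)).card ≤ 4 := Finset.card_le_four
    simp only [Module.finrank_fintype_fun_eq_card]
    omega)
  have c1 := hC b (by simp)
  have c2 := hC (w b) (by simp)
  have c3 := hC z (by simp)
  have c4 := hC (w z) (by simp)
  have h1 : b ∈ SS hs.hf M p' := SS_swap hs.hf (hPi p' hH.Qv c1.1 c2.1) (tv_of_PiS h14 hs hPi)
  have hnot1 : b ∉ KL w p' := by
    intro h
    have a1 := KL_of_mem hK h hb0
    have a2 := perp_KL hK c1.2 c2.2 a1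
    rw [hH.vw] at a2
    exact one_ne_zero a2
  have hp'b : polar Q p' b = 0 := by rw [polar_comm]; exact c1.1
  have hp'wb : polar Q p' (w b) = 0 := by rw [polar_comm]; exact c2.1
  have hwp'b : polar Q (w p') b = 0 := hK.polar_w_of hp'b hp'wb
  have hp'z : polar Q p' z = 0 := by rw [polar_comm]; exact c3.1
  have hp'wz : polar Q p' (w z) = 0 := by rw [polar_comm]; exact c4.1
  have hwp'z : polar Q (w p') z = 0 := hK.polar_w_of hp'z hp'wz
  have hPip : PiS hs M p' := piS_of h14 hs hbase hMp hH.Qv hb hp'b hwp'b hnot1 h1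
  have h3 : p' ∈ SS hs.hf M z := SS_swap hs.hf (hPip z hz hp'z hwp'z) (tv_of_PiS h14 hs hPip)
  have hnot2 : p' ∉ KL w z := by
    intro h
    have a2 := perp_KL hK c3.2 c4.2 h
    rw [hH.vw] at a2
    exact one_ne_zero a2
  exact piS_of h14 hs hbase hMp hz hH.Qv c3.1 c4.1 hnot2 h3

/-- From `PiS` at one non-zero singular vector to all transvections. -/
theorem tv_all_of_PiS (h14 : 14 ≤ Fintype.card ι) (hs : SK Q f w d) (hbase : Base hs.nd w M)
    (hMp : M ≤ preserving (glToMat ι F) f) {b : ι → F}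
    (hb : Q b = 0) (hb0 : b ≠ 0) (hPi : PiS hs M b) (a : ι → F) : a ∈ TS hs.hf M := by
  classical
  have hK := hs.ks
  have hQ := hs.nd
  have hsing : ∀ z, Q z = 0 → z ∈ TS hs.hf M := by
    intro z hz c'
    by_cases hz0 : z = 0
    · rw [hz0]
      exact Cfsg.Agent.Lib.SympT.TS_zero hs.hf c'
    · exact tv_of_PiS h14 hs (PiS_prop h14 hs hbase hMp hb hb0 hPi hz hz0) c'
  by_cases ha : a = 0
  · rw [ha]
    exact Cfsg.Agent.Lib.SympT.TS_zero hs.hf
  have h1 : a ∉ Submodule.span F {w a} := by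
    intro h
    obtain ⟨γ, hγ⟩ := Submodule.mem_span_singleton.1 h
    exact ha (KL_eq_zero hK (a := -1) (b := γ) (by rw [hγ]; module) (Or.inl (neg_ne_zero.2 one_ne_zero)))
  have h2 : w a ∉ Submodule.span F {a} := by
    intro h
    obtain ⟨γ, hγ⟩ := Submodule.mem_span_singleton.1 h
    exact ha (KL_eq_zero hK (a := γ) (b := -1) (by rw [← hγ]; module) (Or.inr (neg_ne_zero.2 one_ne_zero)))
  obtain ⟨z₁, hz₁, hz₁'⟩ := exists_sep hQ h1
  obtain ⟨z₂, hz₂, hz₂'⟩ := exists_sep hQ h2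
  have e1 : polar Q (w a) z₁ = 0 := hz₁ _ (Submodule.mem_span_singleton_self _)
  have e2 : polar Q a z₂ = 0 := hz₂ _ (Submodule.mem_span_singleton_self _)
  set z₀ : ι → F := (Q a / polar Q a z₁) • z₁ + (2 * d / polar Q (w a) z₂) • z₂ with hz₀
  have e3 : polar Q a z₀ = Q a := by
    rw [hz₀, polar_add_right, polar_sm_r, polar_sm_r, e2, mul_zero, add_zero]
    field_simp
  have e4 : polar Q (w a) z₀ = 2 * d := by
    rw [hz₀, polar_add_right, polar_sm_r, polar_sm_r, e1, mul_zero, zero_add]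
    field_simp
  obtain ⟨b', h3, hQb'⟩ := Cfsg.Agent.Lib.OmGeo.prescribed (nd_of hQ) ({a, w a} : Finset (ι → F)) z₀ 0 (by
    have : ({a, w a} : Finset (ι → F)).card ≤ 2 := Finset.card_le_two
    simp only [Module.finrank_fintype_fun_eq_card]
    omega)
  have e5 : polar Q a b' = Q a := by rw [h3 a (by simp), e3]
  have e6 : polar Q (w a) b' = 2 * d := by rw [h3 (w a) (by simp), e4]
  have e7 : f a b' = 1 := by
    rw [hs.f_eq, e6]
    exact inv_mul_cancel₀ (mul_ne_zero hs.two hs.d0)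
  have hQ2 : Q (a - b') = 0 := by
    rw [sub_eq_add_neg, Q_ad, QuadraticMap.map_neg, polar_neg_right, e5, hQb']
    ring
  have hne : f b' (a - b') ≠ 0 := by
    rw [f_sub_right hs.hf.bilinear, hs.hf.alternating, sub_zero, hs.hf.skew, e7]
    exact neg_ne_zero.2 one_ne_zero
  have := TS_span hs.hf (hsing b' hQb') (hsing _ hQ2) hne 1 1
  simpa using this

/-- The main theorem: a subgroup of `Sp` containing the unitary transvections and moving a `K`-line of a singular vector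
off the `K`-lines contains all transvections. -/
theorem tv_all (h14 : 14 ≤ Fintype.card ι) (hs : SK Q f w d) (hbase : Base hs.nd w M)
    (hMp : M ≤ preserving (glToMat ι F) f) {g : GL ι F} (hgM : g ∈ M) {u : ι → F} (hu : Q u = 0)
    (h : g ⋆ w u ∉ KL w (g ⋆ u)) (a : ι → F) : a ∈ TS hs.hf M := by
  classical
  have hK := hs.ks
  have hQ := hs.nd
  have hf := hs.hf
  have hgp := hMp hgM
  set X := g ⋆ u with hX
  set Y := g ⋆ w u with hY
  have hXY : f X Y = 0 := by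
    have := pres_apply hgp u (w u)
    rw [this, hf.skew, ← hs.Q_eq, hu, neg_zero]
  -- the conjugate of a unitary transvection
  obtain ⟨h3, h4, h5⟩ := hbase u 2⁻¹ hu
  have hAM : g * sE hQ h3 h4 * g⁻¹ ∈ M := M.mul_mem (M.mul_mem hgM h5) (M.inv_mem hgM)
  have hIsA : IsA f d (g * sE hQ h3 h4 * g⁻¹) X Y := by
    intro x
    have e1 : ∀ v, f (g⁻¹ ⋆ x) v = f x (g ⋆ v) := by
      intro v
      have := pres_apply hgp (g⁻¹ ⋆ x) v
      rw [mulVec_inv_GL] at this
      exact this.symm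
    have e2 : polar Q (g⁻¹ ⋆ x) u = -2 * f x Y := by
      rw [hs.polar_eq, hs.skew_w, e1]
      ring
    have e3 : polar Q (g⁻¹ ⋆ x) (w u) = -(2 * d) * f x X := by
      rw [hs.polar_eq, hs.skew_w, hs.ww, hf.bilinear.smul_right, e1]
      ring
    have hQw : Q ((2⁻¹ : F) • w u) = 0 := by rw [Q_sm, hK.sing_w hu, mul_zero]
    rw [mulVec_mul_GL, mulVec_mul_GL, sE_apply', polar_sm_r, hQw, e2, e3, Matrix.mulVec_sub, Matrix.mulVec_add,
      Matrix.mulVec_smul, Matrix.mulVec_smul, Matrix.mulVec_smul, mulVec_inv_GL, smul_smul]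
    have e4 : -2 * f x Y * 2⁻¹ = - f x Y := by
      have := hs.two
      field_simp
    have e5 : 2⁻¹ * (-(2 * d) * f x X) + 0 * (-2 * f x Y) = - (d * f x X) := by
      have := hs.two
      field_simp
      ring
    rw [e4, e5]
    module
  -- the first vector
  obtain ⟨z₁, hz₁, hz₁'⟩ := exists_sep hQ h
  obtain ⟨v₁, h6, hQv₁⟩ := Cfsg.Agent.Lib.OmGeo.prescribed (nd_of hQ) ({X, w X, Y} : Finset (ι → F)) z₁ 0 (by
    have : ({X, w X, Y} : Finset (ι → F)).card ≤ 3 := Finset.card_le_three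
    simp only [Module.finrank_fintype_fun_eq_card]
    omega)
  have hXv₁ : polar Q X v₁ = 0 := by
    rw [h6 _ (by simp)]
    exact hz₁ _ (self_mem_KL _)
  have hwXv₁ : polar Q (w X) v₁ = 0 := by
    rw [h6 _ (by simp)]
    exact hz₁ _ (w_mem_KL _)
  have hp₁ : polar Q Y v₁ ≠ 0 := by
    rw [h6 _ (by simp)]
    exact hz₁'
  -- the second vector
  have hsep2 : Y ∉ KL w X ⊔ KL w v₁ := by
    intro hmem
    obtain ⟨k, hk, m, hm, hkm⟩ := Submodule.mem_sup.1 hmem
    apply hp₁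
    rw [← hkm, polar_add_left, perp_KL hK hXv₁ hwXv₁ hk,
      perp_KL hK (polar_self_zero hQv₁) (by rw [polar_comm]; exact hK.perp_w hQv₁) hm, add_zero]
  obtain ⟨z₂, hz₂, hz₂'⟩ := exists_sep hQ hsep2
  obtain ⟨v₂, r, h7, hQv₂, h8, hv₂r⟩ := prescribed' hQ ({X, w X, v₁, w v₁, Y} : Finset (ι → F)) z₂ 0 (by
    have : ({X, w X, v₁, w v₁, Y} : Finset (ι → F)).card ≤ 5 := Finset.card_le_five
    omega)
  have hXv₂ : polar Q X v₂ = 0 := by
    rw [h7 _ (by simp)]
    exact hz₂ _ (Submodule.mem_sup_left (self_mem_KL _))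
  have hwXv₂ : polar Q (w X) v₂ = 0 := by
    rw [h7 _ (by simp)]
    exact hz₂ _ (Submodule.mem_sup_left (w_mem_KL _))
  have hv₁v₂ : polar Q v₁ v₂ = 0 := by
    rw [h7 _ (by simp)]
    exact hz₂ _ (Submodule.mem_sup_right (self_mem_KL _))
  have hwv₁v₂ : polar Q (w v₁) v₂ = 0 := by
    rw [h7 _ (by simp)]
    exact hz₂ _ (Submodule.mem_sup_right (w_mem_KL _))
  have hp₂ : polar Q Y v₂ ≠ 0 := by
    rw [h7 _ (by simp)]
    exact hz₂'
  have hv₁r : polar Q v₁ r = 0 := h8 _ (by simp)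
  have hwv₁r : polar Q (w v₁) r = 0 := h8 _ (by simp)
  -- norms
  set p₁ := polar Q Y v₁ with hp₁d
  set s₁ := polar Q Y (w v₁) with hs₁d
  set p₂ := polar Q Y v₂ with hp₂d
  set s₂ := polar Q Y (w v₂) with hs₂d
  have hN₁ : (-d) * p₁ ^ 2 - 0 * p₁ * s₁ + s₁ ^ 2 ≠ 0 := fun e => hp₁ (hK.irr _ _ e).1
  have hN₂ : (-d) * p₂ ^ 2 - 0 * p₂ * s₂ + s₂ ^ 2 ≠ 0 := fun e => hp₂ (hK.irr _ _ e).1
  set N₁ := (-d) * p₁ ^ 2 - 0 * p₁ * s₁ + s₁ ^ 2 with hN₁d
  set N₂ := (-d) * p₂ ^ 2 - 0 * p₂ * s₂ + s₂ ^ 2 with hN₂d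
  have hT : ∀ (v : ι → F) (l : F), Q v = 0 →
      ∃ t ∈ M, ∀ x, t ⋆ x = x + l • (polar Q x v • w v - polar Q x (w v) • v) := by
    intro v l hv
    obtain ⟨a1, a2, a3⟩ := hbase v l hv
    refine ⟨_, a3, fun x => ?_⟩
    rw [sE_apply', polar_sm_r, Q_sm, hK.sing_w hv, mul_zero, zero_mul, add_zero]
    module
  obtain ⟨t₁, ht₁M, ht₁⟩ := hT v₁ N₂ hQv₁
  obtain ⟨t₂, ht₂M, ht₂⟩ := hT v₂ (-N₁) hQv₂
  set δ₁ : ι → F := N₂ • (p₁ • w v₁ - s₁ • v₁) with hδ₁
  set δ₂ : ι → F := (-N₁) • (p₂ • w v₂ - s₂ • v₂) with hδ₂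
  have hδ₁k : δ₁ ∈ KL w v₁ :=
    Submodule.smul_mem _ _ (Submodule.sub_mem _ (Submodule.smul_mem _ _ (w_mem_KL _)) (Submodule.smul_mem _ _ (self_mem_KL _)))
  have hδ₂k : δ₂ ∈ KL w v₂ :=
    Submodule.smul_mem _ _ (Submodule.sub_mem _ (Submodule.smul_mem _ _ (w_mem_KL _)) (Submodule.smul_mem _ _ (self_mem_KL _)))
  have hδ₁v₂ : polar Q δ₁ v₂ = 0 := perp_KL2 hK hv₁v₂ hwv₁v₂ hδ₁k (self_mem_KL _)
  have hδ₁wv₂ : polar Q δ₁ (w v₂) = 0 := perp_KL2 hK hv₁v₂ hwv₁v₂ hδ₁k (w_mem_KL _)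
  have ht₁Y : t₁ ⋆ Y = Y + δ₁ := ht₁ Y
  have ht₂Y : t₂ ⋆ (Y + δ₁) = Y + (δ₁ + δ₂) := by
    rw [ht₂, polar_add_left, polar_add_left, hδ₁v₂, hδ₁wv₂, add_zero, add_zero, add_assoc]
  have hXwv₁ : polar Q X (w v₁) = 0 := hK.polar_of_w hXv₁ hwXv₁
  have hXwv₂ : polar Q X (w v₂) = 0 := hK.polar_of_w hXv₂ hwXv₂
  have ht₁X : t₁ ⋆ X = X := by
    rw [ht₁, hXv₁, hXwv₁]
    simp
  have ht₂X : t₂ ⋆ X = X := by
    rw [ht₂, hXv₂, hXwv₂]
    simp
  set t := t₂ * t₁ with ht
  have htM : t ∈ M := M.mul_mem ht₂M ht₁M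
  have htp := hMp htM
  have htX : t ⋆ X = X := by rw [ht, mulVec_mul_GL, ht₁X, ht₂X]
  set δ : ι → F := δ₁ + δ₂ with hδ
  have htY : t ⋆ Y = Y + δ := by rw [ht, mulVec_mul_GL, ht₁Y, ht₂Y]
  have hB := hIsA.conj htp
  rw [htX, htY] at hB
  have hXδ : f X δ = 0 := by
    have := pres_apply htp X Y
    rw [htX, htY, hXY, hf.bilinear.add_right, hXY, zero_add] at this
    exact this
  have hfY : ∀ v, f Y v = (2 * d)⁻¹ * (- polar Q Y (w v)) := by
    intro v
    rw [hs.f_eq, hK.adj]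
    ring
  have hfYw : ∀ v, f Y (w v) = (2 * d)⁻¹ * (- d * polar Q Y v) := by
    intro v
    rw [hs.f_eq, hK.pww]
  have hYδ : f Y δ = 0 := by
    have e1 : f Y δ₁ = (2 * d)⁻¹ * (N₂ * N₁) := by
      rw [hδ₁, hf.bilinear.smul_right, f_sub_right hf.bilinear, hf.bilinear.smul_right, hf.bilinear.smul_right, hfYw, hfY,
        hN₁d, ← hp₁d, ← hs₁d]
      ring
    have e2 : f Y δ₂ = (2 * d)⁻¹ * (-N₁ * N₂) := by
      rw [hδ₂, hf.bilinear.smul_right, f_sub_right hf.bilinear, hf.bilinear.smul_right, hf.bilinear.smul_right, hfYw, hfY,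
        hN₂d, ← hp₂d, ← hs₂d]
      ring
    rw [hδ, hf.bilinear.add_right, e1, e2]
    ring
  have hG := hIsA.quot hf hB hXY hXδ hYδ
  have hδY : f δ Y = 0 := by rw [hf.skew, hYδ, neg_zero]
  have hYS : Y ∈ SS hf M δ := by
    have h9 : -Y ∈ SS hf M δ := ⟨by rw [f_neg_right hf.bilinear, hδY, neg_zero], _, _, M.mul_mem (M.inv_mem hAM)
      (M.mul_mem (M.mul_mem htM hAM) (M.inv_mem htM)), hG⟩
    simpa using (SS hf M δ).neg_mem h9
  -- properties of the centre
  have hQδ : Q δ = 0 := by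
    rw [hδ, Q_ad, sing_KL hK hQv₁ hδ₁k, sing_KL hK hQv₂ hδ₂k, perp_KL2 hK hv₁v₂ hwv₁v₂ hδ₁k hδ₂k]
    ring
  have hδ0 : δ ≠ 0 := by
    intro h0
    have h9 : δ₂ ∈ KL w v₁ := by
      have : δ₂ = -δ₁ := by
        rw [hδ] at h0
        exact eq_neg_of_add_eq_zero_right h0
      rw [this]
      exact Submodule.neg_mem _ hδ₁k
    have h10 : v₂ ∈ KL w v₁ := by
      refine inv_step hK (fun x hx => KL_stable hK hx) (a := N₁ * s₂) (b := -N₁ * p₂) ?_
        (Or.inr (mul_ne_zero (neg_ne_zero.2 hN₁) hp₂))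
      have : (N₁ * s₂) • v₂ + (-N₁ * p₂) • w v₂ = δ₂ := by
        rw [hδ₂]
        module
      rw [this]
      exact h9
    have h11 := perp_KL hK hv₁r hwv₁r h10
    rw [hv₂r] at h11
    exact one_ne_zero h11
  have hU : ∀ x ∈ KL w v₁ ⊔ KL w v₂, polar Q x v₁ = 0 := by
    intro x hx
    obtain ⟨k, hk, m, hm, rfl⟩ := Submodule.mem_sup.1 hx
    have a1 : polar Q v₁ v₁ = 0 := polar_self_zero hQv₁
    have a2 : polar Q (w v₁) v₁ = 0 := by rw [polar_comm]; exact hK.perp_w hQv₁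
    rw [polar_add_left, perp_KL hK a1 a2 hk, add_comm, add_zero, polar_comm,
      perp_KL2 hK hv₁v₂ hwv₁v₂ (self_mem_KL _) hm]
  have hδU : δ ∈ KL w v₁ ⊔ KL w v₂ :=
    Submodule.add_mem _ (Submodule.mem_sup_left hδ₁k) (Submodule.mem_sup_right hδ₂k)
  have hwδU : w δ ∈ KL w v₁ ⊔ KL w v₂ := by
    rw [hδ, map_add]
    exact Submodule.add_mem _ (Submodule.mem_sup_left (KL_stable hK hδ₁k)) (Submodule.mem_sup_right (KL_stable hK hδ₂k))
  have hYk : Y ∉ KL w δ := by
    intro hmem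
    apply hp₁
    exact perp_KL hK (hU _ hδU) (hU _ hwδU) hmem
  -- a singular axis
  obtain ⟨z₃, hz₃, hz₃'⟩ := exists_sep hQ hYk
  obtain ⟨v₃, r₃, h9, hQv₃, h10, hv₃r⟩ := prescribed' hQ ({δ, w δ, Y} : Finset (ι → F)) z₃ 0 (by
    have : ({δ, w δ, Y} : Finset (ι → F)).card ≤ 3 := Finset.card_le_three
    omega)
  have hδv₃ : polar Q δ v₃ = 0 := by
    rw [h9 _ (by simp)]
    exact hz₃ _ (self_mem_KL _)
  have hwδv₃ : polar Q (w δ) v₃ = 0 := by
    rw [h9 _ (by simp)]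
    exact hz₃ _ (w_mem_KL _)
  have hp₃ : polar Q Y v₃ ≠ 0 := by
    rw [h9 _ (by simp)]
    exact hz₃'
  have hclos := SS_clos hs hbase hMp δ
  have hy₁ := hclos Y hYS v₃ hQv₃ hδv₃ hwδv₃ 1
  rw [one_smul] at hy₁
  set y₁ : ι → F := polar Q Y v₃ • w v₃ - polar Q Y (w v₃) • v₃ with hy₁d
  have hy₁k : y₁ ∈ KL w v₃ :=
    Submodule.sub_mem _ (Submodule.smul_mem _ _ (w_mem_KL _)) (Submodule.smul_mem _ _ (self_mem_KL _))
  have hnot : y₁ ∉ KL w δ := by
    intro hmem
    have h11 : v₃ ∈ KL w δ := by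
      refine inv_step hK (fun x hx => KL_stable hK hx) (a := - polar Q Y (w v₃)) (b := polar Q Y v₃) ?_ (Or.inr hp₃)
      have : (- polar Q Y (w v₃)) • v₃ + polar Q Y v₃ • w v₃ = y₁ := by
        rw [hy₁d]
        module
      rw [this]
      exact hmem
    have h12 := perp_KL hK (h10 δ (by simp)) (h10 (w δ) (by simp)) h11
    rw [hv₃r] at h12
    exact one_ne_zero h12
  have hPi : PiS hs M δ := piS_of h14 hs hbase hMp hQδ (sing_KL hK hQv₃ hy₁k)
    (by rw [polar_comm]; exact perp_KL hK (by rw [polar_comm]; exact hδv₃) (by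
      rw [polar_comm]; exact hK.polar_of_w hδv₃ hwδv₃) hy₁k)
    (by rw [polar_comm]; exact perp_KL hK (by rw [polar_comm]; exact hwδv₃) (by
      rw [polar_comm, hK.pww, hδv₃, mul_zero]) hy₁k) hnot hy₁
  exact tv_all_of_PiS h14 hs hbase hMp hQδ hδ0 hPi a

/-- The unitary transvections preserve the symplectic form. -/
theorem sE_pres (hs : SK Q f w d) {u : ι → F} (l : F) (hu : Q u = 0) (hy : polar Q u (l • w u) = 0) :
    sE hs.nd hu hy ∈ preserving (glToMat ι F) f := by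
  intro x y
  show f (sE hs.nd hu hy ⋆ x) (sE hs.nd hu hy ⋆ y) = f x y
  rw [hs.f_eq, hs.f_eq x y, ← sE_comm_w hs.ks l hu hy, polar_iso (sE_iso hs.nd hu hy)]

/-- Existence of the quadratic form attached to a skew element. -/
theorem exists_SK (hf : IsSymplecticForm f) (h2 : (2 : F) ≠ 0) (hskew : ∀ x y, f (w x) y = - f x (w y))
    (hww : ∀ x, w (w x) = d • x) (hns : ∀ s : F, s ^ 2 ≠ d) : ∃ Q : QuadraticForm F (ι → F), SK Q f w d := by
  have hd0 : d ≠ 0 := by
    intro h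
    exact hns 0 (by rw [h]; ring)
  set B : LinearMap.BilinForm F (ι → F) := LinearMap.comp (Cfsg.Agent.Lib.SympT.Bf hf.bilinear) w with hB
  set Q : QuadraticForm F (ι → F) := LinearMap.BilinMap.toQuadraticMap B with hQ
  have hQe : ∀ x, Q x = f (w x) x := fun x => rfl
  have hpol : ∀ x y, polar Q x y = 2 * f (w x) y := by
    intro x y
    rw [polar, hQe, hQe, hQe, map_add, hf.bilinear.add_left, hf.bilinear.add_right, hf.bilinear.add_right,
      hf.skew (w y) x, hskew x y, hf.skew x (w y)]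
    ring
  refine ⟨Q, hf, hskew, hww, h2, hd0, hQe, ⟨?_, ?_, ?_, ?_⟩, ?_⟩
  · intro v
    rw [hpol, hf.alternating]
    ring
  · intro v
    rw [hQe, hQe, hww, hf.bilinear.smul_left, hf.skew]
    ring
  · intro v
    rw [hww]
    module
  · intro p s h
    have hp : p = 0 := by
      by_contra hp
      apply hns (s / p)
      field_simp
      linear_combination h
    refine ⟨hp, ?_⟩
    rw [hp] at h
    have : s ^ 2 = 0 := by linear_combination h
    exact pow_eq_zero_iff (two_ne_zero) |>.1 this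
  · intro x hx
    have hwx : w x ≠ 0 := by
      intro h
      have := hww x
      rw [h, map_zero] at this
      exact hx ((smul_eq_zero.1 this.symm).resolve_left hd0)
    obtain ⟨z, hz⟩ := (hf.nondegenerate _ hwx).2
    exact ⟨z, by rw [hpol]; exact mul_ne_zero h2 hz⟩

/-- A transvection does not normalise the field. -/
theorem tv_not_normal (h14 : 14 ≤ Fintype.card ι) (hs : SK Q f w d) {a : ι → F} (ha : a ≠ 0) {α β : F}
    (hE : ∀ v, tvS hs.hf a 1 ⋆ w ((tvS hs.hf a 1)⁻¹ ⋆ v) = α • v + β • w v) : False := by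
  classical
  have hK := hs.ks
  have hf := hs.hf
  obtain ⟨z, z', hH, hC⟩ := exists_hyp_perp (nd_of hs.nd) ({a, w a} : Finset (ι → F)) (by
    have : ({a, w a} : Finset (ι → F)).card ≤ 2 := Finset.card_le_two
    simp only [Module.finrank_fintype_fun_eq_card]
    omega)
  have c1 := (hC a (by simp)).1
  have c2 := (hC (w a) (by simp)).1
  have hz0 : z ≠ 0 := by
    rintro rfl
    have := hH.vw
    rw [polar_zero_left] at this
    exact zero_ne_one this
  have hfaz : f a z = 0 := by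
    rw [hs.f_eq, c2, mul_zero]
  have hfza : f z a = 0 := by rw [hf.skew, hfaz, neg_zero]
  have hfwza : f (w z) a = 0 := by
    have := hs.polar_eq z a
    rw [polar_comm, c1] at this
    exact (mul_eq_zero.1 this.symm).resolve_left hs.two
  have h1 : tvS hf a 1 ⋆ z = z := by
    rw [tvS_apply, hfza]
    simp
  have h2 : (tvS hf a 1)⁻¹ ⋆ z = z := by
    conv_lhs => rw [← h1]
    rw [inv_mulVec_GL]
  have h3 : tvS hf a 1 ⋆ w z = w z := by
    rw [tvS_apply, hfwza]
    simp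
  have h4 := hE z
  rw [h2, h3] at h4
  have h5 : (-α) • z + (1 - β) • w z = 0 := by
    linear_combination (norm := module) h4
  have h6 : -α = 0 ∧ 1 - β = 0 := by
    by_contra hcon
    have h7 : -α ≠ 0 ∨ 1 - β ≠ 0 := by
      by_contra h8
      push Not at h8
      exact hcon h8
    exact hz0 (KL_eq_zero hK h5 h7)
  have hα : α = 0 := neg_eq_zero.1 h6.1
  have hβ : β = 1 := by linear_combination -h6.2
  have hcomm : ∀ x, tvS hf a 1 ⋆ w x = w (tvS hf a 1 ⋆ x) := by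
    intro x
    have := hE (tvS hf a 1 ⋆ x)
    rw [inv_mulVec_GL, hα, hβ] at this
    simpa using this
  obtain ⟨x₀, hx₀⟩ := (hf.nondegenerate a ha).2
  have hx₀' : f x₀ a ≠ 0 := by
    rw [hf.skew]
    exact neg_ne_zero.2 hx₀
  obtain ⟨x, hxa⟩ : ∃ x, f x a = 1 :=
    ⟨(f x₀ a)⁻¹ • x₀, by rw [hf.bilinear.smul_left]; exact inv_mul_cancel₀ hx₀'⟩
  have h7 := hcomm x
  rw [tvS_apply, tvS_apply, hxa, map_add, map_smul] at h7
  apply ha
  refine KL_eq_zero hK (a := 1 * f (w x) a) (b := - (1 * 1)) ?_ (Or.inr (by simp))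
  linear_combination (norm := module) h7

/-- The normaliser. -/
theorem mem_normalizer_of {K : Subalgebra F (Matrix ι ι F)} {W : Matrix ι ι F}
    (hW : W ∈ K) (hspan : ∀ k ∈ K, ∃ a b : F, k = a • (1 : Matrix ι ι F) + b • W) {g : GL ι F}
    {α β : F} (hβ : β ≠ 0) (h : ∀ v, g ⋆ (W *ᵥ (g⁻¹ ⋆ v)) = α • v + β • (W *ᵥ v)) :
    g ∈ subalgebraNormalizer K := by
  have h1 : (g : Matrix ι ι F) * W * ((g⁻¹ : GL ι F) : Matrix ι ι F) = α • 1 + β • W := by
    apply Matrix.toLin'.injective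
    refine LinearMap.ext fun v => ?_
    simp only [Matrix.toLin'_apply, Matrix.add_mulVec, Matrix.smul_mulVec, Matrix.one_mulVec]
    rw [← Matrix.mulVec_mulVec, ← Matrix.mulVec_mulVec]
    exact h _
  have hone : (g : Matrix ι ι F) * ((g⁻¹ : GL ι F) : Matrix ι ι F) = 1 := by
    rw [← Units.val_mul, mul_inv_cancel, Units.val_one]
  have hone' : ((g⁻¹ : GL ι F) : Matrix ι ι F) * (g : Matrix ι ι F) = 1 := by
    rw [← Units.val_mul, inv_mul_cancel, Units.val_one]
  intro k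
  constructor
  · intro hk
    obtain ⟨a, b, rfl⟩ := hspan k hk
    have : (g : Matrix ι ι F) * (a • 1 + b • W) * ((g⁻¹ : GL ι F) : Matrix ι ι F) =
        a • 1 + b • ((g : Matrix ι ι F) * W * ((g⁻¹ : GL ι F) : Matrix ι ι F)) := by
      rw [Matrix.mul_add, Matrix.add_mul, Matrix.mul_smul, Matrix.mul_smul, Matrix.smul_mul, Matrix.smul_mul, Matrix.mul_one,
        hone]
    rw [this, h1]
    exact K.add_mem (K.smul_mem K.one_mem _) (K.smul_mem (K.add_mem (K.smul_mem K.one_mem _) (K.smul_mem hW _)) _)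
  · intro hk
    obtain ⟨a, b, hab⟩ := hspan _ hk
    have h2 : ((g⁻¹ : GL ι F) : Matrix ι ι F) * W * (g : Matrix ι ι F) = β⁻¹ • (W - α • 1) := by
      have h3 : W = α • 1 + β • (((g⁻¹ : GL ι F) : Matrix ι ι F) * W * (g : Matrix ι ι F)) := by
        have := congrArg (fun x => ((g⁻¹ : GL ι F) : Matrix ι ι F) * x * (g : Matrix ι ι F)) h1
        simp only [Matrix.mul_add, Matrix.add_mul, Matrix.mul_smul, Matrix.smul_mul, Matrix.mul_one, hone'] at this
        have h4 : ((g⁻¹ : GL ι F) : Matrix ι ι F) * ((g : Matrix ι ι F) * W * ((g⁻¹ : GL ι F) : Matrix ι ι F)) * (g : Matrix ι ι F) = W := by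
          calc _ = (((g⁻¹ : GL ι F) : Matrix ι ι F) * (g : Matrix ι ι F)) * W * (((g⁻¹ : GL ι F) : Matrix ι ι F) * (g : Matrix ι ι F)) := by
                simp only [Matrix.mul_assoc]
            _ = W := by rw [hone', Matrix.one_mul, Matrix.mul_one]
        rw [h4] at this
        exact this
      have h5 : W - α • 1 = β • (((g⁻¹ : GL ι F) : Matrix ι ι F) * W * (g : Matrix ι ι F)) := by
        nth_rewrite 1 [h3]
        abel
      rw [h5, smul_smul, inv_mul_cancel₀ hβ, one_smul]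
    have h6 : k = a • 1 + b • (((g⁻¹ : GL ι F) : Matrix ι ι F) * W * (g : Matrix ι ι F)) := by
      have := congrArg (fun x => ((g⁻¹ : GL ι F) : Matrix ι ι F) * x * (g : Matrix ι ι F)) hab
      simp only [Matrix.mul_add, Matrix.add_mul, Matrix.mul_smul, Matrix.smul_mul, Matrix.mul_one, hone'] at this
      rw [← this]
      calc k = (((g⁻¹ : GL ι F) : Matrix ι ι F) * (g : Matrix ι ι F)) * k * (((g⁻¹ : GL ι F) : Matrix ι ι F) * (g : Matrix ι ι F)) := by
            rw [hone', Matrix.one_mul, Matrix.mul_one]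
        _ = _ := by simp only [Matrix.mul_assoc]
    rw [h6, h2]
    exact K.add_mem (K.smul_mem K.one_mem _) (K.smul_mem (K.smul_mem (K.sub_mem hW (K.smul_mem K.one_mem _)) _) _)

/-- A non-scalar element and the identity span a quadratic field subalgebra. -/
theorem field_span [Nonempty ι] {K : Subalgebra F (Matrix ι ι F)} (hK : IsFieldSubalgebra 2 K) {W : Matrix ι ι F}
    (hW : W ∈ K) (hns : ∀ r : F, W ≠ r • (1 : Matrix ι ι F)) :
    ∀ k ∈ K, ∃ a b : F, k = a • (1 : Matrix ι ι F) + b • W := by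
  classical
  have hf : Module.finrank F (Subalgebra.toSubmodule K) = 2 := hK.finrank_eq
  have hind : LinearIndependent F ![(1 : Matrix ι ι F), W] := by
    rw [LinearIndependent.pair_iff]
    intro s t hst
    have ht : t = 0 := by
      by_contra ht
      apply hns (-(t⁻¹ * s))
      have : W = t⁻¹ • (t • W) := by rw [smul_smul, inv_mul_cancel₀ ht, one_smul]
      rw [this, neg_smul, mul_smul, ← smul_neg, eq_neg_of_add_eq_zero_right hst]
    rw [ht, zero_smul, add_zero] at hst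
    refine ⟨?_, ht⟩
    by_contra hs
    have := (smul_eq_zero.1 hst).resolve_left hs
    exact one_ne_zero this
  have h5 : Module.finrank F (Submodule.span F {(1 : Matrix ι ι F), W}) = 2 := by
    have hr : Set.range ![(1 : Matrix ι ι F), W] = {1, W} := by
      ext x
      constructor
      · rintro ⟨i, rfl⟩
        fin_cases i <;> simp
      · rintro (rfl | rfl)
        · exact ⟨0, rfl⟩
        · exact ⟨1, rfl⟩
    have := finrank_span_eq_card hind
    rw [hr] at this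
    simpa using this
  have h6 : Submodule.span F {(1 : Matrix ι ι F), W} ≤ Subalgebra.toSubmodule K := by
    rw [Submodule.span_le]
    intro x hx
    simp only [Set.mem_insert_iff, Set.mem_singleton_iff] at hx
    rcases hx with rfl | rfl
    · exact K.one_mem
    · exact hW
  have h7 := Submodule.eq_of_le_of_finrank_eq h6 (by rw [h5, hf])
  intro k hk
  have h8 : k ∈ Submodule.span F {(1 : Matrix ι ι F), W} := by
    rw [h7]
    exact hk
  obtain ⟨a, b, hab⟩ := Submodule.mem_span_pair.1 h8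
  exact ⟨a, b, hab.symm⟩

end Sp

end Cfsg.Agent.Lib.SpK
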