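import Mathlib
import Cfsg.Agent.S5961
import Cfsg.Agent.S5963
import Cfsg.Agent.Lib.SpLevi

/-!
# Invariant nondegenerate subspaces of elements of the symplectic group
-/

set_option autoImplicit false

namespace Cfsg.Agent.Lib.SpNDSub

open Matrix Module
open Cfsg.Agent.Lib.IsomBlock Cfsg.Agent.Lib.SympForm Cfsg.Agent.Lib.SympWitt Cfsg.Agent.S5961 Cfsg.Agent.S5963

set_option linter.unusedSimpArgs false
set_option linter.unusedVariables false
set_option linter.unusedSectionVars false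

section abstract

variable {F : Type*} [Field F] {V : Type*} [AddCommGroup V] [Module F V] [FiniteDimensional F V]
  {B : V →ₗ[F] V →ₗ[F] F} {T : V →ₗ[F] V}

/-- Invariant nondegenerate subspaces of isometries squaring to a sign. -/
theorem exists_inv_sub (h2 : (2 : F) ≠ 0) (halt : ∀ v, B v v = 0) (hiso : ∀ u v, B (T u) (T v) = B u v)
    (ε : F) (hε : ε = 1 ∨ ε = -1) (hT2 : ∀ v, T (T v) = ε • v) :
    ∀ (e : ℕ) (U : Submodule F V), NDOn B U → InvOn T U → Even e → e ≤ finrank F U →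
      ∃ W ≤ U, NDOn B W ∧ InvOn T W ∧ finrank F W = e := by
  intro e
  have hB : GoodForm B := Or.inl halt
  have hanti : ∀ a b, B a b = - B b a := by
    intro a b
    have h1 := halt (a + b)
    simp only [map_add, LinearMap.add_apply, halt, zero_add, add_zero] at h1
    linear_combination h1
  have hεε : ε * ε = 1 := by
    rcases hε with rfl | rfl <;> ring
  have hT4 : T ^ 4 = 1 := by
    apply LinearMap.ext
    intro v
    have h1 : (T ^ 4) v = T (T (T (T v))) := rfl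
    rw [h1, hT2, hT2, smul_smul, hεε, one_smul]
    rfl
  induction e using Nat.strong_induction_on with
  | _ e ih =>
    intro U hU hinv he hle
    obtain ⟨k, hk⟩ := he
    rcases Nat.eq_zero_or_pos k with rfl | hkpos
    · refine ⟨⊥, bot_le, nd_bot B, fun u hu => ?_, by simp [hk]⟩
      rw [(Submodule.mem_bot F).1 hu, map_zero]
      exact Submodule.zero_mem _
    have hbot : U ≠ ⊥ := by
      rintro rfl
      rw [finrank_bot] at hle
      omega
    obtain ⟨u₀, hu₀, hu₀0⟩ := (Submodule.ne_bot_iff U).mp hbot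
    have hnd' : ∀ u ∈ U, u ≠ 0 → ∃ w ∈ U, B u w ≠ 0 := by
      intro u hu hu0
      by_contra hall
      apply hu0
      apply hU u hu
      intro w hw
      by_contra hne
      exact hall ⟨w, hw, hne⟩
    obtain ⟨u, w, hu, hw, huw, hTu, hTw⟩ : ∃ u w, u ∈ U ∧ w ∈ U ∧ B u w ≠ 0 ∧ (∃ a b : F, T u = a • u + b • w) ∧
        (∃ a b : F, T w = a • u + b • w) := by
      rcases hε with rfl | rfl
      · have hT2' : ∀ v, T (T v) = v := fun v => by rw [hT2, one_smul]
        obtain ⟨δ, hδ, u, hu, hu0, hTu⟩ : ∃ δ : F, δ * δ = 1 ∧ ∃ u ∈ U, u ≠ 0 ∧ T u = δ • u := by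
          by_cases h : u₀ + T u₀ = 0
          · refine ⟨-1, by ring, u₀, hu₀, hu₀0, ?_⟩
            rw [neg_one_smul]
            exact eq_neg_of_add_eq_zero_right h
          · refine ⟨1, by ring, u₀ + T u₀, U.add_mem hu₀ (hinv _ hu₀), h, ?_⟩
            rw [map_add, hT2', one_smul, add_comm]
        obtain ⟨w₀, hw₀, huw₀⟩ := hnd' u hu hu0
        refine ⟨u, w₀ + δ • T w₀, hu, U.add_mem hw₀ (U.smul_mem _ (hinv _ hw₀)), ?_, ⟨δ, 0, by simp [hTu]⟩, ⟨0, δ, ?_⟩⟩
        · have h1 : B u (T w₀) = δ * B u w₀ := by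
            conv_lhs => rw [← hT2' u]
            rw [hiso, hTu, map_smul, LinearMap.smul_apply, smul_eq_mul]
          rw [map_add, map_smul, smul_eq_mul, h1]
          have h3 : B u w₀ + δ * (δ * B u w₀) = 2 * B u w₀ := by
            linear_combination (B u w₀) * hδ
          rw [h3]
          exact mul_ne_zero h2 huw₀
        · rw [map_add, map_smul, hT2', zero_smul, zero_add, smul_add, smul_smul, hδ, one_smul, add_comm]
      · have hT2' : ∀ v, T (T v) = -v := fun v => by rw [hT2, neg_one_smul]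
        obtain ⟨w₀, hw₀, huw₀⟩ := hnd' u₀ hu₀ hu₀0
        obtain ⟨w₁, hw₁, hTw₁⟩ : ∃ w₁ ∈ U, T w₁ = w₀ :=
          ⟨-T w₀, U.neg_mem (hinv _ hw₀), by rw [map_neg, hT2', neg_neg]⟩
        have hsym : ∀ a b, B a (T b) = B b (T a) := by
          intro a b
          rw [← hiso a (T b), hT2', map_neg, hanti, neg_neg]
        obtain ⟨v, hv, hvv⟩ : ∃ v ∈ U, B v (T v) ≠ 0 := by
          by_contra hall
          push Not at hall
          have h1 := hall (u₀ + w₁) (U.add_mem hu₀ hw₁)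
          simp only [map_add, LinearMap.add_apply, hall u₀ hu₀, hall w₁ hw₁, zero_add, add_zero] at h1
          rw [hsym w₁ u₀, hTw₁] at h1
          apply huw₀
          have h3 : (2 : F) * B u₀ w₀ = 0 := by linear_combination h1
          exact (mul_eq_zero.mp h3).resolve_left h2
        refine ⟨v, T v, hv, hinv _ hv, hvv, ⟨0, 1, by simp⟩, ⟨-1, 0, by simp [hT2']⟩⟩
    let P : Submodule F V := Submodule.span F (Set.range ![u, w])
    have hli : LinearIndependent F ![u, w] := by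
      rw [LinearIndependent.pair_iff]
      intro a b hab
      have h1 := congrArg (fun y => B y w) hab
      have h3 := congrArg (fun y => B y u) hab
      simp only [map_add, map_smul, LinearMap.add_apply, LinearMap.smul_apply, halt, smul_eq_mul, mul_zero, add_zero, zero_add, map_zero, LinearMap.zero_apply] at h1 h3
      rw [hanti w u] at h3
      have ha : a = 0 := (mul_eq_zero.mp h1).resolve_right huw
      have hb : b = 0 := by
        have h4 : b * B u w = 0 := by linear_combination -h3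
        exact (mul_eq_zero.mp h4).resolve_right huw
      exact ⟨ha, hb⟩
    have hPfin : finrank F P = 2 := by
      have := finrank_span_eq_card hli
      simpa using this
    have hmemP : ∀ y ∈ P, ∃ a b : F, y = a • u + b • w := by
      intro y hy
      simp only [P, Matrix.range_cons, Matrix.range_empty, Set.union_empty, Set.singleton_union] at hy
      obtain ⟨a, b, rfl⟩ := Submodule.mem_span_pair.mp hy
      exact ⟨a, b, rfl⟩
    have huP : u ∈ P := Submodule.subset_span ⟨0, rfl⟩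
    have hwP : w ∈ P := Submodule.subset_span ⟨1, rfl⟩
    have hPU : P ≤ U := by
      apply Submodule.span_le.mpr
      rintro _ ⟨i, rfl⟩
      fin_cases i
      · exact hu
      · exact hw
    have hPnd : NDOn B P := by
      intro y hy h0
      obtain ⟨a, b, rfl⟩ := hmemP y hy
      have h1 := h0 w hwP
      have h3 := h0 u huP
      simp only [map_add, map_smul, LinearMap.add_apply, LinearMap.smul_apply, halt, smul_eq_mul, mul_zero, add_zero, zero_add] at h1 h3
      rw [hanti w u] at h3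
      have ha : a = 0 := (mul_eq_zero.mp h1).resolve_right huw
      have hb : b = 0 := by
        have h4 : b * B u w = 0 := by linear_combination -h3
        exact (mul_eq_zero.mp h4).resolve_right huw
      rw [ha, hb]
      simp
    have hTuP : T u ∈ P := by
      obtain ⟨a, b, hab⟩ := hTu
      rw [hab]
      exact P.add_mem (P.smul_mem a huP) (P.smul_mem b hwP)
    have hTwP : T w ∈ P := by
      obtain ⟨a, b, hab⟩ := hTw
      rw [hab]
      exact P.add_mem (P.smul_mem a huP) (P.smul_mem b hwP)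
    have hPinv : InvOn T P := by
      intro y hy
      obtain ⟨a, b, rfl⟩ := hmemP y hy
      rw [map_add, map_smul, map_smul]
      exact P.add_mem (P.smul_mem a hTuP) (P.smul_mem b hTwP)
    have hU'fin := finrank_rel hB hPU hPnd
    have hlt : e - 2 < e := by omega
    obtain ⟨W', hW'U, hW'nd, hW'inv, hW'fin⟩ := ih (e - 2) hlt (U ⊓ perp B P) (nd_rel hB hPU hPnd hU)
      (inv_inf hinv (inv_perp hiso (by norm_num) hT4 hPinv)) ⟨k - 1, by omega⟩ (by omega)
    have horth : ∀ a ∈ P, ∀ b ∈ W', B a b = 0 := fun a ha b hb => (hW'U hb).2 a ha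
    refine ⟨P ⊔ W', sup_le hPU (hW'U.trans inf_le_left), nd_sup hB hPnd hW'nd horth, ?_, ?_⟩
    · intro z hz
      obtain ⟨x, hx, y, hy, rfl⟩ := Submodule.mem_sup.mp hz
      rw [map_add]
      exact Submodule.add_mem_sup (hPinv x hx) (hW'inv y hy)
    · rw [finrank_sup_orth hB hPnd horth, hPfin, hW'fin]
      omega

end abstract

universe u

variable {F : Type u} [Field F] {d : ℕ}

/-- The set of nondegenerate subspaces of a given dimension. -/
abbrev Om (d m : ℕ) (F : Type u) [Field F] :=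
  {W : Submodule F (Fin d ⊕ Fin d → F) // finrank F W = m ∧ (∀ u ∈ W, u ≠ 0 → ∃ v ∈ W, Cfsg.sympForm d F u v ≠ 0)}

/-- The action of the symplectic group. -/
noncomputable instance omAction {m : ℕ} : MulAction (symplecticGroup (Fin d) F) (Om d m F) where
  smul g W := ⟨W.1.map ((spE g : _ ≃ₗ[F] _) : (Fin d ⊕ Fin d → F) →ₗ[F] (Fin d ⊕ Fin d → F)),
    (LinearEquiv.finrank_map_eq _ _).trans W.2.1, by
      rintro _ ⟨a, ha, rfl⟩ hu
      have ha0 : a ≠ 0 := by
        rintro rfl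
        exact hu (map_zero _)
      obtain ⟨b, hb, hab⟩ := W.2.2 a ha ha0
      exact ⟨spE g b, ⟨b, hb, rfl⟩, by
        change Cfsg.sympForm d F (spE g a) (spE g b) ≠ 0
        rw [spE_preserves]
        exact hab⟩⟩
  one_smul P := by
    have h : ((spE (1 : symplecticGroup (Fin d) F) : _ ≃ₗ[F] _) : (Fin d ⊕ Fin d → F) →ₗ[F] (Fin d ⊕ Fin d → F)) = LinearMap.id := by
      apply LinearMap.ext
      intro v
      show (((1 : symplecticGroup (Fin d) F) : Matrix (Fin d ⊕ Fin d) (Fin d ⊕ Fin d) F)) *ᵥ v = v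
      exact Matrix.one_mulVec v
    apply Subtype.ext
    show Submodule.map _ _ = _
    rw [h, Submodule.map_id]
  mul_smul g h P := by
    have e : ((spE (g * h) : _ ≃ₗ[F] _) : (Fin d ⊕ Fin d → F) →ₗ[F] (Fin d ⊕ Fin d → F)) =
        ((spE g : _ ≃ₗ[F] _) : (Fin d ⊕ Fin d → F) →ₗ[F] (Fin d ⊕ Fin d → F)) ∘ₗ
          ((spE h : _ ≃ₗ[F] _) : (Fin d ⊕ Fin d → F) →ₗ[F] (Fin d ⊕ Fin d → F)) := by
      apply LinearMap.ext
      intro v
      show ((g * h : symplecticGroup (Fin d) F) : Matrix (Fin d ⊕ Fin d) (Fin d ⊕ Fin d) F) *ᵥ v =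
        (g : Matrix (Fin d ⊕ Fin d) (Fin d ⊕ Fin d) F) *ᵥ ((h : Matrix (Fin d ⊕ Fin d) (Fin d ⊕ Fin d) F) *ᵥ v)
      rw [Matrix.mulVec_mulVec]
      rfl
    apply Subtype.ext
    show Submodule.map _ _ = Submodule.map _ (Submodule.map _ _)
    rw [e, Submodule.map_comp]

theorem smul_val {m : ℕ} (g : symplecticGroup (Fin d) F) (W : Om d m F) :
    (g • W).1 = W.1.map ((spE g : _ ≃ₗ[F] _) : (Fin d ⊕ Fin d → F) →ₗ[F] (Fin d ⊕ Fin d → F)) := rfl

theorem nd_form {W : Submodule F (Fin d ⊕ Fin d → F)} (h : ∀ u ∈ W, u ≠ 0 → ∃ v ∈ W, Cfsg.sympForm d F u v ≠ 0) :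
    ∀ u ∈ W, (∀ v ∈ W, Cfsg.sympForm d F u v = 0) → u = 0 := by
  intro u hu hv
  by_contra hu0
  obtain ⟨v, hv1, hv2⟩ := h u hu hu0
  exact hv2 (hv v hv1)

theorem exists_base (k : ℕ) (hk : k ≤ d) : Nonempty (Om d (2 * k) F) := by
  have halt : ∀ v, sympB d F v v = 0 := fun v => sympForm_self v
  have hnd : NDOn (sympB d F) ⊤ := fun v _ hv => Cfsg.Agent.S5983.symp_nd v fun w => hv w trivial
  obtain ⟨W, -, hW, hf⟩ := exists_nd_sub halt (2 * k) ⊤ hnd (even_two_mul k) (by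
    rw [finrank_top, Cfsg.Agent.S5983.finrank_V]
    omega)
  refine ⟨⟨W, hf, fun u hu hu0 => ?_⟩⟩
  by_contra hc
  push Not at hc
  exact hu0 (hW u hu hc)

theorem orbit_eq (k : ℕ) (hk : k ≤ d) (W₀ : Om d (2 * k) F) :
    MulAction.orbit (symplecticGroup (Fin d) F) W₀ = Set.univ := by
  rw [Set.eq_univ_iff_forall]
  intro W
  obtain ⟨S₀⟩ := Cfsg.Agent.Lib.SpLevi.exists_split W₀.1 hk W₀.2.1 (nd_form W₀.2.2)
  obtain ⟨S₁⟩ := Cfsg.Agent.Lib.SpLevi.exists_split W.1 hk W.2.1 (nd_form W.2.2)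
  let g₀ : (Fin d ⊕ Fin d → F) ≃ₗ[F] (Fin d ⊕ Fin d → F) := S₀.Ψ.symm.trans S₁.Ψ
  have hg₀ : ∀ a b, g₀ (S₀.Ψ (a, b)) = S₁.Ψ (a, b) := by
    intro a b
    simp [g₀]
  obtain ⟨A, hA⟩ := exists_sp_of_equiv (m := d) (F := F) g₀.toLinearMap (by
    intro u v
    obtain ⟨a, b, rfl⟩ := Cfsg.Agent.Lib.SpLevi.exists_rep S₀ u
    obtain ⟨a', b', rfl⟩ := Cfsg.Agent.Lib.SpLevi.exists_rep S₀ v
    change Cfsg.sympForm d F (g₀ _) (g₀ _) = _
    rw [hg₀, hg₀, S₀.form, S₁.form])
  refine ⟨A, ?_⟩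
  apply Subtype.ext
  change W₀.1.map ((spE A : _ ≃ₗ[F] _) : (Fin d ⊕ Fin d → F) →ₗ[F] (Fin d ⊕ Fin d → F)) = W.1
  have hAg : ∀ v, spE A v = g₀ v := fun v => hA v
  ext y
  constructor
  · rintro ⟨u, hu, rfl⟩
    obtain ⟨a, b, rfl⟩ := Cfsg.Agent.Lib.SpLevi.exists_rep S₀ u
    have hb := (S₀.mem_W a b).1 hu
    change spE A _ ∈ W.1
    rw [hAg, hg₀, S₁.mem_W]
    exact hb
  · intro hy
    obtain ⟨a, b, rfl⟩ := Cfsg.Agent.Lib.SpLevi.exists_rep S₁ y
    have hb := (S₁.mem_W a b).1 hy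
    refine ⟨S₀.Ψ (a, b), (S₀.mem_W a b).2 hb, ?_⟩
    change spE A _ = _
    rw [hAg, hg₀]

theorem card_dvd_stab (k : ℕ) (hk : k ≤ d) (W₀ : Om d (2 * k) F) [Finite F] :
    Nat.card (symplecticGroup (Fin k) F) * Nat.card (symplecticGroup (Fin (d - k)) F) ∣
      Nat.card (MulAction.stabilizer (symplecticGroup (Fin d) F) W₀) := by
  obtain ⟨S⟩ := Cfsg.Agent.Lib.SpLevi.exists_split W₀.1 hk W₀.2.1 (nd_form W₀.2.2)
  have hmem : ∀ p, ((Cfsg.stabilizing (Cfsg.spToMat d F) (W₀.1 : Set (Fin d ⊕ Fin d → F))).subtype.comp (Cfsg.Agent.Lib.SpLevi.Θ S)) p ∈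
      MulAction.stabilizer (symplecticGroup (Fin d) F) W₀ := by
    intro p
    rw [MulAction.mem_stabilizer_iff]
    apply Subtype.ext
    rw [smul_val]
    apply map_eq_of_le
    rintro _ ⟨u, hu, rfl⟩
    exact ((Cfsg.Agent.Lib.SpLevi.Θ S p).2 u).1 hu
  let f := MonoidHom.codRestrict ((Cfsg.stabilizing (Cfsg.spToMat d F) (W₀.1 : Set (Fin d ⊕ Fin d → F))).subtype.comp (Cfsg.Agent.Lib.SpLevi.Θ S))
    (MulAction.stabilizer (symplecticGroup (Fin d) F) W₀) hmem
  have hf : Function.Injective f := by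
    intro a b hab
    apply Cfsg.Agent.Lib.SpLevi.Θ_injective S
    apply Subtype.ext
    have h3 : (f a).1 = (f b).1 := congrArg Subtype.val hab
    exact h3
  have := Subgroup.card_dvd_of_injective f hf
  rwa [Nat.card_prod] at this

/-- The order of the set of nondegenerate subspaces up to a factor. -/
theorem exists_j [Fintype F] {r : ℕ} [hr : Fact r.Prime] (hrq : ¬ r ∣ Fintype.card F) (k : ℕ) (hk : k ≤ d)
    (hN : r ∣ Nat.card (Om d (2 * k) F)) :
    ∃ j, d - k < j ∧ j ≤ d ∧ r ∣ Fintype.card F ^ (2 * j) - 1 := by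
  obtain ⟨W₀⟩ := exists_base (F := F) (d := d) k hk
  obtain ⟨s, hs⟩ := card_dvd_stab k hk W₀
  have hidx : (MulAction.stabilizer (symplecticGroup (Fin d) F) W₀).index = Nat.card (Om d (2 * k) F) := by
    rw [MulAction.index_stabilizer, orbit_eq k hk, Set.ncard_univ]
  have h0 := Subgroup.card_mul_index (MulAction.stabilizer (symplecticGroup (Fin d) F) W₀)
  rw [hs, hidx] at h0
  have h1 := Cfsg.Agent.Lib.SpOrder.card_Sp (F := F) d
  have h3 := Cfsg.Agent.Lib.SpOrder.card_Sp (F := F) (d - k)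
  rw [Cfsg.Agent.Lib.SpBasic.Sp] at h1 h3
  rw [h1, h3] at h0
  obtain ⟨q, hq⟩ : ∃ q, q = Fintype.card F := ⟨_, rfl⟩
  rw [← hq] at h0 hrq ⊢
  have hq1 : 1 < q := by
    rw [hq]
    exact Fintype.one_lt_card
  have hsplit : ∏ i ∈ Finset.range d, (q ^ (2 * (i + 1)) - 1) =
      (∏ i ∈ Finset.range (d - k), (q ^ (2 * (i + 1)) - 1)) * ∏ i ∈ Finset.Ico (d - k) d, (q ^ (2 * (i + 1)) - 1) :=
    (Finset.prod_range_mul_prod_Ico _ (by omega)).symm
  have hpos : 0 < ∏ i ∈ Finset.range (d - k), (q ^ (2 * (i + 1)) - 1) := by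
    apply Finset.prod_pos
    intro i _
    have : 1 < q ^ (2 * (i + 1)) := Nat.one_lt_pow (by omega) hq1
    omega
  rw [hsplit] at h0
  have h5 : Nat.card (symplecticGroup (Fin k) F) * q ^ ((d - k) ^ 2) * s * Nat.card (Om d (2 * k) F) =
      q ^ (d ^ 2) * ∏ i ∈ Finset.Ico (d - k) d, (q ^ (2 * (i + 1)) - 1) := by
    apply Nat.eq_of_mul_eq_mul_right hpos
    calc _ = _ := by ring
      _ = _ := h0
      _ = _ := by ring
  have h6 : r ∣ q ^ (d ^ 2) * ∏ i ∈ Finset.Ico (d - k) d, (q ^ (2 * (i + 1)) - 1) := by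
    rw [← h5]
    exact Dvd.dvd.mul_left hN _
  rcases (Nat.Prime.dvd_mul hr.out).1 h6 with h7 | h7
  · exact absurd (hr.out.dvd_of_dvd_pow h7) hrq
  · obtain ⟨i, hi, hi2⟩ := (Prime.dvd_finsetProd_iff hr.out.prime _).1 h7
    have := Finset.mem_Ico.1 hi
    exact ⟨i + 1, by omega, by omega, hi2⟩

/-- The case of involutions in odd characteristic. -/
theorem partC [Fintype F] (h2 : (2 : F) ≠ 0) (hd : 0 < d) (m : ℕ) (hm : Even m) (hm2 : m ≤ 2 * d) (x : symplecticGroup (Fin d) F) (z : F)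
    (hz : ((x ^ 2 : symplecticGroup (Fin d) F) : Matrix (Fin d ⊕ Fin d) (Fin d ⊕ Fin d) F) = z • (1 : Matrix (Fin d ⊕ Fin d) (Fin d ⊕ Fin d) F)) :
    ∃ W : Submodule F (Fin d ⊕ Fin d → F), finrank F W = m ∧ (∀ u ∈ W, u ≠ 0 → ∃ v ∈ W, Cfsg.sympForm d F u v ≠ 0) ∧
      W.map (Matrix.toLin' (x : Matrix (Fin d ⊕ Fin d) (Fin d ⊕ Fin d) F)) ≤ W := by
  have hz2 : z * z = 1 := scalar_sq hd _ z hz
  have hε : z = 1 ∨ z = -1 := by
    have h3 : (z - 1) * (z + 1) = 0 := by linear_combination hz2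
    rcases mul_eq_zero.1 h3 with h4 | h4
    · exact Or.inl (sub_eq_zero.1 h4)
    · exact Or.inr (eq_neg_of_add_eq_zero_left h4)
  have halt : ∀ v, sympB d F v v = 0 := fun v => sympForm_self v
  have hnd : NDOn (sympB d F) ⊤ := fun v _ hv => Cfsg.Agent.S5983.symp_nd v fun w => hv w trivial
  have hiso : ∀ u v, sympB d F (Matrix.toLin' (x : Matrix (Fin d ⊕ Fin d) (Fin d ⊕ Fin d) F) u) (Matrix.toLin' (x : Matrix (Fin d ⊕ Fin d) (Fin d ⊕ Fin d) F) v) = sympB d F u v := by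
    intro u v
    rw [sympB_apply, sympB_apply, Matrix.toLin'_apply, Matrix.toLin'_apply]
    exact (mem_symplecticGroup_iff_preserves _).1 x.2 u v
  have hT2 : ∀ v, Matrix.toLin' (x : Matrix (Fin d ⊕ Fin d) (Fin d ⊕ Fin d) F) (Matrix.toLin' (x : Matrix (Fin d ⊕ Fin d) (Fin d ⊕ Fin d) F) v) = z • v := by
    intro v
    rw [Matrix.toLin'_apply, Matrix.toLin'_apply, Matrix.mulVec_mulVec, ← pow_two, ← SubmonoidClass.coe_pow, hz, Matrix.smul_mulVec,
      Matrix.one_mulVec]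
  obtain ⟨W, -, hWnd, hWinv, hWfin⟩ := exists_inv_sub h2 halt hiso z hε hT2 m ⊤ hnd (fun _ _ => trivial) hm (by
    rw [finrank_top, Cfsg.Agent.S5983.finrank_V]
    exact hm2)
  refine ⟨W, hWfin, fun u hu hu0 => ?_, ?_⟩
  · by_contra hc
    push Not at hc
    exact hu0 (hWnd u hu hc)
  · rintro _ ⟨u, hu, rfl⟩
    exact hWinv u hu

/-- The case of semisimple elements of odd prime order. -/
theorem partD [Fintype F] {r q : ℕ} [hrf : Fact r.Prime] (hq : Fintype.card F = q) (hd : 0 < d) (hr2 : r ≠ 2) (hrF : (r : F) ≠ 0)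
    (k : ℕ) (hk : k ≤ d) (hrΩ : r ∣ Nat.card (Om d (2 * k) F)) :
    (∀ x : symplecticGroup (Fin d) F,
      (∃ z : F, ((x ^ r : symplecticGroup (Fin d) F) : Matrix (Fin d ⊕ Fin d) (Fin d ⊕ Fin d) F) = z • (1 : Matrix (Fin d ⊕ Fin d) (Fin d ⊕ Fin d) F)) →
      (∀ z : F, (x : Matrix (Fin d ⊕ Fin d) (Fin d ⊕ Fin d) F) ≠ z • (1 : Matrix (Fin d ⊕ Fin d) (Fin d ⊕ Fin d) F)) →
      ∃ W : Submodule F (Fin d ⊕ Fin d → F), finrank F W = 2 * k ∧ (∀ u ∈ W, u ≠ 0 → ∃ v ∈ W, Cfsg.sympForm d F u v ≠ 0) ∧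
        W.map (Matrix.toLin' (x : Matrix (Fin d ⊕ Fin d) (Fin d ⊕ Fin d) F)) ≤ W) ↔
    (blockDim r q ≤ 2 * k ∧ (2 * k) % blockDim r q ≤ (2 * d) % blockDim r q) := by
  classical
  have hr : r.Prime := hrf.out
  have hcpos := blockDim_pos hq hrF
  have halt : ∀ v, sympB d F v v = 0 := fun v => sympForm_self v
  have hB : GoodForm (sympB d F) := Or.inl halt
  have hnd : NDOn (sympB d F) ⊤ := fun v _ hv => Cfsg.Agent.S5983.symp_nd v fun w => hv w trivial
  have htop : finrank F (⊤ : Submodule F (Fin d ⊕ Fin d → F)) = 2 * d := by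
    rw [finrank_top, Cfsg.Agent.S5983.finrank_V]
  constructor
  · intro H
    have hrq := not_dvd_card hq hrF
    obtain ⟨j, hj1, hj2, hj3⟩ := exists_j (F := F) (d := d) (by rwa [hq]) k hk hrΩ
    rw [hq] at hj3
    have hq1 : 1 ≤ q ^ (2 * j) := Nat.one_le_pow _ _ (Nat.pos_of_ne_zero (fun h => by
      rw [← hq] at h
      exact Fintype.card_ne_zero h))
    have h5 : (q : ZMod r) ^ (2 * j) = 1 := by
      have h6 := (ZMod.natCast_eq_zero_iff _ _).mpr hj3
      rw [Nat.cast_sub hq1] at h6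
      push_cast at h6
      exact sub_eq_zero.mp h6
    have h6 : orderOf (q : ZMod r) ∣ 2 * j := orderOf_dvd_of_pow_eq_one h5
    have hcdvd : blockDim r q ∣ 2 * j := by
      unfold blockDim
      split_ifs with hev
      · exact h6
      · have h8 : orderOf (q : ZMod r) ∣ j := (Nat.Coprime.dvd_of_dvd_mul_left (by
          rw [Nat.coprime_two_right]
          exact Nat.not_even_iff_odd.mp hev) h6)
        exact Nat.mul_dvd_mul_left 2 h8
    obtain ⟨u₀, hu₀⟩ := hcdvd
    have hle : blockDim r q ≤ 2 * d := by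
      have := Nat.le_of_dvd (by omega) (Dvd.intro _ hu₀.symm)
      omega
    obtain ⟨c', hc'⟩ := blockDim_even r q
    have hc2 : blockDim r q = 2 * c' := by omega
    obtain ⟨T₀, hT₀1, hT₀2, hT₀3⟩ := exists_block_elt (F := F) hq hr2 hrF hc2
    set s := (2 * d) / blockDim r q with hs
    have hdecomp : blockDim r q * s + (2 * d) % blockDim r q = 2 * d := Nat.div_add_mod _ _
    have hspos : 0 < s := Nat.div_pos hle hcpos
    have hklt : (2 * d) % blockDim r q < blockDim r q := Nat.mod_lt _ hcpos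
    obtain ⟨m, hm⟩ : ∃ m, (2 * d) % blockDim r q = 2 * m := by
      have hev : Even ((2 * d) % blockDim r q) := by
        have h1 : Even (blockDim r q * s) := (blockDim_even r q).mul_right s
        have h2 : Even (2 * d) := even_two_mul d
        rw [← hdecomp] at h2
        exact (Nat.even_add.mp h2).mp h1
      obtain ⟨m, hm⟩ := hev
      exact ⟨m, by omega⟩
    obtain ⟨x, hxr, hxfix⟩ := exists_x_blocks (F := F) (d := d) (s := s) (c' := c') (m := m) (by
      have h0 := hdecomp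
      rw [hm, hc2] at h0
      have : 2 * c' * s + 2 * m = 2 * (s * c' + m) := by ring
      omega) T₀ hT₀1 hT₀2 hT₀3
    have hfixk : finrank F (fixS (Matrix.toLin' (x : Matrix (Fin d ⊕ Fin d) (Fin d ⊕ Fin d) F)) ⊤) = (2 * d) % blockDim r q := by
      have h1 : s * (2 * c') = blockDim r q * s := by rw [hc2]; ring
      rw [h1] at hxfix
      omega
    have hx1 : x ≠ 1 := by
      rintro rfl
      have h1 : fixS (Matrix.toLin' ((1 : symplecticGroup (Fin d) F) : Matrix (Fin d ⊕ Fin d) (Fin d ⊕ Fin d) F)) ⊤ = ⊤ := by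
        apply le_antisymm le_top
        intro v _
        rw [mem_fixS]
        refine ⟨trivial, ?_⟩
        rw [Matrix.toLin'_apply]
        exact Matrix.one_mulVec v
      rw [h1, htop] at hfixk
      have : 0 < blockDim r q * s := Nat.mul_pos hcpos hspos
      omega
    obtain ⟨W, hWfin, hWnd, hWinv⟩ := H x ⟨1, by
      rw [hxr, one_smul]
      rfl⟩ (by
        intro z hz
        have hz2 := scalar_sq hd x z hz
        apply hx1
        apply Subtype.ext
        have h1 := congrArg Subtype.val hxr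
        rw [SubmonoidClass.coe_pow, hz, _root_.smul_pow, one_pow] at h1
        have h3 : z ^ r * z = 1 := by
          obtain ⟨k, hk⟩ := (Fact.out : r.Prime).odd_of_ne_two hr2
          rw [hk, pow_succ, pow_mul, pow_two, hz2, one_pow, one_mul, hz2]
        have h4 : z ^ r = 1 := by
          have h5 := congrFun (congrFun h1 (Sum.inl ⟨0, hd⟩)) (Sum.inl ⟨0, hd⟩)
          simpa using h5
        rw [h4, one_mul] at h3
        rw [hz, h3, one_smul]
        rfl)
    have hTr : (Matrix.toLin' (x : Matrix (Fin d ⊕ Fin d) (Fin d ⊕ Fin d) F)) ^ r = 1 := by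
      have h2 : Matrix.toLin' (x : Matrix (Fin d ⊕ Fin d) (Fin d ⊕ Fin d) F) = Matrix.toLinAlgEquiv' (x : Matrix (Fin d ⊕ Fin d) (Fin d ⊕ Fin d) F) := rfl
      have h3 : (Matrix.toLinAlgEquiv' (x : Matrix (Fin d ⊕ Fin d) (Fin d ⊕ Fin d) F)) ^ r = Matrix.toLinAlgEquiv' ((x ^ r : symplecticGroup (Fin d) F) : Matrix (Fin d ⊕ Fin d) (Fin d ⊕ Fin d) F) := by
        rw [← map_pow]
        rfl
      rw [h2, h3, hxr]
      exact map_one _
    have hiso : ∀ u v, sympB d F (Matrix.toLin' (x : Matrix (Fin d ⊕ Fin d) (Fin d ⊕ Fin d) F) u) (Matrix.toLin' (x : Matrix (Fin d ⊕ Fin d) (Fin d ⊕ Fin d) F) v) = sympB d F u v := by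
      intro u v
      rw [sympB_apply, sympB_apply, Matrix.toLin'_apply, Matrix.toLin'_apply]
      exact (mem_symplecticGroup_iff_preserves _).1 x.2 u v
    have hWnd' : NDOn (sympB d F) W := nd_form hWnd
    have hWinv' : InvOn (Matrix.toLin' (x : Matrix (Fin d ⊕ Fin d) (Fin d ⊕ Fin d) F)) W := fun u hu => hWinv ⟨u, hu, rfl⟩
    obtain ⟨t, ht⟩ := finrank_fix_add hq hr2 hrF hB hiso hTr hWnd' hWinv'
    have hfixle : finrank F (fixS (Matrix.toLin' (x : Matrix (Fin d ⊕ Fin d) (Fin d ⊕ Fin d) F)) W) ≤ (2 * d) % blockDim r q := by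
      rw [← hfixk]
      apply Submodule.finrank_mono
      intro v hv
      rw [mem_fixS] at hv ⊢
      exact ⟨trivial, hv.2⟩
    rw [hWfin] at ht
    have hmod : (2 * k) % blockDim r q ≤ (2 * d) % blockDim r q := by
      rw [ht, Nat.add_mul_mod_self_left, Nat.mod_eq_of_lt (by omega)]
      exact hfixle
    refine ⟨?_, hmod⟩
    by_contra hlt
    rw [not_le] at hlt
    have ht0 : t = 0 := by
      by_contra ht0
      have : blockDim r q * 1 ≤ blockDim r q * t := Nat.mul_le_mul_left _ (by omega)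
      omega
    rw [ht0, mul_zero, add_zero] at ht
    have h7 : blockDim r q * s < blockDim r q * u₀ := by omega
    have h8 : s < u₀ := Nat.lt_of_mul_lt_mul_left h7
    have h9 : blockDim r q * (s + 1) ≤ blockDim r q * u₀ := Nat.mul_le_mul_left _ h8
    rw [mul_add, mul_one] at h9
    omega
  · rintro ⟨-, hmod⟩ x ⟨z, hz⟩ hns
    have hz2 : z * z = 1 := scalar_sq hd _ z hz
    let T₁ : (Fin d ⊕ Fin d → F) →ₗ[F] (Fin d ⊕ Fin d → F) := Matrix.toLin' (x : Matrix (Fin d ⊕ Fin d) (Fin d ⊕ Fin d) F)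
    have hT₁ : ∀ v, T₁ v = (x : Matrix (Fin d ⊕ Fin d) (Fin d ⊕ Fin d) F) *ᵥ v := fun v => Matrix.toLin'_apply _ v
    have hT₁r : T₁ ^ r = z • 1 := by
      have h2 : T₁ = Matrix.toLinAlgEquiv' (x : Matrix (Fin d ⊕ Fin d) (Fin d ⊕ Fin d) F) := rfl
      have h3 : T₁ ^ r = Matrix.toLinAlgEquiv' ((x ^ r : symplecticGroup (Fin d) F) : Matrix (Fin d ⊕ Fin d) (Fin d ⊕ Fin d) F) := by
        rw [h2, ← map_pow]
        rfl
      rw [h3, hz, map_smul, map_one]
    let T : (Fin d ⊕ Fin d → F) →ₗ[F] (Fin d ⊕ Fin d → F) := z • T₁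
    have hTv : ∀ v, T v = z • T₁ v := fun v => rfl
    have hTr : T ^ r = 1 := by
      show (z • T₁) ^ r = 1
      rw [_root_.smul_pow, hT₁r, smul_smul]
      obtain ⟨k, hk⟩ := hr.odd_of_ne_two hr2
      have h3 : z ^ r * z = 1 := by
        rw [hk, pow_succ, pow_mul, pow_two, hz2, one_pow, one_mul, hz2]
      rw [h3, one_smul]
    have hiso : ∀ u v, sympB d F (T u) (T v) = sympB d F u v := by
      intro u v
      rw [hTv, hTv, sympB_apply, sympB_apply, sympForm_smul_left, sympForm_smul_right, hT₁, hT₁,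
        (mem_symplecticGroup_iff_preserves _).1 x.2 u v, ← mul_assoc, hz2, one_mul]
    have hinv : InvOn T ⊤ := fun _ _ => trivial
    obtain ⟨k', hk'⟩ := finrank_fix_add hq hr2 hrF hB hiso hTr hnd hinv
    have hle : (2 * k) % blockDim r q ≤ finrank F (fixS T ⊤) := by
      refine hmod.trans ?_
      rw [← htop, hk', Nat.add_mul_mod_self_left]
      exact Nat.mod_le _ _
    obtain ⟨W, -, hWnd, hWinv, hWfin, -⟩ := exists_sub_dim hq hr2 hrF halt hiso hTr (2 * k) ⊤ hnd hinv (by rw [htop]; omega)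
      (even_two_mul k) hle
    refine ⟨W, hWfin, fun u hu hu0 => ?_, ?_⟩
    · by_contra hc
      push Not at hc
      exact hu0 (hWnd u hu hc)
    · rintro _ ⟨u, hu, rfl⟩
      have h1 := hWinv u hu
      rw [hTv] at h1
      have h2 := W.smul_mem z h1
      rwa [smul_smul, hz2, one_smul] at h2

end Cfsg.Agent.Lib.SpNDSub
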