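import Mathlib
import Cfsg.Agent.Lib.HermFrame
import Cfsg.Agent.Lib.GUField
import Cfsg.Agent.Lib.RestrScal
import Cfsg.Agent.Lib.SympForm

/-!
# The centraliser in `Sp` of a fixed-point-free element of order three
-/

set_option autoImplicit false
set_option linter.unusedSectionVars false
set_option linter.unusedSimpArgs false

namespace Cfsg.Agent.Lib.SpOrder3

open Module Matrix
open scoped MatrixGroups
open Cfsg Cfsg.Agent.Lib.UnitaryBasic Cfsg.Agent.Lib.UnitarySU Cfsg.Agent.Lib.HermFrame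
  Cfsg.Agent.Lib.SympForm Cfsg.Agent.Lib.RestrScal

variable {F K : Type*} [Field F] [Fintype F] [Field K] [Fintype K] [Algebra F K] {q m : ℕ}

/-- The Hermitian form attached to an order-three element. -/
noncomputable def hform (ω : K) (X : Matrix (Fin m ⊕ Fin m) (Fin m ⊕ Fin m) F)
    (u v : Fin m ⊕ Fin m → F) : K :=
  algebraMap F K (-sympForm m F u (X *ᵥ v)) + algebraMap F K (sympForm m F u v) * ω

section
variable {ω : K} {X : Matrix (Fin m ⊕ Fin m) (Fin m ⊕ Fin m) F}

theorem hB1 (hXB : ∀ u v, sympForm m F (X *ᵥ u) (X *ᵥ v) = sympForm m F u v)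
    (hX2 : X * X + X + 1 = 0) (u v : Fin m ⊕ Fin m → F) :
    sympForm m F (X *ᵥ u) v = - sympForm m F u v - sympForm m F u (X *ᵥ v) := by
  have h1 : v = - (X *ᵥ v) - X *ᵥ (X *ᵥ v) := by
    have := congrArg (fun M => M *ᵥ v) hX2
    simp only [Matrix.add_mulVec, Matrix.one_mulVec, Matrix.zero_mulVec, ← Matrix.mulVec_mulVec] at this
    funext i
    have h2 := congrFun this i
    simp only [Pi.add_apply, Pi.zero_apply] at h2
    simp only [Pi.sub_apply, Pi.neg_apply]
    linear_combination h2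
  conv_lhs => rw [h1]
  rw [sympForm_sub_right, sympForm_neg_right, hXB, hXB]

theorem hform_add_left (u u' v : Fin m ⊕ Fin m → F) :
    hform ω X (u + u') v = hform ω X u v + hform ω X u' v := by
  simp only [hform, sympForm_add_left, neg_add, map_add]
  ring

theorem hform_smul_left_F (c : F) (u v : Fin m ⊕ Fin m → F) :
    hform ω X (c • u) v = algebraMap F K c * hform ω X u v := by
  simp only [hform, sympForm_smul_left, map_mul, map_neg]
  ring

theorem hform_X_left (hω : ω ^ 2 + ω + 1 = 0)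
    (hXB : ∀ u v, sympForm m F (X *ᵥ u) (X *ᵥ v) = sympForm m F u v)
    (hX2 : X * X + X + 1 = 0) (u v : Fin m ⊕ Fin m → F) :
    hform ω X (X *ᵥ u) v = ω * hform ω X u v := by
  simp only [hform, hB1 hXB hX2 u v, hXB, map_sub, map_neg]
  linear_combination (-algebraMap F K (sympForm m F u v)) * hω

theorem hform_conj (hF : Fintype.card F = q) (hK : Fintype.card K = q ^ 2)
    (hω : ω ^ 2 + ω + 1 = 0) (hωq : ω ^ q = ω ^ 2)
    (hXB : ∀ u v, sympForm m F (X *ᵥ u) (X *ᵥ v) = sympForm m F u v)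
    (hX2 : X * X + X + 1 = 0) (u v : Fin m ⊕ Fin m → F) :
    (hform ω X u v) ^ q = hform ω X v u := by
  change sigma hK (hform ω X u v) = _
  simp only [hform, map_add, map_mul, sigma_algebraMap hF hK]
  rw [sigma_apply, hωq, sympForm_antisymm v (X *ᵥ u), sympForm_antisymm v u, hB1 hXB hX2 u v]
  simp only [neg_neg, map_neg, map_sub]
  linear_combination (algebraMap F K (sympForm m F u v)) * hω

theorem hform_nondeg (hF : Fintype.card F = q) (hK : Fintype.card K = q ^ 2)
    (hωσ : sigma hK ω ≠ ω) {x : Fin m ⊕ Fin m → F} (hx : ∀ y, hform ω X x y = 0) : x = 0 := by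
  by_contra h0
  obtain ⟨w, hw⟩ := exists_sympForm_ne_zero h0
  exact hw (eq_zero_of_add_mul hF hK hωσ (hx w)).2

theorem sympForm_eq_of_hform (hF : Fintype.card F = q) (hK : Fintype.card K = q ^ 2)
    (hωσ : sigma hK ω ≠ ω) {u v u' v' : Fin m ⊕ Fin m → F}
    (h : hform ω X u v = hform ω X u' v') : sympForm m F u v = sympForm m F u' v' := by
  have h1 : algebraMap F K (-sympForm m F u (X *ᵥ v) - (-sympForm m F u' (X *ᵥ v'))) +
      algebraMap F K (sympForm m F u v - sympForm m F u' v') * ω = 0 := by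
    rw [map_sub, map_sub]
    simp only [hform] at h
    linear_combination h
  exact sub_eq_zero.1 (eq_zero_of_add_mul hF hK hωσ h1).2

end

section
variable {ω : K} {X : Matrix (Fin m ⊕ Fin m) (Fin m ⊕ Fin m) F}
  [Module K (Fin m ⊕ Fin m → F)] [IsScalarTower F K (Fin m ⊕ Fin m → F)]

theorem smul_eq_of_decomp (hact : ∀ v, ω • v = X *ᵥ v) (a b : F) (v : Fin m ⊕ Fin m → F) :
    (algebraMap F K a + algebraMap F K b * ω) • v = a • v + b • (X *ᵥ v) := by
  rw [add_smul, mul_smul, algebraMap_smul, algebraMap_smul, hact]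

theorem hform_isHerm (hF : Fintype.card F = q) (hK : Fintype.card K = q ^ 2)
    (hω : ω ^ 2 + ω + 1 = 0) (hωq : ω ^ q = ω ^ 2) (hωσ : sigma hK ω ≠ ω)
    (hXB : ∀ u v, sympForm m F (X *ᵥ u) (X *ᵥ v) = sympForm m F u v)
    (hX2 : X * X + X + 1 = 0) (hact : ∀ v, ω • v = X *ᵥ v) :
    IsHerm q (hform ω X : (Fin m ⊕ Fin m → F) → (Fin m ⊕ Fin m → F) → K) where
  add_left := hform_add_left
  smul_left := by
    intro c u v
    obtain ⟨a, b, rfl⟩ := exists_decomp hF hK hωσ c
    rw [smul_eq_of_decomp hact, hform_add_left, hform_smul_left_F, hform_smul_left_F,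
      hform_X_left hω hXB hX2]
    ring
  conj := hform_conj hF hK hω hωq hXB hX2
  nondeg := fun _ hx => hform_nondeg hF hK hωσ hx

theorem finrank_K (hF : Fintype.card F = q) (hK : Fintype.card K = q ^ 2) :
    haveI : FiniteDimensional K (Fin m ⊕ Fin m → F) := Module.Finite.of_finite
    finrank K (Fin m ⊕ Fin m → F) = m := by
  have h1 := Module.finrank_mul_finrank F K (Fin m ⊕ Fin m → F)
  rw [finrank_eq_two hF hK, finrank_sum] at h1
  omega

/-- Matrices commuting with `X` are `K`-linear. -/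
theorem mulVec_smul_K (hF : Fintype.card F = q) (hK : Fintype.card K = q ^ 2)
    (hωσ : sigma hK ω ≠ ω) (hact : ∀ v, ω • v = X *ᵥ v)
    {G : Matrix (Fin m ⊕ Fin m) (Fin m ⊕ Fin m) F} (hG : G * X = X * G) (k : K)
    (v : Fin m ⊕ Fin m → F) : G *ᵥ (k • v) = k • (G *ᵥ v) := by
  obtain ⟨a, b, rfl⟩ := exists_decomp hF hK hωσ k
  rw [smul_eq_of_decomp hact, smul_eq_of_decomp hact, Matrix.mulVec_add, Matrix.mulVec_smul,
    Matrix.mulVec_smul, Matrix.mulVec_mulVec, hG, Matrix.mulVec_mulVec]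

/-- The `K`-linear map of a matrix commuting with `X`. -/
noncomputable def TG (hF : Fintype.card F = q) (hK : Fintype.card K = q ^ 2)
    (hωσ : sigma hK ω ≠ ω) (hact : ∀ v, ω • v = X *ᵥ v)
    (G : Matrix (Fin m ⊕ Fin m) (Fin m ⊕ Fin m) F) (hG : G * X = X * G) :
    (Fin m ⊕ Fin m → F) →ₗ[K] (Fin m ⊕ Fin m → F) where
  toFun v := G *ᵥ v
  map_add' := Matrix.mulVec_add G
  map_smul' k v := mulVec_smul_K hF hK hωσ hact hG k v

/-- The main count. -/
theorem card_centralizer (hF : Fintype.card F = q) (hK : Fintype.card K = q ^ 2)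
    (hω : ω ^ 2 + ω + 1 = 0) (hωq : ω ^ q = ω ^ 2) (hωσ : sigma hK ω ≠ ω)
    (hXB : ∀ u v, sympForm m F (X *ᵥ u) (X *ᵥ v) = sympForm m F u v)
    (hX2 : X * X + X + 1 = 0) (hact : ∀ v, ω • v = X *ᵥ v) :
    Nat.card {g : symplecticGroup (Fin m) F //
        (g : Matrix (Fin m ⊕ Fin m) (Fin m ⊕ Fin m) F) * X = X * g} = Nat.card (GU m K q) := by
  classical
  haveI : FiniteDimensional K (Fin m ⊕ Fin m → F) := Module.Finite.of_finite
  obtain ⟨e, he⟩ := exists_equiv hK (finrank_K (m := m) hF hK)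
    (hform_isHerm hF hK hω hωq hωσ hXB hX2 hact)
  -- the matrix of a commuting isometry
  have hpres : ∀ (g : symplecticGroup (Fin m) F)
      (hg : (g : Matrix (Fin m ⊕ Fin m) (Fin m ⊕ Fin m) F) * X = X * g) (u v),
      hform ω X ((g : Matrix (Fin m ⊕ Fin m) (Fin m ⊕ Fin m) F) *ᵥ u)
        ((g : Matrix (Fin m ⊕ Fin m) (Fin m ⊕ Fin m) F) *ᵥ v) = hform ω X u v := by
    intro g hg u v
    simp only [hform]
    rw [Matrix.mulVec_mulVec, ← hg, ← Matrix.mulVec_mulVec, sp_preserves, sp_preserves]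
  let Amat : ∀ (g : symplecticGroup (Fin m) F)
      (_ : (g : Matrix (Fin m ⊕ Fin m) (Fin m ⊕ Fin m) F) * X = X * g),
      Matrix (Fin m) (Fin m) K := fun g hg =>
    LinearMap.toMatrix' (e.toLinearMap ∘ₗ TG hF hK hωσ hact _ hg ∘ₗ e.symm.toLinearMap)
  have hAmat : ∀ g hg (y : Fin m → K), Amat g hg *ᵥ y =
      e ((g : Matrix (Fin m ⊕ Fin m) (Fin m ⊕ Fin m) F) *ᵥ e.symm y) := by
    intro g hg y
    simp only [Amat, LinearMap.toMatrix'_mulVec]
    rfl
  have hApres : ∀ g hg (a b : Fin m → K), hermForm m K q (Amat g hg *ᵥ a) (Amat g hg *ᵥ b) =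
      hermForm m K q a b := by
    intro g hg a b
    rw [hAmat, hAmat, ← he, hpres g hg, he, e.apply_symm_apply, e.apply_symm_apply]
  let Φ : {g : symplecticGroup (Fin m) F //
      (g : Matrix (Fin m ⊕ Fin m) (Fin m ⊕ Fin m) F) * X = X * g} → GU m K q :=
    fun g => GUofMatrix hK (Amat g.1 g.2) (hApres g.1 g.2)
  apply Nat.card_eq_of_bijective Φ
  constructor
  · intro g g' hgg
    have h1 : Amat g.1 g.2 = Amat g'.1 g'.2 := congrArg (fun z : GU m K q => (z.1 : Matrix (Fin m) (Fin m) K)) hgg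
    apply Subtype.ext
    apply Subtype.ext
    apply Matrix.mulVec_injective
    funext v
    have h2 := hAmat g.1 g.2 (e v)
    have h3 := hAmat g'.1 g'.2 (e v)
    rw [e.symm_apply_apply] at h2 h3
    rw [h1, h3] at h2
    exact (e.injective h2).symm
  · intro u
    set A₀ : Matrix (Fin m) (Fin m) K := ((u.1 : GL (Fin m) K) : Matrix (Fin m) (Fin m) K) with hA₀
    have hA₀p : ∀ a b, hermForm m K q (A₀ *ᵥ a) (A₀ *ᵥ b) = hermForm m K q a b := fun a b => u.2 a b
    let S : (Fin m ⊕ Fin m → F) →ₗ[F] (Fin m ⊕ Fin m → F) :=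
      { toFun := fun v => e.symm (A₀ *ᵥ e v)
        map_add' := fun a b => by
          rw [map_add, Matrix.mulVec_add, map_add]
        map_smul' := fun c a => by
          rw [RingHom.id_apply, ← algebraMap_smul K c a, map_smul, Matrix.mulVec_smul, map_smul,
            algebraMap_smul] }
    have hS : ∀ v, S v = e.symm (A₀ *ᵥ e v) := fun _ => rfl
    set G : Matrix (Fin m ⊕ Fin m) (Fin m ⊕ Fin m) F := LinearMap.toMatrix' S with hG
    have hGv : ∀ v, G *ᵥ v = e.symm (A₀ *ᵥ e v) := by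
      intro v
      rw [hG, LinearMap.toMatrix'_mulVec, hS]
    have hGh : ∀ a b, hform ω X (G *ᵥ a) (G *ᵥ b) = hform ω X a b := by
      intro a b
      rw [hGv, hGv, he, e.apply_symm_apply, e.apply_symm_apply, hA₀p, ← he]
    have hGmem : G ∈ symplecticGroup (Fin m) F := by
      rw [mem_symplecticGroup_iff_preserves]
      intro a b
      exact sympForm_eq_of_hform hF hK hωσ (hGh a b)
    have hGc : G * X = X * G := by
      apply Matrix.mulVec_injective
      funext v
      rw [← Matrix.mulVec_mulVec, ← Matrix.mulVec_mulVec, ← hact, hGv, hGv, map_smul,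
        Matrix.mulVec_smul, map_smul, hact]
    refine ⟨⟨⟨G, hGmem⟩, hGc⟩, ?_⟩
    apply Subtype.ext
    apply Units.ext
    change Amat ⟨G, hGmem⟩ hGc = A₀
    apply Matrix.mulVec_injective
    funext y
    rw [hAmat]
    change e (G *ᵥ e.symm y) = _
    rw [hGv, e.apply_symm_apply, e.apply_symm_apply]

end

end Cfsg.Agent.Lib.SpOrder3
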