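import Mathlib
import Cfsg.Prelude.Def_ClassicalGeometry
import Cfsg.Agent.Lib.SympWitt
import Cfsg.Agent.Lib.SpOrder

/-!
# The stabiliser of a totally isotropic subspace in the symplectic group
-/

set_option autoImplicit false
set_option linter.unusedSectionVars false
set_option linter.unusedSimpArgs false

namespace Cfsg.Agent.Lib.SpParab

open Matrix Cfsg Cfsg.Agent.Lib.SympForm Cfsg.Agent.Lib.SympWitt

variable {F : Type*} [Field F] {m k : ℕ}

/-- Totally isotropic independent tuples. -/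
def Frame (m k : ℕ) (F : Type*) [Field F] : Set (Fin k → Fin m ⊕ Fin m → F) :=
  {f | LinearIndependent F f ∧ ∀ i j, sympForm m F (f i) (f j) = 0}

/-- The extensions of a tuple. -/
def Fib (f : Fin k → Fin m ⊕ Fin m → F) : Set (Fin m ⊕ Fin m → F) :=
  {x | (∀ i, sympForm m F (f i) x = 0) ∧ x ∉ Submodule.span F (Set.range f)}

theorem mem_orthogonal_span {f : Fin k → Fin m ⊕ Fin m → F} {x : Fin m ⊕ Fin m → F} :
    x ∈ (sympB m F).orthogonal (Submodule.span F (Set.range f)) ↔ ∀ i, sympForm m F (f i) x = 0 := by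
  rw [LinearMap.BilinForm.mem_orthogonal_iff]
  constructor
  · intro h i
    exact h _ (Submodule.subset_span ⟨i, rfl⟩)
  · intro h n hn
    induction hn using Submodule.span_induction with
    | mem u hu =>
      obtain ⟨i, rfl⟩ := hu
      exact h i
    | zero => exact sympForm_zero_left x
    | add a b _ _ ha hb =>
      change sympForm m F (a + b) x = 0
      rw [sympForm_add_left]
      rw [show sympForm m F a x = 0 from ha, show sympForm m F b x = 0 from hb, add_zero]
    | smul c a _ ha =>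
      change sympForm m F (c • a) x = 0
      rw [sympForm_smul_left, show sympForm m F a x = 0 from ha, mul_zero]

theorem card_Fib [Fintype F] {f : Fin k → Fin m ⊕ Fin m → F} (hf : f ∈ Frame m k F) :
    Nat.card (Fib f) = Fintype.card F ^ (2 * m - k) - Fintype.card F ^ k := by
  classical
  set U := Submodule.span F (Set.range f) with hU
  set P := (sympB m F).orthogonal U with hP
  have hUP : (U : Set (Fin m ⊕ Fin m → F)) ⊆ P := by
    have h0 : U ≤ P := Submodule.span_le.2 (by
      rintro _ ⟨j, rfl⟩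
      rw [SetLike.mem_coe, hP, hU, mem_orthogonal_span]
      intro i
      exact hf.2 i j)
    exact h0
  have hFib : Fib f = (P : Set (Fin m ⊕ Fin m → F)) \ U := by
    ext x
    simp only [Fib, Set.mem_ofPred_eq, Set.mem_sdiff, SetLike.mem_coe]
    rw [hP, hU, mem_orthogonal_span]
  have hfU : Module.finrank F U = k := by
    rw [hU, finrank_span_eq_card hf.1]
    simp
  have hfP : Module.finrank F P = 2 * m - k := by
    rw [hP, LinearMap.BilinForm.finrank_orthogonal sympB_nondeg, hfU, Module.finrank_fintype_fun_eq_card]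
    simp [two_mul]
  rw [hFib, Nat.card_coe_set_eq, Set.ncard_sdiff hUP (Set.toFinite _), ← Nat.card_coe_set_eq, ← Nat.card_coe_set_eq]
  have h1 : Nat.card ((P : Set (Fin m ⊕ Fin m → F)) : Type _) = Fintype.card F ^ (2 * m - k) := by
    change Nat.card ↥P = _
    rw [Module.natCard_eq_pow_finrank (K := F), hfP, Nat.card_eq_fintype_card]
  have h2 : Nat.card ((U : Set (Fin m ⊕ Fin m → F)) : Type _) = Fintype.card F ^ k := by
    change Nat.card ↥U = _
    rw [Module.natCard_eq_pow_finrank (K := F), hfU, Nat.card_eq_fintype_card]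
  rw [h1, h2]

/-- restriction of frames -/
def initFrame (f : ↥(Frame m (k + 1) F)) : ↥(Frame m k F) :=
  ⟨Fin.init f.1, (linearIndependent_finSucc'.1 f.2.1).1, fun i j => f.2.2 _ _⟩

/-- The fibre of the restriction map. -/
noncomputable def fibEquiv (a : ↥(Frame m k F)) :
    {x : ↥(Frame m (k + 1) F) // initFrame x = a} ≃ ↥(Fib a.1) where
  toFun x := ⟨x.1.1 (Fin.last k), by
    have h1 : Fin.init x.1.1 = a.1 := congrArg Subtype.val x.2
    constructor
    · intro i
      rw [← h1]
      exact x.1.2.2 _ _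
    · rw [← h1]
      exact (linearIndependent_finSucc'.1 x.1.2.1).2⟩
  invFun v := ⟨⟨Fin.snoc a.1 v.1, by
      rw [linearIndependent_finSucc', Fin.init_snoc, Fin.snoc_last]
      exact ⟨a.2.1, v.2.2⟩, by
      intro i j
      induction i using Fin.lastCases with
      | last =>
        induction j using Fin.lastCases with
        | last =>
          rw [Fin.snoc_last]
          exact sympForm_self _
        | cast j =>
          rw [Fin.snoc_last, Fin.snoc_castSucc, sympForm_antisymm, v.2.1 j, neg_zero]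
      | cast i =>
        induction j using Fin.lastCases with
        | last =>
          rw [Fin.snoc_last, Fin.snoc_castSucc]
          exact v.2.1 i
        | cast j =>
          rw [Fin.snoc_castSucc, Fin.snoc_castSucc]
          exact a.2.2 i j⟩, by
      apply Subtype.ext
      funext i
      exact Fin.snoc_castSucc (α := fun _ => Fin m ⊕ Fin m → F) v.1 a.1 i⟩
  left_inv x := by
    apply Subtype.ext
    apply Subtype.ext
    have h1 : Fin.init x.1.1 = a.1 := congrArg Subtype.val x.2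
    change Fin.snoc a.1 (x.1.1 (Fin.last k)) = x.1.1
    rw [← h1, Fin.snoc_init_self]
  right_inv v := by
    apply Subtype.ext
    exact Fin.snoc_last (α := fun _ => Fin m ⊕ Fin m → F) v.1 a.1

theorem card_Frame_succ [Fintype F] :
    Nat.card ↥(Frame m (k + 1) F) =
      Nat.card ↥(Frame m k F) * (Fintype.card F ^ (2 * m - k) - Fintype.card F ^ k) := by
  classical
  let _ : Fintype ↥(Frame m k F) := Fintype.ofFinite _
  rw [← Nat.card_congr (Equiv.sigmaFiberEquiv (initFrame (m := m) (k := k) (F := F))), Nat.card_sigma]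
  have h : ∀ a : ↥(Frame m k F), Nat.card {x : ↥(Frame m (k + 1) F) // initFrame x = a} =
      Fintype.card F ^ (2 * m - k) - Fintype.card F ^ k := by
    intro a
    rw [Nat.card_congr (fibEquiv a), card_Fib a.2]
  simp only [h]
  rw [Finset.sum_const, Finset.card_univ, smul_eq_mul, Nat.card_eq_fintype_card]

theorem card_Frame [Fintype F] (k : ℕ) :
    Nat.card ↥(Frame m k F) = ∏ i ∈ Finset.range k, (Fintype.card F ^ (2 * m - i) - Fintype.card F ^ i) := by
  induction k with
  | zero =>
    simp only [Finset.range_zero, Finset.prod_empty]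
    rw [Nat.card_eq_one_iff_unique]
    constructor
    · constructor
      rintro ⟨a, _⟩ ⟨b, _⟩
      apply Subtype.ext
      funext i
      exact i.elim0
    · exact ⟨⟨fun i => i.elim0, linearIndependent_empty_type, fun i => i.elim0⟩⟩
  | succ k ih =>
    rw [card_Frame_succ, ih, Finset.prod_range_succ]

/-! ### the group action -/

theorem smul_apply (g : symplecticGroup (Fin m) F) (f : Fin k → Fin m ⊕ Fin m → F) (i : Fin k) :
    (g • f) i = (g : Matrix (Fin m ⊕ Fin m) (Fin m ⊕ Fin m) F) *ᵥ f i := rfl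

/-- The linear map of an element of the symplectic group. -/
theorem ker_mulVecLin (g : symplecticGroup (Fin m) F) :
    LinearMap.ker (Matrix.mulVecLin (g : Matrix (Fin m ⊕ Fin m) (Fin m ⊕ Fin m) F)) = ⊥ := by
  rw [LinearMap.ker_eq_bot]
  intro x y h
  have h1 : (g : Matrix (Fin m ⊕ Fin m) (Fin m ⊕ Fin m) F) *ᵥ x = (g : Matrix (Fin m ⊕ Fin m) (Fin m ⊕ Fin m) F) *ᵥ y := h
  have h2 : (g⁻¹ : symplecticGroup (Fin m) F).1 * g.1 = 1 := congrArg Subtype.val (inv_mul_cancel g)
  have h3 := congrArg (fun v => (g⁻¹ : symplecticGroup (Fin m) F).1 *ᵥ v) h1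
  simpa [Matrix.mulVec_mulVec, h2] using h3

theorem smul_frame {f : Fin k → Fin m ⊕ Fin m → F} (hf : f ∈ Frame m k F) (g : symplecticGroup (Fin m) F) :
    g • f ∈ Frame m k F := by
  constructor
  · have h : g • f = ⇑(Matrix.mulVecLin (g : Matrix (Fin m ⊕ Fin m) (Fin m ⊕ Fin m) F)) ∘ f := by
      funext i
      exact smul_apply g f i
    rw [h]
    exact hf.1.map' _ (ker_mulVecLin g)
  · intro i j
    rw [smul_apply, smul_apply, sp_preserves, hf.2]

theorem orbit_eq {f : Fin k → Fin m ⊕ Fin m → F} (hf : f ∈ Frame m k F) :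
    MulAction.orbit (symplecticGroup (Fin m) F) f = Frame m k F := by
  ext f'
  constructor
  · rintro ⟨g, rfl⟩
    exact smul_frame hf g
  · intro hf'
    obtain ⟨A, hA⟩ := exists_sp_tuple f f' hf.1 hf'.1 (fun i j => by rw [hf.2, hf'.2])
    refine ⟨A, ?_⟩
    funext i
    exact hA i

section stab

variable (W : Submodule F (Fin m ⊕ Fin m → F))

/-- Bases of a subspace. -/
def WFrame (k : ℕ) : Set (Fin k → Fin m ⊕ Fin m → F) :=
  {f | LinearIndependent F f ∧ ∀ i, f i ∈ W}

/-- independent tuples in `W`. -/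
def wEquiv : {s : Fin k → W // LinearIndependent F s} ≃ ↥(WFrame W k) where
  toFun s := ⟨fun i => (s.1 i : Fin m ⊕ Fin m → F), s.2.map' W.subtype W.ker_subtype, fun i => (s.1 i).2⟩
  invFun f := ⟨fun i => ⟨f.1 i, f.2.2 i⟩, by
    have h : LinearIndependent F (W.subtype ∘ fun i => (⟨f.1 i, f.2.2 i⟩ : W)) := f.2.1
    exact (LinearMap.linearIndependent_iff W.subtype W.ker_subtype).1 h⟩
  left_inv s := rfl
  right_inv f := rfl

theorem card_WFrame [Fintype F] (hWk : Module.finrank F W = k) :
    Nat.card ↥(WFrame W k) = ∏ i : Fin k, (Fintype.card F ^ k - Fintype.card F ^ (i : ℕ)) := by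
  rw [← Nat.card_congr (wEquiv W), card_linearIndependent (by rw [hWk]), hWk]

variable {W} 

/-- elements mapping `W` onto itself stabilise it -/
theorem mem_stab_of_map (g : symplecticGroup (Fin m) F)
    (h : W.map (Matrix.mulVecLin (g : Matrix (Fin m ⊕ Fin m) (Fin m ⊕ Fin m) F)) = W) :
    g ∈ stabilizing (spToMat m F) (W : Set (Fin m ⊕ Fin m → F)) := by
  intro v
  constructor
  · intro hv
    have : Matrix.mulVecLin (g : Matrix (Fin m ⊕ Fin m) (Fin m ⊕ Fin m) F) v ∈ W := by
      rw [← h]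
      exact Submodule.mem_map_of_mem hv
    exact this
  · intro hv
    have hv' : (g : Matrix (Fin m ⊕ Fin m) (Fin m ⊕ Fin m) F) *ᵥ v ∈ W := hv
    rw [← h] at hv'
    obtain ⟨w, hw, hwv⟩ := hv'
    have h3 : w = v := (LinearMap.ker_eq_bot.1 (ker_mulVecLin g)) hwv
    rw [← h3]
    exact hw

/-- A basis of `W`. -/
theorem exists_frame (hWk : Module.finrank F W = k) (hW : ∀ u ∈ W, ∀ v ∈ W, sympForm m F u v = 0) :
    ∃ f : Fin k → Fin m ⊕ Fin m → F, f ∈ Frame m k F ∧ f ∈ WFrame W k ∧ Submodule.span F (Set.range f) = W := by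
  classical
  have : FiniteDimensional F W := inferInstance
  let b := Module.finBasisOfFinrankEq F W hWk
  refine ⟨fun i => (b i : Fin m ⊕ Fin m → F), ⟨?_, ?_⟩, ⟨?_, ?_⟩, ?_⟩
  · exact b.linearIndependent.map' W.subtype W.ker_subtype
  · intro i j
    exact hW _ (b i).2 _ (b j).2
  · exact b.linearIndependent.map' W.subtype W.ker_subtype
  · intro i
    exact (b i).2
  · have h1 : Set.range (fun i => (b i : Fin m ⊕ Fin m → F)) = W.subtype '' Set.range b := by
      rw [← Set.range_comp]
      rfl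
    rw [h1, ← Submodule.map_span, b.span_eq, Submodule.map_top, Submodule.range_subtype]

theorem span_eq_of_WFrame {f : Fin k → Fin m ⊕ Fin m → F} (hWk : Module.finrank F W = k) (hf : f ∈ WFrame W k) :
    Submodule.span F (Set.range f) = W := by
  apply Submodule.eq_of_le_of_finrank_eq
  · apply Submodule.span_le.2
    rintro _ ⟨i, rfl⟩
    exact hf.2 i
  · rw [finrank_span_eq_card hf.1, hWk]
    simp

theorem orbit_stab_eq {f₀ : Fin k → Fin m ⊕ Fin m → F} (hWk : Module.finrank F W = k)
    (hW : ∀ u ∈ W, ∀ v ∈ W, sympForm m F u v = 0) (hf₀ : f₀ ∈ Frame m k F) (hf₀W : f₀ ∈ WFrame W k) :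
    MulAction.orbit ↥(stabilizing (spToMat m F) (W : Set (Fin m ⊕ Fin m → F))) f₀ = WFrame W k := by
  ext f
  constructor
  · rintro ⟨s, rfl⟩
    refine ⟨(smul_frame hf₀ s.1).1, fun i => ?_⟩
    exact (s.2 (f₀ i)).1 (hf₀W.2 i)
  · intro hf
    have hfF : f ∈ Frame m k F := ⟨hf.1, fun i j => hW _ (hf.2 i) _ (hf.2 j)⟩
    obtain ⟨A, hA⟩ := exists_sp_tuple f₀ f hf₀.1 hf.1 (fun i j => by rw [hf₀.2, hfF.2])
    have hAS : A ∈ stabilizing (spToMat m F) (W : Set (Fin m ⊕ Fin m → F)) := by
      apply mem_stab_of_map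
      conv_lhs => rw [← span_eq_of_WFrame hWk hf₀W]
      rw [Submodule.map_span, ← Set.range_comp]
      have : (⇑(Matrix.mulVecLin (A : Matrix (Fin m ⊕ Fin m) (Fin m ⊕ Fin m) F)) ∘ f₀) = f := by
        funext i
        exact hA i
      rw [this]
      exact span_eq_of_WFrame hWk hf
    refine ⟨⟨A, hAS⟩, ?_⟩
    funext i
    exact hA i

/-- The stabiliser of a frame is contained in the stabiliser of the subspace. -/
theorem card_stabilizer_eq {f₀ : Fin k → Fin m ⊕ Fin m → F} (hWk : Module.finrank F W = k)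
    (hf₀W : f₀ ∈ WFrame W k) :
    Nat.card (MulAction.stabilizer ↥(stabilizing (spToMat m F) (W : Set (Fin m ⊕ Fin m → F))) f₀) =
      Nat.card (MulAction.stabilizer (symplecticGroup (Fin m) F) f₀) := by
  apply Nat.card_congr
  refine
    { toFun := fun x => ⟨x.1.1, x.2⟩
      invFun := fun y => ⟨⟨y.1, ?_⟩, y.2⟩
      left_inv := fun x => rfl
      right_inv := fun y => rfl }
  apply mem_stab_of_map
  conv_lhs => rw [← span_eq_of_WFrame hWk hf₀W]
  rw [Submodule.map_span, ← Set.range_comp]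
  have : (⇑(Matrix.mulVecLin ((y.1 : symplecticGroup (Fin m) F) : Matrix (Fin m ⊕ Fin m) (Fin m ⊕ Fin m) F)) ∘ f₀) = f₀ := by
    funext i
    exact congrFun y.2 i
  rw [this]
  exact span_eq_of_WFrame hWk hf₀W

end stab

theorem prod_id (q m : ℕ) : ∀ k r : ℕ, k + r = m →
    (∏ i ∈ Finset.range k, (q ^ (2 * m - i) - q ^ i)) *
      (q ^ (k * (k + 1) / 2 + 2 * k * r) * (q ^ (r ^ 2) * ∏ i ∈ Finset.range r, (q ^ (2 * (i + 1)) - 1))) =
    q ^ (m ^ 2) * ∏ i ∈ Finset.range m, (q ^ (2 * (i + 1)) - 1) := by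
  intro k
  induction k with
  | zero =>
    intro r hr
    have : r = m := by omega
    subst this
    simp
  | succ k ih =>
    intro r hr
    have h := ih (r + 1) (by omega)
    rw [← h, Finset.prod_range_succ, Finset.prod_range_succ]
    have h1 : 2 * m - k = k + 2 * (r + 1) := by omega
    have h2 : q ^ (2 * m - k) - q ^ k = q ^ k * (q ^ (2 * (r + 1)) - 1) := by
      rw [h1, pow_add, Nat.mul_sub, mul_one]
    rw [h2]
    have h3 : (k + 1) * (k + 1 + 1) / 2 = k * (k + 1) / 2 + (k + 1) := by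
      have := Nat.triangle_succ (k + 1)
      simpa [mul_comm] using this
    have h4 : k + ((k + 1) * (k + 1 + 1) / 2 + 2 * (k + 1) * r) + r ^ 2 =
        k * (k + 1) / 2 + 2 * k * (r + 1) + (r + 1) ^ 2 := by
      rw [h3]
      ring
    have h5 : q ^ k * q ^ ((k + 1) * (k + 1 + 1) / 2 + 2 * (k + 1) * r) * q ^ (r ^ 2) =
        q ^ (k * (k + 1) / 2 + 2 * k * (r + 1)) * q ^ ((r + 1) ^ 2) := by
      rw [← pow_add, ← pow_add, ← pow_add, h4]
    calc _ = (∏ i ∈ Finset.range k, (q ^ (2 * m - i) - q ^ i)) *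
          (q ^ k * q ^ ((k + 1) * (k + 1 + 1) / 2 + 2 * (k + 1) * r) * q ^ (r ^ 2)) *
          (q ^ (2 * (r + 1)) - 1) * ∏ i ∈ Finset.range r, (q ^ (2 * (i + 1)) - 1) := by ring
      _ = _ := by rw [h5]; ring

/-- The order of the stabiliser of a totally isotropic subspace. -/
theorem card_stab [Fintype F] {q : ℕ} (hF : Fintype.card F = q) (m k : ℕ) (hk : k ≤ m)
    (W : Submodule F (Fin m ⊕ Fin m → F)) (hWk : Module.finrank F W = k)
    (hW : ∀ u ∈ W, ∀ v ∈ W, sympForm m F u v = 0) :
    Nat.card ↥(stabilizing (spToMat m F) (W : Set (Fin m ⊕ Fin m → F))) =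
      q ^ (k * (k + 1) / 2 + 2 * k * (m - k)) * (q ^ ((m - k) ^ 2) * ∏ i ∈ Finset.range (m - k), (q ^ (2 * (i + 1)) - 1)) *
        ∏ i : Fin k, (q ^ k - q ^ (i : ℕ)) := by
  subst hF
  obtain ⟨f₀, hf₀, hf₀W, -⟩ := exists_frame hWk hW
  have h1 := Subgroup.card_mul_index (MulAction.stabilizer ↥(stabilizing (spToMat m F) (W : Set (Fin m ⊕ Fin m → F))) f₀)
  rw [MulAction.index_stabilizer, orbit_stab_eq hWk hW hf₀ hf₀W, card_stabilizer_eq hWk hf₀W,
    ← Nat.card_coe_set_eq, card_WFrame W hWk] at h1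
  have h2 := Subgroup.card_mul_index (MulAction.stabilizer (symplecticGroup (Fin m) F) f₀)
  rw [MulAction.index_stabilizer, orbit_eq hf₀, ← Nat.card_coe_set_eq, card_Frame,
    Cfsg.Agent.Lib.SpOrder.card_Sp] at h2
  have h3 := prod_id (Fintype.card F) m k (m - k) (by omega)
  have hpos : 0 < ∏ i ∈ Finset.range k, (Fintype.card F ^ (2 * m - i) - Fintype.card F ^ i) := by
    rw [← card_Frame k]
    have : Nonempty ↥(Frame m k F) := ⟨⟨f₀, hf₀⟩⟩
    exact Nat.card_pos
  rw [← h3, mul_comm] at h2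
  have h4 := Nat.eq_of_mul_eq_mul_left hpos h2
  rw [← h1, h4]

end Cfsg.Agent.Lib.SpParab
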