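import Mathlib
import Cfsg.Agent.Lib.SpBasic

/-!
# Symplectic groups over the field with two elements: the elements `E v u s`

`E v u s` is the Siegel-type element `x ↦ x + ω(u,x) v + ω(v,x) u + s ω(v,x) v`.
-/

set_option autoImplicit false
set_option linter.unusedSectionVars false
set_option linter.unusedVariables false

namespace Cfsg.Agent.Lib.SpTwoIdx

open Matrix Cfsg.Agent.Lib.SpBasic

variable {l F : Type*} [Fintype l] [DecidableEq l] [Field F] [Fintype F]

section Basic

variable (hF : Fintype.card F = 2)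
include hF

lemma two_zero : (2 : F) = 0 := by
  have h := FiniteField.cast_card_eq_zero F
  rw [hF] at h
  exact_mod_cast h

lemma add_self' (a : F) : a + a = 0 := by
  rw [← two_mul, two_zero hF, zero_mul]

lemma neg_eq' (a : F) : -a = a := by
  have := add_self' hF a
  linear_combination -this

lemma zero_or_one (a : F) : a = 0 ∨ a = 1 := by
  classical
  by_contra h
  push Not at h
  have h1 : ({0, 1, a} : Finset F).card ≤ Fintype.card F := Finset.card_le_univ _
  have h2 : ({0, 1, a} : Finset F).card = 3 :=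
    Finset.card_eq_three.2 ⟨0, 1, a, zero_ne_one, fun h3 => h.1 h3.symm, fun h3 => h.2 h3.symm, rfl⟩
  omega

lemma ω_symm (x y : l ⊕ l → F) : ω x y = ω y x := by
  rw [ω_comm, neg_eq' hF]

lemma vadd_self (x : l ⊕ l → F) : x + x = 0 := by
  ext i
  exact add_self' hF _

lemma vneg (x : l ⊕ l → F) : -x = x := by
  ext i
  exact neg_eq' hF _

lemma vsub (x y : l ⊕ l → F) : x - y = x + y := by
  rw [sub_eq_add_neg, vneg hF]

/-- The transvections are involutions. -/
lemma T_one_mul_self (u : l ⊕ l → F) : T u (1 : F) * T u 1 = 1 := by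
  rw [T_mul, add_self' hF, T_zero_right]

lemma T_one_inv (u : l ⊕ l → F) : (T u (1 : F))⁻¹ = T u 1 := by
  rw [T_inv, neg_eq' hF]

/-- The product of transvections `E`. -/
def E (v u : l ⊕ l → F) (s : F) : Sp l F := T (u + v) 1 * T u 1 * T v (s + 1)

omit hF in
lemma E_def (v u : l ⊕ l → F) (s : F) : E v u s = T (u + v) 1 * T u 1 * T v (s + 1) := rfl

lemma E_smul {v u : l ⊕ l → F} (h : ω v u = 0) (s : F) (x : l ⊕ l → F) :
    E v u s • x = x + (ω u x) • v + (ω v x) • u + (s * ω v x) • v := by
  have huv : ω u v = 0 := by rw [ω_symm hF, h]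
  simp only [E_def, mul_smul, T_smul, ω_add_left, ω_add_right, ω_smul_right, ω_self, h, huv, mul_zero,
    add_zero, zero_add, one_mul]
  ext i
  simp only [Pi.add_apply, Pi.smul_apply, smul_eq_mul]
  linear_combination ((ω v x) * v i + (ω u x) * u i) * two_zero hF

lemma E_mul {v u u' : l ⊕ l → F} (h : ω v u = 0) (h' : ω v u' = 0) (s s' : F) :
    E v u s * E v u' s' = E v (u + u') (s + s' + ω u u') := by
  have huv : ω u v = 0 := by rw [ω_symm hF, h]
  apply Sp_ext
  intro x
  rw [mul_smul, E_smul hF h', E_smul hF h, E_smul hF (by rw [ω_add_right, h, h', add_zero])]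
  simp only [ω_add_left, ω_add_right, ω_smul_right, ω_self, h, h', huv, mul_zero, add_zero, zero_add]
  ext i
  simp only [Pi.add_apply, Pi.smul_apply, smul_eq_mul]
  ring

lemma E_zero (v : l ⊕ l → F) (s : F) : E v 0 s = T v s := by
  apply Sp_ext
  intro x
  rw [E_smul hF (ω_zero_right v), T_smul, ω_zero_left]
  simp

lemma E_zero_zero (v : l ⊕ l → F) : E v 0 (0 : F) = 1 := by
  rw [E_zero hF, T_zero_right]

lemma E_add_self {v u : l ⊕ l → F} (h : ω v u = 0) (s : F) : E v (u + v) s = E v u s := by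
  apply Sp_ext
  intro x
  rw [E_smul hF h, E_smul hF (by rw [ω_add_right, h, ω_self, add_zero])]
  simp only [ω_add_left]
  ext i
  simp only [Pi.add_apply, Pi.smul_apply, smul_eq_mul]
  linear_combination ((ω v x) * v i) * two_zero hF

lemma E_self (v : l ⊕ l → F) (s : F) : E v v s = T v s := by
  have h := E_add_self hF (v := v) (u := 0) (ω_zero_right v) s
  rwa [zero_add, E_zero hF] at h

lemma E_mul_self {v u : l ⊕ l → F} (h : ω v u = 0) (s : F) : E v u s * E v u s = 1 := by
  rw [E_mul hF h h, vadd_self hF, ω_self, add_self', add_zero, E_zero_zero hF]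
  exact hF

lemma E_inv {v u : l ⊕ l → F} (h : ω v u = 0) (s : F) : (E v u s)⁻¹ = E v u s :=
  inv_eq_of_mul_eq_one_right (E_mul_self hF h s)

lemma E_symm {v u : l ⊕ l → F} (h : ω v u = 0) : E v u (0 : F) = E u v 0 := by
  apply Sp_ext
  intro x
  rw [E_smul hF h, E_smul hF (by rw [ω_symm hF, h])]
  ext i
  simp only [Pi.add_apply, Pi.smul_apply, smul_eq_mul]
  ring

omit hF in
lemma E_conj (g : Sp l F) (v u : l ⊕ l → F) (s : F) : g * E v u s * g⁻¹ = E (g • v) (g • u) s := by
  have h : g * (T (u + v) (1 : F) * T u 1 * T v (s + 1)) * g⁻¹ =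
      (g * T (u + v) (1 : F) * g⁻¹) * (g * T u 1 * g⁻¹) * (g * T v (s + 1) * g⁻¹) := by group
  rw [E_def, h, T_conj, T_conj, T_conj, smul_add, E_def]

lemma E_smul_v {v u : l ⊕ l → F} (h : ω v u = 0) (s : F) : E v u s • v = v := by
  rw [E_smul hF h, ω_symm hF u v, h, ω_self]
  simp

lemma E_one_eq {v u : l ⊕ l → F} : E v u (1 : F) = T (u + v) 1 * T u 1 := by
  rw [E_def, add_self' hF, T_zero_right, mul_one]

/-- Action of a transvection. -/
lemma T_one_smul (u x : l ⊕ l → F) : T u (1 : F) • x = x + ω u x • u := by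
  rw [T_smul, one_mul]

lemma T_one_smul_of_one {u x : l ⊕ l → F} (h : ω u x = 1) : T u (1 : F) • x = x + u := by
  rw [T_one_smul hF, h, one_smul]

lemma T_one_smul_of_zero {u x : l ⊕ l → F} (h : ω u x = 0) : T u (1 : F) • x = x := by
  rw [T_one_smul hF, h, zero_smul, add_zero]

end Basic

section Kdata

variable (hF : Fintype.card F = 2) {K : Subgroup (Sp l F)}
include hF

/-- At most one central coordinate. -/
lemma E_uniq {v u : l ⊕ l → F} (hv : T v (1 : F) ∉ K) (h : ω v u = 0) {s s' : F}
    (hs : E v u s ∈ K) (hs' : E v u s' ∈ K) : s = s' := by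
  have h1 := K.mul_mem hs hs'
  rw [E_mul hF h h, vadd_self hF, ω_self, add_zero, E_zero hF] at h1
  rcases zero_or_one hF (s + s') with h2 | h2
  · linear_combination h2 - (add_self' hF s')
  · rw [h2] at h1
    exact absurd h1 hv

/-- Membership in a product. -/
lemma E_mem_add {v u u' : l ⊕ l → F} (h : ω v u = 0) (h' : ω v u' = 0) {s s' : F}
    (hs : E v u s ∈ K) (hs' : E v u' s' ∈ K) : E v (u + u') (s + s' + ω u u') ∈ K := by
  rw [← E_mul hF h h']
  exact K.mul_mem hs hs'

end Kdata

end Cfsg.Agent.Lib.SpTwoIdx
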