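import Mathlib
import Cfsg.Agent.Lib.SpTwoIdxA

/-!
# Symplectic groups over the field with two elements: the closure

If for every transvection `t_v` outside `K` the group `Q_v ∩ K` has index two in `Q_v`, then the
transvections in `K` define a quadratic form polarising to `ω` which is preserved by `K`.
-/

set_option autoImplicit false
set_option linter.unusedSectionVars false
set_option linter.unusedVariables false

namespace Cfsg.Agent.Lib.SpTwoIdx

open Matrix Cfsg.Agent.Lib.SpBasic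

variable {l F : Type*} [Fintype l] [DecidableEq l] [Field F] [Fintype F]

section Vectors

variable (hF : Fintype.card F = 2)
include hF

/-- Separation of two vectors. -/
lemma sep {v z : l ⊕ l → F} (hz0 : z ≠ 0) (hzv : z ≠ v) : ∃ e, ω v e = 0 ∧ ω z e = 1 := by
  by_contra hcon
  push Not at hcon
  have h0 : ∀ e, ω v e = 0 → ω z e = 0 := by
    intro e he
    rcases zero_or_one hF (ω z e) with h | h
    · exact h
    · exact absurd h (hcon e he)
  by_cases hv : v = 0
  · subst hv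
    obtain ⟨y, hy⟩ := exists_ω_ne_zero hz0
    exact hy (h0 y (ω_zero_left _))
  · obtain ⟨w, hw⟩ := exists_ω_ne_zero hv
    have hw1 : ω v w = 1 := (zero_or_one hF _).resolve_left hw
    have hzc : z = ω z w • v := by
      rw [← sub_eq_zero]
      apply eq_zero_of_ω_eq_zero
      intro x
      have h1 : ω v (x + (ω v x) • w) = 0 := by
        rw [ω_add_right, ω_smul_right, hw1, mul_one, add_self' hF]
      have h2 := h0 _ h1
      rw [ω_add_right, ω_smul_right] at h2
      rw [ω_sub_left, ω_smul_left]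
      linear_combination h2 - (ω v x * ω z w) * two_zero hF
    rcases zero_or_one hF (ω z w) with h | h
    · rw [h, zero_smul] at hzc
      exact hz0 hzc
    · rw [h, one_smul] at hzc
      exact hzv hzc

omit hF in
/-- The linear functional `ω a ·`. -/
def ωL (a : l ⊕ l → F) : (l ⊕ l → F) →ₗ[F] F where
  toFun := ω a
  map_add' := ω_add_right a
  map_smul' := fun c x => by simp [ω_smul_right]

/-- Many vectors orthogonal to three given ones. -/
lemma exists_perp (hl : 3 ≤ Fintype.card l) (a b c d : l ⊕ l → F) :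
    ∃ z, ω a z = 0 ∧ ω b z = 0 ∧ ω c z = 0 ∧ z ≠ 0 ∧ z ≠ d := by
  classical
  let f : (l ⊕ l → F) →ₗ[F] (F × F × F) := (ωL a).prod ((ωL b).prod (ωL c))
  have h1 := LinearMap.finrank_range_add_finrank_ker f
  have h2 : Module.finrank F (LinearMap.range f) ≤ 3 := by
    refine (Submodule.finrank_le _).trans ?_
    simp
  have h3 : Module.finrank F (l ⊕ l → F) = 2 * Fintype.card l := by
    rw [Module.finrank_fintype_fun_eq_card, Fintype.card_sum]
    ring
  have h4 : 3 ≤ Module.finrank F (LinearMap.ker f) := by omega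
  have h5 : Nat.card (LinearMap.ker f) = 2 ^ Module.finrank F (LinearMap.ker f) := by
    rw [Module.natCard_eq_pow_finrank (K := F), Nat.card_eq_fintype_card, hF]
  have h6 : 8 ≤ Nat.card (LinearMap.ker f) := by
    rw [h5]
    calc 8 = 2 ^ 3 := by norm_num
      _ ≤ _ := Nat.pow_le_pow_right (by norm_num) h4
  by_contra hcon
  push Not at hcon
  have h7 : ∀ z : LinearMap.ker f, z.1 = 0 ∨ z.1 = d := by
    rintro ⟨z, hz⟩
    have hz' : f z = 0 := hz
    have ha : ω a z = 0 := congrArg Prod.fst hz'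
    have hb : ω b z = 0 := congrArg (fun p : F × F × F => p.2.1) hz'
    have hc : ω c z = 0 := congrArg (fun p : F × F × F => p.2.2) hz'
    by_cases hz0 : z = 0
    · exact Or.inl hz0
    · exact Or.inr (hcon z ha hb hc hz0)
  have h8 : Nat.card (LinearMap.ker f) ≤ Nat.card ({0, d} : Finset (l ⊕ l → F)) := by
    refine Nat.card_le_card_of_injective (fun z => ⟨z.1, ?_⟩) ?_
    · rcases h7 z with h | h <;> simp [h]
    · intro z z' h
      apply Subtype.ext
      exact congrArg (fun t : ({0, d} : Finset (l ⊕ l → F)) => t.1) h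
  have h9 : Nat.card ({0, d} : Finset (l ⊕ l → F)) ≤ 2 := by
    rw [Nat.card_eq_fintype_card, Fintype.card_coe]
    exact Finset.card_le_two
  omega

end Vectors

section Closure

variable (hF : Fintype.card F = 2) {K : Subgroup (Sp l F)}

/-- The hypothesis: each `Q_v ∩ K` has index two in `Q_v` if `t_v ∉ K`. -/
def Star (K : Subgroup (Sp l F)) : Prop :=
  ∀ v u : l ⊕ l → F, T v (1 : F) ∉ K → ω v u = 0 → ∃ s : F, E v u s ∈ K

lemma T_zero_mem (K : Subgroup (Sp l F)) : T (0 : l ⊕ l → F) (1 : F) ∈ K := by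
  rw [T_zero_left]
  exact K.one_mem

variable {hF}
include hF

/-- Product of two transvections in `K`. -/
lemma T_add_mem {x y : l ⊕ l → F} (hx : T x (1 : F) ∈ K) (hy : T y (1 : F) ∈ K) (h : ω x y = 1) :
    T (x + y) (1 : F) ∈ K := by
  have h1 := T_conj (T x (1 : F)) y (1 : F)
  rw [T_one_smul_of_one hF h, add_comm y x] at h1
  rw [← h1]
  exact K.mul_mem (K.mul_mem hx hy) (K.inv_mem hx)

lemma T_add_not_mem {x y : l ⊕ l → F} (hx : T x (1 : F) ∈ K) (hy : T y (1 : F) ∉ K) (h : ω x y = 1) :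
    T (x + y) (1 : F) ∉ K := by
  intro hc
  apply hy
  have h2 : ω x (x + y) = 1 := by rw [ω_add_right, ω_self, zero_add, h]
  have h3 := T_add_mem (hF := hF) hx hc h2
  rwa [← add_assoc, vadd_self hF, zero_add] at h3

/-- Config I. -/
lemma no_I (hS : Star K) {a b : l ⊕ l → F} (hab : ω a b = 0) (ha : T a (1 : F) ∉ K) (hb : T b (1 : F) ∉ K)
    (hne : a ≠ b) (hc : T (a + b) (1 : F) ∈ K) : False := by
  have hb0 : b ≠ 0 := by
    rintro rfl
    exact hb (T_zero_mem K)
  obtain ⟨e, hae, hbe⟩ := sep hF hb0 hne.symm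
  -- the value at `b`
  have hE0 : E a b (0 : F) ∈ K := by
    obtain ⟨s, hs⟩ := hS a b ha hab
    rcases zero_or_one hF s with rfl | rfl
    · exact hs
    · exfalso
      rw [E_one_eq hF, add_comm b a] at hs
      apply hb
      have h1 := K.mul_mem (K.inv_mem hc) hs
      rwa [inv_mul_cancel_left] at h1
  obtain ⟨s₁, hs₁⟩ := hS a e ha hae
  have hae' : ω a (e + b) = 0 := by rw [ω_add_right, hae, hab, add_zero]
  obtain ⟨s₂, hs₂⟩ := hS a (e + b) ha hae'
  have h1 := E_mem_add hF hae hae' hs₁ hs₂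
  have h2 : e + (e + b) = b := by rw [← add_assoc, vadd_self hF, zero_add]
  have h3 : ω e (e + b) = 1 := by rw [ω_add_right, ω_self, zero_add, ω_symm hF, hbe]
  rw [h2, h3] at h1
  have h4 := E_uniq hF ha hab h1 hE0
  -- conjugate by `t_{a+b}`
  have h5 : ω (a + b) a = 0 := by
    rw [ω_add_left, ω_self, zero_add, ω_symm hF, hab]
  have h6 : ω (a + b) (e + b) = 1 := by
    rw [ω_add_left, ω_add_right, ω_add_right, hae, hab, hbe, ω_self]
    ring
  have h7 := K.mul_mem (K.mul_mem hc hs₂) (K.inv_mem hc)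
  rw [E_conj, T_one_smul_of_zero hF h5, T_one_smul_of_one hF h6] at h7
  have h8 : e + b + (a + b) = e + a := by
    have : e + b + (a + b) = e + a + (b + b) := by abel
    rw [this, vadd_self hF, add_zero]
  rw [h8, E_add_self hF hae] at h7
  have h9 := E_uniq hF ha hae hs₁ h7
  rw [h9, add_self' hF, zero_add] at h4
  exact one_ne_zero h4

/-- An orthogonal vector of `S` on a point of `C` gives a point of `S`. -/
lemma add_mem_of (hS : Star K) {x u : l ⊕ l → F} (hx : T x (1 : F) ∉ K) (hu : T u (1 : F) ∈ K) (hu0 : u ≠ 0)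
    (h : ω x u = 0) : T (x + u) (1 : F) ∈ K := by
  by_contra hc
  refine no_I (hF := hF) hS (a := x) (b := x + u) ?_ hx hc ?_ ?_
  · rw [ω_add_right, ω_self, zero_add, h]
  · intro h1
    apply hu0
    have : x + u = x + 0 := by rw [← h1, add_zero]
    exact add_left_cancel this
  · rwa [← add_assoc, vadd_self hF, zero_add]

lemma E_one_mem (hS : Star K) {x u : l ⊕ l → F} (hx : T x (1 : F) ∉ K) (hu : T u (1 : F) ∈ K) (hu0 : u ≠ 0)
    (h : ω x u = 0) : E x u (1 : F) ∈ K := by
  rw [E_one_eq hF, add_comm u x]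
  exact K.mul_mem (add_mem_of (hF := hF) hS hx hu hu0 h) hu

/-- Config II, relative version. -/
lemma no_II' (hS : Star K) {x b z : l ⊕ l → F} (hx : T x (1 : F) ∉ K) (hb : T b (1 : F) ∈ K)
    (hz : T z (1 : F) ∈ K) (hbz : T (b + z) (1 : F) ∈ K) (hb0 : b ≠ 0) (hz0 : z ≠ 0) (hne : b ≠ z)
    (hxb : ω x b = 0) (hxz : ω x z = 0) (h : ω b z = 0) : False := by
  have h1 := E_one_mem (hF := hF) hS hx hb hb0 hxb
  have h2 := E_one_mem (hF := hF) hS hx hz hz0 hxz
  have h3 := E_mem_add hF hxb hxz h1 h2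
  rw [h, add_zero, add_self' hF] at h3
  have hne' : b + z ≠ 0 := by
    intro h4
    apply hne
    have : b + z = z + z := by rw [h4, vadd_self hF]
    exact add_right_cancel this
  have hxbz : ω x (b + z) = 0 := by rw [ω_add_right, hxb, hxz, add_zero]
  have h4 := E_one_mem (hF := hF) hS hx hbz hne' hxbz
  have h5 := E_uniq hF hx hxbz h3 h4
  exact zero_ne_one h5

/-- Config II, with a vector orthogonal to one point of the line. -/
lemma no_II_aux (hS : Star K) (hl : 3 ≤ Fintype.card l) {x a b : l ⊕ l → F} (hx : T x (1 : F) ∉ K)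
    (ha : T a (1 : F) ∈ K) (hb : T b (1 : F) ∈ K) (hab' : T (a + b) (1 : F) ∈ K) (ha0 : a ≠ 0) (hb0 : b ≠ 0)
    (hne : a ≠ b) (hab : ω a b = 0) (hxb : ω x b = 0) : False := by
  obtain ⟨z, hz1, hz2, hz3, hz0, hzb⟩ := exists_perp hF hl a b x b
  have hZ : T z (1 : F) ∈ K := by
    by_contra hc
    exact no_II' (hF := hF) hS hc ha hb hab' ha0 hb0 hne (by rw [ω_symm hF, hz1]) (by rw [ω_symm hF, hz2]) hab
  have hbz : b + z ≠ 0 := by
    intro h4
    apply hzb.symm
    have : b + z = z + z := by rw [h4, vadd_self hF]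
    exact add_right_cancel this
  have hZ2 : T (b + z) (1 : F) ∈ K := by
    by_contra hc
    refine no_II' (hF := hF) hS hc ha hb hab' ha0 hb0 hne ?_ ?_ hab
    · rw [ω_add_left, ω_symm hF b a, hab, ω_symm hF z a, hz1, add_zero]
    · rw [ω_add_left, ω_self, ω_symm hF z b, hz2, add_zero]
  exact no_II' (hF := hF) hS hx hb hZ hZ2 hb0 hz0 hzb.symm hxb hz3 hz2

/-- The group `K` misses a transvection. -/
lemma exists_not_mem (hK : K ≠ ⊤) : ∃ x : l ⊕ l → F, T x (1 : F) ∉ K := by
  by_contra hcon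
  push Not at hcon
  apply hK
  rw [eq_top_iff]
  intro g _
  refine T_induction (· ∈ K) K.one_mem ?_ (fun a b ha hb => K.mul_mem ha hb) g
  intro u c
  rcases zero_or_one hF c with rfl | rfl
  · rw [T_zero_right]
    exact K.one_mem
  · exact hcon u

/-- Config II. -/
lemma no_II (hS : Star K) (hK : K ≠ ⊤) (hl : 3 ≤ Fintype.card l) {a b : l ⊕ l → F}
    (ha : T a (1 : F) ∈ K) (hb : T b (1 : F) ∈ K) (hab' : T (a + b) (1 : F) ∈ K) (ha0 : a ≠ 0) (hb0 : b ≠ 0)
    (hne : a ≠ b) (hab : ω a b = 0) : False := by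
  obtain ⟨x, hx⟩ := exists_not_mem (hF := hF) hK
  have hab0 : a + b ≠ 0 := by
    intro h4
    apply hne
    have : a + b = b + b := by rw [h4, vadd_self hF]
    exact add_right_cancel this
  rcases zero_or_one hF (ω x b) with h | h
  · exact no_II_aux (hF := hF) hS hl hx ha hb hab' ha0 hb0 hne hab h
  rcases zero_or_one hF (ω x a) with h' | h'
  · refine no_II_aux (hF := hF) hS hl hx hb ha ?_ hb0 ha0 hne.symm (by rw [ω_symm hF, hab]) h'
    rwa [add_comm]
  · -- the third point
    have h2 : ω x (a + b) = 0 := by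
      rw [ω_add_right, h, h', add_self' hF]
    refine no_II_aux (hF := hF) hS hl hx ha hab' ?_ ha0 hab0 ?_ ?_ h2
    · rwa [← add_assoc, vadd_self hF, zero_add]
    · intro h3
      apply hb0
      have : a + 0 = a + b := by rw [add_zero]; exact h3
      exact (add_left_cancel this).symm
    · rw [ω_add_right, ω_self, zero_add, hab]

/-- First exclusion for config III. -/
lemma L4a {x y z : l ⊕ l → F} (hx : T x (1 : F) ∉ K) (hxy : ω x y = 1) (hxz : ω x z = 0) (hyz : ω y z = 0)
    (h1 : E x z (1 : F) ∈ K) (h2 : E y z (1 : F) ∈ K) (h3 : E (x + y) z (0 : F) ∈ K) : False := by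
  have hzx : ω z x = 0 := by rw [ω_symm hF, hxz]
  have hzy : ω z y = 0 := by rw [ω_symm hF, hyz]
  have hyx : ω y x = 1 := by rw [ω_symm hF, hxy]
  set g := E x z (1 : F) * E y z (1 : F) with hg
  have hgK : g ∈ K := K.mul_mem h1 h2
  have h4 := K.mul_mem (K.mul_mem hgK h3) (K.inv_mem hgK)
  rw [E_conj] at h4
  have h5 : g • z = z := by
    rw [hg, mul_smul, E_smul hF hyz, E_smul hF hxz]
    simp [ω_self, hyz, hxz, ω_add_right, hzy, hzx]
  have h6 : g • (x + y) = x + z := by
    have h61 : E y z (1 : F) • (x + y) = x + z := by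
      rw [E_smul hF hyz]
      simp only [ω_add_right, hzx, hzy, hyx, ω_self, add_zero, zero_smul, one_smul, mul_one]
      have : x + y + z + y = x + z + (y + y) := by abel
      rw [this, vadd_self hF, add_zero]
    rw [hg, mul_smul, h61, E_smul hF hxz]
    simp [ω_add_right, hzx, ω_self, hxz]
  rw [h5, h6] at h4
  have hxzz : ω (x + z) z = 0 := by rw [ω_add_left, hxz, ω_self, add_zero]
  have h7 : E (x + z) z (0 : F) = E x z 0 := by
    rw [E_symm hF hxzz, E_add_self hF hzx, ← E_symm hF hxz]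
  rw [h7] at h4
  have h8 := E_uniq hF hx hxz h4 h1
  exact zero_ne_one h8

/-- Second exclusion for config III. -/
lemma L4b (hS : Star K) {x y z : l ⊕ l → F} (hx : T x (1 : F) ∉ K) (hxy : ω x y = 1) (hxz : ω x z = 0)
    (hyz : ω y z = 0) (hz0 : z ≠ 0)
    (h1 : E x z (0 : F) ∈ K) (h2 : E y z (0 : F) ∈ K) (h3 : E (x + y) z (0 : F) ∈ K) : False := by
  have hzx : ω z x = 0 := by rw [ω_symm hF, hxz]
  have hzy : ω z y = 0 := by rw [ω_symm hF, hyz]
  have hxyz : ω (x + y) z = 0 := by rw [ω_add_left, hxz, hyz, add_zero]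
  have hzxy : ω z (x + y) = 0 := by rw [ω_symm hF, hxyz]
  rw [E_symm hF hxz] at h1
  rw [E_symm hF hyz] at h2
  rw [E_symm hF hxyz] at h3
  have h4 := E_mem_add hF hzx hzy h1 h2
  rw [hxy, add_zero, zero_add] at h4
  have h5 := E_mem_add hF hzxy hzxy h4 h3
  rw [vadd_self hF, ω_self, add_zero, add_zero, E_zero hF] at h5
  have h6 := E_one_mem (hF := hF) hS hx h5 hz0 hxz
  have h7 := E_uniq hF hx hxz (by rw [E_symm hF hxz]; exact h1) h6
  exact zero_ne_one h7

/-- The sum of the central coordinates along a hyperbolic line. -/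
lemma pattern (hS : Star K) {x y z : l ⊕ l → F} (hx : T x (1 : F) ∉ K) (hy : T y (1 : F) ∉ K)
    (hxy : ω x y = 1) (hxz : ω x z = 0) (hyz : ω y z = 0) (hz0 : z ≠ 0) {a b c : F}
    (h1 : E x z a ∈ K) (h2 : E y z b ∈ K) (h3 : E (x + y) z c ∈ K) : a + b + c = 1 := by
  have hxyz : ω (x + y) z = 0 := by rw [ω_add_left, hxz, hyz, add_zero]
  have hyx : ω y x = 1 := by rw [ω_symm hF, hxy]
  have e1 : x + (x + y) = y := by rw [← add_assoc, vadd_self hF, zero_add]
  have e2 : y + (x + y) = x := by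
    have : y + (x + y) = x + (y + y) := by abel
    rw [this, vadd_self hF, add_zero]
  rcases zero_or_one hF a with rfl | rfl <;> rcases zero_or_one hF b with rfl | rfl <;>
    rcases zero_or_one hF c with rfl | rfl
  · exact (L4b (hF := hF) hS hx hxy hxz hyz hz0 h1 h2 h3).elim
  · ring
  · ring
  · exfalso
    refine L4a (hF := hF) hy (x := y) (y := x + y) ?_ hyz hxyz h2 h3 ?_
    · rw [ω_add_right, hyx, ω_self, add_zero]
    · rw [e2]; exact h1
  · ring
  · exfalso
    refine L4a (hF := hF) hx (x := x) (y := x + y) ?_ hxz hxyz h1 h3 ?_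
    · rw [ω_add_right, ω_self, hxy, zero_add]
    · rw [e1]; exact h2
  · exact (L4a (hF := hF) hx hxy hxz hyz h1 h2 h3).elim
  · have := add_self' hF (1 : F)
    linear_combination this

/-- Config III. -/
lemma no_III (hS : Star K) (hl : 3 ≤ Fintype.card l) {x y : l ⊕ l → F} (hx : T x (1 : F) ∉ K)
    (hy : T y (1 : F) ∉ K) (hc : T (x + y) (1 : F) ∉ K) (hxy : ω x y = 1) : False := by
  obtain ⟨z, hz1, hz2, -, hz0, -⟩ := exists_perp hF hl x y x 0
  obtain ⟨z', hz'1, hz'2, hz'3, hz'0, hzz'⟩ := exists_perp hF hl x y z z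
  have hne : z + z' ≠ 0 := by
    intro h4
    apply hzz'
    have : z' + z' = z + z' := by rw [h4, vadd_self hF]
    exact add_right_cancel this
  have hxyz : ω (x + y) z = 0 := by rw [ω_add_left, hz1, hz2, add_zero]
  have hxyz' : ω (x + y) z' = 0 := by rw [ω_add_left, hz'1, hz'2, add_zero]
  obtain ⟨a₁, ha₁⟩ := hS x z hx hz1
  obtain ⟨b₁, hb₁⟩ := hS y z hy hz2
  obtain ⟨c₁, hc₁⟩ := hS (x + y) z hc hxyz
  obtain ⟨a₂, ha₂⟩ := hS x z' hx hz'1
  obtain ⟨b₂, hb₂⟩ := hS y z' hy hz'2
  obtain ⟨c₂, hc₂⟩ := hS (x + y) z' hc hxyz'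
  have p1 := pattern (hF := hF) hS hx hy hxy hz1 hz2 hz0 ha₁ hb₁ hc₁
  have p2 := pattern (hF := hF) hS hx hy hxy hz'1 hz'2 hz'0 ha₂ hb₂ hc₂
  have ha₃ := E_mem_add hF hz1 hz'1 ha₁ ha₂
  have hb₃ := E_mem_add hF hz2 hz'2 hb₁ hb₂
  have hc₃ := E_mem_add hF hxyz hxyz' hc₁ hc₂
  rw [hz'3, add_zero] at ha₃ hb₃ hc₃
  have hxz3 : ω x (z + z') = 0 := by rw [ω_add_right, hz1, hz'1, add_zero]
  have hyz3 : ω y (z + z') = 0 := by rw [ω_add_right, hz2, hz'2, add_zero]
  have p3 := pattern (hF := hF) hS hx hy hxy hxz3 hyz3 hne ha₃ hb₃ hc₃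
  have h2 := add_self' hF (1 : F)
  have : (1 : F) = 0 := by linear_combination -p3 + p1 + p2 + h2
  exact one_ne_zero this

/-- The function attached to `K`. -/
noncomputable def Qf (K : Subgroup (Sp l F)) (x : l ⊕ l → F) : F := by
  classical
  exact if x ≠ 0 ∧ T x (1 : F) ∈ K then 1 else 0

omit hF in
lemma Qf_zero (K : Subgroup (Sp l F)) : Qf K 0 = 0 := by
  classical
  simp [Qf]

omit hF in
lemma Qf_of_mem {x : l ⊕ l → F} (h0 : x ≠ 0) (h : T x (1 : F) ∈ K) : Qf K x = 1 := by
  classical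
  simp [Qf, h0, h]

omit hF in
lemma Qf_of_not_mem {x : l ⊕ l → F} (h : T x (1 : F) ∉ K) : Qf K x = 0 := by
  classical
  simp [Qf, h]

/-- The function is quadratic. -/
theorem Qf_add (hS : Star K) (hK : K ≠ ⊤) (hl : 3 ≤ Fintype.card l) (x y : l ⊕ l → F) :
    Qf K (x + y) = Qf K x + Qf K y + ω x y := by
  by_cases hx0 : x = 0
  · subst hx0
    rw [zero_add, Qf_zero, ω_zero_left]
    ring
  by_cases hy0 : y = 0
  · subst hy0
    rw [add_zero, Qf_zero, ω_zero_right]
    ring
  by_cases hxy : x = y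
  · subst hxy
    rw [vadd_self hF, Qf_zero, ω_self, add_self' hF]
    ring
  have hne : x + y ≠ 0 := by
    intro h4
    apply hxy
    have : x + y = y + y := by rw [h4, vadd_self hF]
    exact add_right_cancel this
  have h2 := add_self' hF (1 : F)
  rcases zero_or_one hF (ω x y) with h | h
  · rw [h, add_zero]
    by_cases hx : T x (1 : F) ∈ K <;> by_cases hy : T y (1 : F) ∈ K
    · have h3 : T (x + y) (1 : F) ∉ K := fun h3 => no_II (hF := hF) hS hK hl hx hy h3 hx0 hy0 hxy h
      rw [Qf_of_mem hx0 hx, Qf_of_mem hy0 hy, Qf_of_not_mem h3, h2]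
    · have h3 : T (x + y) (1 : F) ∈ K := by
        rw [add_comm]
        exact add_mem_of (hF := hF) hS hy hx hx0 (by rw [ω_symm hF, h])
      rw [Qf_of_mem hx0 hx, Qf_of_not_mem hy, Qf_of_mem hne h3, add_zero]
    · have h3 : T (x + y) (1 : F) ∈ K := add_mem_of (hF := hF) hS hx hy hy0 h
      rw [Qf_of_not_mem hx, Qf_of_mem hy0 hy, Qf_of_mem hne h3, zero_add]
    · have h3 : T (x + y) (1 : F) ∉ K := fun h3 => no_I (hF := hF) hS h hx hy hxy h3
      rw [Qf_of_not_mem hx, Qf_of_not_mem hy, Qf_of_not_mem h3, add_zero]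
  · rw [h]
    by_cases hx : T x (1 : F) ∈ K <;> by_cases hy : T y (1 : F) ∈ K
    · have h3 := T_add_mem (hF := hF) hx hy h
      rw [Qf_of_mem hx0 hx, Qf_of_mem hy0 hy, Qf_of_mem hne h3, h2, zero_add]
    · have h3 := T_add_not_mem (hF := hF) hx hy h
      rw [Qf_of_mem hx0 hx, Qf_of_not_mem hy, Qf_of_not_mem h3, add_zero, h2]
    · have h3 := T_add_not_mem (hF := hF) (x := y) (y := x) hy hx (by rw [ω_symm hF, h])
      rw [add_comm] at h3
      rw [Qf_of_not_mem hx, Qf_of_mem hy0 hy, Qf_of_not_mem h3, zero_add, h2]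
    · have h3 : T (x + y) (1 : F) ∈ K := by
        by_contra hc
        exact no_III (hF := hF) hS hl hx hy hc h
      rw [Qf_of_not_mem hx, Qf_of_not_mem hy, Qf_of_mem hne h3]
      ring

omit hF in
/-- The function is invariant under `K`. -/
theorem Qf_smul {k : Sp l F} (hk : k ∈ K) (x : l ⊕ l → F) : Qf K (k • x) = Qf K x := by
  classical
  have h1 : T (k • x) (1 : F) ∈ K ↔ T x (1 : F) ∈ K := by
    rw [← T_conj]
    constructor
    · intro h
      have h2 := K.mul_mem (K.mul_mem (K.inv_mem hk) h) hk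
      convert h2 using 1
      group
    · intro h
      exact K.mul_mem (K.mul_mem hk h) (K.inv_mem hk)
  have h2 : k • x ≠ 0 ↔ x ≠ 0 := by
    rw [Ne, Ne, smul_eq_zero_iff_eq]
  simp [Qf, h1, h2]

end Closure

end Cfsg.Agent.Lib.SpTwoIdx
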