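import Mathlib
import Cfsg.Agent.Lib.SpTwoIdxB
import Cfsg.Agent.Lib.SpCenter

/-!
# Symplectic groups over the field with two elements: quadratic forms
-/

set_option autoImplicit false
set_option linter.unusedSectionVars false
set_option linter.unusedVariables false

namespace Cfsg.Agent.Lib.SpTwoIdx

open Matrix Cfsg.Agent.Lib.SpBasic

variable {l F : Type*} [Fintype l] [DecidableEq l] [Field F] [Fintype F]

section Signs

/-- The sign of an element of the field with two elements. -/
noncomputable def sgn (a : F) : ℤ := by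
  classical
  exact if a = 0 then 1 else -1

lemma sgn_zero : sgn (0 : F) = 1 := by
  classical
  simp [sgn]

lemma sgn_one : sgn (1 : F) = -1 := by
  classical
  simp [sgn]

variable (hF : Fintype.card F = 2)
include hF

lemma sgn_add (a b : F) : sgn (a + b) = sgn a * sgn b := by
  rcases zero_or_one hF a with rfl | rfl <;> rcases zero_or_one hF b with rfl | rfl
  · simp [sgn_zero]
  · simp [sgn_zero, sgn_one]
  · simp [sgn_zero, sgn_one]
  · rw [add_self' hF, sgn_zero, sgn_one]
    norm_num

lemma sgn_mul_self (a : F) : sgn a * sgn a = 1 := by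
  rcases zero_or_one hF a with rfl | rfl
  · simp [sgn_zero]
  · simp [sgn_one]

/-- The character sum of a non-zero vector. -/
lemma sum_sgn_ω {z : l ⊕ l → F} (hz : z ≠ 0) : ∑ x : l ⊕ l → F, sgn (ω x z) = 0 := by
  obtain ⟨w, hw⟩ := exists_ω_ne_zero hz
  have hw1 : ω w z = 1 := by
    rw [ω_symm hF]
    exact (zero_or_one hF _).resolve_left hw
  have h1 := Equiv.sum_comp (Equiv.addRight w) (fun x : l ⊕ l → F => sgn (ω x z))
  simp only [Equiv.coe_addRight, ω_add_left, hw1, sgn_add hF, sgn_one] at h1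
  rw [← Finset.sum_mul] at h1
  linarith

variable {Q : (l ⊕ l → F) → F} (hQ : ∀ x y, Q (x + y) = Q x + Q y + ω x y)
include hQ

lemma Q_zero : Q 0 = 0 := by
  have h := hQ 0 0
  rw [add_zero, ω_zero_left, add_zero] at h
  linear_combination -h

/-- The Gauss sum of a quadratic form. -/
theorem gauss_sq : (∑ x, sgn (Q x)) * (∑ y, sgn (Q y)) = Fintype.card (l ⊕ l → F) := by
  rw [Finset.sum_mul_sum]
  have h1 : ∀ x : l ⊕ l → F, ∑ y, sgn (Q x) * sgn (Q y) = ∑ z, sgn (Q z) * sgn (ω x z) := by
    intro x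
    rw [← Equiv.sum_comp (Equiv.addLeft x) (fun y => sgn (Q x) * sgn (Q y))]
    apply Finset.sum_congr rfl
    intro z _
    simp only [Equiv.coe_addLeft, hQ, sgn_add hF]
    have := sgn_mul_self hF (Q x)
    linear_combination (sgn (Q z) * sgn (ω x z)) * this
  simp only [h1]
  rw [Finset.sum_comm]
  simp only [← Finset.mul_sum]
  rw [Finset.sum_eq_single 0]
  · rw [Q_zero hF hQ, sgn_zero, one_mul]
    simp [ω_zero_right, sgn_zero]
  · intro z _ hz
    rw [sum_sgn_ω hF hz, mul_zero]
  · simp

end Signs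

section Count

open Classical in
/-- The number of zeros. -/
noncomputable def n0 (Q : (l ⊕ l → F) → F) : ℕ := (Finset.univ.filter (fun x => Q x = 0)).card

variable (hF : Fintype.card F = 2)

include hF in
lemma card_V : Fintype.card (l ⊕ l → F) = 4 ^ Fintype.card l := by
  rw [Fintype.card_fun, hF, Fintype.card_sum, ← two_mul, pow_mul]
  norm_num

variable {Q : (l ⊕ l → F) → F}

include hF in
lemma sum_sgn_eq (Q : (l ⊕ l → F) → F) :
    (∑ x, sgn (Q x)) = 2 * (n0 Q : ℤ) - Fintype.card (l ⊕ l → F) := by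
  classical
  have h : ∀ x : l ⊕ l → F, sgn (Q x) = (if Q x = 0 then (2 : ℤ) else 0) - 1 := by
    intro x
    unfold sgn
    split_ifs <;> norm_num
  simp only [h, Finset.sum_sub_distrib, Finset.sum_const, Finset.card_univ, nsmul_eq_mul, mul_one]
  rw [Finset.sum_ite]
  simp [n0, mul_comm]

include hF in
/-- The number of zeros of a quadratic form. -/
theorem n0_eq (hQ : ∀ x y, Q (x + y) = Q x + Q y + ω x y) :
    2 * n0 Q + 2 ^ Fintype.card l = 4 ^ Fintype.card l ∨
      2 * n0 Q = 4 ^ Fintype.card l + 2 ^ Fintype.card l := by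
  have h1 := gauss_sq hF hQ
  have h2 := sum_sgn_eq hF Q
  rw [card_V hF] at h1 h2
  set S := ∑ x, sgn (Q x) with hS
  push_cast at h1 h2
  have h3 : S * S = (2 ^ Fintype.card l : ℤ) * 2 ^ Fintype.card l := by
    rw [h1, ← mul_pow]
    norm_num
  rcases mul_self_eq_mul_self_iff.1 h3 with h4 | h4
  · right
    have : (2 * (n0 Q : ℤ)) = 4 ^ Fintype.card l + 2 ^ Fintype.card l := by linarith
    exact_mod_cast this
  · left
    have : (2 * (n0 Q : ℤ)) + 2 ^ Fintype.card l = 4 ^ Fintype.card l := by linarith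
    exact_mod_cast this

end Count

section Stab

variable (hF : Fintype.card F = 2) {Q : (l ⊕ l → F) → F}

/-- The stabiliser of a function. -/
def St (Q : (l ⊕ l → F) → F) : Subgroup (Sp l F) where
  carrier := {g | ∀ x, Q (g • x) = Q x}
  mul_mem' := by
    intro a b ha hb x
    rw [mul_smul, ha, hb]
  one_mem' := by
    intro x
    rw [one_smul]
  inv_mem' := by
    intro a ha x
    have := ha (a⁻¹ • x)
    rw [smul_inv_smul] at this
    exact this.symm

lemma mem_St {g : Sp l F} : g ∈ St Q ↔ ∀ x, Q (g • x) = Q x := Iff.rfl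

variable (hQ : ∀ x y, Q (x + y) = Q x + Q y + ω x y)
include hF hQ

lemma Q_T (w y : l ⊕ l → F) : Q (T w (1 : F) • y) = Q y + ω w y * (Q w + 1) := by
  rw [T_one_smul hF]
  rcases zero_or_one hF (ω w y) with h | h
  · rw [h]
    simp
  · rw [h, one_smul, hQ, ω_symm hF y w, h]
    ring

lemma T_inj {w w' : l ⊕ l → F} (h : ∀ y, ω w y = ω w' y) : w = w' := by
  rw [← sub_eq_zero]
  apply eq_zero_of_ω_eq_zero
  intro y
  rw [ω_sub_left, h, sub_self]

/-- Lower bound for the index of the stabiliser. -/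
theorem n0_le_index : n0 Q ≤ (St Q).index := by
  classical
  have h1 : n0 Q = Nat.card {w // Q w = 0} := by
    rw [Nat.card_eq_fintype_card, Fintype.card_subtype, n0]
  rw [h1, Subgroup.index]
  refine Nat.card_le_card_of_injective
    (fun w : {w // Q w = 0} => ((T w.1 (1 : F) : Sp l F) : Sp l F ⧸ St Q)) ?_
  rintro ⟨w, hw⟩ ⟨w', hw'⟩ h
  rw [QuotientGroup.eq] at h
  apply Subtype.ext
  apply T_inj hF hQ
  intro y
  have h2 := h (T w' (1 : F) • y)
  have e : T w' (1 : F) • (T w' (1 : F) • y) = y := by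
    rw [← mul_smul, T_one_mul_self hF, one_smul]
  simp only at h2
  rw [mul_smul, e, T_one_inv hF, Q_T hF hQ, Q_T hF hQ, hw, hw'] at h2
  simp only [zero_add, mul_one] at h2
  exact add_left_cancel h2

/-- All the images of `Q` are translates. -/
theorem forms (g : Sp l F) : ∃ w, Q w = 0 ∧ ∀ x, Q (g • x) = Q x + ω w x := by
  refine T_induction (fun g => ∃ w, Q w = 0 ∧ ∀ x, Q (g • x) = Q x + ω w x) ?_ ?_ ?_ g
  · refine ⟨0, Q_zero hF hQ, fun x => ?_⟩
    rw [one_smul, ω_zero_left, add_zero]
  · intro u c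
    rcases zero_or_one hF c with rfl | rfl
    · refine ⟨0, Q_zero hF hQ, fun x => ?_⟩
      rw [T_zero_right, one_smul, ω_zero_left, add_zero]
    · rcases zero_or_one hF (Q u) with h | h
      · refine ⟨u, h, fun x => ?_⟩
        rw [Q_T hF hQ, h]
        ring
      · refine ⟨0, Q_zero hF hQ, fun x => ?_⟩
        rw [Q_T hF hQ, h, add_self' hF, ω_zero_left]
        ring
  · rintro a b ⟨wa, hwa, ha⟩ ⟨wb, hwb, hb⟩
    set y := b⁻¹ • wa with hy
    have e1 : b • y = wa := by rw [hy, smul_inv_smul]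
    have e2 : Q wa = Q y + ω wb y := by
      have e4 := hb y
      rwa [e1] at e4
    refine ⟨wb + y, ?_, fun x => ?_⟩
    · rw [hQ, hwb, zero_add]
      rw [hwa] at e2
      linear_combination -e2
    · rw [mul_smul, ha, hb, ω_add_left]
      have e3 : ω wa (b • x) = ω y x := by
        rw [← e1, ω_smul_smul]
      rw [e3]
      ring

/-- Upper bound for the index of the stabiliser. -/
theorem index_le_n0 : (St Q).index ≤ n0 Q := by
  classical
  have h1 : n0 Q = Nat.card {w // Q w = 0} := by
    rw [Nat.card_eq_fintype_card, Fintype.card_subtype, n0]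
  choose f hf hf' using fun g : Sp l F => forms hF hQ g
  rw [h1, Subgroup.index]
  refine Nat.card_le_card_of_injective
    (fun a : Sp l F ⧸ St Q => (⟨f (a.out)⁻¹, hf _⟩ : {w // Q w = 0})) ?_
  intro a b h
  have h2 : f (a.out)⁻¹ = f (b.out)⁻¹ := congrArg Subtype.val h
  rw [← QuotientGroup.out_eq' a, ← QuotientGroup.out_eq' b]
  apply QuotientGroup.eq.2
  intro x
  have e : b.out⁻¹ • (b.out • x) = x := by rw [inv_smul_smul]
  rw [mul_smul, hf', h2, ← hf', e]

/-- The index of the stabiliser. -/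
theorem index_St : (St Q).index = n0 Q :=
  le_antisymm (index_le_n0 hF hQ) (n0_le_index hF hQ)

end Stab

section Existence

variable (hF : Fintype.card F = 2)

/-- The standard form. -/
def Q0 (x : l ⊕ l → F) : F := ∑ i, x (Sum.inl i) * x (Sum.inr i)

include hF in
lemma Q0_add (x y : l ⊕ l → F) : Q0 (x + y) = Q0 x + Q0 y + ω x y := by
  simp only [Q0, ω_apply, ← Finset.sum_add_distrib, Pi.add_apply]
  apply Finset.sum_congr rfl
  intro i _
  have h := two_zero hF
  linear_combination (x (Sum.inl i) * y (Sum.inr i)) * h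

/-- The target. -/
def tgt (m : ℕ) : ℕ := 2 ^ (m - 1) * (2 ^ m - 1)

lemma tgt_mul {m : ℕ} (hm : 1 ≤ m) : 2 * tgt m + 2 ^ m = 4 ^ m := by
  obtain ⟨k, rfl⟩ : ∃ k, m = k + 1 := ⟨m - 1, by omega⟩
  have h1 : 1 ≤ 2 ^ (k + 1) := Nat.one_le_two_pow
  have h2 : (4 : ℕ) ^ (k + 1) = 2 ^ (k + 1) * 2 ^ (k + 1) := by
    rw [← mul_pow]
    norm_num
  simp only [tgt, Nat.add_sub_cancel]
  rw [h2]
  obtain ⟨P, hP⟩ : ∃ P, 2 ^ (k + 1) = P + 1 := ⟨2 ^ (k + 1) - 1, by omega⟩
  have h3 : (2 : ℕ) ^ (k + 1) = 2 * 2 ^ k := pow_succ' _ _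
  rw [show 2 * (2 ^ k * (2 ^ (k + 1) - 1)) = (2 * 2 ^ k) * (2 ^ (k + 1) - 1) by ring, ← h3, hP]
  simp only [Nat.add_sub_cancel]
  ring

include hF in
/-- A form with few zeros. -/
theorem exists_form {m : ℕ} (hm : 1 ≤ m) (hl : Fintype.card l = m) :
    ∃ Q : (l ⊕ l → F) → F, (∀ x y, Q (x + y) = Q x + Q y + ω x y) ∧ n0 Q = tgt m := by
  classical
  have ht := tgt_mul hm
  rcases n0_eq hF (Q := (Q0 : (l ⊕ l → F) → F)) (Q0_add hF) with h | h
  · rw [hl] at h
    exact ⟨Q0, Q0_add hF, by omega⟩
  · rw [hl] at h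
    -- the non-zero values of the standard form
    have hcard := card_V (l := l) hF
    rw [hl] at hcard
    have h1 : (Finset.univ.filter (fun x : l ⊕ l → F => Q0 x = 1)).card + n0 (Q0 : (l ⊕ l → F) → F) =
        Fintype.card (l ⊕ l → F) := by
      rw [n0, add_comm, ← Finset.card_univ, ← Finset.card_filter_add_card_filter_not (s := Finset.univ)
        (fun x : l ⊕ l → F => Q0 x = 0)]
      congr 2
      ext x
      simp only [Finset.mem_filter, Finset.mem_univ, true_and]
      constructor
      · intro h2 h3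
        rw [h3] at h2
        exact zero_ne_one h2
      · exact (zero_or_one hF _).resolve_left
    have h2 : (Finset.univ.filter (fun x : l ⊕ l → F => Q0 x = 1)).card = tgt m := by
      omega
    have hpos : 0 < tgt m := by
      have h3 : 1 ≤ 2 ^ m := Nat.one_le_two_pow
      have h4 : 2 ≤ 2 ^ m := by
        calc 2 = 2 ^ 1 := by norm_num
          _ ≤ 2 ^ m := Nat.pow_le_pow_right (by norm_num) hm
      unfold tgt
      exact Nat.mul_pos (by positivity) (by omega)
    rw [← h2] at hpos
    obtain ⟨w₀, hw₀⟩ := Finset.card_pos.1 hpos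
    simp only [Finset.mem_filter, Finset.mem_univ, true_and] at hw₀
    refine ⟨fun x => Q0 x + ω w₀ x, ?_, ?_⟩
    · intro x y
      simp only []
      rw [Q0_add hF, ω_add_right]
      ring
    · rw [← h2, n0]
      apply Finset.card_bij (fun x _ => x + w₀)
      · intro x hx
        simp only [Finset.mem_filter, Finset.mem_univ, true_and] at hx ⊢
        rw [Q0_add hF, hw₀, ω_symm hF x w₀]
        linear_combination hx
      · intro x _ y _ hxy
        exact add_right_cancel hxy
      · intro y hy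
        simp only [Finset.mem_filter, Finset.mem_univ, true_and] at hy
        refine ⟨y + w₀, ?_, ?_⟩
        · simp only [Finset.mem_filter, Finset.mem_univ, true_and]
          rw [Q0_add hF, hw₀, hy, ω_add_right, ω_self, ω_symm hF w₀ y]
          have := add_self' hF (ω y w₀)
          have h5 := add_self' hF (1 : F)
          linear_combination h5 + this
        · rw [add_assoc, vadd_self hF, add_zero]

end Existence

end Cfsg.Agent.Lib.SpTwoIdx
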