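import Mathlib
import Cfsg.Agent.Lib.SpTwoIdxC

/-!
# Symplectic groups over the field with two elements: the orbit bound

If `t_v ∉ K` and `Q_v ∩ K` has index at least four in `Q_v`, then `K` has index at least
`|v^⊥| = 2^(2m-1)`.
-/

set_option autoImplicit false
set_option linter.unusedSectionVars false
set_option linter.unusedVariables false

namespace Cfsg.Agent.Lib.SpTwoIdx

open Matrix Cfsg.Agent.Lib.SpBasic

variable {l F : Type*} [Fintype l] [DecidableEq l] [Field F] [Fintype F]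

section Orth

/-- The form as a bilinear form. -/
def ωB : LinearMap.BilinForm F (l ⊕ l → F) :=
  LinearMap.mk₂ F ω ω_add_left (fun c x y => by simp [ω_smul_left]) ω_add_right
    (fun c x y => by simp [ω_smul_right])

lemma ωB_apply (x y : l ⊕ l → F) : ωB x y = ω x y := rfl

/-- The orthogonal complement. -/
def Pp (Y : Submodule F (l ⊕ l → F)) : Submodule F (l ⊕ l → F) := (ωB (l := l) (F := F)).orthogonal Y

lemma mem_Pp {Y : Submodule F (l ⊕ l → F)} {z : l ⊕ l → F} : z ∈ Pp Y ↔ ∀ y ∈ Y, ω y z = 0 := by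
  rw [Pp, LinearMap.BilinForm.mem_orthogonal_iff]
  rfl

lemma finrank_Pp (Y : Submodule F (l ⊕ l → F)) :
    Module.finrank F Y + Module.finrank F (Pp Y) = Module.finrank F (l ⊕ l → F) := by
  have h := LinearMap.BilinForm.finrank_add_finrank_orthogonal' (B := ωB (l := l) (F := F)) Y
  have hker : LinearMap.ker (ωB (l := l) (F := F)) = ⊥ := by
    rw [eq_bot_iff]
    intro x hx
    rw [LinearMap.mem_ker] at hx
    rw [Submodule.mem_bot]
    apply eq_zero_of_ω_eq_zero
    intro y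
    have := congrArg (fun f => f y) hx
    exact this
  rw [hker, inf_bot_eq, finrank_bot, add_zero] at h
  exact h

variable (hF : Fintype.card F = 2)
include hF

lemma card_mul_Pp (Y : Submodule F (l ⊕ l → F)) :
    Nat.card Y * Nat.card (Pp Y) = Nat.card (l ⊕ l → F) := by
  rw [Module.natCard_eq_pow_finrank (K := F) (V := Y), Module.natCard_eq_pow_finrank (K := F) (V := Pp Y),
    Module.natCard_eq_pow_finrank (K := F) (V := l ⊕ l → F), ← pow_add, finrank_Pp]

/-- The orthogonal of a vector. -/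
lemma card_W {v : l ⊕ l → F} (hv : v ≠ 0) :
    Nat.card (Pp (F ∙ v)) * 2 = Nat.card (l ⊕ l → F) := by
  have h := card_mul_Pp hF (F ∙ v)
  have h1 : Nat.card (F ∙ v) = 2 := by
    rw [Module.natCard_eq_pow_finrank (K := F), finrank_span_singleton hv, Nat.card_eq_fintype_card, hF]
    norm_num
  rw [h1] at h
  omega

omit hF in
lemma mem_W {v z : l ⊕ l → F} : z ∈ Pp (F ∙ v) ↔ ω v z = 0 := by
  rw [mem_Pp]
  constructor
  · intro h
    exact h v (Submodule.mem_span_singleton_self v)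
  · intro h y hy
    obtain ⟨c, rfl⟩ := Submodule.mem_span_singleton.1 hy
    rw [ω_smul_left, h, mul_zero]

/-- Relative transitivity. -/
lemma exists_fix_smul {v z₀ z : l ⊕ l → F} (hz₀ : ω v z₀ = 0) (hz : ω v z = 0) (h00 : z₀ ≠ 0) (h0v : z₀ ≠ v)
    (hz0 : z ≠ 0) (hzv : z ≠ v) : ∃ g : Sp l F, g • v = v ∧ g • z₀ = z := by
  have step : ∀ {x y : l ⊕ l → F}, ω v x = 0 → ω v y = 0 → ω y x ≠ 0 → ∃ g : Sp l F, g • v = v ∧ g • x = y := by
    intro x y hx hy hyx
    refine ⟨T (y - x) (ω y x)⁻¹, ?_, T_step hyx⟩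
    rw [T_smul, ω_sub_left, ω_symm hF y v, ω_symm hF x v, hx, hy]
    simp
  by_cases hzz : ω z z₀ = 0
  · obtain ⟨e₁, he₁v, he₁⟩ := sep hF h00 h0v
    obtain ⟨e₂, he₂v, he₂⟩ := sep hF hz0 hzv
    have key : ∃ a, ω v a = 0 ∧ ω a z₀ ≠ 0 ∧ ω z a ≠ 0 := by
      rcases zero_or_one hF (ω z e₁) with h | h
      · rcases zero_or_one hF (ω z₀ e₂) with h' | h'
        · refine ⟨e₁ + e₂, ?_, ?_, ?_⟩
          · rw [ω_add_right, he₁v, he₂v, add_zero]
          · rw [ω_symm hF, ω_add_right, he₁, h', add_zero]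
            exact one_ne_zero
          · rw [ω_add_right, h, he₂, zero_add]
            exact one_ne_zero
        · refine ⟨e₂, he₂v, ?_, ?_⟩
          · rw [ω_symm hF, h']
            exact one_ne_zero
          · rw [he₂]
            exact one_ne_zero
      · refine ⟨e₁, he₁v, ?_, ?_⟩
        · rw [ω_symm hF, he₁]
          exact one_ne_zero
        · rw [h]
          exact one_ne_zero
    obtain ⟨a, hav, ha1, ha2⟩ := key
    obtain ⟨g₁, hg₁v, hg₁⟩ := step hz₀ hav ha1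
    obtain ⟨g₂, hg₂v, hg₂⟩ := step hav hz ha2
    exact ⟨g₂ * g₁, by rw [mul_smul, hg₁v, hg₂v], by rw [mul_smul, hg₁, hg₂]⟩
  · exact step hz₀ hz hzz

end Orth

section Main

open Pointwise

variable (hF : Fintype.card F = 2) (K : Subgroup (Sp l F)) (v : l ⊕ l → F)

/-- The subspace of `v^⊥` of the elements lifting into `K`. -/
def YY : Submodule F (l ⊕ l → F) where
  carrier := {u | ω v u = 0 ∧ ∃ s : F, E v u s ∈ K}
  add_mem' := by
    rintro a b ⟨ha, s, hs⟩ ⟨hb, s', hs'⟩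
    exact ⟨by rw [ω_add_right, ha, hb, add_zero], _, E_mem_add hF ha hb hs hs'⟩
  zero_mem' := ⟨ω_zero_right v, 0, by rw [E_zero_zero hF]; exact K.one_mem⟩
  smul_mem' := by
    rintro c a ⟨ha, s, hs⟩
    rcases zero_or_one hF c with rfl | rfl
    · rw [zero_smul]
      exact ⟨ω_zero_right v, 0, by rw [E_zero_zero hF]; exact K.one_mem⟩
    · rw [one_smul]
      exact ⟨ha, s, hs⟩

lemma mem_YY {u : l ⊕ l → F} : u ∈ YY hF K v ↔ ω v u = 0 ∧ ∃ s : F, E v u s ∈ K := Iff.rfl

lemma v_mem_YY : v ∈ YY hF K v :=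
  ⟨ω_self v, 0, by rw [E_self hF, T_zero_right]; exact K.one_mem⟩

lemma v_mem_ZZ : v ∈ Pp (YY hF K v) := by
  rw [mem_Pp]
  intro y hy
  rw [ω_symm hF]
  exact hy.1

lemma ZZ_perp {z : l ⊕ l → F} (hz : z ∈ Pp (YY hF K v)) : ω v z = 0 :=
  (mem_Pp.1 hz) v (v_mem_YY hF K v)

variable {K v}

lemma YY_smul {k : Sp l F} (hk : k ∈ K) (hkv : k • v = v) {y : l ⊕ l → F} (hy : y ∈ YY hF K v) :
    k • y ∈ YY hF K v := by
  obtain ⟨h, s, hs⟩ := hy
  refine ⟨?_, s, ?_⟩
  · have h1 := ω_smul_smul k v y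
    rw [hkv] at h1
    rw [h1, h]
  · have h1 := E_conj k v y s
    rw [hkv] at h1
    rw [← h1]
    exact K.mul_mem (K.mul_mem hk hs) (K.inv_mem hk)

lemma ZZ_smul {k : Sp l F} (hk : k ∈ K) (hkv : k • v = v) {z : l ⊕ l → F} (hz : z ∈ Pp (YY hF K v)) :
    k • z ∈ Pp (YY hF K v) := by
  rw [mem_Pp] at hz ⊢
  intro y hy
  have h1 := ω_smul_smul k (k⁻¹ • y) z
  rw [smul_inv_smul] at h1
  rw [h1]
  apply hz
  apply YY_smul hF (K.inv_mem hk) _ hy
  rw [inv_smul_eq_iff, hkv]

lemma ZZ_E {u : l ⊕ l → F} (hu : ω v u = 0) (s : F) {z : l ⊕ l → F} (hz : z ∈ Pp (YY hF K v)) :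
    E v u s • z ∈ Pp (YY hF K v) := by
  rw [E_smul hF hu, ZZ_perp hF K v hz]
  simp only [zero_smul, mul_zero, add_zero]
  exact Submodule.add_mem _ hz (Submodule.smul_mem _ _ (v_mem_ZZ hF K v))

variable (K v)

/-- The orthogonal of `Y` as a finite set. -/
noncomputable def Zf : Finset (l ⊕ l → F) := by
  classical
  exact Finset.univ.filter (· ∈ Pp (YY hF K v))

variable {K v}

lemma mem_Zf {z : l ⊕ l → F} : z ∈ Zf hF K v ↔ z ∈ Pp (YY hF K v) := by
  classical
  simp [Zf]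

lemma card_filter_mem (U : Submodule F (l ⊕ l → F)) [DecidablePred (· ∈ U)] :
    (Finset.univ.filter (· ∈ U)).card = Nat.card U := by
  classical
  rw [Nat.card_eq_fintype_card, Fintype.card_subtype]

lemma card_Zf : (Zf hF K v).card = Nat.card (Pp (YY hF K v)) := by
  classical
  rw [Zf]
  convert card_filter_mem (Pp (YY hF K v))

lemma stab_of_maps [DecidableEq (l ⊕ l → F)] {g : Sp l F} (h : ∀ z ∈ Zf hF K v, g • z ∈ Zf hF K v) :
    g • Zf hF K v = Zf hF K v := by
  apply Finset.eq_of_subset_of_card_le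
  · intro x hx
    obtain ⟨z, hz, rfl⟩ := Finset.mem_smul_finset.1 hx
    exact h z hz
  · rw [Finset.card_smul_finset]

lemma coset_core [DecidableEq (l ⊕ l → F)] {g g' : Sp l F} (hg : g • v = v) (hg' : g' • v = v)
    {u u' : l ⊕ l → F} (hu : ω v u = 0) (hu' : ω v u' = 0) {s s' : F}
    (h : (g * E v u s)⁻¹ * (g' * E v u' s') ∈ K) : g • Zf hF K v = g' • Zf hF K v := by
  obtain ⟨k, hk⟩ : ∃ k, k = (g * E v u s)⁻¹ * (g' * E v u' s') := ⟨_, rfl⟩
  rw [← hk] at h
  have hg1 : (g * E v u s) • v = v := by rw [mul_smul, E_smul_v hF hu, hg]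
  have hg2 : (g' * E v u' s') • v = v := by rw [mul_smul, E_smul_v hF hu', hg']
  have hkv : k • v = v := by
    rw [hk, mul_smul, hg2, inv_smul_eq_iff, hg1]
  have h1 : k • Zf hF K v = Zf hF K v := stab_of_maps hF (fun z hz => by
    rw [mem_Zf] at hz ⊢
    exact ZZ_smul hF h hkv hz)
  have h2 : E v u s • Zf hF K v = Zf hF K v := stab_of_maps hF (fun z hz => by
    rw [mem_Zf] at hz ⊢
    exact ZZ_E hF hu s hz)
  have h3 : E v u' s' • Zf hF K v = Zf hF K v := stab_of_maps hF (fun z hz => by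
    rw [mem_Zf] at hz ⊢
    exact ZZ_E hF hu' s' hz)
  have h4 : g' * E v u' s' = g * E v u s * k := by
    rw [hk]
    group
  calc g • Zf hF K v = g • (E v u s • (k • Zf hF K v)) := by rw [h1, h2]
    _ = (g * E v u s * k) • Zf hF K v := by rw [mul_smul, mul_smul]
    _ = (g' * E v u' s') • Zf hF K v := by rw [h4]
    _ = g' • Zf hF K v := by rw [mul_smul, h3]

/-- Counting the cosets over a set of representatives. -/
lemma count_cosets [DecidableEq (l ⊕ l → F)] (hK : T v (1 : F) ∉ K) (J : Finset (Finset (l ⊕ l → F)))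
    (x : Finset (l ⊕ l → F) → Sp l F) (hx : ∀ j ∈ J, x j • v = v ∧ x j • Zf hF K v = j) :
    J.card * (Nat.card (Pp (F ∙ v)) * 2) ≤ Nat.card (YY hF K v) * K.index := by
  classical
  haveI : Fintype (Sp l F ⧸ K) := Fintype.ofFinite _
  haveI : Fintype (Pp (F ∙ v)) := Fintype.ofFinite _
  let S : Finset (Finset (l ⊕ l → F) × (Pp (F ∙ v)) × F) := J ×ˢ (Finset.univ ×ˢ Finset.univ)
  let f : Finset (l ⊕ l → F) × (Pp (F ∙ v)) × F → Sp l F ⧸ K :=
    fun p => QuotientGroup.mk (x p.1 * E v p.2.1.1 p.2.2)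
  have hS : S.card = J.card * (Nat.card (Pp (F ∙ v)) * 2) := by
    simp only [S, Finset.card_product, Finset.card_univ, hF, Nat.card_eq_fintype_card]
  have hperp : ∀ u : Pp (F ∙ v), ω v u.1 = 0 := fun u => mem_W.1 u.2
  have hfib : ∀ a ∈ S.image f, (S.filter (fun p => f p = a)).card ≤ Nat.card (YY hF K v) := by
    intro a ha
    obtain ⟨p₁, hp₁, rfl⟩ := Finset.mem_image.1 ha
    rw [← card_filter_mem (YY hF K v)]
    apply Finset.card_le_card_of_injOn (fun p => p.2.1.1 + p₁.2.1.1)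
    · intro p hp
      obtain ⟨hpS, hp⟩ := Finset.mem_filter.1 (Finset.mem_coe.1 hp)
      simp only [f] at hp
      rw [QuotientGroup.eq] at hp
      have hJ := (Finset.mem_product.1 hpS).1
      have hJ₁ := (Finset.mem_product.1 hp₁).1
      have h1 := coset_core hF (hx _ hJ).1 (hx _ hJ₁).1 (hperp _) (hperp _) hp
      rw [(hx _ hJ).2, (hx _ hJ₁).2] at h1
      simp only [Finset.coe_filter, Finset.mem_univ, true_and, Set.mem_ofPred_eq]
      rw [h1] at hp
      have h2 : (x p₁.1 * E v p.2.1.1 p.2.2)⁻¹ * (x p₁.1 * E v p₁.2.1.1 p₁.2.2) =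
          E v p.2.1.1 p.2.2 * E v p₁.2.1.1 p₁.2.2 := by
        rw [_root_.mul_inv_rev, E_inv hF (hperp _)]
        group
      rw [h2, E_mul hF (hperp _) (hperp _)] at hp
      exact ⟨by rw [ω_add_right, hperp, hperp, add_zero], _, hp⟩
    · intro p hp p' hp' hpp
      obtain ⟨hpS, hp⟩ := Finset.mem_filter.1 (Finset.mem_coe.1 hp)
      obtain ⟨hpS', hp'⟩ := Finset.mem_filter.1 (Finset.mem_coe.1 hp')
      have h0 : p.2.1.1 = p'.2.1.1 := add_right_cancel hpp
      have h0' : p.2.1 = p'.2.1 := Subtype.ext h0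
      have hcos : f p = f p' := hp.trans hp'.symm
      simp only [f] at hcos
      rw [QuotientGroup.eq] at hcos
      have hJ := (Finset.mem_product.1 hpS).1
      have hJ' := (Finset.mem_product.1 hpS').1
      have h1 := coset_core hF (hx _ hJ).1 (hx _ hJ').1 (hperp _) (hperp _) hcos
      rw [(hx _ hJ).2, (hx _ hJ').2] at h1
      rw [h1, ← h0] at hcos
      have h2 : (x p'.1 * E v p.2.1.1 p.2.2)⁻¹ * (x p'.1 * E v p.2.1.1 p'.2.2) =
          E v p.2.1.1 p.2.2 * E v p.2.1.1 p'.2.2 := by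
        rw [_root_.mul_inv_rev, E_inv hF (hperp _)]
        group
      rw [h2, E_mul hF (hperp _) (hperp _), vadd_self hF, ω_self, add_zero, E_zero hF] at hcos
      have h3 : p.2.2 = p'.2.2 := by
        rcases zero_or_one hF (p.2.2 + p'.2.2) with h4 | h4
        · have := add_self' hF p'.2.2
          linear_combination h4 - this
        · rw [h4] at hcos
          exact absurd hcos hK
      exact Prod.ext h1 (Prod.ext h0' h3)
  have h1 := Finset.card_le_mul_card_image S (Nat.card (YY hF K v)) hfib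
  have h2 : (S.image f).card ≤ K.index := by
    rw [Subgroup.index, Nat.card_eq_fintype_card]
    exact Finset.card_le_univ _
  rw [← hS]
  exact h1.trans (Nat.mul_le_mul_left _ h2)

include hF in
/-- The main bound. -/
theorem index_ge_W (hK : T v (1 : F) ∉ K) {u₀ : l ⊕ l → F} (hu₀ : ω v u₀ = 0)
    (hn : ∀ s : F, E v u₀ s ∉ K) : Nat.card (Pp (F ∙ v)) ≤ K.index := by
  classical
  have hv : v ≠ 0 := by
    rintro rfl
    apply hK
    rw [T_zero_left]
    exact K.one_mem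
  have hYW : YY hF K v < Pp (F ∙ v) := by
    refine lt_of_le_of_ne (fun y hy => mem_W.2 hy.1) ?_
    intro h
    have h1 : u₀ ∈ Pp (F ∙ v) := mem_W.2 hu₀
    rw [← h] at h1
    obtain ⟨_, s, hs⟩ := h1
    exact hn s hs
  have hcY := card_mul_Pp hF (YY hF K v)
  have hcW := card_W hF hv
  have hYlt : Nat.card (YY hF K v) < Nat.card (Pp (F ∙ v)) := by
    rw [Module.natCard_eq_pow_finrank (K := F) (V := YY hF K v),
      Module.natCard_eq_pow_finrank (K := F) (V := Pp (F ∙ v)), Nat.card_eq_fintype_card, hF]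
    exact Nat.pow_lt_pow_right (by norm_num) (Submodule.finrank_lt_finrank_of_lt hYW)
  have hYpos : 0 < Nat.card (YY hF K v) := Nat.card_pos
  have hZ3 : 2 < Nat.card (Pp (YY hF K v)) := by
    by_contra hc
    push Not at hc
    have := Nat.mul_le_mul_left (Nat.card (YY hF K v)) hc
    have h2 := Nat.mul_lt_mul_of_pos_right hYlt (show 0 < 2 by norm_num)
    omega
  -- A point of `Z` besides `0` and `v`.
  obtain ⟨z₀, hz₀, h00, h0v⟩ : ∃ z₀, z₀ ∈ Zf hF K v ∧ z₀ ≠ 0 ∧ z₀ ≠ v := by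
    have h1 : ({0, v} : Finset (l ⊕ l → F)).card < (Zf hF K v).card := by
      rw [card_Zf]
      exact lt_of_le_of_lt Finset.card_le_two hZ3
    obtain ⟨z₀, hz₀, hz₁⟩ := Finset.exists_mem_notMem_of_card_lt_card h1
    refine ⟨z₀, hz₀, ?_, ?_⟩
    · rintro rfl
      simp at hz₁
    · rintro rfl
      simp at hz₁
  haveI : Fintype (Sp l F) := Fintype.ofFinite _
  let J : Finset (Finset (l ⊕ l → F)) :=
    (Finset.univ.filter (fun g : Sp l F => g • v = v)).image (fun g => g • Zf hF K v)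
  have hJ' : ∀ j : Finset (l ⊕ l → F), ∃ g : Sp l F, j ∈ J → g • v = v ∧ g • Zf hF K v = j := by
    intro j
    by_cases hj : j ∈ J
    · obtain ⟨g, hg, rfl⟩ := Finset.mem_image.1 hj
      exact ⟨g, fun _ => ⟨(Finset.mem_filter.1 hg).2, rfl⟩⟩
    · exact ⟨1, fun h => absurd h hj⟩
  choose x hx using hJ'
  have hc1 := count_cosets hF hK J x hx
  have hJpos : 0 < J.card := by
    apply Finset.card_pos.2
    exact ⟨_, Finset.mem_image.2 ⟨1, Finset.mem_filter.2 ⟨Finset.mem_univ _, one_smul _ _⟩, rfl⟩⟩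
  -- covering
  have hA : ({0, v} : Finset (l ⊕ l → F)).card = 2 := Finset.card_pair hv.symm
  have hsub : ∀ j ∈ J, ({0, v} : Finset (l ⊕ l → F)) ⊆ j := by
    intro j hj
    obtain ⟨g, hg, rfl⟩ := Finset.mem_image.1 hj
    have hg' := (Finset.mem_filter.1 hg).2
    intro a ha
    simp only [Finset.mem_insert, Finset.mem_singleton] at ha
    apply Finset.mem_smul_finset.2
    rcases ha with rfl | rfl
    · exact ⟨0, (mem_Zf hF).2 (Submodule.zero_mem _), smul_zero g⟩
    · exact ⟨_, (mem_Zf hF).2 (v_mem_ZZ hF K _), hg'⟩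
  have hcard : ∀ j ∈ J, j.card = Nat.card (Pp (YY hF K v)) := by
    intro j hj
    obtain ⟨g, hg, rfl⟩ := Finset.mem_image.1 hj
    rw [Finset.card_smul_finset, card_Zf]
  have hcov : (Finset.univ.filter (· ∈ Pp (F ∙ v))) \ {0, v} ⊆ J.biUnion (fun j => j \ {0, v}) := by
    intro z hz
    obtain ⟨hz1, hz2⟩ := Finset.mem_sdiff.1 hz
    have hz3 : ω v z = 0 := mem_W.1 (Finset.mem_filter.1 hz1).2
    simp only [Finset.mem_insert, Finset.mem_singleton, not_or] at hz2
    obtain ⟨g, hg1, hg2⟩ := exists_fix_smul hF (ZZ_perp hF K v ((mem_Zf hF).1 hz₀)) hz3 h00 h0v hz2.1 hz2.2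
    refine Finset.mem_biUnion.2 ⟨g • Zf hF K v, Finset.mem_image.2 ⟨g, Finset.mem_filter.2 ⟨Finset.mem_univ _, hg1⟩, rfl⟩, ?_⟩
    refine Finset.mem_sdiff.2 ⟨Finset.mem_smul_finset.2 ⟨z₀, hz₀, hg2⟩, ?_⟩
    simp only [Finset.mem_insert, Finset.mem_singleton, not_or]
    exact hz2
  have hc2 : (J.biUnion (fun j => j \ {0, v})).card ≤ J.card * (Nat.card (Pp (YY hF K v)) - 2) := by
    apply Finset.card_biUnion_le_card_mul
    intro j hj
    have := Finset.card_sdiff_add_card_eq_card (hsub j hj)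
    rw [hA, hcard j hj] at this
    omega
  have hc3 : Nat.card (Pp (F ∙ v)) ≤ J.card * (Nat.card (Pp (YY hF K v)) - 2) + 2 := by
    have h1 := Finset.card_le_card_sdiff_add_card (s := Finset.univ.filter (· ∈ Pp (F ∙ v)))
      (t := ({0, v} : Finset (l ⊕ l → F)))
    rw [hA, card_filter_mem] at h1
    have h2 := Finset.card_le_card hcov
    omega
  -- arithmetic
  have hc4 : J.card * Nat.card (Pp (YY hF K v)) ≤ K.index := by
    apply Nat.le_of_mul_le_mul_left _ hYpos
    calc Nat.card (YY hF K v) * (J.card * Nat.card (Pp (YY hF K v)))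
        = J.card * (Nat.card (YY hF K v) * Nat.card (Pp (YY hF K v))) := by ring
      _ = J.card * (Nat.card (Pp (F ∙ v)) * 2) := by rw [hcY, hcW]
      _ ≤ _ := hc1
  obtain ⟨z, hz⟩ : ∃ z, Nat.card (Pp (YY hF K v)) = z + 2 := ⟨_, (Nat.sub_add_cancel hZ3.le).symm⟩
  rw [hz] at hc3 hc4
  simp only [Nat.add_sub_cancel] at hc3
  have h5 : 1 * 2 ≤ J.card * 2 := Nat.mul_le_mul_right 2 hJpos
  calc Nat.card (Pp (F ∙ v)) ≤ J.card * z + 2 := hc3
    _ ≤ J.card * z + J.card * 2 := by omega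
    _ = J.card * (z + 2) := by ring
    _ ≤ K.index := hc4

end Main

end Cfsg.Agent.Lib.SpTwoIdx
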