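import Mathlib

/-!
# Spread sets closed under inverses are fields

A Jordan-closed linear space `S` of `m × m` matrices over a finite field, of dimension `m`, with
every nonzero element invertible, is commutative. The proof uses the generic minimal polynomial,
Gauss's lemma and the Chevalley--Warning theorem.
-/

set_option autoImplicit false

namespace Cfsg.Agent.Lib.SpreadField

section generic

variable {K : Type*} [Field K] [Fintype K] {m : ℕ}

/-- The polynomial ring. -/
abbrev PolyA (K : Type*) [Field K] (m : ℕ) := MvPolynomial (Fin m) K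

/-- Its fraction field. -/
abbrev FracA (K : Type*) [Field K] (m : ℕ) := FractionRing (PolyA K m)

/-- The generic element. -/
noncomputable def gen (s : Fin m → Matrix (Fin m) (Fin m) K) :
    Matrix (Fin m) (Fin m) (MvPolynomial (Fin m) K) :=
  ∑ i, (MvPolynomial.X i : MvPolynomial (Fin m) K) • (s i).map MvPolynomial.C

theorem gen_apply (s : Fin m → Matrix (Fin m) (Fin m) K) (a b : Fin m) :
    gen s a b = ∑ i, (MvPolynomial.X i : MvPolynomial (Fin m) K) * MvPolynomial.C (s i a b) := by
  simp [gen, Matrix.sum_apply]

theorem gen_eval (s : Fin m → Matrix (Fin m) (Fin m) K) (x : Fin m → K) :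
    (gen s).map (MvPolynomial.eval x) = ∑ i, x i • s i := by
  ext a b
  simp [gen_apply, Matrix.sum_apply]

theorem totalDegree_gen_le (s : Fin m → Matrix (Fin m) (Fin m) K) (a b : Fin m) :
    (gen s a b).totalDegree ≤ 1 := by
  rw [gen_apply]
  refine (MvPolynomial.totalDegree_finsetSum _ _).trans ?_
  apply Finset.sup_le
  intro i _
  refine (MvPolynomial.totalDegree_mul _ _).trans ?_
  rw [MvPolynomial.totalDegree_X, MvPolynomial.totalDegree_C]

theorem totalDegree_det_gen_le (s : Fin m → Matrix (Fin m) (Fin m) K) :
    (gen s).det.totalDegree ≤ m := by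
  rw [Matrix.det_apply']
  refine (MvPolynomial.totalDegree_finsetSum _ _).trans ?_
  apply Finset.sup_le
  intro σ _
  refine (MvPolynomial.totalDegree_mul _ _).trans ?_
  have h1 : (((Equiv.Perm.sign σ : ℤˣ) : ℤ) : MvPolynomial (Fin m) K).totalDegree = 0 := by
    have : (((Equiv.Perm.sign σ : ℤˣ) : ℤ) : MvPolynomial (Fin m) K) =
        MvPolynomial.C (((Equiv.Perm.sign σ : ℤˣ) : ℤ) : K) := by simp
    rw [this, MvPolynomial.totalDegree_C]
  rw [h1, zero_add]
  refine (MvPolynomial.totalDegree_finsetProd _ _).trans ?_
  calc ∑ i, (gen s (σ i) i).totalDegree ≤ ∑ _i : Fin m, 1 :=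
        Finset.sum_le_sum fun i _ => totalDegree_gen_le s _ _
    _ = m := by simp

/-- The determinant of the generic element does not vanish anywhere but at `0`. -/
theorem eval_det_gen (s : Fin m → Matrix (Fin m) (Fin m) K) (x : Fin m → K) :
    MvPolynomial.eval x (gen s).det = (∑ i, x i • s i).det := by
  rw [← gen_eval, RingHom.map_det]
  rfl

/-- The degree of the generic minimal polynomial is `m`. -/
theorem natDegree_minpoly_gen (s : Fin m → Matrix (Fin m) (Fin m) K) (hm : 0 < m)
    (hunit : ∀ x : Fin m → K, x ≠ 0 → IsUnit (∑ i, x i • s i)) :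
    (minpoly (FracA K m) ((gen s).map (algebraMap (PolyA K m) (FracA K m)))).natDegree = m := by
  classical
  let f : PolyA K m →+* FracA K m := algebraMap (PolyA K m) (FracA K m)
  have hf : Function.Injective f := IsFractionRing.injective (PolyA K m) (FracA K m)
  let G' : Matrix (Fin m) (Fin m) (FracA K m) := (gen s).map f
  have hint : IsIntegral (FracA K m) G' := Algebra.IsIntegral.isIntegral G'
  let χ : Polynomial (PolyA K m) := (gen s).charpoly
  have hχ : χ.Monic := Matrix.charpoly_monic _
  have hχdeg : χ.natDegree = m := by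
    have := Matrix.charpoly_natDegree_eq_dim (gen s)
    rwa [Fintype.card_fin] at this
  let μ : Polynomial (FracA K m) := minpoly (FracA K m) G'
  have hμ : μ.Monic := minpoly.monic hint
  have hnt : Nontrivial (Matrix (Fin m) (Fin m) (FracA K m)) := by
    have : Nonempty (Fin m) := ⟨⟨0, hm⟩⟩
    infer_instance
  have hμdeg : 0 < μ.natDegree := minpoly.natDegree_pos hint
  have hdvd : μ ∣ χ.map f := by
    apply minpoly.dvd
    have e1 : χ.map f = G'.charpoly := (Matrix.charpoly_map _ _).symm
    rw [e1]
    exact Matrix.aeval_self_charpoly G'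
  obtain ⟨g', hg'⟩ := IsIntegrallyClosed.eq_map_mul_C_of_dvd (FracA K m) hχ hdvd
  rw [hμ.leadingCoeff, Polynomial.C_1, mul_one] at hg'
  have hg'mon : g'.Monic := Polynomial.monic_of_injective hf (by
    change (g'.map f).Monic
    have : g'.map f = μ := hg'
    rw [this]; exact hμ)
  have hdvd2 : g' ∣ χ := by
    apply (Polynomial.map_dvd_map f hf hg'mon).mp
    have : g'.map f = μ := hg'
    rw [this]; exact hdvd
  obtain ⟨h, hh⟩ := hdvd2
  have hhmon : h.Monic := by
    apply Polynomial.Monic.of_mul_monic_left hg'mon
    rw [← hh]; exact hχ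
  have hg'deg : g'.natDegree = μ.natDegree := by
    have : g'.map f = μ := hg'
    rw [← this]
    exact (Polynomial.natDegree_map_eq_of_injective hf g').symm
  have hdeg : g'.natDegree + h.natDegree = m := by
    have e := congrArg Polynomial.natDegree hh
    rw [Polynomial.natDegree_mul hg'mon.ne_zero hhmon.ne_zero] at e
    omega
  have hg'pos : 0 < g'.natDegree := by rw [hg'deg]; exact hμdeg
  -- specialise at `0`
  let ev : PolyA K m →+* K := MvPolynomial.eval (0 : Fin m → K)
  have hev : (g'.map ev) * (h.map ev) = Polynomial.X ^ m := by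
    rw [← Polynomial.map_mul, ← hh]
    have e1 : χ.map ev = ((gen s).map ev).charpoly := (Matrix.charpoly_map _ _).symm
    have e2 : (gen s).map ev = 0 := by
      have e4 : (gen s).map ev = ∑ i, (0 : Fin m → K) i • s i := gen_eval s 0
      rw [e4]
      simp
    rw [e1, e2]
    have e3 : (0 : Matrix (Fin m) (Fin m) K).charpoly = Polynomial.X ^ m := by
      have := Matrix.charpoly_of_isUpperTriangular (0 : Matrix (Fin m) (Fin m) K)
        (by intro i j _; rfl)
      simpa using this
    exact e3
  have hpow : ∀ p : Polynomial (PolyA K m), p.Monic → p.map ev ∣ Polynomial.X ^ m →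
      p.map ev = Polynomial.X ^ p.natDegree := by
    intro p hp hpd
    obtain ⟨i, _, hi⟩ := (dvd_prime_pow Polynomial.prime_X m).mp hpd
    have hmon : (p.map ev).Monic := hp.map ev
    have e := Polynomial.eq_of_monic_of_associated hmon (Polynomial.monic_X_pow i) hi
    have e2 : p.natDegree = i := by
      have := congrArg Polynomial.natDegree e
      rw [hp.natDegree_map, Polynomial.natDegree_X_pow] at this
      exact this
    rw [e, e2]
  have hg0 := hpow g' hg'mon ⟨_, hev.symm⟩
  have hh0 := hpow h hhmon ⟨_, by rw [mul_comm]; exact hev.symm⟩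
  have hN0 : MvPolynomial.eval (0 : Fin m → K) (g'.coeff 0) = 0 := by
    have := congrArg (fun p => Polynomial.coeff p 0) hg0
    simp only [Polynomial.coeff_map, Polynomial.coeff_X_pow] at this
    rw [if_neg (by omega)] at this
    exact this
  by_contra hne
  have hne' : g'.natDegree ≠ m := by rw [hg'deg]; exact hne
  have hpos : 0 < h.natDegree := by omega
  have hN'0 : MvPolynomial.eval (0 : Fin m → K) (h.coeff 0) = 0 := by
    have := congrArg (fun p => Polynomial.coeff p 0) hh0
    simp only [Polynomial.coeff_map, Polynomial.coeff_X_pow] at this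
    rw [if_neg (by omega)] at this
    exact this
  -- the determinant
  have hdet : (gen s).det = (-1) ^ Fintype.card (Fin m) * ((g'.coeff 0) * (h.coeff 0)) := by
    rw [Matrix.det_eq_sign_charpoly_coeff]
    have : (gen s).charpoly.coeff 0 = (g'.coeff 0) * (h.coeff 0) := by
      change χ.coeff 0 = _
      rw [hh, Polynomial.mul_coeff_zero]
    rw [this]
  have hdet_ne : ∀ x : Fin m → K, x ≠ 0 → MvPolynomial.eval x (gen s).det ≠ 0 := by
    intro x hx
    rw [eval_det_gen]
    have hu := hunit x hx
    have := (Matrix.isUnit_iff_isUnit_det _).mp hu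
    exact this.ne_zero
  obtain ⟨x₀, hx₀⟩ : ∃ x : Fin m → K, x ≠ 0 := by
    refine ⟨fun _ => 1, fun h => ?_⟩
    have := congrFun h ⟨0, hm⟩
    simp at this
  have hprod_ne : (g'.coeff 0) * (h.coeff 0) ≠ 0 := by
    intro h0
    apply hdet_ne x₀ hx₀
    rw [hdet, h0]
    simp
  have hN_ne : g'.coeff 0 ≠ 0 := left_ne_zero_of_mul hprod_ne
  have hN'_ne : h.coeff 0 ≠ 0 := right_ne_zero_of_mul hprod_ne
  have hN'deg : 1 ≤ (h.coeff 0).totalDegree := by
    by_contra hlt
    have h0 : (h.coeff 0).totalDegree = 0 := by omega
    have hc := MvPolynomial.totalDegree_eq_zero_iff_eq_C.mp h0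
    rw [hc, MvPolynomial.eval_C] at hN'0
    rw [hN'0, map_zero] at hc
    exact hN'_ne hc
  have hdeg2 : ((g'.coeff 0) * (h.coeff 0)).totalDegree ≤ m := by
    have e1 : (g'.coeff 0) * (h.coeff 0) = (-1) ^ Fintype.card (Fin m) * (gen s).det := by
      rw [hdet, ← mul_assoc, ← mul_pow]
      simp
    rw [e1]
    refine (MvPolynomial.totalDegree_mul _ _).trans ?_
    have e2 : ((-1 : PolyA K m) ^ Fintype.card (Fin m)).totalDegree = 0 := by
      have : ((-1 : PolyA K m) ^ Fintype.card (Fin m)) =
          MvPolynomial.C ((-1 : K) ^ Fintype.card (Fin m)) := by simp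
      rw [this, MvPolynomial.totalDegree_C]
    rw [e2, zero_add]
    exact totalDegree_det_gen_le s
  rw [MvPolynomial.totalDegree_mul_of_isDomain hN_ne hN'_ne] at hdeg2
  have hlt : (g'.coeff 0).totalDegree < Fintype.card (Fin m) := by
    rw [Fintype.card_fin]; omega
  obtain ⟨p, hp⟩ := CharP.exists K
  have hdvd3 := char_dvd_card_solutions p hlt
  have hpp : p.Prime := CharP.char_is_prime K p
  obtain ⟨x, hx, hNx⟩ : ∃ x : Fin m → K, x ≠ 0 ∧ MvPolynomial.eval x (g'.coeff 0) = 0 := by
    by_contra hall
    push Not at hall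
    have hone : Fintype.card { x : Fin m → K // MvPolynomial.eval x (g'.coeff 0) = 0 } = 1 := by
      rw [Fintype.card_eq_one_iff]
      refine ⟨⟨0, hN0⟩, ?_⟩
      rintro ⟨y, hy⟩
      apply Subtype.ext
      by_contra hy0
      exact hall y hy0 hy
    rw [hone] at hdvd3
    exact hpp.one_lt.ne' (Nat.dvd_one.mp hdvd3)
  apply hdet_ne x hx
  rw [hdet, map_mul, map_mul, hNx]
  simp

/-- The `A`-span of the structure matrices. -/
noncomputable def La (s : Fin m → Matrix (Fin m) (Fin m) K) :
    Submodule (PolyA K m) (Matrix (Fin m) (Fin m) (PolyA K m)) :=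
  Submodule.span (PolyA K m) (Set.range fun i => (s i).map MvPolynomial.C)

theorem gen_mem (s : Fin m → Matrix (Fin m) (Fin m) K) : gen s ∈ La s := by
  refine Submodule.sum_mem _ fun i _ => Submodule.smul_mem _ _ (Submodule.subset_span ⟨i, rfl⟩)

theorem map_mem_La (s : Fin m → Matrix (Fin m) (Fin m) K) {M : Matrix (Fin m) (Fin m) K}
    (hM : M ∈ Submodule.span K (Set.range s)) :
    M.map (MvPolynomial.C : K →+* PolyA K m) ∈ La s := by
  induction hM using Submodule.span_induction with
  | mem x hx =>
    obtain ⟨i, rfl⟩ := hx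
    exact Submodule.subset_span ⟨i, rfl⟩
  | zero => simp
  | add x y _ _ hx hy =>
    rw [Matrix.map_add _ (map_add _)]
    exact Submodule.add_mem _ hx hy
  | smul c x _ hx =>
    have : (c • x).map (MvPolynomial.C : K →+* PolyA K m) =
        (MvPolynomial.C c : PolyA K m) • x.map (MvPolynomial.C : K →+* PolyA K m) := by
      ext a b
      simp
    rw [this]
    exact Submodule.smul_mem _ _ hx

theorem T_mem (s : Fin m → Matrix (Fin m) (Fin m) K)
    (hT : ∀ i j l, s i * s j * s l + s l * s j * s i ∈ Submodule.span K (Set.range s))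
    {f g h : Matrix (Fin m) (Fin m) (PolyA K m)} (hf : f ∈ La s) (hg : g ∈ La s) (hh : h ∈ La s) :
    f * g * h + h * g * f ∈ La s := by
  induction hf using Submodule.span_induction with
  | zero => simp
  | add x y _ _ hx hy =>
    have : (x + y) * g * h + h * g * (x + y) = (x * g * h + h * g * x) + (y * g * h + h * g * y) := by
      noncomm_ring
    rw [this]
    exact Submodule.add_mem _ hx hy
  | smul c x _ hx =>
    have : (c • x) * g * h + h * g * (c • x) = c • (x * g * h + h * g * x) := by
      simp [smul_add]
    rw [this]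
    exact Submodule.smul_mem _ _ hx
  | mem x hx =>
    obtain ⟨i, rfl⟩ := hx
    induction hg using Submodule.span_induction with
    | zero => simp
    | add x y _ _ hx hy =>
      have : ∀ a : Matrix (Fin m) (Fin m) (PolyA K m), a * (x + y) * h + h * (x + y) * a =
          (a * x * h + h * x * a) + (a * y * h + h * y * a) := by
        intro a; noncomm_ring
      rw [this]
      exact Submodule.add_mem _ hx hy
    | smul c x _ hx =>
      have : ∀ a : Matrix (Fin m) (Fin m) (PolyA K m), a * (c • x) * h + h * (c • x) * a =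
          c • (a * x * h + h * x * a) := by
        intro a
        simp [smul_add]
      rw [this]
      exact Submodule.smul_mem _ _ hx
    | mem x hx =>
      obtain ⟨j, rfl⟩ := hx
      induction hh using Submodule.span_induction with
      | zero => simp
      | add x y _ _ hx hy =>
        have : ∀ a b : Matrix (Fin m) (Fin m) (PolyA K m), a * b * (x + y) + (x + y) * b * a =
            (a * b * x + x * b * a) + (a * b * y + y * b * a) := by
          intro a b; noncomm_ring
        rw [this]
        exact Submodule.add_mem _ hx hy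
      | smul c x _ hx =>
        have : ∀ a b : Matrix (Fin m) (Fin m) (PolyA K m), a * b * (c • x) + (c • x) * b * a =
            c • (a * b * x + x * b * a) := by
          intro a b
          simp [smul_add]
        rw [this]
        exact Submodule.smul_mem _ _ hx
      | mem x hx =>
        obtain ⟨l, rfl⟩ := hx
        have := map_mem_La s (hT i j l)
        have e : (s i * s j * s l + s l * s j * s i).map (MvPolynomial.C : K →+* PolyA K m) =
            (s i).map MvPolynomial.C * (s j).map MvPolynomial.C * (s l).map MvPolynomial.C +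
            (s l).map MvPolynomial.C * (s j).map MvPolynomial.C * (s i).map MvPolynomial.C := by
          simp only [← Matrix.map_mul, ← Matrix.map_add _ (map_add _)]
        rw [e] at this
        exact this

theorem U_mem (s : Fin m → Matrix (Fin m) (Fin m) K)
    (hT : ∀ i j l, s i * s j * s l + s l * s j * s i ∈ Submodule.span K (Set.range s))
    (hU : ∀ i j, s i * s j * s i ∈ Submodule.span K (Set.range s))
    {f g : Matrix (Fin m) (Fin m) (PolyA K m)} (hf : f ∈ La s) (hg : g ∈ La s) :
    f * g * f ∈ La s := by
  induction hf using Submodule.span_induction with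
  | zero => simp
  | add x y hx' hy' hx hy =>
    have : (x + y) * g * (x + y) = x * g * x + y * g * y + (x * g * y + y * g * x) := by
      noncomm_ring
    rw [this]
    exact Submodule.add_mem _ (Submodule.add_mem _ hx hy) (T_mem s hT hx' hg hy')
  | smul c x _ hx =>
    have : (c • x) * g * (c • x) = c • c • (x * g * x) := by
      simp
    rw [this]
    exact Submodule.smul_mem _ _ (Submodule.smul_mem _ _ hx)
  | mem x hx =>
    obtain ⟨i, rfl⟩ := hx
    induction hg using Submodule.span_induction with
    | zero => simp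
    | add x y _ _ hx hy =>
      have : ∀ a : Matrix (Fin m) (Fin m) (PolyA K m), a * (x + y) * a = a * x * a + a * y * a := by
        intro a; noncomm_ring
      rw [this]
      exact Submodule.add_mem _ hx hy
    | smul c x _ hx =>
      have : ∀ a : Matrix (Fin m) (Fin m) (PolyA K m), a * (c • x) * a = c • (a * x * a) := by
        intro a
        simp
      rw [this]
      exact Submodule.smul_mem _ _ hx
    | mem x hx =>
      obtain ⟨j, rfl⟩ := hx
      have := map_mem_La s (hU i j)
      have e : (s i * s j * s i).map (MvPolynomial.C : K →+* PolyA K m) =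
          (s i).map MvPolynomial.C * (s j).map MvPolynomial.C * (s i).map MvPolynomial.C := by
        simp only [← Matrix.map_mul]
      rw [e] at this
      exact this

theorem pow_gen_mem (s : Fin m → Matrix (Fin m) (Fin m) K)
    (h1 : (1 : Matrix (Fin m) (Fin m) K) ∈ Submodule.span K (Set.range s))
    (hT : ∀ i j l, s i * s j * s l + s l * s j * s i ∈ Submodule.span K (Set.range s))
    (hU : ∀ i j, s i * s j * s i ∈ Submodule.span K (Set.range s)) (k : ℕ) :
    gen s ^ k ∈ La s ∧ gen s ^ (k + 1) ∈ La s := by
  induction k with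
  | zero =>
    constructor
    · have := map_mem_La s h1
      rw [Matrix.map_one _ (map_zero _) (map_one _)] at this
      simpa using this
    · simpa using gen_mem s
  | succ k ih =>
    refine ⟨ih.2, ?_⟩
    have e : gen s ^ (k + 1 + 1) = gen s * gen s ^ k * gen s := by
      rw [pow_succ, pow_succ', mul_assoc]
    rw [e]
    exact U_mem s hT hU (gen_mem s) ih.1

/-- Main theorem on matrices. -/
theorem comm_of_generic (s : Fin m → Matrix (Fin m) (Fin m) K)
    (hunit : ∀ x : Fin m → K, x ≠ 0 → IsUnit (∑ i, x i • s i))
    (h1 : (1 : Matrix (Fin m) (Fin m) K) ∈ Submodule.span K (Set.range s))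
    (hT : ∀ i j l, s i * s j * s l + s l * s j * s i ∈ Submodule.span K (Set.range s))
    (hU : ∀ i j, s i * s j * s i ∈ Submodule.span K (Set.range s)) :
    ∀ i j, s i * s j = s j * s i := by
  classical
  rcases Nat.eq_zero_or_pos m with rfl | hm
  · intro i; exact i.elim0
  have hdeg := natDegree_minpoly_gen s hm hunit
  let f : PolyA K m →+* FracA K m := algebraMap (PolyA K m) (FracA K m)
  have hf : Function.Injective f := IsFractionRing.injective (PolyA K m) (FracA K m)
  let G' : Matrix (Fin m) (Fin m) (FracA K m) := (gen s).map f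
  let t : Fin m → Matrix (Fin m) (Fin m) (FracA K m) := fun i => ((s i).map MvPolynomial.C).map f
  let L : Submodule (FracA K m) (Matrix (Fin m) (Fin m) (FracA K m)) :=
    Submodule.span (FracA K m) (Set.range t)
  have hmapL : ∀ M ∈ La s, M.map f ∈ L := by
    intro M hM
    induction hM using Submodule.span_induction with
    | mem x hx =>
      obtain ⟨i, rfl⟩ := hx
      exact Submodule.subset_span ⟨i, rfl⟩
    | zero => simp
    | add x y _ _ hx hy =>
      rw [Matrix.map_add _ (map_add _)]
      exact Submodule.add_mem _ hx hy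
    | smul c x _ hx =>
      have : (c • x).map f = (f c) • x.map f := by
        ext a b
        simp
      rw [this]
      exact Submodule.smul_mem _ _ hx
  have hpow : ∀ k, G' ^ k ∈ L := by
    intro k
    have e : G' ^ k = (gen s ^ k).map f := by
      have := map_pow (f.mapMatrix) (gen s) k
      exact this.symm
    rw [e]
    exact hmapL _ (pow_gen_mem s h1 hT hU k).1
  have hli := linearIndependent_pow (K := FracA K m) G'
  let p : Fin (minpoly (FracA K m) G').natDegree → Matrix (Fin m) (Fin m) (FracA K m) :=
    fun i => G' ^ (i : ℕ)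
  have hle : Submodule.span (FracA K m) (Set.range p) ≤ L := by
    rw [Submodule.span_le]
    rintro _ ⟨i, rfl⟩
    exact hpow _
  have hfr1 : Module.finrank (FracA K m) (Submodule.span (FracA K m) (Set.range p)) = m := by
    rw [finrank_span_eq_card hli, Fintype.card_fin]
    exact hdeg
  have hfr2 : Module.finrank (FracA K m) L ≤ m := by
    have := finrank_range_le_card (R := FracA K m) t
    rw [Fintype.card_fin] at this
    exact this
  have heq : Submodule.span (FracA K m) (Set.range p) = L :=
    Submodule.eq_of_le_of_finrank_le hle (by omega)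
  have hcomm1 : ∀ k : ℕ, ∀ y ∈ L, G' ^ k * y = y * G' ^ k := by
    intro k y hy
    rw [← heq] at hy
    induction hy using Submodule.span_induction with
    | mem x hx =>
      obtain ⟨i, rfl⟩ := hx
      exact (Commute.pow_pow_self G' k i)
    | zero => simp
    | add x y _ _ hx hy => rw [mul_add, add_mul, hx, hy]
    | smul c x _ hx => rw [Matrix.mul_smul, Matrix.smul_mul, hx]
  have hcomm2 : ∀ x ∈ L, ∀ y ∈ L, x * y = y * x := by
    intro x hx y hy
    rw [← heq] at hx
    induction hx using Submodule.span_induction with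
    | mem x hx =>
      obtain ⟨i, rfl⟩ := hx
      exact hcomm1 _ y hy
    | zero => simp
    | add a b _ _ ha hb => rw [mul_add, add_mul, ha, hb]
    | smul c a _ ha => rw [Matrix.mul_smul, Matrix.smul_mul, ha]
  intro i j
  have hij := hcomm2 (t i) (Submodule.subset_span ⟨i, rfl⟩) (t j) (Submodule.subset_span ⟨j, rfl⟩)
  have hinj : Function.Injective ((f.comp MvPolynomial.C).mapMatrix :
      Matrix (Fin m) (Fin m) K →+* Matrix (Fin m) (Fin m) (FracA K m)) := by
    intro a b hab
    ext u v
    have := congrFun (congrFun hab u) v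
    exact (hf.comp (MvPolynomial.C_injective (Fin m) K)) this
  apply hinj
  rw [map_mul, map_mul]
  exact hij

end generic

section endo

variable {K : Type*} [Field K] [Fintype K] {V : Type*} [AddCommGroup V] [Module K V]

/-- Hua's identity in a ring: `a b a` in terms of inverses. -/
theorem hua_mem {R : Type*} [Ring R] (S : AddSubgroup R) (h1 : (1 : R) ∈ S)
    (hinv : ∀ s ∈ S, s ≠ 0 → ∃ t ∈ S, s * t = 1 ∧ t * s = 1) {a b : R} (ha : a ∈ S) (hb : b ∈ S) :
    a * b * a ∈ S := by
  by_cases ha0 : a = 0
  · rw [ha0]; simpa using S.zero_mem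
  by_cases hb0 : b = 0
  · rw [hb0]; simpa using S.zero_mem
  obtain ⟨a', ha', haa', ha'a⟩ := hinv a ha ha0
  obtain ⟨b', hb', hbb', hb'b⟩ := hinv b hb hb0
  by_cases hab : a * b = 1
  · rw [hab, one_mul]; exact ha
  have hc : b' - a ∈ S := S.sub_mem hb' ha
  have hc0 : b' - a ≠ 0 := by
    intro h
    apply hab
    have : b' = a := sub_eq_zero.mp h
    rw [← this]; exact hb'b
  obtain ⟨c', hc', hcc', hc'c⟩ := hinv _ hc hc0
  have hd : a' + c' ∈ S := S.add_mem ha' hc'
  have key : (a' + c') * ((b' - a) * b * a) = 1 := by
    have e1 : c' * ((b' - a) * b * a) = b * a := by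
      calc c' * ((b' - a) * b * a) = (c' * (b' - a)) * (b * a) := by noncomm_ring
        _ = b * a := by rw [hc'c, one_mul]
    have e2 : a' * ((b' - a) * b * a) = 1 - b * a := by
      calc a' * ((b' - a) * b * a) = a' * (b' * b) * a - (a' * a) * (b * a) := by noncomm_ring
        _ = 1 - b * a := by rw [hb'b, mul_one, ha'a, one_mul]
    rw [add_mul, e1, e2]
    abel
  have hd0 : a' + c' ≠ 0 := by
    intro h
    rw [h, zero_mul] at key
    -- `1 = 0` forces everything to vanish
    apply ha0
    have : a = a * 1 := (mul_one a).symm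
    rw [this, ← key, mul_zero]
  obtain ⟨d', hd', hdd', hd'd⟩ := hinv _ hd hd0
  have e3 : d' = (b' - a) * b * a := by
    calc d' = d' * ((a' + c') * ((b' - a) * b * a)) := by rw [key, mul_one]
      _ = (d' * (a' + c')) * ((b' - a) * b * a) := by noncomm_ring
      _ = (b' - a) * b * a := by rw [hd'd, one_mul]
  have e4 : a * b * a = a - d' := by
    rw [e3]
    have e5 : (b' - a) * b * a = a - a * b * a := by
      calc (b' - a) * b * a = (b' * b) * a - a * b * a := by noncomm_ring
        _ = a - a * b * a := by rw [hb'b, one_mul]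
    rw [e5]
    abel
  rw [e4]
  exact S.sub_mem ha hd'

theorem T_mem_of_U {R : Type*} [Ring R] (S : AddSubgroup R)
    (hU : ∀ a ∈ S, ∀ b ∈ S, a * b * a ∈ S) {a b c : R} (ha : a ∈ S) (hb : b ∈ S) (hc : c ∈ S) :
    a * b * c + c * b * a ∈ S := by
  have e : a * b * c + c * b * a = (a + c) * b * (a + c) - a * b * a - c * b * c := by
    noncomm_ring
  rw [e]
  exact S.sub_mem (S.sub_mem (hU _ (S.add_mem ha hc) _ hb) (hU _ ha _ hb)) (hU _ hc _ hb)

/-- A Jordan closed spread set is commutative. -/
theorem spread_comm [Module.Finite K V] (S : Submodule K (Module.End K V))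
    (h1 : (1 : Module.End K V) ∈ S)
    (hinv : ∀ s ∈ S, s ≠ 0 → ∃ t ∈ S, s * t = 1 ∧ t * s = 1)
    (hdim : Module.finrank K S = Module.finrank K V) :
    ∀ a ∈ S, ∀ b ∈ S, a * b = b * a := by
  classical
  have hU : ∀ a ∈ S, ∀ b ∈ S, a * b * a ∈ S := fun a ha b hb =>
    hua_mem S.toAddSubgroup h1 hinv ha hb
  have hT : ∀ a ∈ S, ∀ b ∈ S, ∀ c ∈ S, a * b * c + c * b * a ∈ S := fun a ha b hb c hc =>
    T_mem_of_U S.toAddSubgroup hU ha hb hc
  let m := Module.finrank K V
  let bV : Module.Basis (Fin m) K V := Module.finBasis K V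
  let bS : Module.Basis (Fin m) K S := Module.finBasisOfFinrankEq K S hdim
  let τ : Module.End K V ≃ₐ[K] Matrix (Fin m) (Fin m) K := LinearMap.toMatrixAlgEquiv bV
  let s : Fin m → Matrix (Fin m) (Fin m) K := fun i => τ (bS i : Module.End K V)
  have hspan : ∀ u ∈ S, τ u ∈ Submodule.span K (Set.range s) := by
    intro u hu
    have e : u = ∑ i, (bS.repr ⟨u, hu⟩ i) • (bS i : Module.End K V) := by
      calc u = ((⟨u, hu⟩ : S) : Module.End K V) := rfl
        _ = ((∑ i, (bS.repr ⟨u, hu⟩ i) • bS i : S) : Module.End K V) := by rw [bS.sum_repr]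
        _ = _ := by simp only [Submodule.coe_sum, Submodule.coe_smul]
    rw [e, map_sum]
    refine Submodule.sum_mem _ fun i _ => ?_
    rw [map_smul]
    exact Submodule.smul_mem _ _ (Submodule.subset_span ⟨i, rfl⟩)
  have hcomm := comm_of_generic s ?_ ?_ ?_ ?_
  · -- deduce the commutativity in `S`
    have hinj : Function.Injective τ := τ.injective
    have hgen : ∀ x ∈ Submodule.span K (Set.range s), ∀ y ∈ Submodule.span K (Set.range s),
        x * y = y * x := by
      intro x hx y hy
      induction hx using Submodule.span_induction with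
      | zero => simp
      | add a b _ _ ha hb => rw [mul_add, add_mul, ha, hb]
      | smul c a _ ha => rw [Matrix.mul_smul, Matrix.smul_mul, ha]
      | mem x hx =>
        obtain ⟨i, rfl⟩ := hx
        induction hy using Submodule.span_induction with
        | zero => simp
        | add a b _ _ ha hb => rw [mul_add, add_mul, ha, hb]
        | smul c a _ ha => rw [Matrix.mul_smul, Matrix.smul_mul, ha]
        | mem x hx =>
          obtain ⟨j, rfl⟩ := hx
          exact hcomm i j
    intro a ha b hb
    apply hinj
    rw [map_mul, map_mul]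
    exact hgen _ (hspan a ha) _ (hspan b hb)
  · intro x hx
    have hne : ∑ i, x i • (bS i : S) ≠ 0 := by
      intro h0
      apply hx
      have := (Fintype.linearIndependent_iff.mp bS.linearIndependent) x h0
      exact funext this
    have hmem : (∑ i, x i • (bS i : Module.End K V)) ∈ S :=
      Submodule.sum_mem _ fun i _ => Submodule.smul_mem _ _ (bS i).2
    have hne2 : (∑ i, x i • (bS i : Module.End K V)) ≠ 0 := by
      intro h0
      apply hne
      apply Subtype.ext
      simpa using h0
    obtain ⟨t, _, h2, h3⟩ := hinv _ hmem hne2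
    have e : ∑ i, x i • s i = τ (∑ i, x i • (bS i : Module.End K V)) := by
      rw [map_sum]
      simp [s]
    rw [e]
    exact ⟨⟨_, τ t, by rw [← map_mul, h2, map_one], by rw [← map_mul, h3, map_one]⟩, rfl⟩
  · have := hspan 1 h1
    rwa [map_one] at this
  · intro i j l
    have := hspan _ (hT _ (bS i).2 _ (bS j).2 _ (bS l).2)
    simpa [s, map_add, map_mul] using this
  · intro i j
    have := hspan _ (hU _ (bS i).2 _ (bS j).2)
    simpa [s, map_mul] using this

end endo

section main

variable {V : Type*} [AddCommGroup V] [Module (ZMod 2) V] [Finite V]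

theorem two_eq_zero_end (a : Module.End (ZMod 2) V) : a + a = 0 := by
  ext v
  have : (2 : ZMod 2) • a v = 0 := by
    have h2 : (2 : ZMod 2) = 0 := rfl
    rw [h2, zero_smul]
  rw [two_smul] at this
  simpa using this

/-- Main theorem: a Jordan closed spread set in characteristic 2 is a commutative subring. -/
theorem spread_main (S : Submodule (ZMod 2) (Module.End (ZMod 2) V))
    (h1 : (1 : Module.End (ZMod 2) V) ∈ S)
    (hinv : ∀ s ∈ S, s ≠ 0 → ∃ t ∈ S, s * t = 1 ∧ t * s = 1)
    (hdim : Module.finrank (ZMod 2) S = Module.finrank (ZMod 2) V) :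
    (∀ a ∈ S, ∀ b ∈ S, a * b = b * a) ∧ (∀ a ∈ S, ∀ b ∈ S, a * b ∈ S) := by
  classical
  haveI : Module.Finite (ZMod 2) V := Module.Finite.of_finite
  have hcomm := spread_comm S h1 hinv hdim
  refine ⟨hcomm, ?_⟩
  have hU : ∀ a ∈ S, ∀ b ∈ S, a * b * a ∈ S := fun a ha b hb =>
    hua_mem S.toAddSubgroup h1 hinv ha hb
  haveI : Finite (Module.End (ZMod 2) V) := Module.finite_of_finite (ZMod 2)
  -- squaring is bijective on `S`
  let sq : S → S := fun a => ⟨a * a, by
    have := hU a a.2 1 h1
    simpa using this⟩
  have hsq_inj : Function.Injective sq := by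
    intro a b hab
    have hab' : (a : Module.End (ZMod 2) V) * a = b * b := congrArg Subtype.val hab
    have h0 : ((a : Module.End (ZMod 2) V) + b) * (a + b) = 0 := by
      have e1 := hcomm a a.2 b b.2
      calc ((a : Module.End (ZMod 2) V) + b) * (a + b) = a * a + b * b + (a * b + b * a) := by
            noncomm_ring
        _ = (b * b + b * b) + (b * a + b * a) := by rw [hab', e1]
        _ = 0 := by rw [two_eq_zero_end, two_eq_zero_end, add_zero]
    by_contra hne
    have hne2 : ((a : Module.End (ZMod 2) V) + b) ≠ 0 := by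
      intro h
      apply hne
      apply Subtype.ext
      have e2 := two_eq_zero_end (b : Module.End (ZMod 2) V)
      have : (a : Module.End (ZMod 2) V) + b = b + b := by rw [h, e2]
      exact add_right_cancel this
    obtain ⟨t, _, h2, h3⟩ := hinv _ (S.add_mem a.2 b.2) hne2
    apply hne2
    calc ((a : Module.End (ZMod 2) V) + b) = ((a : Module.End (ZMod 2) V) + b) * (a + b) * t := by
          rw [mul_assoc, h2, mul_one]
      _ = 0 := by rw [h0, zero_mul]
  have hsq_surj : Function.Surjective sq := Finite.surjective_of_injective hsq_inj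
  intro a ha b hb
  obtain ⟨c, hc⟩ := hsq_surj ⟨a, ha⟩
  have hc' : (c : Module.End (ZMod 2) V) * c = a := congrArg Subtype.val hc
  have e : a * b = c * b * c := by
    calc a * b = c * (c * b) := by rw [← hc', mul_assoc]
      _ = c * (b * c) := by rw [hcomm c c.2 b hb]
      _ = c * b * c := by rw [mul_assoc]
  rw [e]
  exact hU _ c.2 _ hb

end main

end Cfsg.Agent.Lib.SpreadField
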