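import Mathlib

/-!
# Jordan bases for endomorphisms with square zero
-/

set_option autoImplicit false

namespace Cfsg.Agent.Lib.SqZero

open Module

variable {F : Type*} [Field F] {V : Type*} [AddCommGroup V] [Module F V]

/-- A basis `c_i, N c_i, d_j` with `N (N c_i) = 0`, `N d_j = 0`. -/
theorem exists_sqzero_basis [FiniteDimensional F V] (N : V →ₗ[F] V) (hN : ∀ v, N (N v) = 0) :
    ∃ (r s : ℕ) (e : Basis (Fin r ⊕ (Fin r ⊕ Fin s)) F V),
      (∀ i, N (e (Sum.inl i)) = e (Sum.inr (Sum.inl i))) ∧ (∀ j, N (e (Sum.inr (Sum.inr j))) = 0) := by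
  classical
  set K := LinearMap.ker N with hK
  obtain ⟨C, hC⟩ := Submodule.exists_isCompl K
  let R' : Submodule F K := (LinearMap.range N).comap K.subtype
  obtain ⟨D, hD⟩ := Submodule.exists_isCompl R'
  have hNK : ∀ v, N v ∈ K := fun v => by rw [hK, LinearMap.mem_ker, hN]
  let ψ₀ : C →ₗ[F] K := LinearMap.codRestrict K (N.comp C.subtype) (fun c => hNK _)
  let ψ₁ : C →ₗ[F] R' := LinearMap.codRestrict R' ψ₀ (fun c => by
    show N c ∈ LinearMap.range N
    exact ⟨_, rfl⟩)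
  have hψ₁ : ∀ c : C, ((ψ₁ c : K) : V) = N c := fun c => rfl
  have hinj : Function.Injective ψ₁ := by
    rw [← LinearMap.ker_eq_bot, LinearMap.ker_eq_bot']
    intro c hc
    have h0 : N c = 0 := by
      rw [← hψ₁, hc]; rfl
    have hmem : (c : V) ∈ K ⊓ C := ⟨h0, c.2⟩
    rw [hC.inf_eq_bot, Submodule.mem_bot] at hmem
    exact Subtype.ext hmem
  have hsurj : Function.Surjective ψ₁ := by
    rintro ⟨⟨r, hr⟩, hr'⟩
    obtain ⟨v, hv⟩ : r ∈ LinearMap.range N := hr'
    have hvtop : v ∈ K ⊔ C := by rw [hC.sup_eq_top]; trivial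
    obtain ⟨k, hk, c, hc, rfl⟩ := Submodule.mem_sup.mp hvtop
    refine ⟨⟨c, hc⟩, ?_⟩
    apply Subtype.ext
    apply Subtype.ext
    rw [hψ₁]
    show N c = r
    rw [← hv, map_add, (LinearMap.mem_ker.mp hk), zero_add]
  let ψ : C ≃ₗ[F] R' := LinearEquiv.ofBijective ψ₁ ⟨hinj, hsurj⟩
  let b₀ := Module.finBasis F C
  let d := Module.finBasis F D
  let eK : Basis (Fin (finrank F C) ⊕ Fin (finrank F D)) F K :=
    ((b₀.map ψ).prod d).map (Submodule.prodEquivOfIsCompl R' D hD)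
  let e : Basis (Fin (finrank F C) ⊕ (Fin (finrank F C) ⊕ Fin (finrank F D))) F V :=
    (b₀.prod eK).map ((LinearEquiv.prodComm F C K).trans (Submodule.prodEquivOfIsCompl K C hC))
  have e1 : ∀ i, e (Sum.inl i) = (b₀ i : V) := by
    intro i
    simp [e, Basis.prod_apply]
  have e2 : ∀ i, e (Sum.inr (Sum.inl i)) = N (b₀ i : V) := by
    intro i
    simp [e, eK, Basis.prod_apply, ψ]
    rfl
  have e3 : ∀ j, e (Sum.inr (Sum.inr j)) = ((d j : K) : V) := by
    intro j
    simp [e, eK, Basis.prod_apply]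
  refine ⟨_, _, e, ?_, ?_⟩
  · intro i
    rw [e1, e2]
  · intro j
    rw [e3]
    exact (d j : K).2

end Cfsg.Agent.Lib.SqZero
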