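/-
The group presented by Steinberg's relators (R1), (R2) is perfect as soon as its chain tables
give, for every root, a suitable commutator: a generic reduction to a finite check of the tables.
-/
import Cfsg.Prelude.Def_SteinbergCover

set_option autoImplicit false

namespace Cfsg.Agent.Lib.StCoverPerfect

open Cfsg.Lie Cfsg.Lie.ChevalleyDatum
open scoped commutatorElement

variable (D : ChevalleyDatum) (K : Type*) [Field K]

theorem x_of_not_lt {r : ℕ} (hr : ¬ r < D.nroots) (a : K) : D.scGen K r a = 1 := by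
  unfold scGen stX
  rw [dif_neg hr, map_one]

theorem x_add (r : ℕ) (a b : K) :
    D.scGen K r a * D.scGen K r b = D.scGen K r (a + b) := by
  by_cases hr : r < D.nroots
  · have h : D.stX r a * D.stX r b * (D.stX r (a + b))⁻¹ ∈ D.steinbergRelsAB K :=
      Or.inl ⟨r, a, b, hr, rfl⟩
    have h2 := PresentedGroup.one_of_mem h
    rw [map_mul, map_mul, map_inv, mul_inv_eq_one] at h2
    exact h2
  · simp [x_of_not_lt D K hr]

theorem x_zero (r : ℕ) : D.scGen K r (0 : K) = 1 := by
  have h := x_add D K r (0 : K) 0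
  rw [add_zero] at h
  exact mul_eq_left.1 h

theorem x_neg (r : ℕ) (a : K) : D.scGen K r (-a) = (D.scGen K r a)⁻¹ := by
  apply eq_inv_of_mul_eq_one_left
  rw [x_add D K r, neg_add_cancel, x_zero D K r]

/-- The image of a word in root elements. -/
def scWord (w : List (ℕ × K)) : D.SteinbergCover K := (w.map fun p => D.scGen K p.1 p.2).prod

theorem mk_stWord (w : List (ℕ × K)) :
    PresentedGroup.mk (D.steinbergRelsAB K) (D.stWord w) = scWord D K w := by
  unfold stWord scWord
  rw [map_list_prod, List.map_map]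
  rfl

theorem comm_rel {r s : ℕ} (hr : r < D.nroots) (hs : s < D.nroots) (hsr : s ≠ r)
    (hsn : s ≠ D.neg r) (t u : K) :
    (D.scGen K s u)⁻¹ * (D.scGen K r t)⁻¹ * D.scGen K s u * D.scGen K r t =
      scWord D K (D.commWord K r s t u) := by
  have h : (D.stX s u)⁻¹ * (D.stX r t)⁻¹ * D.stX s u * D.stX r t *
      (D.stWord (D.commWord K r s t u))⁻¹ ∈ D.steinbergRelsAB K :=
    Or.inr ⟨r, s, t, u, hr, hs, hsr, hsn, rfl⟩
  have h2 := PresentedGroup.one_of_mem h
  rw [map_mul, map_inv, mul_inv_eq_one, mk_stWord] at h2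
  rw [← h2]
  simp only [map_mul, map_inv]
  rfl

/-- The derived subgroup. -/
abbrev C : Subgroup (D.SteinbergCover K) := commutator (D.SteinbergCover K)

theorem word_mem {r s : ℕ} (hr : r < D.nroots) (hs : s < D.nroots) (hsr : s ≠ r)
    (hsn : s ≠ D.neg r) (t u : K) : scWord D K (D.commWord K r s t u) ∈ C D K := by
  rw [← comm_rel D K hr hs hsr hsn]
  have h : ⁅(D.scGen K s u)⁻¹, (D.scGen K r t)⁻¹⁆ ∈ commutator (D.SteinbergCover K) := by
    rw [commutator_def]
    exact Subgroup.commutator_mem_commutator (Subgroup.mem_top _) (Subgroup.mem_top _)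
  rw [commutatorElement_def, inv_inv, inv_inv] at h
  exact h

theorem commWord_eq (r s : ℕ) (t u : K) :
    D.commWord K r s t u =
      (D.commTerms r s).map fun c => (c.1, (c.2.1 : K) * (-t) ^ c.2.2.1 * u ^ c.2.2.2) := rfl

/-- The first criterion: a commutator of shape `x_k(±tu)`. -/
def okSingle (k r s : ℕ) : Bool :=
  decide (r < D.nroots) && decide (s < D.nroots) && decide (s ≠ r) && decide (s ≠ D.neg r) &&
    (decide (D.commTerms r s = [(k, 1, 1, 1)]) || decide (D.commTerms r s = [(k, -1, 1, 1)]))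

theorem of_okSingle {k r s : ℕ} (h : okSingle D k r s = true) (v : K) : D.scGen K k v ∈ C D K := by
  simp only [okSingle, Bool.and_eq_true, decide_eq_true_eq, Bool.or_eq_true] at h
  obtain ⟨⟨⟨⟨hr, hs⟩, hsr⟩, hsn⟩, h⟩ := h
  rcases h with h | h
  · have := word_mem D K hr hs hsr hsn (-1) v
    rw [commWord_eq, h] at this
    simpa [scWord] using this
  · have := word_mem D K hr hs hsr hsn (1) v
    rw [commWord_eq, h] at this
    simpa [scWord] using this

/-- The shape of the second criterion. -/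
def okPairList (done : List ℕ) : List (ℕ × ℤ × ℕ × ℕ) → Bool
  | (_, c1, 1, 1) :: (_, c2, 2, 1) :: rest =>
      (decide (c1 = 1) || decide (c1 = -1)) && (decide (c2 = 1) || decide (c2 = -1)) &&
        rest.all fun e => decide (e.1 ∈ done)
  | _ => false

theorem okPairList_spec {done : List ℕ} {T : List (ℕ × ℤ × ℕ × ℕ)} (h : okPairList done T = true) :
    ∃ (k1 : ℕ) (c1 : ℤ) (k2 : ℕ) (c2 : ℤ) (rest : List (ℕ × ℤ × ℕ × ℕ)),
      T = (k1, c1, 1, 1) :: (k2, c2, 2, 1) :: rest ∧ (c1 = 1 ∨ c1 = -1) ∧ (c2 = 1 ∨ c2 = -1) ∧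
        ∀ e ∈ rest, e.1 ∈ done := by
  match T, h with
  | (k1, c1, 1, 1) :: (k2, c2, 2, 1) :: rest, h =>
    simp only [okPairList, Bool.and_eq_true, Bool.or_eq_true, decide_eq_true_eq,
      List.all_eq_true] at h
    exact ⟨k1, c1, k2, c2, rest, rfl, h.1.1, h.1.2, h.2⟩

/-- The second criterion: a commutator of shape `x_k(±tu) x_l(±t²u)` modulo known roots. -/
def okPair (done : List ℕ) (r s : ℕ) : Bool :=
  decide (r < D.nroots) && decide (s < D.nroots) && decide (s ≠ r) && decide (s ≠ D.neg r) &&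
    okPairList done (D.commTerms r s)

/-- The roots appearing first in the commutator. -/
def firstTwo (r s : ℕ) : List ℕ := ((D.commTerms r s).take 2).map Prod.fst

theorem prod_mem_of_forall (w : List (ℕ × K)) (h : ∀ e ∈ w, D.scGen K e.1 e.2 ∈ C D K) :
    scWord D K w ∈ C D K := by
  unfold scWord
  apply Subgroup.list_prod_mem
  intro x hx
  obtain ⟨e, he, rfl⟩ := List.mem_map.1 hx
  exact h e he

theorem two_term {G : Type*} [Group G] (N : Subgroup G) {a b c : G}
    (h1 : a * b ∈ N) (h2 : a * c ∈ N) : b⁻¹ * c ∈ N := by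
  have : b⁻¹ * c = (a * b)⁻¹ * (a * c) := by group
  rw [this]
  exact mul_mem (inv_mem h1) h2

theorem of_okPair {done : List ℕ} (hdone : ∀ k ∈ done, ∀ v : K, D.scGen K k v ∈ C D K)
    {r s : ℕ} (h : okPair D done r s = true) (x0 : K) (hx0 : x0 ≠ 0) (hx1 : x0 ≠ 1) :
    ∀ k ∈ firstTwo D r s, ∀ v : K, D.scGen K k v ∈ C D K := by
  simp only [okPair, Bool.and_eq_true, decide_eq_true_eq] at h
  obtain ⟨⟨⟨⟨hr, hs⟩, hsr⟩, hsn⟩, h⟩ := h
  obtain ⟨k1, c1, k2, c2, rest, hT, hc1, hc2, hrest⟩ := okPairList_spec h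
  -- the main relation
  have main : ∀ t u : K,
      D.scGen K k1 ((c1 : K) * (-t) ^ 1 * u ^ 1) * D.scGen K k2 ((c2 : K) * (-t) ^ 2 * u ^ 1) ∈
        C D K := by
    intro t u
    have h1 := word_mem D K hr hs hsr hsn t u
    rw [commWord_eq, hT] at h1
    simp only [List.map_cons, scWord, List.prod_cons] at h1
    rw [← mul_assoc] at h1
    refine (Subgroup.mul_mem_cancel_right _ ?_).1 h1
    have := prod_mem_of_forall D K (rest.map fun c => (c.1, (c.2.1 : K) * (-t) ^ c.2.2.1 * u ^ c.2.2.2)) ?_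
    · exact this
    · intro e he
      obtain ⟨c, hc, rfl⟩ := List.mem_map.1 he
      exact hdone _ (hrest c hc) _
  have hs1 : x0 - 1 ≠ 0 := sub_ne_zero.2 hx1
  have hc2u : ((c2 : K)) * (c2 : K) = 1 := by
    rcases hc2 with rfl | rfl <;> simp
  have hc1u : ((c1 : K)) * (c1 : K) = 1 := by
    rcases hc1 with rfl | rfl <;> simp
  -- the root k2
  have h2 : ∀ v : K, D.scGen K k2 v ∈ C D K := by
    intro v
    let w : K := c2 * (x0 - 1)⁻¹ * v
    have a1 := main 1 w
    have a2 := main x0 (x0⁻¹ * w)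
    have e1 : (c1 : K) * (-x0) ^ 1 * (x0⁻¹ * w) ^ 1 = (c1 : K) * (-1) ^ 1 * w ^ 1 := by
      field_simp
    rw [e1] at a2
    have a3 := two_term (C D K) a1 a2
    rw [← x_neg, x_add] at a3
    have e2 : -((c2 : K) * (-1) ^ 2 * w ^ 1) + (c2 : K) * (-x0) ^ 2 * (x0⁻¹ * w) ^ 1 = v := by
      have : -((c2 : K) * (-1) ^ 2 * w ^ 1) + (c2 : K) * (-x0) ^ 2 * (x0⁻¹ * w) ^ 1
          = (c2 : K) * (x0 - 1) * w := by
        field_simp
        ring
      rw [this]
      change (c2 : K) * (x0 - 1) * (c2 * (x0 - 1)⁻¹ * v) = v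
      calc (c2 : K) * (x0 - 1) * (c2 * (x0 - 1)⁻¹ * v)
          = ((c2 : K) * c2) * ((x0 - 1) * (x0 - 1)⁻¹) * v := by ring
        _ = v := by rw [hc2u, mul_inv_cancel₀ hs1]; ring
    rwa [e2] at a3
  -- the root k1
  have h1 : ∀ v : K, D.scGen K k1 v ∈ C D K := by
    intro v
    have a1 := main 1 (-(c1 : K) * v)
    have a2 := (Subgroup.mul_mem_cancel_right _ (h2 _)).1 a1
    have e : (c1 : K) * (-1) ^ 1 * (-(c1 : K) * v) ^ 1 = v := by
      calc (c1 : K) * (-1) ^ 1 * (-(c1 : K) * v) ^ 1 = ((c1 : K) * c1) * v := by ring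
        _ = v := by rw [hc1u, one_mul]
    rwa [e] at a2
  intro k hk
  unfold firstTwo at hk
  rw [hT] at hk
  simp only [List.take_succ_cons, List.take_zero, List.map_cons, List.map_nil, List.mem_cons,
    List.not_mem_nil, or_false] at hk
  rcases hk with rfl | rfl
  · exact h1
  · exact h2

theorem top_of_forall (h : ∀ k, k < D.nroots → ∀ v : K, D.scGen K k v ∈ C D K) :
    commutator (D.SteinbergCover K) = ⊤ := by
  rw [eq_top_iff, ← PresentedGroup.closure_range_of, Subgroup.closure_le]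
  rintro _ ⟨⟨⟨k, hk⟩, t⟩, rfl⟩
  have := h k hk t
  unfold scGen stX at this
  rw [dif_pos hk] at this
  exact this

/-- The whole check of the tables. -/
def check (wit : List (ℕ × ℕ × ℕ)) (pairs : List (ℕ × ℕ)) : Bool :=
  wit.all (fun p => okSingle D p.1 p.2.1 p.2.2) &&
    pairs.all (fun p => okPair D (wit.map Prod.fst) p.1 p.2) &&
    (List.range D.nroots).all fun k => decide (k ∈ wit.map Prod.fst) ||
      decide (k ∈ pairs.flatMap fun p => firstTwo D p.1 p.2)

theorem perfect_of_check {wit : List (ℕ × ℕ × ℕ)} {pairs : List (ℕ × ℕ)}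
    (h : check D wit pairs = true) (hK : pairs ≠ [] → ∃ x : K, x ≠ 0 ∧ x ≠ 1) :
    commutator (D.SteinbergCover K) = ⊤ := by
  simp only [check, Bool.and_eq_true, List.all_eq_true, Bool.or_eq_true, decide_eq_true_eq,
    List.mem_range] at h
  obtain ⟨⟨h1, h2⟩, h3⟩ := h
  have hdone : ∀ k ∈ wit.map Prod.fst, ∀ v : K, D.scGen K k v ∈ C D K := by
    intro k hk v
    obtain ⟨p, hp, rfl⟩ := List.mem_map.1 hk
    exact of_okSingle D K (h1 p hp) v
  apply top_of_forall
  intro k hk v
  rcases h3 k hk with h | h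
  · exact hdone k h v
  · obtain ⟨p, hp, hkp⟩ := List.mem_flatMap.1 h
    have hne : pairs ≠ [] := List.ne_nil_of_mem hp
    obtain ⟨x, hx0, hx1⟩ := hK hne
    exact of_okPair D K hdone (h2 p hp) x hx0 hx1 k hkp v

end Cfsg.Agent.Lib.StCoverPerfect
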