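import Cfsg.Agent.Lib.StModel32

/-!
# The minuscule module of dimension 27 of the Steinberg group of type E6: tables
-/

set_option autoImplicit false
set_option linter.unusedSectionVars false
set_option linter.unusedVariables false
set_option linter.unusedSimpArgs false

namespace Cfsg.Agent.Lib.StE632

noncomputable section

open Cfsg.Lie Matrix Cfsg.Agent.Lib.Chev Cfsg.Agent.Lib.StModel32

/-- The table of the operators: six bits for each root and each basis vector; zero means zero, `2 i + 1` means `e i` and
`2 i + 2` means `- e i`. -/
def BIG : ℕ := 387952155762030623433058884557448122516659496085775110623828733913741363271743558647819531871641773938785255268195779378109749528575020013345592546914094786323804235656780716292326420909722825560167680171441913300900917720877706081733577812367717640357950865147872328848530125902633534268141055283297217073892664492951053342179094259443619537663120172381366672994810694238437208955806427274019759854980310814144473087087116256424736974462122135957883279138242806590041445960638375625421565730490140526160873042559174613926436742579400889154572637322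861659170360438480825025229055586975731717334573538887324794014944054561812676015088067640136784496909696535817795935239975211532798037175620232373112635757881627465391623811562856993849768067364413069884287004381191620142268933105731322673375564663731401770941020052373251076351459897028293303485227588291023099948532975165171890819792661372270855082120665213383518646852399476418524934219612271008670032201489067174127172261299979766965913811395440276538801218905325835785305911042032036426255380032784402734602328580057137443374874648899864785079469166390698548286290691510064803600338405422159883291238984705789552062248165768092700490747563394492807920083923175053642566616558572960335876589642352156262651908413045084418410923517582587350269753330394147503013212366038994232774762160591266118819918332840229402045233781102525135639124746689827960958801461587651974707888893924219626657188016705076557054725361401848796098339616537847183180753792825854142070436063497165671268538023393719675918747659380043973932763706185788629832994738332258916158252042830908699748596228301074997636092056889960493735040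223807732230251853351544048452665627597402877000724105974677694595854754607031396886838850133506705348226756617089341027916699982960811078674014604094775082693634671540235544871422007649872077623978916299334085674291295144638467297131042313377325918691618341303168584494966048758049694198468303779050346973881133245549028283948656752244815039932402345526266009669394073715364147909458695825167908742763738869373689144702863067769837902276430930482920894991508301288911990135976001730041516822233995725528727423380716990927136524910003456882778213756245072637416116334200443172497699354094565621668529597859475563743882409160501303465935850771468556817035355606184935555109604067824444018484511970208760217547020591960019951478807150874744669677519010131888722747551748000364475815076313716224927227084323842896187701410945932928703026776963837767140648688037542584543373078679146836138946809856548051159055013217327716802299993263291272835505609038495764194259859201520115734371999363268284483893645453144164850247902174565017370473073707724446210548559973764646089810807343810527694387116362205798349001493620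3696273630147573481860720618572874676072640358361941314030958238625147008767601384054686359795800924474447521567157447407263265896838222396484139842739612337334651220556272839690596710543218587663611337696967680784793095650418059708042192928644368950415320479448079141302581683046391610532950500614760329814546703270459212689817332378549594618346848426550606526303346589739325887356935694443075508980020347676462839297751357700048993632458581188771326161913304521315898489294099438489914747524491703096836890735292292588135392709267070413409521835592433672140669239149965260841056524911855270455221840222271961539812725302724560572642958915605985802400551082834365340563137620394578809091069880964386633726797744384731546535901489456417798889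

/-- The table of the weights: two bits for a simple root and a basis vector, the value of the coroot plus one. -/
def AA : ℕ := 4983967611597845089453505930273850486307715047413882662201553082811148736935235801751533446845778

def tbl (r j : ℕ) : ℕ := Nat.land (Nat.shiftRight BIG (Nat.mul 6 (Nat.add (Nat.mul 27 r) j))) 63

def acode (i j : ℕ) : ℕ := Nat.land (Nat.shiftRight AA (Nat.mul 2 (Nat.add (Nat.mul 27 i) j))) 3

/-- Changing the sign of a code. -/
def flp (c : ℕ) : ℕ := bif Nat.beq c 0 then 0 else bif Nat.beq (Nat.mod c 2) 1 then Nat.add c 1 else Nat.sub c 1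

/-- The action of an operator on codes. -/
def ap (r c : ℕ) : ℕ :=
  bif Nat.beq c 0 then 0 else
  bif Nat.beq (Nat.mod c 2) 1 then tbl r (Nat.div (Nat.sub c 1) 2) else flp (tbl r (Nat.div (Nat.sub c 1) 2))

/-- The vector with a code. -/
def vec (c : ℕ) : Fin 27 → ℤ := fun i =>
  if c = 0 then 0 else if (c - 1) / 2 = (i : ℕ) then (if c % 2 = 1 then 1 else -1) else 0

/-- The matrices. -/
def Em (r : ℕ) : Matrix (Fin 27) (Fin 27) ℤ := fun i j => vec (tbl r j) i

theorem vec_zero : vec 0 = 0 := by
  funext i
  simp [vec]

theorem vec_odd {c : ℕ} (h : c % 2 = 1) (hc : c ≤ 54) :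
    vec c = Pi.single (⟨(c - 1) / 2, by omega⟩ : Fin 27) 1 := by
  funext i
  have h0 : c ≠ 0 := by omega
  unfold vec
  rw [if_neg h0, if_pos h]
  by_cases h1 : (c - 1) / 2 = (i : ℕ)
  · rw [if_pos h1]
    have : (⟨(c - 1) / 2, by omega⟩ : Fin 27) = i := Fin.ext h1
    rw [this, Pi.single_eq_same]
  · rw [if_neg h1, Pi.single_eq_of_ne]
    intro h2
    exact h1 (congrArg Fin.val h2).symm

theorem vec_even {c : ℕ} (h0 : c ≠ 0) (h : c % 2 ≠ 1) (hc : c ≤ 54) :
    vec c = - Pi.single (⟨(c - 1) / 2, by omega⟩ : Fin 27) 1 := by
  funext i
  unfold vec
  rw [if_neg h0, if_neg h, Pi.neg_apply]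
  by_cases h1 : (c - 1) / 2 = (i : ℕ)
  · rw [if_pos h1]
    have : (⟨(c - 1) / 2, by omega⟩ : Fin 27) = i := Fin.ext h1
    rw [this, Pi.single_eq_same]
  · rw [if_neg h1, Pi.single_eq_of_ne, neg_zero]
    intro h2
    exact h1 (congrArg Fin.val h2).symm

theorem nb_t {a b : ℕ} (h : a = b) : Nat.beq a b = true := by
  subst h
  exact Nat.beq_refl a

theorem nb_f {a b : ℕ} (h : a ≠ b) : Nat.beq a b = false := by
  cases hh : Nat.beq a b with
  | false => rfl
  | true => exact absurd (Nat.eq_of_beq_eq_true hh) h

theorem flp_eq (c : ℕ) : flp c = if c = 0 then 0 else if c % 2 = 1 then c + 1 else c - 1 := by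
  unfold flp
  by_cases h0 : c = 0
  · subst h0
    rfl
  · rw [nb_f h0, if_neg h0]
    by_cases h2 : c % 2 = 1
    · rw [if_pos h2, cond_false, show Nat.beq (Nat.mod c 2) 1 = true from nb_t h2]
      rfl
    · rw [if_neg h2, cond_false, show Nat.beq (Nat.mod c 2) 1 = false from nb_f h2]
      rfl

theorem vec_flp {c : ℕ} (hc : c ≤ 54) : vec (flp c) = - vec c := by
  rw [flp_eq]
  by_cases h0 : c = 0
  · subst h0
    simp [vec_zero]
  · rw [if_neg h0]
    by_cases h1 : c % 2 = 1
    · rw [if_pos h1, vec_even (c := c + 1) (by omega) (by omega) (by omega), vec_odd h1 hc]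
      congr 2
      apply Fin.ext
      show (c + 1 - 1) / 2 = (c - 1) / 2
      omega
    · rw [if_neg h1, vec_odd (c := c - 1) (by omega) (by omega), vec_even h0 h1 hc, neg_neg]
      congr 1
      apply Fin.ext
      show (c - 1 - 1) / 2 = (c - 1) / 2
      omega

theorem ap_eq (r c : ℕ) : ap r c = if c = 0 then 0 else if c % 2 = 1 then tbl r ((c - 1) / 2) else flp (tbl r ((c - 1) / 2)) := by
  unfold ap
  by_cases h0 : c = 0
  · subst h0
    rfl
  · rw [nb_f h0, if_neg h0]
    by_cases h2 : c % 2 = 1
    · rw [if_pos h2, cond_false, show Nat.beq (Nat.mod c 2) 1 = true from nb_t h2]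
      rfl
    · rw [if_neg h2, cond_false, show Nat.beq (Nat.mod c 2) 1 = false from nb_f h2]
      rfl

/-- The bounds of the table. -/
theorem tbl_le : allBelow (fun r => allBelow (fun j => Nat.ble (tbl r j) 54) 27) 72 = true := by
  decide +kernel

theorem tbl_good {r j : ℕ} (hr : r < 72) (hj : j < 27) : tbl r j ≤ 54 :=
  Nat.le_of_ble_eq_true (allBelow_spec _ _ (allBelow_spec _ _ tbl_le r hr) j hj)

theorem flp_good {c : ℕ} (hc : c ≤ 54) : flp c ≤ 54 := by
  rw [flp_eq]
  split_ifs <;> omega

theorem ap_good {r c : ℕ} (hr : r < 72) (hc : c ≤ 54) : ap r c ≤ 54 := by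
  rw [ap_eq]
  by_cases h0 : c = 0
  · rw [if_pos h0]
    omega
  · rw [if_neg h0]
    split_ifs
    · exact tbl_good hr (by omega)
    · exact flp_good (tbl_good hr (by omega))

theorem Em_single (r : ℕ) (j : Fin 27) : Em r *ᵥ Pi.single j 1 = vec (tbl r j) := by
  rw [Matrix.mulVec_single_one]
  rfl

theorem Em_vec {r c : ℕ} (hr : r < 72) (hc : c ≤ 54) : Em r *ᵥ vec c = vec (ap r c) := by
  rw [ap_eq]
  by_cases h0 : c = 0
  · subst h0
    rw [if_pos rfl, vec_zero, Matrix.mulVec_zero]
  · rw [if_neg h0]
    by_cases h1 : c % 2 = 1
    · rw [if_pos h1, vec_odd h1 hc, Em_single]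
    · rw [if_neg h1, vec_even h0 h1 hc, Matrix.mulVec_neg, Em_single, vec_flp (tbl_good hr (by omega))]

theorem mat_ext {A B : Matrix (Fin 27) (Fin 27) ℤ} (h : ∀ j : Fin 27, A *ᵥ Pi.single j 1 = B *ᵥ Pi.single j 1) : A = B := by
  ext i j
  have := congrFun (h j) i
  simpa [Matrix.mulVec_single_one] using this

/-- Two operators applied to a column. -/
theorem mul2_col {r s : ℕ} (hr : r < 72) (hs : s < 72) (j : Fin 27) :
    (Em r * Em s) *ᵥ Pi.single j 1 = vec (ap r (tbl s j)) := by
  rw [← Matrix.mulVec_mulVec, Em_single, Em_vec hr (tbl_good hs j.2)]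

/-- Three operators applied to a column. -/
theorem mul3_col {r s u : ℕ} (hr : r < 72) (hs : s < 72) (hu : u < 72) (j : Fin 27) :
    (Em r * Em s * Em u) *ᵥ Pi.single j 1 = vec (ap r (ap s (tbl u j))) := by
  rw [← Matrix.mulVec_mulVec, Em_single, ← Matrix.mulVec_mulVec, Em_vec hs (tbl_good hu j.2),
    Em_vec hr (ap_good hs (tbl_good hu j.2))]

/-- The sign check of a commutator. -/
def okC (M : ℤ) (a b c : ℕ) : Bool :=
  let d := bif decide (M = 1) then c else flp c
  (decide (M = 1) || decide (M = -1)) && ((Nat.beq b 0 && Nat.beq a d) || (Nat.beq a 0 && Nat.beq b (flp d)))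

theorem okC_spec {M : ℤ} {a b c : ℕ} (h : okC M a b c = true) (hc : c ≤ 54) : vec a - vec b = M • vec c := by
  unfold okC at h
  simp only [Bool.and_eq_true, Bool.or_eq_true, decide_eq_true_eq] at h
  obtain ⟨h1, h2⟩ := h
  set d := bif decide (M = 1) then c else flp c with hd
  have hdv : vec d = M • vec c ∧ d ≤ 54 := by
    rcases h1 with h1 | h1
    · subst h1
      have : d = c := by
        rw [hd]
        rfl
      rw [this]
      exact ⟨by simp, hc⟩
    · subst h1
      have : d = flp c := by
        rw [hd]
        rfl
      rw [this, vec_flp hc]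
      exact ⟨by simp, flp_good hc⟩
  rw [← hdv.1]
  rcases h2 with ⟨h3, h4⟩ | ⟨h3, h4⟩
  · rw [Nat.eq_of_beq_eq_true h3, Nat.eq_of_beq_eq_true h4, vec_zero, sub_zero]
  · rw [Nat.eq_of_beq_eq_true h3, Nat.eq_of_beq_eq_true h4, vec_zero, vec_flp hdv.2, zero_sub, neg_neg]

/-- The expected form of the terms of the commutator formula. -/
def cmExp (r s : ℕ) : List (ℕ × ℤ × ℕ × ℕ) :=
  match chevE6.chainRoot r s 1 with
  | none => []
  | some k => [(k, chevE6.chainM r s 1, 1, 1)]

def chkA (r : ℕ) : Bool :=
  Nat.blt (chevE6.neg r) 72 && allBelow (fun j => Nat.beq (ap r (tbl r j)) 0 &&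
    Nat.beq (ap r (ap (chevE6.neg r) (tbl r j))) (tbl r j) &&
    Nat.beq (ap (chevE6.neg r) (ap r (tbl (chevE6.neg r) j))) (tbl (chevE6.neg r) j)) 27

def chkC (r s : ℕ) : Bool :=
  decide (chevE6.commTerms r s = cmExp r s) &&
  match chevE6.chainRoot r s 1 with
  | none => allBelow (fun j => Nat.beq (ap r (tbl s j)) (ap s (tbl r j))) 27
  | some k => Nat.blt k 72 && allBelow (fun j => okC (chevE6.chainM r s 1) (ap r (tbl s j)) (ap s (tbl r j)) (tbl k j)) 27

def chkB (r s : ℕ) : Bool :=
  Nat.beq s r || Nat.beq s (chevE6.neg r) ||
    (allBelow (fun j => Nat.beq (ap r (ap s (tbl r j))) 0 && Nat.beq (ap s (ap r (tbl s j))) 0) 27 && chkC r s)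

theorem chkA_ok : allBelow chkA 72 = true := by
  decide +kernel

theorem chkB_ok : allBelow (fun r => allBelow (fun s => chkB r s) 72) 72 = true := by
  decide +kernel

theorem nroots_eq : chevE6.nroots = 72 := rfl

theorem chkA_spec {r : ℕ} (hr : r < 72) : chevE6.neg r < 72 ∧ ∀ j : Fin 27, ap r (tbl r j) = 0 ∧
    ap r (ap (chevE6.neg r) (tbl r j)) = tbl r j ∧
    ap (chevE6.neg r) (ap r (tbl (chevE6.neg r) j)) = tbl (chevE6.neg r) j := by
  have h := allBelow_spec _ _ chkA_ok r hr
  unfold chkA at h
  rw [Bool.and_eq_true] at h
  obtain ⟨h1, h2⟩ := h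
  refine ⟨Nat.le_of_ble_eq_true h1, fun j => ?_⟩
  have h3 := allBelow_spec _ _ h2 j j.2
  simp only [Bool.and_eq_true] at h3
  obtain ⟨⟨a1, a2⟩, a3⟩ := h3
  exact ⟨Nat.eq_of_beq_eq_true a1, Nat.eq_of_beq_eq_true a2, Nat.eq_of_beq_eq_true a3⟩

theorem chkB_spec {r s : ℕ} (hr : r < 72) (hs : s < 72) (h1 : s ≠ r) (h2 : s ≠ chevE6.neg r) :
    (∀ j : Fin 27, ap r (ap s (tbl r j)) = 0 ∧ ap s (ap r (tbl s j)) = 0) ∧ chkC r s = true := by
  have h := allBelow_spec _ _ (allBelow_spec _ _ chkB_ok r hr) s hs
  unfold chkB at h
  rw [nb_f h1, nb_f h2] at h
  simp only [Bool.false_or, Bool.and_eq_true] at h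
  obtain ⟨h3, h4⟩ := h
  refine ⟨fun j => ?_, h4⟩
  have h5 := allBelow_spec _ _ h3 j j.2
  simp only [Bool.and_eq_true] at h5
  exact ⟨Nat.eq_of_beq_eq_true h5.1, Nat.eq_of_beq_eq_true h5.2⟩

/-- **The model of type E6.** -/
theorem modelOK : ModelOK chevE6 Em where
  sq := by
    intro r hr
    have hr' : r < 72 := hr
    apply mat_ext
    intro j
    rw [mul2_col hr' hr', (chkA_spec hr').2 j |>.1, vec_zero, Matrix.zero_mulVec]
  negLt := fun r hr => (chkA_spec hr).1
  sl₁ := by
    intro r hr
    have hr' : r < 72 := hr
    have hn := (chkA_spec hr').1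
    apply mat_ext
    intro j
    rw [mul3_col hr' hn hr', ((chkA_spec hr').2 j).2.1, Em_single]
  sl₂ := by
    intro r hr
    have hr' : r < 72 := hr
    have hn := (chkA_spec hr').1
    apply mat_ext
    intro j
    rw [mul3_col hn hr' hn, ((chkA_spec hr').2 j).2.2, Em_single]
  tri := by
    intro r hr s hs h1 h2
    have hr' : r < 72 := hr
    have hs' : s < 72 := hs
    obtain ⟨h3, -⟩ := chkB_spec hr' hs' h1 h2
    constructor
    · apply mat_ext
      intro j
      rw [mul3_col hr' hs' hr', (h3 j).1, vec_zero, Matrix.zero_mulVec]
    · apply mat_ext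
      intro j
      rw [mul3_col hs' hr' hs', (h3 j).2, vec_zero, Matrix.zero_mulVec]
  comm := by
    intro r hr s hs h1 h2
    have hr' : r < 72 := hr
    have hs' : s < 72 := hs
    obtain ⟨-, h3⟩ := chkB_spec hr' hs' h1 h2
    unfold chkC at h3
    rw [Bool.and_eq_true, decide_eq_true_eq] at h3
    obtain ⟨h4, h5⟩ := h3
    cases hc : chevE6.chainRoot r s 1 with
    | none =>
      left
      rw [hc] at h5
      refine ⟨?_, ?_⟩
      · rw [h4]
        unfold cmExp
        rw [hc]
      · apply mat_ext
        intro j
        rw [mul2_col hr' hs', mul2_col hs' hr', Nat.eq_of_beq_eq_true (allBelow_spec _ _ h5 j j.2)]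
    | some k =>
      right
      rw [hc] at h5
      simp only [Bool.and_eq_true] at h5
      obtain ⟨h6, h7⟩ := h5
      have hk : k < 72 := Nat.le_of_ble_eq_true h6
      refine ⟨k, chevE6.chainM r s 1, ?_, hk, ?_⟩
      · rw [h4]
        unfold cmExp
        rw [hc]
      · apply mat_ext
        intro j
        rw [Matrix.sub_mulVec, mul2_col hr' hs', mul2_col hs' hr', Matrix.smul_mulVec, Em_single]
        exact okC_spec (allBelow_spec _ _ h7 j j.2) (tbl_good hk j.2)

end

end Cfsg.Agent.Lib.StE632
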