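import Cfsg.Agent.Lib.StE632
import Cfsg.Agent.Lib.ChevPresAll

/-!
# The minuscule module of type E6: the action of the torus and of the monomial elements
-/

set_option autoImplicit false
set_option linter.unusedSectionVars false
set_option linter.unusedVariables false
set_option linter.unusedSimpArgs false

namespace Cfsg.Agent.Lib.StE632

open Cfsg.Lie Matrix Cfsg.Agent.Lib.Chev Cfsg.Agent.Lib.StModel32 Cfsg.Agent.Lib.ChevPres

noncomputable section

theorem hFE : Full TabE6.T TabE6.X RootE6T.R chevE6 := ⟨RelE6.checks, RootE6.checks⟩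

theorem hPE : PresOK TabE6.X chevE6 := ⟨negOK_of_check hFE ChevPresNegE6.neg_ok, ChevPresTabE6.w_ok⟩

variable {K : Type*} [Field K]

/-- The vector with a code, over the field. -/
def vK (K : Type*) [Field K] (c : ℕ) : Fin 27 → K := fun i => ((vec c i : ℤ) : K)

theorem vK_zero : vK K 0 = 0 := by
  funext i
  simp [vK, vec_zero]

theorem vK_flp {c : ℕ} (hc : c ≤ 54) : vK K (flp c) = - vK K c := by
  funext i
  simp [vK, vec_flp hc]

theorem RK_vK {r c : ℕ} (hr : r < 72) (hc : c ≤ 54) : RK K Em r *ᵥ vK K c = vK K (ap r c) := by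
  funext i
  have h := RingHom.map_mulVec (Int.castRingHom K) (Em r) (vec c) i
  have h2 := congrFun (Em_vec hr hc) i
  rw [h2] at h
  exact h.symm

/-- The exponent of a simple root on a weight. -/
def wA (i j : ℕ) : ℤ := (acode i j : ℤ) - 1

/-- Consistency of the table of the weights with the operators. -/
def chkH (i j : ℕ) : Bool :=
  let p := chevE6.simple i
  let n := chevE6.neg p
  let c := Nat.add (Nat.mul 2 j) 1
  Nat.blt p 72 && Nat.beq (ap p (tbl n j)) (bif Nat.beq (acode i j) 2 then c else 0) &&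
    Nat.beq (ap n (tbl p j)) (bif Nat.beq (acode i j) 0 then c else 0) &&
    (bif Nat.beq (acode i j) 1 then Nat.beq (tbl p j) 0 && Nat.beq (tbl n j) 0
     else bif Nat.beq (acode i j) 0 then Nat.beq (tbl n j) 0
     else Nat.beq (acode i j) 2 && Nat.beq (tbl p j) 0)

theorem chkH_ok : allBelow (fun i => allBelow (fun j => chkH i j) 27) 6 = true := by
  decide +kernel

/-- The facts on a simple root and a weight. -/
theorem chkH_spec {i j : ℕ} (hi : i < 6) (hj : j < 27) :
    chevE6.simple i < 72 ∧ chevE6.neg (chevE6.simple i) < 72 ∧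
    ((acode i j = 2 ∧ ap (chevE6.simple i) (tbl (chevE6.neg (chevE6.simple i)) j) = 2 * j + 1 ∧
        ap (chevE6.neg (chevE6.simple i)) (tbl (chevE6.simple i) j) = 0 ∧ tbl (chevE6.simple i) j = 0) ∨
     (acode i j = 0 ∧ ap (chevE6.simple i) (tbl (chevE6.neg (chevE6.simple i)) j) = 0 ∧
        ap (chevE6.neg (chevE6.simple i)) (tbl (chevE6.simple i) j) = 2 * j + 1 ∧ tbl (chevE6.neg (chevE6.simple i)) j = 0) ∨
     (acode i j = 1 ∧ ap (chevE6.simple i) (tbl (chevE6.neg (chevE6.simple i)) j) = 0 ∧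
        ap (chevE6.neg (chevE6.simple i)) (tbl (chevE6.simple i) j) = 0 ∧ tbl (chevE6.simple i) j = 0 ∧
        tbl (chevE6.neg (chevE6.simple i)) j = 0)) := by
  have h := allBelow_spec _ _ (allBelow_spec _ _ chkH_ok i hi) j hj
  have hs : chevE6.simple i < 72 := hFE.simple_lt hi
  refine ⟨hs, (chkA_spec hs).1, ?_⟩
  unfold chkH at h
  simp only [Bool.and_eq_true] at h
  obtain ⟨⟨⟨h0, h1⟩, h2⟩, h3⟩ := h
  have e1 := Nat.eq_of_beq_eq_true h1
  have e2 := Nat.eq_of_beq_eq_true h2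
  by_cases a1 : acode i j = 1
  · right; right
    rw [nb_f (by omega : acode i j ≠ 2), cond_false] at e1
    rw [nb_f (by omega : acode i j ≠ 0), cond_false] at e2
    rw [nb_t a1, cond_true, Bool.and_eq_true] at h3
    exact ⟨a1, e1, e2, Nat.eq_of_beq_eq_true h3.1, Nat.eq_of_beq_eq_true h3.2⟩
  · rw [nb_f a1, cond_false] at h3
    by_cases a0 : acode i j = 0
    · right; left
      rw [nb_f (by omega : acode i j ≠ 2), cond_false] at e1
      rw [nb_t a0, cond_true] at e2
      rw [nb_t a0, cond_true] at h3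
      exact ⟨a0, e1, e2, Nat.eq_of_beq_eq_true h3⟩
    · left
      rw [nb_f a0, cond_false, Bool.and_eq_true] at h3
      have a2 := Nat.eq_of_beq_eq_true h3.1
      rw [nb_t a2, cond_true] at e1
      rw [nb_f a0, cond_false] at e2
      exact ⟨a2, e1, e2, Nat.eq_of_beq_eq_true h3.2⟩

theorem ap_odd (r j : ℕ) : ap r (2 * j + 1) = tbl r j := by
  rw [ap_eq, if_neg (by omega), if_pos (by omega)]
  congr 1
  omega

/-- The model. -/
abbrev Tm (K : Type*) [Field K] : chevE6.SteinbergGroup K →* GL (Fin 27) K := Th modelOK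

/-- The action of the elements `h̄`. -/
theorem Th_hb_col {i j : ℕ} (hi : i < 6) (hj : j < 27) (t : Kˣ) :
    ((Tm K (hb chevE6 K (chevE6.simple i) t) : GL (Fin 27) K) : Matrix (Fin 27) (Fin 27) K) *ᵥ vK K (2 * j + 1) =
      ((t ^ wA i j : Kˣ) : K) • vK K (2 * j + 1) := by
  obtain ⟨hs, hn, hc⟩ := chkH_spec hi hj
  have hc0 : 2 * j + 1 ≤ 54 := by omega
  rw [Th_hb_val modelOK hs t.ne_zero]
  simp only [Matrix.add_mulVec, Matrix.sub_mulVec, Matrix.smul_mulVec, Matrix.one_mulVec, ← Matrix.mulVec_mulVec]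
  rw [RK_vK hs hc0, RK_vK hn hc0, ap_odd, ap_odd, RK_vK hs (tbl_good hn hj), RK_vK hn (tbl_good hs hj)]
  rcases hc with ⟨a, e1, e2, -⟩ | ⟨a, e1, e2, -⟩ | ⟨a, e1, e2, -⟩
  · have : wA i j = 1 := by
      unfold wA
      rw [a]
      norm_num
    rw [e1, e2, this, zpow_one, vK_zero]
    simp
  · have : wA i j = -1 := by
      unfold wA
      rw [a]
      norm_num
    rw [e1, e2, this, _root_.zpow_neg_one, vK_zero, Units.val_inv_eq_inv_val]
    simp
  · have : wA i j = 0 := by
      unfold wA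
      rw [a]
      norm_num
    rw [e1, e2, this, zpow_zero, vK_zero]
    simp

/-- The value of a torus element on a weight. -/
def Dc (c : Fin chevE6.rank → Kˣ) (j : ℕ) : Kˣ := ∏ i : Fin chevE6.rank, c i ^ wA i j

theorem Dc_one (j : ℕ) : Dc (1 : Fin chevE6.rank → Kˣ) j = 1 := by
  unfold Dc
  simp

theorem Dc_mul (c d : Fin chevE6.rank → Kˣ) (j : ℕ) : Dc (c * d) j = Dc c j * Dc d j := by
  unfold Dc
  rw [← Finset.prod_mul_distrib]
  apply Finset.prod_congr rfl
  intro i _
  rw [Pi.mul_apply, mul_zpow]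

theorem Dc_pow (c : Fin chevE6.rank → Kˣ) (k : ℕ) (j : ℕ) : Dc (c ^ k) j = Dc c j ^ k := by
  unfold Dc
  rw [← Finset.prod_pow]
  apply Finset.prod_congr rfl
  intro i _
  rw [Pi.pow_apply, ← zpow_natCast, ← zpow_natCast, ← _root_.zpow_mul, ← _root_.zpow_mul, mul_comm]

theorem Dc_single (i : Fin chevE6.rank) (t : Kˣ) (j : ℕ) : Dc (Pi.mulSingle i t) j = t ^ wA i j := by
  classical
  unfold Dc
  rw [Finset.prod_eq_single i]
  · rw [Pi.mulSingle_eq_same]
  · intro k _ hk
    rw [Pi.mulSingle_eq_of_ne hk, _root_.one_zpow]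
  · simp

/-- The action of the torus of the presented group on the module. -/
theorem Th_hbHom_col (c : Fin chevE6.rank → Kˣ) {j : ℕ} (hj : j < 27) :
    ((Tm K (hbHom hFE hPE c) : GL (Fin 27) K) : Matrix (Fin 27) (Fin 27) K) *ᵥ vK K (2 * j + 1) =
      ((Dc c j : Kˣ) : K) • vK K (2 * j + 1) := by
  classical
  let S : Submonoid (Fin chevE6.rank → Kˣ) :=
    { carrier := {d | ((Tm K (hbHom hFE hPE d) : GL (Fin 27) K) : Matrix (Fin 27) (Fin 27) K) *ᵥ vK K (2 * j + 1) =
        ((Dc d j : Kˣ) : K) • vK K (2 * j + 1)}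
      one_mem' := by
        show _ = _
        rw [map_one, map_one, Dc_one]
        simp
      mul_mem' := by
        intro a b ha hb
        show _ = _
        have ha' : _ = _ := ha
        have hb' : _ = _ := hb
        rw [map_mul, map_mul, Units.val_mul, ← Matrix.mulVec_mulVec, hb', Matrix.mulVec_smul, ha', Dc_mul, Units.val_mul,
          smul_smul, mul_comm] }
  have h1 : c ∈ S := by
    rw [← Finset.univ_prod_mulSingle c]
    apply Submonoid.prod_mem
    intro i _
    show _ = _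
    rw [hbHom_mulSingle, Dc_single]
    exact Th_hb_col i.2 hj (c i)
  exact h1

theorem vK_odd {j : ℕ} (hj : j < 27) : vK K (2 * j + 1) = Pi.single (⟨j, hj⟩ : Fin 27) 1 := by
  funext i
  have e := vec_odd (c := 2 * j + 1) (by omega) (by omega)
  have e2 : (⟨(2 * j + 1 - 1) / 2, by omega⟩ : Fin 27) = ⟨j, hj⟩ := Fin.ext (by show (2 * j + 1 - 1) / 2 = j; omega)
  unfold vK
  rw [e, e2]
  by_cases h : i = ⟨j, hj⟩
  · subst h
    simp
  · simp [Pi.single_eq_of_ne h]

/-- The matrix of an element of the torus of the presented group. -/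
theorem Th_hbHom_val (c : Fin chevE6.rank → Kˣ) :
    ((Tm K (hbHom hFE hPE c) : GL (Fin 27) K) : Matrix (Fin 27) (Fin 27) K) =
      Matrix.diagonal (fun j : Fin 27 => ((Dc c j : Kˣ) : K)) := by
  ext i j
  have h := congrFun (Th_hbHom_col c j.2) i
  rw [vK_odd j.2] at h
  have e : (⟨(j : ℕ), j.2⟩ : Fin 27) = j := rfl
  rw [e, Matrix.mulVec_single_one] at h
  show ((Tm K (hbHom hFE hPE c) : GL (Fin 27) K) : Matrix (Fin 27) (Fin 27) K) i j = _
  have h2 : ((Tm K (hbHom hFE hPE c) : GL (Fin 27) K) : Matrix (Fin 27) (Fin 27) K) i j = _ := h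
  rw [h2, Matrix.diagonal_apply]
  by_cases hij : i = j
  · subst hij
    simp
  · simp [hij, Pi.single_eq_of_ne hij]

/-- The action of the monomial elements on a basis vector. -/
def nbT (i j : ℕ) : ℕ :=
  bif Nat.beq (acode i j) 1 then Nat.add (Nat.mul 2 j) 1
  else bif Nat.beq (acode i j) 0 then tbl (chevE6.simple i) j
  else flp (tbl (chevE6.neg (chevE6.simple i)) j)

/-- The action of the monomial elements on a code. -/
def nbC (i c : ℕ) : ℕ :=
  bif Nat.beq c 0 then 0 else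
  bif Nat.beq (Nat.mod c 2) 1 then nbT i (Nat.div (Nat.sub c 1) 2) else flp (nbT i (Nat.div (Nat.sub c 1) 2))

theorem Th_nb_col {i j : ℕ} (hi : i < 6) (hj : j < 27) :
    ((Tm K (nbS chevE6 K i) : GL (Fin 27) K) : Matrix (Fin 27) (Fin 27) K) *ᵥ vK K (2 * j + 1) = vK K (nbT i j) ∧
      nbT i j ≤ 54 := by
  obtain ⟨hs, hn, hc⟩ := chkH_spec hi hj
  have hc0 : 2 * j + 1 ≤ 54 := by omega
  unfold nbS
  rw [Th_nb_val modelOK hs (one_ne_zero)]
  simp only [Matrix.add_mulVec, Matrix.sub_mulVec, Matrix.smul_mulVec, Matrix.one_mulVec, ← Matrix.mulVec_mulVec]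
  rw [RK_vK hs hc0, RK_vK hn hc0, ap_odd, ap_odd, RK_vK hs (tbl_good hn hj), RK_vK hn (tbl_good hs hj)]
  unfold nbT
  rcases hc with ⟨a, e1, e2, e3⟩ | ⟨a, e1, e2, e3⟩ | ⟨a, e1, e2, e3, e4⟩
  · rw [e1, e2, e3, a, vK_zero]
    refine ⟨?_, flp_good (tbl_good hn hj)⟩
    show _ = vK K (flp (tbl (chevE6.neg (chevE6.simple i)) j))
    rw [vK_flp (tbl_good hn hj)]
    simp
  · rw [e1, e2, e3, a, vK_zero]
    refine ⟨?_, tbl_good hs hj⟩
    show _ = vK K (tbl (chevE6.simple i) j)
    simp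
  · rw [e1, e2, e3, e4, a, vK_zero]
    refine ⟨?_, ?_⟩
    · show _ = vK K (Nat.add (Nat.mul 2 j) 1)
      simp
    · show Nat.add (Nat.mul 2 j) 1 ≤ 54
      show 2 * j + 1 ≤ 54
      omega

theorem Th_nb_vK {i c : ℕ} (hi : i < 6) (hc : c ≤ 54) :
    ((Tm K (nbS chevE6 K i) : GL (Fin 27) K) : Matrix (Fin 27) (Fin 27) K) *ᵥ vK K c = vK K (nbC i c) ∧ nbC i c ≤ 54 := by
  unfold nbC
  by_cases h0 : c = 0
  · subst h0
    rw [vK_zero, Matrix.mulVec_zero]
    exact ⟨vK_zero.symm, Nat.zero_le _⟩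
  · rw [nb_f h0, cond_false]
    set j := (c - 1) / 2 with hj
    have hj27 : j < 27 := by omega
    obtain ⟨h1, h2⟩ := Th_nb_col (K := K) hi hj27
    by_cases hodd : c % 2 = 1
    · rw [show Nat.beq (Nat.mod c 2) 1 = true from nb_t hodd, cond_true]
      have e : c = 2 * j + 1 := by omega
      refine ⟨?_, h2⟩
      show _ = vK K (nbT i j)
      rw [← h1, ← e]
    · rw [show Nat.beq (Nat.mod c 2) 1 = false from nb_f hodd, cond_false]
      have e : c = flp (2 * j + 1) := by
        rw [flp_eq, if_neg (by omega), if_pos (by omega)]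
        omega
      refine ⟨?_, flp_good h2⟩
      show _ = vK K (flp (nbT i j))
      rw [vK_flp h2, ← h1, ← Matrix.mulVec_neg, ← vK_flp (by omega), ← e]

/-- The action of a word. -/
def wordC (L : List ℕ) (c : ℕ) : ℕ := L.foldr nbC c

theorem Th_word_vK (L : List ℕ) (hL : ∀ i ∈ L, i < 6) {c : ℕ} (hc : c ≤ 54) :
    ((Tm K (wordNb chevE6 K L) : GL (Fin 27) K) : Matrix (Fin 27) (Fin 27) K) *ᵥ vK K c = vK K (wordC L c) ∧ wordC L c ≤ 54 := by
  induction L with
  | nil =>
    simp only [wordNb_nil, map_one, Units.val_one, Matrix.one_mulVec]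
    exact ⟨rfl, hc⟩
  | cons i L ih =>
    obtain ⟨h1, h2⟩ := ih (fun j hj => hL j (List.mem_cons_of_mem _ hj))
    have hi := hL i List.mem_cons_self
    rw [wordNb_cons, map_mul, Units.val_mul, ← Matrix.mulVec_mulVec, h1]
    exact Th_nb_vK hi h2

end

end Cfsg.Agent.Lib.StE632
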