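import Cfsg.Agent.Lib.StE632H
import Cfsg.Agent.Lib.TwTor32A

/-!
# The invariant of a twisted torus element of type E6, read off the module of dimension 27
-/

set_option autoImplicit false
set_option linter.unusedSectionVars false
set_option linter.unusedVariables false
set_option linter.unusedSimpArgs false

namespace Cfsg.Agent.Lib.StE632

open Cfsg.Lie Matrix Cfsg.Agent.Lib.Chev Cfsg.Agent.Lib.StModel32 Cfsg.Agent.Lib.ChevPres
open Cfsg.Agent.Lib.ChevFix Cfsg.Agent.Lib.TwTor32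

noncomputable section

variable {K F : Type*} [Field K] [Field F]

/-- The action of an automorphism on the general linear group of the module. -/
abbrev sgM (σ : K ≃+* K) : GL (Fin 27) K →* GL (Fin 27) K := Matrix.GeneralLinearGroup.map (σ : K →+* K)

theorem sgM_val (σ : K ≃+* K) (g : GL (Fin 27) K) :
    ((sgM σ g : GL (Fin 27) K) : Matrix (Fin 27) (Fin 27) K) = (g : Matrix (Fin 27) (Fin 27) K).map σ := rfl

theorem sgM_gen (σ : K ≃+* K) {r : ℕ} (hr : r < chevE6.nroots) (t : K) :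
    sgM σ (Tm K (chevE6.stGen K r t)) = Tm K (chevE6.stGen K r (σ t)) := by
  rw [Th_gen modelOK hr, Th_gen modelOK hr]
  apply Units.ext
  rw [sgM_val, coe_xK, coe_xK]
  ext i j
  simp [Matrix.map_apply, Matrix.add_apply, Matrix.one_apply, Matrix.smul_apply]

theorem exists_lift (σ : K ≃+* K) {Y : GL chevE6.Idx K} (hY : Y ∈ chevE6.group K) :
    ∃ A B : chevE6.SteinbergGroup K, theta hFE A = Y ∧ theta hFE B = glM chevE6 (σ : K →+* K) Y ∧
      Tm K B = sgM σ (Tm K A) := by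
  unfold ChevalleyDatum.group at hY
  induction hY using Subgroup.closure_induction with
  | mem x hx =>
    obtain ⟨r, t, hx⟩ := hx
    have e : x = hFE.c.xG r t := by
      apply Units.ext
      rw [hFE.c.coe_xG, hx]
      simp [ChevalleyDatum.x, r.2]
    refine ⟨chevE6.stGen K r t, chevE6.stGen K r (σ t), ?_, ?_, (sgM_gen σ r.2 t).symm⟩
    · rw [theta_y hFE r.2, e]
    · rw [theta_y hFE r.2, e]
      exact (Fix.sg_xG hFE σ r t).symm
  | one => exact ⟨1, 1, map_one _, by rw [map_one, map_one], by simp⟩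
  | mul x y _ _ hx hy =>
    obtain ⟨A, B, h1, h2, h3⟩ := hx
    obtain ⟨A', B', h1', h2', h3'⟩ := hy
    exact ⟨A * A', B * B', by rw [map_mul, h1, h1'], by rw [map_mul, map_mul, h2, h2'],
      by rw [map_mul, map_mul, map_mul, h3, h3']⟩
  | inv x _ hx =>
    obtain ⟨A, B, h1, h2, h3⟩ := hx
    exact ⟨A⁻¹, B⁻¹, by rw [map_inv, h1], by rw [map_inv, map_inv, h2], by rw [map_inv, map_inv, map_inv, h3]⟩

theorem exists_lift0 (σ : K ≃+* K) (f : F →+* K) (hfσ : ∀ b, σ (f b) = f b) {g : GL chevE6.Idx F}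
    (hg : g ∈ chevE6.group F) :
    ∃ A : chevE6.SteinbergGroup K, theta hFE A = glM chevE6 f g ∧ sgM σ (Tm K A) = Tm K A := by
  unfold ChevalleyDatum.group at hg
  induction hg using Subgroup.closure_induction with
  | mem x hx =>
    obtain ⟨r, t, hx⟩ := hx
    have e : x = hFE.c.xG r t := by
      apply Units.ext
      rw [hFE.c.coe_xG, hx]
      simp [ChevalleyDatum.x, r.2]
    refine ⟨chevE6.stGen K r (f t), ?_, ?_⟩
    · rw [theta_y hFE r.2, e]
      exact (Fix.glM_xG hFE f r t).symm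
    · rw [sgM_gen σ r.2, hfσ]
  | one => exact ⟨1, by rw [map_one, map_one], by simp⟩
  | mul x y _ _ hx hy =>
    obtain ⟨A, h1, h3⟩ := hx
    obtain ⟨A', h1', h3'⟩ := hy
    exact ⟨A * A', by rw [map_mul, map_mul, h1, h1'], by rw [map_mul, map_mul, h3, h3']⟩
  | inv x _ hx =>
    obtain ⟨A, h1, h3⟩ := hx
    exact ⟨A⁻¹, by rw [map_inv, map_inv, h1], by rw [map_inv, map_inv, h3]⟩

theorem sgM_hbHom (σ : K ≃+* K) (q : ℕ) (hσ : ∀ x : K, σ x = x ^ q) (c : Fin chevE6.rank → Kˣ) :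
    sgM σ (Tm K (hbHom hFE hPE c)) = Tm K (hbHom hFE hPE (c ^ q)) := by
  apply Units.ext
  rw [sgM_val, Th_hbHom_val, Th_hbHom_val]
  ext i j
  simp only [Matrix.map_apply, Matrix.diagonal_apply]
  by_cases hij : i = j
  · subst hij
    simp only [if_true]
    rw [Dc_pow, Units.val_pow_eq_pow_val]
    exact hσ _
  · simp [hij]

/-- Three times the inverse of the Cartan matrix. -/
def adjB : Fin chevE6.rank → Fin chevE6.rank → ℤ := fun k j =>
  (![![4,3,5,6,4,2],![3,6,6,9,6,3],![5,6,10,12,8,4],![6,9,12,18,12,6],![4,6,8,12,10,5],![2,3,4,6,5,4]] : Fin 6 → Fin 6 → ℤ) j k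

theorem adjB_spec1 : ∀ k i : Fin chevE6.rank,
    ∑ j : Fin chevE6.rank, adjB k j * chevE6.cartan i (chevE6.simple j) = if i = k then 3 else 0 := by
  decide +kernel

theorem adjB_spec2 : ∀ k j : Fin chevE6.rank,
    ∑ i : Fin chevE6.rank, adjB i k * chevE6.cartan i (chevE6.simple j) = if j = k then ((3 : ℕ) : ℤ) else 0 := by
  decide +kernel

/-- The elements of the kernel of the Cartan map have order dividing three. -/
theorem cube_of_cartanMap {c : Fin chevE6.rank → Kˣ} (hc : ∀ j < chevE6.rank, cartanMap chevE6 c j = 1)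
    (k : Fin chevE6.rank) : c k ^ 3 = 1 := by
  have h1 : ∏ j : Fin chevE6.rank, (cartanMap chevE6 c j) ^ adjB k j = 1 := by
    apply Finset.prod_eq_one
    intro j _
    rw [hc j j.2, _root_.one_zpow]
  have hz : ∀ (a : Kˣ) (s : Finset (Fin chevE6.rank)) (g : Fin chevE6.rank → ℤ), a ^ (∑ i ∈ s, g i) = ∏ i ∈ s, a ^ g i := by
    intro a s g
    classical
    induction s using Finset.induction_on with
    | empty => simp
    | insert b s hb ih => rw [Finset.sum_insert hb, Finset.prod_insert hb, _root_.zpow_add, ih]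
  have h2 : ∏ j : Fin chevE6.rank, (cartanMap chevE6 c j) ^ adjB k j =
      ∏ i : Fin chevE6.rank, c i ^ (∑ j : Fin chevE6.rank, adjB k j * chevE6.cartan i (chevE6.simple j)) := by
    simp only [cartanMap, ← Finset.prod_zpow, ← _root_.zpow_mul]
    rw [Finset.prod_comm]
    apply Finset.prod_congr rfl
    intro i _
    rw [hz]
    apply Finset.prod_congr rfl
    intro j _
    rw [mul_comm]
  rw [h2] at h1
  simp only [adjB_spec1] at h1
  rw [Finset.prod_eq_single k] at h1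
  · have : c k ^ (3 : ℤ) = 1 := by simpa using h1
    exact_mod_cast this
  · intro i _ hi
    simp [hi]
  · simp

/-- **The invariant.** If an element of the small group is conjugate to `tor c` by `Y`, where `Y⁻¹ σ(Y)` is a monomial
element attached to the word `L`, the values of `c` on the weights are linked by the word. -/
theorem star (σ : K ≃+* K) (q : ℕ) (hq3 : q % 3 = 1) (hσ : ∀ x : K, σ x = x ^ q) (f : F →+* K)
    (hfσ : ∀ b, σ (f b) = f b) {Y : GL chevE6.Idx K} (hY : Y ∈ chevE6.group K)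
    (n : ↥(chevE6.monomialSubgroup K)) {τ : GL chevE6.Idx K} (hτ : τ ∈ chevE6.diagonalSubgroup K)
    (hYs : glM chevE6 (σ : K →+* K) Y = Y * (n.1 * τ)) (L : List ℕ) (hL : ∀ i ∈ L, i < 6)
    (hn : hFE.rhoN K n = hFE.rhoN K ⟨hFE.wordN L, hFE.wordN_mem_monomial L hL⟩)
    (c : Fin chevE6.rank → Kˣ) {g : GL chevE6.Idx F} (hg : g ∈ chevE6.group F)
    (hgY : glM chevE6 f g = Y * tor RootE6T.R chevE6 c * Y⁻¹) {μ₁ μ₂ : ℕ} (hμ₁ : μ₁ < 27) (hμ₂ : μ₂ < 27)
    (hcode : wordC L (2 * μ₁ + 1) = 2 * μ₂ + 1) : Dc c μ₂ = Dc c μ₁ ^ q := by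
  classical
  set hh := hbHom (K := K) hFE hPE with hhdef
  obtain ⟨A, B, hA, hB, hAB⟩ := exists_lift σ hY
  obtain ⟨G₁, hG₁, hG₁σ⟩ := exists_lift0 σ f hfσ hg
  have hthh : ∀ d, theta hFE (hh d) = tor RootE6T.R chevE6 d := theta_hbHom hFE hPE
  -- central elements
  have hcent : ∀ z : chevE6.SteinbergGroup K, theta hFE z = 1 → ∃ ε, (∀ j < chevE6.rank, cartanMap chevE6 ε j = 1) ∧ z = hh ε := by
    intro z hz
    have h1 : z ∈ (thetaG (K := K) hFE).ker := by
      rw [ker_thetaG]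
      exact hz
    rw [ker_eq_center hFE hPE] at h1
    exact (mem_center_iff_hbHom hFE hPE).1 h1
  have hpowε : ∀ ε : Fin chevE6.rank → Kˣ, (∀ j < chevE6.rank, cartanMap chevE6 ε j = 1) → ε ^ q = ε := by
    intro ε hε
    funext k
    rw [Pi.pow_apply]
    have h3 := cube_of_cartanMap hε k
    obtain ⟨d, hd⟩ : ∃ d, q = 3 * d + 1 := ⟨q / 3, by omega⟩
    rw [hd, pow_succ, pow_mul, h3, one_pow, one_mul]
  have hsgh : ∀ d, sgM σ (Tm K (hh d)) = Tm K (hh (d ^ q)) := sgM_hbHom σ q hσ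
  -- the fixed element
  obtain ⟨ε, hε, hz⟩ := hcent (G₁⁻¹ * (A * hh c * A⁻¹)) (by
    rw [map_mul, map_mul, map_mul, map_inv, map_inv, hG₁, hA, hthh, ← hgY, inv_mul_cancel])
  have hx : A * hh c * A⁻¹ = G₁ * hh ε := by
    rw [← hz]
    group
  have hfix : sgM σ (Tm K (A * hh c * A⁻¹)) = Tm K (A * hh c * A⁻¹) := by
    rw [hx, map_mul, map_mul, hG₁σ, hsgh, hpowε ε hε]
  have hBc : Tm K (B * hh (c ^ q) * B⁻¹) = Tm K (A * hh c * A⁻¹) := by
    rw [← hfix]
    simp only [map_mul, map_inv, ← hAB, hsgh]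
  -- the monomial element
  set W₀ := wordNb chevE6 K L with hW₀
  have hWθ : theta hFE W₀ = hFE.wordN L := theta_wordNb hFE L hL
  let nL : ↥(chevE6.monomialSubgroup K) := ⟨hFE.wordN L, hFE.wordN_mem_monomial L hL⟩
  have he : (nL⁻¹ * n).1 ∈ chevE6.diagonalSubgroup K := by
    apply hFE.mem_diagonal_of_pos'
    intro x hx
    have h1 : hFE.rhoN K (nL⁻¹ * n) = 1 := by
      rw [map_mul, map_inv, hn]
      exact inv_mul_cancel _
    rw [h1]
    exact hx
  obtain ⟨d, hd⟩ := (hFE.mem_diagonal_iff).1 (mul_mem he hτ)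
  have hUθ : theta hFE (A⁻¹ * B) = theta hFE (W₀ * hh d) := by
    rw [map_mul, map_mul, map_inv, hA, hB, hYs, hWθ, hthh, ← hd]
    show Y⁻¹ * (Y * (n.1 * τ)) = hFE.wordN L * ((nL.1)⁻¹ * n.1 * τ)
    have : nL.1 = hFE.wordN L := rfl
    rw [this]
    group
  obtain ⟨ε₀, -, hz₀⟩ := hcent ((W₀ * hh d)⁻¹ * (A⁻¹ * B)) (by
    rw [map_mul, map_inv, hUθ, inv_mul_cancel])
  have hU : A⁻¹ * B = W₀ * hh (d * ε₀) := by
    rw [map_mul, ← mul_assoc, ← hz₀]
    group
  have hB' : B = A * (W₀ * hh (d * ε₀)) := by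
    rw [← hU]
    group
  have hmain : Tm K W₀ * Tm K (hh (c ^ q)) = Tm K (hh c) * Tm K W₀ := by
    have h1 : Tm K ((W₀ * hh (d * ε₀)) * hh (c ^ q) * (W₀ * hh (d * ε₀))⁻¹) = Tm K (hh c) := by
      have e1 : (W₀ * hh (d * ε₀)) * hh (c ^ q) * (W₀ * hh (d * ε₀))⁻¹ =
          A⁻¹ * (B * hh (c ^ q) * B⁻¹) * A := by
        rw [hB']
        group
      rw [e1, map_mul, map_mul, hBc, map_mul, map_mul, map_inv]
      group
    have e2 : hh (d * ε₀) * hh (c ^ q) = hh (c ^ q) * hh (d * ε₀) := by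
      rw [← map_mul, ← map_mul, mul_comm]
    have e3 : (W₀ * hh (d * ε₀)) * hh (c ^ q) * (W₀ * hh (d * ε₀))⁻¹ = W₀ * hh (c ^ q) * W₀⁻¹ := by
      calc (W₀ * hh (d * ε₀)) * hh (c ^ q) * (W₀ * hh (d * ε₀))⁻¹
          = W₀ * (hh (d * ε₀) * hh (c ^ q)) * (hh (d * ε₀))⁻¹ * W₀⁻¹ := by group
        _ = _ := by rw [e2]; group
    rw [e3, map_mul, map_mul, map_inv] at h1
    rw [← h1]
    group
  -- evaluate on a basis vector
  have hvK := congrArg (fun M : GL (Fin 27) K => (M : Matrix (Fin 27) (Fin 27) K) *ᵥ vK K (2 * μ₁ + 1)) hmain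
  simp only [Units.val_mul, ← Matrix.mulVec_mulVec] at hvK
  have hc0 : 2 * μ₁ + 1 ≤ 54 := by omega
  have hw := (Th_word_vK (K := K) L hL hc0).1
  rw [hcode] at hw
  rw [Th_hbHom_col _ hμ₁, Matrix.mulVec_smul, hw, Th_hbHom_col _ hμ₂, Dc_pow] at hvK
  have hne : vK K (2 * μ₂ + 1) ≠ 0 := by
    rw [vK_odd hμ₂]
    intro h0
    have := congrFun h0 ⟨μ₂, hμ₂⟩
    simp at this
  have h5 : ((Dc c μ₁ ^ q : Kˣ) : K) = ((Dc c μ₂ : Kˣ) : K) := by
    obtain ⟨i, hi⟩ := Function.ne_iff.1 hne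
    have h6 := congrFun hvK i
    simp only [Pi.smul_apply, smul_eq_mul] at h6
    exact mul_right_cancel₀ hi h6
  exact (Units.ext h5).symm

end

end Cfsg.Agent.Lib.StE632
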