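import Cfsg.Agent.Lib.ChevPresCenterCore

/-!
# Linear models of Steinberg's presented group

Integer matrices `E r` with `E r ^ 2 = 0` satisfying the Lie relations of the structure constants of the datum give a
homomorphism from the presented group `Ḡ` to the general linear group, `x̄_r(t) ↦ 1 + t E r`.
-/

set_option autoImplicit false
set_option linter.unusedSectionVars false
set_option linter.unusedVariables false
set_option linter.unusedSimpArgs false

namespace Cfsg.Agent.Lib.StModel32

open Cfsg.Lie Matrix Cfsg.Agent.Lib.Chev Cfsg.Agent.Lib.ChevPres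

section Alg

variable {K A : Type*} [Field K] [Ring A] [Algebra K A]

theorem comm_expand1 (a b : A) (ha : a * a = 0) (hb : b * b = 0) (h1 : a * b * a = 0) (h2 : b * a * b = 0) :
    (1 - b) * (1 - a) * (1 + b) * (1 + a) = 1 + (b * a - a * b) := by
  have key : (1 - b) * (1 - a) * (1 + b) * (1 + a) =
      1 + b * a - a * b - b * b - a * a - b * b * a - a * b * a + b * a * b + b * (a * a) + b * a * b * a := by
    noncomm_ring
  rw [key, ha, hb, h1, h2]
  simp only [zero_mul, mul_zero, sub_zero, add_zero]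
  abel

theorem comm_expand (e g : A) (he : e * e = 0) (hg : g * g = 0) (h1 : e * g * e = 0) (h2 : g * e * g = 0) (t u : K) :
    (1 - u • g) * (1 - t • e) * (1 + u • g) * (1 + t • e) = 1 + (t * u) • (g * e - e * g) := by
  have := comm_expand1 (t • e) (u • g)
    (by rw [smul_mul_assoc, mul_smul_comm, he, smul_zero, smul_zero])
    (by rw [smul_mul_assoc, mul_smul_comm, hg, smul_zero, smul_zero])
    (by simp only [smul_mul_assoc, mul_smul_comm, h1, smul_zero])
    (by simp only [smul_mul_assoc, mul_smul_comm, h2, smul_zero])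
  rw [this]
  simp only [smul_mul_assoc, mul_smul_comm, smul_sub, smul_smul]
  rw [mul_comm u t]

theorem n1 (e f : A) (he : e * e = 0) (h1 : e * f * e = e) :
    (1 + e) * (1 - f) * (1 + e) = 1 + e - f - e * f - f * e := by
  have key : (1 + e) * (1 - f) * (1 + e) = 1 + e + e + e * e - f - f * e - e * f - e * f * e := by
    noncomm_ring
  rw [key, he, h1]
  abel

theorem n_eq (e f : A) (he : e * e = 0) (hf : f * f = 0) (h1 : e * f * e = e) (t : K) (ht : t ≠ 0) :
    (1 + t • e) * (1 + (-t⁻¹) • f) * (1 + t • e) = 1 + t • e - t⁻¹ • f - e * f - f * e := by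
  have hts : t * t⁻¹ = 1 := mul_inv_cancel₀ ht
  have hst : t⁻¹ * t = 1 := inv_mul_cancel₀ ht
  have e1 : t • e * (t⁻¹ • f) = e * f := by
    rw [smul_mul_assoc, mul_smul_comm, smul_smul, hts, one_smul]
  have e2 : t⁻¹ • f * (t • e) = f * e := by
    rw [smul_mul_assoc, mul_smul_comm, smul_smul, hst, one_smul]
  have := n1 (t • e) (t⁻¹ • f) (by rw [smul_mul_assoc, mul_smul_comm, he, smul_zero, smul_zero])
    (by rw [e1, mul_smul_comm, h1])
  rw [e1, e2] at this
  rw [← this, neg_smul, ← sub_eq_add_neg]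

theorem h_eq (e f : A) (he : e * e = 0) (hf : f * f = 0) (h1 : e * f * e = e) (h2 : f * e * f = f) (t : K) (ht : t ≠ 0) :
    ((1 + t • e) * (1 + (-t⁻¹) • f) * (1 + t • e)) *
      ((1 + (-1 : K) • e) * (1 + (-(-1 : K)⁻¹) • f) * (1 + (-1 : K) • e)) =
      1 - e * f - f * e + t • (e * f) + t⁻¹ • (f * e) := by
  rw [n_eq e f he hf h1 t ht, n_eq e f he hf h1 (-1 : K) (by simp)]
  have a1 : e * (e * f) = 0 := by rw [← mul_assoc, he, zero_mul]
  have a2 : e * (f * e) = e := by rw [← mul_assoc, h1]
  have a3 : f * (e * f) = f := by rw [← mul_assoc, h2]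
  have a4 : f * (f * e) = 0 := by rw [← mul_assoc, hf, zero_mul]
  have a5 : (e * f) * e = e := h1
  have a6 : (e * f) * f = 0 := by rw [mul_assoc, hf, mul_zero]
  have a7 : (f * e) * e = 0 := by rw [mul_assoc, he, mul_zero]
  have a8 : (f * e) * f = f := h2
  have a9 : (e * f) * (e * f) = e * f := by rw [← mul_assoc, h1]
  have a10 : (e * f) * (f * e) = 0 := by rw [mul_assoc, ← mul_assoc f, hf, zero_mul, mul_zero]
  have a11 : (f * e) * (e * f) = 0 := by rw [mul_assoc, ← mul_assoc e, he, zero_mul, mul_zero]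
  have a12 : (f * e) * (f * e) = f * e := by rw [← mul_assoc, h2]
  generalize hE : e * f = E at *
  generalize hF : f * e = F at *
  simp only [add_mul, mul_add, sub_mul, mul_sub, one_mul, mul_one, smul_mul_assoc, mul_smul_comm, smul_smul,
    he, hf, hE, hF, a1, a2, a3, a4, a5, a6, a7, a8, a9, a10, a11, a12, smul_zero, smul_sub, smul_add, inv_neg, inv_one]
  module

theorem h_mul (e f : A) (he : e * e = 0) (hf : f * f = 0) (h1 : e * f * e = e) (h2 : f * e * f = f) (a b : K)
    (ha : a ≠ 0) (hb : b ≠ 0) :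
    (1 - e * f - f * e + a • (e * f) + a⁻¹ • (f * e)) * (1 - e * f - f * e + b • (e * f) + b⁻¹ • (f * e)) =
      1 - e * f - f * e + (a * b) • (e * f) + (a * b)⁻¹ • (f * e) := by
  have a9 : (e * f) * (e * f) = e * f := by rw [← mul_assoc, h1]
  have a10 : (e * f) * (f * e) = 0 := by rw [mul_assoc, ← mul_assoc f, hf, zero_mul, mul_zero]
  have a11 : (f * e) * (e * f) = 0 := by rw [mul_assoc, ← mul_assoc e, he, zero_mul, mul_zero]
  have a12 : (f * e) * (f * e) = f * e := by rw [← mul_assoc, h2]
  generalize e * f = E at *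
  generalize f * e = F at *
  rw [mul_inv]
  simp only [add_mul, mul_add, sub_mul, mul_sub, one_mul, mul_one, smul_mul_assoc, mul_smul_comm, smul_smul,
    a9, a10, a11, a12, smul_zero, smul_sub, smul_add]
  module

end Alg

section Model

variable {m : ℕ}

/-- The conditions on the integer matrices. -/
structure ModelOK (D : ChevalleyDatum) (E : ℕ → Matrix (Fin m) (Fin m) ℤ) : Prop where
  sq : ∀ r < D.nroots, E r * E r = 0
  negLt : ∀ r < D.nroots, D.neg r < D.nroots
  sl₁ : ∀ r < D.nroots, E r * E (D.neg r) * E r = E r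
  sl₂ : ∀ r < D.nroots, E (D.neg r) * E r * E (D.neg r) = E (D.neg r)
  tri : ∀ r < D.nroots, ∀ s < D.nroots, s ≠ r → s ≠ D.neg r → E r * E s * E r = 0 ∧ E s * E r * E s = 0
  comm : ∀ r < D.nroots, ∀ s < D.nroots, s ≠ r → s ≠ D.neg r →
    (D.commTerms r s = [] ∧ E r * E s = E s * E r) ∨
    ∃ (k : ℕ) (M : ℤ), D.commTerms r s = [(k, M, 1, 1)] ∧ k < D.nroots ∧ E r * E s - E s * E r = M • E k

variable {K : Type*} [Field K] {D : ChevalleyDatum} {E : ℕ → Matrix (Fin m) (Fin m) ℤ}

/-- The matrices over the field. -/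
noncomputable abbrev RK (K : Type*) [Field K] (E : ℕ → Matrix (Fin m) (Fin m) ℤ) (r : ℕ) : Matrix (Fin m) (Fin m) K :=
  (E r).map (Int.castRingHom K)

theorem RK_mul (K : Type*) [Field K] (A B : Matrix (Fin m) (Fin m) ℤ) :
    A.map (Int.castRingHom K) * B.map (Int.castRingHom K) = (A * B).map (Int.castRingHom K) := (Matrix.map_mul).symm

theorem map_zero' (K : Type*) [Field K] : (0 : Matrix (Fin m) (Fin m) ℤ).map (Int.castRingHom K) = 0 := by
  ext i j
  simp

/-- The root elements of the model. -/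
noncomputable def xK (h : ModelOK D E) (r : Fin D.nroots) (t : K) : GL (Fin m) K :=
  ⟨1 + t • RK K E r, 1 + (-t) • RK K E r, by
    have h0 : RK K E r * RK K E r = 0 := by rw [RK_mul, h.sq r r.2, map_zero']
    simp only [add_mul, mul_add, one_mul, mul_one, smul_mul_assoc, mul_smul_comm, smul_smul, h0, smul_zero, add_zero]
    module, by
    have h0 : RK K E r * RK K E r = 0 := by rw [RK_mul, h.sq r r.2, map_zero']
    simp only [add_mul, mul_add, one_mul, mul_one, smul_mul_assoc, mul_smul_comm, smul_smul, h0, smul_zero, add_zero]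
    module⟩

theorem coe_xK (h : ModelOK D E) (r : Fin D.nroots) (t : K) :
    ((xK h r t : GL (Fin m) K) : Matrix (Fin m) (Fin m) K) = 1 + t • RK K E r := rfl

theorem coe_xK_inv (h : ModelOK D E) (r : Fin D.nroots) (t : K) :
    (((xK h r t)⁻¹ : GL (Fin m) K) : Matrix (Fin m) (Fin m) K) = 1 + (-t) • RK K E r := rfl

/-- The function on the generators. -/
noncomputable def gK (h : ModelOK D E) : Fin D.nroots × K → GL (Fin m) K := fun p => xK h p.1 p.2

theorem lift_X (h : ModelOK D E) {r : ℕ} (hr : r < D.nroots) (t : K) :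
    FreeGroup.lift (gK h) (D.stX r t) = xK h ⟨r, hr⟩ t := by
  unfold ChevalleyDatum.stX
  rw [dif_pos hr, FreeGroup.lift_apply_of]
  rfl

theorem lift_W (h : ModelOK D E) (L : List (ℕ × K)) (hL : ∀ p ∈ L, p.1 < D.nroots) :
    ((FreeGroup.lift (gK h) (D.stWord L) : GL (Fin m) K) : Matrix (Fin m) (Fin m) K) =
      (L.map fun p => (1 + p.2 • RK K E p.1 : Matrix (Fin m) (Fin m) K)).prod := by
  induction L with
  | nil => simp [ChevalleyDatum.stWord]
  | cons p L ih =>
    have h1 : D.stWord (p :: L) = D.stX p.1 p.2 * D.stWord L := by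
      simp [ChevalleyDatum.stWord]
    rw [h1, map_mul, lift_X h (hL p List.mem_cons_self), Units.val_mul, coe_xK,
      ih (fun q hq => hL q (List.mem_cons_of_mem _ hq)), List.map_cons, List.prod_cons]

/-- **The homomorphism from the presented group.** -/
noncomputable def Th (h : ModelOK D E) : D.SteinbergGroup K →* GL (Fin m) K :=
  PresentedGroup.toGroup (f := gK h) (by
    rintro g ((⟨r, t₁, t₂, hr, rfl⟩ | ⟨r, s, t, u, hr, hs, h1, h2, rfl⟩) | ⟨r, t₁, t₂, hr, ht₁, ht₂, rfl⟩)
    · rw [map_mul, map_mul, map_inv, lift_X h hr, lift_X h hr, lift_X h hr, mul_inv_eq_one]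
      apply Units.ext
      rw [Units.val_mul, coe_xK, coe_xK, coe_xK]
      have h0 : RK K E r * RK K E r = 0 := by rw [RK_mul, h.sq r hr, map_zero']
      simp only [add_mul, mul_add, one_mul, mul_one, smul_mul_assoc, mul_smul_comm, smul_smul, h0, smul_zero, add_zero]
      module
    · obtain ⟨t1, t2⟩ := h.tri r hr s hs h1 h2
      have h0 : RK K E r * RK K E r = 0 := by rw [RK_mul, h.sq r hr, map_zero']
      have h0' : RK K E s * RK K E s = 0 := by rw [RK_mul, h.sq s hs, map_zero']
      have h3 : RK K E r * RK K E s * RK K E r = 0 := by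
        rw [RK_mul, RK_mul, t1, map_zero']
      have h4 : RK K E s * RK K E r * RK K E s = 0 := by
        rw [RK_mul, RK_mul, t2, map_zero']
      have hexp := comm_expand (RK K E r) (RK K E s) h0 h0' h3 h4 t u
      have hL : ∀ p ∈ D.commWord K r s t u, p.1 < D.nroots := by
        rcases h.comm r hr s hs h1 h2 with ⟨hc, -⟩ | ⟨k, M, hc, hk, -⟩
        · simp [ChevalleyDatum.commWord, hc]
        · simp [ChevalleyDatum.commWord, hc, hk]
      rw [map_mul, map_mul, map_mul, map_mul, map_inv, map_inv, map_inv, lift_X h hr, lift_X h hs, mul_inv_eq_one]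
      apply Units.ext
      rw [lift_W h _ hL]
      simp only [Units.val_mul]
      rw [coe_xK_inv, coe_xK_inv, coe_xK, coe_xK]
      simp only [neg_smul, ← sub_eq_add_neg]
      rw [hexp]
      rcases h.comm r hr s hs h1 h2 with ⟨hc, hc2⟩ | ⟨k, M, hc, hk, hc2⟩
      · have h5 : RK K E s * RK K E r - RK K E r * RK K E s = 0 := by
          rw [RK_mul, RK_mul, hc2, sub_self]
        rw [h5, smul_zero, add_zero]
        simp [ChevalleyDatum.commWord, hc]
      · have h5 : RK K E s * RK K E r - RK K E r * RK K E s = (-(M : K)) • RK K E k := by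
          rw [RK_mul, RK_mul]
          have h6 : E s * E r = E r * E s - M • E k := by
            rw [← hc2]
            abel
          rw [h6]
          ext i j
          simp only [Matrix.map_apply, Matrix.sub_apply, Matrix.smul_apply, smul_eq_mul, map_sub, map_mul, sub_sub_cancel_left,
            eq_intCast, neg_mul, sub_sub_cancel, sub_self, zero_sub]
        rw [h5]
        simp only [ChevalleyDatum.commWord, hc, List.map_cons, List.map_nil, List.prod_cons, List.prod_nil, mul_one,
          pow_one, smul_smul]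
        congr 2
        ring
    · have hn := h.negLt r hr
      have hL : ∀ t : K, ∀ p ∈ D.hWord r t, p.1 < D.nroots := by
        intro t p hp
        simp only [ChevalleyDatum.hWord, ChevalleyDatum.nWord, List.cons_append, List.nil_append,
          List.mem_cons, List.not_mem_nil, or_false] at hp
        rcases hp with rfl | rfl | rfl | rfl | rfl | rfl <;> first | exact hr | exact hn
      have h0 : RK K E r * RK K E r = 0 := by rw [RK_mul, h.sq r hr, map_zero']
      have h0' : RK K E (D.neg r) * RK K E (D.neg r) = 0 := by rw [RK_mul, h.sq _ hn, map_zero']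
      have h3 : RK K E r * RK K E (D.neg r) * RK K E r = RK K E r := by
        rw [RK_mul, RK_mul, h.sl₁ r hr]
      have h4 : RK K E (D.neg r) * RK K E r * RK K E (D.neg r) = RK K E (D.neg r) := by
        rw [RK_mul, RK_mul, h.sl₂ r hr]
      have hh : ∀ t : K, t ≠ 0 → ((FreeGroup.lift (gK h) (D.stH r t) : GL (Fin m) K) : Matrix (Fin m) (Fin m) K) =
          1 - RK K E r * RK K E (D.neg r) - RK K E (D.neg r) * RK K E r + t • (RK K E r * RK K E (D.neg r)) +
            t⁻¹ • (RK K E (D.neg r) * RK K E r) := by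
        intro t ht
        unfold ChevalleyDatum.stH
        rw [lift_W h _ (hL t), ← h_eq (RK K E r) (RK K E (D.neg r)) h0 h0' h3 h4 t ht]
        simp only [ChevalleyDatum.hWord, ChevalleyDatum.nWord, List.cons_append, List.nil_append, List.map_cons,
          List.map_nil, List.prod_cons, List.prod_nil, mul_one, mul_assoc]
      rw [map_mul, map_mul, map_inv, mul_inv_eq_one]
      apply Units.ext
      rw [Units.val_mul, hh t₁ ht₁, hh t₂ ht₂, hh (t₁ * t₂) (mul_ne_zero ht₁ ht₂)]
      exact h_mul _ _ h0 h0' h3 h4 t₁ t₂ ht₁ ht₂)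

theorem Th_gen (h : ModelOK D E) {r : ℕ} (hr : r < D.nroots) (t : K) :
    Th h (D.stGen K r t) = xK h ⟨r, hr⟩ t := by
  have e : D.stGen K r t = PresentedGroup.of (rels := D.steinbergRels K) ((⟨r, hr⟩, t) : Fin D.nroots × K) := by
    unfold ChevalleyDatum.stGen ChevalleyDatum.stX
    rw [dif_pos hr]
    rfl
  rw [e]
  unfold Th
  rw [PresentedGroup.toGroup.of]
  rfl

theorem Th_nb_val (h : ModelOK D E) {r : ℕ} (hr : r < D.nroots) {t : K} (ht : t ≠ 0) :
    ((Th h (nb D K r t) : GL (Fin m) K) : Matrix (Fin m) (Fin m) K) =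
      1 + t • RK K E r - t⁻¹ • RK K E (D.neg r) - RK K E r * RK K E (D.neg r) - RK K E (D.neg r) * RK K E r := by
  have hn := h.negLt r hr
  have h0 : RK K E r * RK K E r = 0 := by rw [RK_mul, h.sq r hr, map_zero']
  have h0' : RK K E (D.neg r) * RK K E (D.neg r) = 0 := by rw [RK_mul, h.sq _ hn, map_zero']
  have h3 : RK K E r * RK K E (D.neg r) * RK K E r = RK K E r := by
    rw [RK_mul, RK_mul, h.sl₁ r hr]
  rw [← n_eq (RK K E r) (RK K E (D.neg r)) h0 h0' h3 t ht]
  unfold nb
  rw [map_mul, map_mul, Th_gen h hr, Th_gen h hn, Units.val_mul, Units.val_mul, coe_xK, coe_xK]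

theorem Th_hb_val (h : ModelOK D E) {r : ℕ} (hr : r < D.nroots) {t : K} (ht : t ≠ 0) :
    ((Th h (hb D K r t) : GL (Fin m) K) : Matrix (Fin m) (Fin m) K) =
      1 - RK K E r * RK K E (D.neg r) - RK K E (D.neg r) * RK K E r + t • (RK K E r * RK K E (D.neg r)) +
            t⁻¹ • (RK K E (D.neg r) * RK K E r) := by
  have hn := h.negLt r hr
  have h0 : RK K E r * RK K E r = 0 := by rw [RK_mul, h.sq r hr, map_zero']
  have h0' : RK K E (D.neg r) * RK K E (D.neg r) = 0 := by rw [RK_mul, h.sq _ hn, map_zero']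
  have h3 : RK K E r * RK K E (D.neg r) * RK K E r = RK K E r := by
    rw [RK_mul, RK_mul, h.sl₁ r hr]
  have h4 : RK K E (D.neg r) * RK K E r * RK K E (D.neg r) = RK K E (D.neg r) := by
    rw [RK_mul, RK_mul, h.sl₂ r hr]
  rw [← h_eq (RK K E r) (RK K E (D.neg r)) h0 h0' h3 h4 t ht]
  unfold hb nb
  simp only [map_mul, Units.val_mul]
  simp only [Th_gen h hr, Th_gen h hn, coe_xK, mul_assoc]

end Model

end Cfsg.Agent.Lib.StModel32
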