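import Cfsg.Agent.Lib.StRootJ50

/-!
# The number of `p`-elements of a Chevalley group
-/

set_option autoImplicit false
set_option linter.unusedSectionVars false
set_option linter.unusedVariables false

namespace Cfsg.Agent.Lib.StChev50

open Cfsg Cfsg.Lie Cfsg.Agent.Lib.Chev Cfsg.Agent.Lib.StBN50 Cfsg.Agent.Lib.BNPair
open Cfsg.Agent.Lib.CoxLen50 Cfsg.Agent.Lib.ExchangeCoxeter MulAction

variable {F : Type*} [Field F] {T : Tabs} {X : Extra} {R : RootTab} {D : ChevalleyDatum}
  (hF : Full T X R D)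

variable {p : ℕ} [hp : Fact p.Prime] [CharP F p]

include hF

theorem not_dvd_index_UU [Fintype F] : ¬ p ∣ (UU D F).index := by
  intro h
  have hpp := hp.out
  haveI : Finite ↥(D.group F) := inferInstance
  have h1 := p_part (p := p) hF (F := F)
  rw [← card_UU hF] at h1
  have h2 : Nat.card ↥(D.group F) = Nat.card (UU D F) * (UU D F).index :=
    (Subgroup.card_mul_index _).symm
  have h0 : Nat.card ↥(D.group F) ≠ 0 := Nat.card_pos.ne'
  have h3 : p ^ ((Nat.card ↥(D.group F)).factorization p + 1) ∣ Nat.card ↥(D.group F) := by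
    rw [pow_succ, h1, h2]
    exact Nat.mul_dvd_mul_left _ h
  exact Nat.pow_succ_factorization_not_dvd h0 hpp h3

theorem sum_StR_J [Fintype F] [Fintype ↥(D.group F)] (J : Finset ℕ) (hJ : J ⊆ Finset.range D.rank) :
    ∑ x ∈ PE p (Par (hF.bnPair F) (sig hF F) J), StR (hF.bnPair F) (sig hF F) J x =
      (Nat.card (UU D F) : ℂ) := by
  obtain ⟨n, hn, hw, hf, hUn⟩ := exists_nJ hF (F := F) J hJ
  have hB : (hF.bnPair F).B = (D.borelSubgroup F).subgroupOf (D.group F) := rfl
  have hN : (hF.bnPair F).N = (D.monomialSubgroup F).subgroupOf (D.group F) := rfl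
  have hnm : n.1 ∈ D.monomialSubgroup F := Subgroup.mem_subgroupOf.1 hn
  apply sum_StR_of_radical (P := hF.bnPair F) (sig hF F) (R := (D.unipotentRadical F (J : Set ℕ)).subgroupOf (D.group F))
    (fun i hi => sig_mem hF (hJ hi)) (isPGroup_UU hF) (not_dvd_index_UU hF) ?_ ?_ ?_ ?_ hn hw hf hUn ?_
  · intro u hu
    rw [hB, Subgroup.mem_subgroupOf]
    exact hF.c.posUnipotent_le_borel (Subgroup.mem_subgroupOf.1 hu)
  · intro b hb u hu
    rw [hB, Subgroup.mem_subgroupOf] at hb
    rw [Subgroup.mem_subgroupOf] at hu ⊢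
    exact (Subgroup.mem_set_normalizer_iff.1 (hF.borel_le_normalizer_U hb) u.1).1 hu
  · intro r hr
    rw [Subgroup.mem_subgroupOf] at hr ⊢
    exact hF.radical_le_U _ hr
  · intro g hg r hr
    rw [par_eq hF J (Finset.mem_powerset.2 hJ)] at hg
    rw [Subgroup.mem_subgroupOf] at hr ⊢
    have hg' : g.1 ∈ D.parabolicSubgroup F (J : Set ℕ) := Subgroup.mem_subgroupOf.1 hg
    exact (Subgroup.mem_set_normalizer_iff.1 (hF.parabolic_le_normalizer _ hg') r.1).1 hr
  · intro b hb
    rw [hB, Subgroup.mem_subgroupOf] at hb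
    obtain ⟨u, hu, h, hh, e⟩ := (hF.mem_borel_iff).1 hb
    refine ⟨⟨u, U_le_group hF hu⟩, Subgroup.mem_subgroupOf.2 hu, ?_⟩
    rw [hB, Subgroup.mem_subgroupOf]
    show n.1⁻¹ * (u⁻¹ * b.1) * n.1 ∈ _
    rw [e, inv_mul_cancel_left]
    have hninv : n.1⁻¹ ∈ D.monomialSubgroup F := Subgroup.inv_mem _ hnm
    have := (Subgroup.mem_set_normalizer_iff.1 (hF.monomial_le_normalizer hninv) h).1 hh
    rw [inv_inv] at this
    exact hF.c.diagonal_le_borel this

/-- Steinberg's count of unipotent elements. -/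
theorem card_pelements [Fintype F] :
    Nat.card {g : ↥(D.group F) // ∃ k : ℕ, orderOf g = p ^ k} =
      Fintype.card F ^ (2 * (D.nroots / 2)) := by
  classical
  haveI : Fintype ↥(D.group F) := Fintype.ofFinite _
  have h1 := card_PE_top (P := hF.bnPair F) (sig hF F) p (Finset.range D.rank)
    (Nat.card (UU D F) : ℂ) (sum_StR_J hF)
  have hA : ∀ s ∈ (hF.bnPair F).S, ∃ i ∈ Finset.range D.rank, sig hF F i = s :=
    fun s hs => exists_sig hF hs
  have hA' : ∀ i ∈ Finset.range D.rank, sig hF F i ∈ (hF.bnPair F).S := fun i hi => sig_mem hF hi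
  rw [← St_eq_StR _ hA hA', ← steinberg_eq hF, steinberg_one hF, card_UU hF,
    par_top _ hA hA'] at h1
  have h2 : Nat.card {g : ↥(D.group F) // ∃ k : ℕ, orderOf g = p ^ k} = (PE p (⊤ : Subgroup ↥(D.group F))).card := by
    rw [Nat.card_eq_fintype_card, Fintype.card_subtype]
    congr 1
    ext x
    simp [mem_PE, IsPE]
  rw [h2]
  have h3 : ((PE p (⊤ : Subgroup ↥(D.group F))).card : ℂ) = ((Fintype.card F ^ (2 * (D.nroots / 2)) : ℕ) : ℂ) := by
    rw [h1, hF.two]
    push_cast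
    have : 2 * R.N / 2 = R.N := by simp
    rw [this, two_mul, pow_add]
  exact_mod_cast h3

end Cfsg.Agent.Lib.StChev50
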