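import Cfsg.Agent.Lib.StCount50
import Cfsg.Agent.Lib.StChevP50

/-!
# Root combinatorics of the longest element of a parabolic Weyl group
-/

set_option autoImplicit false
set_option linter.unusedSectionVars false
set_option linter.unusedVariables false

namespace Cfsg.Agent.Lib.StChev50

open Cfsg Cfsg.Lie Cfsg.Agent.Lib.Chev Cfsg.Agent.Lib.StBN50 Cfsg.Agent.Lib.BNPair
open Cfsg.Agent.Lib.CoxLen50 Cfsg.Agent.Lib.ExchangeCoxeter MulAction

variable {F : Type*} [Field F] {T : Tabs} {X : Extra} {R : RootTab} {D : ChevalleyDatum}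
  (hF : Full T X R D)

/-- The map from `N` in the group to the monomial group. -/
noncomputable def psiN (hF : Full T X R D) (F : Type*) [Field F] :
    ↥(hF.bnPair F).N →* ↥(D.monomialSubgroup F) where
  toFun n := ⟨n.1.1, Subgroup.mem_subgroupOf.1 n.2⟩
  map_one' := rfl
  map_mul' _ _ := rfl

section quot

variable [hN : ((D.diagonalSubgroup F).subgroupOf (D.monomialSubgroup F)).Normal]

/-- The map between the two models of the Weyl group. -/
noncomputable def psiW (hF : Full T X R D) (F : Type*) [Field F]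
    [hN : ((D.diagonalSubgroup F).subgroupOf (D.monomialSubgroup F)).Normal] :
    WW (hF.bnPair F) →* (↥(D.monomialSubgroup F) ⧸
      (D.diagonalSubgroup F).subgroupOf (D.monomialSubgroup F)) :=
  QuotientGroup.lift _ ((QuotientGroup.mk' _).comp (psiN hF F)) (by
    intro x hx
    rw [Subgroup.mem_subgroupOf] at hx
    have h1 : (x : ↥(D.group F)).1 ∈ D.borelSubgroup F ⊓ D.monomialSubgroup F :=
      ⟨Subgroup.mem_subgroupOf.1 hx.1, Subgroup.mem_subgroupOf.1 hx.2⟩
    rw [hF.B_inf_N] at h1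
    show (QuotientGroup.mk (psiN hF F x)) = 1
    exact (hF.mk_eq_one_iff).2 h1)

include hF

theorem psiW_mk (n : ↥(hF.bnPair F).N) : psiW hF F (QuotientGroup.mk n) = QuotientGroup.mk (psiN hF F n) := rfl

theorem psiW_inj : Function.Injective (psiW hF F) := by
  rw [injective_iff_map_eq_one]
  intro w hw
  induction w using QuotientGroup.induction_on with | H n =>
  rw [psiW_mk hF, hF.mk_eq_one_iff] at hw
  rw [QuotientGroup.eq_one_iff, Subgroup.mem_subgroupOf]
  have h2 : (n : ↥(D.group F)).1 ∈ D.borelSubgroup F :=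
    hF.c.diagonal_le_borel hw
  exact ⟨Subgroup.mem_subgroupOf.2 h2, n.2⟩

theorem psiW_sig (i : Fin D.rank) : psiW hF F (pi (hF.bnPair F) (sig hF F i)) = hF.sW F i := by
  have hm : sig hF F i ∈ (hF.bnPair F).S := sig_mem hF (Finset.mem_range.2 i.2)
  have hmN := (hF.bnPair F).subset hm
  rw [pi_of_mem hmN, psiW_mk hF]
  unfold Full.sW
  congr 1
  apply Subtype.ext
  exact sig_of_lt hF i.2

theorem pi_sig_mem (i : Fin D.rank) : pi (hF.bnPair F) (sig hF F i) ∈ SW (hF.bnPair F) :=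
  pi_mem_SW (sig_mem hF (Finset.mem_range.2 i.2))

theorem exists_word (w : WW (hF.bnPair F)) : ∃ a : List (Fin D.rank), lW (hF.bnPair F) w = a.length ∧
    psiW hF F w = wp (hF.sW F) a := by
  have hS := coxLen (P := hF.bnPair F)
  induction hk : lW (hF.bnPair F) w using Nat.strong_induction_on generalizing w with
  | _ k ih =>
    by_cases hw : w = 1
    · subst hw
      refine ⟨[], ?_, ?_⟩
      · rw [← hk, (hS.zero_iff 1).2 rfl]
        rfl
      · simp
    · have hcl : w ∈ Subgroup.closure (SW (hF.bnPair F)) := by rw [hS.gen]; trivial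
      obtain ⟨s, hs, hd⟩ := hS.desc_left subset_rfl hcl hw
      obtain ⟨t, ht, rfl⟩ := hs
      obtain ⟨i, hi, rfl⟩ := exists_sig hF ht
      have hi' := Finset.mem_range.1 hi
      obtain ⟨a, h1, h2⟩ := ih _ (by omega) (pi (hF.bnPair F) (sig hF F i) * w) rfl
      refine ⟨⟨i, hi'⟩ :: a, ?_, ?_⟩
      · simp only [List.length_cons]
        omega
      · rw [wp_cons]
        have e : w = pi (hF.bnPair F) (sig hF F i) * (pi (hF.bnPair F) (sig hF F i) * w) := by
          rw [← mul_assoc, hS.sq _ (pi_sig_mem hF ⟨i, hi'⟩), one_mul]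
        conv_lhs => rw [e]
        rw [map_mul, h2]
        congr 1
        exact psiW_sig hF ⟨i, hi'⟩

theorem lW_word_le (a : List (Fin D.rank)) :
    lW (hF.bnPair F) ((a.map (fun i : Fin D.rank => pi (hF.bnPair F) (sig hF F (i : ℕ)))).prod) ≤ a.length := by
  have hS := coxLen (P := hF.bnPair F)
  induction a with
  | nil =>
    simp only [List.map_nil, List.prod_nil, List.length_nil]
    rw [(hS.zero_iff 1).2 rfl]
  | cons i a ih =>
    simp only [List.map_cons, List.prod_cons, List.length_cons]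
    rcases hS.step_left (((a.map (fun i : Fin D.rank => pi (hF.bnPair F) (sig hF F (i : ℕ)))).prod)) (pi_sig_mem hF i) with h | h <;> omega

theorem psiW_word (a : List (Fin D.rank)) :
    psiW hF F ((a.map (fun i : Fin D.rank => pi (hF.bnPair F) (sig hF F (i : ℕ)))).prod) = wp (hF.sW F) a := by
  induction a with
  | nil => simp
  | cons i a ih =>
    simp only [List.map_cons, List.prod_cons, wp_cons]
    rw [map_mul, ih, psiW_sig hF]

/-- Descents from negative roots. -/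
theorem lW_left_lt (x : Fin D.rank) (w : WW (hF.bnPair F))
    (h : ¬ R.N ≤ (((hF.rhoW F (psiW hF F w))⁻¹ (hF.pF x) : Fin D.nroots) : ℕ)) :
    lW (hF.bnPair F) (pi (hF.bnPair F) (sig hF F x) * w) < lW (hF.bnPair F) w := by
  obtain ⟨a, h1, h2⟩ := exists_word hF w
  rw [h2] at h
  obtain ⟨a₁, y, a₂, e, h3⟩ := (hF.rootSys (F := F)).deletion x a h
  have h4 : pi (hF.bnPair F) (sig hF F x) * w =
      (((a₁ ++ a₂).map (fun i : Fin D.rank => pi (hF.bnPair F) (sig hF F (i : ℕ)))).prod) := by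
    apply psiW_inj hF
    rw [psiW_word hF, ← h3, map_mul, psiW_sig hF, h2, wp_cons]
  rw [h4, h1]
  have h5 := lW_word_le hF (F := F) (a₁ ++ a₂)
  subst e
  simp only [List.length_append, List.length_cons] at h5 ⊢
  omega

/-- A right descent sends the simple root to a negative root. -/
theorem neg_of_right_descent (x : Fin D.rank) (w : WW (hF.bnPair F))
    (h : lW (hF.bnPair F) (w * pi (hF.bnPair F) (sig hF F x)) < lW (hF.bnPair F) w) :
    (((hF.rhoW F (psiW hF F w)) (hF.pF x) : Fin D.nroots) : ℕ) < R.N := by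
  have hS := coxLen (P := hF.bnPair F)
  have hRS := hF.rootSys (F := F)
  by_contra hcon
  have hs := pi_sig_mem hF (F := F) x
  set s := pi (hF.bnPair F) (sig hF F x) with hsdef
  -- Apply the previous lemma to `v = s w⁻¹`
  have h1 := lW_left_lt hF x (s * w⁻¹) (by
    rw [map_mul, map_inv, psiW_sig hF]
    have e : (hF.rhoW F (hF.sW F x * (hF.sW F) x)) = 1 := by rw [hRS.sq, map_one]
    have e2 : (hF.rhoW F (hF.sW F x * (psiW hF F w)⁻¹))⁻¹ =
        hF.rhoW F (psiW hF F w) * hF.rhoW F (hF.sW F x) := by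
      rw [← map_inv, mul_inv_rev, inv_inv, hRS.inv_s, map_mul]
    rw [e2, Equiv.Perm.mul_apply, hRS.act_p, hRS.neg_comm, hRS.pos_neg]
    exact not_not.2 (not_lt.1 hcon))
  rw [← mul_assoc, hS.sq s hs, one_mul, lW_inv] at h1
  have h2 : lW (hF.bnPair F) (s * w⁻¹) = lW (hF.bnPair F) (w * s) := by
    rw [← lW_inv, mul_inv_rev, inv_inv, hS.s_inv hs]
  omega

end quot

/-! ### Linearity of the action on root coordinates -/

/-- The action is linear in the root coordinates. -/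
def IsLin (hF : Full T X R D) (σ : Equiv.Perm (Fin D.nroots)) : Prop :=
  ∀ (s : Fin D.nroots) (k : ℕ), k < D.rank →
    R.rcAt (σ s) k = ∑ j : Fin D.rank, R.rcAt s j * R.rcAt (σ (hF.pF j)) k

include hF

theorem isLin_one : IsLin hF 1 := by
  intro s k hk
  simp only [Equiv.Perm.one_apply]
  have h1 : ∀ j : Fin D.rank, R.rcAt s j * R.rcAt ((hF.pF j : Fin D.nroots) : ℕ) k =
      if j = (⟨k, hk⟩ : Fin D.rank) then R.rcAt s j else 0 := by
    intro j
    show R.rcAt s j * R.rcAt (D.simple j) k = _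
    rw [hF.simple_rc j.2 hk]
    by_cases h : (j : ℕ) = k
    · rw [if_pos h, if_pos (Fin.ext h), mul_one]
    · rw [if_neg h, if_neg (fun e => h (congrArg Fin.val e)), mul_zero]
  rw [Finset.sum_congr rfl (fun j _ => h1 j), Finset.sum_ite_eq' Finset.univ]
  simp

theorem isLin_mul {σ : Equiv.Perm (Fin D.nroots)} (h : IsLin hF σ) (i : Fin D.rank) :
    IsLin hF (hF.wPerm i.2 * σ) := by
  intro s k hk
  simp only [Equiv.Perm.mul_apply, Full.wPerm_apply]
  have hcart : ∀ y : Fin D.nroots, D.cartan i y =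
      ∑ m : Fin D.rank, R.rcAt y m * D.cartan i (D.simple m) := by
    intro y
    rw [hF.r.cartan_lin i i.2 y y.2, sumZ_eq, Finset.sum_range]
  have hc2 : D.cartan i (σ s) = ∑ j : Fin D.rank, R.rcAt s j * D.cartan i (σ (hF.pF j)) := by
    rw [hcart]
    have : ∀ m : Fin D.rank, R.rcAt (σ s) m * D.cartan i (D.simple m) =
        ∑ j : Fin D.rank, R.rcAt s j * (R.rcAt (σ (hF.pF j)) m * D.cartan i (D.simple m)) := by
      intro m
      rw [h s m m.2, Finset.sum_mul]
      apply Finset.sum_congr rfl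
      intro j _
      ring
    rw [Finset.sum_congr rfl (fun m _ => this m), Finset.sum_comm]
    apply Finset.sum_congr rfl
    intro j _
    rw [← Finset.mul_sum, ← hcart]
  rw [hF.wf_rc i.2 (σ s).2 hk]
  have : ∀ j : Fin D.rank, R.rcAt s j * R.rcAt (X.wf i (σ (hF.pF j))) k =
      R.rcAt s j * R.rcAt (σ (hF.pF j)) k -
        (if k = i then R.rcAt s j * D.cartan i (σ (hF.pF j)) else 0) := by
    intro j
    rw [hF.wf_rc i.2 (σ (hF.pF j)).2 hk]
    split_ifs <;> ring
  rw [Finset.sum_congr rfl (fun j _ => this j), Finset.sum_sub_distrib, ← h s k hk]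
  congr 1
  by_cases hki : k = i
  · simp only [if_pos hki]
    exact hc2
  · simp [hki]

theorem isLin_rhoW [hN : ((D.diagonalSubgroup F).subgroupOf (D.monomialSubgroup F)).Normal]
    (w : ↥(D.monomialSubgroup F) ⧸ (D.diagonalSubgroup F).subgroupOf (D.monomialSubgroup F)) :
    IsLin hF (hF.rhoW F w) := by
  obtain ⟨l, rfl⟩ := hF.sW_generates w
  induction l with
  | nil =>
    rw [wp_nil, map_one]
    exact isLin_one hF
  | cons i l ih =>
    rw [wp_cons, map_mul, hF.rhoW_sW]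
    exact isLin_mul hF ih i

/-- A positive root has a positive coordinate. -/
theorem exists_rc_pos {r : ℕ} (hr : r < D.nroots) (hpos : R.N ≤ r) :
    ∃ j < D.rank, 0 < R.rcAt r j := by
  by_contra hcon
  push Not at hcon
  have h1 := hF.r.bez r hr
  rw [sumZ_eq, Finset.sum_eq_zero] at h1
  · exact zero_ne_one h1
  · intro i hi
    have hi' := Finset.mem_range.1 hi
    have h2 : R.rcAt r i = 0 := le_antisymm (hcon i hi') (hF.rc_nonneg hr hpos hi')
    rw [(hF.r.coroot_zero r hr i hi').2 h2, mul_zero]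

theorem exists_rc_neg {r : ℕ} (hr : r < R.N) : ∃ k < D.rank, R.rcAt r k < 0 := by
  have h2 := hF.two
  have hr' : r < D.nroots := by omega
  obtain ⟨k, hk, h3⟩ := exists_rc_pos hF (hF.neg_lt hr') (hF.neg_ge_N hr)
  refine ⟨k, hk, ?_⟩
  rw [hF.rc_neg hr' hk] at h3
  omega

theorem neg_of_lin {σ : Equiv.Perm (Fin D.nroots)} (h : IsLin hF σ) {J : Set ℕ}
    (hJ : ∀ j : Fin D.rank, (j : ℕ) ∈ J → ((σ (hF.pF j) : Fin D.nroots) : ℕ) < R.N)
    {r : ℕ} (hr : r < D.nroots) (hpos : R.N ≤ r) (hrJ : D.InRootSub J r) :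
    ((σ ⟨r, hr⟩ : Fin D.nroots) : ℕ) < R.N := by
  obtain ⟨j, hj, h1⟩ := exists_rc_pos hF hr hpos
  have hJr := ((hF.inRootSub_iff).1 hrJ).2
  have hjJ : j ∈ J := by
    by_contra hn
    have := hJr j hj hn
    omega
  obtain ⟨k, hk, h2⟩ := exists_rc_neg hF (hJ ⟨j, hj⟩ hjJ)
  apply hF.neg_of_rc_neg (σ ⟨r, hr⟩).2 hk
  rw [h ⟨r, hr⟩ k hk]
  apply Finset.sum_neg'
  · intro m _
    by_cases hm : (m : ℕ) ∈ J
    · have h3 := hF.rc_nonneg hr hpos m.2
      have h4 := hF.rc_nonpos (hJ m hm) hk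
      exact mul_nonpos_of_nonneg_of_nonpos h3 h4
    · rw [hJr m m.2 hm, zero_mul]
  · refine ⟨⟨j, hj⟩, Finset.mem_univ _, ?_⟩
    exact mul_neg_of_pos_of_neg h1 h2

/-- The key inclusion `U ∩ n B n⁻¹ ≤ U_J`. -/
theorem mem_radical_of_conj_borel {J : Set ℕ} {g : GL D.Idx F} {σ : Equiv.Perm (Fin D.nroots)}
    {u : Fin D.nroots → Fˣ} (ha : hF.RootAct g σ u)
    (hσ : ∀ (r : ℕ) (hr : r < D.nroots), R.N ≤ r → D.InRootSub J r → ((σ ⟨r, hr⟩ : Fin D.nroots) : ℕ) < R.N)
    (hgP : g ∈ D.parabolicSubgroup F J) {x : GL D.Idx F} (hx : x ∈ D.posUnipotent F)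
    (hgx : g * x * g⁻¹ ∈ D.borelSubgroup F) : x ∈ D.unipotentRadical F J := by
  classical
  set UJ := Full.rootClosure D F (fun r => D.IsPosRoot r ∧ D.InRootSub J r) with hUJ
  have hnorm : UJ ≤ Subgroup.normalizer (D.unipotentRadical F J : Set (GL D.Idx F)) := by
    rw [Full.unipotentRadical_eq, hUJ, Full.rootClosure, Subgroup.closure_le]
    rintro h ⟨r, t, hr, hh⟩
    rw [SetLike.mem_coe, hF.c.eq_xG hh]
    exact hF.xG_mem_normalizer_UJ (Or.inl hr.1) t
  have hxs : x ∈ D.unipotentRadical F J ⊔ UJ := by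
    have hle : D.posUnipotent F ≤ D.unipotentRadical F J ⊔ UJ := by
      rw [ChevalleyDatum.posUnipotent, Subgroup.closure_le]
      rintro h ⟨r, t, hr, hh⟩
      by_cases hrJ : D.InRootSub J r
      · exact Subgroup.mem_sup_right (Subgroup.subset_closure ⟨r, t, ⟨hr, hrJ⟩, hh⟩)
      · exact Subgroup.mem_sup_left (Subgroup.subset_closure ⟨r, t, hr, hrJ, hh⟩)
    exact hle hx
  obtain ⟨a, haR, y, hy, rfl⟩ := (GroupLem.mem_sup_iff_of_le_normalizer hnorm).1 hxs
  have hconjV : ∀ y ∈ UJ, g * y * g⁻¹ ∈ D.negUnipotent F := by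
    have hle : UJ ≤ (D.negUnipotent F).comap (MulAut.conj g).toMonoidHom := by
      rw [hUJ, Full.rootClosure, Subgroup.closure_le]
      rintro h ⟨r, t, hr, hh⟩
      rw [SetLike.mem_coe, Subgroup.mem_comap, hF.c.eq_xG hh]
      have hr' := (hF.isPos_iff).1 hr.1
      have h3 := ha.conj ⟨r, hr'.1⟩ t
      show g * hF.c.xG r t * g⁻¹ ∈ _
      rw [h3]
      exact hF.xG_mem_V (hσ r hr'.1 hr'.2 hr.2) _
    intro y hy
    exact hle hy
  have haB : g * a * g⁻¹ ∈ D.borelSubgroup F := by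
    have h1 := (Subgroup.mem_set_normalizer_iff.1 (hF.parabolic_le_normalizer J hgP) a).1 haR
    exact hF.c.posUnipotent_le_borel (hF.radical_le_U J h1)
  have hyB : g * y * g⁻¹ ∈ D.borelSubgroup F := by
    have e : g * y * g⁻¹ = (g * a * g⁻¹)⁻¹ * (g * (a * y) * g⁻¹) := by group
    rw [e]
    exact Subgroup.mul_mem _ (Subgroup.inv_mem _ haB) hgx
  have h5 : g * y * g⁻¹ ∈ D.borelSubgroup F ⊓ D.negUnipotent F := ⟨hyB, hconjV y hy⟩
  rw [hF.B_inf_V, Subgroup.mem_bot] at h5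
  have h6 : y = 1 := by
    have : g⁻¹ * (g * y * g⁻¹) * g = g⁻¹ * 1 * g := by rw [h5]
    simpa [mul_assoc] using this
  rw [h6, mul_one]
  exact haR

/-- The chosen element in `N` for a subset `J` of the fundamental roots. -/
theorem exists_nJ (J : Finset ℕ) (hJ : J ⊆ Finset.range D.rank) [Finite ↥(D.group F)] :
    ∃ n : ↥(D.group F), n ∈ (hF.bnPair F).N ∧
      pi (hF.bnPair F) n ∈ Subgroup.closure (pi (hF.bnPair F) '' (sig hF F '' (J : Set ℕ))) ∧
      FullD (pi (hF.bnPair F) '' (sig hF F '' (J : Set ℕ))) (lW (hF.bnPair F)) (pi (hF.bnPair F) n) ∧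
      ∀ u : ↥(D.group F), u ∈ UU D F → n⁻¹ * u * n ∈ (hF.bnPair F).B →
        u ∈ (D.unipotentRadical F (J : Set ℕ)).subgroupOf (D.group F) := by
  classical
  haveI hN := hF.diagonal_normal (F := F)
  have hS := coxLen (P := hF.bnPair F)
  have hJS : pi (hF.bnPair F) '' (sig hF F '' (J : Set ℕ)) ⊆ SW (hF.bnPair F) := by
    rintro _ ⟨_, ⟨i, hi, rfl⟩, rfl⟩
    exact pi_mem_SW (sig_mem hF (hJ hi))
  haveI : Finite (WW (hF.bnPair F)) := inferInstance
  obtain ⟨w₀, hw₀, hf⟩ := hS.exists_fullD hJS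
  obtain ⟨n, hn, rfl⟩ := exists_pi w₀
  refine ⟨n, hn, hw₀, hf, ?_⟩
  intro x hx hxB
  have hnm : n.1 ∈ D.monomialSubgroup F := Subgroup.mem_subgroupOf.1 hn
  have hninv := (hF.bnPair F).N.inv_mem hn
  -- left descents
  have hdesc : ∀ j : Fin D.rank, (j : ℕ) ∈ (J : Set ℕ) →
      lW (hF.bnPair F) ((pi (hF.bnPair F) n)⁻¹ * pi (hF.bnPair F) (sig hF F j)) <
        lW (hF.bnPair F) (pi (hF.bnPair F) n)⁻¹ := by
    intro j hj
    have hs : pi (hF.bnPair F) (sig hF F j) ∈ pi (hF.bnPair F) '' (sig hF F '' (J : Set ℕ)) :=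
      ⟨_, ⟨j, hj, rfl⟩, rfl⟩
    have hy : pi (hF.bnPair F) (sig hF F j) * pi (hF.bnPair F) n ∈
        Subgroup.closure (pi (hF.bnPair F) '' (sig hF F '' (J : Set ℕ))) :=
      Subgroup.mul_mem _ (Subgroup.subset_closure hs) hw₀
    obtain ⟨z, _, _, h1⟩ := hS.exists_right_factor hJS hw₀ hf hy
    have h2 : lW (hF.bnPair F) ((pi (hF.bnPair F) n)⁻¹ * pi (hF.bnPair F) (sig hF F j)) =
        lW (hF.bnPair F) (pi (hF.bnPair F) (sig hF F j) * pi (hF.bnPair F) n) := by
      rw [← hS.inv, mul_inv_rev, inv_inv, hS.s_inv (hJS hs)]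
    rw [h2, hS.inv]
    rcases hS.step_left (pi (hF.bnPair F) n) (hJS hs) with h3 | h3 <;> omega
  set σ := hF.rhoW F (psiW hF F (pi (hF.bnPair F) n)⁻¹) with hσ
  have hσJ : ∀ j : Fin D.rank, (j : ℕ) ∈ (J : Set ℕ) → ((σ (hF.pF j) : Fin D.nroots) : ℕ) < R.N := by
    intro j hj
    exact neg_of_right_descent hF j _ (hdesc j hj)
  have hlin : IsLin hF σ := isLin_rhoW hF _
  let g : ↥(D.monomialSubgroup F) := (⟨n.1, hnm⟩ : ↥(D.monomialSubgroup F))⁻¹
  have hσg : σ = hF.rhoN F g := by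
    rw [hσ, map_inv, map_inv, pi_of_mem hn, psiW_mk hF, hF.rhoW_mk, map_inv]
    rfl
  obtain ⟨u, hu⟩ := hF.rhoN_spec g
  rw [← hσg] at hu
  have hnJ : n ∈ D.parabolicIn F J := by
    rw [← par_eq hF J (Finset.mem_powerset.2 hJ)]
    have hJ2 : sig hF F '' (J : Set ℕ) ⊆ (hF.bnPair F).S := by
      rintro _ ⟨i, hi, rfl⟩
      exact sig_mem hF (hJ hi)
    have := (mem_parabolic_iff_del (P := hF.bnPair F) (J := sig hF F '' (J : Set ℕ)) hJ2 (g := n)).2
    rw [del_of_mem hn] at this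
    exact this hw₀
  have hnJ' : n.1 ∈ D.parabolicSubgroup F (J : Set ℕ) := Subgroup.mem_subgroupOf.1 hnJ
  have h3 := mem_radical_of_conj_borel hF (J := (J : Set ℕ)) hu
    (fun r hr hp hrJ => neg_of_lin hF hlin hσJ hr hp hrJ)
    (Subgroup.inv_mem _ hnJ') (x := x.1) (Subgroup.mem_subgroupOf.1 hx) (by
      have : n⁻¹ * x * n ∈ (D.borelSubgroup F).subgroupOf (D.group F) := hxB
      have h4 := Subgroup.mem_subgroupOf.1 this
      show n.1⁻¹ * x.1 * n.1⁻¹⁻¹ ∈ _
      rw [inv_inv]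
      exact h4)
  exact Subgroup.mem_subgroupOf.2 h3

end Cfsg.Agent.Lib.StChev50
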