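import Cfsg.Agent.Lib.StPar50
import Cfsg.Agent.Lib.DZChev50
import Cfsg.Agent.Lib.LocalTools

/-!
# The Steinberg character of a Chevalley group at a `p'`-element
-/

set_option autoImplicit false
set_option linter.unusedSectionVars false
set_option linter.unusedVariables false
set_option linter.style.haveILetI false

namespace Cfsg.Agent.Lib.StChev50

open Cfsg Cfsg.Lie Cfsg.Agent.Lib.Chev Cfsg.Agent.Lib.StBN50 Cfsg.Agent.Lib.BNPair
open Cfsg.Agent.Lib.CoxLen50 MulAction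

variable {F : Type*} [Field F] {T : Tabs} {X : Extra} {R : RootTab} {D : ChevalleyDatum}
  (hF : Full T X R D)

include hF

theorem sig_injOn : Set.InjOn (sig hF F) ((Finset.range D.rank : Finset ℕ) : Set ℕ) := by
  intro i hi j hj e
  have hi' : i < D.rank := Finset.mem_range.1 (Finset.mem_coe.1 hi)
  have hj' : j < D.rank := Finset.mem_range.1 (Finset.mem_coe.1 hj)
  by_contra hne
  have e1 : hF.nS (F := F) i = hF.nS j := by
    rw [← sig_of_lt hF hi', ← sig_of_lt hF hj', e]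
  have hs := hF.simple_lt hi'
  have h1 := hF.nS_conj_xG (F := F) hi' hs 1
  have h2 := hF.nS_conj_xG (F := F) hj' hs 1
  rw [e1, h2] at h1
  have h3 := hF.xG_root_inj (hF.wf_lt hj' hs) (hF.wf_lt hi' hs)
    (t := ((X.eta j (D.simple i) : ℤ) : F) * 1) (mul_ne_zero (hF.eta_ne hj' hs) one_ne_zero) h1
  have h4 := hF.wf_rc hj' hs hi'
  have h5 := hF.wf_rc hi' hs hi'
  rw [if_neg hne] at h4
  rw [if_pos rfl] at h5
  rw [hF.wf_simple hi', hF.rc_neg hs hi', hF.simple_rc hi' hi', if_pos rfl] at h5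
  rw [h3, hF.wf_simple hi', hF.rc_neg hs hi', hF.simple_rc hi' hi', if_pos rfl] at h4
  omega

theorem levi_le_parabolic (J : Set ℕ) : D.leviSubgroup F J ≤ D.parabolicSubgroup F J := by
  rw [← hF.radical_sup_levi J]
  exact le_sup_right

theorem radical_le_parabolic (J : Set ℕ) : D.unipotentRadical F J ≤ D.parabolicSubgroup F J := by
  rw [← hF.radical_sup_levi J]
  exact le_sup_left

theorem radical_le_group' (J : Set ℕ) : D.unipotentRadical F J ≤ D.group F :=
  (radical_le_parabolic hF J).trans (hF.parabolic_le_group J)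

theorem levi_le_group' (J : Set ℕ) : D.leviSubgroup F J ≤ D.group F :=
  (levi_le_parabolic hF J).trans (hF.parabolic_le_group J)

theorem mem_par_iff' {K : Finset ℕ} (hK : K ⊆ Finset.range D.rank) {x : ↥(D.group F)} :
    x ∈ Par (hF.bnPair F) (sig hF F) K ↔ x.1 ∈ D.parabolicSubgroup F (K : Set ℕ) := by
  rw [par_eq hF K (Finset.mem_powerset.2 hK)]
  exact Subgroup.mem_subgroupOf

/-- `n_j ∈ L_J`. -/
theorem nS_mem_levi {J : Set ℕ} {j : ℕ} (hj : j < D.rank) (hjJ : j ∈ J) :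
    hF.nS (F := F) j ∈ D.leviSubgroup F J := by
  have h1 : ∀ r, D.InRootSub J r → ∀ t : F, hF.c.xG r t ∈ D.leviSubgroup F J :=
    fun r hr t => Subgroup.mem_sup_right (Subgroup.subset_closure ⟨r, t, hr, rfl⟩)
  have h2 := hF.simple_inRootSub hj hjJ
  exact Subgroup.mul_mem _ (Subgroup.mul_mem _ (h1 _ h2 _) (h1 _ (hF.neg_inRootSub h2) _)) (h1 _ h2 _)

/-- The Levi subgroup is conjugated into `P_T`. -/
theorem levi_conj_mem {J : Set ℕ} {K : Set ℕ} {n : GL D.Idx F} (hn : n ∈ D.monomialSubgroup F)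
    (h1 : ∀ j ∈ J, ∀ hj : j < D.rank, R.N ≤ ((hF.rhoN F ⟨n⁻¹, Subgroup.inv_mem _ hn⟩
      ⟨D.simple j, hF.simple_lt hj⟩ : Fin D.nroots) : ℕ))
    (h2 : ∀ j ∈ J, j < D.rank → n⁻¹ * hF.nS j * n ∈ D.parabolicSubgroup F K)
    {l : GL D.Idx F} (hl : l ∈ D.leviSubgroup F J) : n⁻¹ * l * n ∈ D.parabolicSubgroup F K := by
  let M : Subgroup (GL D.Idx F) := Cfsg.Agent.Lib.CoprimeInv.cj (D.parabolicSubgroup F K) n
  have hM : ∀ x, x ∈ M ↔ n⁻¹ * x * n ∈ D.parabolicSubgroup F K := fun x => Cfsg.Agent.Lib.CoprimeInv.mem_cj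
  have hxG : ∀ r, D.InRootSub J r → ∀ t : F, hF.c.xG r t ∈ M := by
    intro r hr
    refine hF.root_induction_J (J := J) (P := fun r => ∀ t : F, hF.c.xG r t ∈ M) ?_ ?_ r hr
    · intro j hjJ hj t
      rw [hM]
      have h3 := hF.conj_xG_mem_borel (n := ⟨n⁻¹, Subgroup.inv_mem _ hn⟩) hj (h1 j hjJ hj) t
      have h4 : n⁻¹ * hF.c.xG (D.simple j) t * n ∈ D.borelSubgroup F := by
        simpa using h3
      exact hF.borel_le_parabolic K h4
    · intro j hjJ hj s hs hP t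
      have hnj : hF.nS j ∈ M := (hM _).2 (h2 j hjJ hj)
      have h3 := Subgroup.mul_mem _ (Subgroup.mul_mem _ hnj
        (hP (((X.eta j s : ℤ) : F)⁻¹ * t))) (Subgroup.inv_mem _ hnj)
      rw [hF.nS_conj_xG hj hs] at h3
      rwa [← mul_assoc, mul_inv_cancel₀ (hF.eta_ne hj hs), one_mul] at h3
  have hle : D.leviSubgroup F J ≤ M := by
    apply sup_le
    · intro h hh
      rw [hM]
      have h3 := (Subgroup.mem_set_normalizer_iff.1 (hF.monomial_le_normalizer (Subgroup.inv_mem _ hn)) h).1 hh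
      rw [inv_inv] at h3
      exact hF.borel_le_parabolic K (hF.c.diagonal_le_borel h3)
    · rw [Subgroup.closure_le]
      rintro g ⟨r, t, hr, hg⟩
      rw [SetLike.mem_coe, hF.c.eq_xG hg]
      exact hxG r hr t
  exact (hM l).1 (hle hl)

variable {p : ℕ} [hp : Fact p.Prime] [CharP F p]

/-- The data for `St_pm`. -/
theorem hdata_chev [Fintype F] (J : Finset ℕ) (hJ : J ⊆ Finset.range D.rank) :
    ∃ V L : Subgroup ↥(D.group F), V ≤ (hF.bnPair F).B ∧ V ≤ Par (hF.bnPair F) (sig hF F) J ∧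
      Par (hF.bnPair F) (sig hF F) J ≤ Subgroup.normalizer (V : Set ↥(D.group F)) ∧ IsPGroup p V ∧
      (∀ x ∈ Par (hF.bnPair F) (sig hF F) J, ∃ v ∈ V, ∃ l ∈ L, x = v * l) ∧
      (∀ j ∈ J, sig hF F j ∈ L) ∧
      (∀ n ∈ (hF.bnPair F).N, ∀ K ⊆ Finset.range D.rank,
        LR (hF.bnPair F) (sig hF F '' (J : Set ℕ)) (pi (hF.bnPair F) n) →
        (∀ j ∈ J, ∃ i ∈ K, pi (hF.bnPair F) n * pi (hF.bnPair F) (sig hF F i) =
          pi (hF.bnPair F) (sig hF F j) * pi (hF.bnPair F) n) →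
        ∀ l ∈ L, n⁻¹ * l * n ∈ Par (hF.bnPair F) (sig hF F) K) ∧
      (∀ n₀ ∈ (hF.bnPair F).N, FullD (SW (hF.bnPair F)) (lW (hF.bnPair F)) (pi (hF.bnPair F) n₀) →
        ∀ v ∈ V, n₀⁻¹ * v * n₀ ∈ (hF.bnPair F).B → v = 1) := by
  have hB : (hF.bnPair F).B = (D.borelSubgroup F).subgroupOf (D.group F) := rfl
  have hN : (hF.bnPair F).N = (D.monomialSubgroup F).subgroupOf (D.group F) := rfl
  refine ⟨(D.unipotentRadical F (J : Set ℕ)).subgroupOf (D.group F),
    (D.leviSubgroup F (J : Set ℕ)).subgroupOf (D.group F), ?_, ?_, ?_, ?_, ?_, ?_, ?_, ?_⟩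
  · intro x hx
    rw [hB]
    exact Subgroup.mem_subgroupOf.2 (hF.c.posUnipotent_le_borel (hF.radical_le_U _ (Subgroup.mem_subgroupOf.1 hx)))
  · intro x hx
    exact (mem_par_iff' hF hJ).2 (radical_le_parabolic hF _ (Subgroup.mem_subgroupOf.1 hx))
  · intro x hx
    have h1 := hF.parabolic_le_normalizer (J : Set ℕ) ((mem_par_iff' hF hJ).1 hx)
    rw [Subgroup.mem_set_normalizer_iff]
    intro y
    exact (Subgroup.mem_set_normalizer_iff.1 h1 y.1)
  · apply (isPGroup_UU hF (F := F) (p := p)).to_le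
    intro x hx
    exact Subgroup.mem_subgroupOf.2 (hF.radical_le_U _ (Subgroup.mem_subgroupOf.1 hx))
  · intro x hx
    have h1 := (mem_par_iff' hF hJ).1 hx
    rw [← hF.radical_sup_levi (J : Set ℕ)] at h1
    have hLn : D.leviSubgroup F (J : Set ℕ) ≤ Subgroup.normalizer (D.unipotentRadical F (J : Set ℕ) : Set (GL D.Idx F)) :=
      (levi_le_parabolic hF _).trans (hF.parabolic_le_normalizer _)
    obtain ⟨v, hv, l, hl, e⟩ := (Cfsg.Agent.Lib.LocalTools.mem_sup_of_le_normalizer' hLn).1 h1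
    refine ⟨⟨v, radical_le_group' hF _ hv⟩, Subgroup.mem_subgroupOf.2 hv,
      ⟨l, levi_le_group' hF _ hl⟩, Subgroup.mem_subgroupOf.2 hl, Subtype.ext e⟩
  · intro j hj
    have hj' : j < D.rank := Finset.mem_range.1 (hJ hj)
    apply Subgroup.mem_subgroupOf.2
    rw [sig_of_lt hF hj']
    exact nS_mem_levi hF hj' (Finset.mem_coe.2 hj)
  · intro n hn K hK hL hcon l hl
    haveI hNorm := hF.diagonal_normal (F := F)
    have hn1 : n.1 ∈ D.monomialSubgroup F := Subgroup.mem_subgroupOf.1 hn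
    apply (mem_par_iff' hF hK).2
    apply levi_conj_mem hF hn1 _ _ (Subgroup.mem_subgroupOf.1 hl)
    · intro j hjJ hj
      have hjF : j ∈ J := Finset.mem_coe.1 hjJ
      have hasc : lW (hF.bnPair F) (pi (hF.bnPair F) n⁻¹) < lW (hF.bnPair F)
          (pi (hF.bnPair F) n⁻¹ * pi (hF.bnPair F) (sig hF F (⟨j, hj⟩ : Fin D.rank))) := by
        have hS := coxLen (P := hF.bnPair F)
        have h2 := hL _ ⟨sig hF F j, ⟨j, hjF, rfl⟩, rfl⟩
        have hs := pi_sig_mem hF (F := F) (⟨j, hj⟩ : Fin D.rank)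
        rw [pi_inv hn, lW_inv]
        have e : (pi (hF.bnPair F) n)⁻¹ * pi (hF.bnPair F) (sig hF F j) =
            (pi (hF.bnPair F) (sig hF F j) * pi (hF.bnPair F) n)⁻¹ := by
          rw [mul_inv_rev, hS.s_inv hs]
        show lW (hF.bnPair F) (pi (hF.bnPair F) n) < lW (hF.bnPair F)
          ((pi (hF.bnPair F) n)⁻¹ * pi (hF.bnPair F) (sig hF F j))
        rw [e, lW_inv]
        exact h2
      have h3 := pos_of_right_ascent hF (⟨j, hj⟩ : Fin D.rank) _ hasc
      rw [pi_of_mem ((hF.bnPair F).N.inv_mem hn), psiW_mk hF, hF.rhoW_mk] at h3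
      exact h3
    · intro j hjJ hj
      have hjF : j ∈ J := Finset.mem_coe.1 hjJ
      obtain ⟨i, hi, e⟩ := hcon j hjF
      have hsN : sig hF F j ∈ (hF.bnPair F).N :=
        (hF.bnPair F).subset (sig_mem hF (Finset.mem_range.2 hj))
      have hy : n⁻¹ * sig hF F j * n ∈ (hF.bnPair F).N :=
        (hF.bnPair F).N.mul_mem ((hF.bnPair F).N.mul_mem ((hF.bnPair F).N.inv_mem hn) hsN) hn
      have h2 : n⁻¹ * sig hF F j * n ∈ Par (hF.bnPair F) (sig hF F) K := by
        rw [mem_par_iff (sig hF F) hK (fun i hi => sig_mem hF hi), del_of_mem hy,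
          pi_mul ((hF.bnPair F).N.mul_mem ((hF.bnPair F).N.inv_mem hn) hsN) hn,
          pi_mul ((hF.bnPair F).N.inv_mem hn) hsN, pi_inv hn]
        have e2 : (pi (hF.bnPair F) n)⁻¹ * pi (hF.bnPair F) (sig hF F j) * pi (hF.bnPair F) n =
            pi (hF.bnPair F) (sig hF F i) := by
          rw [mul_assoc, ← e]
          group
        rw [e2]
        exact Subgroup.subset_closure ⟨sig hF F i, ⟨i, hi, rfl⟩, rfl⟩
      have h3 := (mem_par_iff' hF hK).1 h2
      rw [← sig_of_lt hF hj]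
      exact h3
  · intro n₀ hn₀ hf v hv hc
    have hS := coxLen (P := hF.bnPair F)
    obtain ⟨n₁, hn₁, hf₁, hiff⟩ := exists_n0 hF (F := F)
    have h1 := hS.eq_of_fullD subset_rfl (by rw [hS.gen]; trivial) (by rw [hS.gen]; trivial) hf₁ hf
    have h2 := (pi_eq_iff hn₁ hn₀).1 h1
    have hvB : v.1 ∈ D.borelSubgroup F :=
      hF.c.posUnipotent_le_borel (hF.radical_le_U _ (Subgroup.mem_subgroupOf.1 hv))
    have h3 : n₁⁻¹ * v * n₁ ∈ (hF.bnPair F).B := by
      have e : n₁⁻¹ * v * n₁ = (n₁⁻¹ * n₀) * (n₀⁻¹ * v * n₀) * (n₁⁻¹ * n₀)⁻¹ := by group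
      rw [e]
      exact (hF.bnPair F).B.mul_mem ((hF.bnPair F).B.mul_mem h2 hc) ((hF.bnPair F).B.inv_mem h2)
    have h4 : (n₁ : GL D.Idx F)⁻¹ * v.1 * n₁.1 ∈ D.borelSubgroup F := Subgroup.mem_subgroupOf.1 h3
    have h5 := (hiff ⟨v.1, hvB⟩).2 h4
    have h6 : v.1 ∈ D.posUnipotent F ⊓ D.diagonalSubgroup F :=
      ⟨hF.radical_le_U _ (Subgroup.mem_subgroupOf.1 hv), h5⟩
    rw [hF.U_inf_H, Subgroup.mem_bot] at h6
    exact Subtype.ext h6

/-- The value of the Steinberg character at a `p'`-element. -/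
theorem steinberg_semisimple [Fintype F] (g : ↥(D.group F)) (hg : ¬ p ∣ orderOf g) :
    D.steinbergCharacter F g =
        ((p ^ (Nat.card ↥(Subgroup.centralizer ({g} : Set ↥(D.group F)))).factorization p : ℕ) : ℂ) ∨
      D.steinbergCharacter F g =
        -((p ^ (Nat.card ↥(Subgroup.centralizer ({g} : Set ↥(D.group F)))).factorization p : ℕ) : ℂ) := by
  rw [steinberg_eq hF]
  apply St_pm (sig hF F) (fun s hs => exists_sig hF hs) (fun i hi => sig_mem hF hi)
    (sig_injOn hF) _ _ g hg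
  · intro x hx
    rw [← steinberg_eq hF]
    exact steinberg_vanish hF x hx
  · intro J hJ
    exact hdata_chev hF J hJ

end Cfsg.Agent.Lib.StChev50
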