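import Mathlib
set_option autoImplicit false

/-!
# Semisimple `F[X]`-modules over a finite field: characteristic polynomials and homomorphism counts
-/

namespace Cfsg.Agent.Lib.StVal

open Polynomial UniqueFactorizationMonoid

universe u

variable {F : Type u} [Field F] [DecidableEq F]

section xE
variable (F)
variable (N : Type u) [AddCommGroup N] [Module F N] [Module F[X] N] [IsScalarTower F F[X] N]

/-- Multiplication by `X` as an `F`-linear map. -/
noncomputable def xE : Module.End F N := (LinearMap.lsmul F[X] N X).restrictScalars F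

variable {N}

lemma xE_apply (v : N) : xE F N v = (X : F[X]) • v := rfl

lemma aeval_xE_apply (p : F[X]) (v : N) : aeval (xE F N) p v = p • v := by
  induction p using Polynomial.induction_on' with
  | add p q hp hq => simp only [map_add, LinearMap.add_apply, hp, hq, add_smul]
  | monomial n a =>
    rw [aeval_monomial, Module.End.mul_apply, ← C_mul_X_pow_eq_monomial, mul_smul]
    have h : ((xE F N) ^ n) v = (X ^ n : F[X]) • v := by
      induction n generalizing v with
      | zero => simp
      | succ n ih => rw [pow_succ, Module.End.mul_apply, ih, xE_apply, pow_succ, mul_smul]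
    rw [h, Module.algebraMap_end_apply, ← smul_assoc, C_eq_algebraMap]
    rw [algebraMap_smul, smul_assoc]

end xE

section cp
variable (F)
variable (N : Type u) [AddCommGroup N] [Module F N] [Module F[X] N] [IsScalarTower F F[X] N]
  [Module.Finite F N]

/-- The characteristic polynomial of multiplication by `X`. -/
noncomputable def cp : F[X] := (xE F N).charpoly

lemma cp_monic : (cp F N).Monic := LinearMap.charpoly_monic _

lemma cp_natDegree : (cp F N).natDegree = Module.finrank F N := LinearMap.charpoly_natDegree _

variable {N}

lemma cp_smul (v : N) : (cp F N) • v = 0 := by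
  rw [← aeval_xE_apply, cp, LinearMap.aeval_self_charpoly]; rfl

variable {F}
variable {N' : Type u} [AddCommGroup N'] [Module F N'] [Module F[X] N'] [IsScalarTower F F[X] N']
  [Module.Finite F N']

lemma cp_congr (e : N ≃ₗ[F[X]] N') : cp F N = cp F N' := by
  unfold cp
  rw [← LinearEquiv.charpoly_conj (e.restrictScalars F) (xE F N)]
  congr 1
  ext v
  simp [LinearEquiv.conj_apply, xE_apply]

lemma cp_prod : cp F (N × N') = cp F N * cp F N' := by
  unfold cp
  rw [← LinearMap.charpoly_prodMap]
  congr 1

end cp

section simple
variable {N : Type u} [AddCommGroup N] [Module F N] [Module F[X] N] [IsScalarTower F F[X] N]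
  [Module.Finite F N]

/-- For `g` monic the char. polynomial of `X` on `F[X]/(g)` is `g`. -/
lemma cp_quot (g : F[X]) (hg : g.Monic) :
    haveI := hg.finite_quotient
    cp F (F[X] ⧸ Ideal.span {g}) = g := by
  haveI := hg.finite_quotient
  have h1 : g ∣ cp F (F[X] ⧸ Ideal.span {g}) := by
    have h := cp_smul F (Ideal.Quotient.mk (Ideal.span {g}) (1 : F[X]))
    rw [← Ideal.mem_span_singleton, ← Ideal.Quotient.eq_zero_iff_mem]
    rw [← h]
    conv_lhs => rw [← mul_one (cp F (F[X] ⧸ Ideal.span {g}))]
    rfl
  refine (Polynomial.eq_of_monic_of_dvd_of_natDegree_le hg (cp_monic _ _) h1 ?_)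
  rw [cp_natDegree, finrank_quotient_span_eq_natDegree' hg]

/-- Structure of a simple `F[X]`-module. -/
lemma simple_data [IsSimpleModule F[X] N] :
    Irreducible (cp F N) ∧ Nonempty (N ≃ₗ[F[X]] F[X] ⧸ Ideal.span {cp F N}) := by
  obtain ⟨I, hI, ⟨e⟩⟩ := isSimpleModule_iff_quot_maximal.1 (inferInstance : IsSimpleModule F[X] N)
  -- `cp N` lies in `I`
  have hmem : cp F N ∈ I := by
    have h := cp_smul F (e.symm (Ideal.Quotient.mk I (1 : F[X])))
    rw [← map_smul, LinearEquiv.map_eq_zero_iff] at h
    rw [← Ideal.Quotient.eq_zero_iff_mem, ← h]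
    conv_lhs => rw [← mul_one (cp F N)]
    rfl
  have hne : cp F N ≠ 0 := (cp_monic F N).ne_zero
  have hI0 : I ≠ ⊥ := by
    rintro rfl
    exact hne ((Submodule.mem_bot _).1 hmem)
  obtain ⟨g₀, rfl⟩ := (IsPrincipalIdealRing.principal I).principal
  have hg₀ : g₀ ≠ 0 := by
    rintro rfl
    exact hI0 (by simp)
  set g := normalize g₀ with hg
  have hmonic : g.Monic := Polynomial.monic_normalize hg₀
  have hspan : (Submodule.span F[X] {g₀} : Ideal F[X]) = Ideal.span {g} := by
    change Ideal.span {g₀} = Ideal.span {g}
    exact Ideal.span_singleton_eq_span_singleton.2 (normalize_associated g₀).symm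
  rw [hspan] at hI hmem e
  have hgne : g ≠ 0 := hmonic.ne_zero
  have hprime : Prime g := (Ideal.span_singleton_prime hgne).1 hI.isPrime
  have hcp : cp F N = g := by
    haveI := hmonic.finite_quotient
    rw [cp_congr e, cp_quot g hmonic]
  rw [hcp]
  exact ⟨hprime.irreducible, ⟨e⟩⟩

lemma irreducible_cp [IsSimpleModule F[X] N] : Irreducible (cp F N) := simple_data.1

variable {S : Type u} [AddCommGroup S] [Module F[X] S]

/-- Homomorphisms out of `F[X]/(g)`. -/
noncomputable def homQuot (g : F[X]) (h : ∀ w : S, g • w = 0) :
    (F[X] ⧸ Ideal.span {g} →ₗ[F[X]] S) ≃ S where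
  toFun φ := φ (Ideal.Quotient.mk _ 1)
  invFun w := Submodule.liftQ (Ideal.span {g}) (LinearMap.toSpanSingleton F[X] S w) (by
    rw [Ideal.span, Submodule.span_le]
    rintro _ rfl
    simpa using h w)
  left_inv φ := by
    apply Submodule.linearMap_qext
    apply LinearMap.ext_ring
    simp only [LinearMap.comp_apply, Submodule.mkQ_apply, Submodule.liftQ_apply,
      LinearMap.toSpanSingleton_apply, one_smul]
    rfl
  right_inv w := by
    change (Submodule.liftQ _ (LinearMap.toSpanSingleton F[X] S w) _) (Submodule.Quotient.mk (1 : F[X])) = w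
    rw [Submodule.liftQ_apply]
    simp

variable [Module F S] [IsScalarTower F F[X] S] [Module.Finite F S]

open scoped Classical in
lemma card_hom_simple [IsSimpleModule F[X] N] [IsSimpleModule F[X] S] :
    Nat.card (N →ₗ[F[X]] S) = if cp F N = cp F S then Nat.card S else 1 := by
  split_ifs with h
  · obtain ⟨e⟩ := (simple_data (F := F) (N := N)).2
    calc Nat.card (N →ₗ[F[X]] S) = Nat.card (F[X] ⧸ Ideal.span {cp F N} →ₗ[F[X]] S) :=
          Nat.card_congr (LinearEquiv.arrowCongr e (LinearEquiv.refl _ _)).toEquiv
      _ = Nat.card S := Nat.card_congr (homQuot (cp F N) (by intro w; rw [h]; exact cp_smul F w))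
  · have : Subsingleton (N →ₗ[F[X]] S) := by
      refine ⟨fun a b => ?_⟩
      have key : ∀ c : N →ₗ[F[X]] S, c = 0 := by
        intro c
        rcases LinearMap.bijective_or_eq_zero c with hc | hc
        · exact absurd (cp_congr (LinearEquiv.ofBijective c hc)) h
        · exact hc
      rw [key a, key b]
    exact Nat.card_unique

end simple

section count
variable [Finite F]
variable {S : Type u} [AddCommGroup S] [Module F S] [Module F[X] S] [IsScalarTower F F[X] S]
  [Finite S] [IsSimpleModule F[X] S]

lemma normalizedFactors_cp_simple {T : Type u} [AddCommGroup T] [Module F T] [Module F[X] T]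
    [IsScalarTower F F[X] T] [Module.Finite F T] [IsSimpleModule F[X] T] :
    normalizedFactors (cp F T) = {cp F T} := by
  rw [normalizedFactors_irreducible (irreducible_cp (F := F) (N := T)),
    (cp_monic F T).normalize_eq_self]

theorem card_hom :
    ∀ (k : ℕ) (N : Type u) [AddCommGroup N] [Module F N] [Module F[X] N] [IsScalarTower F F[X] N]
      [Finite N] [IsSemisimpleModule F[X] N], Nat.card N = k →
      Nat.card (N →ₗ[F[X]] S) =
        Nat.card F ^ ((cp F S).natDegree * (normalizedFactors (cp F N)).count (cp F S)) := by
  classical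
  intro k
  induction k using Nat.strong_induction_on with
  | _ k ih =>
    intro N _ _ _ _ _ _ hk
    rcases subsingleton_or_nontrivial N with hN | hN
    · have h1 : cp F N = 1 := by
        apply (Polynomial.Monic.natDegree_eq_zero (cp_monic F N)).1
        rw [cp_natDegree]
        exact Module.finrank_zero_of_subsingleton
      rw [h1, normalizedFactors_one]
      simp only [Multiset.count_zero, mul_zero, pow_zero]
      haveI : Unique (N →ₗ[F[X]] S) := LinearMap.uniqueOfLeft
      exact Nat.card_unique
    · obtain ⟨T, hT⟩ := IsSemisimpleModule.exists_simple_submodule F[X] N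
      obtain ⟨T', hT'⟩ := exists_isCompl T
      let e := Submodule.prodEquivOfIsCompl T T' hT'
      have hcp : cp F N = cp F T * cp F T' := by
        rw [← cp_congr e, cp_prod]
      have hcard : Nat.card N = Nat.card T * Nat.card T' := by
        rw [← Nat.card_prod]
        exact (Nat.card_congr e.toEquiv).symm
      have h1T : 1 < Nat.card T := by
        haveI : Nontrivial T := IsSimpleModule.nontrivial F[X] T
        exact Finite.one_lt_card
      have hT'pos : 0 < Nat.card T' := Nat.card_pos
      have hlt : Nat.card T' < k := by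
        rw [← hk, hcard]
        nlinarith
      have hind := ih _ hlt T' rfl
      have hhom : Nat.card (N →ₗ[F[X]] S) = Nat.card (T →ₗ[F[X]] S) * Nat.card (T' →ₗ[F[X]] S) := by
        rw [← Nat.card_prod]
        refine Nat.card_congr ?_
        exact (LinearEquiv.arrowCongr e.symm (LinearEquiv.refl _ _)).toEquiv.trans
          (LinearMap.coprodEquiv (R := F[X]) (S := F[X])).symm.toEquiv
      rw [hhom, hind, card_hom_simple (N := T) (S := S), hcp,
        normalizedFactors_mul (cp_monic F T).ne_zero (cp_monic F T').ne_zero,
        Multiset.count_add, normalizedFactors_cp_simple (T := T), Multiset.count_singleton]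
      have hS : Nat.card S = Nat.card F ^ (cp F S).natDegree := by
        rw [cp_natDegree, Module.natCard_eq_pow_finrank (K := F)]
      by_cases h : cp F T = cp F S
      · rw [if_pos h, if_pos h.symm, hS, ← pow_add]
        congr 1
        ring
      · rw [if_neg h, if_neg (Ne.symm h)]
        simp

end count

end Cfsg.Agent.Lib.StVal
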