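import Mathlib
import Cfsg.Agent.Lib.StVal1
set_option autoImplicit false
set_option linter.unusedSectionVars false

/-!
# The signed sum over submodules of a semisimple `F[X]`-module
-/

namespace Cfsg.Agent.Lib.StVal

open Polynomial UniqueFactorizationMonoid Finset

universe u

variable {F : Type u} [Field F] [DecidableEq F]

/-- The weight of one irreducible factor. -/
noncomputable def wt (q : ℕ) (f : F[X]) (m : ℕ) : ℂ :=
  (-1 : ℂ) ^ ((f.natDegree - 1) * m) * (q : ℂ) ^ (f.natDegree * m * (m - 1) / 2)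

/-- The value in the statement. -/
noncomputable def tau (q : ℕ) (P : F[X]) : ℂ :=
  ∏ f ∈ (normalizedFactors P).toFinset, wt q f ((normalizedFactors P).count f)

lemma wt_zero (q : ℕ) (f : F[X]) : wt q f 0 = 1 := by simp [wt]

lemma tau_eq (q : ℕ) (P : F[X]) (A : Finset F[X]) (hA : (normalizedFactors P).toFinset ⊆ A) :
    tau q P = ∏ f ∈ A, wt q f ((normalizedFactors P).count f) := by
  unfold tau
  apply Finset.prod_subset hA
  intro f _ hf
  rw [Multiset.mem_toFinset] at hf
  rw [Multiset.count_eq_zero_of_notMem hf, wt_zero]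

lemma wt_succ (q : ℕ) (f : F[X]) (m : ℕ) :
    wt q f (m + 1) = (-1 : ℂ) ^ (f.natDegree - 1) * (q : ℂ) ^ (f.natDegree * m) * wt q f m := by
  unfold wt
  have h1 : f.natDegree * (m + 1) * (m + 1 - 1) / 2 = f.natDegree * m + f.natDegree * m * (m - 1) / 2 := by
    rcases m with _ | k
    · simp
    · have : f.natDegree * (k + 1 + 1) * (k + 1 + 1 - 1) =
          f.natDegree * (k + 1) * (k + 1 - 1) + (f.natDegree * (k + 1)) * 2 := by
        simp only [Nat.add_sub_cancel]
        ring
      rw [this, Nat.add_mul_div_right _ _ (by norm_num : 0 < 2), add_comm]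
  rw [h1, pow_add, mul_add, pow_add, mul_one]
  ring

lemma tau_mul (q : ℕ) {f P : F[X]} (hf : Irreducible f) (hfm : f.Monic) (hP : P ≠ 0) :
    tau q (f * P) = (-1 : ℂ) ^ (f.natDegree - 1) *
      (q : ℂ) ^ (f.natDegree * (normalizedFactors P).count f) * tau q P := by
  classical
  have hNF : normalizedFactors (f * P) = f ::ₘ normalizedFactors P := by
    rw [normalizedFactors_mul hf.ne_zero hP, normalizedFactors_irreducible hf,
      hfm.normalize_eq_self, Multiset.singleton_add]
  set A := insert f (normalizedFactors P).toFinset with hA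
  have h1 : (normalizedFactors (f * P)).toFinset ⊆ A := by
    intro g hg
    rw [hNF, Multiset.mem_toFinset, Multiset.mem_cons] at hg
    rw [hA, Finset.mem_insert, Multiset.mem_toFinset]
    exact hg
  have h2 : (normalizedFactors P).toFinset ⊆ A := Finset.subset_insert _ _
  rw [tau_eq q _ A h1, tau_eq q P A h2]
  -- separate `f`
  have hfA : f ∈ A := Finset.mem_insert_self f _
  rw [← Finset.mul_prod_erase A _ hfA, ← Finset.mul_prod_erase A _ hfA]
  have h3 : ∏ g ∈ A.erase f, wt q g ((normalizedFactors (f * P)).count g) =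
      ∏ g ∈ A.erase f, wt q g ((normalizedFactors P).count g) := by
    apply Finset.prod_congr rfl
    intro g hg
    rw [hNF, Multiset.count_cons_of_ne (Finset.ne_of_mem_erase hg)]
  rw [h3, hNF, Multiset.count_cons_self, wt_succ]
  ring

/-- The signed version. -/
noncomputable def gam (q : ℕ) (P : F[X]) : ℂ := (-1 : ℂ) ^ P.natDegree * tau q P

lemma gam_one (q : ℕ) : gam q (1 : F[X]) = 1 := by
  simp [gam, tau]

lemma gam_mul (q : ℕ) {f P : F[X]} (hf : Irreducible f) (hfm : f.Monic) (hPm : P.Monic) :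
    gam q (f * P) = -(q : ℂ) ^ (f.natDegree * (normalizedFactors P).count f) * gam q P := by
  unfold gam
  rw [hfm.natDegree_mul hPm, tau_mul q hf hfm hPm.ne_zero]
  have hd : 0 < f.natDegree := hf.natDegree_pos
  obtain ⟨d, hd'⟩ : ∃ d, f.natDegree = d + 1 := ⟨f.natDegree - 1, by omega⟩
  rw [hd']
  simp only [Nat.add_sub_cancel]
  have : (-1 : ℂ) ^ (d + 1 + P.natDegree) * (-1 : ℂ) ^ d = -(-1 : ℂ) ^ P.natDegree := by
    have h2 : (-1 : ℂ) ^ d * (-1 : ℂ) ^ d = 1 := by rw [← mul_pow]; simp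
    rw [pow_add, pow_add, pow_one]
    linear_combination (-(-1 : ℂ) ^ P.natDegree) * h2
  linear_combination ((q : ℂ) ^ ((d + 1) * (normalizedFactors P).count f) * tau q P) * this

section main
variable {M : Type u} [AddCommGroup M] [Module F M] [Module F[X] M] [IsScalarTower F F[X] M]
  [Finite M]

/-- Internal direct sums. -/
noncomputable def supEquiv {S U Y : Submodule F[X] M} (h1 : S ⊔ U = Y) (h2 : S ⊓ U = ⊥) :
    (S × U) ≃ₗ[F[X]] Y :=
  LinearEquiv.ofBijective
    (LinearMap.codRestrict Y (S.subtype.coprod U.subtype) (by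
      rintro ⟨a, b⟩
      rw [← h1]
      simpa using Submodule.add_mem_sup a.2 b.2))
    (by
      constructor
      · rintro ⟨a, b⟩ ⟨a', b'⟩ h
        have h' : (a : M) + b = a' + b' := by simpa using congrArg Subtype.val h
        have h3 : (a : M) - a' = b' - b := by
          rw [sub_eq_sub_iff_add_eq_add, h', add_comm]
        have h4 : (a : M) - a' ∈ S ⊓ U := by
          refine ⟨S.sub_mem a.2 a'.2, ?_⟩
          rw [h3]
          exact U.sub_mem b'.2 b.2
        rw [h2, Submodule.mem_bot] at h4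
        have h5 : a = a' := Subtype.ext (sub_eq_zero.1 h4)
        have h6 : b = b' := by
          rw [h4] at h3
          exact Subtype.ext (sub_eq_zero.1 h3.symm).symm
        rw [h5, h6]
      · rintro ⟨y, hy⟩
        rw [← h1, Submodule.mem_sup] at hy
        obtain ⟨a, ha, b, hb, rfl⟩ := hy
        exact ⟨(⟨a, ha⟩, ⟨b, hb⟩), by ext; simp⟩)

lemma supEquiv_apply {S U Y : Submodule F[X] M} (h1 : S ⊔ U = Y) (h2 : S ⊓ U = ⊥) (p : S × U) :
    (supEquiv h1 h2 p : M) = p.1 + p.2 := by
  change (S.subtype.coprod U.subtype) p = _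
  simp

lemma cp_sup {S U Y : Submodule F[X] M} (h1 : S ⊔ U = Y) (h2 : S ⊓ U = ⊥) :
    cp F Y = cp F S * cp F U := by
  rw [← cp_congr (supEquiv h1 h2), cp_prod]

/-- The graph of a homomorphism. -/
noncomputable def gr {S U₀ : Submodule F[X] M} (φ : U₀ →ₗ[F[X]] S) : Submodule F[X] M :=
  LinearMap.range (U₀.subtype + S.subtype ∘ₗ φ)

lemma mem_gr {S U₀ : Submodule F[X] M} (φ : U₀ →ₗ[F[X]] S) (x : M) :
    x ∈ gr φ ↔ ∃ u : U₀, (u : M) + φ u = x := by
  simp [gr, LinearMap.mem_range]

lemma card_compl {S U₀ Y : Submodule F[X] M} (h1 : S ⊔ U₀ = Y) (h2 : S ⊓ U₀ = ⊥) :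
    Nat.card {U : Submodule F[X] M // S ⊔ U = Y ∧ S ⊓ U = ⊥} = Nat.card (U₀ →ₗ[F[X]] S) := by
  symm
  have hSY : S ≤ Y := h1 ▸ le_sup_left
  have hUY : U₀ ≤ Y := h1 ▸ le_sup_right
  have hdisj : ∀ u : M, u ∈ U₀ → u ∈ S → u = 0 := by
    intro u hu hu'
    have : u ∈ S ⊓ U₀ := ⟨hu', hu⟩
    rwa [h2, Submodule.mem_bot] at this
  refine Nat.card_congr (Equiv.ofBijective (fun φ => ⟨gr φ, ?_, ?_⟩) ⟨?_, ?_⟩)
  · apply le_antisymm
    · apply sup_le hSY
      intro x hx
      obtain ⟨u, rfl⟩ := (mem_gr φ x).1 hx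
      exact Y.add_mem (hUY u.2) (hSY (φ u).2)
    · rw [← h1]
      apply sup_le le_sup_left
      intro u hu
      have h3 : u = ((⟨u, hu⟩ : U₀) : M) + φ ⟨u, hu⟩ - φ ⟨u, hu⟩ := by simp
      rw [h3]
      apply Submodule.sub_mem
      · exact Submodule.mem_sup_right ((mem_gr φ _).2 ⟨⟨u, hu⟩, rfl⟩)
      · exact Submodule.mem_sup_left (φ ⟨u, hu⟩).2
  · rw [eq_bot_iff]
    rintro x ⟨hx, hx'⟩
    obtain ⟨u, rfl⟩ := (mem_gr φ x).1 hx'
    have h3 : (u : M) ∈ S := by
      have := S.sub_mem hx (φ u).2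
      simpa using this
    have h4 := hdisj u u.2 h3
    have h5 : u = 0 := Subtype.ext h4
    simp [h5]
  · intro φ ψ h
    have h' : gr φ = gr ψ := congrArg Subtype.val h
    ext u
    have h3 : (u : M) + φ u ∈ gr ψ := by
      rw [← h']
      exact (mem_gr φ _).2 ⟨u, rfl⟩
    obtain ⟨u', hu'⟩ := (mem_gr ψ _).1 h3
    have h4 : (u' : M) - u = φ u - ψ u' := by
      rw [sub_eq_sub_iff_add_eq_add, hu', add_comm]
    have h5 : (u' : M) - u = 0 := by
      apply hdisj
      · exact U₀.sub_mem u'.2 u.2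
      · rw [h4]
        exact S.sub_mem (φ u).2 (ψ u').2
    have h6 : u' = u := Subtype.ext (sub_eq_zero.1 h5)
    rw [h6] at h4 h5
    rw [h5] at h4
    exact (sub_eq_zero.1 h4.symm)
  · rintro ⟨U, hU1, hU2⟩
    let e := supEquiv hU1 hU2
    let φ : U₀ →ₗ[F[X]] S := -(LinearMap.fst F[X] S U ∘ₗ e.symm.toLinearMap ∘ₗ Submodule.inclusion hUY)
    have hφ : ∀ u : U₀, (u : M) + φ u = ((e.symm (Submodule.inclusion hUY u)).2 : M) := by
      intro u
      have h3 := supEquiv_apply hU1 hU2 (e.symm (Submodule.inclusion hUY u))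
      have h4 : (supEquiv hU1 hU2 (e.symm (Submodule.inclusion hUY u)) : M) = u := by
        change ((e (e.symm (Submodule.inclusion hUY u)) : Y) : M) = u
        rw [LinearEquiv.apply_symm_apply]
        rfl
      rw [h4] at h3
      simp only [φ, LinearMap.neg_apply, LinearMap.comp_apply, LinearMap.fst_apply,
        Submodule.coe_neg]
      change (u : M) + -((e.symm (Submodule.inclusion hUY u)).1 : M) = _
      rw [h3]
      abel
    refine ⟨φ, Subtype.ext ?_⟩
    apply le_antisymm
    · intro x hx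
      obtain ⟨u, rfl⟩ := (mem_gr φ x).1 hx
      rw [hφ]
      exact (e.symm (Submodule.inclusion hUY u)).2.2
    · intro a ha
      have haY : a ∈ Y := hU1 ▸ Submodule.mem_sup_right ha
      rw [← h1, Submodule.mem_sup] at haY
      obtain ⟨s, hs, u, hu, rfl⟩ := haY
      refine (mem_gr φ _).2 ⟨⟨u, hu⟩, ?_⟩
      rw [hφ]
      have h3 : e.symm (Submodule.inclusion hUY ⟨u, hu⟩) = (⟨-s, S.neg_mem hs⟩, ⟨s + u, ha⟩) := by
        rw [LinearEquiv.symm_apply_eq]
        apply Subtype.ext
        change ((⟨u, hu⟩ : U₀) : M) = (supEquiv hU1 hU2 _ : M)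
        rw [supEquiv_apply]
        simp
      rw [h3]

section count
variable [Finite F] [IsSemisimpleModule F[X] M]

open scoped Classical in
theorem sum_gam [Fintype (Submodule F[X] M)] (W : Submodule F[X] M) (hW : W ≠ ⊥) :
    ∑ U ∈ univ.filter (· ≤ W), gam (Nat.card F) (cp F U) = 0 := by
  classical
  obtain ⟨S, hS, hSW⟩ := (eq_bot_or_exists_atom_le W).resolve_left hW
  haveI : IsSimpleModule F[X] S := isSimpleModule_iff_isAtom.2 hS
  have hf : Irreducible (cp F S) := irreducible_cp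
  have hfm : (cp F S).Monic := cp_monic _ _
  rw [← Finset.sum_fiberwise_of_maps_to (s := univ.filter (· ≤ W))
    (t := univ.filter (fun Y => S ≤ Y ∧ Y ≤ W)) (g := fun U => U ⊔ S)]
  · apply Finset.sum_eq_zero
    intro Y hY
    rw [Finset.mem_filter] at hY
    obtain ⟨-, hSY, hYW⟩ := hY
    -- a complement
    obtain ⟨U₁, hU₁⟩ := exists_isCompl S
    set U₀ := U₁ ⊓ Y with hU₀
    have h1 : S ⊔ U₀ = Y := by
      rw [hU₀, ← sup_inf_assoc_of_le U₁ hSY, hU₁.sup_eq_top, top_inf_eq]
    have h2 : S ⊓ U₀ = ⊥ := by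
      rw [eq_bot_iff, ← hU₁.inf_eq_bot]
      exact inf_le_inf_left S inf_le_left
    set P := cp F U₀ with hP
    have hPm : P.Monic := cp_monic _ _
    set B : Finset (Submodule F[X] M) := univ.filter (fun U => S ⊔ U = Y ∧ S ⊓ U = ⊥) with hB
    have hA : ((univ.filter (· ≤ W)).filter (fun U => U ⊔ S = Y)) = insert Y B := by
      ext U
      simp only [Finset.mem_filter, Finset.mem_univ, true_and, Finset.mem_insert, hB]
      constructor
      · rintro ⟨hUW, hUS⟩
        by_cases hSU : S ≤ U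
        · left
          rw [← hUS, sup_eq_left.2 hSU]
        · right
          refine ⟨by rw [sup_comm]; exact hUS, ?_⟩
          rcases hS.le_iff.1 (inf_le_left : S ⊓ U ≤ S) with h | h
          · exact h
          · exact absurd (h ▸ inf_le_right) hSU
      · rintro (rfl | ⟨h3, _⟩)
        · exact ⟨hYW, sup_eq_left.2 hSY⟩
        · refine ⟨?_, by rw [sup_comm]; exact h3⟩
          exact le_trans (h3 ▸ le_sup_right) hYW
    have hYB : Y ∉ B := by
      rw [hB, Finset.mem_filter]
      rintro ⟨-, -, h⟩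
      rw [inf_eq_left.2 hSY] at h
      exact hS.1 h
    rw [hA, Finset.sum_insert hYB]
    have hval : ∀ U ∈ B, gam (Nat.card F) (cp F U) = gam (Nat.card F) P := by
      intro U hU
      rw [hB, Finset.mem_filter] at hU
      have h3 := cp_sup (F := F) hU.2.1 hU.2.2
      have h4 := cp_sup (F := F) h1 h2
      rw [h4] at h3
      rw [← mul_left_cancel₀ hfm.ne_zero h3]
    rw [Finset.sum_congr rfl hval, Finset.sum_const, cp_sup (F := F) h1 h2, gam_mul _ hf hfm hPm]
    have hcard : B.card = Nat.card F ^ ((cp F S).natDegree * (normalizedFactors P).count (cp F S)) := by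
      rw [← card_hom _ U₀ rfl, ← card_compl h1 h2]
      exact (Nat.subtype_card B (by simp [hB])).symm
    rw [hcard, nsmul_eq_mul]
    push_cast
    ring
  · intro U hU
    rw [Finset.mem_filter] at hU ⊢
    exact ⟨Finset.mem_univ _, le_sup_right, sup_le hU.2 hSW⟩

end count

end main

end Cfsg.Agent.Lib.StVal
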