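import Mathlib
set_option autoImplicit false
set_option linter.unusedSectionVars false

/-!
# Chain sums on a finite partial order
-/

namespace Cfsg.Agent.Lib.StVal

open Finset

section chain
variable {α : Type*} [PartialOrder α] [OrderBot α] [Fintype α]

open scoped Classical in
/-- Chains from the bottom to `y`. -/
noncomputable def chains (y : α) : Finset (Finset α) :=
  (univ : Finset (Finset α)).filter
    (fun C => IsChain (· ≤ ·) (C : Set α) ∧ ⊥ ∈ C ∧ y ∈ C ∧ ∀ a ∈ C, a ≤ y)

open scoped Classical in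
lemma mem_chains (y : α) (C : Finset α) :
    C ∈ chains y ↔ IsChain (· ≤ ·) (C : Set α) ∧ ⊥ ∈ C ∧ y ∈ C ∧ ∀ a ∈ C, a ≤ y := by
  simp [chains]

/-- The chain sum. -/
noncomputable def csum (y : α) : ℂ := ∑ C ∈ chains y, (-1 : ℂ) ^ (C.card + 1)

open scoped Classical in
lemma chains_bot : chains (⊥ : α) = {{⊥}} := by
  ext C
  rw [mem_chains, Finset.mem_singleton]
  constructor
  · rintro ⟨-, h, -, h2⟩
    ext a
    rw [Finset.mem_singleton]
    constructor
    · intro ha
      exact le_bot_iff.1 (h2 a ha)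
    · rintro rfl
      exact h
  · rintro rfl
    refine ⟨by simp, by simp, by simp, by simp⟩

lemma csum_bot : csum (⊥ : α) = 1 := by
  classical
  unfold csum
  rw [chains_bot]
  simp

open scoped Classical in
lemma chains_eq (y : α) (hy : y ≠ ⊥) :
    chains y = (univ.filter (· < y)).biUnion (fun x => (chains x).image (insert y)) := by
  ext C
  simp only [Finset.mem_biUnion, Finset.mem_image, Finset.mem_filter, Finset.mem_univ, true_and]
  constructor
  · intro hC
    obtain ⟨h1, h2, h3, h4⟩ := (mem_chains _ _).1 hC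
    have hne : (C.erase y).Nonempty := ⟨⊥, Finset.mem_erase.2 ⟨hy.symm, h2⟩⟩
    obtain ⟨x, hx⟩ := (C.erase y).exists_maximal hne
    have hxmem : x ∈ C.erase y := hx.1
    have hxC : x ∈ C := Finset.mem_of_mem_erase hxmem
    have hxy : x ≠ y := Finset.ne_of_mem_erase hxmem
    have hmax : ∀ a ∈ C.erase y, a ≤ x := by
      intro a ha
      by_cases hax : a = x
      · rw [hax]
      · rcases h1 (Finset.mem_coe.2 (Finset.mem_of_mem_erase ha)) (Finset.mem_coe.2 hxC) hax with h | h
        · exact h
        · exact hx.2 ha h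
    refine ⟨x, lt_of_le_of_ne (h4 x hxC) hxy, C.erase y, ?_, Finset.insert_erase h3⟩
    rw [mem_chains]
    refine ⟨h1.mono (by simp), Finset.mem_erase.2 ⟨hy.symm, h2⟩, hxmem, hmax⟩
  · rintro ⟨x, hx, C', hC', rfl⟩
    obtain ⟨h1, h2, h3, h4⟩ := (mem_chains _ _).1 hC'
    rw [mem_chains]
    refine ⟨?_, Finset.mem_insert_of_mem h2, Finset.mem_insert_self _ _, ?_⟩
    · rw [Finset.coe_insert]
      apply h1.insert
      intro a ha _
      exact Or.inr (le_trans (h4 a ha) hx.le)
    · intro a ha
      rcases Finset.mem_insert.1 ha with rfl | ha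
      · exact le_rfl
      · exact le_trans (h4 a ha) hx.le

open scoped Classical in
lemma notMem_of_mem_chains {x y : α} (hxy : x < y) {C : Finset α} (hC : C ∈ chains x) : y ∉ C := by
  intro h
  exact absurd (((mem_chains _ _).1 hC).2.2.2 y h) (not_le_of_gt hxy)

open scoped Classical in
lemma csum_rec (y : α) (hy : y ≠ ⊥) : csum y = -∑ x ∈ univ.filter (· < y), csum x := by
  unfold csum
  rw [chains_eq y hy, Finset.sum_biUnion]
  · rw [← Finset.sum_neg_distrib]
    apply Finset.sum_congr rfl
    intro x hx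
    have hx' : x < y := (Finset.mem_filter.1 hx).2
    rw [Finset.sum_image]
    · rw [← Finset.sum_neg_distrib]
      apply Finset.sum_congr rfl
      intro C hC
      rw [Finset.card_insert_of_notMem (notMem_of_mem_chains hx' hC), pow_succ (-1 : ℂ) (C.card + 1)]
      ring
    · intro C hC C' hC' h
      have h' : insert y C = insert y C' := h
      have := congrArg (fun s => s.erase y) h'
      simp only [Finset.erase_insert (notMem_of_mem_chains hx' hC),
        Finset.erase_insert (notMem_of_mem_chains hx' hC')] at this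
      exact this
  · intro x hx x' hx' hne
    have hx1 : x < y := (Finset.mem_filter.1 (Finset.mem_coe.1 hx)).2
    have hx2 : x' < y := (Finset.mem_filter.1 (Finset.mem_coe.1 hx')).2
    rw [Function.onFun, Finset.disjoint_left]
    intro C hC hC'
    obtain ⟨C₁, hC₁, rfl⟩ := Finset.mem_image.1 hC
    obtain ⟨C₂, hC₂, h⟩ := Finset.mem_image.1 hC'
    have := congrArg (fun s => s.erase y) h
    simp only [Finset.erase_insert (notMem_of_mem_chains hx1 hC₁),
      Finset.erase_insert (notMem_of_mem_chains hx2 hC₂)] at this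
    subst this
    obtain ⟨-, -, h3, h4⟩ := (mem_chains _ _).1 hC₁
    obtain ⟨-, -, h3', h4'⟩ := (mem_chains _ _).1 hC₂
    exact hne (le_antisymm (h4' _ h3) (h4 _ h3'))

open scoped Classical in
/-- A function satisfying the Möbius recursion is the chain sum. -/
theorem eq_csum (g : α → ℂ) (h0 : g ⊥ = 1)
    (h1 : ∀ y, y ≠ ⊥ → ∑ x ∈ univ.filter (· ≤ y), g x = 0) (y : α) : g y = csum y := by
  induction y using WellFoundedLT.induction with
  | ind y ih =>
    by_cases hy : y = ⊥
    · rw [hy, h0, csum_bot]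
    · rw [csum_rec y hy]
      have h2 : univ.filter (· ≤ y) = insert y (univ.filter (· < y)) := by
        ext a
        simp only [Finset.mem_filter, Finset.mem_univ, true_and, Finset.mem_insert]
        exact le_iff_eq_or_lt
      have h3 := h1 y hy
      rw [h2, Finset.sum_insert (by simp)] at h3
      have h4 : ∑ x ∈ univ.filter (· < y), g x = ∑ x ∈ univ.filter (· < y), csum x :=
        Finset.sum_congr rfl (fun x hx => ih x (Finset.mem_filter.1 hx).2)
      rw [h4] at h3
      linear_combination h3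

end chain

section dims
variable {α : Type*} [PartialOrder α] [OrderBot α] [OrderTop α] [Fintype α]

open scoped Classical in
/-- Sets of dimensions. -/
noncomputable def dimSets (n : ℕ) : Finset (Finset ℕ) :=
  (Finset.range (n + 1)).powerset.filter (fun D => 0 ∈ D ∧ n ∈ D)

open scoped Classical in
lemma mem_dimSets (n : ℕ) (D : Finset ℕ) :
    D ∈ dimSets n ↔ (∀ d ∈ D, d ≤ n) ∧ 0 ∈ D ∧ n ∈ D := by
  simp only [dimSets, Finset.mem_filter, Finset.mem_powerset]
  constructor
  · rintro ⟨h, h2⟩
    exact ⟨fun d hd => Nat.lt_succ_iff.1 (Finset.mem_range.1 (h hd)), h2⟩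
  · rintro ⟨h, h2⟩
    exact ⟨fun d hd => Finset.mem_range.2 (Nat.lt_succ_iff.2 (h d hd)), h2⟩

open scoped Classical in
/-- Chains with prescribed set of ranks. -/
noncomputable def rkChains (r : α → ℕ) (D : Finset ℕ) : Finset (Finset α) :=
  (univ : Finset (Finset α)).filter (fun C => IsChain (· ≤ ·) (C : Set α) ∧ C.image r = D)

open scoped Classical in
theorem sum_rkChains (r : α → ℕ) (n : ℕ) (hr : StrictMono r) (hr0 : ∀ a, r a = 0 ↔ a = ⊥)
    (hrn : ∀ a, r a = n ↔ a = ⊤) (hrle : ∀ a, r a ≤ n) :
    ∑ D ∈ dimSets n, (-1 : ℂ) ^ (n + 1 + D.card) * ((rkChains r D).card : ℂ) =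
      (-1 : ℂ) ^ n * csum (⊤ : α) := by
  have hcard : ∀ C : Finset α, IsChain (· ≤ ·) (C : Set α) → (C.image r).card = C.card := by
    intro C hC
    apply Finset.card_image_of_injOn
    intro a ha b hb hab
    by_contra hne
    rcases hC ha hb hne with h | h
    · exact (hr (lt_of_le_of_ne h hne)).ne hab
    · exact (hr (lt_of_le_of_ne h (Ne.symm hne))).ne' hab
  unfold csum
  rw [Finset.mul_sum]
  rw [← Finset.sum_fiberwise_of_maps_to (s := chains (⊤ : α)) (t := dimSets n) (g := fun C => C.image r)]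
  · apply Finset.sum_congr rfl
    intro D hD
    have hD' := (mem_dimSets n D).1 hD
    have hset : (chains (⊤ : α)).filter (fun C => C.image r = D) = rkChains r D := by
      ext C
      simp only [Finset.mem_filter, rkChains, Finset.mem_univ, true_and, mem_chains]
      constructor
      · rintro ⟨⟨h1, -, -, -⟩, h2⟩
        exact ⟨h1, h2⟩
      · rintro ⟨h1, rfl⟩
        have hbot : (⊥ : α) ∈ C := by
          obtain ⟨a, ha, ha'⟩ := Finset.mem_image.1 hD'.2.1
          rwa [(hr0 a).1 ha'] at ha
        have htop : (⊤ : α) ∈ C := by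
          obtain ⟨a, ha, ha'⟩ := Finset.mem_image.1 hD'.2.2
          rwa [(hrn a).1 ha'] at ha
        exact ⟨⟨h1, hbot, htop, fun a _ => le_top⟩, rfl⟩
    rw [hset]
    have hval : ∀ C ∈ rkChains r D, (-1 : ℂ) ^ n * (-1 : ℂ) ^ (C.card + 1) = (-1 : ℂ) ^ (n + 1 + D.card) := by
      intro C hC
      obtain ⟨-, h1, h2⟩ := Finset.mem_filter.1 hC
      rw [← hcard C h1, h2, ← pow_add]
      congr 1
      ring
    rw [Finset.sum_congr rfl hval, Finset.sum_const, nsmul_eq_mul, mul_comm]
  · intro C hC
    obtain ⟨h1, h2, h3, -⟩ := (mem_chains _ _).1 hC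
    rw [mem_dimSets]
    refine ⟨?_, ?_, ?_⟩
    · intro d hd
      obtain ⟨a, -, rfl⟩ := Finset.mem_image.1 hd
      exact hrle a
    · exact Finset.mem_image.2 ⟨⊥, h2, (hr0 _).2 rfl⟩
    · exact Finset.mem_image.2 ⟨⊤, h3, (hrn _).2 rfl⟩

end dims

end Cfsg.Agent.Lib.StVal
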