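import Mathlib
import Cfsg.Prelude.Def_LinearParabolics
import Cfsg.Agent.Lib.FlagLabel
import Cfsg.Agent.Lib.StVal3
set_option autoImplicit false
set_option linter.unusedSectionVars false

/-!
# The permutations with `κ i ≤ i + 1`
-/

namespace Cfsg.Agent.Lib.StVal

open Finset Cfsg.Agent.Lib.FlagLabel

/-- The largest element of `D` that is at most `m`. -/
def fl (D : Finset ℕ) (m : ℕ) : ℕ := (D.filter (· ≤ m)).sup id

section fl
variable {D : Finset ℕ}

lemma fl_mem (h0 : 0 ∈ D) (m : ℕ) : fl D m ∈ D := by
  have hne : (D.filter (· ≤ m)).Nonempty := ⟨0, Finset.mem_filter.2 ⟨h0, Nat.zero_le _⟩⟩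
  obtain ⟨a, ha, ha'⟩ := Finset.exists_mem_eq_sup _ hne id
  unfold fl
  rw [ha']
  exact (Finset.mem_filter.1 ha).1

lemma fl_le (h0 : 0 ∈ D) (m : ℕ) : fl D m ≤ m := by
  unfold fl
  apply Finset.sup_le
  intro a ha
  exact (Finset.mem_filter.1 ha).2

lemma le_fl {d m : ℕ} (hd : d ∈ D) (hm : d ≤ m) : d ≤ fl D m := by
  unfold fl
  exact Finset.le_sup (f := id) (Finset.mem_filter.2 ⟨hd, hm⟩)

lemma fl_eq {a m : ℕ} (h0 : 0 ∈ D) (h : a ∈ D) (hm : a ≤ m) (h2 : ∀ d ∈ D, d ≤ m → d ≤ a) : fl D m = a :=
  le_antisymm (h2 _ (fl_mem h0 m) (fl_le h0 m)) (le_fl h hm)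

end fl

/-- The permutation attached to a set of cuts. -/
def kap (D : Finset ℕ) (i : ℕ) : ℕ := if i + 1 ∈ D then fl D i else i + 1

section kap
variable {D : Finset ℕ} {n : ℕ}

lemma kap_of_mem {i : ℕ} (h : i + 1 ∈ D) : kap D i = fl D i := if_pos h
lemma kap_of_notMem {i : ℕ} (h : i + 1 ∉ D) : kap D i = i + 1 := if_neg h

lemma kap_le (h0 : 0 ∈ D) (i : ℕ) : kap D i ≤ i + 1 := by
  by_cases h : i + 1 ∈ D
  · rw [kap_of_mem h]
    exact le_trans (fl_le h0 i) (Nat.le_succ i)
  · rw [kap_of_notMem h]

lemma kap_ne_iff (h0 : 0 ∈ D) (i : ℕ) : kap D i ≠ i + 1 ↔ i + 1 ∈ D := by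
  by_cases h : i + 1 ∈ D
  · rw [kap_of_mem h]
    simp only [h, iff_true]
    have := fl_le h0 i
    omega
  · rw [kap_of_notMem h]
    simp [h]

lemma kap_inj (h0 : 0 ∈ D) {i j : ℕ} (hij : i < j) : kap D i ≠ kap D j := by
  intro h
  by_cases hi : i + 1 ∈ D <;> by_cases hj : j + 1 ∈ D
  · rw [kap_of_mem hi, kap_of_mem hj] at h
    have h1 : i + 1 ≤ fl D j := le_fl hi hij
    have h2 := fl_le h0 i
    omega
  · rw [kap_of_mem hi, kap_of_notMem hj] at h
    have h2 := fl_le h0 i
    omega
  · rw [kap_of_notMem hi, kap_of_mem hj] at h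
    have h1 : fl D j ∈ D := fl_mem h0 j
    rw [← h] at h1
    exact hi h1
  · rw [kap_of_notMem hi, kap_of_notMem hj] at h
    omega

lemma kap_lt (hD : D ∈ dimSets n) {i : ℕ} (hi : i < n) : kap D i < n := by
  have hD' := (mem_dimSets n D).1 hD
  by_cases h : i + 1 ∈ D
  · rw [kap_of_mem h]
    exact lt_of_le_of_lt (fl_le hD'.2.1 i) hi
  · rw [kap_of_notMem h]
    have : i + 1 ≠ n := by
      rintro rfl
      exact h hD'.2.2
    omega

/-- The permutation of `Fin n` attached to `D`. -/
noncomputable def kapP (hD : D ∈ dimSets n) : Equiv.Perm (Fin n) :=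
  Equiv.ofBijective (fun i => ⟨kap D i, kap_lt hD i.2⟩) (Finite.injective_iff_bijective.1 (by
    intro i j h
    have h' : kap D i = kap D j := congrArg Fin.val h
    have h0 := ((mem_dimSets n D).1 hD).2.1
    rcases lt_trichotomy i.val j.val with hlt | heq | hgt
    · exact absurd h' (kap_inj h0 hlt)
    · exact Fin.ext heq
    · exact absurd h'.symm (kap_inj h0 hgt)))

@[simp] lemma kapP_val (hD : D ∈ dimSets n) (i : Fin n) : (kapP hD i).val = kap D i.val := rfl

end kap

/-- Admissible permutations. -/
def Adm {n : ℕ} (κ : Equiv.Perm (Fin n)) : Prop := ∀ i : Fin n, (κ i).val ≤ 1 + i.val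

/-- The composition attached to a permutation. -/
def muOf {n : ℕ} (κ : Equiv.Perm (Fin n)) : Fin n → ℕ := fun i => 1 + i.val - (κ i).val

/-- The set of partial sums of a composition. -/
def cutsOf {n : ℕ} (μ : Fin n → ℕ) : Finset ℕ := insert 0 (univ.image (partS μ))

section uniq
variable {n : ℕ}

/-- Two admissible permutations with the same non-cuts agree. -/
lemma adm_unique {κ κ' : Equiv.Perm (Fin n)} (h : Adm κ) (h' : Adm κ')
    (hcut : ∀ i : Fin n, (κ i).val = i.val + 1 ↔ (κ' i).val = i.val + 1) : κ = κ' := by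
  classical
  have key : ∀ m : ℕ, ∀ i : Fin n, i.val = m → κ i = κ' i := by
    intro m
    induction m using Nat.strong_induction_on with
    | _ m ih =>
      intro i hi
      subst hi
      by_cases hc : (κ i).val = i.val + 1
      · exact Fin.ext (hc.trans ((hcut i).1 hc).symm)
      · have hc' : (κ' i).val ≠ i.val + 1 := fun h2 => hc ((hcut i).2 h2)
        have h1 : (κ i).val ≤ i.val := by have := h i; omega
        have h2 : (κ' i).val ≤ i.val := by have := h' i; omega
        set A := (univ.filter (fun k : Fin n => k.val < i.val)).image (fun k => (κ k).val) with hA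
        have hAcard : A.card = i.val := by
          rw [hA, Finset.card_image_of_injective]
          · have : univ.filter (fun k : Fin n => k.val < i.val) = Finset.Iio i := by
              ext k
              simp only [Finset.mem_filter, Finset.mem_univ, true_and, Finset.mem_Iio]
              exact Iff.rfl
            rw [this, Fin.card_Iio]
          · intro a b hab
            exact κ.injective (Fin.ext hab)
        have hAsub : A ⊆ Finset.range (i.val + 1) := by
          intro v hv
          obtain ⟨k, hk, rfl⟩ := Finset.mem_image.1 hv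
          have hk' := (Finset.mem_filter.1 hk).2
          have := h k
          exact Finset.mem_range.2 (by omega)
        have hcard : (Finset.range (i.val + 1) \ A).card = 1 := by
          rw [Finset.card_sdiff_of_subset hAsub, hAcard, Finset.card_range]
          omega
        have hm1 : (κ i).val ∈ Finset.range (i.val + 1) \ A := by
          rw [Finset.mem_sdiff]
          refine ⟨Finset.mem_range.2 (by omega), ?_⟩
          intro hv
          obtain ⟨k, hk, hk'⟩ := Finset.mem_image.1 hv
          have hk2 := (Finset.mem_filter.1 hk).2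
          have : k = i := κ.injective (Fin.ext hk')
          rw [this] at hk2
          omega
        have hm2 : (κ' i).val ∈ Finset.range (i.val + 1) \ A := by
          rw [Finset.mem_sdiff]
          refine ⟨Finset.mem_range.2 (by omega), ?_⟩
          intro hv
          obtain ⟨k, hk, hk'⟩ := Finset.mem_image.1 hv
          have hk2 := (Finset.mem_filter.1 hk).2
          rw [ih k.val hk2 k rfl] at hk'
          have : k = i := κ'.injective (Fin.ext hk')
          rw [this] at hk2
          omega
        exact Fin.ext (Finset.card_le_one.1 (le_of_eq hcard) _ hm1 _ hm2)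
  ext i
  rw [key i.val i rfl]

/-- The set of cuts of a permutation. -/
noncomputable def cutSet (κ : Equiv.Perm (Fin n)) : Finset ℕ := by
  classical
  exact insert 0 (insert n ((univ.filter (fun i : Fin n => (κ i).val ≠ i.val + 1)).image (fun i => i.val + 1)))

lemma mem_cutSet (κ : Equiv.Perm (Fin n)) (d : ℕ) :
    d ∈ cutSet κ ↔ d = 0 ∨ d = n ∨ ∃ i : Fin n, (κ i).val ≠ i.val + 1 ∧ i.val + 1 = d := by
  classical
  simp [cutSet]

lemma cutSet_mem_dimSets (κ : Equiv.Perm (Fin n)) : cutSet κ ∈ dimSets n := by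
  rw [mem_dimSets]
  refine ⟨?_, (mem_cutSet κ 0).2 (Or.inl rfl), (mem_cutSet κ n).2 (Or.inr (Or.inl rfl))⟩
  intro d hd
  rcases (mem_cutSet κ d).1 hd with rfl | rfl | ⟨i, -, rfl⟩
  · exact Nat.zero_le _
  · exact le_rfl
  · exact i.2

lemma kapP_cutSet {κ : Equiv.Perm (Fin n)} (h : Adm κ) : kapP (cutSet_mem_dimSets κ) = κ := by
  apply adm_unique
  · intro i
    rw [kapP_val]
    have := kap_le (D := cutSet κ) ((mem_cutSet κ 0).2 (Or.inl rfl)) i.val
    omega
  · exact h
  · intro i
    rw [kapP_val]
    have h0 : 0 ∈ cutSet κ := (mem_cutSet κ 0).2 (Or.inl rfl)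
    have h1 := kap_ne_iff h0 i.val
    have h2 : i.val + 1 ∈ cutSet κ ↔ (κ i).val ≠ i.val + 1 := by
      rw [mem_cutSet]
      constructor
      · rintro (h3 | h3 | ⟨j, hj, hj'⟩)
        · omega
        · have := (κ i).2
          omega
        · have : j = i := Fin.ext (by omega)
          rwa [this] at hj
      · intro h3
        exact Or.inr (Or.inr ⟨i, h3, rfl⟩)
    rw [h2] at h1
    tauto

lemma cutSet_kapP {D : Finset ℕ} (hD : D ∈ dimSets n) : cutSet (kapP hD) = D := by
  have hD' := (mem_dimSets n D).1 hD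
  ext d
  rw [mem_cutSet]
  constructor
  · rintro (rfl | rfl | ⟨i, hi, rfl⟩)
    · exact hD'.2.1
    · exact hD'.2.2
    · exact (kap_ne_iff hD'.2.1 i.val).1 (by simpa using hi)
  · intro hd
    by_cases h0 : d = 0
    · exact Or.inl h0
    · have hle := hD'.1 d hd
      right; right
      refine ⟨⟨d - 1, by omega⟩, ?_, by simp; omega⟩
      simp only [kapP_val]
      rw [kap_ne_iff hD'.2.1]
      have : d - 1 + 1 = d := by omega
      rwa [this]

lemma adm_kapP {D : Finset ℕ} (hD : D ∈ dimSets n) : Adm (kapP hD) := by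
  intro i
  rw [kapP_val]
  have := kap_le ((mem_dimSets n D).1 hD).2.1 i.val
  omega

end uniq

section psum
variable {n : ℕ} {D : Finset ℕ}

lemma sum_mu (h0 : 0 ∈ D) (j : ℕ) : ∑ k ∈ Finset.range j, (1 + k - kap D k) = fl D j := by
  induction j with
  | zero =>
    simp only [Finset.range_zero, Finset.sum_empty]
    exact (le_antisymm (fl_le h0 0) (Nat.zero_le _)).symm
  | succ j ih =>
    rw [Finset.sum_range_succ, ih]
    by_cases h : j + 1 ∈ D
    · rw [kap_of_mem h]
      have h1 : fl D (j + 1) = j + 1 := fl_eq h0 h le_rfl (fun _ _ h2 => h2)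
      rw [h1]
      have := fl_le h0 j
      omega
    · rw [kap_of_notMem h]
      have h1 : fl D (j + 1) = fl D j := by
        apply fl_eq h0 (fl_mem h0 j) (le_trans (fl_le h0 j) (Nat.le_succ j))
        intro d hd hd'
        apply le_fl hd
        have : d ≠ j + 1 := by
          rintro rfl
          exact h hd
        omega
      rw [h1]
      omega

lemma partS_kapP (hD : D ∈ dimSets n) (j : Fin n) :
    partS (muOf (kapP hD)) j = fl D (j.val + 1) := by
  have hD' := (mem_dimSets n D).1 hD
  rw [← sum_mu hD'.2.1]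
  unfold partS muOf
  simp only [kapP_val]
  rw [Finset.sum_filter]
  have h := Finset.sum_range (n := n) (fun k => if k ≤ j.val then 1 + k - kap D k else 0)
  have h2 : ∑ k : Fin n, (if k ≤ j then 1 + k.val - kap D k.val else 0) =
      ∑ k : Fin n, (if k.val ≤ j.val then 1 + k.val - kap D k.val else 0) := rfl
  rw [h2, ← h, ← Finset.sum_filter]
  apply Finset.sum_congr
  · ext k
    simp only [Finset.mem_filter, Finset.mem_range]
    have := j.2
    omega
  · intro _ _
    rfl

lemma cutsOf_kapP (hD : D ∈ dimSets n) : cutsOf (muOf (kapP hD)) = D := by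
  have hD' := (mem_dimSets n D).1 hD
  ext d
  unfold cutsOf
  simp only [Finset.mem_insert, Finset.mem_image, Finset.mem_univ, true_and, partS_kapP]
  constructor
  · rintro (rfl | ⟨j, rfl⟩)
    · exact hD'.2.1
    · exact fl_mem hD'.2.1 _
  · intro hd
    by_cases h0 : d = 0
    · exact Or.inl h0
    · right
      have hle := hD'.1 d hd
      refine ⟨⟨d - 1, by omega⟩, ?_⟩
      simp only
      have : d - 1 + 1 = d := by omega
      rw [this]
      exact fl_eq hD'.2.1 hd le_rfl (fun _ _ h2 => h2)

end psum

section sign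
variable {n : ℕ}

lemma sign_step {D : Finset ℕ} (hD : D ∈ dimSets n) {c : ℕ} (hc : c ∉ D) (hcn : c ≤ n)
    (hD' : insert c D ∈ dimSets n) :
    Equiv.Perm.sign (kapP hD') = -Equiv.Perm.sign (kapP hD) := by
  have hd := (mem_dimSets n D).1 hD
  have h0 := hd.2.1
  have h0' : 0 ∈ insert c D := Finset.mem_insert_of_mem h0
  have hc0 : c ≠ 0 := by
    rintro rfl
    exact hc h0
  have hcn' : c ≠ n := by
    rintro rfl
    exact hc hd.2.2
  have hne : (D.filter (c < ·)).Nonempty := ⟨n, Finset.mem_filter.2 ⟨hd.2.2, by omega⟩⟩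
  set b := (D.filter (c < ·)).min' hne with hb
  have hbm : b ∈ D.filter (c < ·) := Finset.min'_mem _ hne
  have hbD : b ∈ D := (Finset.mem_filter.1 hbm).1
  have hcb : c < b := (Finset.mem_filter.1 hbm).2
  have hbmin : ∀ d ∈ D, c < d → b ≤ d := fun d hd1 hd2 =>
    Finset.min'_le _ _ (Finset.mem_filter.2 ⟨hd1, hd2⟩)
  have hbn : b ≤ n := hd.1 b hbD
  let i₁ : Fin n := ⟨c - 1, by omega⟩
  let i₂ : Fin n := ⟨b - 1, by omega⟩
  have hne12 : i₁ ≠ i₂ := by
    intro h
    have := congrArg Fin.val h
    simp only [i₁, i₂] at this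
    omega
  have hκ : kapP hD' = kapP hD * Equiv.swap i₁ i₂ := by
    ext i
    rw [Equiv.Perm.mul_apply, Equiv.swap_apply_def]
    split_ifs with h1 h2
    · -- i = i₁
      subst h1
      simp only [kapP_val, i₁, i₂]
      have e1 : c - 1 + 1 = c := by omega
      have e2 : b - 1 + 1 = b := by omega
      rw [kap_of_mem (by rw [e1]; exact Finset.mem_insert_self _ _), kap_of_mem (by rw [e2]; exact hbD)]
      have hA : fl D (c - 1) ∈ D := fl_mem h0 _
      have hAle := fl_le h0 (c - 1)
      have h_a : fl (insert c D) (c - 1) = fl D (c - 1) := by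
        apply fl_eq h0' (Finset.mem_insert_of_mem hA) hAle
        intro d hd1 hd2
        rcases Finset.mem_insert.1 hd1 with hdc | hd1
        · omega
        · exact le_fl hd1 hd2
      have h_b : fl D (b - 1) = fl D (c - 1) := by
        apply fl_eq h0 hA (by omega)
        intro d hd1 hd2
        apply le_fl hd1
        by_contra hcon
        have h3 : c ≤ d := by omega
        have h4 : c ≠ d := by
          rintro rfl
          exact hc hd1
        have := hbmin d hd1 (by omega)
        omega
      rw [h_a, h_b]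
    · -- i = i₂
      subst h2
      simp only [kapP_val, i₁, i₂]
      have e1 : c - 1 + 1 = c := by omega
      have e2 : b - 1 + 1 = b := by omega
      rw [kap_of_mem (by rw [e2]; exact Finset.mem_insert_of_mem hbD), kap_of_notMem (by rw [e1]; exact hc), e1]
      apply fl_eq h0' (Finset.mem_insert_self _ _) (by omega)
      intro d hd1 hd2
      rcases Finset.mem_insert.1 hd1 with hdc | hd1
      · exact le_of_eq hdc
      · by_contra hcon
        have := hbmin d hd1 (by omega)
        omega
    · -- otherwise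
      simp only [kapP_val]
      have hi1 : i.val + 1 ≠ c := by
        intro h
        apply h1
        apply Fin.ext
        simp only [i₁]
        omega
      have hi2 : i.val + 1 ≠ b := by
        intro h
        apply h2
        apply Fin.ext
        simp only [i₂]
        omega
      by_cases hi : i.val + 1 ∈ D
      · rw [kap_of_mem (Finset.mem_insert_of_mem hi), kap_of_mem hi]
        have hA : fl D i.val ∈ D := fl_mem h0 _
        apply fl_eq h0' (Finset.mem_insert_of_mem hA) (fl_le h0 _)
        intro d hd1 hd2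
        rcases Finset.mem_insert.1 hd1 with hdc | hd1
        · have h3 : c < i.val + 1 := by omega
          have h4 := hbmin _ hi h3
          have h5 : b ≤ fl D i.val := le_fl hbD (by omega)
          omega
        · exact le_fl hd1 hd2
      · have hi' : i.val + 1 ∉ insert c D := by
          rw [Finset.mem_insert]
          rintro (h | h)
          · exact hi1 h
          · exact hi h
        rw [kap_of_notMem hi', kap_of_notMem hi]
  rw [hκ, Equiv.Perm.sign_mul, Equiv.Perm.sign_swap hne12]
  simp

lemma sign_kapP_aux : ∀ (k : ℕ) (D : Finset ℕ) (hD : D ∈ dimSets n), n + 1 = D.card + k →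
    Equiv.Perm.sign (kapP hD) = (-1) ^ k := by
  intro k
  induction k with
  | zero =>
    intro D hD hcard
    have hd := (mem_dimSets n D).1 hD
    have hsub : D ⊆ Finset.range (n + 1) := fun d hd' => Finset.mem_range.2 (Nat.lt_succ_iff.2 (hd.1 d hd'))
    have hD2 : D = Finset.range (n + 1) := Finset.eq_of_subset_of_card_le hsub (by
      rw [Finset.card_range]
      omega)
    have h1 : kapP hD = 1 := by
      ext i
      simp only [kapP_val, Equiv.Perm.one_apply]
      have hi : i.val + 1 ∈ D := by
        rw [hD2, Finset.mem_range]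
        have := i.2
        omega
      rw [kap_of_mem hi]
      have hi' : i.val ∈ D := by
        rw [hD2, Finset.mem_range]
        have := i.2
        omega
      exact fl_eq hd.2.1 hi' le_rfl (fun _ _ h => h)
    rw [h1]
    simp
  | succ k ih =>
    intro D hD hcard
    have hd := (mem_dimSets n D).1 hD
    have hsub : D ⊆ Finset.range (n + 1) := fun d hd' => Finset.mem_range.2 (Nat.lt_succ_iff.2 (hd.1 d hd'))
    have hex : ∃ c ∈ Finset.range (n + 1), c ∉ D := by
      by_contra hcon
      push Not at hcon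
      have : Finset.range (n + 1) ⊆ D := hcon
      have := Finset.card_le_card this
      rw [Finset.card_range] at this
      omega
    obtain ⟨c, hc1, hc2⟩ := hex
    have hcn : c ≤ n := Nat.lt_succ_iff.1 (Finset.mem_range.1 hc1)
    have hD' : insert c D ∈ dimSets n := by
      rw [mem_dimSets]
      refine ⟨?_, Finset.mem_insert_of_mem hd.2.1, Finset.mem_insert_of_mem hd.2.2⟩
      intro d hd1
      rcases Finset.mem_insert.1 hd1 with rfl | hd1
      · exact hcn
      · exact hd.1 d hd1
    have h3 := ih (insert c D) hD' (by rw [Finset.card_insert_of_notMem hc2]; omega)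
    have h4 := sign_step hD hc2 hcn hD'
    rw [h3] at h4
    rw [pow_succ]
    have h5 : (-1 : ℤˣ) ^ k * (-1) = -(-1) ^ k := by simp
    rw [h5, h4, neg_neg]

lemma sign_kapP {D : Finset ℕ} (hD : D ∈ dimSets n) :
    ((Equiv.Perm.sign (kapP hD) : ℤ) : ℂ) = (-1 : ℂ) ^ (n + 1 + D.card) := by
  have hd := (mem_dimSets n D).1 hD
  have hsub : D ⊆ Finset.range (n + 1) := fun d hd' => Finset.mem_range.2 (Nat.lt_succ_iff.2 (hd.1 d hd'))
  have hle := Finset.card_le_card hsub
  rw [Finset.card_range] at hle
  obtain ⟨k, hk⟩ : ∃ k, n + 1 = D.card + k := ⟨n + 1 - D.card, by omega⟩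
  rw [sign_kapP_aux k D hD hk, hk]
  have h2 : (-1 : ℂ) ^ (D.card + k + D.card) = (-1) ^ k := by
    have : D.card + k + D.card = k + 2 * D.card := by ring
    rw [this, pow_add, pow_mul]
    simp
  rw [h2]
  simp

theorem sum_adm (h : Finset ℕ → ℂ) [DecidablePred (Adm (n := n))] :
    ∑ κ : Equiv.Perm (Fin n), (if Adm κ then ((Equiv.Perm.sign κ : ℤ) : ℂ) * h (cutsOf (muOf κ)) else 0) =
      ∑ D ∈ dimSets n, (-1 : ℂ) ^ (n + 1 + D.card) * h D := by
  rw [← Finset.sum_filter]
  symm
  apply Finset.sum_bij (fun D hD => kapP hD)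
  · intro D hD
    exact Finset.mem_filter.2 ⟨Finset.mem_univ _, adm_kapP hD⟩
  · intro D hD D' hD' he
    rw [← cutSet_kapP hD, ← cutSet_kapP hD']
    exact congrArg cutSet he
  · intro κ hκ
    exact ⟨cutSet κ, cutSet_mem_dimSets κ, kapP_cutSet (Finset.mem_filter.1 hκ).2⟩
  · intro D hD
    rw [sign_kapP hD, cutsOf_kapP hD]

end sign

end Cfsg.Agent.Lib.StVal
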