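import Mathlib
import Cfsg.Prelude.Def_LinearParabolics
import Cfsg.Agent.Lib.FlagLabel
import Cfsg.Agent.Lib.StVal4
set_option autoImplicit false
set_option linter.unusedSectionVars false

/-!
# Cosets of a parabolic subgroup fixed by an element, and invariant flags
-/

namespace Cfsg.Agent.Lib.StVal

open Finset Cfsg.Agent.Lib.FlagLabel Matrix
open scoped MatrixGroups

variable {F : Type*} [Field F] {n : ℕ}

/-- The standard subspaces. -/
def stdW (F : Type*) [Field F] (n d : ℕ) : Submodule F (Fin n → F) where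
  carrier := {v | ∀ i : Fin n, d ≤ i.val → v i = 0}
  add_mem' := fun {a b} ha hb i hi => by simp [ha i hi, hb i hi]
  zero_mem' := fun _ _ => rfl
  smul_mem' := fun c {a} ha i hi => by simp [ha i hi]

lemma mem_stdW {d : ℕ} {v : Fin n → F} : v ∈ stdW F n d ↔ ∀ i : Fin n, d ≤ i.val → v i = 0 := Iff.rfl

lemma stdW_mono {d d' : ℕ} (h : d ≤ d') : stdW F n d ≤ stdW F n d' :=
  fun _ hv i hi => hv i (le_trans h hi)

lemma finrank_stdW {d : ℕ} (hd : d ≤ n) : Module.finrank F (stdW F n d) = d := by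
  classical
  let ι := {i : Fin n // d ≤ i.val}
  let T : (Fin n → F) →ₗ[F] (ι → F) := LinearMap.funLeft F F (Subtype.val : ι → Fin n)
  have hsurj : Function.Surjective T :=
    LinearMap.funLeft_surjective_of_injective F F _ Subtype.val_injective
  have hker : LinearMap.ker T = stdW F n d := by
    ext v
    rw [LinearMap.mem_ker, mem_stdW]
    constructor
    · intro h i hi
      exact congrFun h ⟨i, hi⟩
    · intro h
      ext ⟨i, hi⟩
      exact h i hi
  have hcard : Fintype.card ι = n - d := by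
    have e : ι ≃ Fin (n - d) :=
      { toFun := fun i => ⟨i.1.val - d, by have := i.1.2; have := i.2; omega⟩
        invFun := fun j => ⟨⟨j.val + d, by have := j.2; omega⟩, by simp⟩
        left_inv := fun i => by
          apply Subtype.ext
          apply Fin.ext
          simp only
          have := i.2
          omega
        right_inv := fun j => by
          apply Fin.ext
          simp }
    rw [Fintype.card_congr e, Fintype.card_fin]
  have h := LinearMap.finrank_range_add_finrank_ker T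
  rw [LinearMap.range_eq_top.2 hsurj, finrank_top, hker] at h
  simp only [Module.finrank_fintype_fun_eq_card, Fintype.card_fin, hcard] at h
  omega

section act
variable [DecidableEq F] 

/-- The linear automorphism attached to an invertible matrix. -/
noncomputable def act (g : GL (Fin n) F) : (Fin n → F) ≃ₗ[F] (Fin n → F) :=
  LinearEquiv.ofLinear (Matrix.toLin' (g : Matrix (Fin n) (Fin n) F))
    (Matrix.toLin' ((g⁻¹ : GL (Fin n) F) : Matrix (Fin n) (Fin n) F))
    (by
      rw [← Matrix.toLin'_mul, ← Units.val_mul, mul_inv_cancel, Units.val_one, Matrix.toLin'_one])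
    (by
      rw [← Matrix.toLin'_mul, ← Units.val_mul, inv_mul_cancel, Units.val_one, Matrix.toLin'_one])

lemma act_apply (g : GL (Fin n) F) (v : Fin n → F) :
    act g v = (g : Matrix (Fin n) (Fin n) F) *ᵥ v := rfl

lemma act_mul (g h : GL (Fin n) F) (v : Fin n → F) : act (g * h) v = act g (act h v) := by
  simp [act_apply, Matrix.mulVec_mulVec]

lemma act_inv_act (g : GL (Fin n) F) (v : Fin n → F) : act g⁻¹ (act g v) = v := by
  rw [← act_mul]
  simp [act_apply]

lemma act_act_inv (g : GL (Fin n) F) (v : Fin n → F) : act g (act g⁻¹ v) = v := by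
  rw [← act_mul]
  simp [act_apply]

/-- The image of a standard subspace. -/
noncomputable def flg (g : GL (Fin n) F) (d : ℕ) : Submodule F (Fin n → F) :=
  (stdW F n d).map (act g : (Fin n → F) →ₗ[F] (Fin n → F))

lemma mem_flg {g : GL (Fin n) F} {d : ℕ} {v : Fin n → F} : v ∈ flg g d ↔ act g⁻¹ v ∈ stdW F n d := by
  unfold flg
  rw [Submodule.mem_map]
  constructor
  · rintro ⟨u, hu, rfl⟩
    have : act g⁻¹ ((act g : (Fin n → F) →ₗ[F] (Fin n → F)) u) = u := act_inv_act g u
    rwa [this]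
  · intro h
    exact ⟨_, h, act_act_inv g v⟩

lemma act_mem_flg {g : GL (Fin n) F} {d : ℕ} {v : Fin n → F} (h : v ∈ stdW F n d) : act g v ∈ flg g d := by
  rw [mem_flg, act_inv_act]
  exact h

lemma finrank_flg (g : GL (Fin n) F) {d : ℕ} (hd : d ≤ n) : Module.finrank F (flg g d) = d := by
  unfold flg
  rw [LinearEquiv.finrank_map_eq, finrank_stdW hd]

lemma flg_mono (g : GL (Fin n) F) {d d' : ℕ} (h : d ≤ d') : flg g d ≤ flg g d' :=
  Submodule.map_mono (stdW_mono h)

end act

section parabolic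
variable [DecidableEq F]

lemma lab_lt {μ : Fin n → ℕ} {j i : Fin n} {k : Fin n} (h1 : j.val < partS μ k) (h2 : partS μ k ≤ i.val) :
    compLabel μ j < compLabel μ i := by
  have h3 : k.val < compLabel μ i := (lt_compLabel_iff μ i k).2 h2
  have h4 : ¬ k.val < compLabel μ j := fun h => by
    have := (lt_compLabel_iff μ j k).1 h
    omega
  omega

lemma compLabel_le (μ : Fin n → ℕ) (i : Fin n) : compLabel μ i ≤ n := by
  rw [compLabel_eq]
  calc _ ≤ (univ : Finset (Fin n)).card := Finset.card_filter_le _ _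
    _ = n := by simp

lemma mem_parabolic_iff (μ : Fin n → ℕ) (g : GL (Fin n) F) :
    g ∈ parabolicGL n F μ ↔ ∀ d ∈ cutsOf μ, ∀ v ∈ stdW F n d, act g v ∈ stdW F n d := by
  constructor
  · intro hg d hd v hv i hi
    have hg' : (g : Matrix (Fin n) (Fin n) F).BlockTriangular (compLabel μ) := hg
    rw [act_apply, Matrix.mulVec, dotProduct]
    apply Finset.sum_eq_zero
    intro j _
    by_cases hj : d ≤ j.val
    · rw [hv j hj, mul_zero]
    · have hd' : d ≠ 0 := by
        rintro rfl
        exact hj (Nat.zero_le _)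
      unfold cutsOf at hd
      rw [Finset.mem_insert] at hd
      rcases hd with hd | hd
      · exact absurd hd hd'
      · obtain ⟨k, -, rfl⟩ := Finset.mem_image.1 hd
        rw [hg' (lab_lt (by omega) hi), zero_mul]
  · intro h
    change (g : Matrix (Fin n) (Fin n) F).BlockTriangular (compLabel μ)
    intro i j hij
    have hle := compLabel_le μ i
    let k : Fin n := ⟨compLabel μ j, by omega⟩
    have h1 : partS μ k ≤ i.val := (lt_compLabel_iff μ i k).1 hij
    have h2 : ¬ partS μ k ≤ j.val := fun h' => by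
      have := (lt_compLabel_iff μ j k).2 h'
      simp [k] at this
    have hd : partS μ k ∈ cutsOf μ :=
      Finset.mem_insert_of_mem (Finset.mem_image_of_mem _ (Finset.mem_univ _))
    have hsingle : (Pi.single j (1 : F) : Fin n → F) ∈ stdW F n (partS μ k) := by
      intro a ha
      rw [Pi.single_apply, if_neg]
      rintro rfl
      omega
    have := h _ hd _ hsingle i h1
    rwa [act_apply, Matrix.mulVec_single_one] at this

end parabolic

section adapted
variable [DecidableEq F]

lemma exists_li {V : Type*} [AddCommGroup V] [Module F V] [FiniteDimensional F V]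
    (T : ℕ → Submodule F V) (hT : ∀ i < n, i < Module.finrank F (T i)) :
    ∀ m ≤ n, ∃ b : Fin m → V, LinearIndependent F b ∧ ∀ i : Fin m, b i ∈ T i.val := by
  intro m
  induction m with
  | zero =>
    intro _
    exact ⟨Fin.elim0, linearIndependent_empty_type, fun i => i.elim0⟩
  | succ m ih =>
    intro hm
    obtain ⟨b, hb, hb'⟩ := ih (by omega)
    have hex : ∃ v ∈ T m, v ∉ Submodule.span F (Set.range b) := by
      by_contra hcon
      push Not at hcon
      have hle : T m ≤ Submodule.span F (Set.range b) := hcon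
      have h1 := Submodule.finrank_mono hle
      rw [finrank_span_eq_card hb, Fintype.card_fin] at h1
      have := hT m (by omega)
      omega
    obtain ⟨v, hv, hv'⟩ := hex
    refine ⟨Fin.snoc b v, linearIndependent_fin_snoc.2 ⟨hb, hv'⟩, ?_⟩
    intro i
    induction i using Fin.lastCases with
    | last => simpa using hv
    | cast j => simpa using hb' j

/-- Adapted bases. -/
lemma exists_adapted (D : Finset ℕ) (hD : ∀ d ∈ D, d ≤ n) (hn : n ∈ D) (w : ℕ → Submodule F (Fin n → F))
    (hw : ∀ d ∈ D, Module.finrank F (w d) = d) (hmono : ∀ d ∈ D, ∀ d' ∈ D, d ≤ d' → w d ≤ w d') :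
    ∃ g : GL (Fin n) F, ∀ d ∈ D, flg g d = w d := by
  classical
  -- the next cut
  have hnext : ∀ i : ℕ, ∃ d : ℕ, i < n → d ∈ D ∧ i < d ∧ ∀ d' ∈ D, i < d' → d ≤ d' := by
    intro i
    by_cases hi : i < n
    · have hne : (D.filter (i < ·)).Nonempty := ⟨n, Finset.mem_filter.2 ⟨hn, hi⟩⟩
      refine ⟨(D.filter (i < ·)).min' hne, fun _ => ?_⟩
      have hm := Finset.min'_mem _ hne
      refine ⟨(Finset.mem_filter.1 hm).1, (Finset.mem_filter.1 hm).2, fun d' hd' hd'' => ?_⟩
      exact Finset.min'_le _ _ (Finset.mem_filter.2 ⟨hd', hd''⟩)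
    · exact ⟨0, fun h => absurd h hi⟩
  choose nxt hnxt using hnext
  obtain ⟨b, hb, hb'⟩ := exists_li (n := n) (fun i => w (nxt i)) (by
    intro i hi
    obtain ⟨h1, h2, -⟩ := hnxt i hi
    rw [hw _ h1]
    exact h2) n le_rfl
  let A : Matrix (Fin n) (Fin n) F := Matrix.of (fun i j => b j i)
  have hAcol : A.col = b := rfl
  have hA : IsUnit A := Matrix.linearIndependent_cols_iff_isUnit.1 (by rw [hAcol]; exact hb)
  refine ⟨hA.unit, fun d hd => ?_⟩
  have hdn := hD d hd
  apply Submodule.eq_of_le_of_finrank_eq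
  · intro v hv
    obtain ⟨u, hu, rfl⟩ := Submodule.mem_map.1 hv
    change act hA.unit u ∈ w d
    rw [act_apply]
    change A *ᵥ u ∈ w d
    have hsum : A *ᵥ u = ∑ j, u j • b j := by
      ext i
      simp [Matrix.mulVec, dotProduct, A, Finset.sum_apply, mul_comm]
    rw [hsum]
    apply Submodule.sum_mem
    intro j _
    by_cases hj : d ≤ j.val
    · rw [hu j hj, zero_smul]
      exact Submodule.zero_mem _
    · apply Submodule.smul_mem
      have hjd : j.val < d := by omega
      obtain ⟨h1, h2, h3⟩ := hnxt j.val j.2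
      exact hmono _ h1 _ hd (h3 d hd hjd) (hb' j)
  · rw [finrank_flg _ hdn, hw d hd]

end adapted

section fixed
variable [DecidableEq F]

lemma flg_eq_of_mem {μ : Fin n → ℕ} {g h : GL (Fin n) F} (hgh : g⁻¹ * h ∈ parabolicGL n F μ)
    {d : ℕ} (hd : d ∈ cutsOf μ) : flg g d = flg h d := by
  have hP := (mem_parabolic_iff μ _).1 hgh d hd
  have hP' := (mem_parabolic_iff μ _).1 (inv_mem hgh) d hd
  apply le_antisymm
  · intro v hv
    rw [mem_flg] at hv ⊢
    have e : h⁻¹ = (g⁻¹ * h)⁻¹ * g⁻¹ := by group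
    rw [e, act_mul]
    exact hP' _ hv
  · intro v hv
    rw [mem_flg] at hv ⊢
    have e : g⁻¹ = (g⁻¹ * h) * h⁻¹ := by group
    rw [e, act_mul]
    exact hP _ hv

lemma fix_iff (μ : Fin n → ℕ) (x g : GL (Fin n) F) :
    (x • ((g : GL (Fin n) F) : GL (Fin n) F ⧸ parabolicGL n F μ) = (g : GL (Fin n) F ⧸ parabolicGL n F μ)) ↔
      ∀ d ∈ cutsOf μ, ∀ v ∈ flg g d, act x v ∈ flg g d := by
  have h1 : (x • ((g : GL (Fin n) F) : GL (Fin n) F ⧸ parabolicGL n F μ) = (g : GL (Fin n) F ⧸ parabolicGL n F μ)) ↔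
      g⁻¹ * (x * g) ∈ parabolicGL n F μ := by
    have e : x • ((g : GL (Fin n) F) : GL (Fin n) F ⧸ parabolicGL n F μ) =
        ((x * g : GL (Fin n) F) : GL (Fin n) F ⧸ parabolicGL n F μ) := rfl
    rw [e, QuotientGroup.eq]
    have e2 : ((x * g)⁻¹ * g)⁻¹ = g⁻¹ * (x * g) := by group
    rw [← e2]
    exact (inv_mem_iff).symm
  rw [h1, mem_parabolic_iff]
  constructor
  · intro h d hd v hv
    rw [mem_flg] at hv ⊢
    have := h d hd _ hv
    have e : g⁻¹ * x = (g⁻¹ * (x * g)) * g⁻¹ := by group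
    rw [← act_mul, e, act_mul]
    exact this
  · intro h d hd v hv
    have := h d hd _ (act_mem_flg (g := g) hv)
    rw [mem_flg, ← act_mul, ← act_mul, mul_assoc] at this
    exact this

variable [Fintype F]
variable {α : Type*} [PartialOrder α] [OrderBot α] [Fintype α]
  (Φ : α → Submodule F (Fin n → F)) (hΦ : ∀ a b, Φ a ≤ Φ b ↔ a ≤ b)
  (x : GL (Fin n) F)
  (hinv : ∀ W : Submodule F (Fin n → F), (∃ a, Φ a = W) ↔ ∀ v ∈ W, act x v ∈ W)

include hΦ in
lemma Phi_inj {a b : α} (h : Φ a = Φ b) : a = b :=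
  le_antisymm ((hΦ a b).1 (le_of_eq h)) ((hΦ b a).1 (le_of_eq h.symm))

include hΦ in
lemma eq_of_chain_rank {C : Finset α} (hC : IsChain (· ≤ ·) (C : Set α)) {a b : α} (ha : a ∈ C) (hb : b ∈ C)
    (h : Module.finrank F (Φ a) = Module.finrank F (Φ b)) : a = b := by
  by_contra hne
  rcases hC (Finset.mem_coe.2 ha) (Finset.mem_coe.2 hb) hne with hab | hab
  · exact hne (Phi_inj Φ hΦ (Submodule.eq_of_le_of_finrank_eq ((hΦ _ _).2 hab) h))
  · exact hne (Phi_inj Φ hΦ (Submodule.eq_of_le_of_finrank_eq ((hΦ _ _).2 hab) h.symm)).symm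

open scoped Classical in
/-- The chain attached to `g`. -/
noncomputable def cset (D : Finset ℕ) (g : GL (Fin n) F) : Finset α :=
  univ.filter (fun a => ∃ d ∈ D, Φ a = flg g d)

open scoped Classical in
lemma mem_cset {D : Finset ℕ} {g : GL (Fin n) F} {a : α} : a ∈ cset Φ D g ↔ ∃ d ∈ D, Φ a = flg g d := by
  simp [cset]

include hΦ hinv in
open scoped Classical in
lemma cset_mem {D : Finset ℕ} (hD : ∀ d ∈ D, d ≤ n) {g : GL (Fin n) F}
    (hfix : ∀ d ∈ D, ∀ v ∈ flg g d, act x v ∈ flg g d) :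
    cset Φ D g ∈ rkChains (fun a => Module.finrank F (Φ a)) D := by
  unfold rkChains
  rw [Finset.mem_filter]
  refine ⟨Finset.mem_univ _, ?_, ?_⟩
  · intro a ha b hb _
    obtain ⟨d, -, hd⟩ := (mem_cset Φ).1 (Finset.mem_coe.1 ha)
    obtain ⟨d', -, hd'⟩ := (mem_cset Φ).1 (Finset.mem_coe.1 hb)
    rcases le_total d d' with h | h
    · left
      apply (hΦ _ _).1
      rw [hd, hd']
      exact flg_mono g h
    · right
      apply (hΦ _ _).1
      rw [hd, hd']
      exact flg_mono g h
  · ext d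
    rw [Finset.mem_image]
    constructor
    · rintro ⟨a, ha, rfl⟩
      obtain ⟨d, hd, hd'⟩ := (mem_cset Φ).1 ha
      rw [hd', finrank_flg g (hD d hd)]
      exact hd
    · intro hd
      obtain ⟨a, ha⟩ := (hinv (flg g d)).2 (hfix d hd)
      refine ⟨a, (mem_cset Φ).2 ⟨d, hd, ha⟩, ?_⟩
      rw [ha, finrank_flg g (hD d hd)]

include hΦ hinv in
lemma cset_inj {μ : Fin n → ℕ} (hD : ∀ d ∈ cutsOf μ, d ≤ n) {g h : GL (Fin n) F}
    (hfix : ∀ d ∈ cutsOf μ, ∀ v ∈ flg g d, act x v ∈ flg g d)
    (hc : cset Φ (cutsOf μ) g = cset Φ (cutsOf μ) h) : g⁻¹ * h ∈ parabolicGL n F μ := by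
  rw [mem_parabolic_iff]
  intro d hd v hv
  obtain ⟨a, ha⟩ := (hinv (flg g d)).2 (hfix d hd)
  have h1 : a ∈ cset Φ (cutsOf μ) h := by
    rw [← hc]
    exact (mem_cset Φ).2 ⟨d, hd, ha⟩
  obtain ⟨d', hd', h2⟩ := (mem_cset Φ).1 h1
  have h3 : d = d' := by
    have e1 := finrank_flg g (hD d hd)
    have e2 := finrank_flg h (hD d' hd')
    rw [← ha, h2, e2] at e1
    exact e1.symm
  subst h3
  rw [act_mul]
  rw [← mem_flg, ← ha, h2]
  exact act_mem_flg hv

include hΦ hinv in
open scoped Classical in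
/-- Fixed cosets are invariant flags. -/
theorem card_fixed (μ : Fin n → ℕ) (hD : ∀ d ∈ cutsOf μ, d ≤ n) (hn : n ∈ cutsOf μ) :
    Nat.card (MulAction.fixedBy (GL (Fin n) F ⧸ parabolicGL n F μ) x) =
      (rkChains (fun a => Module.finrank F (Φ a)) (cutsOf μ)).card := by
  -- the fixed-coset condition for representatives
  have hout : ∀ q : MulAction.fixedBy (GL (Fin n) F ⧸ parabolicGL n F μ) x,
      ∀ d ∈ cutsOf μ, ∀ v ∈ flg (Quotient.out q.1) d, act x v ∈ flg (Quotient.out q.1) d := by
    intro q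
    apply (fix_iff μ x _).1
    have h1 : ((Quotient.out q.1 : GL (Fin n) F) : GL (Fin n) F ⧸ parabolicGL n F μ) = q.1 :=
      QuotientGroup.out_eq' q.1
    rw [h1]
    exact q.2
  rw [← Nat.card_eq_finsetCard]
  refine Nat.card_congr (Equiv.ofBijective
    (fun q => ⟨cset Φ (cutsOf μ) (Quotient.out q.1), cset_mem Φ hΦ x hinv hD (hout q)⟩) ⟨?_, ?_⟩)
  · intro q q' hq
    have hq' : cset Φ (cutsOf μ) (Quotient.out q.1) = cset Φ (cutsOf μ) (Quotient.out q'.1) :=
      congrArg Subtype.val hq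
    have h1 := cset_inj Φ hΦ x hinv hD (hout q) hq'
    apply Subtype.ext
    rw [← QuotientGroup.out_eq' q.1, ← QuotientGroup.out_eq' q'.1]
    exact QuotientGroup.eq.2 h1
  · rintro ⟨C, hC⟩
    obtain ⟨-, hchain, himg⟩ := Finset.mem_filter.1 hC
    have hex : ∀ d, ∃ a : α, d ∈ cutsOf μ → a ∈ C ∧ Module.finrank F (Φ a) = d := by
      intro d
      by_cases hd : d ∈ cutsOf μ
      · rw [← himg] at hd
        obtain ⟨a, ha, ha'⟩ := Finset.mem_image.1 hd
        exact ⟨a, fun _ => ⟨ha, ha'⟩⟩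
      · exact ⟨⊥, fun h => absurd h hd⟩
    choose a ha using hex
    obtain ⟨g, hg⟩ := exists_adapted (cutsOf μ) hD hn (fun d => Φ (a d))
      (fun d hd => (ha d hd).2) (by
        intro d hd d' hd' hle
        rcases eq_or_lt_of_le hle with rfl | hlt
        · exact le_rfl
        · by_cases hne : a d = a d'
          · simp only [hne]
            exact le_rfl
          · rcases hchain (Finset.mem_coe.2 (ha d hd).1) (Finset.mem_coe.2 (ha d' hd').1) hne with h | h
            · exact (hΦ _ _).2 h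
            · exfalso
              have h2 := Submodule.finrank_mono ((hΦ _ _).2 h)
              rw [(ha d hd).2, (ha d' hd').2] at h2
              omega)
    have hfixg : ∀ d ∈ cutsOf μ, ∀ v ∈ flg g d, act x v ∈ flg g d := by
      intro d hd
      rw [hg d hd]
      exact (hinv _).1 ⟨a d, rfl⟩
    have hq : ((g : GL (Fin n) F) : GL (Fin n) F ⧸ parabolicGL n F μ) ∈
        MulAction.fixedBy (GL (Fin n) F ⧸ parabolicGL n F μ) x := (fix_iff μ x g).2 hfixg
    refine ⟨⟨_, hq⟩, Subtype.ext ?_⟩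
    have hrel : g⁻¹ * Quotient.out ((g : GL (Fin n) F) : GL (Fin n) F ⧸ parabolicGL n F μ) ∈ parabolicGL n F μ :=
      QuotientGroup.eq.1 (QuotientGroup.out_eq' _).symm
    ext b
    rw [mem_cset]
    simp only
    constructor
    · rintro ⟨d, hd, hb⟩
      rw [← flg_eq_of_mem hrel hd, hg d hd] at hb
      rw [Phi_inj Φ hΦ hb]
      exact (ha d hd).1
    · intro hb
      have hd : Module.finrank F (Φ b) ∈ cutsOf μ := by
        rw [← himg]
        exact Finset.mem_image.2 ⟨b, hb, rfl⟩
      refine ⟨_, hd, ?_⟩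
      rw [← flg_eq_of_mem hrel hd, hg _ hd]
      have h3 := (ha _ hd)
      rw [eq_of_chain_rank Φ hΦ hchain h3.1 hb h3.2]

end fixed

end Cfsg.Agent.Lib.StVal
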