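import Mathlib
import Cfsg.Prelude.Def_LinearParabolics
import Cfsg.Agent.Lib.StVal2
import Cfsg.Agent.Lib.StVal5
set_option autoImplicit false
set_option linter.unusedSectionVars false

/-!
# Value of the Steinberg character of `GL_n(q)` at semisimple elements
-/

namespace Cfsg.Agent.Lib.StVal

open Polynomial Module
open scoped MatrixGroups

universe u

variable {F : Type u} [Field F] {n : ℕ}

/-- The subspace attached to an `F[X]`-submodule. -/
noncomputable def Phi (E : Module.End F (Fin n → F)) (U : Submodule F[X] (Module.AEval' E)) :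
    Submodule F (Fin n → F) :=
  (U.restrictScalars F).comap ((Module.AEval'.of E).toLinearMap)

lemma mem_Phi {E : Module.End F (Fin n → F)} {U : Submodule F[X] (Module.AEval' E)} {v : Fin n → F} :
    v ∈ Phi E U ↔ Module.AEval'.of E v ∈ U := Iff.rfl

lemma Phi_le {E : Module.End F (Fin n → F)} (U U' : Submodule F[X] (Module.AEval' E)) :
    Phi E U ≤ Phi E U' ↔ U ≤ U' := by
  constructor
  · intro h u hu
    have h1 : (Module.AEval'.of E).symm u ∈ Phi E U := by
      rw [mem_Phi, LinearEquiv.apply_symm_apply]
      exact hu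
    have h2 := h h1
    rwa [mem_Phi, LinearEquiv.apply_symm_apply] at h2
  · intro h v hv
    exact h hv

lemma Phi_inv {E : Module.End F (Fin n → F)} (W : Submodule F (Fin n → F)) :
    (∃ U, Phi E U = W) ↔ ∀ v ∈ W, E v ∈ W := by
  constructor
  · rintro ⟨U, rfl⟩ v hv
    rw [mem_Phi] at hv ⊢
    rw [← Module.AEval'.X_smul_of]
    exact U.smul_mem _ hv
  · intro h
    have hW : W ∈ (Algebra.lsmul F F (Fin n → F) E).invtSubmodule := by
      rw [Module.End.mem_invtSubmodule]
      intro v hv
      exact h v hv
    refine ⟨Module.AEval.mapSubmodule F (Fin n → F) E ⟨W, hW⟩, ?_⟩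
    ext v
    rw [mem_Phi, Module.AEval.mem_mapSubmodule_apply]
    rfl

lemma Phi_bot {E : Module.End F (Fin n → F)} : Phi E ⊥ = ⊥ := by
  ext v
  rw [mem_Phi, Submodule.mem_bot, Submodule.mem_bot]
  exact LinearEquiv.map_eq_zero_iff _

lemma Phi_top {E : Module.End F (Fin n → F)} : Phi E ⊤ = ⊤ := by
  ext v
  simp [mem_Phi]

lemma Phi_inj' {E : Module.End F (Fin n → F)} {U U' : Submodule F[X] (Module.AEval' E)}
    (h : Phi E U = Phi E U') : U = U' :=
  le_antisymm ((Phi_le _ _).1 (le_of_eq h)) ((Phi_le _ _).1 (le_of_eq h.symm))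

lemma cp_aeval (E : Module.End F (Fin n → F)) : cp F (Module.AEval' E) = E.charpoly := by
  unfold cp
  rw [← LinearEquiv.charpoly_conj (Module.AEval'.of E) E]
  congr 1
  ext1 v
  change (X : F[X]) • v = _
  have h1 : v = Module.AEval'.of E ((Module.AEval'.of E).symm v) := by simp
  conv_lhs => rw [h1, Module.AEval'.X_smul_of]
  simp [LinearEquiv.conj_apply]

variable [DecidableEq F] [Fintype F]

open scoped Classical in
theorem steinberg_value (x : GL (Fin n) F)
    (hss : Module.End.IsSemisimple (Matrix.toLin' (x : Matrix (Fin n) (Fin n) F))) :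
    Cfsg.unipotentCharacterGL n F (fun _ => 1) x =
      tau (Fintype.card F) (x : Matrix (Fin n) (Fin n) F).charpoly := by
  set E : Module.End F (Fin n → F) := Matrix.toLin' (x : Matrix (Fin n) (Fin n) F) with hE
  haveI : IsSemisimpleModule F[X] (Module.AEval' E) := hss
  haveI : Finite (Module.AEval' E) := inferInstanceAs (Finite (Fin n → F))
  haveI : Finite (Submodule F[X] (Module.AEval' E)) :=
    Finite.of_injective (fun U => (U : Set (Module.AEval' E))) SetLike.coe_injective
  letI : Fintype (Submodule F[X] (Module.AEval' E)) := Fintype.ofFinite _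
  have hact : ∀ v, act x v = E v := fun v => rfl
  let r : Submodule F[X] (Module.AEval' E) → ℕ := fun a => Module.finrank F (Phi E a)
  have hfin : Module.finrank F (Fin n → F) = n := by simp
  let h : Finset ℕ → ℂ := fun D => ((rkChains r D).card : ℂ)
  -- the sum over permutations
  have hstep : Cfsg.unipotentCharacterGL n F (fun _ => 1) x =
      ∑ κ : Equiv.Perm (Fin n), if Adm κ then ((Equiv.Perm.sign κ : ℤ) : ℂ) * h (cutsOf (muOf κ)) else 0 := by
    unfold Cfsg.unipotentCharacterGL
    apply Finset.sum_congr rfl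
    intro κ _
    by_cases hκ : Adm κ
    · have hκ' : ∀ i : Fin n, (κ i).val ≤ (fun _ : Fin n => 1) i + i.val := hκ
      rw [if_pos hκ', if_pos hκ]
      congr 1
      have hcut : cutsOf (muOf κ) = cutSet κ := by
        have := cutsOf_kapP (cutSet_mem_dimSets κ)
        rwa [kapP_cutSet hκ] at this
      have hmem := (mem_dimSets n _).1 (cutSet_mem_dimSets κ)
      rw [← hcut] at hmem
      have := card_fixed (Phi E) (Phi_le) x (by
        intro W
        rw [Phi_inv]
        exact Iff.rfl) (muOf κ) hmem.1 hmem.2.2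
      exact congrArg (fun k : ℕ => (k : ℂ)) this
    · have hκ' : ¬ ∀ i : Fin n, (κ i).val ≤ (fun _ : Fin n => 1) i + i.val := hκ
      rw [if_neg hκ', if_neg hκ]
  rw [hstep, sum_adm h]
  have hr : StrictMono r := by
    intro a b hab
    have h1 : Phi E a ≤ Phi E b := (Phi_le a b).2 hab.le
    have h2 : Phi E a ≠ Phi E b := fun h3 => hab.ne (Phi_inj' h3)
    exact Submodule.finrank_lt_finrank_of_lt (lt_of_le_of_ne h1 h2)
  have hr0 : ∀ a, r a = 0 ↔ a = ⊥ := by
    intro a
    constructor
    · intro ha
      apply Phi_inj'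
      rw [Phi_bot]
      exact Submodule.finrank_eq_zero.1 ha
    · rintro rfl
      change Module.finrank F (Phi E ⊥) = 0
      rw [Phi_bot, finrank_bot]
  have hrn : ∀ a, r a = n ↔ a = ⊤ := by
    intro a
    constructor
    · intro ha
      apply Phi_inj'
      rw [Phi_top]
      apply Submodule.eq_top_of_finrank_eq
      rw [hfin]
      exact ha
    · rintro rfl
      change Module.finrank F (Phi E ⊤) = n
      rw [Phi_top, finrank_top, hfin]
  have hrle : ∀ a, r a ≤ n := by
    intro a
    have := Submodule.finrank_le (Phi E a)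
    rwa [hfin] at this
  rw [sum_rkChains r n hr hr0 hrn hrle]
  -- identify the chain sum
  have hcsum : gam (Nat.card F) (cp F (⊤ : Submodule F[X] (Module.AEval' E))) = csum (⊤ : Submodule F[X] (Module.AEval' E)) := by
    apply eq_csum (fun U : Submodule F[X] (Module.AEval' E) => gam (Nat.card F) (cp F U))
    · have h1 : cp F (⊥ : Submodule F[X] (Module.AEval' E)) = 1 := by
        apply (Polynomial.Monic.natDegree_eq_zero (cp_monic _ _)).1
        rw [cp_natDegree]
        exact Module.finrank_zero_of_subsingleton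
      rw [h1, gam_one]
    · intro y hy
      exact sum_gam y hy
  have hcptop : cp F (⊤ : Submodule F[X] (Module.AEval' E)) = (x : Matrix (Fin n) (Fin n) F).charpoly := by
    rw [cp_congr (Submodule.topEquiv (R := F[X]) (M := Module.AEval' E)), cp_aeval, hE, Matrix.charpoly_toLin']
  rw [← hcsum, hcptop]
  unfold gam
  rw [Matrix.charpoly_natDegree_eq_dim, Fintype.card_fin, Nat.card_eq_fintype_card, ← mul_assoc, ← mul_pow]
  simp

end Cfsg.Agent.Lib.StVal
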