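import Mathlib
import Cfsg.Agent.Lib.StarFocal
import Cfsg.Agent.Lib.BrauerIn

/-!
# Components at central elements of a defect group do not vanish
-/

set_option autoImplicit false
set_option linter.unusedSectionVars false
set_option linter.unusedVariables false
set_option linter.style.haveILetI false

namespace Cfsg.Agent.Lib.StarZ

open Polynomial IsLocalRing Cfsg Cfsg.Agent.Lib.StarFit Cfsg.Agent.Lib.StarGrp
open Cfsg.Agent.Lib.StarLoc Cfsg.Agent.Lib.BlockLocal Cfsg.Agent.Lib.BlockCover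
open Cfsg.Agent.Lib.BlockResidue Cfsg.Agent.Lib.BrauerMap Cfsg.Agent.Lib.BrauerPair
open Cfsg.Agent.Lib.BrauerSub Cfsg.Agent.Lib.BlockIdem Cfsg.Agent.Lib.CharIntegrality
open Cfsg.Agent.Lib.BlkBasic Cfsg.Agent.Lib.StarBlk Cfsg.Agent.Lib.StarP Cfsg.Agent.Lib.StarTh
open Cfsg.Agent.Lib.StarFit.LocSys Cfsg.Agent.Lib.GenChar Cfsg.Agent.Lib.CharBasic
open Cfsg.Agent.Lib.CharInd Cfsg.Agent.Lib.StarGen Cfsg.Agent.Lib.BrauerConj
open Cfsg.Agent.Lib.BrauerCen Cfsg.Agent.Lib.BrauerMax Cfsg.Agent.Lib.StarII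
open Cfsg.Agent.Lib.StarGlob Cfsg.Agent.Lib.BlockOrtho Cfsg.Agent.Lib.StarInner
open Cfsg.Agent.Lib.StarNorm Cfsg.Agent.Lib.BrauerNil Cfsg.Agent.Lib.BrauerStab
open Cfsg.Agent.Lib.StarNil Cfsg.Agent.Lib.StarAct Cfsg.Agent.Lib.StarH0 Cfsg.Agent.Lib.StarFocal
open Cfsg.Agent.Lib.BrauerIn
open scoped ComplexConjugate

universe u

variable {G : Type u} [Group G] [Fintype G] {p : ℕ} [hp : Fact p.Prime] {M : Ideal AlgInt}
  [hMp : M.IsPrime]

local notation "𝐂[" R "]" => Subgroup.centralizer ((R : Subgroup G) : Set G)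
local notation "𝐍[" R "]" => Subgroup.normalizer ((R : Subgroup G) : Set G)
local notation Q "^^" x => Subgroup.map (MulEquiv.toMonoidHom (MulAut.conj (x : G))) (Q : Subgroup G)

noncomputable local instance fintypeSubZ {A : Type*} [Group A] [Finite A] (K : Subgroup A) : Fintype K :=
  Fintype.ofFinite K

noncomputable local instance fintypeQuotZ {A : Type*} [Group A] [Finite A] (K : Subgroup A) :
    Fintype (A ⧸ K) := Fintype.ofFinite _

section Lift

variable {P : Subgroup G} {v : G}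

/-- **Lifting an idempotent to the group algebra of the centralizer, commuting with `P`.** -/
theorem exists_lift_P (hM : IsPModular p M) (hv : IsPPart p v v) (hvP : v ∈ P)
    (hPX : P ≤ 𝐂[Subgroup.zpowers v]) (b : BlockT M 𝐂[Subgroup.zpowers v])
    {q : MonoidAlgebra (localSubring M) G} (hqP : q ∈ cen (localSubring M) (P : Set G)) (hqq : q * q = q)
    (hqb : br (Subgroup.zpowers v) q * bb (Subgroup.zpowers v) b = br (Subgroup.zpowers v) q) :
    ∃ j ∈ cen (localSubring M) (P : Set G), j ∈ suppS M 𝐂[Subgroup.zpowers v] ∧ j * j = j ∧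
      j * eB 𝐂[Subgroup.zpowers v] b = j ∧ ∀ {φ : G → ℂ}, IsClassFunction G φ →
        chiT φ (ofG (localSubring M) v * q) = chiT φ (ofG (localSubring M) v * j) := by
  classical
  have hψ := homV hM hv
  have hzP : ((Subgroup.zpowers v : Subgroup G) : Set G) ⊆ (P : Set G) := by
    intro y hy
    exact (Subgroup.zpowers_le.2 hvP) hy
  have hSV : cen (localSubring M) (P : Set G) ≤ SV M v := cen_anti hzP
  have hq : q ∈ SV M v := hSV hqP
  let S : Subalgebra (localSubring M) (MonoidAlgebra (localSubring M) G) :=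
    cen (localSubring M) (P : Set G) ⊓ suppS M 𝐂[Subgroup.zpowers v]
  have hψS : HomOn (LL M G) S (br (Subgroup.zpowers v) : MonoidAlgebra (localSubring M) G →+ _) :=
    ⟨fun a ha b hb => hψ.mul a (hSV ha.1) b (hSV hb.1), hψ.one, fun a ha => hψ.ker a (hSV ha.1)⟩
  -- the truncation
  have hx₀S : trunc 𝐂[Subgroup.zpowers v] q ∈ S := by
    refine ⟨?_, trunc_mem_suppS _ q⟩
    show trunc 𝐂[Subgroup.zpowers v] q ∈ cen (localSubring M) (P : Set G)
    rw [mem_cen_coeff]
    intro e he g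
    have he' : e ∈ 𝐂[Subgroup.zpowers v] := hPX he
    have hq' := mem_cen_coeff.1 hqP e he g
    apply Subtype.ext
    show coeF _ _ = coeF _ _
    by_cases hg : g ∈ 𝐂[Subgroup.zpowers v]
    · have hg' : e⁻¹ * g * e ∈ 𝐂[Subgroup.zpowers v] :=
        Subgroup.mul_mem _ (Subgroup.mul_mem _ (Subgroup.inv_mem _ he') hg) he'
      rw [coeF_trunc_of_mem q hg, coeF_trunc_of_mem q hg']
      simp only [coeF_apply]
      rw [hq']
    · have hg' : e⁻¹ * g * e ∉ 𝐂[Subgroup.zpowers v] := by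
        intro h1
        apply hg
        have : g = e * (e⁻¹ * g * e) * e⁻¹ := by group
        rw [this]
        exact Subgroup.mul_mem _ (Subgroup.mul_mem _ he' h1) (Subgroup.inv_mem _ he')
      rw [trunc_mem_suppS _ q _ hg, trunc_mem_suppS _ q _ hg']
  have hbx₀ : br (Subgroup.zpowers v) (trunc 𝐂[Subgroup.zpowers v] q) = br (Subgroup.zpowers v) q := by
    apply ext_coeff
    intro g
    by_cases hg : g ∈ 𝐂[Subgroup.zpowers v]
    · rw [br_coeff_mem _ _ hg, br_coeff_mem _ _ hg]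
      congr 1
      apply Subtype.ext
      exact coeF_trunc_of_mem q hg
    · rw [br_coeff_not_mem _ _ hg, br_coeff_not_mem _ _ hg]
  have heS : eB 𝐂[Subgroup.zpowers v] b ∈ S := by
    refine ⟨cen_anti (fun y hy => hPX hy) (eB_mem_cen _ b), ?_⟩
    intro k hk
    rw [coeF_eB, subgroupBlockCoeff_eq_ext0, ext0_of_not_mem _ _ hk]
  have hcomm : trunc 𝐂[Subgroup.zpowers v] q * eB 𝐂[Subgroup.zpowers v] b =
      eB 𝐂[Subgroup.zpowers v] b * trunc 𝐂[Subgroup.zpowers v] q :=
    commute_of_supp (trunc_mem_suppS _ q) (eB_mem_cen _ b)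
  have hyS : trunc 𝐂[Subgroup.zpowers v] q * eB 𝐂[Subgroup.zpowers v] b ∈ S := S.mul_mem hx₀S heS
  have hbr : br (Subgroup.zpowers v) (trunc 𝐂[Subgroup.zpowers v] q * eB 𝐂[Subgroup.zpowers v] b) =
      br (Subgroup.zpowers v) q := by
    rw [hψS.mul _ hx₀S _ heS, hbx₀]
    exact hqb
  have hε : br (Subgroup.zpowers v) q * br (Subgroup.zpowers v) q = br (Subgroup.zpowers v) q := by
    rw [← hψ.mul _ hq _ hq, hqq]
  obtain ⟨j, hjS, hjj, hej, hje, hbj⟩ := exists_lift_corner hψS heS (eB_idem _ b) hyS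
    (by rw [← mul_assoc, ← hcomm, mul_assoc, eB_idem])
    (by rw [mul_assoc, eB_idem])
    (by rw [hbr, hε])
  rw [hbr] at hbj
  refine ⟨j, hjS.1, hjS.2, hjj, hje, fun {φ} hφ => ?_⟩
  rw [← Th_eq hM hφ hv hq hqq, ← Th_eq hM hφ hv (hSV hjS.1) hjj, hbj]

/-- The value of a class function at the trace. -/
theorem chiT_rtr {φ : G → ℂ} (hφ : IsClassFunction G φ) (X Y : Subgroup G)
    (w : MonoidAlgebra (localSubring M) G) :
    chiT φ (rtr X Y w) = ((X.subgroupOf Y).index : ℂ) * chiT φ w := by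
  unfold rtr
  rw [map_sum]
  simp only [chiT_cj hφ]
  rw [Finset.sum_const, Finset.card_univ, nsmul_eq_mul]
  congr 2
  exact (Nat.card_eq_fintype_card).symm

theorem rtr_ofG_mul {X Y : Subgroup G} {v : G} (hv : ∀ y ∈ Y, y * v = v * y)
    (w : MonoidAlgebra (localSubring M) G) :
    rtr X Y (ofG (localSubring M) v * w) = ofG (localSubring M) v * rtr X Y w := by
  unfold rtr
  rw [Finset.mul_sum]
  refine Finset.sum_congr rfl fun q _ => ?_
  rw [cj_mul', cj_ofG]
  have h1 : ((q.out : Y) : G) * v * ((q.out : Y) : G)⁻¹ = v := by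
    rw [hv _ q.out.2]
    group
  rw [h1]

theorem cj_mem_suppS {K : Subgroup G} {y : G} (hy : y ∈ K) {j : MonoidAlgebra (localSubring M) G}
    (hj : j ∈ suppS M K) : cj y j ∈ suppS M K := by
  intro k hk
  have h1 : y⁻¹ * k * y ∉ K := by
    intro h2
    apply hk
    have : k = y * (y⁻¹ * k * y) * y⁻¹ := by group
    rw [this]
    exact K.mul_mem (K.mul_mem hy h2) (K.inv_mem hy)
  have h2 := hj _ h1
  simp only [coeF_apply] at h2 ⊢
  rw [coeff_cj]
  exact h2

theorem rtr_mem_suppS {X Y : Subgroup G} {j : MonoidAlgebra (localSubring M) G}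
    (hj : j ∈ suppS M Y) : rtr X Y j ∈ suppS M Y :=
  Subalgebra.sum_mem _ fun q _ => cj_mem_suppS q.out.2 hj

theorem rtr_mul_central {X Y : Subgroup G} {j ε : MonoidAlgebra (localSubring M) G}
    (hε : ε ∈ cen (localSubring M) (Y : Set G)) (hj : j * ε = j) : rtr X Y j * ε = rtr X Y j := by
  unfold rtr
  rw [Finset.sum_mul]
  refine Finset.sum_congr rfl fun q _ => ?_
  conv_lhs => rw [← cj_eq_of_mem hε (show ((q.out : Y) : G) ∈ (Y : Set G) from q.out.2)]
  rw [← cj_mul', hj]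

end Lift

section Defect

variable {P : Subgroup G} {v : G} {B : Set (IrrCharacter G)}

/-- The block at a central element of the defect group has the same defect group. -/
theorem card_eq_defect (hM : IsPModular p M) {c : Set (IrrCharacter (Subgroup.centralizer (P : Set G)))}
    (hmax : IsMaximalBrauerPair p M B P c) (hzP : Subgroup.zpowers v ≤ P)
    (hPX : P ≤ 𝐂[Subgroup.zpowers v]) (b : BlockT M 𝐂[Subgroup.zpowers v])
    (hle : SubpairLE p M (Subgroup.zpowers v) b.1 P c) : Nat.card P = p ^ blockDefect p b.1 := by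
  classical
  have hPp : IsPGroup p P := hmax.1.1.1
  obtain ⟨f, hf⟩ := exists_isInducedBlockIn hM hPp hzP hPX hmax.1.1.2
  have hB' := isBrauerPairOf_in hM hPp hzP hPX hf
  have hfb : IsPBlock M f := hf.2.1
  have hn := isNormalSubpair_of_in hPp hzP hPX hB' hmax.1.1.2 hfb
  have hle' : SubpairLE p M (Subgroup.zpowers v) f P c := Relation.ReflTransGen.single hn
  have huniq := existsUnique_subpairLE hM hmax.1.1 hzP
  obtain rfl : f = b.1 := huniq.unique ⟨hfb, hle'⟩ ⟨b.2, hle⟩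
  have hmaxIn := isMaximal_in hM (isDefectGroup_of_maximal hM hmax) hzP hPX hmax.1 hB' hfb
  have hD := isDefectGroup_of_maximal hM hmaxIn
  have h1 := Cfsg.Agent.Lib.BlockDefect.card_isDefectGroup hM hfb hD
  rw [← h1]
  exact (Nat.card_congr (Subgroup.subgroupOfEquivOfLe hPX).toEquiv).symm

/-- The degrees of the characters in the block of the centralizer are divisible by the index. -/
theorem memLocalRing_degree_div (hM : IsPModular p M) (hPX : P ≤ 𝐂[Subgroup.zpowers v])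
    (b : BlockT M 𝐂[Subgroup.zpowers v]) (hcard : Nat.card P = p ^ blockDefect p b.1)
    {ξ : IrrCharacter 𝐂[Subgroup.zpowers v]} (hξ : ξ ∈ b.1) :
    MemLocalRing M ((ξ : 𝐂[Subgroup.zpowers v] → ℂ) 1 / ((P.subgroupOf 𝐂[Subgroup.zpowers v]).index : ℂ)) := by
  classical
  obtain ⟨u, hu1, hu2, hu3⟩ := Cfsg.Agent.Lib.BlockQ.exists_unit_formula hM b.2 hξ
  have h1 : Nat.card 𝐂[Subgroup.zpowers v] = (P.subgroupOf 𝐂[Subgroup.zpowers v]).index * Nat.card P := by
    rw [← Nat.card_congr (Subgroup.subgroupOfEquivOfLe hPX).toEquiv, mul_comm, Subgroup.card_mul_index]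
  have hD : ((P.subgroupOf 𝐂[Subgroup.zpowers v]).index : ℂ) ≠ 0 := by
    have : (P.subgroupOf 𝐂[Subgroup.zpowers v]).index ≠ 0 := Subgroup.index_ne_zero_of_finite
    exact_mod_cast this
  have hpow : ((p : ℂ) ^ blockDefect p b.1) ≠ 0 := pow_ne_zero _ (by exact_mod_cast hp.out.ne_zero)
  have h2 : (ξ : 𝐂[Subgroup.zpowers v] → ℂ) 1 / ((P.subgroupOf 𝐂[Subgroup.zpowers v]).index : ℂ) =
      (p : ℂ) ^ blockHeight p b.1 (ξ : 𝐂[Subgroup.zpowers v] → ℂ) * u := by
    have hcalc : ∀ (D P' x : ℂ), D ≠ 0 → P' ≠ 0 → x / D = P' * x / (D * P') := by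
      intro D P' x h1 h2
      field_simp
    rw [← hu3, h1, hcard]
    push_cast
    exact hcalc _ _ _ hD hpow
  rw [h2]
  exact memLocalRing_mul (memLocalRing_pow (memLocalRing_natCast p) _) hu1

/-- Multiplicities in the restriction are local integers. -/
theorem memLocalRing_inner_shift {χ : G → ℂ} (hχ : IsCharacter G χ) (v : G)
    (ξ : IrrCharacter 𝐂[Subgroup.zpowers v]) :
    MemLocalRing M (classInner (shiftF v χ) (ξ : 𝐂[Subgroup.zpowers v] → ℂ)) := by
  classical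
  have hvX : v ∈ 𝐂[Subgroup.zpowers v] := by
    rw [Subgroup.mem_centralizer_iff]
    intro h hh
    obtain ⟨n, rfl⟩ := Subgroup.mem_zpowers_iff.1 hh
    exact ((Commute.refl v).zpow_left n).eq
  set vh : 𝐂[Subgroup.zpowers v] := ⟨v, hvX⟩ with hvh
  have hcent : ∀ s : 𝐂[Subgroup.zpowers v], s * vh = vh * s := by
    intro s
    apply Subtype.ext
    exact ((Subgroup.mem_centralizer_iff.1 s.2) v (Subgroup.mem_zpowers v)).symm
  set e : 𝐂[Subgroup.zpowers v] → ℂ := fun s => if s = vh then 1 else 0 with he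
  have hecl : IsClassFunction 𝐂[Subgroup.zpowers v] e := by
    intro g h
    simp only [he]
    have : h * g * h⁻¹ = vh ↔ g = vh := by
      constructor
      · intro h1
        have h2 : g = h⁻¹ * (h * g * h⁻¹) * h := by group
        rw [h2, h1, mul_assoc, ← hcent h, ← mul_assoc, inv_mul_cancel, one_mul]
      · rintro rfl
        rw [hcent h]
        group
    simp only [this]
  have heR : ∀ s, MemLocalRing M (e s) := by
    intro s
    simp only [he]
    split_ifs
    · exact memLocalRing_one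
    · exact memLocalRing_zero
  have hZc := mem_Zc_of_classFunction (M := M) hecl heR
  have hval : ∀ (τ : IrrCharacter 𝐂[Subgroup.zpowers v]) (s : 𝐂[Subgroup.zpowers v]),
      (τ : 𝐂[Subgroup.zpowers v] → ℂ) (vh * s) = omega (τ : 𝐂[Subgroup.zpowers v] → ℂ) e * (τ : 𝐂[Subgroup.zpowers v] → ℂ) s := by
    intro τ s
    have h1 := Cfsg.Agent.Lib.BlockSecond.sum_class_mul_irr hecl τ s
    rw [← h1, Finset.sum_eq_single vh]
    · simp only [he, if_true, one_mul]
      rw [hcent s]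
    · intro y _ hy
      simp [he, hy]
    · intro h
      exact absurd (Finset.mem_univ _) h
  have hres : IsCharacter 𝐂[Subgroup.zpowers v] (fun s : 𝐂[Subgroup.zpowers v] => χ s) :=
    isCharacter_restrict _ hχ
  obtain ⟨m, hm⟩ := exists_nat_decomp hres
  have hshift : shiftF v χ = ∑ τ : IrrCharacter 𝐂[Subgroup.zpowers v],
      ((m τ : ℂ) * omega (τ : 𝐂[Subgroup.zpowers v] → ℂ) e) • (τ : 𝐂[Subgroup.zpowers v] → ℂ) := by
    funext s
    have h1 := congrFun hm (vh * s)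
    rw [Finset.sum_apply] at h1
    simp only [Pi.smul_apply] at h1
    rw [Finset.sum_apply]
    simp only [Pi.smul_apply, smul_eq_mul]
    show χ (v * s) = _
    have h2 : χ (v * s) = χ ((vh * s : 𝐂[Subgroup.zpowers v]) : G) := rfl
    rw [h2, h1]
    refine Finset.sum_congr rfl fun τ _ => ?_
    rw [hval, nsmul_eq_mul]
    ring
  rw [hshift, classInner_sum_left, Finset.sum_eq_single ξ]
  · rw [classInner_smul_left, classInner_irr_self ξ.2, mul_one]
    exact memLocalRing_mul (memLocalRing_natCast _) (memLocalRing_of_mem_Zc hZc ξ)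
  · intro τ _ hτ
    rw [classInner_smul_left, classInner_irr_ne τ.2 ξ.2 (fun h => hτ (Subtype.ext h)), mul_zero]
  · intro h
    exact absurd (Finset.mem_univ _) h

/-- The value at an element commuting with `C(v)` in terms of central characters. -/
theorem chiT_central_eq (b : BlockT M 𝐂[Subgroup.zpowers v]) {t : MonoidAlgebra (localSubring M) G}
    (htS : t ∈ suppS M 𝐂[Subgroup.zpowers v]) (hte : t * eB 𝐂[Subgroup.zpowers v] b = t)
    {φ : G → ℂ} (hφ : IsClassFunction G φ) :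
    chiT φ (ofG (localSubring M) v * t) = ∑ ξ : IrrCharacter 𝐂[Subgroup.zpowers v],
      indB b.1 ξ * (classInner (shiftF v φ) (ξ : 𝐂[Subgroup.zpowers v] → ℂ) *
        (omega (ξ : 𝐂[Subgroup.zpowers v] → ℂ) (resC 𝐂[Subgroup.zpowers v] (coeF t)) *
          (ξ : 𝐂[Subgroup.zpowers v] → ℂ) 1)) := by
  classical
  have h1 := chiT_formula b htS hte hφ 1
  have h2 : v * ((1 : 𝐂[Subgroup.zpowers v]) : G) = v := by simp
  rw [h2] at h1
  rw [h1]
  unfold blockProj
  simp only [one_mul]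
  simp_rw [Finset.mul_sum]
  rw [Finset.sum_comm]
  refine Finset.sum_congr rfl fun ξ _ => ?_
  have h3 : omega (ξ : 𝐂[Subgroup.zpowers v] → ℂ) (resC 𝐂[Subgroup.zpowers v] (coeF t)) *
      (ξ : 𝐂[Subgroup.zpowers v] → ℂ) 1 = ∑ m, resC 𝐂[Subgroup.zpowers v] (coeF t) m * (ξ : 𝐂[Subgroup.zpowers v] → ℂ) m := by
    unfold omega
    exact div_mul_cancel₀ _ (irr_one_ne_zero' ξ.2)
  rw [h3, Finset.mul_sum, Finset.mul_sum]
  refine Finset.sum_congr rfl fun m _ => ?_
  ring

theorem chiT_eB_one (b : BlockT M 𝐂[Subgroup.zpowers v]) {φ : G → ℂ} (hφ : IsClassFunction G φ) :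
    chiT φ (ofG (localSubring M) v * eB _ b) = ∑ ξ : IrrCharacter 𝐂[Subgroup.zpowers v],
      indB b.1 ξ * (classInner (shiftF v φ) (ξ : 𝐂[Subgroup.zpowers v] → ℂ) *
          (ξ : 𝐂[Subgroup.zpowers v] → ℂ) 1) := by
  have h1 := chiT_eB_eq v φ hφ b 1
  have h2 : v * ((1 : 𝐂[Subgroup.zpowers v]) : G) = v := by simp
  rw [h2] at h1
  rw [h1]
  rfl

end Defect

section Core

variable {P H : Subgroup G} {B : Set (IrrCharacter G)} {v : G}

/-- **The components at central elements of the defect group do not vanish** (using a good idempotent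
for a character of height zero). -/
theorem nonvanishing_core (hM : IsPModular p M) {c : BlockT M 𝐂[P]}
    (hmax : IsMaximalBrauerPair p M B P c.1) {χ₀ : IrrCharacter G} (hχ₀ : χ₀ ∈ B)
    (h0 : blockHeight p B (χ₀ : G → ℂ) = 0) {i : MonoidAlgebra (localSubring M) G}
    (hHp : ∀ s ∈ H, ¬ p ∣ orderOf s) (hQH : ∀ τ ∈ P, ∀ s ∈ H, τ * s = s * τ)
    (hi : PrimIn (SS M P H) i) (hbr : br P i ≠ 0) (hc : br P i * bb P c = br P i)
    (hall : ∀ w ∈ P, ¬ MemLocalIdeal M (chiT (χ₀ : G → ℂ) (ofG (localSubring M) w * i)))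
    (hvP : v ∈ P) (hvC : v ∈ 𝐂[P]) (b : BlockT M 𝐂[Subgroup.zpowers v])
    (hle : SubpairLE p M (Subgroup.zpowers v) b.1 P c.1) {χ : IrrCharacter G} (hχ : χ ∈ B) :
    chiT (χ : G → ℂ) (ofG (localSubring M) v * eB _ b) ≠ 0 := by
  classical
  have hpp := hp.out
  have hPp : IsPGroup p P := hmax.1.1.1
  have hB := hmax.1.2.1
  have hzP : Subgroup.zpowers v ≤ P := Subgroup.zpowers_le.2 hvP
  have hPX : P ≤ 𝐂[Subgroup.zpowers v] := by
    intro τ hτ
    rw [Subgroup.mem_centralizer_iff]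
    intro y hy
    obtain ⟨n, rfl⟩ := Subgroup.mem_zpowers_iff.1 hy
    have h1 : Commute τ v := (Subgroup.mem_centralizer_iff.1 hvC) τ hτ
    exact (h1.zpow_right n).eq.symm
  have hvX : ∀ y ∈ 𝐂[Subgroup.zpowers v], y * v = v * y := by
    intro y hy
    exact ((Subgroup.mem_centralizer_iff.1 hy) v (Subgroup.mem_zpowers v)).symm
  obtain ⟨k, hk⟩ := (IsPGroup.iff_orderOf.1 hPp) ⟨v, hvP⟩
  have hpart : IsPPart p v v := Cfsg.Agent.Lib.BlkOrth.isPPart_self ⟨k, by rwa [Subgroup.orderOf_mk] at hk⟩ hpp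
  have hbelow := local_below hM hHp _ P rfl hPp hQH i c hi hbr hc (Subgroup.zpowers v) b hzP hle
  obtain ⟨j, hjP, hjS, hjj, hje, hjφ⟩ := exists_lift_P hM hpart hvP hPX b (SS_left hi.mem) hi.idem hbelow
  have hχ₀c : IsCharacter G (χ₀ : G → ℂ) := IsIrrCharacter.isCharacter χ₀.2
  have hχ₀cl : IsClassFunction G (χ₀ : G → ℂ) := isClassFunction_of_isCharacter hχ₀c
  -- the value `a`
  set a := chiT (χ₀ : G → ℂ) (ofG (localSubring M) v * j) with ha
  have haU : ¬ MemLocalIdeal M a := by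
    rw [ha, ← hjφ hχ₀cl]
    exact hall v hvP
  -- the trace
  set t := rtr P 𝐂[Subgroup.zpowers v] j with ht
  set D : ℂ := ((P.subgroupOf 𝐂[Subgroup.zpowers v]).index : ℂ) with hD
  have hD0 : D ≠ 0 := by
    have : (P.subgroupOf 𝐂[Subgroup.zpowers v]).index ≠ 0 := Subgroup.index_ne_zero_of_finite
    rw [hD]
    exact_mod_cast this
  have htS : t ∈ suppS M 𝐂[Subgroup.zpowers v] := rtr_mem_suppS hjS
  have hte : t * eB 𝐂[Subgroup.zpowers v] b = t := rtr_mul_central (eB_mem_cen _ b) hje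
  have htC : t ∈ cen (localSubring M) (𝐂[Subgroup.zpowers v] : Set G) := by
    have h1 : j ∈ cen (localSubring M) ((P : Set G) ∪ ∅) := by
      rw [Set.union_empty]
      exact hjP
    have h2 := rtr_mem h1 hPX (H := ∅) (fun h hh => absurd hh (Set.notMem_empty h))
    rw [Set.union_empty] at h2
    exact h2
  have htrace : chiT (χ₀ : G → ℂ) (ofG (localSubring M) v * t) = D * a := by
    rw [ht, ← rtr_ofG_mul hvX, chiT_rtr hχ₀cl]
  -- the central functions
  set τ : 𝐂[Subgroup.zpowers v] → ℂ := resC 𝐂[Subgroup.zpowers v] (coeF t) with hτ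
  have hτcl : IsClassFunction 𝐂[Subgroup.zpowers v] τ := by
    intro g s
    have h1 := mem_cen_coeff.1 htC (s : G)⁻¹ (Subgroup.inv_mem _ s.2) (g : G)
    simp only [hτ, resC_apply, coeF_apply]
    rw [← h1]
    simp
  have hτR : ∀ g, MemLocalRing M (τ g) := fun g => coeF_local t (g : G)
  have hZc := mem_Zc_of_classFunction (M := M) hτcl hτR
  have hform := chiT_central_eq b htS hte hχ₀cl
  have hcard := card_eq_defect hM hmax hzP hPX b hle
  set d : IrrCharacter 𝐂[Subgroup.zpowers v] → ℂ := fun ξ =>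
    classInner (shiftF v (χ₀ : G → ℂ)) (ξ : 𝐂[Subgroup.zpowers v] → ℂ) with hd
  have hdR : ∀ ξ, MemLocalRing M (d ξ) := fun ξ => memLocalRing_inner_shift hχ₀c v ξ
  set r : IrrCharacter 𝐂[Subgroup.zpowers v] → ℂ := fun ξ => (ξ : 𝐂[Subgroup.zpowers v] → ℂ) 1 / D with hr
  have hrR : ∀ ξ ∈ b.1, MemLocalRing M (r ξ) := fun ξ hξ => memLocalRing_degree_div hM hPX b hcard hξ
  have hrD : ∀ ξ : IrrCharacter 𝐂[Subgroup.zpowers v], (ξ : 𝐂[Subgroup.zpowers v] → ℂ) 1 = D * r ξ := by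
    intro ξ
    simp only [hr]
    field_simp
  set Y : ℂ := ∑ ξ : IrrCharacter 𝐂[Subgroup.zpowers v], indB b.1 ξ * (d ξ * r ξ) with hY
  have hYR : MemLocalRing M Y := by
    refine memLocalRing_sum _ _ fun ξ _ => ?_
    by_cases hξ : ξ ∈ b.1
    · rw [indB_of_mem hξ, one_mul]
      exact memLocalRing_mul (hdR ξ) (hrR ξ hξ)
    · rw [indB_of_not_mem hξ, zero_mul]
      exact memLocalRing_zero
  have haeq : a = ∑ ξ : IrrCharacter 𝐂[Subgroup.zpowers v],
      indB b.1 ξ * (d ξ * r ξ * omega (ξ : 𝐂[Subgroup.zpowers v] → ℂ) τ) := by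
    apply mul_left_cancel₀ hD0
    rw [← htrace, hform, Finset.mul_sum]
    refine Finset.sum_congr rfl fun ξ _ => ?_
    rw [hrD ξ]
    ring
  obtain ⟨ξ₀, hξ₀⟩ := Cfsg.Agent.Lib.BlockQ.isPBlock_nonempty b.2
  set ω₀ := omega (ξ₀ : 𝐂[Subgroup.zpowers v] → ℂ) τ with hω₀
  have hω₀R : MemLocalRing M ω₀ := memLocalRing_of_mem_Zc hZc ξ₀
  have hdiff : MemLocalIdeal M (a - ω₀ * Y) := by
    rw [haeq, hY, Finset.mul_sum, ← Finset.sum_sub_distrib]
    refine memLocalIdeal_sum _ _ fun ξ _ => ?_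
    by_cases hξ : ξ ∈ b.1
    · rw [indB_of_mem hξ, one_mul, one_mul]
      have h1 : d ξ * r ξ * omega (ξ : 𝐂[Subgroup.zpowers v] → ℂ) τ - ω₀ * (d ξ * r ξ) =
          (d ξ * r ξ) * (omega (ξ : 𝐂[Subgroup.zpowers v] → ℂ) τ - ω₀) := by ring
      rw [h1]
      exact memLocalIdeal_mul_left (memLocalRing_mul (hdR ξ) (hrR ξ hξ))
        (memLocalIdeal_sub_of_mem_Zc hZc (Cfsg.Agent.Lib.BlockHeightQ.sameBlock_of_mem b.2 hξ hξ₀))
    · rw [indB_of_not_mem hξ]
      simpa using memLocalIdeal_zero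
  have hYU : ¬ MemLocalIdeal M Y := by
    intro h
    apply haU
    have h1 := memLocalIdeal_add hdiff (memLocalIdeal_mul_left hω₀R h)
    simpa using h1
  have hψ1 : chiT (χ₀ : G → ℂ) (ofG (localSubring M) v * eB _ b) = D * Y := by
    rw [chiT_eB_one b hχ₀cl, hY, Finset.mul_sum]
    refine Finset.sum_congr rfl fun ξ _ => ?_
    rw [hrD ξ]
    ring
  -- the central element of the group algebra
  set ζ := rtr 𝐂[Subgroup.zpowers v] ⊤ (ofG (localSubring M) v * eB _ b) with hζ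
  have hwC : ofG (localSubring M) v * eB _ b ∈ cen (localSubring M) (𝐂[Subgroup.zpowers v] : Set G) := by
    refine Subalgebra.mul_mem _ ?_ (eB_mem_cen _ b)
    rw [mem_cen]
    intro y hy
    rw [← ofG_mul, ← ofG_mul, hvX y hy]
  have hζC : ζ ∈ cen (localSubring M) ((⊤ : Subgroup G) : Set G) := by
    have h1 : ofG (localSubring M) v * eB _ b ∈ cen (localSubring M) ((𝐂[Subgroup.zpowers v] : Set G) ∪ ∅) := by
      rw [Set.union_empty]
      exact hwC
    have h2 := rtr_mem h1 le_top (H := ∅) (fun h hh => absurd hh (Set.notMem_empty h))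
    rw [Set.union_empty] at h2
    exact h2
  set f : G → ℂ := coeF ζ with hf
  have hfcl : IsClassFunction G f := by
    intro g s
    have h1 := mem_cen_coeff.1 hζC (s : G)⁻¹ (by simp) g
    simp only [hf, coeF_apply]
    rw [← h1]
    simp
  have hfR : ∀ g, MemLocalRing M (f g) := coeF_local ζ
  have hZf := mem_Zc_of_classFunction (M := M) hfcl hfR
  set I : ℂ := (((𝐂[Subgroup.zpowers v]).subgroupOf ⊤).index : ℂ) with hI
  have hchiζ : ∀ ξ : IrrCharacter G, omega (ξ : G → ℂ) f * (ξ : G → ℂ) 1 =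
      I * chiT (ξ : G → ℂ) (ofG (localSubring M) v * eB _ b) := by
    intro ξ
    have h1 := chiT_rtr (M := M) (isClassFunction_of_isCharacter (IsIrrCharacter.isCharacter ξ.2))
      𝐂[Subgroup.zpowers v] ⊤ (ofG (localSubring M) v * eB _ b)
    rw [← h1]
    unfold omega
    rw [div_mul_cancel₀ _ (irr_one_ne_zero' ξ.2)]
    rfl
  -- the formula at `χ₀`
  obtain ⟨u, hu1, hu2, hu3⟩ := Cfsg.Agent.Lib.BlockQ.exists_unit_formula hM hB hχ₀
  rw [h0, pow_zero, one_mul] at hu3
  have hPcard := Cfsg.Agent.Lib.BlockDefect.card_isDefectGroup hM hB (isDefectGroup_of_maximal hM hmax)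
  have hX1 : Nat.card 𝐂[Subgroup.zpowers v] = (P.subgroupOf 𝐂[Subgroup.zpowers v]).index * Nat.card P := by
    rw [← Nat.card_congr (Subgroup.subgroupOfEquivOfLe hPX).toEquiv, mul_comm, Subgroup.card_mul_index]
  have hG1 : (((𝐂[Subgroup.zpowers v]).subgroupOf ⊤).index) * Nat.card 𝐂[Subgroup.zpowers v] = Nat.card G := by
    have h1 : ((𝐂[Subgroup.zpowers v]).subgroupOf ⊤).index = (𝐂[Subgroup.zpowers v]).index :=
      Subgroup.relIndex_top_right _
    rw [h1]
    exact (𝐂[Subgroup.zpowers v]).index_mul_card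
  have hGc : (Nat.card G : ℂ) = I * (D * (p : ℂ) ^ blockDefect p B) := by
    rw [← hG1, hX1, hPcard]
    push_cast
    rfl
  have hG0 : (Nat.card G : ℂ) ≠ 0 := by exact_mod_cast Nat.card_pos.ne'
  have hI0 : I ≠ 0 := by
    intro h
    rw [hGc, h, zero_mul] at hG0
    exact hG0 rfl
  have hpow : ((p : ℂ) ^ blockDefect p B) ≠ 0 := pow_ne_zero _ (by exact_mod_cast hpp.ne_zero)
  have hχ₀1 : (χ₀ : G → ℂ) 1 = I * D * u := by
    rw [← hu3, hGc]
    field_simp
  have hω : omega (χ₀ : G → ℂ) f * u = Y := by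
    have h1 := hchiζ χ₀
    rw [hχ₀1, hψ1] at h1
    have h2 : (I * D) * (omega (χ₀ : G → ℂ) f * u) = (I * D) * Y := by
      linear_combination h1
    exact mul_left_cancel₀ (mul_ne_zero hI0 hD0) h2
  have hωU : ¬ MemLocalIdeal M (omega (χ₀ : G → ℂ) f) := by
    intro h
    apply hYU
    rw [← hω]
    exact memLocalIdeal_mul_right h hu1
  -- every character of the block
  have hsame := memLocalIdeal_sub_of_mem_Zc hZf (Cfsg.Agent.Lib.BlockHeightQ.sameBlock_of_mem hB hχ hχ₀)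
  have hωχ : omega (χ : G → ℂ) f ≠ 0 := by
    intro h
    apply hωU
    have h1 := memLocalIdeal_neg hsame
    rw [h, zero_sub, neg_neg] at h1
    exact h1
  intro hzero
  have h1 := hchiζ χ
  rw [hzero, mul_zero] at h1
  rcases mul_eq_zero.1 h1 with h2 | h2
  · exact hωχ h2
  · exact irr_one_ne_zero' χ.2 h2

end Core

section Final

variable {P : Subgroup G} {e : Set (IrrCharacter (Subgroup.centralizer (P : Set G)))}
  {B : Set (IrrCharacter G)}

/-- **A central element of the defect group acts trivially in stabilizers.** -/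
theorem twL_free_center (hM : IsPModular p M) {F : FusionSystem P} (hF : IsBlockFusionSystemOn p M B P e F)
    {χ : IrrCharacter G} (hχ : χ ∈ B) {l : P →* ℂˣ} (hl : Stable F l)
    (h : twL p M e l (χ : G → ℂ) = χ) {v : G} (hvP : v ∈ P) (hvC : v ∈ 𝐂[P]) :
    l ⟨v, hvP⟩ = 1 := by
  classical
  have hpp := hp.out
  have hmax := hF.1
  have he := hmax.1.1
  have hPp : IsPGroup p P := hmax.1.1.1
  have hB := hmax.1.2.1
  have hχc : IsClassFunction G (χ : G → ℂ) := isClassFunction_of_isCharacter (IsIrrCharacter.isCharacter χ.2)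
  -- a character of height zero
  obtain ⟨χ₀, hχ₀, hχ₀min⟩ := Cfsg.Agent.Lib.BlockQ.exists_minExp (p := p) hB
  have h0 : blockHeight p B (χ₀ : G → ℂ) = 0 := by
    have := Cfsg.Agent.Lib.BlockQ.charDegree_factorization_eq (p := p) hχ₀
    omega
  obtain ⟨H, i, c, g, hHp, hQH, hi, hbr, hc, hg, hall⟩ := exists_good_idem hM hmax hχ₀ h0
  have hPg : (P ^^ g) = P := congrArg Sigma.fst hg
  have hcmax : IsMaximalBrauerPair p M B P c.1 := by
    have hpair : IsBrauerPairOf p M B P c.1 := by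
      have h1 := isBrauerPairOf_conj hM hmax.1 g⁻¹
      have h2 : cp g⁻¹ ⟨P, e⟩ = ⟨P, c.1⟩ := by
        rw [← hg, cp_inv_cp]
      have h3 : IsBrauerPairOf p M B (cp g⁻¹ ⟨P, e⟩).1 (cp g⁻¹ ⟨P, e⟩).2 := h1
      rw [h2] at h3
      exact h3
    exact Cfsg.Agent.Lib.BrauerLift.isMaximal_of_isDefectGroup hM hpair (isDefectGroup_of_maximal hM hmax)
  -- the block at `v`
  set w : P := ⟨v, hvP⟩ with hw
  set j := idxP hM he w with hj
  have hj1 : j.1 = v := rfl
  have hWj : W2 p M P e j 1 := W2_idxP hM he w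
  -- the conjugate
  set j' := act g⁻¹ j with hj'
  have hj'1 : j'.1 = g⁻¹ * v * g⁻¹⁻¹ := rfl
  have hv'P : j'.1 ∈ P := by
    have h1 : v ∈ (P ^^ g) := by
      rw [hPg]
      exact hvP
    have h2 := (mem_conj_iff P g v).1 h1
    rw [hj'1, inv_inv]
    exact h2
  have hv'C : j'.1 ∈ 𝐂[P] := by
    rw [Subgroup.mem_centralizer_iff]
    intro τ hτ
    have h1 : g * τ * g⁻¹ ∈ P := by
      have h2 : g * τ * g⁻¹ ∈ (P ^^ g) := ⟨τ, hτ, rfl⟩
      rwa [hPg] at h2
    have h2 := (Subgroup.mem_centralizer_iff.1 hvC) _ h1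
    rw [hj'1, inv_inv]
    calc τ * (g⁻¹ * v * g) = g⁻¹ * ((g * τ * g⁻¹) * v) * g := by group
      _ = g⁻¹ * (v * (g * τ * g⁻¹)) * g := by rw [h2]
      _ = _ := by group
  have hle' : SubpairLE p M (Subgroup.zpowers j'.1) j'.2.1 P c.1 := by
    have h1 := relationCp hM g⁻¹ (show Relation.ReflTransGen (NormalSubpairRel (G := G) p M)
      (cp 1 ⟨Subgroup.zpowers j.1, j.2.1⟩) ⟨P, e⟩ from hWj)
    rw [cp_one] at h1
    have h2 : cp g⁻¹ ⟨P, e⟩ = ⟨P, c.1⟩ := by
      rw [← hg, cp_inv_cp]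
    rw [h2, ← pair_eq_cp] at h1
    exact h1
  have hnv := nonvanishing_core hM hcmax hχ₀ h0 hHp hQH hi hbr hc hall hv'P hv'C j'.2 hle' hχ
  have hconj : ofG (localSubring M) j'.1 * eB _ j'.2 = cj g⁻¹ (ofG (localSubring M) v * eI j) := by
    rw [cj_mul', cj_ofG, ← eI_act]
    rfl
  have hnv' : chiT (χ : G → ℂ) (ofG (localSubring M) v * eB _ j.2) ≠ 0 := by
    rw [hconj, chiT_cj hχc] at hnv
    exact hnv
  -- the twist
  have hΛ := lamH_conj (p := p) (M := M) (e := e) (lam := lamF l) (hst_lamF hF hl)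
  obtain ⟨k, hk⟩ := (IsPGroup.iff_orderOf.1 hPp) w
  have hk' : orderOf v = p ^ k := by rwa [hw, Subgroup.orderOf_mk] at hk
  have h1 := chiT_TT_eB hM hΛ hχc (u := v) ⟨k, hk'⟩ j.2 1 (by simp [hpp.one_lt.ne'])
  have h2 : v * ((1 : 𝐂[Subgroup.zpowers v]) : G) = v := by simp
  rw [h2] at h1
  have h3 : TT p M (LamH p M P e (lamF l)) (χ : G → ℂ) = χ := h
  rw [h3] at h1
  have hWit : Wit p M P e v (eB _ j.2) 1 := (wit_iff j 1).2 hWj
  have hL := lamH_eq (hst_lamF hF hl) hWit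
  have h4 : 1 * v * (1 : G)⁻¹ = (w : G) := by
    simp [hw]
  rw [h4, lamF_coe] at hL
  have h5 : ((l w : ℂˣ) : ℂ) = 1 := by
    have h6 : (((l w : ℂˣ) : ℂ) - 1) * chiT (χ : G → ℂ) (ofG (localSubring M) v * eB _ j.2) = 0 := by
      have h7 : chiT (χ : G → ℂ) (ofG (localSubring M) v * eB _ j.2) =
          LamH p M P e (lamF l) v (eB _ j.2) * chiT (χ : G → ℂ) (ofG (localSubring M) v * eB _ j.2) := h1
      rw [hL] at h7
      rw [sub_mul, one_mul, ← h7, sub_self]
    rcases mul_eq_zero.1 h6 with h7 | h7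
    · exact sub_eq_zero.1 h7
    · exact absurd h7 hnv'
  exact Units.ext h5

end Final

end Cfsg.Agent.Lib.StarZ
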