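import Mathlib
import Cfsg.Agent.Lib.SteinerSearch

set_option autoImplicit false
set_option maxRecDepth 1000000

/-!
# Uniqueness of the Steiner system S(5,6,12): the search table
-/

namespace Cfsg.Agent.Lib.Steiner5612
open Cfsg Cfsg.Agent.Lib.SteinerSearch

def Lstd : List ℕ := [126,189,219,231,315,343,365,399,438,476,490,
  497,567,591,633,670,683,725,748,754,797,814,858,
  867,884,915,933,952,966,969,1071,1117,1139,1175,1210,
  1230,1257,1268,1310,1333,1355,1382,1400,1433,1443,1452,1477,
  1490,1563,1596,1622,1637,1642,1677,1702,1713,1731,1752,1799,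
  1833,1842,1868,1873,1930,1940,2016,2079,2155,2165,2222,2227,
  2253,2262,2296,2343,2364,2382,2393,2418,2453,2458,2473,2499,
  2532,2605,2618,2643,2652,2662,2695,2713,2740,2762,2785,2827,
  2838,2865,2885,2920,2956,2978,3024,3126,3129,3143,3162,3180,
  3211,3228,3237,3281,3298,3341,3347,3370,3412,3425,3462,3504,
  3528,3598,3605,3619,3657,3696,3730,3752,3780,3864,3876,3906,
  3969]

def entriesRest : List Entry := [
  ⟨[2079,1071,591,399,567,1175,343,2343,231,2695,1799,3143,315,2155,1139,219,683,2227,1355,867,915,1443,2499,1563,2643,1731,2827,3211,3347,3619,189], [62,93,109,117,121,158,174,182,186,205,206,213,214,220,233,234,236,241,242,244,248,285,286,302,309,316,334,345,346,358,370,372,376,405,409,410,421,425,428,440,453,454,457,466,484,557,570,572,598,604,613,614,618,653,665,678,689,692,714,728,737,790,809,817,818,837,844,849,872,906,908,916,930,976,992,1078,1081,1114,1132,1180,1189,1233,1250,1293,1322,1364,1377,1414,1456,1480,1550,1557,1609,1648,1682,1704,1732,1816,1828,1858,1921], 0, [(0,0x5a928398a418820)]⟩,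
  ⟨[2079,1071,591,399,567,1175,343,2343,231,2695,1799,3143,315], [107,115,91,171,179,331,355,403,419,451,539,595,707,779,1163,1299,1571], 61, [(0,0x5a928398a418820),(0,0x524eb220c518820)]⟩,
  ⟨[2079,1071,591,399,567,1175], [87,295,103,647,775,1095], 59, [(0,0x5a928398a418820),(0,0x52d274188518820),(0,0x4ad0551c8618820)]⟩,
  ⟨[2079,1071,591,399,567], [], 151, [(0,0x5a928398a418820),(0,0x5a4ea2a0c418820)]⟩,
  ⟨[2079,1071,591], [143], 55, [(0,0x5a928398a418820),(0,0x5a90931ca418820),(0,0x5a8e9320a418820),(0,0x5a8c83a4a418820)]⟩,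
  ⟨[2079,1071], [], 79, [(0,0x5a928398a418820),(0,0x5a909398a418820),(0,0x5a8e9418a418820)]⟩,
  ⟨[2079], [], 47, [(0,0x5a928398a418820),(0,0x5a548398a418820),(0,0x5a149398a418820),(0,0x59d49418a418820),(0,0x5994941ca418820)]⟩
]

def rootE : Entry :=
  ⟨[], [], 31, [(0,0x5a928398a418820),(0,0x52d28398a418820),(0,0x4ad48398a418820),(0,0x42d49398a418820),(0,0x3ad49418a418820),(0,0x32d4941ca418820),(0,0x2ad4941cc418820)]⟩

def entries : List Entry := entriesRest ++ [rootE]

theorem chk : tableOK 12 5 6 0 [Lstd] entries = true := by decide +kernel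

theorem std_ok : stdOK 12 Lstd = true := by decide +kernel

theorem good : Good 12 5 6 0 (stdSet 12 Lstd) [] :=
  main_search (e := rootE) (by norm_num) (by norm_num) std_ok (by decide +kernel) (by decide +kernel) chk
    (List.mem_append_right _ (List.mem_singleton.2 rfl)) rfl

end Cfsg.Agent.Lib.Steiner5612
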