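import Mathlib
import Cfsg.Agent.Lib.StemCover
import Cfsg.Agent.Lib.CharKernel

/-!
More on stem extensions: pullbacks, scalar representations, lifting along projective representations.
-/

set_option autoImplicit false

namespace Cfsg.Agent.Lib.StemCover2

open Subgroup Cfsg.Agent.Lib.StemCover
open scoped commutatorElement

universe u v w

section pullback

variable {Q : Type*} {Γ : Type*} {Δ : Type*} [Group Q] [Group Γ] [Group Δ]

/-- The pullback of two homomorphisms to `Q`. -/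
def pb (σ : Γ →* Q) (τ : Δ →* Q) : Subgroup (Γ × Δ) :=
  MonoidHom.eqLocus (σ.comp (MonoidHom.fst Γ Δ)) (τ.comp (MonoidHom.snd Γ Δ))

theorem mem_pb {σ : Γ →* Q} {τ : Δ →* Q} {x : Γ × Δ} : x ∈ pb σ τ ↔ σ x.1 = τ x.2 := Iff.rfl

/-- First projection. -/
def pbFst (σ : Γ →* Q) (τ : Δ →* Q) : pb σ τ →* Γ := (MonoidHom.fst Γ Δ).comp (pb σ τ).subtype

/-- Second projection. -/
def pbSnd (σ : Γ →* Q) (τ : Δ →* Q) : pb σ τ →* Δ := (MonoidHom.snd Γ Δ).comp (pb σ τ).subtype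

theorem pbFst_surj {σ : Γ →* Q} {τ : Δ →* Q} (hτ : Function.Surjective τ) :
    Function.Surjective (pbFst σ τ) := by
  intro g
  obtain ⟨x, hx⟩ := hτ (σ g)
  exact ⟨⟨(g, x), hx.symm⟩, rfl⟩

theorem pbSnd_surj {σ : Γ →* Q} {τ : Δ →* Q} (hσ : Function.Surjective σ) :
    Function.Surjective (pbSnd σ τ) := by
  intro x
  obtain ⟨g, hg⟩ := hσ (τ x)
  exact ⟨⟨(g, x), hg⟩, rfl⟩

/-- If `1 × ker τ` meets `P'` trivially, `ker σ` maps onto `ker τ`. -/
theorem exists_surj_of_pb (σ : Γ →* Q) (τ : Δ →* Q) (hσ : Cfsg.IsStemExtension σ) (hτ : Cfsg.IsStemExtension τ)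
    (hkey : ∀ (j : Δ) (hj : ((1 : Γ), j) ∈ pb σ τ), (⟨((1 : Γ), j), hj⟩ : pb σ τ) ∈ commutator (pb σ τ) → j = 1) :
    ∃ π : σ.ker →* τ.ker, Function.Surjective π := by
  let p₁ := pbFst σ τ
  let p₂ := pbSnd σ τ
  have hm₁ : (commutator (pb σ τ)).map p₁ = commutator Γ :=
    map_commutator_of_supplement σ hσ.2.1 p₁ (fun x => by
      obtain ⟨y, hy⟩ := pbFst_surj hτ.1 x
      exact ⟨y, by rw [hy]⟩)
  have hm₂ : (commutator (pb σ τ)).map p₂ = commutator Δ :=
    map_commutator_of_supplement τ hτ.2.1 p₂ (fun x => by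
      obtain ⟨y, hy⟩ := pbSnd_surj hσ.1 x
      exact ⟨y, by rw [hy]⟩)
  let L : Subgroup (pb σ τ) := commutator (pb σ τ) ⊓ (σ.comp p₁).ker
  have hL₂ : ∀ x : L, τ (p₂ x) = 1 := by
    intro x
    have h1 : σ (p₁ x) = τ (p₂ x) := x.1.2
    rw [← h1]
    exact x.2.2
  let q₁ : L →* σ.ker := (p₁.comp L.subtype).codRestrict _ (fun x => x.2.2)
  let q₂ : L →* τ.ker := (p₂.comp L.subtype).codRestrict _ hL₂
  have hq₁ : Function.Surjective q₁ := by
    rintro ⟨k, hk⟩
    have h1 := hσ.2.2 hk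
    rw [← hm₁] at h1
    obtain ⟨x, hx, hxk⟩ := h1
    refine ⟨⟨x, hx, ?_⟩, Subtype.ext hxk⟩
    show σ (p₁ x) = 1
    rw [hxk]; exact hk
  have hq₂ : Function.Surjective q₂ := by
    rintro ⟨k, hk⟩
    have h1 := hτ.2.2 hk
    rw [← hm₂] at h1
    obtain ⟨x, hx, hxk⟩ := h1
    refine ⟨⟨x, hx, ?_⟩, Subtype.ext hxk⟩
    have h2 : σ (p₁ x) = τ (p₂ x) := x.2
    show σ (p₁ x) = 1
    rw [h2, hxk]; exact hk
  have hq₁i : Function.Injective q₁ := by
    rw [injective_iff_map_eq_one]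
    rintro ⟨⟨⟨g, d⟩, hx⟩, hxc, hxk⟩ h1
    have hg : g = 1 := congrArg Subtype.val h1
    subst hg
    have := hkey d hx hxc
    subst this
    rfl
  let e : L ≃* σ.ker := MulEquiv.ofBijective q₁ ⟨hq₁i, hq₁⟩
  exact ⟨q₂.comp e.symm.toMonoidHom, hq₂.comp e.symm.surjective⟩

end pullback

section scalar

variable {Δ : Type*} [Group Δ] [Finite Δ]

open Cfsg.Agent.Lib.CharKernel Cfsg.Agent.Lib.CharBasic in
/-- A central subgroup acts by scalars in an irreducible representation in which a given element acts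
nontrivially. -/
theorem exists_scalar_rep (J : Subgroup Δ) (hJ : J ≤ center Δ) {j : Δ} (hj : j ≠ 1) :
    ∃ (n : ℕ) (ψ : Δ →* GL (Fin n) ℂ), (∀ k ∈ J, ψ k ∈ center (GL (Fin n) ℂ)) ∧ ψ j ≠ 1 := by
  classical
  haveI := Fintype.ofFinite Δ
  have h1 := sum_irr_deg_mul (G := Δ) j
  have h2 := sum_irr_deg_mul (G := Δ) 1
  rw [if_neg hj] at h1
  rw [if_pos rfl] at h2
  have hex : ∃ χ : Cfsg.IrrCharacter Δ, (χ : Δ → ℂ) j ≠ (χ : Δ → ℂ) 1 := by
    by_contra hcon
    push Not at hcon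
    have h3 : ∑ χ : Cfsg.IrrCharacter Δ, (χ : Δ → ℂ) 1 * (χ : Δ → ℂ) j =
        ∑ χ : Cfsg.IrrCharacter Δ, (χ : Δ → ℂ) 1 * (χ : Δ → ℂ) 1 :=
      Finset.sum_congr rfl fun χ _ => by rw [hcon χ]
    rw [h1, h2] at h3
    exact natCard_ne_zero' (G := Δ) h3.symm
  obtain ⟨⟨χ, n, ρ, hρ, rfl⟩, hχ⟩ := hex
  have hρ1 : ρ j ≠ 1 := by
    intro h
    apply hχ
    show ρ.character j = ρ.character 1
    unfold Representation.character
    rw [h, (map_one ρ)]
  let ψ : Δ →* GL (Fin n) ℂ :=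
    (Units.map (LinearMap.toMatrixAlgEquiv' (R := ℂ) (n := Fin n)).toRingEquiv.toMonoidHom).comp
      (MonoidHom.toHomUnits ρ)
  have hψ : ∀ g, (ψ g : Matrix (Fin n) (Fin n) ℂ) = LinearMap.toMatrix' (ρ g) := fun g => rfl
  refine ⟨n, ψ, ?_, ?_⟩
  · intro k hk
    obtain ⟨c, hc⟩ := schur_scalar hρ (ρ k) (fun g => by
      have h3 : k * g = g * k := (Subgroup.mem_center_iff.mp (hJ hk) g).symm
      show ρ k * ρ g = ρ g * ρ k
      rw [← map_mul, ← map_mul, h3])
    rw [Matrix.GeneralLinearGroup.mem_center_iff_val_mem_range_scalar]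
    refine ⟨c, ?_⟩
    have h4 : (ψ k : Matrix (Fin n) (Fin n) ℂ) = LinearMap.toMatrix' (ρ k) := hψ k
    show _ = (ψ k : Matrix (Fin n) (Fin n) ℂ)
    rw [h4, hc]
    ext a b
    simp [Matrix.scalar_apply, Matrix.diagonal_apply, LinearMap.toMatrix'_apply, Pi.single_apply]
  · intro h
    apply hρ1
    have h4 : (ψ j : Matrix (Fin n) (Fin n) ℂ) = LinearMap.toMatrix' (ρ j) := hψ j
    rw [h] at h4
    have h5 : LinearMap.toMatrix' (ρ j) = LinearMap.toMatrix' (1 : (Fin n → ℂ) →ₗ[ℂ] (Fin n → ℂ)) := by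
      rw [← h4]
      simp
    exact LinearMap.toMatrix'.injective h5

end scalar

section lifting

variable {Q : Type u} {Γ : Type v} [Group Q] [Group Γ]

/-- If `σ` has the lifting property for projective representations, every stem extension's kernel is an
image of `ker σ`. -/
theorem exists_surj_of_lifting (σ : Γ →* Q) (hσ : Cfsg.IsStemExtension σ)
    (hlift : ∀ (n : ℕ) (γ : Q →* (GL (Fin n) ℂ ⧸ center (GL (Fin n) ℂ))), ∃ ρ : Γ →* GL (Fin n) ℂ,
      (QuotientGroup.mk' (center (GL (Fin n) ℂ))).comp ρ = γ.comp σ)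
    {Δ : Type*} [Group Δ] [Finite Δ] (τ : Δ →* Q) (hτ : Cfsg.IsStemExtension τ) :
    ∃ π : σ.ker →* τ.ker, Function.Surjective π := by
  refine exists_surj_of_pb σ τ hσ hτ ?_
  intro j hj hjc
  by_contra hj1
  obtain ⟨n, ψ, hψ, hψj⟩ := exists_scalar_rep τ.ker hτ.2.1 hj1
  let mk := QuotientGroup.mk' (center (GL (Fin n) ℂ))
  let γ : Q →* (GL (Fin n) ℂ ⧸ center (GL (Fin n) ℂ)) :=
    (MonoidHom.liftOfSurjective τ hτ.1) ⟨mk.comp ψ, by
      intro k hk
      rw [MonoidHom.mem_ker]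
      show mk (ψ k) = 1
      rw [← MonoidHom.mem_ker, QuotientGroup.ker_mk']
      exact hψ k hk⟩
  have hγ : ∀ d, γ (τ d) = mk (ψ d) := fun d =>
    MonoidHom.liftOfRightInverse_comp_apply τ (Function.surjInv hτ.1) (Function.rightInverse_surjInv hτ.1) _ d
  obtain ⟨ρ, hρ⟩ := hlift n γ
  have hρ' : ∀ g, mk (ρ g) = γ (σ g) := fun g => congrArg (fun m => m g) hρ
  -- the hom `P → center`
  have hν : ∀ x : pb σ τ, ρ (x : Γ × Δ).1 * (ψ (x : Γ × Δ).2)⁻¹ ∈ center (GL (Fin n) ℂ) := by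
    intro x
    have h1 : σ (x : Γ × Δ).1 = τ (x : Γ × Δ).2 := x.2
    have h2 : mk (ρ (x : Γ × Δ).1) = mk (ψ (x : Γ × Δ).2) := by
      rw [hρ', h1, hγ]
    rw [← QuotientGroup.ker_mk' (center (GL (Fin n) ℂ)), MonoidHom.mem_ker]
    show mk (ρ (x : Γ × Δ).1 * (ψ (x : Γ × Δ).2)⁻¹) = 1
    rw [map_mul, map_inv, h2, mul_inv_cancel]
  let ν : pb σ τ →* center (GL (Fin n) ℂ) := MonoidHom.mk' (fun x => ⟨_, hν x⟩) (by
    intro x y
    apply Subtype.ext
    show ρ ((x : Γ × Δ).1 * (y : Γ × Δ).1) * (ψ ((x : Γ × Δ).2 * (y : Γ × Δ).2))⁻¹ =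
      ρ (x : Γ × Δ).1 * (ψ (x : Γ × Δ).2)⁻¹ * (ρ (y : Γ × Δ).1 * (ψ (y : Γ × Δ).2)⁻¹)
    have hc := Subgroup.mem_center_iff.mp (hν y)
    rw [map_mul, map_mul, mul_inv_rev]
    generalize ρ (x : Γ × Δ).1 = a at *
    generalize (ψ (x : Γ × Δ).2)⁻¹ = b at *
    generalize ρ (y : Γ × Δ).1 = c at *
    generalize (ψ (y : Γ × Δ).2)⁻¹ = d at *
    calc a * c * (d * b) = a * (c * d) * b := by group
      _ = (c * d) * a * b := by rw [(hc a)]
      _ = (c * d) * (a * b) := by group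
      _ = a * b * (c * d) := (hc (a * b)).symm)
  have hνc : commutator (pb σ τ) ≤ ν.ker := by
    rw [_root_.commutator_def, Subgroup.commutator_le]
    intro a _ b _
    rw [MonoidHom.mem_ker, map_commutatorElement, commutatorElement_eq_one_iff_mul_comm]
    apply Subtype.ext
    exact Subgroup.mem_center_iff.mp (ν b).2 (ν a)
  have h3 : ν ⟨((1 : Γ), j), hj⟩ = 1 := hνc hjc
  have h4 : ρ 1 * (ψ j)⁻¹ = 1 := congrArg Subtype.val h3
  apply hψj
  rw [map_one, one_mul, inv_eq_one] at h4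
  exact h4

end lifting

section duality

/-- Duality: a surjection of finite abelian groups yields an injection the other way. -/
theorem exists_injective_of_surjective {B : Type*} {L : Type*} [CommGroup B] [Group L] [Finite B]
    (h : B →* L) (hs : Function.Surjective h) : ∃ j : L →* B, Function.Injective j := by
  classical
  have hcomm : ∀ a b : L, a * b = b * a := by
    intro a b
    obtain ⟨a, rfl⟩ := hs a
    obtain ⟨b, rfl⟩ := hs b
    rw [← map_mul, ← map_mul, mul_comm]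
  letI : CommGroup L := { (inferInstance : Group L) with mul_comm := hcomm }
  haveI : Finite L := Finite.of_surjective h hs
  haveI : NeZero (Monoid.exponent B) := ⟨Monoid.exponent_ne_zero_of_finite⟩
  haveI : NeZero (Monoid.exponent L) := ⟨Monoid.exponent_ne_zero_of_finite⟩
  obtain ⟨eB⟩ := CommGroup.monoidHom_mulEquiv_of_hasEnoughRootsOfUnity B ℂ
  obtain ⟨eL⟩ := CommGroup.monoidHom_mulEquiv_of_hasEnoughRootsOfUnity L ℂ
  let d : (L →* ℂˣ) →* (B →* ℂˣ) := MonoidHom.mk' (fun φ => φ.comp h) (by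
    intro a b
    ext x
    rfl)
  have hd : Function.Injective d := by
    intro a b hab
    ext x
    obtain ⟨y, rfl⟩ := hs x
    have := DFunLike.congr_fun hab y
    exact congrArg (fun u : ℂˣ => (u : ℂ)) this
  refine ⟨eB.toMonoidHom.comp (d.comp eL.symm.toMonoidHom), ?_⟩
  exact eB.injective.comp (hd.comp eL.symm.injective)

/-- A subgroup of a quotient of a finite abelian group embeds in it. -/
theorem exists_subgroup_of_section {B : Type*} {L : Type*} {X : Type*} [CommGroup B] [Group L] [Group X] [Finite B]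
    (h : B →* L) (hs : Function.Surjective h) (i : X →* L) (hi : Function.Injective i) :
    ∃ C : Subgroup B, Nonempty (X ≃* C) := by
  obtain ⟨j, hj⟩ := exists_injective_of_surjective h hs
  have hinj : Function.Injective (j.comp i) := hj.comp hi
  exact ⟨(j.comp i).range, ⟨MonoidHom.ofInjective hinj⟩⟩

end duality

end Cfsg.Agent.Lib.StemCover2
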