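import Mathlib
import Cfsg.Prelude.Def_KGroupFacts

/-!
Twisted products `G × ℤ/n` by a bilinear form `χ₁ · χ₂`: stem extensions of abelian groups.
-/

set_option autoImplicit false

namespace Cfsg.Agent.Lib.StemHeis

open Subgroup
open scoped commutatorElement

universe u

variable {G : Type u} [CommGroup G] {n : ℕ}

/-- The twisted product. -/
@[ext]
structure Tw (_χ₁ _χ₂ : G →* Multiplicative (ZMod n)) : Type u where
  fst : G
  snd : ZMod n

variable (χ₁ χ₂ : G →* Multiplicative (ZMod n))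

instance : Mul (Tw χ₁ χ₂) := ⟨fun a b => ⟨a.fst * b.fst, a.snd + b.snd + (χ₁ a.fst).toAdd * (χ₂ b.fst).toAdd⟩⟩
instance : One (Tw χ₁ χ₂) := ⟨⟨1, 0⟩⟩
instance : Inv (Tw χ₁ χ₂) := ⟨fun a => ⟨a.fst⁻¹, - a.snd + (χ₁ a.fst).toAdd * (χ₂ a.fst).toAdd⟩⟩

theorem tw_mul_fst (a b : Tw χ₁ χ₂) : (a * b).fst = a.fst * b.fst := rfl
theorem tw_mul_snd (a b : Tw χ₁ χ₂) :
    (a * b).snd = a.snd + b.snd + (χ₁ a.fst).toAdd * (χ₂ b.fst).toAdd := rfl
theorem tw_one_fst : (1 : Tw χ₁ χ₂).fst = 1 := rfl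
theorem tw_one_snd : (1 : Tw χ₁ χ₂).snd = 0 := rfl

noncomputable instance : Group (Tw χ₁ χ₂) :=
  Group.ofLeftAxioms
    (by
      intro a b c
      apply Tw.ext
      · simp only [tw_mul_fst, mul_assoc]
      · simp only [tw_mul_fst, tw_mul_snd, map_mul, toAdd_mul]
        ring)
    (by
      intro a
      apply Tw.ext
      · simp only [tw_mul_fst, tw_one_fst, one_mul]
      · simp only [tw_mul_snd, tw_one_fst, tw_one_snd, map_one, toAdd_one, zero_mul, add_zero, zero_add])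
    (by
      intro a
      apply Tw.ext
      · show a.fst⁻¹ * a.fst = 1
        simp
      · show - a.snd + (χ₁ a.fst).toAdd * (χ₂ a.fst).toAdd + a.snd + (χ₁ a.fst⁻¹).toAdd * (χ₂ a.fst).toAdd = 0
        rw [map_inv, toAdd_inv]
        ring)

/-- The projection. -/
def twFst : Tw χ₁ χ₂ →* G where
  toFun a := a.fst
  map_one' := rfl
  map_mul' _ _ := rfl

theorem twFst_surj : Function.Surjective (twFst χ₁ χ₂) := fun x => ⟨⟨x, 0⟩, rfl⟩

theorem ker_le_center : (twFst χ₁ χ₂).ker ≤ center (Tw χ₁ χ₂) := by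
  intro a ha
  rw [Subgroup.mem_center_iff]
  intro b
  have h : a.fst = 1 := ha
  apply Tw.ext
  · simp only [tw_mul_fst, h, mul_one, one_mul]
  · simp only [tw_mul_snd, h, map_one, toAdd_one, mul_zero, zero_mul, add_zero, add_comm]

/-- The kernel is `ℤ / n`. -/
noncomputable def kerEquiv : (twFst χ₁ χ₂).ker ≃* Multiplicative (ZMod n) where
  toFun a := Multiplicative.ofAdd ((a : Tw χ₁ χ₂).snd)
  invFun u := ⟨⟨1, Multiplicative.toAdd u⟩, rfl⟩
  left_inv := by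
    rintro ⟨⟨x, u⟩, hx⟩
    have h : x = 1 := hx
    subst h
    rfl
  right_inv := fun u => rfl
  map_mul' := by
    rintro ⟨⟨x, u⟩, hx⟩ ⟨⟨y, v⟩, hy⟩
    have h : x = 1 := hx
    have h2 : y = 1 := hy
    subst h
    subst h2
    show Multiplicative.ofAdd (u + v + (χ₁ 1).toAdd * (χ₂ 1).toAdd) = _
    simp

/-- The stem property. -/
theorem isStem [NeZero n] (a b : G) (h1 : (χ₁ a).toAdd = 1) (h2 : (χ₂ b).toAdd = 1) (h3 : (χ₁ b).toAdd = 0) :
    Cfsg.IsStemExtension (twFst χ₁ χ₂) := by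
  classical
  refine ⟨twFst_surj χ₁ χ₂, ker_le_center χ₁ χ₂, ?_⟩
  let A : Tw χ₁ χ₂ := ⟨a, 0⟩
  let B : Tw χ₁ χ₂ := ⟨b, 0⟩
  let c : Tw χ₁ χ₂ := ⟨1, 1⟩
  have hAB : A * B = c * (B * A) := by
    apply Tw.ext
    · show a * b = 1 * (b * a)
      rw [one_mul, mul_comm]
    · show 0 + 0 + (χ₁ a).toAdd * (χ₂ b).toAdd = 1 + (0 + 0 + (χ₁ b).toAdd * (χ₂ a).toAdd) + (χ₁ 1).toAdd * (χ₂ (b * a)).toAdd
      rw [h1, h2, h3]
      simp
  have hc : ⁅A, B⁆ = c := by
    rw [commutatorElement_def, hAB]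
    group
  have hcm : c ∈ commutator (Tw χ₁ χ₂) := by
    rw [← hc]
    exact Subgroup.commutator_mem_commutator (Subgroup.mem_top _) (Subgroup.mem_top _)
  intro x hx
  have hx1 : x.fst = 1 := hx
  have hpow : ∀ k : ℕ, c ^ k = ⟨1, (k : ZMod n)⟩ := by
    intro k
    induction k with
    | zero =>
      apply Tw.ext
      · rfl
      · simp only [pow_zero, tw_one_snd, Nat.cast_zero]
    | succ k ih =>
      rw [pow_succ, ih]
      apply Tw.ext
      · show (1 : G) * 1 = 1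
        simp
      · show (k : ZMod n) + 1 + (χ₁ 1).toAdd * (χ₂ 1).toAdd = ((k + 1 : ℕ) : ZMod n)
        simp
  have hxe : x = c ^ (x.snd.val) := by
    rw [hpow]
    apply Tw.ext
    · exact hx1
    · simp
  rw [hxe]
  exact Subgroup.pow_mem _ hcm _

instance [Finite G] [NeZero n] : Finite (Tw χ₁ χ₂) :=
  Finite.of_injective (fun a : Tw χ₁ χ₂ => (a.fst, a.snd)) (by
    intro a b hab
    have h1 := congrArg Prod.fst hab
    have h2 := congrArg Prod.snd hab
    exact Tw.ext h1 h2)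

end Cfsg.Agent.Lib.StemHeis
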