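import Mathlib
import Cfsg.Agent.Lib.BurnsideAut
import Cfsg.Agent.Lib.Frat

/-!
# The action on the Frattini quotient of a normal `2`-subgroup, in coordinates
-/

set_option autoImplicit false

open scoped commutatorElement

namespace Cfsg.Agent.Lib.SubA8Act

/-- Coordinates on an elementary abelian `2`-group. -/
theorem coords {U : Type*} [hG : Group U] [Finite U] (hc : ∀ a b : U, a * b = b * a) (h2 : ∀ u : U, u ^ 2 = 1)
    {d : ℕ} (hcard : Nat.card U = 2 ^ d) :
    ∃ (e : U → Fin d → ZMod 2) (M : MulAut U →* Matrix.GeneralLinearGroup (Fin d) (ZMod 2)),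
      Function.Bijective e ∧ (∀ a b, e (a * b) = e a + e b) ∧ Function.Injective M ∧
        ∀ α u, (M α).val.mulVec (e u) = e (α u) := by
  classical
  letI : CommGroup U := { hG with mul_comm := hc }
  have h2W : ∀ x : Additive U, (2 : ℕ) • x = 0 := fun x => h2 (Additive.toMul x)
  letI : Module (ZMod 2) (Additive U) := AddCommGroup.zmodModule h2W
  have hp : Fact (Nat.Prime 2) := ⟨Nat.prime_two⟩
  have : Module.Finite (ZMod 2) (Additive U) := Module.Finite.of_finite
  have hfr : Module.finrank (ZMod 2) (Additive U) = d := by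
    have h1 := Module.natCard_eq_pow_finrank (K := ZMod 2) (V := Additive U)
    have h3 : Nat.card (Additive U) = Nat.card U := rfl
    rw [h3, hcard] at h1
    simp only [Nat.card_eq_fintype_card, ZMod.card] at h1
    exact (Nat.pow_right_injective (le_refl 2) h1).symm
  have hfr' : Module.finrank (ZMod 2) (Additive U) = Module.finrank (ZMod 2) (Fin d → ZMod 2) := by
    rw [hfr]; simp
  let e₀ : Additive U ≃ₗ[ZMod 2] (Fin d → ZMod 2) := LinearEquiv.ofFinrankEq _ _ hfr'
  let lin : MulAut U → (Additive U ≃ₗ[ZMod 2] Additive U) := fun α =>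
    AddEquiv.toLinearEquiv (MulEquiv.toAdditive α) (fun c x => ZMod.map_smul (MulEquiv.toAdditive α) c x)
  have hlin : ∀ (α : MulAut U) (v : U), lin α (Additive.ofMul v) = Additive.ofMul (α v) := fun _ _ => rfl
  let L := Fin d → ZMod 2
  let φ : MulAut U →* (L ≃ₗ[ZMod 2] L) :=
    MonoidHom.mk' (fun α => e₀.symm.trans ((lin α).trans e₀))
      (by
        intro α β
        apply LinearEquiv.ext
        intro x
        show e₀ (lin (α * β) (e₀.symm x)) = e₀ (lin α (e₀.symm (e₀ (lin β (e₀.symm x)))))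
        rw [LinearEquiv.symm_apply_apply]
        rfl)
  let Mat : (L ≃ₗ[ZMod 2] L) →* Matrix (Fin d) (Fin d) (ZMod 2) :=
    { toFun := fun g => LinearMap.toMatrix' (g : L →ₗ[ZMod 2] L)
      map_one' := LinearMap.toMatrix'_id
      map_mul' := fun a b => LinearMap.toMatrix'_comp (a : L →ₗ[ZMod 2] L) (b : L →ₗ[ZMod 2] L) }
  let M : MulAut U →* Matrix.GeneralLinearGroup (Fin d) (ZMod 2) := (Mat.comp φ).toHomUnits
  let e : U → Fin d → ZMod 2 := fun u => e₀ (Additive.ofMul u)
  have hM : ∀ α u, (M α).val.mulVec (e u) = e (α u) := by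
    intro α u
    have h1 : (M α).val = LinearMap.toMatrix' ((φ α : L ≃ₗ[ZMod 2] L) : L →ₗ[ZMod 2] L) := rfl
    rw [h1, LinearMap.toMatrix'_mulVec]
    show e₀ (lin α (e₀.symm (e₀ (Additive.ofMul u)))) = e₀ (Additive.ofMul (α u))
    rw [LinearEquiv.symm_apply_apply, hlin]
  have heinj : Function.Injective e := fun a b hab => by
    have := e₀.injective hab
    exact Additive.ofMul.injective this
  refine ⟨e, M, ⟨heinj, ?_⟩, ?_, ?_, hM⟩
  · intro y
    obtain ⟨x, hx⟩ := e₀.surjective y
    exact ⟨Additive.toMul x, hx⟩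
  · intro a b
    show e₀ (Additive.ofMul a + Additive.ofMul b) = _
    rw [map_add]
  · rw [injective_iff_map_eq_one]
    intro α hα
    ext u
    have h1 := hM α u
    rw [hα] at h1
    have h3 : e (α u) = e u := by
      rw [← h1]
      simp
    exact heinj h3

/-- The action on the Frattini quotient. -/
theorem exists_action_spec {X : Type*} [Group X] [Finite X] (Q : Subgroup X) [hQ : Q.Normal] (hQ2 : IsPGroup 2 Q)
    (hmax : ∀ N : Subgroup X, N.Normal → IsPGroup 2 N → N ≤ Q)
    (hC : Subgroup.centralizer (Q : Set X) ≤ Q) :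
    ∃ f : X ⧸ Q →* MulAut (↥Q ⧸ frattini ↥Q), Function.Injective f ∧
      ∀ (x : X) (q : Q), f (x : X ⧸ Q) (q : ↥Q ⧸ frattini ↥Q) = ((MulAut.conjNormal x q : ↥Q) : ↥Q ⧸ frattini ↥Q) := by
  classical
  have hp : Fact (Nat.Prime 2) := ⟨Nat.prime_two⟩
  set Φ := frattini ↥Q with hΦ
  have hmap : ∀ α : MulAut ↥Q, Φ.map α.toMonoidHom = Φ := fun α =>
    (Subgroup.characteristic_iff_map_eq.mp inferInstance) α
  -- the action of automorphisms
  let act : MulAut ↥Q →* MulAut (↥Q ⧸ Φ) :=
    MonoidHom.mk' (fun α => QuotientGroup.congr Φ Φ α (hmap α))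
      (by
        intro α β
        ext x
        induction x using QuotientGroup.induction_on with
        | H q => rfl)
  let ρ : X →* MulAut (↥Q ⧸ Φ) := act.comp MulAut.conjNormal
  have hρ : ∀ (x : X) (q : Q), ρ x (q : ↥Q ⧸ Φ) = ((MulAut.conjNormal x q : ↥Q) : ↥Q ⧸ Φ) := fun _ _ => rfl
  have hker : ∀ x : X, ρ x = 1 ↔ ∀ q : Q, (MulAut.conjNormal x q) * q⁻¹ ∈ Φ := by
    intro x
    constructor
    · intro h q
      have h1 := hρ x q
      rw [h] at h1
      have h2 : (q : ↥Q ⧸ Φ) = ((MulAut.conjNormal x q : ↥Q) : ↥Q ⧸ Φ) := h1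
      have h3 := QuotientGroup.eq.mp h2
      have h4 : (MulAut.conjNormal x q) * q⁻¹ = q * (q⁻¹ * (MulAut.conjNormal x q)) * q⁻¹ := by group
      rw [h4]
      exact (inferInstance : Φ.Normal).conj_mem _ h3 q
    · intro h
      ext y
      induction y using QuotientGroup.induction_on with
      | H q =>
        show ((MulAut.conjNormal x q : ↥Q) : ↥Q ⧸ Φ) = (q : ↥Q ⧸ Φ)
        apply QuotientGroup.eq.mpr
        have h1 := h q
        have h2 : (MulAut.conjNormal x q)⁻¹ * q = ((MulAut.conjNormal x q)⁻¹) * ((MulAut.conjNormal x q) * q⁻¹)⁻¹ * (MulAut.conjNormal x q) := by group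
        rw [h2]
        have := (inferInstance : Φ.Normal).conj_mem _ (Φ.inv_mem h1) ((MulAut.conjNormal x q)⁻¹)
        simpa using this
  -- `Q` acts trivially
  have hQker : ∀ x ∈ Q, ρ x = 1 := by
    intro x hx
    rw [hker]
    intro q
    have h1 : (MulAut.conjNormal x q) = (⟨x, hx⟩ : Q) * q * (⟨x, hx⟩ : Q)⁻¹ := by
      apply Subtype.ext
      simp [MulAut.conjNormal_apply]
    rw [h1]
    apply Cfsg.Agent.Lib.Frat.commutator_le_frattini hQ2
    exact Subgroup.subset_closure ⟨_, Subgroup.mem_top _, q, Subgroup.mem_top _, rfl⟩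
  -- the kernel is a `2`-group
  have hker2 : IsPGroup 2 ρ.ker := by
    rw [IsPGroup.iff_orderOf]
    intro g
    have hord : orderOf g ≠ 0 := (orderOf_pos g).ne'
    refine ⟨_, Nat.eq_prime_pow_of_unique_prime_dvd hord ?_⟩
    intro r hr hrd
    by_contra hr2
    set u : X := ((g : X)) ^ (orderOf g / r) with hu
    have hr0 : r ≠ 0 := hr.ne_zero
    have huk : ρ u = 1 := by
      rw [hu, map_pow]
      have : ρ (g : X) = 1 := g.2
      rw [this, one_pow]
    have hur : u ^ r = 1 := by
      rw [hu, ← pow_mul, Nat.div_mul_cancel hrd]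
      have : orderOf (g : X) = orderOf g := Subgroup.orderOf_coe g
      rw [← this]
      exact pow_orderOf_eq_one _
    have hu1 : u ≠ 1 := by
      intro h1
      rw [hu] at h1
      have hd := orderOf_dvd_of_pow_eq_one h1
      have : orderOf (g : X) = orderOf g := Subgroup.orderOf_coe g
      rw [this] at hd
      have hle := Nat.le_of_dvd (Nat.div_pos (Nat.le_of_dvd (orderOf_pos g) hrd) hr.pos) hd
      have hlt := Nat.div_lt_self (orderOf_pos g) hr.one_lt
      omega
    have hτ : (MulAut.conjNormal u : MulAut Q) ^ r = 1 := by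
      rw [← map_pow, hur, map_one]
    have hτ1 := Cfsg.Agent.Lib.BurnsideAut.aut_eq_one_of_trivial_on_frattini hQ2 hr hr2 _ hτ
      ((hker u).mp huk)
    have hucen : u ∈ Subgroup.centralizer (Q : Set X) := by
      rw [Subgroup.mem_centralizer_iff]
      intro q hq
      have h1 : MulAut.conjNormal u (⟨q, hq⟩ : Q) = ⟨q, hq⟩ := by rw [hτ1]; rfl
      have h2 := congrArg Subtype.val h1
      rw [MulAut.conjNormal_apply] at h2
      have h3 : u * q * u⁻¹ = q := h2
      calc q * u = (u * q * u⁻¹) * u := by rw [h3]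
        _ = u * q := by group
    have huQ : u ∈ Q := hC hucen
    obtain ⟨k, hk⟩ := IsPGroup.iff_orderOf.mp hQ2 ⟨u, huQ⟩
    have hk' : orderOf u = 2 ^ k := by
      rw [← hk]; exact (Subgroup.orderOf_mk u huQ).symm
    have hur' : orderOf u = r := orderOf_eq_prime hur hu1 (hp := ⟨hr⟩)
    rw [hur'] at hk'
    apply hr2
    have hd : r ∣ 2 ^ k := by rw [hk']
    exact (Nat.prime_dvd_prime_iff_eq hr Nat.prime_two).1 (hr.dvd_of_dvd_pow hd)
  have hkerQ : ρ.ker ≤ Q := hmax _ (MonoidHom.normal_ker ρ) hker2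
  refine ⟨QuotientGroup.lift Q ρ hQker, ?_, ?_⟩
  · rw [injective_iff_map_eq_one]
    intro y hy
    induction y using QuotientGroup.induction_on with
    | H x =>
      have h1 : ρ x = 1 := hy
      exact (QuotientGroup.eq_one_iff x).mpr (hkerQ h1)
  · intro x q
    rfl

end Cfsg.Agent.Lib.SubA8Act
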