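import Mathlib

/-!
# Encoded permutations of eight points

Permutations of `Fin 8` encoded as natural numbers in base eight, to run a finite check on the normal forms
of elements of a subgroup of `S₈` containing a fixed seven-cycle.
-/

set_option autoImplicit false

namespace Cfsg.Agent.Lib.SubA8Code

open Equiv

/-- Base-eight digit. -/
def dg (p i : ℕ) : ℕ := (p >>> (3 * i)) % 8

def mk8 (a0 a1 a2 a3 a4 a5 a6 a7 : ℕ) : ℕ :=
  a0 + a1 * 8 + a2 * 64 + a3 * 512 + a4 * 4096 + a5 * 32768 + a6 * 262144 + a7 * 2097152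

/-- Composition of encoded permutations. -/
def mulc (p q : ℕ) : ℕ :=
  mk8 (dg p (dg q 0)) (dg p (dg q 1)) (dg p (dg q 2)) (dg p (dg q 3))
    (dg p (dg q 4)) (dg p (dg q 5)) (dg p (dg q 6)) (dg p (dg q 7))

/-- Encoding of a permutation. -/
def enc (σ : Perm (Fin 8)) : ℕ :=
  mk8 (σ 0) (σ 1) (σ 2) (σ 3) (σ 4) (σ 5) (σ 6) (σ 7)

theorem dg_mk8 {a0 a1 a2 a3 a4 a5 a6 a7 : ℕ} (h0 : a0 < 8) (h1 : a1 < 8) (h2 : a2 < 8) (h3 : a3 < 8)
    (h4 : a4 < 8) (h5 : a5 < 8) (h6 : a6 < 8) (h7 : a7 < 8) :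
    dg (mk8 a0 a1 a2 a3 a4 a5 a6 a7) 0 = a0 ∧ dg (mk8 a0 a1 a2 a3 a4 a5 a6 a7) 1 = a1 ∧
    dg (mk8 a0 a1 a2 a3 a4 a5 a6 a7) 2 = a2 ∧ dg (mk8 a0 a1 a2 a3 a4 a5 a6 a7) 3 = a3 ∧
    dg (mk8 a0 a1 a2 a3 a4 a5 a6 a7) 4 = a4 ∧ dg (mk8 a0 a1 a2 a3 a4 a5 a6 a7) 5 = a5 ∧
    dg (mk8 a0 a1 a2 a3 a4 a5 a6 a7) 6 = a6 ∧ dg (mk8 a0 a1 a2 a3 a4 a5 a6 a7) 7 = a7 := by
  simp only [dg, mk8, Nat.shiftRight_eq_div_pow]
  norm_num
  omega

theorem dg_enc (σ : Perm (Fin 8)) (i : Fin 8) : dg (enc σ) i = σ i := by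
  have h := dg_mk8 (σ 0).2 (σ 1).2 (σ 2).2 (σ 3).2 (σ 4).2 (σ 5).2 (σ 6).2 (σ 7).2
  obtain ⟨h0, h1, h2, h3, h4, h5, h6, h7⟩ := h
  fin_cases i
  · exact h0
  · exact h1
  · exact h2
  · exact h3
  · exact h4
  · exact h5
  · exact h6
  · exact h7

theorem mulc_enc (σ τ : Perm (Fin 8)) : mulc (enc σ) (enc τ) = enc (σ * τ) := by
  have key : ∀ i : Fin 8, dg (enc σ) (dg (enc τ) i) = ((σ * τ) i : Fin 8) := by
    intro i
    rw [dg_enc τ i, dg_enc σ (τ i)]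
    rfl
  have k0 := key 0
  have k1 := key 1
  have k2 := key 2
  have k3 := key 3
  have k4 := key 4
  have k5 := key 5
  have k6 := key 6
  have k7 := key 7
  simp only [Fin.val_zero, Fin.val_one, Fin.val_two] at k0 k1 k2
  unfold mulc
  show mk8 _ _ _ _ _ _ _ _ = mk8 _ _ _ _ _ _ _ _
  congr 1

/-! ## The tests -/

/-- Number of moved points. -/
def mv (z : ℕ) : ℕ :=
  (if dg z 0 = 0 then 0 else 1) + (if dg z 1 = 1 then 0 else 1) + (if dg z 2 = 2 then 0 else 1) +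
  (if dg z 3 = 3 then 0 else 1) + (if dg z 4 = 4 then 0 else 1) + (if dg z 5 = 5 then 0 else 1) +
  (if dg z 6 = 6 then 0 else 1) + (if dg z 7 = 7 then 0 else 1)

def is3 (z : ℕ) : Bool := mv z == 3

/-- Addition on eight points. -/
def xn (a b : ℕ) : ℕ := (a ^^^ b) % 8

/-- Affine test. -/
def affB (z : ℕ) : Bool :=
  (List.range 8).all fun x => (List.range 8).all fun y => (List.range 8).all fun w =>
    dg z (xn (xn x y) w) == xn (xn (dg z x) (dg z y)) (dg z w)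

/-- The seven-cycle `x ↦ ζ x`. -/
def cc : ℕ := mk8 0 2 4 6 3 1 7 5

/-- Inversion in `𝔽₈`. -/
def tt : ℕ := mk8 0 1 5 6 7 2 3 4

def idc : ℕ := mk8 0 1 2 3 4 5 6 7

/-- Powers of `cc`. -/
def cpw : List ℕ :=
  [idc, mulc cc idc, mulc cc (mulc cc idc), mulc cc (mulc cc (mulc cc idc)),
   mulc cc (mulc cc (mulc cc (mulc cc idc))), mulc cc (mulc cc (mulc cc (mulc cc (mulc cc idc)))),
   mulc cc (mulc cc (mulc cc (mulc cc (mulc cc (mulc cc idc)))))]

/-- Three powers of a word. -/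
def wtest (w : ℕ) : Bool :=
  is3 w || is3 (mulc w w) || is3 (mulc (mulc w w) (mulc (mulc w w) w))

def wordB (z : ℕ) : Bool :=
  cpw.any fun a => cpw.any fun b => wtest (mulc a (mulc z (mulc b z)))

/-- The six exceptional odd normal forms. -/
def excL : List ℕ :=
  [mk8 1 0 2 7 6 5 4 3, mk8 0 1 3 4 5 6 7 2, mk8 1 0 4 3 2 7 6 5, mk8 0 1 5 6 7 2 3 4,
   mk8 1 0 6 5 4 3 2 7, mk8 0 1 7 2 3 4 5 6]

def testB (z : ℕ) : Bool :=
  affB z || affB (mulc tt (mulc z tt)) || excL.contains z || wordB z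

/-- Encoded normal forms. -/
def nf (u v a b c d e f : ℕ) : ℕ := mk8 u v (a + 2) (b + 2) (c + 2) (d + 2) (e + 2) (f + 2)

def r6 : List ℕ := [0, 1, 2, 3, 4, 5]

/-- Run the test on all normal forms. -/
def chk (u v : ℕ) : Bool :=
  r6.all fun a => r6.all fun b => b == a || r6.all fun c => c == a || c == b ||
    r6.all fun d => d == a || d == b || d == c ||
    r6.all fun e => e == a || e == b || e == c || e == d ||
    r6.all fun f => f == a || f == b || f == c || f == d || f == e || testB (nf u v a b c d e f)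

theorem chk0 : chk 0 1 = true := by decide +kernel

theorem chk1 : chk 1 0 = true := by decide +kernel

theorem mem_r6 {a : ℕ} (h : a < 6) : a ∈ r6 := by
  simp only [r6, List.mem_cons, List.not_mem_nil, or_false]
  omega

theorem chk_spec {u v : ℕ} (h : chk u v = true) {a b c d e f : ℕ} (ha : a < 6) (hb : b < 6) (hc : c < 6)
    (hd : d < 6) (he : e < 6) (hf : f < 6) (hab : b ≠ a) (hac : c ≠ a) (hbc : c ≠ b) (had : d ≠ a) (hbd : d ≠ b)
    (hcd : d ≠ c) (hae : e ≠ a) (hbe : e ≠ b) (hce : e ≠ c) (hde : e ≠ d) (haf : f ≠ a) (hbf : f ≠ b)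
    (hcf : f ≠ c) (hdf : f ≠ d) (hef : f ≠ e) : testB (nf u v a b c d e f) = true := by
  unfold chk at h
  rw [List.all_eq_true] at h
  have h1 := h a (mem_r6 ha)
  rw [List.all_eq_true] at h1
  have h2 := h1 b (mem_r6 hb)
  simp only [Bool.or_eq_true, beq_iff_eq, hab, false_or] at h2
  rw [List.all_eq_true] at h2
  have h3 := h2 c (mem_r6 hc)
  simp only [Bool.or_eq_true, beq_iff_eq, hac, hbc, false_or] at h3
  rw [List.all_eq_true] at h3
  have h4 := h3 d (mem_r6 hd)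
  simp only [Bool.or_eq_true, beq_iff_eq, had, hbd, hcd, false_or] at h4
  rw [List.all_eq_true] at h4
  have h5 := h4 e (mem_r6 he)
  simp only [Bool.or_eq_true, beq_iff_eq, hae, hbe, hce, hde, false_or] at h5
  rw [List.all_eq_true] at h5
  have h6 := h5 f (mem_r6 hf)
  simp only [Bool.or_eq_true, beq_iff_eq, haf, hbf, hcf, hdf, hef, false_or] at h6
  exact h6

end Cfsg.Agent.Lib.SubA8Code
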