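import Mathlib
import Cfsg.Agent.Lib.BurnsidePQ

/-!
# Transitive nonsolvable subgroups of `S₅` and `S₆`

`SubA8T5`: a transitive nonsolvable subgroup of `S₅` contains `A₅`; a transitive nonsolvable subgroup of
`S₆` containing an element of order five contains `A₆` or is isomorphic to `A₅` or `S₅`.
-/

set_option autoImplicit false

namespace Cfsg.Agent.Lib.SubA8T5

open Equiv MulAction
open scoped Pointwise

/-- An element of order three on at most five points is a three-cycle. -/
theorem isThreeCycle_of_orderOf {n : ℕ} (hn : n ≤ 5) (σ : Perm (Fin n)) (h : orderOf σ = 3) :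
    σ.IsThreeCycle := by
  have hp : (orderOf σ).Prime := by rw [h]; exact Nat.prime_three
  obtain ⟨k, hk⟩ := Perm.cycleType_prime_order hp
  rw [h] at hk
  have hs := Perm.sum_cycleType σ
  rw [hk, Multiset.sum_replicate, smul_eq_mul] at hs
  have hle : σ.support.card ≤ n := by
    simpa using Finset.card_le_univ σ.support
  have hk0 : k = 0 := by omega
  subst hk0
  unfold Perm.IsThreeCycle
  rw [hk]
  rfl

/-- A transitive nonsolvable subgroup of `S₅` contains `A₅`. -/
theorem alt_le_of_five (J : Subgroup (Perm (Fin 5))) (ht : IsPretransitive J (Fin 5))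
    (hns : ¬ Group.IsSolvable J) : alternatingGroup (Fin 5) ≤ J := by
  have hd : Nat.card J ∣ 120 := by
    have := Subgroup.card_subgroup_dvd_card J
    have h120 : Nat.card (Perm (Fin 5)) = 120 := by
      rw [Nat.card_eq_fintype_card, Fintype.card_perm]; rfl
    rwa [h120] at this
  have h3 : 3 ∣ Nat.card J := by
    by_contra h3
    apply hns
    have hd' : Nat.card J ∣ 2 ^ 3 * 5 ^ 1 := by
      have hc : Nat.Coprime (Nat.card J) 3 := by
        exact ((Nat.Prime.coprime_iff_not_dvd Nat.prime_three).2 h3).symm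
      have : Nat.card J ∣ 3 * 40 := by simpa using hd
      simpa using hc.dvd_of_dvd_mul_left this
    obtain ⟨a, b, hab⟩ := Cfsg.Agent.Lib.BurnsidePQ.exists_pow_mul_pow_of_dvd Nat.prime_two
      (by norm_num : Nat.Prime 5) hd'
    exact Cfsg.Agent.Lib.BurnsidePQ.isSolvable_of_card_eq 2 5 Nat.prime_two (by norm_num) _ J rfl ⟨a, b, hab⟩
  have : Fact (Nat.Prime 3) := ⟨Nat.prime_three⟩
  obtain ⟨x, hx⟩ := exists_prime_orderOf_dvd_card' (G := J) 3 h3
  have hx' : orderOf (x : Perm (Fin 5)) = 3 := by
    rw [Subgroup.orderOf_coe]; exact hx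
  have h3c := isThreeCycle_of_orderOf (le_refl 5) (x : Perm (Fin 5)) hx'
  have hprim : IsPreprimitive J (Fin 5) :=
    IsPreprimitive.of_prime_card (by simp; norm_num)
  exact Perm.alternatingGroup_le_of_isPreprimitive_of_isThreeCycle_mem hprim h3c x.2

/-- A subgroup of `Perm α` containing the alternating group is the alternating group or everything. -/
theorem eq_alt_or_top {α : Type*} [Fintype α] [DecidableEq α] (J : Subgroup (Perm α))
    (h : alternatingGroup α ≤ J) : J = alternatingGroup α ∨ J = ⊤ := by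
  by_cases hJ : J ≤ alternatingGroup α
  · exact Or.inl (le_antisymm hJ h)
  · right
    obtain ⟨s, hs, hs2⟩ := SetLike.not_le_iff_exists.1 hJ
    have hs3 : Perm.sign s = -1 := by
      rcases Int.units_eq_one_or (Perm.sign s) with h1 | h1
      · exact absurd (by simpa [Perm.mem_alternatingGroup] using h1) hs2
      · exact h1
    rw [eq_top_iff]
    intro τ _
    rcases Int.units_eq_one_or (Perm.sign τ) with h1 | h1
    · exact h (by simpa [Perm.mem_alternatingGroup] using h1)
    · have : τ * s⁻¹ ∈ alternatingGroup α := by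
        rw [Perm.mem_alternatingGroup, map_mul, map_inv, h1, hs3]; rfl
      have h2 := J.mul_mem (h this) hs
      simpa using h2

/-- The four possibilities for a subgroup of `S₅`. -/
theorem iso_of_five (J : Subgroup (Perm (Fin 5))) (h : alternatingGroup (Fin 5) ≤ J) :
    Nonempty (J ≃* alternatingGroup (Fin 5)) ∨ Nonempty (J ≃* Perm (Fin 5)) := by
  rcases eq_alt_or_top J h with h1 | h1
  · left; subst h1; exact ⟨MulEquiv.refl _⟩
  · right; subst h1; exact ⟨Subgroup.topEquiv⟩

/-! ## Degree six -/

/-- The standard five-cycle. -/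
def c5 : Perm (Fin 6) :=
  ⟨![1, 2, 3, 4, 0, 5], ![4, 0, 1, 2, 3, 5], by decide, by decide⟩

/-- The five synthemes of the total stabilized by `c5`, as involutions. -/
def syn : Fin 5 → Perm (Fin 6) :=
  ![⟨![5, 4, 3, 2, 1, 0], ![5, 4, 3, 2, 1, 0], by decide, by decide⟩,
    ⟨![2, 5, 0, 4, 3, 1], ![2, 5, 0, 4, 3, 1], by decide, by decide⟩,
    ⟨![4, 3, 5, 1, 0, 2], ![4, 3, 5, 1, 0, 2], by decide, by decide⟩,
    ⟨![1, 0, 4, 5, 2, 3], ![1, 0, 4, 5, 2, 3], by decide, by decide⟩,
    ⟨![3, 2, 1, 0, 5, 4], ![3, 2, 1, 0, 5, 4], by decide, by decide⟩]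

/-- Words in the five-cycle and another letter. -/
def ev (g : Perm (Fin 6)) (w : List Bool) : Perm (Fin 6) :=
  (w.map fun b => if b then g else c5).prod

def wds : List (List Bool) :=
  [[false, false, true, true], [false, false, true, false, true, true, true],
   [false, true, false, true], [false, false, false, true, false, false, true, false, true],
   [true, true], [false, false, true, true, true, false, true], [false, true],
   [false, false, false, false, true, false, true], [false, true, true], [false, false, true],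
   [false, false, false, true, false, true, false, false, true]]

theorem t6_check : ∀ g : Perm (Fin 6), g 5 = 0 → g 0 = 5 →
    (∀ i, ∃ j, g * syn i * g⁻¹ = syn j) ∨ ∃ w ∈ wds, (ev g w).support.card = 3 := by
  decide +kernel

theorem syn_inj : Function.Injective syn := by decide +kernel

theorem syn_center : ∀ σ : Perm (Fin 6), (∀ i, σ * syn i = syn i * σ) → σ = 1 := by
  decide +kernel

theorem c5_syn : ∀ i, ∃ j, c5 * syn i * c5⁻¹ = syn j := by decide +kernel

/-- A criterion for primitivity: a transitive group with an element fixing `a` and transitive on the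
remaining points is primitive. -/
theorem preprimitive_of_fix {α : Type*} (G : Subgroup (Perm α)) [IsPretransitive G α] {a : α} {c : Perm α}
    (hc : c ∈ G) (hca : c a = a) (hcc : ∀ x y : α, x ≠ a → y ≠ a → ∃ k : ℕ, (c ^ k) x = y) :
    IsPreprimitive G α := by
  refine IsPreprimitive.of_isTrivialBlock_base a ?_
  intro B haB hB
  by_cases hs : B.Subsingleton
  · exact Or.inl hs
  right
  obtain ⟨x, hxB, hxa⟩ : ∃ x ∈ B, x ≠ a := by
    by_contra hcon
    push Not at hcon
    apply hs
    intro u hu v hv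
    rw [hcon u hu, hcon v hv]
  apply Set.eq_univ_of_forall
  intro y
  by_cases hya : y = a
  · rw [hya]; exact haB
  obtain ⟨k, hk⟩ := hcc x y hxa hya
  have hpow : ∀ n : ℕ, (c ^ n) a = a := by
    intro n
    induction n with
    | zero => rfl
    | succ n ih => rw [pow_succ, Perm.mul_apply, hca, ih]
  let g : G := ⟨c ^ k, G.pow_mem hc k⟩
  have hga : g • a = a := by
    show (c ^ k) a = a
    exact hpow k
  have hgB : g • B = B := hB.smul_eq_of_mem haB (by rw [hga]; exact haB)
  have : g • x ∈ B := by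
    rw [← hgB]; exact Set.smul_mem_smul_set hxB
  have hgx : g • x = y := hk
  rwa [hgx] at this

/-- The total stabilizer in `S₆`. -/
def T2 : Subgroup (Perm (Fin 6)) where
  carrier := {g | ∀ i, ∃ j, g * syn i * g⁻¹ = syn j}
  mul_mem' := by
    intro a b ha hb i
    obtain ⟨j, hj⟩ := hb i
    obtain ⟨k, hk⟩ := ha j
    refine ⟨k, ?_⟩
    rw [← hk, ← hj]
    group
  one_mem' := by
    intro i
    exact ⟨i, by group⟩
  inv_mem' := by
    intro a ha i
    choose f hf using ha
    have hinj : Function.Injective f := by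
      intro u v huv
      apply syn_inj
      have h1 := hf u
      have h2 := hf v
      rw [huv, ← h2] at h1
      have h3 : a * syn u * a⁻¹ = a * syn v * a⁻¹ := h1
      simpa using h3
    obtain ⟨k, hk⟩ := (Finite.injective_iff_surjective.1 hinj) i
    refine ⟨k, ?_⟩
    rw [← hk, ← hf k]
    group

theorem mem_T2 {g : Perm (Fin 6)} : g ∈ T2 ↔ ∀ i, ∃ j, g * syn i * g⁻¹ = syn j := Iff.rfl

theorem c5_mem_T2 : c5 ∈ T2 := c5_syn

/-- The action on the five synthemes. -/
noncomputable def tAct (g : T2) (i : Fin 5) : Fin 5 := Classical.choose (g.2 i)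

theorem tAct_spec (g : T2) (i : Fin 5) : (g : Perm (Fin 6)) * syn i * (g : Perm (Fin 6))⁻¹ = syn (tAct g i) :=
  Classical.choose_spec (g.2 i)

/-- The action on the five synthemes is a homomorphism. -/
noncomputable def tHom : T2 →* Perm (Fin 5) :=
  MonoidHom.toHomPerm
    { toFun := fun g => tAct g
      map_one' := by
        funext i
        apply syn_inj
        show syn (tAct 1 i) = syn i
        rw [← tAct_spec]
        simp
      map_mul' := by
        intro a b
        funext i
        apply syn_inj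
        show syn (tAct (a * b) i) = syn (tAct a (tAct b i))
        rw [← tAct_spec, ← tAct_spec, ← tAct_spec]
        simp only [Subgroup.coe_mul]
        group }

theorem tHom_apply (g : T2) (i : Fin 5) : tHom g i = tAct g i := rfl

theorem tHom_injective : Function.Injective tHom := by
  rw [injective_iff_map_eq_one]
  intro g hg
  have : (g : Perm (Fin 6)) = 1 := by
    apply syn_center
    intro i
    have h1 := tAct_spec g i
    have h2 : tAct g i = i := by
      rw [← tHom_apply, hg]; rfl
    rw [h2] at h1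
    calc (g : Perm (Fin 6)) * syn i = (g : Perm (Fin 6)) * syn i * (g : Perm (Fin 6))⁻¹ * g := by group
      _ = syn i * g := by rw [h1]
  exact Subtype.ext this

/-- An element of order five on five points generates a transitive group. -/
theorem pretransitive_of_order_five (J : Subgroup (Perm (Fin 5))) (x : Perm (Fin 5)) (hx : x ∈ J)
    (ho : orderOf x = 5) : IsPretransitive J (Fin 5) := by
  have hp : (orderOf x).Prime := by rw [ho]; norm_num
  obtain ⟨k, hk⟩ := Perm.cycleType_prime_order hp
  rw [ho] at hk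
  have hs := Perm.sum_cycleType x
  rw [hk, Multiset.sum_replicate, smul_eq_mul] at hs
  have hle : x.support.card ≤ 5 := by
    simpa using Finset.card_le_univ x.support
  have hk0 : k = 0 := by omega
  subst hk0
  have hcyc : x.IsCycle := by
    rw [← Perm.card_cycleType_eq_one, hk]; rfl
  have hsup : x.support = Finset.univ := by
    apply Finset.eq_univ_of_card
    simp only [Fintype.card_fin]
    omega
  refine ⟨fun a b => ?_⟩
  have ha : x a ≠ a := by
    have : a ∈ x.support := by rw [hsup]; exact Finset.mem_univ a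
    exact Perm.mem_support.1 this
  have hb : x b ≠ b := by
    have : b ∈ x.support := by rw [hsup]; exact Finset.mem_univ b
    exact Perm.mem_support.1 this
  obtain ⟨i, hi⟩ := hcyc.exists_pow_eq ha hb
  exact ⟨⟨x ^ i, J.pow_mem hx i⟩, hi⟩

/-- Degree six: a transitive nonsolvable subgroup containing the standard five-cycle. -/
theorem t6_std (I : Subgroup (Perm (Fin 6))) (ht : IsPretransitive I (Fin 6)) (hns : ¬ Group.IsSolvable I)
    (hc : c5 ∈ I) : alternatingGroup (Fin 6) ≤ I ∨ Nonempty (I ≃* alternatingGroup (Fin 5)) ∨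
      Nonempty (I ≃* Perm (Fin 5)) := by
  by_cases hT : I ≤ T2
  · right
    let ψ : I →* Perm (Fin 5) := tHom.comp (Subgroup.inclusion hT)
    have hψ : Function.Injective ψ := tHom_injective.comp (Subgroup.inclusion_injective hT)
    let e : I ≃* ψ.range := MonoidHom.ofInjective hψ
    have hco : orderOf c5 = 5 := by
      rw [orderOf_eq_iff (by norm_num)]
      decide +kernel
    have ho : orderOf (ψ ⟨c5, hc⟩) = 5 := by
      rw [orderOf_injective ψ hψ, Subgroup.orderOf_mk, hco]
    have htr : IsPretransitive ψ.range (Fin 5) :=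
      pretransitive_of_order_five _ _ ⟨_, rfl⟩ ho
    have hns' : ¬ Group.IsSolvable ψ.range := by
      intro hs
      apply hns
      exact Group.isSolvable_of_isSolvable_injective (f := e.toMonoidHom) e.injective
    rcases iso_of_five _ (alt_le_of_five _ htr hns') with ⟨⟨f⟩⟩ | ⟨⟨f⟩⟩
    · exact Or.inl ⟨e.trans f⟩
    · exact Or.inr ⟨e.trans f⟩
  · left
    obtain ⟨g₀, hg₀I, hg₀T⟩ := SetLike.not_le_iff_exists.1 hT
    -- an element outside `T2` moving the point `5`
    obtain ⟨g₁, hg₁I, hg₁T, hg₁5⟩ : ∃ g₁ ∈ I, g₁ ∉ T2 ∧ g₁ 5 ≠ 5 := by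
      by_cases h5 : g₀ 5 = 5
      · obtain ⟨h, hh⟩ := exists_smul_eq I (5 : Fin 6) 0
        have hh' : (h : Perm (Fin 6)) 5 = 0 := hh
        by_cases hhT : (h : Perm (Fin 6)) ∈ T2
        · refine ⟨g₀ * h, I.mul_mem hg₀I h.2, ?_, ?_⟩
          · intro hmem
            apply hg₀T
            have := T2.mul_mem hmem (T2.inv_mem hhT)
            simpa using this
          · intro hmem
            have h1 : g₀ ((h : Perm (Fin 6)) 5) = g₀ 5 := by
              rw [h5]; exact hmem
            have h2 := g₀.injective h1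
            rw [hh'] at h2
            exact absurd h2 (by decide)
        · exact ⟨h, h.2, hhT, by rw [hh']; decide⟩
      · exact ⟨g₀, hg₀I, hg₀T, h5⟩
    -- normal form
    have hcp : ∀ a : Fin 6, a ≠ 5 → ∃ k : Fin 5, (c5 ^ (k : ℕ)) a = 0 := by decide +kernel
    have hcq : ∀ a : Fin 6, a ≠ 5 → ∃ k : Fin 5, (c5 ^ (k : ℕ)) 0 = a := by decide +kernel
    have hc55 : ∀ k : ℕ, (c5 ^ k) 5 = 5 := by
      intro k
      induction k with
      | zero => rfl
      | succ n ih => rw [pow_succ, Perm.mul_apply]; exact ih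
    obtain ⟨k, hk⟩ := hcp _ hg₁5
    set g₂ := c5 ^ (k : ℕ) * g₁ with hg₂
    have hg₂5 : g₂ 5 = 0 := hk
    have hg₂I : g₂ ∈ I := I.mul_mem (I.pow_mem hc _) hg₁I
    have hg₂T : g₂ ∉ T2 := by
      intro hmem
      apply hg₁T
      have := T2.mul_mem (T2.inv_mem (T2.pow_mem c5_mem_T2 k)) hmem
      simpa [hg₂] using this
    have hj : g₂⁻¹ 5 ≠ 5 := by
      intro h
      have : g₂ (g₂⁻¹ 5) = g₂ 5 := by rw [h]
      rw [hg₂5] at this
      simp at this
    obtain ⟨l, hl⟩ := hcq _ hj
    set g₃ := g₂ * c5 ^ (l : ℕ) with hg₃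
    have hg₃0 : g₃ 0 = 5 := by
      show g₂ ((c5 ^ (l : ℕ)) 0) = 5
      rw [hl]
      simp
    have hg₃5 : g₃ 5 = 0 := by
      show g₂ ((c5 ^ (l : ℕ)) 5) = 0
      rw [hc55, hg₂5]
    have hg₃I : g₃ ∈ I := I.mul_mem hg₂I (I.pow_mem hc _)
    have hg₃T : g₃ ∉ T2 := by
      intro hmem
      apply hg₂T
      have := T2.mul_mem hmem (T2.inv_mem (T2.pow_mem c5_mem_T2 l))
      simpa [hg₃] using this
    rcases t6_check g₃ hg₃5 hg₃0 with h | ⟨w, -, hw⟩
    · exact absurd h hg₃T
    have hev : ev g₃ w ∈ I := by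
      unfold ev
      apply Subgroup.list_prod_mem
      intro x hx
      obtain ⟨b, -, rfl⟩ := List.mem_map.1 hx
      split_ifs
      · exact hg₃I
      · exact hc
    have h3c : (ev g₃ w).IsThreeCycle := card_support_eq_three_iff.1 hw
    have hcall : ∀ x y : Fin 6, x ≠ 5 → y ≠ 5 → ∃ k : ℕ, (c5 ^ k) x = y := by
      intro x y hx hy
      have : ∀ x y : Fin 6, x ≠ 5 → y ≠ 5 → ∃ k : Fin 5, (c5 ^ (k : ℕ)) x = y := by decide +kernel
      obtain ⟨k, hk⟩ := this x y hx hy
      exact ⟨k, hk⟩
    have hprim : IsPreprimitive I (Fin 6) := preprimitive_of_fix I hc (by decide) hcall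
    exact Perm.alternatingGroup_le_of_isPreprimitive_of_isThreeCycle_mem hprim h3c hev

/-- Conjugate of a subgroup of a permutation group. -/
def conjSub {α : Type*} (τ : Perm α) (I : Subgroup (Perm α)) : Subgroup (Perm α) :=
  I.map (MulAut.conj τ).toMonoidHom

theorem mem_conjSub {α : Type*} {τ y : Perm α} {I : Subgroup (Perm α)} :
    y ∈ conjSub τ I ↔ τ⁻¹ * y * τ ∈ I := by
  unfold conjSub
  constructor
  · rintro ⟨g, hg, rfl⟩
    simpa [MulAut.conj_apply, mul_assoc] using hg
  · intro h
    exact ⟨_, h, by simp [MulAut.conj_apply, mul_assoc]⟩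

/-- The conjugate is isomorphic. -/
def conjSubEquiv {α : Type*} (τ : Perm α) (I : Subgroup (Perm α)) : I ≃* conjSub τ I :=
  (MulAut.conj τ).subgroupMap I

theorem conjSub_pretransitive {α : Type*} (τ : Perm α) (I : Subgroup (Perm α)) (ht : IsPretransitive I α) :
    IsPretransitive (conjSub τ I) α := by
  refine ⟨fun a b => ?_⟩
  obtain ⟨g, hg⟩ := exists_smul_eq I (τ⁻¹ a) (τ⁻¹ b)
  have hg' : (g : Perm α) (τ⁻¹ a) = τ⁻¹ b := hg
  refine ⟨⟨τ * g * τ⁻¹, mem_conjSub.2 (by simp [mul_assoc])⟩, ?_⟩
  show τ ((g : Perm α) (τ⁻¹ a)) = b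
  rw [hg']
  simp

theorem not_solvable_of_equiv {A B : Type*} [Group A] [Group B] (e : A ≃* B) (h : ¬ Group.IsSolvable A) :
    ¬ Group.IsSolvable B := fun _ =>
  h (Group.isSolvable_of_isSolvable_injective (f := e.toMonoidHom) e.injective)

/-- Elements of order five on at most nine points are five-cycles. -/
theorem cycleType_five {n : ℕ} (hn : n ≤ 9) (σ : Perm (Fin n)) (ho : orderOf σ = 5) : σ.cycleType = {5} := by
  have hp : (orderOf σ).Prime := by rw [ho]; norm_num
  obtain ⟨k, hk⟩ := Perm.cycleType_prime_order hp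
  rw [ho] at hk
  have hs := Perm.sum_cycleType σ
  rw [hk, Multiset.sum_replicate, smul_eq_mul] at hs
  have hle : σ.support.card ≤ n := by
    simpa using Finset.card_le_univ σ.support
  have hk0 : k = 0 := by omega
  subst hk0
  rw [hk]
  rfl

theorem orderOf_c5 : orderOf c5 = 5 := by
  rw [orderOf_eq_iff (by norm_num)]
  decide +kernel

/-- Degree six, general form. -/
theorem t6 (I : Subgroup (Perm (Fin 6))) (ht : IsPretransitive I (Fin 6)) (hns : ¬ Group.IsSolvable I)
    {x : Perm (Fin 6)} (hx : x ∈ I) (ho : orderOf x = 5) :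
    alternatingGroup (Fin 6) ≤ I ∨ Nonempty (I ≃* alternatingGroup (Fin 5)) ∨
      Nonempty (I ≃* Perm (Fin 5)) := by
  have hconj : IsConj x c5 := by
    rw [Perm.isConj_iff_cycleType_eq, cycleType_five (by norm_num) x ho,
      cycleType_five (by norm_num) c5 orderOf_c5]
  obtain ⟨τ, hτ⟩ := isConj_iff.1 hconj
  have hc : c5 ∈ conjSub τ I := by
    rw [mem_conjSub, ← hτ]
    simpa [mul_assoc] using hx
  rcases t6_std (conjSub τ I) (conjSub_pretransitive τ I ht) (not_solvable_of_equiv (conjSubEquiv τ I) hns) hc with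
    h | ⟨⟨f⟩⟩ | ⟨⟨f⟩⟩
  · left
    intro σ hσ
    have h1 : τ * σ * τ⁻¹ ∈ alternatingGroup (Fin 6) := by
      rw [Perm.mem_alternatingGroup] at hσ ⊢
      simp [hσ]
    have h2 := mem_conjSub.1 (h h1)
    simpa [mul_assoc] using h2
  · exact Or.inr (Or.inl ⟨(conjSubEquiv τ I).trans f⟩)
  · exact Or.inr (Or.inr ⟨(conjSubEquiv τ I).trans f⟩)

end Cfsg.Agent.Lib.SubA8T5
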