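import Mathlib
import Cfsg.Agent.Lib.SubA8T5
import Cfsg.Agent.Lib.SubA8Code

/-!
# Subgroups of `A₈` containing a seven-cycle: the trichotomy
-/

set_option autoImplicit false

namespace Cfsg.Agent.Lib.SubA8Aff

open Equiv MulAction Cfsg.Agent.Lib.SubA8Code Cfsg.Agent.Lib.SubA8T5

/-- Addition on `Fin 8`. -/
def xo (a b : Fin 8) : Fin 8 := ⟨xn a b, Nat.mod_lt _ (by norm_num)⟩

theorem xo_val (a b : Fin 8) : (xo a b).val = xn a b := rfl

theorem xo_comm : ∀ a b : Fin 8, xo a b = xo b a := by decide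
theorem xo_assoc : ∀ a b c : Fin 8, xo (xo a b) c = xo a (xo b c) := by decide +kernel
theorem xo_self : ∀ a : Fin 8, xo a a = 0 := by decide
theorem xo_zero : ∀ a : Fin 8, xo a 0 = a := by decide

/-- Being affine. -/
def Aff (σ : Perm (Fin 8)) : Prop := ∀ x y w : Fin 8, σ (xo (xo x y) w) = xo (xo (σ x) (σ y)) (σ w)

theorem xo_cancel (a b c : Fin 8) (h : xo a c = xo b c) : a = b := by
  have := congrArg (fun t => xo t c) h
  simpa [xo_assoc, xo_self, xo_zero] using this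

/-- The affine group. -/
def A1 : Subgroup (Perm (Fin 8)) where
  carrier := {σ | Aff σ}
  mul_mem' := by
    intro a b ha hb x y w
    show a (b (xo (xo x y) w)) = xo (xo (a (b x)) (a (b y))) (a (b w))
    rw [hb x y w, ha]
  one_mem' := by
    intro x y w
    rfl
  inv_mem' := by
    intro a ha x y w
    apply a.injective
    have e : ∀ t, a (a⁻¹ t) = t := fun t => by simp
    have h := ha (a⁻¹ x) (a⁻¹ y) (a⁻¹ w)
    rw [e, e, e] at h
    rw [h, e]

theorem mem_A1 {σ : Perm (Fin 8)} : σ ∈ A1 ↔ Aff σ := Iff.rfl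

/-- The seven-cycle. -/
def cP : Perm (Fin 8) :=
  ⟨![0, 2, 4, 6, 3, 1, 7, 5], ![0, 5, 1, 4, 2, 7, 3, 6], by decide, by decide⟩

/-- Inversion in the field with eight elements. -/
def tP : Perm (Fin 8) :=
  ⟨![0, 1, 5, 6, 7, 2, 3, 4], ![0, 1, 5, 6, 7, 2, 3, 4], by decide, by decide⟩

theorem tP_inv : tP⁻¹ = tP := by decide +kernel

theorem enc_cP : enc cP = cc := rfl
theorem enc_tP : enc tP = tt := rfl
theorem enc_one : enc 1 = idc := rfl

theorem cP_mem_A1 : cP ∈ A1 := by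
  show ∀ x y w : Fin 8, cP (xo (xo x y) w) = xo (xo (cP x) (cP y)) (cP w)
  decide +kernel

/-- The second affine group. -/
def A2 : Subgroup (Perm (Fin 8)) := conjSub tP A1

theorem cP_mem_A2 : cP ∈ A2 := by
  rw [A2, mem_conjSub, tP_inv]
  show ∀ x y w : Fin 8, (tP * cP * tP) (xo (xo x y) w) = xo (xo ((tP * cP * tP) x) ((tP * cP * tP) y)) ((tP * cP * tP) w)
  decide +kernel

/-- The test for affineness. -/
theorem affB_spec {σ : Perm (Fin 8)} (h : affB (enc σ) = true) : Aff σ := by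
  intro x y w
  unfold affB at h
  rw [List.all_eq_true] at h
  have h1 := h x (List.mem_range.2 x.2)
  rw [List.all_eq_true] at h1
  have h2 := h1 y (List.mem_range.2 y.2)
  rw [List.all_eq_true] at h2
  have h3 := h2 w (List.mem_range.2 w.2)
  rw [beq_iff_eq] at h3
  apply Fin.ext
  have hx := dg_enc σ x
  have hy := dg_enc σ y
  have hw := dg_enc σ w
  rw [hx, hy, hw] at h3
  have h4 := dg_enc σ (xo (xo x y) w)
  rw [xo_val, xo_val] at h4
  rw [h4] at h3
  rw [xo_val, xo_val]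
  exact h3

/-- Elements of the subgroup, encoded. -/
def InP (P : Subgroup (Perm (Fin 8))) (a : ℕ) : Prop := ∃ σ ∈ P, enc σ = a

theorem InP.mul {P : Subgroup (Perm (Fin 8))} {a b : ℕ} (ha : InP P a) (hb : InP P b) : InP P (mulc a b) := by
  obtain ⟨σ, hσ, rfl⟩ := ha
  obtain ⟨τ, hτ, rfl⟩ := hb
  exact ⟨σ * τ, P.mul_mem hσ hτ, (mulc_enc σ τ).symm⟩

theorem inP_cpw {P : Subgroup (Perm (Fin 8))} (hc : cP ∈ P) : ∀ a ∈ cpw, InP P a := by
  have hcc : InP P cc := ⟨cP, hc, enc_cP⟩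
  have hid : InP P idc := ⟨1, P.one_mem, enc_one⟩
  intro a ha
  simp only [cpw, List.mem_cons, List.not_mem_nil, or_false] at ha
  rcases ha with rfl | rfl | rfl | rfl | rfl | rfl | rfl
  · exact hid
  · exact hcc.mul hid
  · exact hcc.mul (hcc.mul hid)
  · exact hcc.mul (hcc.mul (hcc.mul hid))
  · exact hcc.mul (hcc.mul (hcc.mul (hcc.mul hid)))
  · exact hcc.mul (hcc.mul (hcc.mul (hcc.mul (hcc.mul hid))))
  · exact hcc.mul (hcc.mul (hcc.mul (hcc.mul (hcc.mul (hcc.mul hid)))))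

theorem mv_enc (σ : Perm (Fin 8)) : mv (enc σ) = σ.support.card := by
  have hs : σ.support = Finset.univ.filter (fun x => σ x ≠ x) := by
    ext x; simp
  rw [hs, Finset.card_filter, Fin.sum_univ_eight]
  have key : ∀ i : Fin 8, (if dg (enc σ) i = i then 0 else 1) = (if σ i ≠ i then 1 else 0) := by
    intro i
    rw [dg_enc]
    by_cases h : σ i = i
    · simp [h]
    · have : (σ i).val ≠ i.val := fun h' => h (Fin.ext h')
      simp [h, this]
  rw [← key 0, ← key 1, ← key 2, ← key 3, ← key 4, ← key 5, ← key 6, ← key 7]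
  rfl

theorem is3_spec {P : Subgroup (Perm (Fin 8))} {a : ℕ} (ha : InP P a) (h : is3 a = true) :
    ∃ σ ∈ P, σ.IsThreeCycle := by
  obtain ⟨σ, hσ, rfl⟩ := ha
  refine ⟨σ, hσ, card_support_eq_three_iff.1 ?_⟩
  rw [← mv_enc]
  exact beq_iff_eq.1 h

theorem wtest_spec {P : Subgroup (Perm (Fin 8))} {w : ℕ} (ha : InP P w) (h : wtest w = true) :
    ∃ σ ∈ P, σ.IsThreeCycle := by
  unfold wtest at h
  simp only [Bool.or_eq_true] at h
  rcases h with (h | h) | h
  · exact is3_spec ha h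
  · exact is3_spec (ha.mul ha) h
  · exact is3_spec ((ha.mul ha).mul ((ha.mul ha).mul ha)) h

theorem wordB_spec {P : Subgroup (Perm (Fin 8))} (hc : cP ∈ P) {z : ℕ} (hz : InP P z) (h : wordB z = true) :
    ∃ σ ∈ P, σ.IsThreeCycle := by
  unfold wordB at h
  rw [List.any_eq_true] at h
  obtain ⟨a, ha, h⟩ := h
  rw [List.any_eq_true] at h
  obtain ⟨b, hb, h⟩ := h
  exact wtest_spec ((inP_cpw hc a ha).mul (hz.mul ((inP_cpw hc b hb).mul hz))) h

theorem enc_injective : Function.Injective enc := by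
  intro σ τ h
  ext i
  rw [← dg_enc σ i, ← dg_enc τ i, h]

/-- The exceptional normal forms are odd. -/
theorem exc_sign (σ : Perm (Fin 8)) (h : excL.contains (enc σ) = true) : Perm.sign σ = -1 := by
  have hmem : enc σ ∈ excL := by simpa using h
  have key : ∀ e : Perm (Fin 8), enc σ = enc e → Perm.sign e = -1 → Perm.sign σ = -1 := by
    intro e he hs
    rw [enc_injective he, hs]
  simp only [excL, List.mem_cons, List.not_mem_nil, or_false] at hmem
  rcases hmem with h | h | h | h | h | h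
  · exact key ⟨![1, 0, 2, 7, 6, 5, 4, 3], ![1, 0, 2, 7, 6, 5, 4, 3], by decide, by decide⟩ h (by decide +kernel)
  · exact key ⟨![0, 1, 3, 4, 5, 6, 7, 2], ![0, 1, 7, 2, 3, 4, 5, 6], by decide, by decide⟩ h (by decide +kernel)
  · exact key ⟨![1, 0, 4, 3, 2, 7, 6, 5], ![1, 0, 4, 3, 2, 7, 6, 5], by decide, by decide⟩ h (by decide +kernel)
  · exact key ⟨![0, 1, 5, 6, 7, 2, 3, 4], ![0, 1, 5, 6, 7, 2, 3, 4], by decide, by decide⟩ h (by decide +kernel)
  · exact key ⟨![1, 0, 6, 5, 4, 3, 2, 7], ![1, 0, 6, 5, 4, 3, 2, 7], by decide, by decide⟩ h (by decide +kernel)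
  · exact key ⟨![0, 1, 7, 2, 3, 4, 5, 6], ![0, 1, 3, 4, 5, 6, 7, 2], by decide, by decide⟩ h (by decide +kernel)

theorem test_of_nf (σ : Perm (Fin 8)) {u v : ℕ} (hchk : chk u v = true) (h0 : (σ 0).val = u)
    (h1 : (σ 1).val = v) (huv : u + v = 1) : testB (enc σ) = true := by
  have hne : ∀ i j : Fin 8, i ≠ j → (σ i).val ≠ (σ j).val := by
    intro i j hij h
    exact hij (σ.injective (Fin.ext h))
  have hge : ∀ k : Fin 8, k ≠ 0 → k ≠ 1 → 2 ≤ (σ k).val := by
    intro k hk0 hk1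
    have h2 := hne k 0 hk0
    have h3 := hne k 1 hk1
    omega
  have lt : ∀ k : Fin 8, (σ k).val - 2 < 6 := fun k => by
    have := (σ k).2
    omega
  have g2 := hge 2 (by decide) (by decide)
  have g3 := hge 3 (by decide) (by decide)
  have g4 := hge 4 (by decide) (by decide)
  have g5 := hge 5 (by decide) (by decide)
  have g6 := hge 6 (by decide) (by decide)
  have g7 := hge 7 (by decide) (by decide)
  have key := chk_spec hchk (lt 2) (lt 3) (lt 4) (lt 5) (lt 6) (lt 7)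
    (by have := hne 3 2 (by decide); omega) (by have := hne 4 2 (by decide); omega)
    (by have := hne 4 3 (by decide); omega) (by have := hne 5 2 (by decide); omega)
    (by have := hne 5 3 (by decide); omega) (by have := hne 5 4 (by decide); omega)
    (by have := hne 6 2 (by decide); omega) (by have := hne 6 3 (by decide); omega)
    (by have := hne 6 4 (by decide); omega) (by have := hne 6 5 (by decide); omega)
    (by have := hne 7 2 (by decide); omega) (by have := hne 7 3 (by decide); omega)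
    (by have := hne 7 4 (by decide); omega) (by have := hne 7 5 (by decide); omega)
    (by have := hne 7 6 (by decide); omega)
  have he : enc σ = nf u v ((σ 2).val - 2) ((σ 3).val - 2) ((σ 4).val - 2) ((σ 5).val - 2) ((σ 6).val - 2)
      ((σ 7).val - 2) := by
    unfold enc nf
    rw [h0, h1, Nat.sub_add_cancel g2, Nat.sub_add_cancel g3, Nat.sub_add_cancel g4, Nat.sub_add_cancel g5,
      Nat.sub_add_cancel g6, Nat.sub_add_cancel g7]
  rw [he]
  exact key

theorem cP_pow_zero (k : ℕ) : (cP ^ k) 0 = 0 := by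
  induction k with
  | zero => rfl
  | succ n ih =>
    rw [pow_succ, Perm.mul_apply]
    have : cP 0 = 0 := rfl
    rw [this, ih]

theorem cP_trans : ∀ x y : Fin 8, x ≠ 0 → y ≠ 0 → ∃ k : ℕ, (cP ^ k) x = y := by
  have : ∀ x y : Fin 8, x ≠ 0 → y ≠ 0 → ∃ k : Fin 7, (cP ^ (k : ℕ)) x = y := by decide +kernel
  intro x y hx hy
  obtain ⟨k, hk⟩ := this x y hx hy
  exact ⟨k, hk⟩

/-- Normal forms under multiplication by powers of the seven-cycle. -/
theorem exists_nf (g : Perm (Fin 8)) : ∃ a b : ℕ,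
    ((cP ^ a * g * cP ^ b) 0 = 0 ∧ (cP ^ a * g * cP ^ b) 1 = 1) ∨
      ((cP ^ a * g * cP ^ b) 0 = 1 ∧ (cP ^ a * g * cP ^ b) 1 = 0) := by
  by_cases h0 : g 0 = 0
  · have h1 : g 1 ≠ 0 := by
      intro h
      have := g.injective (h.trans h0.symm)
      exact absurd this (by decide)
    obtain ⟨k, hk⟩ := cP_trans _ 1 h1 (by decide)
    refine ⟨k, 0, Or.inl ⟨?_, ?_⟩⟩
    · show (cP ^ k) (g 0) = 0
      rw [h0, cP_pow_zero]
    · exact hk
  · obtain ⟨a, ha⟩ := cP_trans _ 1 h0 (by decide)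
    set g₂ := cP ^ a * g with hg₂
    have hg₂0 : g₂ 0 = 1 := ha
    have hj : g₂⁻¹ 0 ≠ 0 := by
      intro h
      have : g₂ (g₂⁻¹ 0) = g₂ 0 := by rw [h]
      rw [hg₂0] at this
      simp at this
    obtain ⟨b, hb⟩ := cP_trans 1 _ (by decide) hj
    refine ⟨a, b, Or.inr ⟨?_, ?_⟩⟩
    · show g₂ ((cP ^ b) 0) = 1
      rw [cP_pow_zero, hg₂0]
    · show g₂ ((cP ^ b) 1) = 0
      rw [hb]
      simp

/-- **The trichotomy.** -/
theorem trichotomy (P : Subgroup (Perm (Fin 8))) (hc : cP ∈ P) (hev : ∀ σ ∈ P, Perm.sign σ = 1) :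
    (∃ σ ∈ P, σ.IsThreeCycle) ∨ P ≤ A1 ∨ P ≤ A2 := by
  by_cases h3 : ∃ σ ∈ P, σ.IsThreeCycle
  · exact Or.inl h3
  by_cases h1 : P ≤ A1
  · exact Or.inr (Or.inl h1)
  by_cases h2 : P ≤ A2
  · exact Or.inr (Or.inr h2)
  exfalso
  obtain ⟨g₁, hg₁, hg₁'⟩ := SetLike.not_le_iff_exists.1 h1
  obtain ⟨g₂, hg₂, hg₂'⟩ := SetLike.not_le_iff_exists.1 h2
  obtain ⟨g, hgP, hg1, hg2⟩ : ∃ g ∈ P, g ∉ A1 ∧ g ∉ A2 := by
    by_cases ha : g₁ ∈ A2
    · by_cases hb : g₂ ∈ A1
      · refine ⟨g₁ * g₂, P.mul_mem hg₁ hg₂, ?_, ?_⟩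
        · intro hm
          apply hg₁'
          have := A1.mul_mem hm (A1.inv_mem hb)
          simpa using this
        · intro hm
          apply hg₂'
          have := A2.mul_mem (A2.inv_mem ha) hm
          simpa using this
      · exact ⟨g₂, hg₂, hb, hg₂'⟩
    · exact ⟨g₁, hg₁, hg₁', ha⟩
  obtain ⟨a, b, hnf⟩ := exists_nf g
  set g' := cP ^ a * g * cP ^ b with hg'
  have hg'P : g' ∈ P := P.mul_mem (P.mul_mem (P.pow_mem hc a) hgP) (P.pow_mem hc b)
  have hback : ∀ A : Subgroup (Perm (Fin 8)), cP ∈ A → g' ∈ A → g ∈ A := by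
    intro A hA hm
    have := A.mul_mem (A.mul_mem (A.inv_mem (A.pow_mem hA a)) hm) (A.inv_mem (A.pow_mem hA b))
    simpa [hg', mul_assoc] using this
  have ht : testB (enc g') = true := by
    rcases hnf with ⟨h0, h1'⟩ | ⟨h0, h1'⟩
    · exact test_of_nf g' chk0 (by rw [h0]; rfl) (by rw [h1']; rfl) rfl
    · exact test_of_nf g' chk1 (by rw [h0]; rfl) (by rw [h1']; rfl) rfl
  unfold testB at ht
  simp only [Bool.or_eq_true] at ht
  rcases ht with ((h | h) | h) | h
  · exact hg1 (hback A1 cP_mem_A1 (affB_spec h))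
  · rw [← enc_tP, mulc_enc, mulc_enc] at h
    apply hg2
    apply hback A2 cP_mem_A2
    rw [A2, mem_conjSub, tP_inv, mul_assoc]
    exact affB_spec h
  · have := exc_sign g' h
    rw [hev g' hg'P] at this
    exact absurd this (by decide)
  · exact h3 (wordB_spec hc ⟨g', hg'P, rfl⟩ h)

end Cfsg.Agent.Lib.SubA8Aff
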