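import Mathlib
import Cfsg.Agent.Lib.SubA8Aff
import Cfsg.Agent.Lib.BurnsidePQ

/-!
# The affine group on eight points and `SL₃(2)`
-/

set_option autoImplicit false

namespace Cfsg.Agent.Lib.SubA8Lin

open Equiv MulAction Cfsg.Agent.Lib.SubA8Code Cfsg.Agent.Lib.SubA8T5 Cfsg.Agent.Lib.SubA8Aff

/-- The linear part of a permutation. -/
def phiFun (σ : Perm (Fin 8)) : Perm (Fin 8) where
  toFun x := xo (σ x) (σ 0)
  invFun y := σ⁻¹ (xo y (σ 0))
  left_inv x := by
    show σ⁻¹ (xo (xo (σ x) (σ 0)) (σ 0)) = x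
    rw [xo_assoc, xo_self, xo_zero]
    simp
  right_inv y := by
    show xo (σ (σ⁻¹ (xo y (σ 0)))) (σ 0) = y
    have : σ (σ⁻¹ (xo y (σ 0))) = xo y (σ 0) := by simp
    rw [this, xo_assoc, xo_self, xo_zero]

theorem phiFun_apply (σ : Perm (Fin 8)) (x : Fin 8) : phiFun σ x = xo (σ x) (σ 0) := rfl

/-- The linear part, as a homomorphism on the affine group. -/
def phiHom : A1 →* Perm (Fin 8) :=
  MonoidHom.mk' (fun a => phiFun a) (by
    intro a b
    ext x
    have ha : Aff (a : Perm (Fin 8)) := a.2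
    have h := ha ((b : Perm (Fin 8)) x) ((b : Perm (Fin 8)) 0) 0
    rw [xo_zero] at h
    show (xo ((a : Perm (Fin 8)) ((b : Perm (Fin 8)) x)) ((a : Perm (Fin 8)) ((b : Perm (Fin 8)) 0))).val =
      (xo ((a : Perm (Fin 8)) (xo ((b : Perm (Fin 8)) x) ((b : Perm (Fin 8)) 0))) ((a : Perm (Fin 8)) 0)).val
    rw [h, xo_assoc _ _ ((a : Perm (Fin 8)) 0), xo_self, xo_zero])

theorem phiHom_apply (a : A1) (x : Fin 8) : phiHom a x = xo ((a : Perm (Fin 8)) x) ((a : Perm (Fin 8)) 0) := rfl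

/-- Elements of the kernel have order at most two. -/
theorem sq_of_phi_eq_one (a : A1) (h : phiHom a = 1) : a * a = 1 := by
  have h1 : ∀ x, xo ((a : Perm (Fin 8)) x) ((a : Perm (Fin 8)) 0) = x := by
    intro x
    have : phiHom a x = x := by rw [h]; rfl
    rwa [phiHom_apply] at this
  have hx : ∀ x, (a : Perm (Fin 8)) x = xo x ((a : Perm (Fin 8)) 0) := by
    intro x
    have := congrArg (fun t => xo t ((a : Perm (Fin 8)) 0)) (h1 x)
    simpa [xo_assoc, xo_self, xo_zero] using this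
  apply Subtype.ext
  ext x
  show ((a : Perm (Fin 8)) ((a : Perm (Fin 8)) x)).val = x.val
  rw [hx ((a : Perm (Fin 8)) x), h1]

theorem xo_four : ∀ p q r s : Fin 8, xo (xo (xo p q) r) s = xo (xo (xo p s) (xo q s)) (xo r s) := by
  decide +kernel

/-- The group of linear permutations. -/
def L8 : Subgroup (Perm (Fin 8)) where
  carrier := {σ | σ 0 = 0 ∧ Aff σ}
  mul_mem' := by
    rintro a b ⟨ha0, ha⟩ ⟨hb0, hb⟩
    refine ⟨?_, A1.mul_mem ha hb⟩
    show a (b 0) = 0
    rw [hb0, ha0]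
  one_mem' := ⟨rfl, A1.one_mem⟩
  inv_mem' := by
    rintro a ⟨ha0, ha⟩
    refine ⟨?_, A1.inv_mem ha⟩
    rw [Perm.inv_eq_iff_eq, ha0]

theorem mem_L8 {σ : Perm (Fin 8)} : σ ∈ L8 ↔ σ 0 = 0 ∧ Aff σ := Iff.rfl

theorem phi_mem_L8 (a : A1) : phiHom a ∈ L8 := by
  constructor
  · rw [phiHom_apply, xo_self]
  · intro x y w
    simp only [phiHom_apply]
    have ha : Aff (a : Perm (Fin 8)) := a.2
    rw [ha x y w, xo_four]

/-! ## Bits -/

/-- Bit vectors. -/
def bv : Fin 8 → Fin 3 → ZMod 2 :=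
  ![![0, 0, 0], ![1, 0, 0], ![0, 1, 0], ![1, 1, 0], ![0, 0, 1], ![1, 0, 1], ![0, 1, 1], ![1, 1, 1]]

def vb (v : Fin 3 → ZMod 2) : Fin 8 :=
  ⟨((v 0).val + 2 * (v 1).val + 4 * (v 2).val) % 8, Nat.mod_lt _ (by norm_num)⟩

theorem vb_bv : ∀ x, vb (bv x) = x := by decide +kernel
theorem bv_vb : ∀ v, bv (vb v) = v := by decide +kernel
theorem bv_xo : ∀ a b, bv (xo a b) = bv a + bv b := by decide +kernel
theorem bv_zero : bv 0 = 0 := by decide +kernel

theorem vb_add (u v : Fin 3 → ZMod 2) : vb (u + v) = xo (vb u) (vb v) := by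
  apply (Function.LeftInverse.injective vb_bv)
  rw [bv_xo, bv_vb, bv_vb, bv_vb]

abbrev SL3 := Matrix.SpecialLinearGroup (Fin 3) (ZMod 2)

/-- The natural action of `SL₃(2)`. -/
def slPerm (M : SL3) : Perm (Fin 8) where
  toFun x := vb (M.val.mulVec (bv x))
  invFun x := vb ((M⁻¹).val.mulVec (bv x))
  left_inv x := by
    show vb ((M⁻¹).val.mulVec (bv (vb (M.val.mulVec (bv x))))) = x
    rw [bv_vb, Matrix.mulVec_mulVec]
    have : (M⁻¹).val * M.val = 1 := by
      rw [← Matrix.SpecialLinearGroup.coe_mul, inv_mul_cancel, Matrix.SpecialLinearGroup.coe_one]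
    rw [this, Matrix.one_mulVec, vb_bv]
  right_inv x := by
    show vb (M.val.mulVec (bv (vb ((M⁻¹).val.mulVec (bv x))))) = x
    rw [bv_vb, Matrix.mulVec_mulVec]
    have : M.val * (M⁻¹).val = 1 := by
      rw [← Matrix.SpecialLinearGroup.coe_mul, mul_inv_cancel, Matrix.SpecialLinearGroup.coe_one]
    rw [this, Matrix.one_mulVec, vb_bv]

theorem slPerm_apply (M : SL3) (x : Fin 8) : slPerm M x = vb (M.val.mulVec (bv x)) := rfl

def slHom : SL3 →* Perm (Fin 8) :=
  MonoidHom.mk' slPerm (by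
    intro A B
    ext x
    show (vb ((A * B).val.mulVec (bv x))).val = (vb (A.val.mulVec (bv (vb (B.val.mulVec (bv x)))))).val
    rw [bv_vb, Matrix.mulVec_mulVec]
    rfl)

theorem slHom_apply (M : SL3) (x : Fin 8) : slHom M x = vb (M.val.mulVec (bv x)) := rfl

theorem slHom_mem (M : SL3) : slHom M ∈ L8 := by
  constructor
  · rw [slHom_apply, bv_zero, Matrix.mulVec_zero]
    decide +kernel
  · intro x y w
    simp only [slHom_apply]
    rw [bv_xo, bv_xo, Matrix.mulVec_add, Matrix.mulVec_add, vb_add, vb_add]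

theorem slHom_injective : Function.Injective slHom := by
  rw [injective_iff_map_eq_one]
  intro M hM
  apply Subtype.ext
  apply Matrix.mulVec_injective
  funext v
  have h : slHom M (vb v) = vb v := by rw [hM]; rfl
  rw [slHom_apply, bv_vb] at h
  have h2 := congrArg bv h
  rw [bv_vb, bv_vb] at h2
  rw [h2]
  simp

/-- Matrix with given columns. -/
def MM (a b c : Fin 8) : Matrix (Fin 3) (Fin 3) (ZMod 2) :=
  Matrix.of fun i j => bv (![a, b, c] j) i

theorem det_MM : ∀ a b c : Fin 8, a ≠ 0 → b ≠ 0 → c ≠ 0 → a ≠ b → a ≠ c → b ≠ c → xo a b ≠ c →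
    (MM a b c).det = 1 := by
  decide +kernel

/-- Linear combination given by the three values. -/
def linF (a b c : Fin 8) : Fin 8 → Fin 8 :=
  ![0, a, b, xo a b, c, xo a c, xo b c, xo (xo a b) c]

theorem MM_lin : ∀ a b c x : Fin 8, vb ((MM a b c).mulVec (bv x)) = linF a b c x := by
  decide +kernel

theorem L8_add {σ : Perm (Fin 8)} (h : σ ∈ L8) (x y : Fin 8) : σ (xo x y) = xo (σ x) (σ y) := by
  have := h.2 x y 0
  rw [xo_zero, h.1, xo_zero] at this
  exact this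

theorem L8_lin {σ : Perm (Fin 8)} (h : σ ∈ L8) (x : Fin 8) : σ x = linF (σ 1) (σ 2) (σ 4) x := by
  have h3 : (3 : Fin 8) = xo 1 2 := by decide
  have h5 : (5 : Fin 8) = xo 1 4 := by decide
  have h6 : (6 : Fin 8) = xo 2 4 := by decide
  have h7 : (7 : Fin 8) = xo (xo 1 2) 4 := by decide
  fin_cases x
  · exact h.1
  · rfl
  · rfl
  · show σ 3 = xo (σ 1) (σ 2)
    rw [h3, L8_add h]
  · rfl
  · show σ 5 = xo (σ 1) (σ 4)
    rw [h5, L8_add h]
  · show σ 6 = xo (σ 2) (σ 4)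
    rw [h6, L8_add h]
  · show σ 7 = xo (xo (σ 1) (σ 2)) (σ 4)
    rw [h7, L8_add h, L8_add h]

theorem exists_sl_of_mem {σ : Perm (Fin 8)} (h : σ ∈ L8) : ∃ M : SL3, slHom M = σ := by
  have hne : ∀ i j : Fin 8, i ≠ j → σ i ≠ σ j := fun i j hij he => hij (σ.injective he)
  have hd := det_MM (σ 1) (σ 2) (σ 4)
    (by have := hne 1 0 (by decide); rwa [h.1] at this)
    (by have := hne 2 0 (by decide); rwa [h.1] at this)
    (by have := hne 4 0 (by decide); rwa [h.1] at this)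
    (hne 1 2 (by decide)) (hne 1 4 (by decide)) (hne 2 4 (by decide))
    (by
      rw [← L8_add h]
      exact hne _ _ (by decide))
  refine ⟨(⟨MM (σ 1) (σ 2) (σ 4), hd⟩ : SL3), ?_⟩
  apply Equiv.ext
  intro x
  show vb ((MM (σ 1) (σ 2) (σ 4)).mulVec (bv x)) = σ x
  rw [MM_lin, ← L8_lin h]

theorem range_slHom : slHom.range = L8 := by
  apply le_antisymm
  · rintro _ ⟨M, rfl⟩
    exact slHom_mem M
  · intro σ h
    exact exists_sl_of_mem h

/-- `L8` is `SL₃(2)`. -/
noncomputable def slEquiv : SL3 ≃* L8 :=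
  (MonoidHom.ofInjective slHom_injective).trans (MulEquiv.subgroupCongr range_slHom)

theorem card_SL3 : Nat.card SL3 = 168 := by
  rw [Nat.card_eq_fintype_card]
  decide +kernel

theorem card_L8 : Nat.card L8 = 168 := by
  rw [← Nat.card_congr slEquiv.toEquiv, card_SL3]

end Cfsg.Agent.Lib.SubA8Lin
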