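import Mathlib
import Cfsg.Agent.Lib.SubA8Lin

/-!
# Subgroups of `A₈` containing a seven-cycle
-/

set_option autoImplicit false

namespace Cfsg.Agent.Lib.SubA8Seven

open Equiv MulAction Cfsg.Agent.Lib.SubA8Code Cfsg.Agent.Lib.SubA8T5 Cfsg.Agent.Lib.SubA8Aff
  Cfsg.Agent.Lib.SubA8Lin

open Cfsg.Agent.Lib.BurnsidePQ

/-- Groups of order `7m` with `m ∣ 12`, `m` not `≡ 1`, are solvable. -/
theorem solv_seven {H : Type} [Group H] [Finite H] {m : ℕ} (hm : m = 6 ∨ m = 12) (hc : Nat.card H = 7 * m) :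
    Group.IsSolvable H := by
  have hp7 : Nat.Prime 7 := by norm_num
  have : Fact (Nat.Prime 7) := ⟨hp7⟩
  obtain ⟨P⟩ : Nonempty (Sylow 7 H) := inferInstance
  have hmul : Nat.card P * (P : Subgroup H).index = 7 * m := by
    rw [Subgroup.card_mul_index, hc]
  obtain ⟨k, hk⟩ := IsPGroup.iff_card.1 P.isPGroup'
  have hnd : ¬ 7 ∣ (P : Subgroup H).index := P.not_dvd_index
  rw [hk] at hmul
  have hk1 : k = 1 := by
    rcases k with _ | _ | k
    · exfalso
      apply hnd
      rw [pow_zero, one_mul] at hmul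
      rw [hmul]
      exact Dvd.intro _ rfl
    · rfl
    · exfalso
      have h49 : 49 ∣ 7 * m := ⟨7 ^ k * (P : Subgroup H).index, by rw [← hmul]; ring⟩
      rcases hm with rfl | rfl <;> omega
  subst hk1
  have hidx : (P : Subgroup H).index = m := by
    rw [pow_one] at hmul
    exact Nat.eq_of_mul_eq_mul_left (by norm_num) hmul
  have hdv : Nat.card (Sylow 7 H) ∣ m := hidx ▸ P.card_dvd_index
  have hmod := card_sylow_modEq_one 7 H
  have hone : Nat.card (Sylow 7 H) = 1 := by
    have hle : Nat.card (Sylow 7 H) ≤ m := Nat.le_of_dvd (by rcases hm with rfl | rfl <;> norm_num) hdv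
    have hmod' : Nat.card (Sylow 7 H) % 7 = 1 := hmod
    rcases hm with rfl | rfl
    · interval_cases h : Nat.card (Sylow 7 H) <;> omega
    · interval_cases h : Nat.card (Sylow 7 H) <;> omega
  have hss : Subsingleton (Sylow 7 H) := (Nat.card_eq_one_iff_unique.1 hone).1
  have hn : (P : Subgroup H).Normal := Sylow.normal_of_subsingleton P
  have hsP : Group.IsSolvable (P : Subgroup H) :=
    isSolvable_of_card_eq 2 7 Nat.prime_two hp7 _ _ rfl ⟨0, 1, by rw [hk]; norm_num⟩
  have hsQ : Group.IsSolvable (H ⧸ (P : Subgroup H)) := by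
    refine isSolvable_of_card_eq 2 3 Nat.prime_two Nat.prime_three _ _ rfl ?_
    have h1 : Nat.card (H ⧸ (P : Subgroup H)) = m := hidx
    rw [h1]
    rcases hm with rfl | rfl
    · exact ⟨1, 1, by norm_num⟩
    · exact ⟨2, 1, by norm_num⟩
  exact Group.isSolvable_of_ker_le_range (P : Subgroup H).subtype (QuotientGroup.mk' (P : Subgroup H)) (by
    rw [QuotientGroup.ker_mk', Subgroup.range_subtype])

/-- A group of order a proper divisor of `168` is solvable. -/
theorem solv_of_dvd {H : Type} [Group H] [Finite H] (hd : Nat.card H ∣ 168) (hne : Nat.card H ≠ 168) :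
    Group.IsSolvable H := by
  have hmem : Nat.card H ∈ Nat.divisors 168 := Nat.mem_divisors.2 ⟨hd, by norm_num⟩
  have hdiv : Nat.divisors 168 = {1, 2, 3, 4, 6, 7, 8, 12, 14, 21, 24, 28, 42, 56, 84, 168} := by decide +kernel
  rw [hdiv] at hmem
  simp only [Finset.mem_insert, Finset.mem_singleton] at hmem
  have h23 := fun a b (h : Nat.card H = 2 ^ a * 3 ^ b) =>
    isSolvable_of_card_eq 2 3 Nat.prime_two Nat.prime_three _ H rfl ⟨a, b, h⟩
  have h27 := fun a b (h : Nat.card H = 2 ^ a * 7 ^ b) =>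
    isSolvable_of_card_eq 2 7 Nat.prime_two (by norm_num) _ H rfl ⟨a, b, h⟩
  rcases hmem with h | h | h | h | h | h | h | h | h | h | h | h | h | h | h | h
  · exact h23 0 0 (by simp [h])
  · exact h23 1 0 (by simp [h])
  · exact h23 0 1 (by simp [h])
  · exact h23 2 0 (by simp [h])
  · exact h23 1 1 (by simp [h])
  · exact h27 0 1 (by simp [h])
  · exact h23 3 0 (by simp [h])
  · exact h23 2 1 (by simp [h])
  · exact h27 1 1 (by simp [h])
  · exact isSolvable_of_card_eq 3 7 Nat.prime_three (by norm_num) _ H rfl ⟨1, 1, by simp [h]⟩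
  · exact h23 3 1 (by simp [h])
  · exact h27 2 1 (by simp [h])
  · exact solv_seven (Or.inl rfl) h
  · exact h27 3 1 (by simp [h])
  · exact solv_seven (Or.inr rfl) h
  · exact absurd h hne

/-- A nonsolvable group with an injection in the affine group and without normal `2`-subgroups is `SL₃(2)`. -/
theorem lin_case {Q : Type} [Group Q] [Finite Q] (f : Q →* A1) (hf : Function.Injective f)
    (hns : ¬ Group.IsSolvable Q)
    (hO : ∀ N : Subgroup Q, N.Normal → IsPGroup 2 N → N = ⊥) : Nonempty (Q ≃* SL3) := by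
  let ψ : Q →* Perm (Fin 8) := phiHom.comp f
  have hker : ψ.ker = ⊥ := by
    apply hO _ inferInstance
    intro g
    refine ⟨1, ?_⟩
    apply Subtype.ext
    have h1 : phiHom (f g) = 1 := g.2
    have h2 := sq_of_phi_eq_one _ h1
    apply hf
    show f ((g : Q) ^ 2 ^ 1) = f 1
    rw [pow_one, pow_two, map_mul, h2, map_one]
  have hinj : Function.Injective ψ := (MonoidHom.ker_eq_bot_iff ψ).1 hker
  let e : Q ≃* ψ.range := MonoidHom.ofInjective hinj
  have hle : ψ.range ≤ L8 := by
    rintro _ ⟨g, rfl⟩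
    exact phi_mem_L8 (f g)
  have hns' : ¬ Group.IsSolvable ψ.range := not_solvable_of_equiv e hns
  have hdv : Nat.card ψ.range ∣ 168 := card_L8 ▸ Subgroup.card_dvd_of_le hle
  have h168 : Nat.card ψ.range = 168 := by
    by_contra hne
    exact hns' (solv_of_dvd hdv hne)
  have heq : ψ.range = L8 := Subgroup.eq_of_le_of_card_ge hle (by rw [h168, card_L8])
  exact ⟨e.trans ((MulEquiv.subgroupCongr heq).trans slEquiv.symm)⟩

theorem center_SL3 : Subgroup.center SL3 = ⊥ := by
  rw [eq_bot_iff]
  intro A hA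
  obtain ⟨r, hr, hA'⟩ := Matrix.SpecialLinearGroup.mem_center_iff.1 hA
  have hr0 : ∀ r : ZMod 2, r ^ Fintype.card (Fin 3) = 1 → r = 1 := by decide
  have hr1 : r = 1 := hr0 r hr
  subst hr1
  rw [Subgroup.mem_bot]
  apply Subtype.ext
  rw [← hA']
  simp

/-- `PSL₃(2)` is `SL₃(2)`. -/
noncomputable def pslEquiv : Matrix.ProjectiveSpecialLinearGroup (Fin 3) (ZMod 2) ≃* SL3 :=
  (QuotientGroup.quotientMulEquivOfEq center_SL3).trans QuotientGroup.quotientBot

/-! ## Fixing a point -/

/-- The embedding of `S₇` fixing the point `0`. -/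
noncomputable def f7 : Fin 7 ≃ {x : Fin 8 // x ≠ 0} := finSuccAboveEquiv (0 : Fin 8)

noncomputable def iota : Perm (Fin 7) →* Perm (Fin 8) := Perm.extendDomainHom f7

theorem iota_injective : Function.Injective iota := Perm.extendDomainHom_injective f7

theorem iota_zero (α : Perm (Fin 7)) : iota α 0 = 0 := by
  apply Perm.extendDomain_apply_not_subtype
  simp

theorem iota_apply (α : Perm (Fin 7)) (a : Fin 7) : iota α (f7 a) = f7 (α a) := by
  exact Perm.extendDomain_apply_image α f7 a

theorem exists_iota {σ : Perm (Fin 8)} (h : σ 0 = 0) : ∃ α, iota α = σ := by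
  have hp : ∀ x, σ x ≠ 0 ↔ x ≠ 0 := by
    intro x
    constructor
    · rintro h1 rfl
      exact h1 h
    · intro h1 h2
      exact h1 (σ.injective (h2.trans h.symm))
  refine ⟨f7.symm.permCongr (σ.subtypePerm hp), ?_⟩
  ext x
  by_cases hx : x = 0
  · subst hx
    rw [iota_zero, h]
  · obtain ⟨a, ha⟩ := f7.surjective ⟨x, hx⟩
    have hx' : x = f7 a := by rw [ha]
    rw [hx', iota_apply]
    have : f7 (f7.symm.permCongr (σ.subtypePerm hp) a) = (σ.subtypePerm hp) (f7 a) := by
      simp [Equiv.permCongr_apply]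
    rw [this]
    rfl

theorem sign_iota (α : Perm (Fin 7)) : Perm.sign (iota α) = Perm.sign α :=
  Perm.sign_extendDomain α f7

theorem cycleType_iota (α : Perm (Fin 7)) : (iota α).cycleType = α.cycleType :=
  Perm.cycleType_extendDomain f7

/-- A subgroup of `A₈` fixing a point and containing the seven-cycle and a three-cycle is `A₇`. -/
theorem fix_case (P : Subgroup (Perm (Fin 8))) (hc : cP ∈ P) (hev : ∀ σ ∈ P, Perm.sign σ = 1)
    (hfix : ∀ σ ∈ P, σ 0 = 0) {t : Perm (Fin 8)} (ht : t ∈ P) (h3 : t.IsThreeCycle) :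
    Nonempty (P ≃* alternatingGroup (Fin 7)) := by
  let I : Subgroup (Perm (Fin 7)) := P.comap iota
  -- the isomorphism `I ≃ P`
  let g : I →* P := (iota.comp I.subtype).codRestrict P (fun x => x.2)
  have hgb : Function.Bijective g := by
    constructor
    · intro a b hab
      apply Subtype.ext
      apply iota_injective
      exact congrArg Subtype.val hab
    · intro σ
      obtain ⟨α, hα⟩ := exists_iota (hfix σ σ.2)
      exact ⟨⟨α, by
        show iota α ∈ P
        rw [hα]
        exact σ.2⟩, Subtype.ext hα⟩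
  let e : I ≃* P := MulEquiv.ofBijective g hgb
  have ht' : IsPretransitive I (Fin 7) := by
    refine ⟨fun a b => ?_⟩
    obtain ⟨k, hk⟩ := cP_trans (f7 a) (f7 b) (f7 a).2 (f7 b).2
    have hmem : (cP ^ k) ∈ P := P.pow_mem hc k
    obtain ⟨α, hα⟩ := exists_iota (hfix _ hmem)
    refine ⟨⟨α, by
      show iota α ∈ P
      rw [hα]
      exact hmem⟩, ?_⟩
    apply f7.injective
    apply Subtype.ext
    show ((f7 (α a) : {x : Fin 8 // x ≠ 0}) : Fin 8) = f7 b
    rw [← iota_apply, hα]
    exact hk
  have hprim : IsPreprimitive I (Fin 7) := IsPreprimitive.of_prime_card (by simp; norm_num)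
  obtain ⟨τ, hτ⟩ := exists_iota (hfix t ht)
  have hτ3 : τ.IsThreeCycle := by
    unfold Perm.IsThreeCycle at h3 ⊢
    rw [← cycleType_iota, hτ, h3]
  have hτI : τ ∈ I := by
    show iota τ ∈ P
    rw [hτ]
    exact ht
  have hle : alternatingGroup (Fin 7) ≤ I :=
    Perm.alternatingGroup_le_of_isPreprimitive_of_isThreeCycle_mem hprim hτ3 hτI
  have hge : I ≤ alternatingGroup (Fin 7) := by
    intro α hα
    rw [Perm.mem_alternatingGroup, ← sign_iota]
    exact hev _ hα
  have heq : I = alternatingGroup (Fin 7) := le_antisymm hge hle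
  exact ⟨e.symm.trans (MulEquiv.subgroupCongr heq)⟩

/-- A subgroup of `A₈` moving `0` and containing the seven-cycle and a three-cycle is `A₈`. -/
theorem move_case (P : Subgroup (Perm (Fin 8))) (hc : cP ∈ P) {x : Perm (Fin 8)} (hx : x ∈ P) (hx0 : x 0 ≠ 0)
    {t : Perm (Fin 8)} (ht : t ∈ P) (h3 : t.IsThreeCycle) : alternatingGroup (Fin 8) ≤ P := by
  have htr : IsPretransitive P (Fin 8) := by
    rw [isPretransitive_iff_base (0 : Fin 8)]
    intro y
    by_cases hy : y = 0
    · exact ⟨1, by rw [hy]; rfl⟩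
    · obtain ⟨k, hk⟩ := cP_trans (x 0) y hx0 hy
      exact ⟨⟨cP ^ k * x, P.mul_mem (P.pow_mem hc k) hx⟩, hk⟩
  have hprim : IsPreprimitive P (Fin 8) := preprimitive_of_fix P hc rfl cP_trans
  exact Perm.alternatingGroup_le_of_isPreprimitive_of_isThreeCycle_mem hprim h3 ht

/-- **Subgroups of `A₈` containing the standard seven-cycle.** -/
theorem seven (P : Subgroup (Perm (Fin 8))) (hc : cP ∈ P) (hev : ∀ σ ∈ P, Perm.sign σ = 1)
    (hns : ¬ Group.IsSolvable P) (hO : ∀ N : Subgroup P, N.Normal → IsPGroup 2 N → N = ⊥) :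
    alternatingGroup (Fin 8) ≤ P ∨ Nonempty (P ≃* alternatingGroup (Fin 7)) ∨ Nonempty (P ≃* SL3) := by
  rcases trichotomy P hc hev with ⟨t, ht, h3⟩ | h1 | h2
  · by_cases hfix : ∀ σ ∈ P, σ 0 = 0
    · exact Or.inr (Or.inl (fix_case P hc hev hfix ht h3))
    · push Not at hfix
      obtain ⟨x, hx, hx0⟩ := hfix
      exact Or.inl (move_case P hc hx hx0 ht h3)
  · right; right
    exact lin_case (Subgroup.inclusion h1) (Subgroup.inclusion_injective h1) hns hO
  · right; right
    -- conjugate into `A1`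
    let f : P →* A1 :=
      { toFun := fun σ => ⟨tP⁻¹ * σ * tP, mem_conjSub.1 (h2 σ.2)⟩
        map_one' := by
          apply Subtype.ext
          simp
        map_mul' := by
          intro a b
          apply Subtype.ext
          simp [mul_assoc] }
    have hf : Function.Injective f := by
      intro a b hab
      have := congrArg Subtype.val hab
      apply Subtype.ext
      simpa [f, mul_assoc] using this
    exact lin_case f hf hns hO

end Cfsg.Agent.Lib.SubA8Seven
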