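import Mathlib
import Cfsg.Agent.Lib.SubA8Seven

/-!
# Nonsolvable subgroups of `A₈` without normal `2`-subgroups
-/

set_option autoImplicit false

namespace Cfsg.Agent.Lib.SubA8Class

open Equiv MulAction Cfsg.Agent.Lib.SubA8Code Cfsg.Agent.Lib.SubA8T5 Cfsg.Agent.Lib.SubA8Aff
  Cfsg.Agent.Lib.SubA8Lin Cfsg.Agent.Lib.SubA8Seven Cfsg.Agent.Lib.BurnsidePQ
open scoped Pointwise

theorem even_small (σ : Perm (Fin 8)) (hs : Perm.sign σ = 1) (h : σ.support.card ≤ 2) : σ = 1 := by
  have h1 := Perm.card_support_ne_one σ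
  have hcases : σ.support.card = 0 ∨ σ.support.card = 2 := by omega
  rcases hcases with h0 | h2
  · exact Perm.support_eq_empty_iff.1 (Finset.card_eq_zero.1 h0)
  · have := (Perm.card_support_eq_two.1 h2).sign_eq
    rw [hs] at this
    exact absurd this (by decide)

theorem even_three (σ : Perm (Fin 8)) (hs : Perm.sign σ = 1) (h : σ.support.card ≤ 3) :
    σ = 1 ∨ σ.IsThreeCycle := by
  by_cases h3 : σ.support.card = 3
  · exact Or.inr (card_support_eq_three_iff.1 h3)
  · exact Or.inl (even_small σ hs (by omega))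

/-- The action on an orbit. -/
theorem exists_res (P : Subgroup (Perm (Fin 8))) (a : Fin 8) {k : ℕ} (hk : Nat.card (orbit P a) = k) :
    ∃ φ : P →* Perm (Fin k), (∀ g : P, φ g = 1 ↔ ∀ y ∈ orbit P a, (g : Perm (Fin 8)) y = y) ∧
      IsPretransitive φ.range (Fin k) := by
  classical
  let e : orbit P a ≃ Fin k := Finite.equivFinOfCardEq hk
  let φ : P →* Perm (Fin k) := (Equiv.permCongrHom e).toMonoidHom.comp (MulAction.toPermHom P (orbit P a))
  refine ⟨φ, ?_, ?_⟩
  · intro g
    constructor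
    · intro h y hy
      have h1 : φ g (e ⟨y, hy⟩) = e ⟨y, hy⟩ := by rw [h]; rfl
      have h2 : e (g • (⟨y, hy⟩ : orbit P a)) = e ⟨y, hy⟩ := by
        simpa [φ] using h1
      have h3 := congrArg Subtype.val (e.injective h2)
      exact h3
    · intro h
      ext i
      have h1 : g • (e.symm i) = e.symm i := by
        apply Subtype.ext
        exact h _ (e.symm i).2
      show (φ g i).val = i.val
      have h2 : φ g i = e (g • (e.symm i)) := rfl
      rw [h2, h1]
      simp
  · refine ⟨fun i j => ?_⟩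
    obtain ⟨g, hg⟩ := exists_smul_eq P (e.symm i) (e.symm j)
    refine ⟨⟨φ g, ⟨g, rfl⟩⟩, ?_⟩
    have h2 : φ g i = e (g • (e.symm i)) := rfl
    show φ g i = j
    rw [h2, hg]
    simp

theorem support_card_le (P : Subgroup (Perm (Fin 8))) (a : Fin 8) {k : ℕ} (hk : Nat.card (orbit P a) = k)
    (σ : Perm (Fin 8)) (h : ∀ y ∈ orbit P a, σ y = y) : σ.support.card + k ≤ 8 := by
  classical
  have h1 : (σ.support : Set (Fin 8)) ⊆ (orbit P a)ᶜ := by
    intro y hy hyO
    exact (Perm.mem_support.1 hy) (h y hyO)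
  have h2 := Set.ncard_le_ncard h1 (Set.toFinite _)
  rw [Set.ncard_coe_finset] at h2
  have h3 := Set.ncard_add_ncard_compl (orbit P a)
  have h4 : (orbit P a).ncard = k := by
    rw [← hk]; rfl
  have h5 : Nat.card (Fin 8) = 8 := by simp
  omega

/-- Orders. -/
theorem card_dvd (P : Subgroup (Perm (Fin 8))) : Nat.card P ∣ 2 ^ 7 * (3 ^ 2 * (5 * 7)) := by
  have h := Subgroup.card_subgroup_dvd_card P
  have h2 : Nat.card (Perm (Fin 8)) = 2 ^ 7 * (3 ^ 2 * (5 * 7)) := by
    rw [Nat.card_eq_fintype_card, Fintype.card_perm]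
    rfl
  rwa [h2] at h

theorem five_or_seven (P : Subgroup (Perm (Fin 8))) (hns : ¬ Group.IsSolvable P) :
    7 ∣ Nat.card P ∨ 5 ∣ Nat.card P := by
  by_contra hcon
  push Not at hcon
  obtain ⟨h7, h5⟩ := hcon
  apply hns
  have hd := card_dvd P
  have hc7 : Nat.Coprime (Nat.card P) 7 := ((Nat.Prime.coprime_iff_not_dvd (by norm_num)).2 h7).symm
  have hc5 : Nat.Coprime (Nat.card P) 5 := ((Nat.Prime.coprime_iff_not_dvd (by norm_num)).2 h5).symm
  have h1 : Nat.card P ∣ 2 ^ 7 * (3 ^ 2 * (7 * 5)) := by simpa [mul_comm, mul_assoc, mul_left_comm] using hd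
  have h2 : Nat.card P ∣ 2 ^ 7 * (3 ^ 2 * 7) :=
    hc5.dvd_of_dvd_mul_right (by simpa [mul_assoc] using h1)
  have h3 : Nat.card P ∣ 2 ^ 7 * 3 ^ 2 :=
    hc7.dvd_of_dvd_mul_right (by simpa [mul_assoc] using h2)
  obtain ⟨a, b, hab⟩ := exists_pow_mul_pow_of_dvd Nat.prime_two Nat.prime_three h3
  exact isSolvable_of_card_eq 2 3 Nat.prime_two Nat.prime_three _ P rfl ⟨a, b, hab⟩

/-- Elements of order seven. -/
theorem cycleType_seven (σ : Perm (Fin 8)) (ho : orderOf σ = 7) : σ.cycleType = {7} := by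
  have hp : (orderOf σ).Prime := by rw [ho]; norm_num
  obtain ⟨k, hk⟩ := Perm.cycleType_prime_order hp
  rw [ho] at hk
  have hs := Perm.sum_cycleType σ
  rw [hk, Multiset.sum_replicate, smul_eq_mul] at hs
  have hle : σ.support.card ≤ 8 := by
    simpa using Finset.card_le_univ σ.support
  have hk0 : k = 0 := by omega
  subst hk0
  rw [hk]
  rfl

theorem orderOf_cP : orderOf cP = 7 := by
  rw [orderOf_eq_iff (by norm_num)]
  decide +kernel

theorem hO_of_equiv {A B : Type*} [Group A] [Group B] (e : A ≃* B)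
    (hO : ∀ N : Subgroup A, N.Normal → IsPGroup 2 N → N = ⊥) :
    ∀ N : Subgroup B, N.Normal → IsPGroup 2 N → N = ⊥ := by
  intro N hN hp
  have h1 : (N.comap e.toMonoidHom).Normal := hN.comap _
  have h2 : IsPGroup 2 (N.comap e.toMonoidHom) := by
    intro g
    obtain ⟨k, hk⟩ := hp ⟨e g, g.2⟩
    refine ⟨k, ?_⟩
    apply Subtype.ext
    show (g : A) ^ 2 ^ k = 1
    apply e.injective
    rw [map_pow, map_one]
    exact congrArg Subtype.val hk
  have h3 := hO _ h1 h2
  rw [eq_bot_iff]
  intro x hx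
  have h4 : e.symm x ∈ N.comap e.toMonoidHom := by
    show e (e.symm x) ∈ N
    simpa using hx
  rw [h3, Subgroup.mem_bot] at h4
  rw [Subgroup.mem_bot]
  simpa using congrArg e h4

/-- Case of order divisible by seven. -/
theorem case_seven (P : Subgroup (Perm (Fin 8))) (hev : ∀ σ ∈ P, Perm.sign σ = 1)
    (hns : ¬ Group.IsSolvable P) (hO : ∀ N : Subgroup P, N.Normal → IsPGroup 2 N → N = ⊥) (h7 : 7 ∣ Nat.card P) :
    alternatingGroup (Fin 8) ≤ P ∨ Nonempty (P ≃* alternatingGroup (Fin 7)) ∨ Nonempty (P ≃* SL3) := by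
  have : Fact (Nat.Prime 7) := ⟨by norm_num⟩
  obtain ⟨x, hx⟩ := exists_prime_orderOf_dvd_card' (G := P) 7 h7
  have hx' : orderOf (x : Perm (Fin 8)) = 7 := by
    rw [Subgroup.orderOf_coe]; exact hx
  have hconj : IsConj (x : Perm (Fin 8)) cP := by
    rw [Perm.isConj_iff_cycleType_eq, cycleType_seven _ hx', cycleType_seven _ orderOf_cP]
  obtain ⟨τ, hτ⟩ := isConj_iff.1 hconj
  have hc : cP ∈ conjSub τ P := by
    rw [mem_conjSub, ← hτ]
    simpa [mul_assoc] using x.2
  have hev' : ∀ σ ∈ conjSub τ P, Perm.sign σ = 1 := by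
    intro σ hσ
    have := hev _ (mem_conjSub.1 hσ)
    rw [map_mul, map_mul, map_inv, mul_comm _ (Perm.sign σ), mul_assoc, inv_mul_cancel, mul_one] at this
    exact this
  rcases seven (conjSub τ P) hc hev' (not_solvable_of_equiv (conjSubEquiv τ P) hns)
    (hO_of_equiv (conjSubEquiv τ P) hO) with h | ⟨⟨f⟩⟩ | ⟨⟨f⟩⟩
  · left
    intro σ hσ
    have h1 : τ * σ * τ⁻¹ ∈ alternatingGroup (Fin 8) := by
      rw [Perm.mem_alternatingGroup] at hσ ⊢
      simp [hσ]
    have h2 := mem_conjSub.1 (h h1)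
    simpa [mul_assoc] using h2
  · exact Or.inr (Or.inl ⟨(conjSubEquiv τ P).trans f⟩)
  · exact Or.inr (Or.inr ⟨(conjSubEquiv τ P).trans f⟩)

/-- The data of an element of order five. -/
theorem five_data (σ : Perm (Fin 8)) (ho : orderOf σ = 5) : σ.IsCycle ∧ σ.support.card = 5 := by
  have hct := cycleType_five (by norm_num) σ ho
  constructor
  · rw [← Perm.card_cycleType_eq_one, hct]; rfl
  · rw [← Perm.sum_cycleType, hct]; rfl

/-- Transitive with an element of order five: the order is divisible by seven. -/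
theorem seven_of_transitive (P : Subgroup (Perm (Fin 8))) (ht : IsPretransitive P (Fin 8)) {x : Perm (Fin 8)}
    (hx : x ∈ P) (ho : orderOf x = 5) : 7 ∣ Nat.card P := by
  classical
  obtain ⟨hcyc, hcard⟩ := five_data x ho
  obtain ⟨a, ha⟩ : ∃ a, x a ≠ a := by
    obtain ⟨a, ha, _⟩ := hcyc
    exact ⟨a, ha⟩
  have hprim : IsPreprimitive P (Fin 8) := by
    refine IsPreprimitive.of_isTrivialBlock_base a ?_
    intro B haB hB
    by_cases hs : B.Subsingleton
    · exact Or.inl hs
    right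
    obtain ⟨b, hbB, hba⟩ : ∃ b ∈ B, b ≠ a := by
      by_contra hcon
      push Not at hcon
      apply hs
      intro u hu v hv
      rw [hcon u hu, hcon v hv]
    have hxB : (⟨x, hx⟩ : P) • B = B := by
      by_cases hbx : x b = b
      · apply hB.smul_eq_of_mem hbB
        show x b ∈ B
        rwa [hbx]
      · obtain ⟨k, hk⟩ := hcyc.exists_pow_eq ha hbx
        have hkB : (⟨x, hx⟩ : P) ^ k • B = B := by
          apply hB.smul_eq_of_mem haB
          show ((x ^ k) a) ∈ B
          rw [hk]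
          exact hbB
        have hk5 : k % 5 ≠ 0 := by
          intro h0
          apply hba
          rw [← hk]
          have : x ^ k = 1 := by
            rw [← ho] at h0
            exact orderOf_dvd_iff_pow_eq_one.1 (Nat.dvd_of_mod_eq_zero h0)
          rw [this]
          rfl
        obtain ⟨m, hm⟩ : ∃ m, (k * m) % 5 = 1 := by
          have hlt : k % 5 < 5 := Nat.mod_lt _ (by norm_num)
          have hz : ∀ m, (k * m) % 5 = ((k % 5) * m) % 5 := fun m =>
            (Nat.ModEq.mul_right m (Nat.mod_modEq k 5)).symm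
          generalize k % 5 = r at *
          interval_cases r
          · exact absurd rfl hk5
          · exact ⟨1, by rw [hz]⟩
          · exact ⟨3, by rw [hz]⟩
          · exact ⟨2, by rw [hz]⟩
          · exact ⟨4, by rw [hz]⟩
        have hpow : ((⟨x, hx⟩ : P) ^ k) ^ m = ⟨x, hx⟩ := by
          apply Subtype.ext
          show (x ^ k) ^ m = x
          rw [← pow_mul, ← pow_mod_orderOf, ho, hm, pow_one]
        have hgen : ∀ n : ℕ, ((⟨x, hx⟩ : P) ^ k) ^ n • B = B := by
          intro n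
          induction n with
          | zero => simp
          | succ n ih => rw [pow_succ, mul_smul, hkB, ih]
        have := hgen m
        rwa [hpow] at this
    have hpowB : ∀ n : ℕ, (⟨x, hx⟩ : P) ^ n • B = B := by
      intro n
      induction n with
      | zero => simp
      | succ n ih => rw [pow_succ, mul_smul, hxB, ih]
    have hsup : (x.support : Set (Fin 8)) ⊆ B := by
      intro y hy
      have hy' : x y ≠ y := Perm.mem_support.1 hy
      obtain ⟨k, hk⟩ := hcyc.exists_pow_eq ha hy'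
      rw [← hpowB k]
      rw [← hk]
      exact Set.smul_mem_smul_set (a := (⟨x, hx⟩ : P) ^ k) haB
    have h5 : 5 ≤ B.ncard := by
      have := Set.ncard_le_ncard hsup (Set.toFinite _)
      rwa [Set.ncard_coe_finset, hcard] at this
    apply hB.eq_univ_of_card_lt
    simp only [Nat.card_eq_fintype_card, Fintype.card_fin]
    omega
  have hscard : ((x.support : Set (Fin 8))ᶜ).ncard = 2 + 1 := by
    have h1 := Set.ncard_add_ncard_compl (x.support : Set (Fin 8))
    rw [Set.ncard_coe_finset, hcard] at h1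
    simp only [Nat.card_eq_fintype_card, Fintype.card_fin] at h1
    omega
  have h2t := hprim.is_two_pretransitive hscard (by simp) (Perm.isPretransitive_of_isCycle_mem hcyc hx)
  have : IsPretransitive P (Fin 2 ↪ Fin 8) := h2t
  obtain ⟨e⟩ : Nonempty (Fin 2 ↪ Fin 8) := ⟨⟨fun i => ⟨i.val, by omega⟩, fun i j h => by
    apply Fin.ext
    simpa using h⟩⟩
  have hidx : (stabilizer P e).index = Nat.card (Fin 2 ↪ Fin 8) :=
    @index_stabilizer_of_transitive P (Fin 2 ↪ Fin 8) _ _ e h2t
  have hcard2 : Nat.card (Fin 2 ↪ Fin 8) = 56 := by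
    rw [Nat.card_eq_fintype_card, Fintype.card_embedding_eq]
    simp [Nat.descFactorial]
  have hdvd : (stabilizer P e).index ∣ Nat.card P := Subgroup.index_dvd_card _
  rw [hidx, hcard2] at hdvd
  exact Dvd.dvd.trans (by norm_num) hdvd

/-- Support bound for an arbitrary fixed set. -/
theorem support_card_le' (S : Set (Fin 8)) (σ : Perm (Fin 8)) (h : ∀ y ∈ S, σ y = y) :
    σ.support.card + S.ncard ≤ 8 := by
  classical
  have h1 : (σ.support : Set (Fin 8)) ⊆ Sᶜ := by
    intro y hy hyO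
    exact (Perm.mem_support.1 hy) (h y hyO)
  have h2 := Set.ncard_le_ncard h1 (Set.toFinite _)
  rw [Set.ncard_coe_finset] at h2
  have h3 := Set.ncard_add_ncard_compl S
  have h5 : Nat.card (Fin 8) = 8 := by simp
  omega

/-- The orbit has size five. -/
theorem orbit_five (P : Subgroup (Perm (Fin 8))) (hev : ∀ σ ∈ P, Perm.sign σ = 1)
    (hns : ¬ Group.IsSolvable P) (a : Fin 8) (hk : Nat.card (orbit P a) = 5) :
    Nonempty (P ≃* alternatingGroup (Fin 5)) ∨ Nonempty (P ≃* Perm (Fin 5)) ∨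
      ∃ φ : P →* Perm (Fin 5), Nat.card φ.ker = 3 ∧ alternatingGroup (Fin 5) ≤ φ.range := by
  classical
  obtain ⟨φ, hφ, htr⟩ := exists_res P a hk
  set O := orbit P a with hO
  have hOn : O.ncard = 5 := hk
  -- elements of the kernel
  have hK : ∀ g : P, φ g = 1 → (g : Perm (Fin 8)) = 1 ∨ (g : Perm (Fin 8)).IsThreeCycle := by
    intro g hg
    apply even_three _ (hev _ g.2)
    have := support_card_le' O g ((hφ g).1 hg)
    omega
  -- a point outside the orbit
  obtain ⟨c₀, hc₀⟩ : ∃ c₀, c₀ ∉ O := by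
    by_contra hcon
    push Not at hcon
    have : O = Set.univ := Set.eq_univ_of_forall hcon
    rw [this, Set.ncard_univ] at hOn
    simp at hOn
  have hcompl : (Oᶜ : Set (Fin 8)).ncard = 3 := by
    have h3 := Set.ncard_add_ncard_compl O
    have h5 : Nat.card (Fin 8) = 8 := by simp
    omega
  -- the order of the kernel
  have hle : Nat.card φ.ker ≤ 3 := by
    have hmap : ∀ g : φ.ker, ((g : P) : Perm (Fin 8)) c₀ ∈ (Oᶜ : Set (Fin 8)) := by
      intro g hmem
      have h1 := (hφ _).1 g.2 _ hmem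
      have h2 := ((g : P) : Perm (Fin 8)).injective h1
      rw [h2] at hmem
      exact hc₀ hmem
    let m : φ.ker → (Oᶜ : Set (Fin 8)) := fun g => ⟨_, hmap g⟩
    have hm : Function.Injective m := by
      intro g h hgh
      have h1 : ((g : P) : Perm (Fin 8)) c₀ = ((h : P) : Perm (Fin 8)) c₀ := congrArg Subtype.val hgh
      let ρ : P := (h : P)⁻¹ * (g : P)
      have hρ1 : φ ρ = 1 := by
        have h2 : φ (g : P) = 1 := g.2
        have h3 : φ (h : P) = 1 := h.2
        simp [ρ, h2, h3]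
      have hρfix : ∀ y ∈ insert c₀ O, (ρ : Perm (Fin 8)) y = y := by
        intro y hy
        rcases hy with rfl | hy
        · show ((h : P) : Perm (Fin 8))⁻¹ (((g : P) : Perm (Fin 8)) y) = y
          rw [h1]
          simp
        · exact (hφ ρ).1 hρ1 y hy
      have hcard := support_card_le' _ _ hρfix
      rw [Set.ncard_insert_of_notMem hc₀, hOn] at hcard
      have hone := even_small _ (hev _ ρ.2) (by omega)
      have hρ : ρ = 1 := Subtype.ext hone
      apply Subtype.ext
      have : (h : P) = (g : P) := by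
        have h4 : (h : P)⁻¹ * (g : P) = 1 := hρ
        exact (inv_mul_eq_one.1 h4)
      exact this.symm
    have := Nat.card_le_card_of_injective m hm
    have hn : Nat.card (Oᶜ : Set (Fin 8)) = 3 := hcompl
    omega
  have hne2 : Nat.card φ.ker ≠ 2 := by
    intro h2
    have : Fact (Nat.Prime 2) := ⟨Nat.prime_two⟩
    obtain ⟨g, hg⟩ := exists_prime_orderOf_dvd_card' (G := φ.ker) 2 (by rw [h2])
    have hg1 : orderOf (((g : P) : Perm (Fin 8))) = 2 := by
      rw [Subgroup.orderOf_coe, Subgroup.orderOf_coe]; exact hg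
    rcases hK g g.2 with h | h
    · rw [h] at hg1
      simp at hg1
    · rw [h.orderOf] at hg1
      omega
  have hpos : 0 < Nat.card φ.ker := Nat.card_pos
  have hcases : Nat.card φ.ker = 1 ∨ Nat.card φ.ker = 3 := by omega
  have hsK : Group.IsSolvable φ.ker := by
    rcases hcases with h | h
    · exact isSolvable_of_card_eq 2 3 Nat.prime_two Nat.prime_three _ _ rfl ⟨0, 0, by rw [h]; norm_num⟩
    · exact isSolvable_of_card_eq 2 3 Nat.prime_two Nat.prime_three _ _ rfl ⟨0, 1, by rw [h]; norm_num⟩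
  have hns' : ¬ Group.IsSolvable φ.range := by
    intro hs
    apply hns
    exact Group.isSolvable_of_ker_le_range φ.ker.subtype φ.rangeRestrict (by
      rw [MonoidHom.ker_rangeRestrict, Subgroup.range_subtype])
  have hle5 := alt_le_of_five _ htr hns'
  rcases hcases with h | h
  · have hker : φ.ker = ⊥ := Subgroup.eq_bot_of_card_eq _ h
    have hinj : Function.Injective φ := (MonoidHom.ker_eq_bot_iff φ).1 hker
    let e : P ≃* φ.range := MonoidHom.ofInjective hinj
    rcases iso_of_five _ hle5 with ⟨⟨f⟩⟩ | ⟨⟨f⟩⟩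
    · exact Or.inl ⟨e.trans f⟩
    · exact Or.inr (Or.inl ⟨e.trans f⟩)
  · exact Or.inr (Or.inr ⟨φ, h, hle5⟩)

/-- The orbit has size six. -/
theorem orbit_six (P : Subgroup (Perm (Fin 8))) (hev : ∀ σ ∈ P, Perm.sign σ = 1)
    (hns : ¬ Group.IsSolvable P) (a : Fin 8) (hk : Nat.card (orbit P a) = 6) {x : Perm (Fin 8)} (hx : x ∈ P)
    (ho : orderOf x = 5) :
    (∃ φ : P →* Perm (Fin 6), Function.Injective φ ∧ alternatingGroup (Fin 6) ≤ φ.range) ∨
      Nonempty (P ≃* alternatingGroup (Fin 5)) ∨ Nonempty (P ≃* Perm (Fin 5)) := by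
  obtain ⟨φ, hφ, htr⟩ := exists_res P a hk
  have hinj : Function.Injective φ := by
    rw [injective_iff_map_eq_one]
    intro g hg
    apply Subtype.ext
    apply even_small _ (hev _ g.2)
    have := support_card_le P a hk _ ((hφ g).1 hg)
    omega
  let e : P ≃* φ.range := MonoidHom.ofInjective hinj
  have hns' := not_solvable_of_equiv e hns
  have ho' : orderOf (φ ⟨x, hx⟩) = 5 := by
    rw [orderOf_injective φ hinj, Subgroup.orderOf_mk, ho]
  rcases t6 _ htr hns' (x := φ ⟨x, hx⟩) ⟨_, rfl⟩ ho' with h | ⟨⟨f⟩⟩ | ⟨⟨f⟩⟩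
  · exact Or.inl ⟨φ, hinj, h⟩
  · exact Or.inr (Or.inl ⟨e.trans f⟩)
  · exact Or.inr (Or.inr ⟨e.trans f⟩)

/-- **Nonsolvable subgroups of `A₈` without normal `2`-subgroups.** -/
theorem classify (P : Subgroup (Perm (Fin 8))) (hev : ∀ σ ∈ P, Perm.sign σ = 1)
    (hns : ¬ Group.IsSolvable P) (hO : ∀ N : Subgroup P, N.Normal → IsPGroup 2 N → N = ⊥) :
    alternatingGroup (Fin 8) ≤ P ∨ Nonempty (P ≃* alternatingGroup (Fin 7)) ∨ Nonempty (P ≃* SL3) ∨
      (∃ a : Fin 8, Nat.card (orbit P a) = 6 ∧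
        ∃ φ : P →* Perm (Fin 6), Function.Injective φ ∧ alternatingGroup (Fin 6) ≤ φ.range) ∨
      Nonempty (P ≃* alternatingGroup (Fin 5)) ∨ Nonempty (P ≃* Perm (Fin 5)) ∨
      ∃ φ : P →* Perm (Fin 5), Nat.card φ.ker = 3 ∧ alternatingGroup (Fin 5) ≤ φ.range := by
  by_cases h7 : 7 ∣ Nat.card P
  · rcases case_seven P hev hns hO h7 with h | h | h
    · exact Or.inl h
    · exact Or.inr (Or.inl h)
    · exact Or.inr (Or.inr (Or.inl h))
  have h5 : 5 ∣ Nat.card P := (five_or_seven P hns).resolve_left h7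
  right; right; right
  have : Fact (Nat.Prime 5) := ⟨by norm_num⟩
  obtain ⟨x₀, hx₀⟩ := exists_prime_orderOf_dvd_card' (G := P) 5 h5
  have ho : orderOf (x₀ : Perm (Fin 8)) = 5 := by
    rw [Subgroup.orderOf_coe]; exact hx₀
  obtain ⟨hcyc, hcard⟩ := five_data _ ho
  obtain ⟨a, ha, -⟩ := id hcyc
  have hsub : (((x₀ : Perm (Fin 8)).support : Finset (Fin 8)) : Set (Fin 8)) ⊆ orbit P a := by
    intro y hy
    have hy' := Perm.mem_support.1 hy
    obtain ⟨k, hk⟩ := hcyc.exists_pow_eq ha hy'
    exact ⟨x₀ ^ k, hk⟩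
  have hge : 5 ≤ (orbit P a).ncard := by
    have := Set.ncard_le_ncard hsub (Set.toFinite _)
    rwa [Set.ncard_coe_finset, hcard] at this
  have hle : (orbit P a).ncard ≤ 8 := by
    have := Set.ncard_le_card (orbit P a)
    simpa using this
  have hncard : Nat.card (orbit P a) = (orbit P a).ncard := rfl
  have hdvd : (orbit P a).ncard ∣ Nat.card P := by
    rw [← index_stabilizer]
    exact Subgroup.index_dvd_card _
  have hcases : (orbit P a).ncard = 5 ∨ (orbit P a).ncard = 6 ∨ (orbit P a).ncard = 7 ∨ (orbit P a).ncard = 8 := by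
    omega
  rcases hcases with h | h | h | h
  · rcases orbit_five P hev hns a (hncard.trans h) with h1 | h1 | h1
    · exact Or.inr (Or.inl h1)
    · exact Or.inr (Or.inr (Or.inl h1))
    · exact Or.inr (Or.inr (Or.inr h1))
  · rcases orbit_six P hev hns a (hncard.trans h) x₀.2 ho with h1 | h1 | h1
    · exact Or.inl ⟨a, hncard.trans h, h1⟩
    · exact Or.inr (Or.inl h1)
    · exact Or.inr (Or.inr (Or.inl h1))
  · exact absurd (h ▸ hdvd) h7
  · exfalso
    apply h7
    have huniv : orbit P a = Set.univ := by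
      rw [Set.eq_univ_iff_ncard, h]
      simp
    have htr : IsPretransitive P (Fin 8) := by
      rw [isPretransitive_iff_base a]
      intro y
      have hy : y ∈ orbit P a := by rw [huniv]; trivial
      exact hy
    exact seven_of_transitive P htr x₀.2 ho

end Cfsg.Agent.Lib.SubA8Class
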