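import Mathlib
import Cfsg.Agent.Lib.SectRank

/-!
# A section of rank five

An abstract form of the argument: an elementary abelian section of rank four with three commuting "transvections"
having centres in an isotropic plane gives a section of rank five.
-/

set_option autoImplicit false

namespace Cfsg.Agent.Lib.SubA8Rank

open Cfsg.Agent.Lib.SectRank

variable {X : Type*} [Group X]

/-- A group generated by commuting involutions modulo a normal subgroup has exponent two modulo it. -/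
theorem sq_of_gens (N : Subgroup X) (S : Set X)
    (hnorm : ∀ g ∈ Subgroup.closure S, ∀ n ∈ N, g * n * g⁻¹ ∈ N)
    (h1 : ∀ s ∈ S, s ^ 2 ∈ N) (h2 : ∀ s ∈ S, ∀ t ∈ S, s * t * s⁻¹ * t⁻¹ ∈ N) :
    ∀ h ∈ Subgroup.closure S, h ^ 2 ∈ N := by
  have step1 : ∀ s ∈ S, ∀ k ∈ Subgroup.closure S, s * k * s⁻¹ * k⁻¹ ∈ N := by
    intro s hs k hk
    induction hk using Subgroup.closure_induction with
    | mem k hk => exact h2 s hs k hk
    | one => simp [N.one_mem]
    | mul a b ha hb iha ihb =>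
      have e : s * (a * b) * s⁻¹ * (a * b)⁻¹ = (s * a * s⁻¹ * a⁻¹) * (a * (s * b * s⁻¹ * b⁻¹) * a⁻¹) := by group
      rw [e]
      exact N.mul_mem iha (hnorm a ha _ ihb)
    | inv a ha iha =>
      have e : s * a⁻¹ * s⁻¹ * a⁻¹⁻¹ = a⁻¹ * (s * a * s⁻¹ * a⁻¹)⁻¹ * a⁻¹⁻¹ := by group
      rw [e]
      exact hnorm _ (Subgroup.inv_mem _ ha) _ (N.inv_mem iha)
  have step2 : ∀ h ∈ Subgroup.closure S, ∀ k ∈ Subgroup.closure S, h * k * h⁻¹ * k⁻¹ ∈ N := by
    intro h hh k hk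
    induction hh using Subgroup.closure_induction with
    | mem s hs => exact step1 s hs k hk
    | one => simp [N.one_mem]
    | mul a b ha hb iha ihb =>
      have e : (a * b) * k * (a * b)⁻¹ * k⁻¹ = (a * (b * k * b⁻¹ * k⁻¹) * a⁻¹) * (a * k * a⁻¹ * k⁻¹) := by group
      rw [e]
      exact N.mul_mem (hnorm a ha _ ihb) iha
    | inv a ha iha =>
      have e : a⁻¹ * k * a⁻¹⁻¹ * k⁻¹ = a⁻¹ * (a * k * a⁻¹ * k⁻¹)⁻¹ * a⁻¹⁻¹ := by group
      rw [e]
      exact hnorm _ (Subgroup.inv_mem _ ha) _ (N.inv_mem iha)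
  intro h hh
  induction hh using Subgroup.closure_induction with
  | mem s hs => exact h1 s hs
  | one => simp [N.one_mem]
  | mul a b ha hb iha ihb =>
    have e : (a * b) ^ 2 = a ^ 2 * (a⁻¹ * b * a⁻¹⁻¹ * b⁻¹) * b ^ 2 := by
      simp only [pow_two]
      group
    rw [e]
    exact N.mul_mem (N.mul_mem iha (step2 _ (Subgroup.inv_mem _ ha) b hb)) ihb
  | inv a ha iha =>
    have e : (a⁻¹) ^ 2 = (a ^ 2)⁻¹ := by group
    rw [e]
    exact N.inv_mem iha

abbrev V4 := Fin 4 → ZMod 2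

theorem v4_add_self (y : V4) : y + y = 0 := by
  funext i
  exact CharTwo.add_self_eq_zero (y i)

theorem coeff_zero {a b : ZMod 2} {p q : V4} (hp : p ≠ 0) (hq : q ≠ 0) (hpq : p ≠ q) (h : a • p = b • q) :
    a = 0 ∧ b = 0 := by
  have h01 : ∀ c : ZMod 2, c = 0 ∨ c = 1 := by decide
  rcases h01 a with rfl | rfl <;> rcases h01 b with rfl | rfl
  · exact ⟨rfl, rfl⟩
  · simp at h
    exact absurd h.symm hq
  · simp at h
    exact absurd h hp
  · simp at h
    exact absurd h hpq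

/-- **The section of rank five.** -/
theorem rank5 {G' : Type*} [Group G'] [Finite X] {V : Subgroup X} [hV : V.Normal] (ρ : X →* G') (hρ : ρ.ker = V)
    (π : V → V4) (hπ : ∀ a b, π (a * b) = π a + π b) (hπs : Function.Surjective π)
    (β : V4 → V4 → ZMod 2) (v : Fin 3 → V4) (x : Fin 3 → X) (W : Set V4) (hW4 : W.ncard ≤ 4)
    (hWadd : ∀ a ∈ W, ∀ b ∈ W, a + b ∈ W) (hW0 : (0 : V4) ∈ W)
    (hact : ∀ i (q : V), π ⟨x i * q * (x i)⁻¹, hV.conj_mem _ q.2 _⟩ = π q + β (π q) (v i) • v i)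
    (hρc : ∀ i j, ρ (x i) * ρ (x j) = ρ (x j) * ρ (x i)) (hρs : ∀ i, ρ (x i) ^ 2 = 1)
    (hvW : ∀ i, v i ∈ W)
    (hv0 : ∀ i, v i ≠ 0) (hvne : ∀ i j, i ≠ j → v i ≠ v j)
    (hperp : ∀ i j, i ≠ j → ∀ y, β y (v i) = 0 → β y (v j) = 0 → y ∈ W)
    (h8 : 8 ≤ Nat.card ((Subgroup.closure ((V : Set X) ∪ Set.range x)).map ρ))
    (hB : SqBound 4 X) : False := by
  classical
  have hVk : ∀ g, ρ g = 1 → g ∈ V := fun g hg => hρ ▸ hg
  have hkV : ∀ g, g ∈ V → ρ g = 1 := fun g hg => by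
    have : g ∈ ρ.ker := hρ ▸ hg
    exact this
  have hπ1 : π 1 = 0 := by
    have := hπ 1 1
    rw [mul_one] at this
    have h2 : π 1 + π 1 = 0 := v4_add_self _
    rw [← this] at h2
    exact h2
  have hπinv : ∀ a, π a⁻¹ = π a := by
    intro a
    have h1 := hπ a a⁻¹
    rw [mul_inv_cancel, hπ1] at h1
    have h2 := v4_add_self (π a)
    have h3 : π a + π a⁻¹ = π a + π a := by rw [← h1, h2]
    exact add_left_cancel h3
  have hsW : ∀ (b : ZMod 2) i, b • v i ∈ W := by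
    intro b i
    have h01 : ∀ c : ZMod 2, c = 0 ∨ c = 1 := by decide
    rcases h01 b with rfl | rfl
    · simpa using hW0
    · simpa using hvW i
  -- the subgroup `N`
  let N : Subgroup X :=
    { carrier := {g | ∃ h : g ∈ V, π ⟨g, h⟩ ∈ W}
      mul_mem' := by
        rintro a b ⟨ha, ha'⟩ ⟨hb, hb'⟩
        refine ⟨V.mul_mem ha hb, ?_⟩
        have := hπ ⟨a, ha⟩ ⟨b, hb⟩
        have h2 : π ⟨a * b, V.mul_mem ha hb⟩ = π ⟨a, ha⟩ + π ⟨b, hb⟩ := this
        rw [h2]
        exact hWadd _ ha' _ hb'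
      one_mem' := by
        refine ⟨V.one_mem, ?_⟩
        have : π ⟨1, V.one_mem⟩ = π 1 := rfl
        rw [this, hπ1]
        exact hW0
      inv_mem' := by
        rintro a ⟨ha, ha'⟩
        refine ⟨V.inv_mem ha, ?_⟩
        have := hπinv ⟨a, ha⟩
        have h2 : π ⟨a⁻¹, V.inv_mem ha⟩ = π ⟨a, ha⟩ := this
        rw [h2]
        exact ha' }
  have hNmem : ∀ g, g ∈ N ↔ ∃ h : g ∈ V, π ⟨g, h⟩ ∈ W := fun g => Iff.rfl
  have hNV : N ≤ V := fun g hg => hg.1
  let S : Set X := (V : Set X) ∪ Set.range x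
  let H : Subgroup X := Subgroup.closure S
  have hVH : V ≤ H := fun g hg => Subgroup.subset_closure (Or.inl hg)
  have hxH : ∀ i, x i ∈ H := fun i => Subgroup.subset_closure (Or.inr ⟨i, rfl⟩)
  -- conjugation by elements of `V`
  have hconjV : ∀ (u : V) (q : V), π ⟨u * q * (u : X)⁻¹, hV.conj_mem _ q.2 _⟩ = π q := by
    intro u q
    have h1 : (⟨u * q * (u : X)⁻¹, hV.conj_mem _ q.2 _⟩ : V) = u * q * u⁻¹ := rfl
    rw [h1, hπ, hπ, hπinv]
    have : π u + π q + π u = π q + (π u + π u) := by abel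
    rw [this, v4_add_self, add_zero]
  -- `N` is normalized
  have hnormS : ∀ s ∈ S, s ∈ Subgroup.normalizer (N : Set X) := by
    rintro s (hs | ⟨i, rfl⟩)
    · rw [Subgroup.mem_normalizer_iff]
      intro n
      constructor
      · rintro ⟨hn, hn'⟩
        refine ⟨hV.conj_mem _ hn _, ?_⟩
        have := hconjV ⟨s, hs⟩ ⟨n, hn⟩
        rw [show π ⟨s * n * s⁻¹, hV.conj_mem _ hn _⟩ = π ⟨n, hn⟩ from this]
        exact hn'
      · rintro ⟨hn, hn'⟩
        have hnV : n ∈ V := by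
          have := hV.conj_mem _ hn s⁻¹
          simpa [mul_assoc] using this
        refine ⟨hnV, ?_⟩
        have := hconjV ⟨s, hs⟩ ⟨n, hnV⟩
        rw [show π ⟨s * n * s⁻¹, hn⟩ = π ⟨n, hnV⟩ from this] at hn'
        exact hn'
    · rw [Subgroup.mem_normalizer_iff]
      intro n
      constructor
      · rintro ⟨hn, hn'⟩
        refine ⟨hV.conj_mem _ hn _, ?_⟩
        have := hact i ⟨n, hn⟩
        rw [show π ⟨x i * n * (x i)⁻¹, hV.conj_mem _ hn _⟩ = _ from this]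
        exact hWadd _ hn' _ (hsW _ i)
      · rintro ⟨hn, hn'⟩
        have hnV : n ∈ V := by
          have := hV.conj_mem _ hn (x i)⁻¹
          simpa [mul_assoc] using this
        refine ⟨hnV, ?_⟩
        have := hact i ⟨n, hnV⟩
        rw [show π ⟨x i * n * (x i)⁻¹, hn⟩ = _ from this] at hn'
        have h3 := hWadd _ hn' _ (hsW (β (π ⟨n, hnV⟩) (v i)) i)
        rw [add_assoc, v4_add_self, add_zero] at h3
        exact h3
  have hnorm : ∀ g ∈ Subgroup.closure S, ∀ n ∈ N, g * n * g⁻¹ ∈ N := by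
    intro g hg n hn
    have hg' : g ∈ Subgroup.normalizer (N : Set X) := (Subgroup.closure_le _).2 hnormS hg
    exact (Subgroup.mem_normalizer_iff.1 hg' n).1 hn
  -- squares and commutators of the `x i`
  have hxsq : ∀ i, x i ^ 2 ∈ V := fun i => hVk _ (by rw [map_pow, hρs])
  have hxcomm : ∀ i j, x i * x j * (x i)⁻¹ * (x j)⁻¹ ∈ V := fun i j => hVk _ (by
    simp only [map_mul, map_inv]
    rw [hρc i j]
    group)
  have key : ∀ i j, i ≠ j →
      β (π ⟨x i ^ 2, hxsq i⟩) (v j) = 0 ∧ β (π ⟨x i * x j * (x i)⁻¹ * (x j)⁻¹, hxcomm i j⟩) (v i) = 0 := by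
    intro i j hij
    set s : V := ⟨x i ^ 2, hxsq i⟩ with hs
    set c : V := ⟨x i * x j * (x i)⁻¹ * (x j)⁻¹, hxcomm i j⟩ with hc
    have hid : (s : X) * (x j * (s⁻¹ : V) * (x j)⁻¹) = (x i * c * (x i)⁻¹) * c := by
      simp only [hs, hc, Subgroup.coe_inv, pow_two]
      group
    have hL : π (s * ⟨x j * (s⁻¹ : V) * (x j)⁻¹, hV.conj_mem _ (s⁻¹ : V).2 _⟩) = β (π s) (v j) • v j := by
      rw [hπ, hact j s⁻¹, hπinv, ← add_assoc, v4_add_self, zero_add]
    have hR : π (⟨x i * c * (x i)⁻¹, hV.conj_mem _ c.2 _⟩ * c) = β (π c) (v i) • v i := by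
      rw [hπ, hact i c]
      have : π c + β (π c) (v i) • v i + π c = β (π c) (v i) • v i + (π c + π c) := by abel
      rw [this, v4_add_self, add_zero]
    have heq : (s * ⟨x j * (s⁻¹ : V) * (x j)⁻¹, hV.conj_mem _ (s⁻¹ : V).2 _⟩ : V) =
        ⟨x i * c * (x i)⁻¹, hV.conj_mem _ c.2 _⟩ * c := Subtype.ext hid
    rw [heq, hR] at hL
    obtain ⟨h1, h2⟩ := coeff_zero (hv0 i) (hv0 j) (hvne i j hij) hL
    exact ⟨h2, h1⟩
  have hself : ∀ i, β (π ⟨x i ^ 2, hxsq i⟩) (v i) = 0 := by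
    intro i
    set s : V := ⟨x i ^ 2, hxsq i⟩ with hs
    have h1 := hact i s
    have h2 : (⟨x i * s * (x i)⁻¹, hV.conj_mem _ s.2 _⟩ : V) = s := by
      apply Subtype.ext
      simp only [hs]
      group
    rw [h2] at h1
    have h3 : β (π s) (v i) • v i = 0 := by
      have := add_left_cancel (a := π s) (b := 0) (c := β (π s) (v i) • v i) (by rw [add_zero]; exact h1)
      exact this.symm
    by_contra hne
    have hb : β (π s) (v i) = 1 := by
      revert hne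
      generalize β (π s) (v i) = b
      revert b
      decide
    rw [hb, one_smul] at h3
    exact hv0 i h3
  have hsqN : ∀ i, x i ^ 2 ∈ N := by
    intro i
    obtain ⟨j, hj⟩ : ∃ j : Fin 3, j ≠ i := ⟨i + 1, by revert i; decide⟩
    exact ⟨hxsq i, hperp i j hj.symm _ (hself i) (key i j hj.symm).1⟩
  have hcommN : ∀ i j, x i * x j * (x i)⁻¹ * (x j)⁻¹ ∈ N := by
    intro i j
    by_cases hij : i = j
    · subst hij
      simp [N.one_mem]
    · refine ⟨hxcomm i j, hperp i j hij _ (key i j hij).2 ?_⟩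
      have h1 := (key j i (Ne.symm hij)).2
      have h2 : (⟨x j * x i * (x j)⁻¹ * (x i)⁻¹, hxcomm j i⟩ : V) = (⟨x i * x j * (x i)⁻¹ * (x j)⁻¹, hxcomm i j⟩ : V)⁻¹ := by
        apply Subtype.ext
        simp only [Subgroup.coe_inv]
        group
      rw [h2, hπinv] at h1
      exact h1
  -- generators
  have hg1 : ∀ s ∈ S, s ^ 2 ∈ N := by
    rintro s (hs | ⟨i, rfl⟩)
    · refine ⟨V.pow_mem hs 2, ?_⟩
      have h1 : (⟨s ^ 2, V.pow_mem hs 2⟩ : V) = ⟨s, hs⟩ * ⟨s, hs⟩ := Subtype.ext (pow_two s)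
      rw [h1, hπ, v4_add_self]
      exact hW0
    · exact hsqN i
  have hmixed : ∀ i (q : V), (x i * q * (x i)⁻¹ * (q : X)⁻¹) ∈ N := by
    intro i q
    have hm : x i * q * (x i)⁻¹ * (q : X)⁻¹ ∈ V := V.mul_mem (hV.conj_mem _ q.2 _) (V.inv_mem q.2)
    refine ⟨hm, ?_⟩
    have h1 : (⟨x i * q * (x i)⁻¹ * (q : X)⁻¹, hm⟩ : V) = ⟨x i * q * (x i)⁻¹, hV.conj_mem _ q.2 _⟩ * q⁻¹ := rfl
    rw [h1, hπ, hact, hπinv]
    have : π q + β (π q) (v i) • v i + π q = β (π q) (v i) • v i + (π q + π q) := by abel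
    rw [this, v4_add_self, add_zero]
    exact hsW _ i
  have hg2 : ∀ s ∈ S, ∀ t ∈ S, s * t * s⁻¹ * t⁻¹ ∈ N := by
    rintro s (hs | ⟨i, rfl⟩) t (ht | ⟨j, rfl⟩)
    · have hm : s * t * s⁻¹ * t⁻¹ ∈ V := V.mul_mem (V.mul_mem (V.mul_mem hs ht) (V.inv_mem hs)) (V.inv_mem ht)
      refine ⟨hm, ?_⟩
      have h1 : (⟨s * t * s⁻¹ * t⁻¹, hm⟩ : V) = ⟨s, hs⟩ * ⟨t, ht⟩ * ⟨s, hs⟩⁻¹ * ⟨t, ht⟩⁻¹ := rfl
      rw [h1, hπ, hπ, hπ, hπinv, hπinv]
      have : π ⟨s, hs⟩ + π ⟨t, ht⟩ + π ⟨s, hs⟩ + π ⟨t, ht⟩ = (π ⟨s, hs⟩ + π ⟨s, hs⟩) + (π ⟨t, ht⟩ + π ⟨t, ht⟩) := by abel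
      rw [this, v4_add_self, v4_add_self, add_zero]
      exact hW0
    · have h1 := hmixed j ⟨s, hs⟩
      have h2 : s * x j * s⁻¹ * (x j)⁻¹ = (x j * s * (x j)⁻¹ * s⁻¹)⁻¹ := by group
      rw [h2]
      exact N.inv_mem h1
    · exact hmixed i ⟨t, ht⟩
    · exact hcommN i j
  have hsq : ∀ h ∈ H, h ^ 2 ∈ N := sq_of_gens N S hnorm hg1 hg2
  have hbound := hB H N (hNV.trans hVH) hsq
  -- the index
  have hchain : N.relIndex V * V.relIndex H = N.relIndex H := Subgroup.relIndex_mul_relIndex N V H hNV hVH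
  have hVHidx : V.relIndex H = Nat.card (H.map ρ) := by
    have h1 : (ρ.comp H.subtype).ker = V.subgroupOf H := by
      ext g
      rw [MonoidHom.mem_ker, Subgroup.mem_subgroupOf]
      constructor
      · intro h
        exact hVk _ h
      · intro h
        exact hkV _ h
    have h2 : (ρ.comp H.subtype).range = H.map ρ := by
      rw [MonoidHom.range_comp, Subgroup.range_subtype]
    unfold Subgroup.relIndex
    rw [← h1, Subgroup.index_ker, h2]
  -- the index of `N` in `V`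
  let ψ : V →* Multiplicative V4 := MonoidHom.mk' (fun a => Multiplicative.ofAdd (π a)) (fun a b => by
    rw [hπ]; rfl)
  have hψs : Function.Surjective ψ := fun y => by
    obtain ⟨a, ha⟩ := hπs (Multiplicative.toAdd y)
    exact ⟨a, by
      show Multiplicative.ofAdd (π a) = y
      rw [ha]; rfl⟩
  let W' : Subgroup (Multiplicative V4) :=
    { carrier := {g | Multiplicative.toAdd g ∈ W}
      mul_mem' := fun {a b} ha hb => hWadd _ ha _ hb
      one_mem' := hW0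
      inv_mem' := by
        intro a ha
        have h1 : Multiplicative.toAdd a⁻¹ = Multiplicative.toAdd a := by
          have : Multiplicative.toAdd a⁻¹ = - Multiplicative.toAdd a := rfl
          rw [this]
          funext i
          exact ZModModule.neg_eq_self _
        show Multiplicative.toAdd a⁻¹ ∈ W
        rw [h1]
        exact ha }
  have hNW : N.subgroupOf V = W'.comap ψ := by
    ext g
    rw [Subgroup.mem_subgroupOf]
    show (∃ h : (g : X) ∈ V, π ⟨g, h⟩ ∈ W) ↔ π g ∈ W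
    constructor
    · rintro ⟨_, h⟩
      exact h
    · intro h
      exact ⟨g.2, h⟩
  have hNVidx : N.relIndex V = W'.index := by
    unfold Subgroup.relIndex
    rw [hNW, Subgroup.index_comap_of_surjective _ hψs]
  have hcardW' : Nat.card W' ≤ 4 := by
    have h1 : Nat.card W' ≤ Nat.card W :=
      Nat.card_le_card_of_injective (fun g : W' => (⟨Multiplicative.toAdd (g : Multiplicative V4), g.2⟩ : W))
        (fun a b hab => by
          apply Subtype.ext
          exact congrArg Subtype.val hab)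
    have h2 : Nat.card W = W.ncard := rfl
    omega
  have hmul : W'.index * Nat.card W' = 16 := by
    rw [Subgroup.index_mul_card]
    simp [Nat.card_eq_fintype_card, ZMod.card]
  have hW'idx : 4 ≤ W'.index := by
    by_contra hlt
    have h1 : W'.index ≤ 3 := by omega
    have h2 : W'.index * Nat.card W' ≤ 3 * 4 := Nat.mul_le_mul h1 hcardW'
    omega
  rw [← hchain, hVHidx, hNVidx] at hbound
  have h9 : 4 * 8 ≤ W'.index * Nat.card (H.map ρ) := Nat.mul_le_mul hW'idx h8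
  have h10 : (2 : ℕ) ^ 4 = 16 := rfl
  omega

end Cfsg.Agent.Lib.SubA8Rank
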