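import Mathlib
import Cfsg.Agent.Lib.GL42A8
import Cfsg.Agent.Lib.SubA8Rank

/-!
# Symplectic data attached to a pair of points of eight

For a pair of points `u ≠ w`, the alternating matrix `aa u + aa w` is nondegenerate; we exhibit three commuting
transvections with centres in an isotropic plane preserving it.
-/

set_option autoImplicit false

namespace Cfsg.Agent.Lib.SubA8Form

open Cfsg.Agent.Lib.GL42A8 Cfsg.Agent.Lib.SubA8Rank

/-- The dual alternating matrix (the inverse, over `𝔽₂`, when the Pfaffian is one). -/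
def dualS (S : M4) : M4 :=
  !![0, S 2 3, S 1 3, S 1 2; S 2 3, 0, S 0 3, S 0 2; S 1 3, S 0 3, 0, S 0 1; S 1 2, S 0 2, S 0 1, 0]

/-- The bilinear form. -/
def bet (B : M4) (y z : V4) : ZMod 2 := z ⬝ᵥ (B.mulVec y)

/-- The transvection with centre `z`. -/
def tvm (B : M4) (z : V4) : M4 := 1 + Matrix.vecMulVec z (Matrix.vecMul z B)

/-- The three centres. -/
def vv (v₁ v₂ : V4) : Fin 3 → V4 := ![v₁, v₂, v₁ + v₂]

/-- Membership in the plane. -/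
def InW (v₁ v₂ y : V4) : Prop := y = 0 ∨ y = v₁ ∨ y = v₂ ∨ y = v₁ + v₂

instance (v₁ v₂ y : V4) : Decidable (InW v₁ v₂ y) := by unfold InW; infer_instance

/-- The eight products. -/
def prod8 (T : Fin 3 → M4) : Fin 8 → M4 :=
  ![1, T 0, T 1, T 2, T 0 * T 1, T 0 * T 2, T 1 * T 2, T 0 * T 1 * T 2]

/-- The list of conditions. -/
def Good (S : M4) (v₁ v₂ : V4) : Prop :=
  (∀ i, vv v₁ v₂ i ≠ 0) ∧ (∀ i j, i ≠ j → vv v₁ v₂ i ≠ vv v₁ v₂ j) ∧
  (∀ i j, bet (dualS S) (vv v₁ v₂ i) (vv v₁ v₂ j) = 0) ∧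
  (∀ i j, i ≠ j → ∀ y, bet (dualS S) y (vv v₁ v₂ i) = 0 → bet (dualS S) y (vv v₁ v₂ j) = 0 → InW v₁ v₂ y) ∧
  (∀ a b, InW v₁ v₂ a → InW v₁ v₂ b → InW v₁ v₂ (a + b)) ∧
  (∀ i y, (tvm (dualS S) (vv v₁ v₂ i)).mulVec y = y + bet (dualS S) y (vv v₁ v₂ i) • vv v₁ v₂ i) ∧
  (∀ i j, tvm (dualS S) (vv v₁ v₂ i) * tvm (dualS S) (vv v₁ v₂ j) =
    tvm (dualS S) (vv v₁ v₂ j) * tvm (dualS S) (vv v₁ v₂ i)) ∧
  (∀ i, tvm (dualS S) (vv v₁ v₂ i) * tvm (dualS S) (vv v₁ v₂ i) = 1) ∧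
  (∀ i, tvm (dualS S) (vv v₁ v₂ i) * S * (tvm (dualS S) (vv v₁ v₂ i)).transpose = S) ∧
  (∀ a b, (prod8 fun i => tvm (dualS S) (vv v₁ v₂ i)) a = (prod8 fun i => tvm (dualS S) (vv v₁ v₂ i)) b → a = b)

set_option synthInstance.maxHeartbeats 400000 in
set_option synthInstance.maxSize 2000 in
instance (S : M4) (v₁ v₂ : V4) : Decidable (Good S v₁ v₂) := by unfold Good; infer_instance

theorem exists_good : ∀ u w : Fin 8, u ≠ w → ∃ v₁ v₂ : V4, Good (aa u + aa w) v₁ v₂ := by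
  decide +kernel

end Cfsg.Agent.Lib.SubA8Form
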