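import Mathlib
import Cfsg.Agent.Lib.SubA8Class
import Cfsg.Agent.Lib.SubA8Form
import Cfsg.Agent.Lib.SubA8Act
import Cfsg.Agent.Lib.SectRank
import Cfsg.Agent.Lib.PCore
import Cfsg.Agent.Lib.PConstr
import Cfsg.Agent.Lib.Frat

/-!
# Quotients by the `2`-core embedded in `A₈`
-/

set_option autoImplicit false

namespace Cfsg.Agent.Lib.SubA8Big

open scoped commutatorElement
open Equiv MulAction Cfsg.Agent.Lib.SubA8Code Cfsg.Agent.Lib.SubA8T5 Cfsg.Agent.Lib.SubA8Aff
  Cfsg.Agent.Lib.SubA8Lin Cfsg.Agent.Lib.SubA8Seven Cfsg.Agent.Lib.SubA8Class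
  Cfsg.Agent.Lib.SubA8Form Cfsg.Agent.Lib.SubA8Rank Cfsg.Agent.Lib.SubA8Act Cfsg.Agent.Lib.GL42A8

/-- A cycle of length five. -/
def c5 : Perm (Fin 5) := swap 0 1 * swap 1 2 * swap 2 3 * swap 3 4

theorem c5_mem : c5 ∈ alternatingGroup (Fin 5) := Perm.mem_alternatingGroup.2 (by decide)

theorem c5_order : orderOf c5 = 5 := by
  have : Fact (Nat.Prime 5) := ⟨by norm_num⟩
  exact orderOf_eq_prime (by decide) (by decide)

theorem card_perm_fin (n : ℕ) : Nat.card (Perm (Fin n)) = n.factorial := by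
  simp [Nat.card_eq_fintype_card, Fintype.card_perm]

/-- The hom to `S₅` with kernel of order `3` computes the `3`-core. -/
theorem pCore_of_hom {Q : Type*} [Group Q] [Finite Q] (ψ : Q →* Perm (Fin 5)) (h3 : Nat.card ψ.ker = 3)
    (hA : alternatingGroup (Fin 5) ≤ ψ.range) :
    Nat.card (Cfsg.pCore 3 Q) = 3 ∧
      (Nonempty (Q ⧸ Cfsg.pCore 3 Q ≃* alternatingGroup (Fin 5)) ∨ Nonempty (Q ⧸ Cfsg.pCore 3 Q ≃* Perm (Fin 5))) := by
  classical
  have hp3 : Fact (Nat.Prime 3) := ⟨Nat.prime_three⟩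
  have hK3 : IsPGroup 3 ψ.ker := IsPGroup.of_card (n := 1) (by rw [h3]; norm_num)
  have hle : ψ.ker ≤ Cfsg.pCore 3 Q := Cfsg.Agent.Lib.PCore.le_pCore (MonoidHom.normal_ker ψ) hK3
  have hP3 : IsPGroup 3 (Cfsg.pCore 3 Q) := Cfsg.Agent.Lib.PCore.isPGroup_pCore 3
  have hPn : (Cfsg.pCore 3 Q).Normal := by
    have := Cfsg.Agent.Lib.PCore.pCore_characteristic (G := Q) 3
    infer_instance
  let J := (Cfsg.pCore 3 Q).map ψ
  have hJ3 : IsPGroup 3 J := hP3.map ψ
  -- the elements of `J` are even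
  have hev : ∀ j ∈ J, j ∈ alternatingGroup (Fin 5) := by
    intro j hj
    obtain ⟨k, hk⟩ := hJ3 ⟨j, hj⟩
    have hk' : j ^ 3 ^ k = 1 := congrArg Subtype.val hk
    rw [Perm.mem_alternatingGroup]
    have h1 : (Perm.sign j) ^ 3 ^ k = 1 := by rw [← map_pow, hk', map_one]
    rcases Int.units_eq_one_or (Perm.sign j) with h | h
    · exact h
    · rw [h] at h1
      have hodd : Odd (3 ^ k) := Odd.pow (by decide)
      rw [hodd.neg_one_pow] at h1
      exact absurd h1 (by decide)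
  let J' : Subgroup (alternatingGroup (Fin 5)) := J.subgroupOf (alternatingGroup (Fin 5))
  have hJ'n : J'.Normal := by
    constructor
    rintro ⟨n, hn⟩ hn' ⟨g, hg⟩
    rw [Subgroup.mem_subgroupOf] at hn' ⊢
    obtain ⟨q, hq, rfl⟩ := hn'
    obtain ⟨b, rfl⟩ := hA hg
    exact ⟨b * q * b⁻¹, hPn.conj_mem q hq b, by simp⟩
  have hsimple : IsSimpleGroup (alternatingGroup (Fin 5)) := alternatingGroup.isSimpleGroup (by simp)
  have hJbot : J' = ⊥ := by
    rcases hJ'n.eq_bot_or_eq_top with h | h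
    · exact h
    · exfalso
      have hcJ : c5 ∈ J := by
        have : (⟨c5, c5_mem⟩ : alternatingGroup (Fin 5)) ∈ J' := by rw [h]; trivial
        exact this
      obtain ⟨k, hk⟩ := hJ3 ⟨c5, hcJ⟩
      have hk' : c5 ^ 3 ^ k = 1 := congrArg Subtype.val hk
      have hd := orderOf_dvd_of_pow_eq_one hk'
      rw [c5_order] at hd
      have h5 : 5 ∣ 3 := (by norm_num : Nat.Prime 5).dvd_of_dvd_pow hd
      omega
  have hge : Cfsg.pCore 3 Q ≤ ψ.ker := by
    intro q hq
    rw [MonoidHom.mem_ker]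
    have hj : ψ q ∈ J := ⟨q, hq, rfl⟩
    have he := hev _ hj
    have h1 : (⟨ψ q, he⟩ : alternatingGroup (Fin 5)) ∈ J' := hj
    rw [hJbot] at h1
    have h2 := (Subgroup.mem_bot).1 h1
    exact congrArg Subtype.val h2
  have heq : ψ.ker = Cfsg.pCore 3 Q := le_antisymm hle hge
  have hcard : Nat.card (Cfsg.pCore 3 Q) = 3 := by rw [← heq]; exact h3
  have hiso : (Q ⧸ Cfsg.pCore 3 Q) ≃* ψ.range :=
    (QuotientGroup.quotientMulEquivOfEq heq.symm).trans (QuotientGroup.quotientKerEquivRange ψ)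
  refine ⟨hcard, ?_⟩
  rcases iso_of_five ψ.range hA with ⟨⟨h⟩⟩ | ⟨⟨h⟩⟩
  · exact Or.inl ⟨hiso.trans h⟩
  · exact Or.inr ⟨hiso.trans h⟩

/-- The classification transported to an abstract group. -/
theorem classify_abs {Q : Type*} [Group Q] [Finite Q] (f : Q →* alternatingGroup (Fin 8))
    (hf : Function.Injective f) (hns : ¬ Group.IsSolvable Q)
    (hO : ∀ N : Subgroup Q, N.Normal → IsPGroup 2 N → N = ⊥) :
    Nonempty (Q ≃* Matrix.ProjectiveSpecialLinearGroup (Fin 3) (ZMod 2)) ∨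
      (∃ n : ℕ, 5 ≤ n ∧ n ≤ 8 ∧ Nonempty (Q ≃* alternatingGroup (Fin n))) ∨
      (∃ n : ℕ, 5 ≤ n ∧ n ≤ 7 ∧ Nonempty (Q ≃* Perm (Fin n))) ∨
      (∃ ψ : Q →* Perm (Fin 5), Nat.card ψ.ker = 3 ∧ alternatingGroup (Fin 5) ≤ ψ.range) := by
  classical
  let g : Q →* Perm (Fin 8) := (alternatingGroup (Fin 8)).subtype.comp f
  have hg : Function.Injective g := Subtype.val_injective.comp hf
  let P := g.range
  let e : Q ≃* P := MonoidHom.ofInjective hg
  have hev : ∀ σ ∈ P, Perm.sign σ = 1 := by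
    rintro σ ⟨q, rfl⟩
    exact Perm.mem_alternatingGroup.1 (f q).2
  have hnsP : ¬ Group.IsSolvable P := fun h => hns (Group.isSolvable_of_isSolvable_injective e.injective)
  have hOP := hO_of_equiv e hO
  rcases classify P hev hnsP hOP with h | ⟨⟨h⟩⟩ | ⟨⟨h⟩⟩ | ⟨a, ha, φ, hφ, hA⟩ | ⟨⟨h⟩⟩ | ⟨⟨h⟩⟩ | ⟨φ, hφ, hA⟩
  · have hP : P = alternatingGroup (Fin 8) :=
      le_antisymm (fun σ hσ => Perm.mem_alternatingGroup.2 (hev σ hσ)) h
    exact Or.inr (Or.inl ⟨8, by norm_num, le_refl _, ⟨e.trans (MulEquiv.subgroupCongr hP)⟩⟩)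
  · exact Or.inr (Or.inl ⟨7, by norm_num, by norm_num, ⟨e.trans h⟩⟩)
  · exact Or.inl ⟨(e.trans h).trans pslEquiv.symm⟩
  · let e' : P ≃* φ.range := MonoidHom.ofInjective hφ
    rcases eq_alt_or_top φ.range hA with h | h
    · exact Or.inr (Or.inl ⟨6, by norm_num, by norm_num, ⟨e.trans (e'.trans (MulEquiv.subgroupCongr h))⟩⟩)
    · exact Or.inr (Or.inr (Or.inl ⟨6, by norm_num, by norm_num,
        ⟨e.trans (e'.trans ((MulEquiv.subgroupCongr h).trans Subgroup.topEquiv))⟩⟩))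
  · exact Or.inr (Or.inl ⟨5, by norm_num, by norm_num, ⟨e.trans h⟩⟩)
  · exact Or.inr (Or.inr (Or.inl ⟨5, by norm_num, by norm_num, ⟨e.trans h⟩⟩))
  · refine Or.inr (Or.inr (Or.inr ⟨φ.comp e.toMonoidHom, ?_, ?_⟩))
    · rw [← hφ]
      exact Nat.card_congr (e.toEquiv.subtypeEquiv (fun q => Iff.rfl))
    · intro σ hσ
      obtain ⟨p, rfl⟩ := hA hσ
      exact ⟨e.symm p, by simp⟩

/-- The pair of points. -/
theorem exists_pair (P : Subgroup (Perm (Fin 8))) (hev : ∀ σ ∈ P, Perm.sign σ = 1)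
    (hns : ¬ Group.IsSolvable P) (hO : ∀ N : Subgroup P, N.Normal → IsPGroup 2 N → N = ⊥)
    (h720 : 720 ≤ Nat.card P) (hne : Nat.card P ≠ 2520) :
    ∃ u w : Fin 8, u ≠ w ∧ ∀ τ : Perm (Fin 8), Perm.sign τ = 1 →
      (τ u = u ∧ τ w = w ∨ τ u = w ∧ τ w = u) → τ ∈ P := by
  classical
  rcases classify P hev hns hO with h | ⟨⟨h⟩⟩ | ⟨⟨h⟩⟩ | ⟨a, ha, φ, hφ, hA⟩ | ⟨⟨h⟩⟩ | ⟨⟨h⟩⟩ | ⟨φ, hφ, hA⟩
  · exact ⟨0, 1, by decide, fun τ hτ _ => h (Perm.mem_alternatingGroup.2 hτ)⟩
  · exfalso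
    apply hne
    rw [Nat.card_congr h.toEquiv, nat_card_alternatingGroup]
    simp [Nat.factorial]
  · exfalso
    rw [Nat.card_congr h.toEquiv, card_SL3] at h720
    omega
  · have hle : Nat.card P ≤ 720 := by
      have := Nat.card_le_card_of_injective φ hφ
      rw [card_perm_fin] at this
      exact this
    set O := orbit P a with hO'
    have hncard : O.ncard = 6 := by rw [← Nat.card_coe_set_eq]; exact ha
    have hcn : Oᶜ.ncard = 2 := by
      have := Set.ncard_add_ncard_compl O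
      simp at this
      omega
    obtain ⟨u, w, huw, hc⟩ := Set.ncard_eq_two.1 hcn
    have hOu : ∀ y, y ∉ O ↔ y = u ∨ y = w := by
      intro y
      have : y ∈ Oᶜ ↔ y ∈ ({u, w} : Set (Fin 8)) := by rw [hc]
      simpa using this
    let K : Subgroup (Perm (Fin 8)) :=
      { carrier := {τ | Perm.sign τ = 1 ∧ ∀ y, τ y ∈ O ↔ y ∈ O}
        mul_mem' := by
          rintro a b ⟨ha, ha'⟩ ⟨hb, hb'⟩
          refine ⟨by rw [map_mul, ha, hb, one_mul], fun y => ?_⟩
          rw [Perm.mul_apply, ha', hb']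
        one_mem' := ⟨map_one _, fun _ => Iff.rfl⟩
        inv_mem' := by
          rintro a ⟨ha, ha'⟩
          refine ⟨by rw [map_inv, ha, inv_one], fun y => ?_⟩
          have h1 := ha' (a⁻¹ y)
          have h2 : a (a⁻¹ y) = y := by simp
          rw [h2] at h1
          exact h1.symm }
    have hPK : P ≤ K := by
      intro σ hσ
      refine ⟨hev σ hσ, fun y => ?_⟩
      constructor
      · rintro ⟨p, hp⟩
        refine ⟨(⟨σ, hσ⟩ : P)⁻¹ * p, ?_⟩
        have h1 : (p : Perm (Fin 8)) a = σ y := hp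
        show (σ⁻¹ * (p : Perm (Fin 8))) a = y
        rw [Perm.mul_apply, h1]
        simp
      · rintro ⟨p, hp⟩
        refine ⟨(⟨σ, hσ⟩ : P) * p, ?_⟩
        have h1 : (p : Perm (Fin 8)) a = y := hp
        show (σ * (p : Perm (Fin 8))) a = σ y
        rw [Perm.mul_apply, h1]
    have hOK : orbit K a = O := by
      ext y
      constructor
      · rintro ⟨p, hp⟩
        have h1 : (p : Perm (Fin 8)) a = y := hp
        rw [← h1]
        exact (p.2.2 a).2 (mem_orbit_self a)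
      · rintro ⟨p, hp⟩
        exact ⟨⟨p, hPK p.2⟩, hp⟩
    have hk : Nat.card (orbit K a) = 6 := by rw [hOK]; exact ha
    obtain ⟨φ', hφ', -⟩ := exists_res K a hk
    have hφ'inj : Function.Injective φ' := by
      rw [injective_iff_map_eq_one]
      intro g hg
      have h1 := (hφ' g).1 hg
      have h2 := support_card_le K a hk g h1
      have h3 := even_small g g.2.1 (by omega)
      exact Subtype.ext h3
    have hKle : Nat.card K ≤ 720 := by
      have := Nat.card_le_card_of_injective φ' hφ'inj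
      rw [card_perm_fin] at this
      exact this
    have hPe : P = K := Subgroup.eq_of_le_of_card_ge hPK (by omega)
    refine ⟨u, w, huw, fun τ hτ hpres => ?_⟩
    rw [hPe]
    refine ⟨hτ, fun y => ?_⟩
    have h1 : τ y = u ∨ τ y = w ↔ y = u ∨ y = w := by
      constructor
      · rcases hpres with ⟨h1, h2⟩ | ⟨h1, h2⟩
        · rintro (h | h)
          · exact Or.inl (τ.injective (h.trans h1.symm))
          · exact Or.inr (τ.injective (h.trans h2.symm))
        · rintro (h | h)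
          · exact Or.inr (τ.injective (h.trans h2.symm))
          · exact Or.inl (τ.injective (h.trans h1.symm))
      · rcases hpres with ⟨h1, h2⟩ | ⟨h1, h2⟩
        · rintro (rfl | rfl)
          · exact Or.inl h1
          · exact Or.inr h2
        · rintro (rfl | rfl)
          · exact Or.inr h1
          · exact Or.inl h2
    have h2 := hOu (τ y)
    have h3 := hOu y
    by_cases hy : y ∈ O
    · simp only [hy, iff_true]
      by_contra hn
      exact (h3.not.1 (not_not.2 hy)) (h1.1 (h2.1 hn))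
    · simp only [hy, iff_false]
      intro hn
      exact (h2.not.1 (not_not.2 hn)) (h1.2 (h3.1 hy))
  · exfalso
    rw [Nat.card_congr h.toEquiv, nat_card_alternatingGroup] at h720
    simp [Nat.factorial] at h720
  · exfalso
    rw [Nat.card_congr h.toEquiv, card_perm_fin] at h720
    exact absurd h720 (by decide)
  · exfalso
    have hr : Nat.card φ.range ≤ 120 := by
      have := Subgroup.card_le_card_group φ.range
      rw [card_perm_fin] at this
      exact this
    have h1 : Nat.card P = Nat.card φ.ker * Nat.card φ.range := by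
      have := Subgroup.card_eq_card_quotient_mul_card_subgroup φ.ker
      rw [mul_comm, Nat.card_congr (QuotientGroup.quotientKerEquivRange φ).toEquiv] at this
      exact this
    rw [h1, hφ] at h720
    omega

/-- The embedding of `GL₄(2)` with the relation. -/
theorem exists_embedding_rel :
    ∃ f : Matrix.GeneralLinearGroup (Fin 4) (ZMod 2) →* Perm (Fin 8),
      Function.Injective f ∧ (∀ g, Perm.sign (f g) = 1) ∧ ∀ g : Matrix.GeneralLinearGroup (Fin 4) (ZMod 2), Cfsg.Agent.Lib.GL42A8.Rel (g : M4) (f g) := by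
  classical
  have hdet : ∀ g : Matrix.GeneralLinearGroup (Fin 4) (ZMod 2), (g : M4).det ≠ 0 := by
    intro g
    exact (Matrix.isUnits_det_units g).ne_zero
  choose σ hσ hR using fun g : Matrix.GeneralLinearGroup (Fin 4) (ZMod 2) => exists_rel (g : M4) (hdet g)
  have hmul : ∀ g h, σ (g * h) = σ g * σ h := by
    intro g h
    apply rel_unique (hR (g * h))
    have := rel_mul (hR g) (hR h)
    simpa using this
  let f : Matrix.GeneralLinearGroup (Fin 4) (ZMod 2) →* Perm (Fin 8) := MonoidHom.mk' σ hmul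
  refine ⟨f, ?_, hσ, hR⟩
  rw [injective_iff_map_eq_one]
  intro g hg
  have h1 : σ g = 1 := hg
  have h2 := hR g
  rw [h1] at h2
  have h3 := eq_one_of_rel h2
  exact Units.ext h3

/-- Facts on the quotient by the `2`-core. -/
theorem quot_facts {X : Type*} [Group X] [Finite X] (hns : ¬ Group.IsSolvable X) :
    ¬ Group.IsSolvable (X ⧸ Cfsg.pCore 2 X) ∧
      ∀ N : Subgroup (X ⧸ Cfsg.pCore 2 X), N.Normal → IsPGroup 2 N → N = ⊥ := by
  have hp : Fact (Nat.Prime 2) := ⟨Nat.prime_two⟩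
  have hV2 : IsPGroup 2 (Cfsg.pCore 2 X) := Cfsg.Agent.Lib.PCore.isPGroup_pCore 2
  constructor
  · intro h
    have h' : Group.IsNilpotent (Cfsg.pCore 2 X) := hV2.isNilpotent
    have : Group.IsSolvable (Cfsg.pCore 2 X) := inferInstance
    apply hns
    refine Group.isSolvable_of_ker_le_range (Cfsg.pCore 2 X).subtype (QuotientGroup.mk' (Cfsg.pCore 2 X)) ?_
    intro x hx
    have : x ∈ Cfsg.pCore 2 X := by rwa [QuotientGroup.ker_mk'] at hx
    exact ⟨⟨x, this⟩, rfl⟩
  · intro N hN h2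
    have h1 := Cfsg.Agent.Lib.PCore.le_pCore hN h2
    rw [Cfsg.Agent.Lib.PCore.pCore_quotient_pCore] at h1
    exact le_bot_iff.1 h1

/-- The Frattini quotient of a `2`-group of sectional rank at most four. -/
theorem frattini_facts {V : Type*} [Group V] [Finite V] (hV2 : IsPGroup 2 V)
    (h4 : Cfsg.SectionalPRankLE 2 4 V) :
    (∀ a b : V ⧸ frattini V, a * b = b * a) ∧ (∀ a : V ⧸ frattini V, a ^ 2 = 1) ∧
      Nat.card (V ⧸ frattini V) ≤ 16 := by
  have hp : Fact (Nat.Prime 2) := ⟨Nat.prime_two⟩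
  set Φ := frattini V with hΦ
  have hcomm : ∀ a b : V ⧸ Φ, a * b = b * a := by
    intro a b
    induction a using QuotientGroup.induction_on with
    | H u =>
      induction b using QuotientGroup.induction_on with
      | H v =>
        rw [← QuotientGroup.mk_mul, ← QuotientGroup.mk_mul]
        apply QuotientGroup.eq.mpr
        have h1 : (u * v)⁻¹ * (v * u) = ⁅v⁻¹, u⁻¹⁆ := by
          rw [commutatorElement_def]; group
        rw [h1]
        apply Cfsg.Agent.Lib.Frat.commutator_le_frattini hV2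
        exact Subgroup.subset_closure ⟨_, Subgroup.mem_top _, _, Subgroup.mem_top _, rfl⟩
  have hsq : ∀ a : V ⧸ Φ, a ^ 2 = 1 := by
    intro a
    induction a using QuotientGroup.induction_on with
    | H u =>
      rw [← QuotientGroup.mk_pow]
      exact (QuotientGroup.eq_one_iff _).mpr (Cfsg.Agent.Lib.Frat.pow_mem_frattini hV2 u)
  refine ⟨hcomm, hsq, ?_⟩
  have hB := Cfsg.Agent.Lib.SectRank.sqBound_of_sectional h4 ⊤ Φ le_top (fun h _ =>
    Cfsg.Agent.Lib.Frat.pow_mem_frattini hV2 h)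
  rw [Subgroup.relIndex_top_right, Subgroup.index_eq_card] at hB
  exact hB

/-- The final contradiction, from three lifted transvections. -/
theorem rank_contra {X : Type*} [Group X] [Finite X] {V : Subgroup X} [hVn : V.Normal]
    (f₁ : X ⧸ V →* MulAut (↥V ⧸ frattini ↥V)) (hf₁ : Function.Injective f₁)
    (hspec : ∀ (x : X) (q : V), f₁ (x : X ⧸ V) (q : ↥V ⧸ frattini ↥V) =
      ((MulAut.conjNormal x q : ↥V) : ↥V ⧸ frattini ↥V))
    (e : (↥V ⧸ frattini ↥V) → Fin 4 → ZMod 2)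
    (M : MulAut (↥V ⧸ frattini ↥V) →* Matrix.GeneralLinearGroup (Fin 4) (ZMod 2))
    (he : Function.Bijective e) (headd : ∀ a b, e (a * b) = e a + e b) (hM : Function.Injective M)
    (hMspec : ∀ α u, (M α).val.mulVec (e u) = e (α u))
    (S : M4) (v₁ v₂ : V4) (hgood : Good S v₁ v₂) (x : Fin 3 → X)
    (hx : ∀ i, (M (f₁ (x i : X ⧸ V))).val = tvm (dualS S) (vv v₁ v₂ i))
    (hB : Cfsg.Agent.Lib.SectRank.SqBound 4 X) : False := by
  classical
  obtain ⟨g1, g2, g3, g4, g5, g6, g7, g8, g9, g10⟩ := hgood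
  let ρ : X →* Matrix.GeneralLinearGroup (Fin 4) (ZMod 2) := M.comp (f₁.comp (QuotientGroup.mk' V))
  have hρx : ∀ i, (ρ (x i)).val = tvm (dualS S) (vv v₁ v₂ i) := hx
  have hρker : ρ.ker = V := by
    ext g
    rw [MonoidHom.mem_ker]
    constructor
    · intro h
      have h1 : (QuotientGroup.mk' V g) = 1 := by
        apply (hM.comp hf₁)
        show M (f₁ (g : X ⧸ V)) = M (f₁ 1)
        rw [map_one, map_one]
        exact h
      exact (QuotientGroup.eq_one_iff g).1 h1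
    · intro h
      have h1 : (g : X ⧸ V) = 1 := (QuotientGroup.eq_one_iff g).2 h
      show M (f₁ (g : X ⧸ V)) = 1
      rw [h1, map_one, map_one]
  let π : V → V4 := fun q => e (q : ↥V ⧸ frattini ↥V)
  refine rank5 ρ hρker π ?_ ?_ (bet (dualS S)) (vv v₁ v₂) x {y | InW v₁ v₂ y} ?_ ?_ ?_ ?_ ?_ ?_ ?_ ?_ ?_ ?_ ?_ hB
  · intro a b
    show e (((a * b : V) : ↥V ⧸ frattini ↥V)) = _
    rw [QuotientGroup.mk_mul, headd]
  · intro y
    obtain ⟨u, hu⟩ := he.2 y
    obtain ⟨q, rfl⟩ := QuotientGroup.mk_surjective u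
    exact ⟨q, hu⟩
  · have hsub : {y | InW v₁ v₂ y} ⊆ (({0, v₁, v₂, v₁ + v₂} : Finset V4) : Set V4) := by
      intro y hy
      simpa [InW] using hy
    have h1 := Set.ncard_le_ncard hsub (Finset.finite_toSet _)
    rw [Set.ncard_coe_finset] at h1
    exact h1.trans Finset.card_le_four
  · intro a ha b hb
    exact g5 a b ha hb
  · exact Or.inl rfl
  · intro i q
    show e ((⟨x i * q * (x i)⁻¹, _⟩ : V) : ↥V ⧸ frattini ↥V) = _
    have h1 := hspec (x i) q
    have h2 := hMspec (f₁ (x i : X ⧸ V)) (q : ↥V ⧸ frattini ↥V)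
    rw [h1, hx i] at h2
    have h3 : MulAut.conjNormal (x i) q = ⟨x i * q * (x i)⁻¹, hVn.conj_mem _ q.2 _⟩ :=
      Subtype.ext (by simp [MulAut.conjNormal_apply])
    rw [h3] at h2
    rw [← h2]
    exact g6 i (π q)
  · intro i j
    apply Units.ext
    rw [Units.val_mul, Units.val_mul, hρx, hρx]
    exact g7 i j
  · intro i
    apply Units.ext
    rw [pow_two, Units.val_mul, hρx, Units.val_one]
    exact g8 i
  · intro i
    show InW v₁ v₂ (vv v₁ v₂ i)
    fin_cases i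
    · exact Or.inr (Or.inl rfl)
    · exact Or.inr (Or.inr (Or.inl rfl))
    · exact Or.inr (Or.inr (Or.inr rfl))
  · exact g1
  · exact g2
  · intro i j hij y h1 h2
    exact g4 i j hij y h1 h2
  · -- eight products
    let H := (Subgroup.closure ((V : Set X) ∪ Set.range x)).map ρ
    have hxm : ∀ i, x i ∈ Subgroup.closure ((V : Set X) ∪ Set.range x) := fun i =>
      Subgroup.subset_closure (Or.inr ⟨i, rfl⟩)
    have hρm : ∀ i, ρ (x i) ∈ H := fun i => ⟨x i, hxm i, rfl⟩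
    let word : Fin 8 → H := ![1, ⟨_, hρm 0⟩, ⟨_, hρm 1⟩, ⟨_, hρm 2⟩, ⟨_, hρm 0⟩ * ⟨_, hρm 1⟩, ⟨_, hρm 0⟩ * ⟨_, hρm 2⟩,
      ⟨_, hρm 1⟩ * ⟨_, hρm 2⟩, ⟨_, hρm 0⟩ * ⟨_, hρm 1⟩ * ⟨_, hρm 2⟩]
    have hword : ∀ k, ((word k : H) : Matrix.GeneralLinearGroup (Fin 4) (ZMod 2)).val =
        prod8 (fun i => tvm (dualS S) (vv v₁ v₂ i)) k := by
      intro k
      fin_cases k
      · rfl
      · exact hρx 0
      · exact hρx 1
      · exact hρx 2
      · show (ρ (x 0) * ρ (x 1)).val = _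
        rw [Units.val_mul, hρx, hρx]
        rfl
      · show (ρ (x 0) * ρ (x 2)).val = _
        rw [Units.val_mul, hρx, hρx]
        rfl
      · show (ρ (x 1) * ρ (x 2)).val = _
        rw [Units.val_mul, hρx, hρx]
        rfl
      · show (ρ (x 0) * ρ (x 1) * ρ (x 2)).val = _
        rw [Units.val_mul, Units.val_mul, hρx, hρx, hρx]
        rfl
    have hinj : Function.Injective word := by
      intro a b hab
      apply g10
      rw [← hword, ← hword, hab]
    have := Nat.card_le_card_of_injective word hinj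
    rw [Nat.card_eq_fintype_card (α := Fin 8), Fintype.card_fin] at this
    exact this

/-- A matrix group of small degree is small. -/
theorem card_GL_small (d : ℕ) (hd : d ≤ 3) : Nat.card (Matrix.GeneralLinearGroup (Fin d) (ZMod 2)) ≤ 168 := by
  have hp : Fact (Nat.Prime 2) := ⟨Nat.prime_two⟩
  have h1 := Matrix.card_GL_field (𝔽 := ZMod 2) d
  have h2 : Nat.card (Matrix.GeneralLinearGroup (Fin d) (ZMod 2)) = ∏ i : Fin d, (Fintype.card (ZMod 2) ^ d - Fintype.card (ZMod 2) ^ (i : ℕ)) := h1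
  rw [h2, ZMod.card]
  interval_cases d <;> decide

/-- The second part of the theorem. -/
theorem no_big {X : Type*} [Group X] [Finite X] (hns : ¬ Group.IsSolvable X)
    (hc : Cfsg.IsPConstrained 2 X) (hO : Cfsg.oddCore X = ⊥)
    (h4 : Cfsg.SectionalPRankLE 2 4 ↥(Cfsg.pCore 2 X)) (h4X : Cfsg.SectionalPRankLE 2 4 X)
    (h720 : 720 ≤ Nat.card (X ⧸ Cfsg.pCore 2 X)) (hne : Nat.card (X ⧸ Cfsg.pCore 2 X) ≠ 2520) : False := by
  classical
  have hp : Fact (Nat.Prime 2) := ⟨Nat.prime_two⟩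
  obtain ⟨hnsQ, hOQ⟩ := quot_facts hns
  have hV2 : IsPGroup 2 (Cfsg.pCore 2 X) := Cfsg.Agent.Lib.PCore.isPGroup_pCore 2
  have hC : Subgroup.centralizer ((Cfsg.pCore 2 X : Subgroup X) : Set X) ≤ Cfsg.pCore 2 X :=
    (Cfsg.Agent.Lib.PConstr.isPConstrained_iff_of_bot hO).1 hc
  have hVn : (Cfsg.pCore 2 X).Normal := by
    have := Cfsg.Agent.Lib.PCore.pCore_characteristic (G := X) 2
    infer_instance
  set V := Cfsg.pCore 2 X with hV
  have hmax : ∀ N : Subgroup X, N.Normal → IsPGroup 2 N → N ≤ V := fun N hN hN2 =>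
    Cfsg.Agent.Lib.PCore.le_pCore hN hN2
  obtain ⟨f₁, hf₁, hspec⟩ := @exists_action_spec X _ _ V hVn hV2 hmax hC
  obtain ⟨hcomm, hsq, hcard⟩ := frattini_facts hV2 h4
  obtain ⟨d, hd⟩ := IsPGroup.iff_card.1 (hV2.to_quotient (frattini ↥V))
  obtain ⟨e, M, he, headd, hM, hMspec⟩ := coords hcomm hsq hd
  have hd4 : d = 4 := by
    have hd4' : d ≤ 4 := by
      rw [hd] at hcard
      have : 2 ^ d ≤ 2 ^ 4 := hcard
      exact (Nat.pow_le_pow_iff_right (by norm_num)).1 this
    by_contra hne4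
    have hd3 : d ≤ 3 := by omega
    have h1 := Nat.card_le_card_of_injective _ (hM.comp hf₁)
    have h2 := card_GL_small d hd3
    omega
  subst hd4
  obtain ⟨f₃, hf₃, hf₃s, hf₃r⟩ := exists_embedding_rel
  let σ₀ : X ⧸ V →* Perm (Fin 8) := f₃.comp (M.comp f₁)
  have hσ₀ : Function.Injective σ₀ := hf₃.comp (hM.comp hf₁)
  let P := σ₀.range
  let ι : (X ⧸ V) ≃* P := MonoidHom.ofInjective hσ₀
  have hcardP : Nat.card P = Nat.card (X ⧸ V) := (Nat.card_congr ι.toEquiv).symm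
  have hev : ∀ σ ∈ P, Perm.sign σ = 1 := by
    rintro σ ⟨q, rfl⟩
    exact hf₃s _
  have hnsP : ¬ Group.IsSolvable P := fun h => hnsQ (Group.isSolvable_of_isSolvable_injective ι.injective)
  have hOP := hO_of_equiv ι hOQ
  obtain ⟨u, w, huw, hKP⟩ := exists_pair P hev hnsP hOP (by rw [hcardP]; exact h720) (by rw [hcardP]; exact hne)
  obtain ⟨v₁, v₂, hgood⟩ := exists_good u w huw
  have hgood' := hgood
  obtain ⟨g1, g2, g3, g4, g5, g6, g7, g8, g9, g10⟩ := hgood'
  let T : Fin 3 → Matrix.GeneralLinearGroup (Fin 4) (ZMod 2) := fun i =>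
    ⟨tvm (dualS (aa u + aa w)) (vv v₁ v₂ i), tvm (dualS (aa u + aa w)) (vv v₁ v₂ i), g8 i, g8 i⟩
  have hTτ : ∀ i, f₃ (T i) ∈ P := by
    intro i
    have hrel := hf₃r (T i)
    apply hKP _ (hf₃s _)
    generalize f₃ (T i) = τ at hrel
    have h1 : aa (τ u) + aa (τ w) = aa u + aa w := by
      have h2 := g9 i
      have h3 : (T i : M4) * (aa u + aa w) * (T i : M4).transpose = (aa (τ 0) + aa (τ u)) + (aa (τ 0) + aa (τ w)) := by
        rw [← hrel u, ← hrel w, Matrix.mul_add, Matrix.add_mul]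
      have h4 : (aa (τ 0) + aa (τ u)) + (aa (τ 0) + aa (τ w)) = aa (τ u) + aa (τ w) := by
        have := add_self_M4 (aa (τ 0))
        calc (aa (τ 0) + aa (τ u)) + (aa (τ 0) + aa (τ w)) = (aa (τ 0) + aa (τ 0)) + (aa (τ u) + aa (τ w)) := by abel
          _ = _ := by rw [this, zero_add]
      rw [← h4, ← h3]
      exact h2
    have hne' : τ u ≠ τ w := fun h => huw (τ.injective h)
    have h2 := aa_pair _ _ _ _ hne' h1
    have h3 := aa_pair _ _ _ _ hne'.symm ((add_comm _ _).trans h1)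
    rcases h2 with h2 | h2 <;> rcases h3 with h3 | h3
    · exact absurd (h2.trans h3.symm) hne'
    · exact Or.inl ⟨h2, h3⟩
    · exact Or.inr ⟨h2, h3⟩
    · exact absurd (h2.trans h3.symm) hne'
  have hx : ∀ i, ∃ x : X, M (f₁ (x : X ⧸ V)) = T i := by
    intro i
    obtain ⟨q, hq⟩ := hTτ i
    have h1 : M (f₁ q) = T i := hf₃ hq
    obtain ⟨x, rfl⟩ := QuotientGroup.mk_surjective q
    exact ⟨x, h1⟩
  choose x hx using hx
  exact rank_contra f₁ hf₁ hspec e M he headd hM hMspec _ v₁ v₂ hgood x (fun i => by rw [hx i])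
    (Cfsg.Agent.Lib.SectRank.sqBound_of_sectional h4X)

end Cfsg.Agent.Lib.SubA8Big
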