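import Mathlib
import Cfsg.Agent.Lib.TcBits
import Cfsg.Agent.Lib.CoverTau12
import Cfsg.Agent.Lib.SuzCovPa12
import Cfsg.Agent.Lib.SuzCovPb12
import Cfsg.Agent.Lib.SuzCovPc12
import Cfsg.Agent.Lib.SuzCovPd12
import Cfsg.Agent.Lib.SuzCovPe12
import Cfsg.Agent.Lib.SuzCovPf12
import Cfsg.Agent.Lib.SuzCovPg12
import Cfsg.Agent.Lib.SuzCovPz12
import Cfsg.Agent.TcData.Suz.Fin

/-!
# The covering group `6.Suz` as a group of permutations

The generators act on `196560` points, monomially over the cosets of a subgroup `U₅(2)` of `Suz`, as bit programs. The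
relators of the presentation of `Suz` have values in the powers of the shift `τ` of the fibres, of order six.
-/

set_option autoImplicit false
set_option maxRecDepth 100000
set_option Elab.async false
set_option linter.all false

namespace Cfsg.Agent.Lib.SuzCov12

open Cfsg Cfsg.Spor Subgroup Cfsg.Agent.Lib.TcBits Cfsg.Agent.Lib.TcPres Cfsg.Spor.Suz Cfsg.Agent.TcData.Suz
open scoped commutatorElement

/-- The programs of the generators. -/
noncomputable def prG : Gen → List (ℕ × ℕ)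
  | .a => Pa
  | .b => Pb
  | .c => Pc
  | .d => Pd
  | .e => Pe
  | .f => Pf
  | .g => Pg

theorem hvG : ∀ x, validProg (2 ^ 18) (prG x) = true := by
  intro x; cases x <;> decide +kernel

theorem hvZ : validProg (2 ^ 18) Pz = true := by decide +kernel

/-- The generators. -/
noncomputable def yG (x : Gen) : Equiv.Perm ℕ := genPerm prG x

/-- The shift. -/
noncomputable def tauG : Equiv.Perm ℕ := progPerm Pz

/-- The programs of a word followed by a power of the inverse of the shift. -/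
noncomputable def progsZ (r : FreeGroup Gen) (ε : ℕ) : List (List (ℕ × ℕ)) :=
  r.toWord.map (sgnProg prG) ++ List.replicate ε Pz.reverse

/-- The check of a relator on a slice. -/
noncomputable def chkZ (r : FreeGroup Gen) (ε j : ℕ) : Bool :=
  Nat.beq (wordApply id (progsZ r ε) (slice 18 j)) (slice 18 j)

theorem wordPerm_id_append (A B : List (List (ℕ × ℕ))) :
    wordPerm id (A ++ B) = wordPerm id A * wordPerm id B := by
  simp [wordPerm, List.prod_append]

theorem wordPerm_id_map (L : List (Gen × Bool)) :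
    wordPerm id (L.map (sgnProg prG)) = wordPerm (sgnProg prG) L := by
  simp [wordPerm, Function.comp_def]

theorem wordPerm_id_replicate (P : List (ℕ × ℕ)) (k : ℕ) :
    wordPerm id (List.replicate k P) = progPerm P ^ k := by
  simp [wordPerm]

theorem hvS (x : Gen × Bool) : validProg (2 ^ 18) (sgnProg prG x) = true := valid_sgnProg hvG x

theorem hvR : validProg (2 ^ 18) Pz.reverse = true := validProg_reverse hvZ

theorem valid_progsZ (r : FreeGroup Gen) (ε : ℕ) : ∀ a ∈ progsZ r ε, validProg (2 ^ 18) (id a) = true := by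
  intro a ha
  rcases List.mem_append.mp ha with h | h
  · obtain ⟨x, -, rfl⟩ := List.mem_map.mp h
    exact hvS x
  · rw [List.eq_of_mem_replicate h]
    exact hvR

theorem eq_of_chkZ {r : FreeGroup Gen} {ε : ℕ} (h : ∀ j, j < 18 → chkZ r ε j = true) :
    FreeGroup.lift yG r = tauG ^ ε := by
  have h1 : wordPerm id (progsZ r ε) = 1 :=
    wordPerm_eq_one 18 id _ (valid_progsZ r ε) (fun j hj => Nat.eq_of_beq_eq_true (h j hj))
  have h2 : FreeGroup.lift yG r = wordPerm (sgnProg prG) r.toWord := lift_eq_wordPerm hvG r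
  rw [progsZ, wordPerm_id_append, wordPerm_id_map, wordPerm_id_replicate, progPerm_reverse_mul _ _ hvZ, ← h2] at h1
  have h3 : FreeGroup.lift yG r * (tauG ^ ε)⁻¹ = 1 := by
    rw [← inv_pow]
    exact h1
  exact mul_inv_eq_one.mp h3

theorem c_a_a : ∀ j, j < 18 → chkZ ((FreeGroup.of Gen.a * FreeGroup.of Gen.a) ^ coxLabel edges Gen.a Gen.a) 0 j = true := by decide +kernel
theorem c_a_b : ∀ j, j < 18 → chkZ ((FreeGroup.of Gen.a * FreeGroup.of Gen.b) ^ coxLabel edges Gen.a Gen.b) 0 j = true := by decide +kernel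
theorem c_a_c : ∀ j, j < 18 → chkZ ((FreeGroup.of Gen.a * FreeGroup.of Gen.c) ^ coxLabel edges Gen.a Gen.c) 0 j = true := by decide +kernel
theorem c_a_d : ∀ j, j < 18 → chkZ ((FreeGroup.of Gen.a * FreeGroup.of Gen.d) ^ coxLabel edges Gen.a Gen.d) 3 j = true := by decide +kernel
theorem c_a_e : ∀ j, j < 18 → chkZ ((FreeGroup.of Gen.a * FreeGroup.of Gen.e) ^ coxLabel edges Gen.a Gen.e) 3 j = true := by decide +kernel
theorem c_a_f : ∀ j, j < 18 → chkZ ((FreeGroup.of Gen.a * FreeGroup.of Gen.f) ^ coxLabel edges Gen.a Gen.f) 0 j = true := by decide +kernel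
theorem c_a_g : ∀ j, j < 18 → chkZ ((FreeGroup.of Gen.a * FreeGroup.of Gen.g) ^ coxLabel edges Gen.a Gen.g) 0 j = true := by decide +kernel
theorem c_b_a : ∀ j, j < 18 → chkZ ((FreeGroup.of Gen.b * FreeGroup.of Gen.a) ^ coxLabel edges Gen.b Gen.a) 0 j = true := by decide +kernel
theorem c_b_b : ∀ j, j < 18 → chkZ ((FreeGroup.of Gen.b * FreeGroup.of Gen.b) ^ coxLabel edges Gen.b Gen.b) 0 j = true := by decide +kernel
theorem c_b_c : ∀ j, j < 18 → chkZ ((FreeGroup.of Gen.b * FreeGroup.of Gen.c) ^ coxLabel edges Gen.b Gen.c) 3 j = true := by decide +kernel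
theorem c_b_d : ∀ j, j < 18 → chkZ ((FreeGroup.of Gen.b * FreeGroup.of Gen.d) ^ coxLabel edges Gen.b Gen.d) 3 j = true := by decide +kernel
theorem c_b_e : ∀ j, j < 18 → chkZ ((FreeGroup.of Gen.b * FreeGroup.of Gen.e) ^ coxLabel edges Gen.b Gen.e) 3 j = true := by decide +kernel
theorem c_b_f : ∀ j, j < 18 → chkZ ((FreeGroup.of Gen.b * FreeGroup.of Gen.f) ^ coxLabel edges Gen.b Gen.f) 0 j = true := by decide +kernel
theorem c_b_g : ∀ j, j < 18 → chkZ ((FreeGroup.of Gen.b * FreeGroup.of Gen.g) ^ coxLabel edges Gen.b Gen.g) 0 j = true := by decide +kernel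
theorem c_c_a : ∀ j, j < 18 → chkZ ((FreeGroup.of Gen.c * FreeGroup.of Gen.a) ^ coxLabel edges Gen.c Gen.a) 0 j = true := by decide +kernel
theorem c_c_b : ∀ j, j < 18 → chkZ ((FreeGroup.of Gen.c * FreeGroup.of Gen.b) ^ coxLabel edges Gen.c Gen.b) 3 j = true := by decide +kernel
theorem c_c_c : ∀ j, j < 18 → chkZ ((FreeGroup.of Gen.c * FreeGroup.of Gen.c) ^ coxLabel edges Gen.c Gen.c) 0 j = true := by decide +kernel
theorem c_c_d : ∀ j, j < 18 → chkZ ((FreeGroup.of Gen.c * FreeGroup.of Gen.d) ^ coxLabel edges Gen.c Gen.d) 0 j = true := by decide +kernel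
theorem c_c_e : ∀ j, j < 18 → chkZ ((FreeGroup.of Gen.c * FreeGroup.of Gen.e) ^ coxLabel edges Gen.c Gen.e) 3 j = true := by decide +kernel
theorem c_c_f : ∀ j, j < 18 → chkZ ((FreeGroup.of Gen.c * FreeGroup.of Gen.f) ^ coxLabel edges Gen.c Gen.f) 0 j = true := by decide +kernel
theorem c_c_g : ∀ j, j < 18 → chkZ ((FreeGroup.of Gen.c * FreeGroup.of Gen.g) ^ coxLabel edges Gen.c Gen.g) 0 j = true := by decide +kernel
theorem c_d_a : ∀ j, j < 18 → chkZ ((FreeGroup.of Gen.d * FreeGroup.of Gen.a) ^ coxLabel edges Gen.d Gen.a) 3 j = true := by decide +kernel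
theorem c_d_b : ∀ j, j < 18 → chkZ ((FreeGroup.of Gen.d * FreeGroup.of Gen.b) ^ coxLabel edges Gen.d Gen.b) 3 j = true := by decide +kernel
theorem c_d_c : ∀ j, j < 18 → chkZ ((FreeGroup.of Gen.d * FreeGroup.of Gen.c) ^ coxLabel edges Gen.d Gen.c) 0 j = true := by decide +kernel
theorem c_d_d : ∀ j, j < 18 → chkZ ((FreeGroup.of Gen.d * FreeGroup.of Gen.d) ^ coxLabel edges Gen.d Gen.d) 3 j = true := by decide +kernel
theorem c_d_e : ∀ j, j < 18 → chkZ ((FreeGroup.of Gen.d * FreeGroup.of Gen.e) ^ coxLabel edges Gen.d Gen.e) 0 j = true := by decide +kernel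
theorem c_d_f : ∀ j, j < 18 → chkZ ((FreeGroup.of Gen.d * FreeGroup.of Gen.f) ^ coxLabel edges Gen.d Gen.f) 3 j = true := by decide +kernel
theorem c_d_g : ∀ j, j < 18 → chkZ ((FreeGroup.of Gen.d * FreeGroup.of Gen.g) ^ coxLabel edges Gen.d Gen.g) 3 j = true := by decide +kernel
theorem c_e_a : ∀ j, j < 18 → chkZ ((FreeGroup.of Gen.e * FreeGroup.of Gen.a) ^ coxLabel edges Gen.e Gen.a) 3 j = true := by decide +kernel
theorem c_e_b : ∀ j, j < 18 → chkZ ((FreeGroup.of Gen.e * FreeGroup.of Gen.b) ^ coxLabel edges Gen.e Gen.b) 3 j = true := by decide +kernel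
theorem c_e_c : ∀ j, j < 18 → chkZ ((FreeGroup.of Gen.e * FreeGroup.of Gen.c) ^ coxLabel edges Gen.e Gen.c) 3 j = true := by decide +kernel
theorem c_e_d : ∀ j, j < 18 → chkZ ((FreeGroup.of Gen.e * FreeGroup.of Gen.d) ^ coxLabel edges Gen.e Gen.d) 0 j = true := by decide +kernel
theorem c_e_e : ∀ j, j < 18 → chkZ ((FreeGroup.of Gen.e * FreeGroup.of Gen.e) ^ coxLabel edges Gen.e Gen.e) 3 j = true := by decide +kernel
theorem c_e_f : ∀ j, j < 18 → chkZ ((FreeGroup.of Gen.e * FreeGroup.of Gen.f) ^ coxLabel edges Gen.e Gen.f) 3 j = true := by decide +kernel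
theorem c_e_g : ∀ j, j < 18 → chkZ ((FreeGroup.of Gen.e * FreeGroup.of Gen.g) ^ coxLabel edges Gen.e Gen.g) 3 j = true := by decide +kernel
theorem c_f_a : ∀ j, j < 18 → chkZ ((FreeGroup.of Gen.f * FreeGroup.of Gen.a) ^ coxLabel edges Gen.f Gen.a) 0 j = true := by decide +kernel
theorem c_f_b : ∀ j, j < 18 → chkZ ((FreeGroup.of Gen.f * FreeGroup.of Gen.b) ^ coxLabel edges Gen.f Gen.b) 0 j = true := by decide +kernel
theorem c_f_c : ∀ j, j < 18 → chkZ ((FreeGroup.of Gen.f * FreeGroup.of Gen.c) ^ coxLabel edges Gen.f Gen.c) 0 j = true := by decide +kernel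
theorem c_f_d : ∀ j, j < 18 → chkZ ((FreeGroup.of Gen.f * FreeGroup.of Gen.d) ^ coxLabel edges Gen.f Gen.d) 3 j = true := by decide +kernel
theorem c_f_e : ∀ j, j < 18 → chkZ ((FreeGroup.of Gen.f * FreeGroup.of Gen.e) ^ coxLabel edges Gen.f Gen.e) 3 j = true := by decide +kernel
theorem c_f_f : ∀ j, j < 18 → chkZ ((FreeGroup.of Gen.f * FreeGroup.of Gen.f) ^ coxLabel edges Gen.f Gen.f) 0 j = true := by decide +kernel
theorem c_f_g : ∀ j, j < 18 → chkZ ((FreeGroup.of Gen.f * FreeGroup.of Gen.g) ^ coxLabel edges Gen.f Gen.g) 0 j = true := by decide +kernel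
theorem c_g_a : ∀ j, j < 18 → chkZ ((FreeGroup.of Gen.g * FreeGroup.of Gen.a) ^ coxLabel edges Gen.g Gen.a) 0 j = true := by decide +kernel
theorem c_g_b : ∀ j, j < 18 → chkZ ((FreeGroup.of Gen.g * FreeGroup.of Gen.b) ^ coxLabel edges Gen.g Gen.b) 0 j = true := by decide +kernel
theorem c_g_c : ∀ j, j < 18 → chkZ ((FreeGroup.of Gen.g * FreeGroup.of Gen.c) ^ coxLabel edges Gen.g Gen.c) 0 j = true := by decide +kernel
theorem c_g_d : ∀ j, j < 18 → chkZ ((FreeGroup.of Gen.g * FreeGroup.of Gen.d) ^ coxLabel edges Gen.g Gen.d) 3 j = true := by decide +kernel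
theorem c_g_e : ∀ j, j < 18 → chkZ ((FreeGroup.of Gen.g * FreeGroup.of Gen.e) ^ coxLabel edges Gen.g Gen.e) 3 j = true := by decide +kernel
theorem c_g_f : ∀ j, j < 18 → chkZ ((FreeGroup.of Gen.g * FreeGroup.of Gen.f) ^ coxLabel edges Gen.g Gen.f) 0 j = true := by decide +kernel
theorem c_g_g : ∀ j, j < 18 → chkZ ((FreeGroup.of Gen.g * FreeGroup.of Gen.g) ^ coxLabel edges Gen.g Gen.g) 0 j = true := by decide +kernel
theorem e_0 : ∀ j, j < 18 → chkZ (extra.getD 0 1) 0 j = true := by decide +kernel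
theorem e_1 : ∀ j, j < 18 → chkZ (extra.getD 1 1) 0 j = true := by decide +kernel
theorem e_2 : ∀ j, j < 18 → chkZ (extra.getD 2 1) 0 j = true := by decide +kernel
theorem e_3 : ∀ j, j < 18 → chkZ (extra.getD 3 1) 4 j = true := by decide +kernel
theorem e_4 : ∀ j, j < 18 → chkZ (extra.getD 4 1) 0 j = true := by decide +kernel

theorem hrelG : ∀ r ∈ coxRelators edges ∪ {r | r ∈ extra}, FreeGroup.lift yG r ∈ zpowers tauG := by
  have hp : ∀ {r : FreeGroup Gen} {ε : ℕ}, (∀ j, j < 18 → chkZ r ε j = true) → FreeGroup.lift yG r ∈ zpowers tauG := by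
    intro r ε h
    rw [eq_of_chkZ h]
    exact Subgroup.npow_mem_zpowers _ _
  rintro r (⟨x, -, y, -, rfl⟩ | hr)
  · cases x <;> cases y
    exacts [hp c_a_a, hp c_a_b, hp c_a_c, hp c_a_d, hp c_a_e, hp c_a_f, hp c_a_g, hp c_b_a, hp c_b_b, hp c_b_c, hp c_b_d, hp c_b_e, hp c_b_f, hp c_b_g, hp c_c_a, hp c_c_b, hp c_c_c, hp c_c_d, hp c_c_e, hp c_c_f, hp c_c_g, hp c_d_a, hp c_d_b, hp c_d_c, hp c_d_d, hp c_d_e, hp c_d_f, hp c_d_g, hp c_e_a, hp c_e_b, hp c_e_c, hp c_e_d, hp c_e_e, hp c_e_f, hp c_e_g, hp c_f_a, hp c_f_b, hp c_f_c, hp c_f_d, hp c_f_e, hp c_f_f, hp c_f_g, hp c_g_a, hp c_g_b, hp c_g_c, hp c_g_d, hp c_g_e, hp c_g_f, hp c_g_g]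
  · have hr' : r ∈ extra := hr
    obtain ⟨i, hi, rfl⟩ := List.getElem_of_mem hr'
    have hl : extra.length = 5 := rfl
    rw [hl] at hi
    have h5 : ∀ i, i < 5 → ∀ (hi : i < extra.length), FreeGroup.lift yG (extra[i]) ∈ zpowers tauG := by
      intro i h5 hi
      have e := List.getD_eq_getElem (l := extra) (d := (1 : FreeGroup Gen)) hi
      rw [← e]
      interval_cases i
      exacts [hp e_0, hp e_1, hp e_2, hp e_3, hp e_4]
    exact h5 i hi _

/-- The check of commutation with the shift. -/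
noncomputable def chkC (x : Gen) (j : ℕ) : Bool :=
  Nat.beq (wordApply id [prG x, Pz, (prG x).reverse, Pz.reverse] (slice 18 j)) (slice 18 j)

theorem chkC_a : ∀ j, j < 18 → chkC Gen.a j = true := by decide +kernel
theorem chkC_b : ∀ j, j < 18 → chkC Gen.b j = true := by decide +kernel
theorem chkC_c : ∀ j, j < 18 → chkC Gen.c j = true := by decide +kernel
theorem chkC_d : ∀ j, j < 18 → chkC Gen.d j = true := by decide +kernel
theorem chkC_e : ∀ j, j < 18 → chkC Gen.e j = true := by decide +kernel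
theorem chkC_f : ∀ j, j < 18 → chkC Gen.f j = true := by decide +kernel
theorem chkC_g : ∀ j, j < 18 → chkC Gen.g j = true := by decide +kernel

theorem commute_of_chkC {x : Gen} (h : ∀ j, j < 18 → chkC x j = true) : Commute (yG x) tauG := by
  have hv : ∀ a ∈ [prG x, Pz, (prG x).reverse, Pz.reverse], validProg (2 ^ 18) (id a) = true := by
    intro a ha
    simp only [List.mem_cons, List.not_mem_nil, or_false] at ha
    rcases ha with rfl | rfl | rfl | rfl
    · exact hvG x
    · exact hvZ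
    · exact validProg_reverse (hvG x)
    · exact hvR
  have h1 := wordPerm_eq_one 18 id _ hv (fun j hj => Nat.eq_of_beq_eq_true (h j hj))
  have h2 : wordPerm id [prG x, Pz, (prG x).reverse, Pz.reverse] =
      yG x * tauG * (yG x)⁻¹ * tauG⁻¹ := by
    simp only [wordPerm, List.map_cons, List.map_nil, List.prod_cons, List.prod_nil, mul_one, id]
    rw [progPerm_reverse_mul _ _ (hvG x), progPerm_reverse_mul _ _ hvZ]
    simp only [yG, tauG, genPerm, mul_assoc]
  rw [h2] at h1
  have h3 : yG x * tauG = tauG * yG x := by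
    have h4 : yG x * tauG * (yG x)⁻¹ = tauG := mul_inv_eq_one.mp h1
    exact mul_inv_eq_iff_eq_mul.mp h4
  exact h3

theorem hcG : ∀ x, Commute (yG x) tauG := by
  intro x
  cases x
  exacts [commute_of_chkC chkC_a, commute_of_chkC chkC_b, commute_of_chkC chkC_c, commute_of_chkC chkC_d,
    commute_of_chkC chkC_e, commute_of_chkC chkC_f, commute_of_chkC chkC_g]

theorem vZ6 : ∀ a ∈ List.replicate 6 Pz, validProg (2 ^ 18) (id a) = true := by
  intro a ha
  rw [List.eq_of_mem_replicate ha]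
  exact hvZ

theorem pow_chk : ∀ j, j < 18 → wordApply id (List.replicate 6 Pz) (slice 18 j) = slice 18 j := by decide +kernel

theorem tau_pow_six : tauG ^ 6 = 1 := by
  have h := wordPerm_eq_one 18 id _ vZ6 pow_chk
  rwa [wordPerm_id_replicate] at h

theorem tau_pow_ne {k : ℕ} (h0 : (wordApply id (List.replicate k Pz) 1).testBit 0 = false) : tauG ^ k ≠ 1 := by
  intro h
  have hv : ∀ a ∈ List.replicate k Pz, validProg (2 ^ 18) (id a) = true := by
    intro a ha
    rw [List.eq_of_mem_replicate ha]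
    exact hvZ
  have h1 := testBit_wordApply (2 ^ 18) id (List.replicate k Pz) hv 1 0
  rw [wordPerm_id_replicate] at h1
  have h2 : (progPerm Pz ^ k) 0 = 0 := by
    have : progPerm Pz ^ k = 1 := h
    rw [this]
    rfl
  rw [h2, h0] at h1
  simp at h1

theorem tau2 : tauG ^ 2 ≠ 1 := tau_pow_ne (by decide +kernel)

theorem tau3 : tauG ^ 3 ≠ 1 := tau_pow_ne (by decide +kernel)

theorem tau_order : orderOf tauG = 6 := by
  apply orderOf_eq_of_pow_and_pow_div_prime (by norm_num) tau_pow_six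
  intro p hp hd
  have h6 : (6 : ℕ) = 2 * 3 := by norm_num
  rw [h6] at hd
  rcases (Nat.Prime.dvd_mul hp).mp hd with h | h
  · have : p = 2 := (Nat.prime_dvd_prime_iff_eq hp Nat.prime_two).mp h
    subst this
    exact tau3
  · have : p = 3 := (Nat.prime_dvd_prime_iff_eq hp Nat.prime_three).mp h
    subst this
    exact tau2

/-- The element of the commutator subgroup of the free group with value the shift. -/
noncomputable def uW : FreeGroup Gen := f * b * c
noncomputable def vW : FreeGroup Gen := c * g * b * a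
noncomputable def wW : FreeGroup Gen := ⁅uW⁻¹, vW⁻¹⁆

theorem w_chk : ∀ j, j < 18 → chkZ (wW ^ 5) 1 j = true := by decide +kernel

theorem w_val : FreeGroup.lift yG (wW ^ 5) = tauG := by
  rw [eq_of_chkZ w_chk, pow_one]

theorem w_mem : wW ^ 5 ∈ commutator (FreeGroup Gen) := by
  apply Subgroup.pow_mem
  exact Subgroup.commutator_mem_commutator (mem_top _) (mem_top _)

theorem w_slices : ∀ j, j < 11 → wordApply (sgnProg Cfsg.Agent.TcData.Suz.I1782.pr) (wW ^ 5).toWord (Cfsg.Agent.Lib.TcBits.slice 11 j)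
    = Cfsg.Agent.Lib.TcBits.slice 11 j := by decide +kernel

theorem w_one : PresentedGroup.mk RR (wW ^ 5) = 1 := by
  have h := Cfsg.Agent.Lib.TcChain.mk_pow_eq_one Cfsg.Agent.TcData.Suz.I1782.hR Cfsg.Agent.TcData.Suz.I1782.hv Cfsg.Agent.TcData.Suz.Fin.main.2 w_slices
  rw [map_pow]
  exact h

instance instFiniteSuz : Finite (PresentedGroup RR) := Cfsg.Agent.TcData.Suz.Fin.instFinite

instance instNeZero6 : NeZero (6 : ℕ) := ⟨by norm_num⟩

theorem perfectSuz : commutator (PresentedGroup RR) = ⊤ := by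
  haveI : IsSimpleGroup (PresentedGroup RR) := Cfsg.Agent.TcData.Suz.Fin.final.1
  rcases (inferInstance : (commutator (PresentedGroup RR)).Normal).eq_bot_or_eq_top with h | h
  · exfalso
    have hcomm : ∀ a b : PresentedGroup RR, a * b = b * a := by
      intro a b
      have h1 : ⁅a, b⁆ ∈ commutator (PresentedGroup RR) :=
        Subgroup.commutator_mem_commutator (mem_top _) (mem_top _)
      rw [h, Subgroup.mem_bot, commutatorElement_eq_one_iff_mul_comm] at h1
      exact h1
    letI : CommGroup (PresentedGroup RR) := { (inferInstance : Group (PresentedGroup RR)) with mul_comm := hcomm }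
    have hp : (Nat.card (PresentedGroup RR)).Prime := IsSimpleGroup.prime_card
    rw [Cfsg.Agent.TcData.Suz.Fin.final.2] at hp
    exact absurd hp (by norm_num)
  · exact h

/-- The covering group of `Suz` exists. -/
theorem exists_cover : ∃ (Γ : Type) (_ : Group Γ) (_ : Finite Γ) (σ : Γ →* PresentedGroup RR), IsStemExtension σ ∧
    Nonempty (σ.ker ≃* Multiplicative (ZMod 6)) :=
  Cfsg.Agent.Lib.CoverTau12.exists_stem perfectSuz hcG hrelG tau_order (wW ^ 5) w_mem w_one w_val

end Cfsg.Agent.Lib.SuzCov12
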