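import Mathlib
import Cfsg.Agent.Lib.ChevG24
import Cfsg.Agent.TcData.Suz.Fin
import Cfsg.Agent.S1059

/-!
# The subgroup `⟨a, …, f⟩` of the presented Suzuki group is `G₂(4)`

The tables of `TcData/Suz` use only relators on the letters of the subgroups: they bound the order of the subgroup
of the group presented by the relators on `a, …, f`. That group maps to `G₂(4)` (matrices) and onto the subgroup of `Suz`.
-/

set_option autoImplicit false
set_option maxRecDepth 100000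
set_option linter.all false

namespace Cfsg.Agent.Lib.SuzG24

open Cfsg Cfsg.Spor Cfsg.Lie Cfsg.Agent.Lib.TcFacts Cfsg.Agent.Lib.TcBits Cfsg.Agent.Lib.TcPres Cfsg.Agent.Lib.TcRel
  Cfsg.Agent.Lib.TcChain Cfsg.Spor.Suz Cfsg.Agent.Lib.F4Mat14 Cfsg.Agent.Lib.ChevG24
open Cfsg.Agent.Lib.F4Mat (K4)

/-- The edges on `a, …, f`. -/
def edgesS : List (Gen × ℕ × Gen) := [(.a, 5, .b), (.b, 3, .c), (.c, 8, .d), (.d, 3, .e), (.b, 3, .f)]

/-- The relators on `a, …, f`. -/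
abbrev RS : Set (FreeGroup Gen) := coxRelators edgesS ∪ {r | r ∈ Cfsg.Agent.TcData.Suz.R1.extraS}

theorem label_eq : ∀ x ∈ Cfsg.Agent.TcData.Suz.R1.nodesS, ∀ y ∈ Cfsg.Agent.TcData.Suz.R1.nodesS,
    coxLabel edges x y = coxLabel edgesS x y := by decide

theorem relLS_eq : Cfsg.Agent.TcData.Suz.R1.relLS = relAll edgesS Cfsg.Agent.TcData.Suz.R1.nodesS Cfsg.Agent.TcData.Suz.R1.extraS := by
  unfold Cfsg.Agent.TcData.Suz.R1.relLS relAll
  congr 1

theorem relS_of_mem {r : FreeGroup Gen} (h : r ∈ Cfsg.Agent.TcData.Suz.R1.relLS) : PresentedGroup.mk RS r = 1 := by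
  rw [relLS_eq] at h
  exact relAll_spec (by decide) r h

theorem mem_R1 (r : FreeGroup Gen) (h : r ∈ Cfsg.Agent.TcData.Suz.R1.relLS) : r ∈ Cfsg.Agent.TcData.Suz.R1.relLS := h
theorem mem_R2 : ∀ r ∈ Cfsg.Agent.TcData.Suz.R2.relLS, r ∈ Cfsg.Agent.TcData.Suz.R1.relLS := by decide +kernel
theorem mem_R3 : ∀ r ∈ Cfsg.Agent.TcData.Suz.R3.relLS, r ∈ Cfsg.Agent.TcData.Suz.R1.relLS := by decide +kernel
theorem mem_R4 : ∀ r ∈ Cfsg.Agent.TcData.Suz.R4.relLS, r ∈ Cfsg.Agent.TcData.Suz.R1.relLS := by decide +kernel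

theorem hb_R1 : ∀ a, a ≤ 6 → Cfsg.Agent.TcData.Suz.R1.base a = true →
    a < 6 ∧ PresentedGroup.mk RS (Cfsg.Agent.TcData.Suz.R1.gLS.getD a 1) ∈ subOf RS Cfsg.Agent.TcData.Suz.R1.TL := by
  intro a _ h
  have h2 : a ∈ Cfsg.Agent.TcData.Suz.R1.baseL := by simpa [Cfsg.Agent.TcData.Suz.R1.base] using h
  simp only [Cfsg.Agent.TcData.Suz.R1.baseL, List.mem_cons, List.not_mem_nil, or_false] at h2
  rcases h2 with rfl | rfl | rfl | rfl | rfl
  exacts [⟨by decide, Subgroup.subset_closure ⟨.a, by simp [Cfsg.Agent.TcData.Suz.R1.TL], rfl⟩⟩,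
      ⟨by decide, Subgroup.subset_closure ⟨.b, by simp [Cfsg.Agent.TcData.Suz.R1.TL], rfl⟩⟩,
      ⟨by decide, Subgroup.subset_closure ⟨.c, by simp [Cfsg.Agent.TcData.Suz.R1.TL], rfl⟩⟩,
      ⟨by decide, Subgroup.subset_closure ⟨.d, by simp [Cfsg.Agent.TcData.Suz.R1.TL], rfl⟩⟩,
      ⟨by decide, Subgroup.subset_closure ⟨.e, by simp [Cfsg.Agent.TcData.Suz.R1.TL], rfl⟩⟩]

theorem hl_R1 : ∀ x ∈ Cfsg.Agent.TcData.Suz.R1.SL, ∀ b, letter RS Cfsg.Agent.TcData.Suz.R1.gLS Cfsg.Agent.TcData.Suz.R1.macros (Cfsg.Agent.TcData.Suz.R1.encS x b) =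
    cond b (PresentedGroup.of x) (PresentedGroup.of x)⁻¹ := by
  intro x hx b
  simp only [Cfsg.Agent.TcData.Suz.R1.SL, List.mem_cons, List.not_mem_nil, or_false] at hx
  rcases hx with rfl | rfl | rfl | rfl | rfl | rfl <;> cases b <;>
    first
      | rfl
      | exact map_inv _ _
      | exact (inv_of_node (by decide)).symm

theorem rel_R1 : ∀ r ∈ Cfsg.Agent.TcData.Suz.R1.relLS, PresentedGroup.mk RS r = 1 := fun r hr => relS_of_mem (mem_R1 r hr)

theorem ix_R1 : (subOf RS Cfsg.Agent.TcData.Suz.R1.TL).relIndex (subOf RS Cfsg.Agent.TcData.Suz.R1.SL) ≠ 0 ∧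
    (subOf RS Cfsg.Agent.TcData.Suz.R1.TL).relIndex (subOf RS Cfsg.Agent.TcData.Suz.R1.SL) ≤ 416 :=
  relIndex_le (subOf RS Cfsg.Agent.TcData.Suz.R1.TL) Cfsg.Agent.TcData.Suz.R1.SL (subOf_mono (by decide)) Cfsg.Agent.TcData.Suz.R1.gLS Cfsg.Agent.TcData.Suz.R1.macros Cfsg.Agent.TcData.Suz.R1.relLS Cfsg.Agent.TcData.Suz.R1.encS hl_R1
    Cfsg.Agent.TcData.Suz.R1.hLS rel_R1 Cfsg.Agent.TcData.Suz.R1.hrelW (by simp [Cfsg.Agent.TcData.Suz.R1.macros]) (by intro s hs; simp [Cfsg.Agent.TcData.Suz.R1.macros] at hs)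
    Cfsg.Agent.TcData.Suz.R1.ent Cfsg.Agent.TcData.Suz.R1.pa Cfsg.Agent.TcData.Suz.R1.wd Cfsg.Agent.TcData.Suz.R1.side Cfsg.Agent.TcData.Suz.R1.base
    6 2047 11 21 1215 4 15 8 79 1023 69 2048 8192 416 rfl
    (by norm_num) hb_R1 Cfsg.Agent.TcData.Suz.R1.Rels Cfsg.Agent.TcData.Suz.R1.hRels Cfsg.Agent.TcData.Suz.R1.hint Cfsg.Agent.TcData.Suz.R1.hw (by norm_num) Cfsg.Agent.TcData.Suz.R1.c18 Cfsg.Agent.TcData.Suz.R1.h1alive

theorem hb_R2 : ∀ a, a ≤ 5 → Cfsg.Agent.TcData.Suz.R2.base a = true →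
    a < 5 ∧ PresentedGroup.mk RS (Cfsg.Agent.TcData.Suz.R2.gLS.getD a 1) ∈ subOf RS Cfsg.Agent.TcData.Suz.R2.TL := by
  intro a _ h
  have h2 : a ∈ Cfsg.Agent.TcData.Suz.R2.baseL := by simpa [Cfsg.Agent.TcData.Suz.R2.base] using h
  simp only [Cfsg.Agent.TcData.Suz.R2.baseL, List.mem_cons, List.not_mem_nil, or_false] at h2
  rcases h2 with rfl | rfl | rfl | rfl
  exacts [⟨by decide, Subgroup.subset_closure ⟨.a, by simp [Cfsg.Agent.TcData.Suz.R2.TL], rfl⟩⟩,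
      ⟨by decide, Subgroup.subset_closure ⟨.b, by simp [Cfsg.Agent.TcData.Suz.R2.TL], rfl⟩⟩,
      ⟨by decide, Subgroup.subset_closure ⟨.c, by simp [Cfsg.Agent.TcData.Suz.R2.TL], rfl⟩⟩,
      ⟨by decide, Subgroup.subset_closure ⟨.d, by simp [Cfsg.Agent.TcData.Suz.R2.TL], rfl⟩⟩]

theorem hl_R2 : ∀ x ∈ Cfsg.Agent.TcData.Suz.R2.SL, ∀ b, letter RS Cfsg.Agent.TcData.Suz.R2.gLS Cfsg.Agent.TcData.Suz.R2.macros (Cfsg.Agent.TcData.Suz.R2.encS x b) =
    cond b (PresentedGroup.of x) (PresentedGroup.of x)⁻¹ := by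
  intro x hx b
  simp only [Cfsg.Agent.TcData.Suz.R2.SL, List.mem_cons, List.not_mem_nil, or_false] at hx
  rcases hx with rfl | rfl | rfl | rfl | rfl <;> cases b <;>
    first
      | rfl
      | exact map_inv _ _
      | exact (inv_of_node (by decide)).symm

theorem rel_R2 : ∀ r ∈ Cfsg.Agent.TcData.Suz.R2.relLS, PresentedGroup.mk RS r = 1 := fun r hr => relS_of_mem (mem_R2 r hr)

theorem ix_R2 : (subOf RS Cfsg.Agent.TcData.Suz.R2.TL).relIndex (subOf RS Cfsg.Agent.TcData.Suz.R2.SL) ≠ 0 ∧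
    (subOf RS Cfsg.Agent.TcData.Suz.R2.TL).relIndex (subOf RS Cfsg.Agent.TcData.Suz.R2.SL) ≤ 280 :=
  relIndex_le (subOf RS Cfsg.Agent.TcData.Suz.R2.TL) Cfsg.Agent.TcData.Suz.R2.SL (subOf_mono (by decide)) Cfsg.Agent.TcData.Suz.R2.gLS Cfsg.Agent.TcData.Suz.R2.macros Cfsg.Agent.TcData.Suz.R2.relLS Cfsg.Agent.TcData.Suz.R2.encS hl_R2
    Cfsg.Agent.TcData.Suz.R2.hLS rel_R2 Cfsg.Agent.TcData.Suz.R2.hrelW (by simp [Cfsg.Agent.TcData.Suz.R2.macros]) (by intro s hs; simp [Cfsg.Agent.TcData.Suz.R2.macros] at hs)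
    Cfsg.Agent.TcData.Suz.R2.ent Cfsg.Agent.TcData.Suz.R2.pa Cfsg.Agent.TcData.Suz.R2.wd Cfsg.Agent.TcData.Suz.R2.side Cfsg.Agent.TcData.Suz.R2.base
    5 1023 10 19 639 3 7 8 79 511 55 1024 4096 280 rfl
    (by norm_num) hb_R2 Cfsg.Agent.TcData.Suz.R2.Rels Cfsg.Agent.TcData.Suz.R2.hRels Cfsg.Agent.TcData.Suz.R2.hint Cfsg.Agent.TcData.Suz.R2.hw (by norm_num) Cfsg.Agent.TcData.Suz.R2.c9 Cfsg.Agent.TcData.Suz.R2.h1alive

theorem hb_R3 : ∀ a, a ≤ 4 → Cfsg.Agent.TcData.Suz.R3.base a = true →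
    a < 4 ∧ PresentedGroup.mk RS (Cfsg.Agent.TcData.Suz.R3.gLS.getD a 1) ∈ subOf RS Cfsg.Agent.TcData.Suz.R3.TL := by
  intro a _ h
  have h2 : a ∈ Cfsg.Agent.TcData.Suz.R3.baseL := by simpa [Cfsg.Agent.TcData.Suz.R3.base] using h
  simp only [Cfsg.Agent.TcData.Suz.R3.baseL, List.mem_cons, List.not_mem_nil, or_false] at h2
  rcases h2 with rfl | rfl
  exacts [⟨by decide, Subgroup.subset_closure ⟨.c, by simp [Cfsg.Agent.TcData.Suz.R3.TL], rfl⟩⟩,
      ⟨by decide, Subgroup.subset_closure ⟨.d, by simp [Cfsg.Agent.TcData.Suz.R3.TL], rfl⟩⟩]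

theorem hl_R3 : ∀ x ∈ Cfsg.Agent.TcData.Suz.R3.SL, ∀ b, letter RS Cfsg.Agent.TcData.Suz.R3.gLS Cfsg.Agent.TcData.Suz.R3.macros (Cfsg.Agent.TcData.Suz.R3.encS x b) =
    cond b (PresentedGroup.of x) (PresentedGroup.of x)⁻¹ := by
  intro x hx b
  simp only [Cfsg.Agent.TcData.Suz.R3.SL, List.mem_cons, List.not_mem_nil, or_false] at hx
  rcases hx with rfl | rfl | rfl | rfl <;> cases b <;>
    first
      | rfl
      | exact map_inv _ _
      | exact (inv_of_node (by decide)).symm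

theorem rel_R3 : ∀ r ∈ Cfsg.Agent.TcData.Suz.R3.relLS, PresentedGroup.mk RS r = 1 := fun r hr => relS_of_mem (mem_R3 r hr)

theorem ix_R3 : (subOf RS Cfsg.Agent.TcData.Suz.R3.TL).relIndex (subOf RS Cfsg.Agent.TcData.Suz.R3.SL) ≠ 0 ∧
    (subOf RS Cfsg.Agent.TcData.Suz.R3.TL).relIndex (subOf RS Cfsg.Agent.TcData.Suz.R3.SL) ≤ 135 :=
  relIndex_le (subOf RS Cfsg.Agent.TcData.Suz.R3.TL) Cfsg.Agent.TcData.Suz.R3.SL (subOf_mono (by decide)) Cfsg.Agent.TcData.Suz.R3.gLS Cfsg.Agent.TcData.Suz.R3.macros Cfsg.Agent.TcData.Suz.R3.relLS Cfsg.Agent.TcData.Suz.R3.encS hl_R3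
    Cfsg.Agent.TcData.Suz.R3.hLS rel_R3 Cfsg.Agent.TcData.Suz.R3.hrelW (by simp [Cfsg.Agent.TcData.Suz.R3.macros]) (by intro s hs; simp [Cfsg.Agent.TcData.Suz.R3.macros] at hs)
    Cfsg.Agent.TcData.Suz.R3.ent Cfsg.Agent.TcData.Suz.R3.pa Cfsg.Agent.TcData.Suz.R3.wd Cfsg.Agent.TcData.Suz.R3.side Cfsg.Agent.TcData.Suz.R3.base
    4 2047 11 21 1279 3 7 8 10 1023 25 2048 8192 135 rfl
    (by norm_num) hb_R3 Cfsg.Agent.TcData.Suz.R3.Rels Cfsg.Agent.TcData.Suz.R3.hRels Cfsg.Agent.TcData.Suz.R3.hint Cfsg.Agent.TcData.Suz.R3.hw (by norm_num) Cfsg.Agent.TcData.Suz.R3.c19 Cfsg.Agent.TcData.Suz.R3.h1alive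

theorem hb_R4 : ∀ a, a ≤ 2 → Cfsg.Agent.TcData.Suz.R4.base a = true →
    a < 2 ∧ PresentedGroup.mk RS (Cfsg.Agent.TcData.Suz.R4.gLS.getD a 1) ∈ subOf RS Cfsg.Agent.TcData.Suz.R4.TL := by
  intro a _ h
  have h2 : a ∈ Cfsg.Agent.TcData.Suz.R4.baseL := by simpa [Cfsg.Agent.TcData.Suz.R4.base] using h
  simp [Cfsg.Agent.TcData.Suz.R4.baseL] at h2

theorem hl_R4 : ∀ x ∈ Cfsg.Agent.TcData.Suz.R4.SL, ∀ b, letter RS Cfsg.Agent.TcData.Suz.R4.gLS Cfsg.Agent.TcData.Suz.R4.macros (Cfsg.Agent.TcData.Suz.R4.encS x b) =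
    cond b (PresentedGroup.of x) (PresentedGroup.of x)⁻¹ := by
  intro x hx b
  simp only [Cfsg.Agent.TcData.Suz.R4.SL, List.mem_cons, List.not_mem_nil, or_false] at hx
  rcases hx with rfl | rfl <;> cases b <;>
    first
      | rfl
      | exact map_inv _ _
      | exact (inv_of_node (by decide)).symm

theorem rel_R4 : ∀ r ∈ Cfsg.Agent.TcData.Suz.R4.relLS, PresentedGroup.mk RS r = 1 := fun r hr => relS_of_mem (mem_R4 r hr)

theorem ix_R4 : (subOf RS Cfsg.Agent.TcData.Suz.R4.TL).relIndex (subOf RS Cfsg.Agent.TcData.Suz.R4.SL) ≠ 0 ∧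
    (subOf RS Cfsg.Agent.TcData.Suz.R4.TL).relIndex (subOf RS Cfsg.Agent.TcData.Suz.R4.SL) ≤ 16 :=
  relIndex_le (subOf RS Cfsg.Agent.TcData.Suz.R4.TL) Cfsg.Agent.TcData.Suz.R4.SL (subOf_mono (by decide)) Cfsg.Agent.TcData.Suz.R4.gLS Cfsg.Agent.TcData.Suz.R4.macros Cfsg.Agent.TcData.Suz.R4.relLS Cfsg.Agent.TcData.Suz.R4.encS hl_R4
    Cfsg.Agent.TcData.Suz.R4.hLS rel_R4 Cfsg.Agent.TcData.Suz.R4.hrelW (by simp [Cfsg.Agent.TcData.Suz.R4.macros]) (by intro s hs; simp [Cfsg.Agent.TcData.Suz.R4.macros] at hs)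
    Cfsg.Agent.TcData.Suz.R4.ent Cfsg.Agent.TcData.Suz.R4.pa Cfsg.Agent.TcData.Suz.R4.wd Cfsg.Agent.TcData.Suz.R4.side Cfsg.Agent.TcData.Suz.R4.base
    2 31 5 8 63 3 7 8 16 7 3 32 64 16 rfl
    (by norm_num) hb_R4 Cfsg.Agent.TcData.Suz.R4.Rels Cfsg.Agent.TcData.Suz.R4.hRels Cfsg.Agent.TcData.Suz.R4.hint Cfsg.Agent.TcData.Suz.R4.hw (by norm_num) Cfsg.Agent.TcData.Suz.R4.c0 Cfsg.Agent.TcData.Suz.R4.h1alive


theorem t0 : Nat.card (subOf RS ([] : List Gen)) ≠ 0 ∧ Nat.card (subOf RS ([] : List Gen)) ≤ 1 := tower_nil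

theorem t1 : Nat.card (subOf RS Cfsg.Agent.TcData.Suz.R4.SL) ≠ 0 ∧ Nat.card (subOf RS Cfsg.Agent.TcData.Suz.R4.SL) ≤ 1 * 16 :=
  tower_step (subOf_mono (by decide)) t0 ix_R4

theorem t2 : Nat.card (subOf RS Cfsg.Agent.TcData.Suz.R3.SL) ≠ 0 ∧ Nat.card (subOf RS Cfsg.Agent.TcData.Suz.R3.SL) ≤ 1 * 16 * 135 :=
  tower_step (subOf_mono (by decide)) t1 ix_R3

theorem t3 : Nat.card (subOf RS Cfsg.Agent.TcData.Suz.R2.SL) ≠ 0 ∧ Nat.card (subOf RS Cfsg.Agent.TcData.Suz.R2.SL) ≤ 1 * 16 * 135 * 280 :=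
  tower_step (subOf_mono (by decide)) t2 ix_R2

theorem t4 : Nat.card (subOf RS Cfsg.Agent.TcData.Suz.R1.SL) ≠ 0 ∧ Nat.card (subOf RS Cfsg.Agent.TcData.Suz.R1.SL) ≤ 1 * 16 * 135 * 280 * 416 :=
  tower_step (subOf_mono (by decide)) t3 ix_R1


/-- Two surjections from a subgroup of the right size give an isomorphism. -/
theorem iso_of_surj {P Q G : Type*} [Group P] [Group Q] [Group G] (T : Subgroup P) (H : Subgroup Q)
    (π : P →* Q) (φ : P →* G) (hπ : T.map π = H) (hφ : T.map φ = ⊤) {N : ℕ}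
    (hT0 : Nat.card T ≠ 0) (hT : Nat.card T ≤ N) (hH : N ≤ Nat.card H) (hG : Nat.card G = N) :
    Nonempty (H ≃* G) := by
  classical
  haveI : Finite T := Nat.finite_of_card_ne_zero hT0
  have hN : N ≠ 0 := by
    intro h
    rw [h] at hT
    exact hT0 (Nat.le_zero.mp hT)
  haveI : Finite G := Nat.finite_of_card_ne_zero (by rw [hG]; exact hN)
  let π' : T →* H := (π.comp T.subtype).codRestrict H (by
    intro x
    rw [← hπ]
    exact Subgroup.mem_map_of_mem π x.2)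
  have hπs : Function.Surjective π' := by
    rintro ⟨y, hy⟩
    rw [← hπ] at hy
    obtain ⟨x, hx, rfl⟩ := hy
    exact ⟨⟨x, hx⟩, rfl⟩
  let φ' : T →* G := φ.comp T.subtype
  have hφs : Function.Surjective φ' := by
    intro y
    have hy : y ∈ T.map φ := by rw [hφ]; trivial
    obtain ⟨x, hx, rfl⟩ := hy
    exact ⟨⟨x, hx⟩, rfl⟩
  haveI : Finite H := Finite.of_surjective π' hπs
  have h1 : Nat.card H ≤ Nat.card T := Nat.card_le_card_of_surjective π' hπs
  have hπb : Function.Bijective π' := hπs.bijective_of_nat_card_le (by omega)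
  have hφb : Function.Bijective φ' := hφs.bijective_of_nat_card_le (by omega)
  exact ⟨((MulEquiv.ofBijective π' hπb).symm).trans (MulEquiv.ofBijective φ' hφb)⟩

abbrev GG := chevG2.group K4

/-- The codes of the letters. -/
def cG : Gen → ℕ
  | .a => LL.getD 0 idC
  | .b => LL.getD 1 idC
  | .c => LL.getD 2 idC
  | .d => LL.getD 3 idC
  | .e => LL.getD 4 idC
  | .f => LL.getD 5 idC
  | .g => idC

theorem inH_xc (r : Fin chevG2.nroots) (t : K4) : InH GG (xc r.val t) := ⟨xG r t, xG_mem r t, xG_rep r t⟩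

theorem inH_run : ∀ c ∈ runM XG.reverse prog2, InH GG c := by
  apply runM_spec
  intro c hc
  obtain ⟨q, rfl⟩ := XG_mem c (List.mem_reverse.mp hc)
  exact inH_xc q.1 q.2

theorem inH_LL : ∀ c ∈ LL, InH GG c := by
  intro c hc
  apply inH_run
  have := List.all_eq_true.1 prog2_ok c hc
  simpa using this

theorem cG_mem (x : Gen) : cG x = idC ∨ cG x ∈ LL := by
  cases x
  · right; decide +kernel
  · right; decide +kernel
  · right; decide +kernel
  · right; decide +kernel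
  · right; decide +kernel
  · right; decide +kernel
  · left; rfl

theorem cG_in (x : Gen) : InH GG (cG x) := by
  rcases cG_mem x with h | h
  · rw [h]; exact InH.idC _
  · exact inH_LL _ h

theorem cG_sq (x : Gen) : mulC (cG x) (cG x) = idC := by
  cases x <;> decide +kernel

/-- The images of the generators. -/
noncomputable def fG (x : Gen) : GG := ⟨Classical.choose (cG_in x), (Classical.choose_spec (cG_in x)).1⟩

theorem fG_rep (x : Gen) : Rep (fG x : GL IdG K4) (cG x) := (Classical.choose_spec (cG_in x)).2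

theorem fG_inv (x : Gen) : (fG x)⁻¹ = fG x := by
  apply inv_eq_of_mul_eq_one_left
  apply Subtype.ext
  have h := (fG_rep x).mul (fG_rep x)
  rw [cG_sq] at h
  exact eq_one_of_rep h

/-- The code of a word. -/
def evC : List (Gen × Bool) → ℕ
  | [] => idC
  | p :: w => mulC (cG p.1) (evC w)

theorem rep_lift (w : List (Gen × Bool)) :
    Rep ((FreeGroup.lift fG (FreeGroup.mk w) : GG) : GL IdG K4) (evC w) := by
  induction w with
  | nil =>
    have : FreeGroup.lift fG (FreeGroup.mk ([] : List (Gen × Bool))) = 1 := map_one _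
    rw [this]
    exact rep_one
  | cons p w ih =>
    have h1 : (FreeGroup.mk (p :: w) : FreeGroup Gen) = FreeGroup.mk [p] * FreeGroup.mk w := by
      rw [FreeGroup.mul_mk]; rfl
    rw [h1, map_mul]
    have h2 : FreeGroup.lift fG (FreeGroup.mk [p]) = fG p.1 := by
      rw [FreeGroup.lift_mk]
      rcases p with ⟨x, b⟩
      cases b
      · simp [fG_inv]
      · simp
    rw [h2]
    exact (fG_rep p.1).mul ih

theorem lift_eq_one {r : FreeGroup Gen} (h : evC r.toWord = idC) : FreeGroup.lift fG r = 1 := by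
  have h1 := rep_lift r.toWord
  rw [FreeGroup.mk_toWord, h] at h1
  exact Subtype.ext (eq_one_of_rep h1)

theorem check_cox : ∀ x ∈ coxNodes edgesS, ∀ y ∈ coxNodes edgesS,
    evC ((FreeGroup.of x * FreeGroup.of y) ^ coxLabel edgesS x y : FreeGroup Gen).toWord = idC := by
  decide +kernel

theorem check_extra : ∀ r ∈ Cfsg.Agent.TcData.Suz.R1.extraS, evC r.toWord = idC := by
  decide +kernel

theorem hphi : ∀ r ∈ RS, FreeGroup.lift fG r = 1 := by
  rintro r (⟨x, hx, y, hy, rfl⟩ | hr)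
  · exact lift_eq_one (check_cox x hx y hy)
  · exact lift_eq_one (check_extra r hr)

/-- The map to `G₂(4)`. -/
noncomputable def phi : PresentedGroup RS →* GG := PresentedGroup.toGroup hphi

/-- The subgroup on `a, …, f`. -/
abbrev TT : Subgroup (PresentedGroup RS) := subOf RS Cfsg.Agent.TcData.Suz.R1.SL

theorem phi_of (x : Gen) : phi (PresentedGroup.of x) = fG x := PresentedGroup.toGroup.of hphi

theorem phi_surj : TT.map phi = ⊤ := by
  rw [eq_top_iff]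
  rintro ⟨y, hy⟩ -
  let J : Subgroup (GL IdG K4) := (TT.map phi).map GG.subtype
  have hgen : ∀ x ∈ Cfsg.Agent.TcData.Suz.R1.SL, InH J (cG x) := by
    intro x hx
    refine ⟨(fG x : GL IdG K4), ?_, fG_rep x⟩
    refine ⟨fG x, ⟨PresentedGroup.of x, Subgroup.subset_closure ⟨x, hx, rfl⟩, phi_of x⟩, rfl⟩
  have hrun : ∀ c ∈ runM LL.reverse prog1, InH J c := by
    apply runM_spec
    intro c hc
    have h2 : ∀ c ∈ LL, ∃ x ∈ Cfsg.Agent.TcData.Suz.R1.SL, c = cG x := by decide +kernel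
    obtain ⟨x, hx, rfl⟩ := h2 c (List.mem_reverse.mp hc)
    exact hgen x hx
  have hXL : ∀ c ∈ XL, InH J c := by
    intro c hc
    have := List.all_eq_true.1 prog1_ok c hc
    simp only [Bool.or_eq_true, beq_iff_eq, List.contains_iff_mem] at this
    rcases this with h | h
    · rw [h]; exact InH.idC _
    · exact hrun c h
  have hle : GG ≤ J := by
    apply (Subgroup.closure_le _).2
    rintro g ⟨r, t, hg⟩
    have h3 : Rep g (xc r.val t) := rep_of_gen hg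
    have h4 : InH J (xc r.val t) := by
      have h5 : xc r.val t = idC ∨ xc r.val t ∈ XL := by
        unfold xc
        rw [List.getD_eq_getElem?_getD]
        cases h6 : XL[4 * r.val + tIdx t]? with
        | none => left; rfl
        | some c =>
          right
          exact List.mem_of_getElem? h6
      rcases h5 with h | h
      · rw [h]; exact InH.idC _
      · exact hXL _ h
    obtain ⟨g', hg', h7⟩ := h4
    have : g = g' := rep_unique h3 h7
    rw [this]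
    exact hg'
  obtain ⟨z, hz, hz2⟩ := hle hy
  have : z = ⟨y, hy⟩ := Subtype.ext hz2
  rw [← this]
  exact hz

/-- The relators of the big group. -/
abbrev RB : Set (FreeGroup Gen) := Cfsg.Agent.TcData.Suz.RR

theorem lift_of_eq (r : FreeGroup Gen) :
    FreeGroup.lift (fun x => (PresentedGroup.of x : PresentedGroup RB)) r = PresentedGroup.mk RB r := by
  have : FreeGroup.lift (fun x => (PresentedGroup.of x : PresentedGroup RB)) = PresentedGroup.mk RB := by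
    apply FreeGroup.ext_hom
    intro x
    simp [PresentedGroup.of]
  rw [this]

theorem hpi : ∀ r ∈ RS, FreeGroup.lift (fun x => (PresentedGroup.of x : PresentedGroup RB)) r = 1 := by
  intro r hr
  rw [lift_of_eq]
  apply Cfsg.Agent.TcData.Suz.R1.hrelS
  rw [relLS_eq]
  unfold relAll
  rcases hr with ⟨x, hx, y, hy, rfl⟩ | hr
  · apply List.mem_append_left
    have h2 : ∀ x ∈ coxNodes edgesS, x ∈ Cfsg.Agent.TcData.Suz.R1.nodesS := by decide
    exact List.mem_flatMap.2 ⟨x, h2 x hx, List.mem_map.2 ⟨y, h2 y hy, rfl⟩⟩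
  · exact List.mem_append_right _ (List.mem_append_left _ hr)

/-- The map to the Suzuki group. -/
noncomputable def pi : PresentedGroup RS →* PresentedGroup RB := PresentedGroup.toGroup hpi

theorem pi_of (x : Gen) : pi (PresentedGroup.of x) = PresentedGroup.of x := PresentedGroup.toGroup.of hpi

theorem pi_map {S : List Gen} : (subOf RS S).map pi = subOf RB S := by
  rw [subOf, MonoidHom.map_closure, Set.image_image, subOf]
  congr 1

theorem card_HH : 251596800 ≤ Nat.card (subOf RB Cfsg.Agent.TcData.Suz.R1.SL) := by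
  have h1 := Subgroup.card_mul_index (subOf RB Cfsg.Agent.TcData.Suz.R1.SL)
  have h2 : Nat.card (PresentedGroup RB) = 448345497600 := Cfsg.Agent.TcData.Suz.Fin.main.1
  have h3 := Cfsg.Agent.TcData.Suz.R0.relIndex_le'
  have h4 : subOf RB Cfsg.Agent.TcData.Suz.R0.SL = ⊤ := subOf_top (by intro x; cases x <;> decide)
  have h5 : Cfsg.Agent.TcData.Suz.R0.HH = subOf RB Cfsg.Agent.TcData.Suz.R1.SL := rfl
  rw [h4, Subgroup.relIndex_top_right, h5] at h3
  rw [h2] at h1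
  have h6 := h3.2
  by_contra hc
  push Not at hc
  have : Nat.card (subOf RB Cfsg.Agent.TcData.Suz.R1.SL) * (subOf RB Cfsg.Agent.TcData.Suz.R1.SL).index < 251596800 * 1782 := by
    calc _ ≤ Nat.card (subOf RB Cfsg.Agent.TcData.Suz.R1.SL) * 1782 := Nat.mul_le_mul_left _ h6
      _ < _ := Nat.mul_lt_mul_of_pos_right hc (by norm_num)
  rw [h1] at this
  norm_num at this

theorem card_GG : Nat.card GG = 251596800 := by
  rw [Cfsg.Agent.S1059.result (F := K4) (q := 4) K4.card_eq]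
  norm_num

theorem main_iso : Nonempty (subOf RB Cfsg.Agent.TcData.Suz.R1.SL ≃* GG) := by
  refine iso_of_surj TT _ pi phi pi_map phi_surj t4.1 (N := 251596800) ?_ card_HH card_GG
  have := t4.2
  norm_num at this
  exact this

end Cfsg.Agent.Lib.SuzG24
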