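import Mathlib
import Cfsg.Agent.Lib.SuzRk3A

set_option autoImplicit false
set_option linter.unusedSectionVars false
set_option linter.unusedVariables false
set_option linter.style.haveILetI false
set_option linter.unusedSimpArgs false

/-!
# The group side of the recognition of the rank three graph on 1782 points
-/

namespace Cfsg.Agent.Lib.SuzRk3B

open MulAction Finset Cfsg.Agent.Lib.SuzRk3A

/-- The ambient permutation group. -/
abbrev Pm := Equiv.Perm (Fin 1782)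

/-- The point stabiliser. -/
def A0 (P : Subgroup Pm) (a₀ : Fin 1782) : Subgroup Pm := P ⊓ stabilizer Pm a₀

theorem smul_pm (g : Pm) (x : Fin 1782) : g • x = g x := rfl

theorem invApp (d : Pm) (b : Fin 1782) : d⁻¹ (d b) = b := by simp

theorem appInv (d : Pm) (b : Fin 1782) : d (d⁻¹ b) = b := by simp

/-- A `p`-subgroup of a group can be conjugated into a subgroup containing a full Sylow subgroup. -/
theorem conj_into {X : Type*} [Group X] [Finite X] (A H Q : Subgroup X) (hH : H ≤ A) (hQ : Q ≤ A) (p n : ℕ)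
    [hp : Fact p.Prime] (hQp : IsPGroup p Q) (h1 : p ^ n ∣ Nat.card H) (h2 : ¬ p ^ (n + 1) ∣ Nat.card A) :
    ∃ y ∈ A, ∀ q ∈ Q, y * q * y⁻¹ ∈ H := by
  have hQ' : IsPGroup p (Q.subgroupOf A) := hQp.of_equiv (Subgroup.subgroupOfEquivOfLe hQ).symm
  obtain ⟨S₁, hS₁⟩ := hQ'.exists_le_sylow
  have h1' : p ^ n ∣ Nat.card (H.subgroupOf A) := by
    rwa [Nat.card_congr (Subgroup.subgroupOfEquivOfLe hH).toEquiv]
  obtain ⟨K, hK⟩ := Sylow.exists_subgroup_card_pow_prime (G := H.subgroupOf A) p h1'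
  set K₁ : Subgroup A := K.map (H.subgroupOf A).subtype with hK₁
  have cK₁ : Nat.card K₁ = p ^ n := by
    rw [hK₁, Subgroup.card_map_of_injective (Subgroup.subtype_injective _), hK]
  have hK₁p : IsPGroup p K₁ := IsPGroup.of_card cK₁
  obtain ⟨S₂, hS₂⟩ := hK₁p.exists_le_sylow
  obtain ⟨m, hm⟩ := IsPGroup.iff_card.1 S₂.isPGroup'
  have hmn : m ≤ n := by
    by_contra hlt
    apply h2
    have h3 : p ^ (n + 1) ∣ p ^ m := pow_dvd_pow p (by omega)
    have h4 : Nat.card (S₂ : Subgroup A) ∣ Nat.card A := Subgroup.card_subgroup_dvd_card _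
    rw [hm] at h4
    exact h3.trans h4
  have heq : (K₁ : Subgroup A) = (S₂ : Subgroup A) := by
    apply Subgroup.eq_of_le_of_card_ge hS₂
    rw [cK₁, hm]
    exact Nat.pow_le_pow_right hp.out.pos hmn
  obtain ⟨y, hy⟩ := MulAction.exists_smul_eq A S₁ S₂
  refine ⟨y.1, y.2, ?_⟩
  intro q hq
  have hqA : q ∈ A := hQ hq
  have h3 : (⟨q, hqA⟩ : A) ∈ (S₁ : Subgroup A) := hS₁ hq
  have h4 : (y * ⟨q, hqA⟩ * y⁻¹ : A) ∈ (S₂ : Subgroup A) := by
    rw [← hy, Sylow.coe_subgroup_smul]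
    exact Subgroup.smul_mem_pointwise_smul _ (MulAut.conj y) _ h3
  rw [← heq, hK₁] at h4
  obtain ⟨z, _, hz⟩ := h4
  have h5 : (z : A) ∈ H.subgroupOf A := z.2
  have hz' : (z : A) = y * ⟨q, hqA⟩ * y⁻¹ := hz
  rw [hz'] at h5
  exact h5

section

variable (P : Subgroup Pm) (ad : Fin 1782 → Fin 1782 → Prop) [DecidableRel ad] (a₀ y₀ z₁ z₂ c₀ : Fin 1782)
  (Q₀ : Subgroup Pm)

/-- The number of adjacent ordered pairs in a set. -/
def pairCount (S : Finset (Fin 1782)) : ℕ := ((S ×ˢ S).filter (fun p => ad p.1 p.2)).card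

/-- The concrete facts on the group and the graph. -/
structure Conc : Prop where
  ad_symm : ∀ x y, ad x y → ad y x
  ad_irr : ∀ x, ¬ ad x x
  ad_inv : ∀ g ∈ P, ∀ x y, ad (g x) (g y) ↔ ad x y
  cardBs : (univ.filter (fun x => ad a₀ x)).card = 416
  cardCs : (univ.filter (fun x => x ≠ a₀ ∧ ¬ ad a₀ x)).card = 1365
  cardA : Nat.card (A0 P a₀) = 251596800
  y₀B : ad a₀ y₀
  transB : ∀ y, ad a₀ y → ∃ h ∈ A0 P a₀, h y₀ = y
  z₁100 : ad a₀ z₁ ∧ ad y₀ z₁
  z₂315 : ad a₀ z₂ ∧ z₂ ≠ y₀ ∧ ¬ ad y₀ z₂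
  trans100 : ∀ z, ad a₀ z → ad y₀ z → ∃ h ∈ A0 P a₀, h y₀ = y₀ ∧ h z₁ = z
  trans315 : ∀ z, ad a₀ z → z ≠ y₀ → ¬ ad y₀ z → ∃ h ∈ A0 P a₀, h y₀ = y₀ ∧ h z₂ = z
  c100 : (univ.filter (fun z => ad a₀ z ∧ ad y₀ z)).card = 100
  c315 : (univ.filter (fun z => ad a₀ z ∧ z ≠ y₀ ∧ ¬ ad y₀ z)).card = 315
  exists_line : ∀ H : Subgroup Pm, H ≤ A0 P a₀ → Nat.card H = 604800 →
    ∃ y₁, ad a₀ y₁ ∧ ∀ g ∈ A0 P a₀, (g ∈ H ↔ g y₁ = y₁)
  cliqB : ∀ z w, ad a₀ z → ad a₀ w → ad z w → (univ.filter (fun x => ad a₀ x ∧ ad z x ∧ ad w x)).card = 36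
  Q_le : Q₀ ≤ A0 P a₀
  Q_p : IsPGroup 2 Q₀
  cands : ∀ S : Finset (Fin 1782), (∀ x ∈ S, ad a₀ x) → S.card = 96 → (∀ q ∈ Q₀, S.image q = S) →
    pairCount ad S = 1920 → S = univ.filter (fun y => ad a₀ y ∧ ad c₀ y)
  c₀C : c₀ ≠ a₀ ∧ ¬ ad a₀ c₀
  transC : ∀ c, c ≠ a₀ → ¬ ad a₀ c → ∃ h ∈ A0 P a₀, h c₀ = c
  XX_inj : ∀ c, c ≠ a₀ → ¬ ad a₀ c →
    univ.filter (fun y => ad a₀ y ∧ ad c y) = univ.filter (fun y => ad a₀ y ∧ ad c₀ y) → c = c₀
  orbC : ∀ T : Finset (Fin 1782), (∀ x ∈ T, x ≠ a₀ ∧ ¬ ad a₀ x ∧ x ≠ c₀) → T.card = 320 →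
    (∀ g ∈ A0 P a₀, g c₀ = c₀ → T.image g = T) → T = univ.filter (fun x => x ≠ a₀ ∧ ¬ ad a₀ x ∧ ad c₀ x)

end

section

variable {P : Subgroup Pm} {ad : Fin 1782 → Fin 1782 → Prop} [DecidableRel ad] {a₀ y₀ z₁ z₂ c₀ : Fin 1782}
  {Q₀ : Subgroup Pm}

theorem A0_le : A0 P a₀ ≤ P := inf_le_left

theorem A0_fix {g : Pm} (hg : g ∈ A0 P a₀) : g a₀ = a₀ := hg.2

variable (hC : Conc P ad a₀ y₀ z₁ z₂ c₀ Q₀)
include hC

theorem A0_ad {g : Pm} (hg : g ∈ A0 P a₀) (y : Fin 1782) : ad a₀ (g y) ↔ ad a₀ y := by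
  have := hC.ad_inv g hg.1 a₀ y
  rwa [A0_fix hg] at this

theorem A0_ne {g : Pm} (hg : g ∈ A0 P a₀) (y : Fin 1782) : g y ≠ a₀ ↔ y ≠ a₀ := by
  constructor
  · intro h e
    rw [e, A0_fix hg] at h
    exact h rfl
  · intro h e
    apply h
    apply g.injective
    rw [e, A0_fix hg]

end

section

variable {P : Subgroup Pm} {ad : Fin 1782 → Fin 1782 → Prop} [DecidableRel ad] {a₀ y₀ z₁ z₂ c₀ : Fin 1782}
  {Q₀ : Subgroup Pm}

variable {Ω : Type*} [Fintype Ω] [DecidableEq Ω] {G : Subgroup (Equiv.Perm Ω)} {a b c : Ω}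

/-- The action on the concrete points. -/
def Ea (E : stabilizer G a ≃* A0 P a₀) (x : stabilizer G a) : Pm := ((E x : A0 P a₀) : Pm)

theorem Ea_mem (E : stabilizer G a ≃* A0 P a₀) (x : stabilizer G a) : Ea E x ∈ A0 P a₀ := (E x).2

theorem Ea_mul (E : stabilizer G a ≃* A0 P a₀) (x y : stabilizer G a) : Ea E (x * y) = Ea E x * Ea E y := by
  unfold Ea
  rw [map_mul]
  rfl

theorem Ea_inv (E : stabilizer G a ≃* A0 P a₀) (x : stabilizer G a) : Ea E x⁻¹ = (Ea E x)⁻¹ := by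
  unfold Ea
  rw [map_inv]
  rfl

theorem Ea_inj (E : stabilizer G a ≃* A0 P a₀) {x y : stabilizer G a} (h : Ea E x = Ea E y) : x = y :=
  E.injective (Subtype.ext h)

theorem Ea_surj (E : stabilizer G a ≃* A0 P a₀) {g : Pm} (hg : g ∈ A0 P a₀) : ∃ x, Ea E x = g :=
  ⟨E.symm ⟨g, hg⟩, by simp [Ea]⟩

/-- An equivariant parametrisation of an orbit. -/
structure EqData (E : stabilizer G a ≃* A0 P a₀) (z : Ω) (p : Fin 1782 → Prop) (φ : Ω → Fin 1782) : Prop where
  equiv : ∀ x : stabilizer G a, ∀ w ∈ orbit (stabilizer G a) z, φ (x • w) = Ea E x (φ w)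
  mem : ∀ w ∈ orbit (stabilizer G a) z, p (φ w)
  inj : ∀ w ∈ orbit (stabilizer G a) z, ∀ w' ∈ orbit (stabilizer G a) z, φ w = φ w' → w = w'
  surj : ∀ y, p y → ∃ w ∈ orbit (stabilizer G a) z, φ w = y

open Classical in
theorem exists_equi (E : stabilizer G a ≃* A0 P a₀) (z : Ω) (y₁ : Fin 1782) (p : Fin 1782 → Prop)
    (hz : ∀ x : stabilizer G a, x • z = z → Ea E x y₁ = y₁) (hp : ∀ x, p (Ea E x y₁))
    (hsurj : ∀ y, p y → ∃ g ∈ A0 P a₀, g y₁ = y)
    (hc : (univ.filter p).card = (orbit (stabilizer G a) z).ncard) :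
    ∃ φ, EqData E z p φ ∧ φ z = y₁ := by
  let φ : Ω → Fin 1782 := fun w =>
    if hw : w ∈ orbit (stabilizer G a) z then Ea E (Classical.choose hw) y₁ else y₁
  have hφ : ∀ x : stabilizer G a, φ (x • z) = Ea E x y₁ := by
    intro x
    have hw : x • z ∈ orbit (stabilizer G a) z := ⟨x, rfl⟩
    simp only [φ, dif_pos hw]
    have hc' : Classical.choose hw • z = x • z := Classical.choose_spec hw
    have h1 : (x⁻¹ * Classical.choose hw) • z = z := by
      rw [mul_smul, hc', inv_smul_smul]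
    have h2 := hz _ h1
    rw [Ea_mul, Ea_inv, Equiv.Perm.mul_apply] at h2
    have h3 := congrArg (Ea E x) h2
    rwa [appInv] at h3
  have hmem : ∀ w ∈ orbit (stabilizer G a) z, p (φ w) := by
    rintro w ⟨m, rfl⟩
    show p (φ (m • z))
    rw [hφ]
    exact hp m
  have hsj : ∀ y, p y → ∃ w ∈ orbit (stabilizer G a) z, φ w = y := by
    intro y hy
    obtain ⟨g, hg, e⟩ := hsurj y hy
    obtain ⟨x, rfl⟩ := Ea_surj E hg
    exact ⟨x • z, ⟨x, rfl⟩, by rw [hφ, e]⟩
  set O : Finset Ω := univ.filter (fun w => w ∈ orbit (stabilizer G a) z) with hO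
  have cO : O.card = (orbit (stabilizer G a) z).ncard := card_filter_orbit _
  have hinjO : Set.InjOn φ (↑O : Set Ω) := by
    apply Finset.injOn_of_surjOn_of_card_le φ (t := univ.filter p)
    · intro w hw
      have hw' : w ∈ orbit (stabilizer G a) z := by simpa [hO] using hw
      simpa using hmem w hw'
    · intro y hy
      have hy' : p y := by simpa using hy
      obtain ⟨w, hw, e⟩ := hsj y hy'
      exact ⟨w, by simpa [hO] using hw, e⟩
    · rw [cO, hc]
  refine ⟨φ, ⟨?_, hmem, ?_, hsj⟩, ?_⟩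
  · rintro x w ⟨m, rfl⟩
    have e : x • (fun m : stabilizer G a => m • z) m = (x * m) • z := by
      show x • m • z = _
      rw [mul_smul]
    simp only [] at *
    rw [e, hφ]
    show _ = Ea E x (φ (m • z))
    rw [hφ, Ea_mul, Equiv.Perm.mul_apply]
  · intro w hw w' hw' e
    exact hinjO (by simpa [hO] using hw) (by simpa [hO] using hw') e
  · have h1 := hφ 1
    rw [one_smul] at h1
    rw [h1]
    have : Ea E (1 : stabilizer G a) = 1 := by
      unfold Ea
      rw [map_one]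
      rfl
    rw [this]
    rfl

variable (hC : Conc P ad a₀ y₀ z₁ z₂ c₀ Q₀) (h : R3 G a b c) (E : stabilizer G a ≃* A0 P a₀)
include hC h E

theorem card_A : Nat.card (stabilizer G a) = 251596800 := by
  rw [Nat.card_congr E.toEquiv, hC.cardA]

theorem card_stab_orbit (x : Ω) :
    Nat.card (stabilizer (stabilizer G a) x) * (orbit (stabilizer G a) x).ncard = 251596800 := by
  have h1 := Subgroup.card_mul_index (stabilizer (stabilizer G a) x)
  rw [index_stabilizer, card_A hC h E] at h1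
  exact h1

/-- The hom to the permutations. -/
def EaHom (E : stabilizer G a ≃* A0 P a₀) : stabilizer G a →* Pm :=
  { toFun := Ea E
    map_one' := by simp [Ea]
    map_mul' := Ea_mul E }

omit hC h in
theorem EaHom_inj : Function.Injective (EaHom E) := fun x y hxy => Ea_inj E hxy

theorem exists_phi : ∃ φ, EqData E b (ad a₀) φ := by
  classical
  set H : Subgroup Pm := (stabilizer (stabilizer G a) b).map (EaHom E) with hH
  have cH : Nat.card H = 604800 := by
    rw [hH, Subgroup.card_map_of_injective (EaHom_inj E)]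
    have := card_stab_orbit hC h E b
    rw [h.hb] at this
    omega
  have hHle : H ≤ A0 P a₀ := by
    rintro _ ⟨x, _, rfl⟩
    exact Ea_mem E x
  obtain ⟨y₁, hy₁, hy₁H⟩ := hC.exists_line H hHle cH
  obtain ⟨φ, hφ, -⟩ := exists_equi E b y₁ (ad a₀)
    (by
      intro x hx
      exact (hy₁H _ (Ea_mem E x)).1 ⟨x, hx, rfl⟩)
    (fun x => (A0_ad hC (Ea_mem E x) y₁).2 hy₁)
    (by
      intro y hy
      obtain ⟨g₁, hg₁, e₁⟩ := hC.transB y₁ hy₁
      obtain ⟨g₂, hg₂, e₂⟩ := hC.transB y hy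
      refine ⟨g₂ * g₁⁻¹, (A0 P a₀).mul_mem hg₂ ((A0 P a₀).inv_mem hg₁), ?_⟩
      rw [Equiv.Perm.mul_apply, ← e₁, invApp, e₂])
    (by
      rw [h.hb]
      have := hC.cardBs
      convert this)
  exact ⟨φ, hφ⟩

theorem lines_adj {φ : Ω → Fin 1782} (hφ : EqData E b (ad a₀) φ) :
    lam G a b a b = 100 ∧ lam G a b a c = 96 ∧
      ∀ z ∈ orbit (stabilizer G a) b, ∀ z' ∈ orbit (stabilizer G a) b, (Gam G a b z z' ↔ ad (φ z) (φ z')) := by
  classical
  obtain ⟨b₁, hb₁, e₁⟩ := hφ.surj y₀ hC.y₀B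
  set Bf : Finset Ω := univ.filter (fun z => z ∈ orbit (stabilizer G a) b) with hBf
  set Λ : Finset (Fin 1782) := (Bf.filter (fun z => Gam G a b b₁ z)).image φ with hΛ
  have cΛ : Λ.card = lam G a b a b := by
    rw [← lam_b h ((Gam_a b₁).2 hb₁), hΛ, card_image_of_injOn]
    · unfold lam
      congr 1
      ext z
      simp only [hBf, mem_filter, mem_univ, true_and, Gam_a]
    · intro z hz z' hz' e
      simp only [hBf, coe_filter, mem_filter, mem_univ, true_and, Set.mem_ofPred_eq] at hz hz'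
      exact hφ.inj z hz.1 z' hz'.1 e
  have hcl : ∀ g ∈ A0 P a₀, g y₀ = y₀ → ∀ w ∈ Λ, g w ∈ Λ := by
    intro g hg hgy w hw
    obtain ⟨z, hz, rfl⟩ := mem_image.1 hw
    simp only [hBf, mem_filter, mem_univ, true_and] at hz
    obtain ⟨x, hx⟩ := Ea_surj E hg
    have hxb : x • b₁ ∈ orbit (stabilizer G a) b := orbit_stable x.2 hb₁
    have e2 : x • b₁ = b₁ := by
      apply hφ.inj _ hxb _ hb₁
      rw [hφ.equiv x b₁ hb₁, hx, e₁, hgy]
    have e3 : Gam G a b b₁ (x • z) := by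
      have h1 := (Gam_smul (x : G) b₁ z).2 hz.2
      have e4 : (x : G) • b₁ = b₁ := e2
      rw [e4] at h1
      exact h1
    apply mem_image.2
    refine ⟨x • z, ?_, ?_⟩
    · simp only [hBf, mem_filter, mem_univ, true_and]
      exact ⟨orbit_stable x.2 hz.1, e3⟩
    · rw [hφ.equiv x z hz.1, hx]
  have hsubΛ : ∀ w ∈ Λ, ad a₀ w ∧ w ≠ y₀ := by
    intro w hw
    obtain ⟨z, hz, rfl⟩ := mem_image.1 hw
    simp only [hBf, mem_filter, mem_univ, true_and] at hz
    refine ⟨hφ.mem z hz.1, ?_⟩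
    intro e
    have : z = b₁ := hφ.inj z hz.1 b₁ hb₁ (e.trans e₁.symm)
    rw [this] at hz
    exact Gam_irrefl h b₁ hz.2
  set X : Finset (Fin 1782) := univ.filter (fun z => ad a₀ z ∧ ad y₀ z) with hX
  set Y : Finset (Fin 1782) := univ.filter (fun z => ad a₀ z ∧ z ≠ y₀ ∧ ¬ ad y₀ z) with hY
  have hXcl : ∀ w ∈ Λ, w ∈ X → X ⊆ Λ := by
    intro w hw hwX w' hw'
    simp only [hX, mem_filter, mem_univ, true_and] at hwX hw'
    obtain ⟨h1, h1m, h1f, h1e⟩ := hC.trans100 w hwX.1 hwX.2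
    obtain ⟨h2, h2m, h2f, h2e⟩ := hC.trans100 w' hw'.1 hw'.2
    have := hcl (h2 * h1⁻¹) ((A0 P a₀).mul_mem h2m ((A0 P a₀).inv_mem h1m))
      (by
        show h2 (h1⁻¹ y₀) = y₀
        have : h1⁻¹ y₀ = y₀ := by
          have h3 := invApp h1 y₀
          rwa [h1f] at h3
        rw [this, h2f]) w hw
    have e : (h2 * h1⁻¹) w = w' := by
      show h2 (h1⁻¹ w) = w'
      rw [← h1e, invApp, h2e]
    rwa [e] at this
  have hYcl : ∀ w ∈ Λ, w ∈ Y → Y ⊆ Λ := by
    intro w hw hwY w' hw'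
    simp only [hY, mem_filter, mem_univ, true_and] at hwY hw'
    obtain ⟨h1, h1m, h1f, h1e⟩ := hC.trans315 w hwY.1 hwY.2.1 hwY.2.2
    obtain ⟨h2, h2m, h2f, h2e⟩ := hC.trans315 w' hw'.1 hw'.2.1 hw'.2.2
    have := hcl (h2 * h1⁻¹) ((A0 P a₀).mul_mem h2m ((A0 P a₀).inv_mem h1m))
      (by
        show h2 (h1⁻¹ y₀) = y₀
        have : h1⁻¹ y₀ = y₀ := by
          have h3 := invApp h1 y₀
          rwa [h1f] at h3
        rw [this, h2f]) w hw
    have e : (h2 * h1⁻¹) w = w' := by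
      show h2 (h1⁻¹ w) = w'
      rw [← h1e, invApp, h2e]
    rwa [e] at this
  have hcover : ∀ w ∈ Λ, w ∈ X ∨ w ∈ Y := by
    intro w hw
    obtain ⟨h1, h2⟩ := hsubΛ w hw
    by_cases h3 : ad y₀ w
    · left
      simp only [hX, mem_filter, mem_univ, true_and]
      exact ⟨h1, h3⟩
    · right
      simp only [hY, mem_filter, mem_univ, true_and]
      exact ⟨h1, h2, h3⟩
  have hdXY : Disjoint X Y := by
    rw [Finset.disjoint_left]
    intro w h1 h2
    simp only [hX, hY, mem_filter, mem_univ, true_and] at h1 h2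
    exact h2.2.2 h1.2
  have cX : X.card = 100 := hC.c100
  have cY : Y.card = 315 := hC.c315
  have hedge := edge_count h
  have hΛX : Λ = X := by
    by_cases h1 : ∃ w ∈ Λ, w ∈ X
    · obtain ⟨w, hw, hwX⟩ := h1
      have hXsub := hXcl w hw hwX
      by_cases h2 : ∃ w ∈ Λ, w ∈ Y
      · exfalso
        obtain ⟨w', hw', hwY⟩ := h2
        have hYsub := hYcl w' hw' hwY
        have hΛeq : Λ = X ∪ Y := by
          apply Subset.antisymm
          · intro u hu
            rcases hcover u hu with h3 | h3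
            · exact mem_union_left _ h3
            · exact mem_union_right _ h3
          · exact union_subset hXsub hYsub
        have h3 : lam G a b a b = 415 := by
          rw [← cΛ, hΛeq, card_union_of_disjoint hdXY, cX, cY]
        exact mu_ne_zero h h3
      · push Not at h2
        apply Subset.antisymm _ hXsub
        intro u hu
        rcases hcover u hu with h3 | h3
        · exact h3
        · exact absurd h3 (h2 u hu)
    · exfalso
      push Not at h1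
      by_cases h2 : ∃ w ∈ Λ, w ∈ Y
      · obtain ⟨w', hw', hwY⟩ := h2
        have hYsub := hYcl w' hw' hwY
        have hΛeq : Λ = Y := by
          apply Subset.antisymm _ hYsub
          intro u hu
          rcases hcover u hu with h3 | h3
          · exact absurd h3 (h1 u hu)
          · exact h3
        have h3 : lam G a b a b = 315 := by
          rw [← cΛ, hΛeq, cY]
        rw [h3] at hedge
        omega
      · push Not at h2
        have hΛeq : Λ = ∅ := by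
          apply eq_empty_of_forall_notMem
          intro u hu
          rcases hcover u hu with h3 | h3
          · exact h1 u hu h3
          · exact h2 u hu h3
        have h3 : lam G a b a b = 0 := by
          rw [← cΛ, hΛeq, card_empty]
        rw [h3] at hedge
        omega
  have hl : lam G a b a b = 100 := by
    rw [← cΛ, hΛX, cX]
  have hm : lam G a b a c = 96 := by
    rw [hl] at hedge
    omega
  refine ⟨hl, hm, ?_⟩
  have hb1 : ∀ z ∈ orbit (stabilizer G a) b, (Gam G a b b₁ z ↔ ad y₀ (φ z)) := by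
    intro z hz
    constructor
    · intro h1
      have : φ z ∈ Λ := mem_image.2 ⟨z, by
        simp only [hBf, mem_filter, mem_univ, true_and]
        exact ⟨hz, h1⟩, rfl⟩
      rw [hΛX] at this
      simp only [hX, mem_filter, mem_univ, true_and] at this
      exact this.2
    · intro h1
      have : φ z ∈ Λ := by
        rw [hΛX]
        simp only [hX, mem_filter, mem_univ, true_and]
        exact ⟨hφ.mem z hz, h1⟩
      obtain ⟨z', hz', e⟩ := mem_image.1 this
      simp only [hBf, mem_filter, mem_univ, true_and] at hz'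
      have := hφ.inj z' hz'.1 z hz e
      rw [← this]
      exact hz'.2
  intro z hz z' hz'
  have hzb : z ∈ orbit (stabilizer G a) b₁ := by
    rw [orbit_eq_iff.2 hb₁]
    exact hz
  obtain ⟨x, hx⟩ := hzb
  have hx' : x • b₁ = z := hx
  have h1 := Gam_smul (G := G) (a := a) (b := b) (x : G) b₁ ((x : G)⁻¹ • z')
  rw [smul_inv_smul] at h1
  have e4 : (x : G) • b₁ = z := hx'
  rw [e4] at h1
  rw [h1]
  have hm' : (x : G)⁻¹ • z' ∈ orbit (stabilizer G a) b := orbit_stable (Subgroup.inv_mem _ x.2) hz'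
  rw [hb1 _ hm']
  have e5 : φ ((x : G)⁻¹ • z') = (Ea E x)⁻¹ (φ z') := by
    have := hφ.equiv x⁻¹ z' hz'
    rw [Ea_inv] at this
    exact this
  rw [e5]
  have h2 := hC.ad_inv (Ea E x) (Ea_mem E x).1 y₀ ((Ea E x)⁻¹ (φ z'))
  rw [appInv] at h2
  have e6 : Ea E x y₀ = φ z := by
    rw [← e₁, ← hφ.equiv x b₁ hb₁, hx']
  rw [e6] at h2
  exact h2.symm

end

end Cfsg.Agent.Lib.SuzRk3B
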