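import Mathlib
import Cfsg.Agent.Lib.SuzRk3B
import Cfsg.Agent.Lib.OutMcL

set_option autoImplicit false
set_option linter.unusedSectionVars false
set_option linter.unusedVariables false
set_option linter.style.haveILetI false
set_option linter.unusedSimpArgs false

/-!
# Recognition of the rank three graph on 1782 points: the remaining vertices
-/

namespace Cfsg.Agent.Lib.SuzRk3C

open MulAction Finset Cfsg.Agent.Lib.SuzRk3A Cfsg.Agent.Lib.SuzRk3B

section Hemi

variable {P : Subgroup Pm} {ad : Fin 1782 → Fin 1782 → Prop} [DecidableRel ad] {a₀ y₀ z₁ z₂ c₀ : Fin 1782}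
  {Q₀ : Subgroup Pm}

variable {Ω : Type*} [Fintype Ω] [DecidableEq Ω] {G : Subgroup (Equiv.Perm Ω)} {a b c : Ω}

open Classical in
/-- The lines adjacent to a vertex. -/
noncomputable def Sc (G : Subgroup (Equiv.Perm Ω)) (a b : Ω) (φ : Ω → Fin 1782) (c' : Ω) : Finset (Fin 1782) :=
  ((univ.filter (fun z => z ∈ orbit (stabilizer G a) b)).filter (fun z => Gam G a b c' z)).image φ

theorem mem_Sc {φ : Ω → Fin 1782} {c' : Ω} {y : Fin 1782} :
    y ∈ Sc G a b φ c' ↔ ∃ z ∈ orbit (stabilizer G a) b, Gam G a b c' z ∧ φ z = y := by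
  classical
  unfold Sc
  simp only [mem_image, mem_filter, mem_univ, true_and]
  constructor
  · rintro ⟨z, ⟨h1, h2⟩, h3⟩
    exact ⟨z, h1, h2, h3⟩
  · rintro ⟨z, h1, h2, h3⟩
    exact ⟨z, ⟨h1, h2⟩, h3⟩

theorem Sc_smul {E : stabilizer G a ≃* A0 P a₀} {φ : Ω → Fin 1782} (hφ : EqData E b (ad a₀) φ) (x : stabilizer G a)
    (c' : Ω) : Sc G a b φ (x • c') = (Sc G a b φ c').image (Ea E x) := by
  classical
  ext y
  simp only [mem_image, mem_Sc]
  constructor
  · rintro ⟨z, hz, h1, rfl⟩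
    have hz0 : x⁻¹ • z ∈ orbit (stabilizer G a) b := orbit_stable (Subgroup.inv_mem _ x.2) hz
    refine ⟨φ (x⁻¹ • z), ⟨x⁻¹ • z, hz0, ?_, rfl⟩, ?_⟩
    · have h2 := (Gam_smul (G := G) (a := a) (b := b) (x : G) c' (x⁻¹ • z)).1
      apply h2
      have e : (x : G) • ((x⁻¹ : stabilizer G a) • z) = z := smul_inv_smul x z
      rw [e]
      exact h1
    · rw [← hφ.equiv x _ hz0, smul_inv_smul]
  · rintro ⟨_, ⟨z, hz, h1, rfl⟩, rfl⟩
    refine ⟨x • z, orbit_stable x.2 hz, ?_, ?_⟩
    · exact (Gam_smul (G := G) (a := a) (b := b) (x : G) c' z).2 h1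
    · rw [hφ.equiv x z hz]



theorem pairCount_image {g : Pm} (hinv : ∀ x y, ad (g x) (g y) ↔ ad x y) (S : Finset (Fin 1782)) :
    pairCount ad (S.image g) = pairCount ad S := by
  classical
  unfold pairCount
  symm
  apply Finset.card_bij (fun p _ => (g p.1, g p.2))
  · intro p hp
    simp only [mem_filter, mem_product, mem_image] at hp ⊢
    exact ⟨⟨⟨p.1, hp.1.1, rfl⟩, ⟨p.2, hp.1.2, rfl⟩⟩, (hinv _ _).2 hp.2⟩
  · rintro ⟨p₁, p₂⟩ _ ⟨q₁, q₂⟩ _ e
    simp only [Prod.mk.injEq] at e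
    rw [g.injective e.1, g.injective e.2]
  · rintro ⟨y₁, y₂⟩ hy
    simp only [mem_filter, mem_product, mem_image] at hy
    obtain ⟨⟨⟨p₁, hp₁, rfl⟩, ⟨p₂, hp₂, rfl⟩⟩, h3⟩ := hy
    refine ⟨(p₁, p₂), ?_, rfl⟩
    simp only [mem_filter, mem_product]
    exact ⟨⟨hp₁, hp₂⟩, (hinv _ _).1 h3⟩

/-- The set of lines of a vertex of the concrete graph. -/
def XX (ad : Fin 1782 → Fin 1782 → Prop) [DecidableRel ad] (a₀ c : Fin 1782) : Finset (Fin 1782) :=
  univ.filter (fun y => ad a₀ y ∧ ad c y)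

section Main

variable (hC : Conc P ad a₀ y₀ z₁ z₂ c₀ Q₀) (h : R3 G a b c) (E : stabilizer G a ≃* A0 P a₀)
  {φ : Ω → Fin 1782} (hφ : EqData E b (ad a₀) φ)
include hC

theorem XX_image {g : Pm} (hg : g ∈ A0 P a₀) (c' : Fin 1782) : (XX ad a₀ c').image g = XX ad a₀ (g c') := by
  ext y
  simp only [XX, mem_image, mem_filter, mem_univ, true_and]
  constructor
  · rintro ⟨x, ⟨h1, h2⟩, rfl⟩
    exact ⟨(A0_ad hC hg x).2 h1, (hC.ad_inv g hg.1 _ _).2 h2⟩
  · rintro ⟨h1, h2⟩
    refine ⟨g⁻¹ y, ⟨?_, ?_⟩, appInv g y⟩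
    · rw [← A0_ad hC hg, appInv]
      exact h1
    · rw [← hC.ad_inv g hg.1, appInv]
      exact h2

theorem count_move {g : Pm} (hg : g ∈ A0 P a₀) (u : Fin 1782) :
    (univ.filter (fun x => ad a₀ x ∧ ad (g u) x)).card = (univ.filter (fun x => ad a₀ x ∧ ad u x)).card := by
  have := XX_image hC hg u
  unfold XX at this
  rw [← this, card_image_of_injective _ g.injective]

include h E hφ

theorem Sc_sub (c' : Ω) {y : Fin 1782} (hy : y ∈ Sc G a b φ c') : ad a₀ y := by
  obtain ⟨z, hz, _, rfl⟩ := mem_Sc.1 hy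
  exact hφ.mem z hz

theorem mem_Sc_iff {c' w : Ω} (hw : w ∈ orbit (stabilizer G a) b) : φ w ∈ Sc G a b φ c' ↔ Gam G a b c' w := by
  rw [mem_Sc]
  constructor
  · rintro ⟨z, hz, h1, e⟩
    rwa [← hφ.inj z hz w hw e]
  · intro h1
    exact ⟨w, hw, h1, rfl⟩

theorem Sc_card {c' : Ω} (hc' : c' ∈ orbit (stabilizer G a) c) : (Sc G a b φ c').card = 96 := by
  classical
  obtain ⟨hl, hm, hadj⟩ := lines_adj hC h E hφ
  unfold Sc
  rw [card_image_of_injOn]
  · have hne : a ≠ c' := by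
      rintro rfl
      exact a_not_C h hc'
    have hna : ¬ Gam G a b a c' := fun h2 => B_disj_C h ((Gam_a c').1 h2) hc'
    have h3 := lam_c h hne hna
    have e : lam G a b a c' = lam G a b a c := by
      obtain ⟨x, rfl⟩ := hc'
      have h1 := lam_smul (G := G) (a := a) (b := b) (x : G) a c
      rw [show (x : G) • a = a from x.2] at h1
      exact h1
    rw [hm] at e
    rw [← e]
    unfold lam
    congr 1
    ext z
    simp only [mem_filter, mem_univ, true_and, Gam_a]
  · intro z hz z' hz' e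
    simp only [coe_filter, mem_filter, mem_univ, true_and, Set.mem_ofPred_eq] at hz hz'
    exact hφ.inj z hz.1 z' hz'.1 e

open Classical in
/-- The common neighbours in the large orbit of two adjacent vertices in the small orbit. -/
theorem common_C {w w' : Ω} (hw : w ∈ orbit (stabilizer G a) b) (hw' : w' ∈ orbit (stabilizer G a) b)
    (hadj : Gam G a b w w') :
    (univ.filter (fun z => z ∈ orbit (stabilizer G a) c ∧ Gam G a b z w ∧ Gam G a b z w')).card = 63 := by
  classical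
  obtain ⟨hl, hm, hadjφ⟩ := lines_adj hC h E hφ
  have h1 := lam_b h hadj
  rw [hl] at h1
  unfold lam at h1
  set X₁ : Finset Ω := univ.filter (fun z => z ∈ orbit (stabilizer G a) b ∧ Gam G a b w z ∧ Gam G a b w' z) with hX₁
  set X₂ : Finset Ω := univ.filter (fun z => z ∈ orbit (stabilizer G a) c ∧ Gam G a b z w ∧ Gam G a b z w') with hX₂
  have e1 : univ.filter (fun z => Gam G a b w z ∧ Gam G a b w' z) = insert a (X₁ ∪ X₂) := by
    ext z
    simp only [hX₁, hX₂, mem_filter, mem_univ, true_and, mem_insert, mem_union]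
    constructor
    · rintro ⟨h2, h3⟩
      rcases cover h z with h4 | h4 | h4
      · exact Or.inl h4
      · exact Or.inr (Or.inl ⟨h4, h2, h3⟩)
      · exact Or.inr (Or.inr ⟨h4, Gam_symm h h2, Gam_symm h h3⟩)
    · rintro (rfl | ⟨_, h2, h3⟩ | ⟨_, h2, h3⟩)
      · exact ⟨Gam_symm h ((Gam_a w).2 hw), Gam_symm h ((Gam_a w').2 hw')⟩
      · exact ⟨h2, h3⟩
      · exact ⟨Gam_symm h h2, Gam_symm h h3⟩
  have hd : Disjoint X₁ X₂ := by
    rw [Finset.disjoint_left]
    intro z h2 h3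
    simp only [hX₁, hX₂, mem_filter, mem_univ, true_and] at h2 h3
    exact B_disj_C h h2.1 h3.1
  have hna : a ∉ X₁ ∪ X₂ := by
    simp only [hX₁, hX₂, mem_union, mem_filter, mem_univ, true_and, not_or, not_and]
    exact ⟨fun h2 => absurd h2 (a_not_B h), fun h2 => absurd h2 (a_not_C h)⟩
  have cX₁ : X₁.card = 36 := by
    have h2 := hC.cliqB (φ w) (φ w') (hφ.mem w hw) (hφ.mem w' hw') ((hadjφ w hw w' hw').1 hadj)
    rw [← h2]
    apply Finset.card_bij (fun z _ => φ z)
    · intro z hz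
      simp only [hX₁, mem_filter, mem_univ, true_and] at hz ⊢
      exact ⟨hφ.mem z hz.1, (hadjφ w hw z hz.1).1 hz.2.1, (hadjφ w' hw' z hz.1).1 hz.2.2⟩
    · intro z hz z' hz' e
      simp only [hX₁, mem_filter, mem_univ, true_and] at hz hz'
      exact hφ.inj z hz.1 z' hz'.1 e
    · intro y hy
      simp only [mem_filter, mem_univ, true_and] at hy
      obtain ⟨z, hz, rfl⟩ := hφ.surj y hy.1
      refine ⟨z, ?_, rfl⟩
      simp only [hX₁, mem_filter, mem_univ, true_and]
      exact ⟨hz, (hadjφ w hw z hz).2 hy.2.1, (hadjφ w' hw' z hz).2 hy.2.2⟩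
  rw [e1, card_insert_of_notMem hna, card_union_of_disjoint hd, cX₁] at h1
  omega

/-- The double count. -/
theorem pairCount_Sc {c' : Ω} (hc' : c' ∈ orbit (stabilizer G a) c) : pairCount ad (Sc G a b φ c') = 1920 := by
  classical
  obtain ⟨hl, hm, hadjφ⟩ := lines_adj hC h E hφ
  set B₀ : Finset (Fin 1782) := univ.filter (fun y => ad a₀ y) with hB₀
  set Cf : Finset Ω := univ.filter (fun z => z ∈ orbit (stabilizer G a) c) with hCf
  have cB₀ : B₀.card = 416 := hC.cardBs
  have cCf : Cf.card = 1365 := by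
    rw [hCf, card_filter_orbit, h.hc]
  -- constancy
  have hconst : ∀ z ∈ Cf, pairCount ad (Sc G a b φ z) = pairCount ad (Sc G a b φ c) := by
    intro z hz
    have hz' : z ∈ orbit (stabilizer G a) c := by simpa [hCf] using hz
    obtain ⟨x, rfl⟩ := hz'
    show pairCount ad (Sc G a b φ (x • c)) = _
    rw [Sc_smul hφ]
    exact pairCount_image (hC.ad_inv _ (Ea_mem E x).1) _
  -- the indicator
  let i : Ω → Fin 1782 → Fin 1782 → ℕ := fun z y y' =>
    if y ∈ Sc G a b φ z ∧ y' ∈ Sc G a b φ z ∧ ad y y' then 1 else 0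
  have hleft : ∀ z, pairCount ad (Sc G a b φ z) = ∑ y ∈ B₀, ∑ y' ∈ B₀, i z y y' := by
    intro z
    rw [← Finset.sum_product (s := B₀) (t := B₀) (f := fun p => i z p.1 p.2)]
    unfold pairCount
    rw [← Finset.card_filter]
    apply congrArg Finset.card
    ext ⟨y, y'⟩
    simp only [mem_filter, mem_product, hB₀, mem_univ, true_and]
    constructor
    · rintro ⟨⟨h1, h2⟩, h3⟩
      exact ⟨⟨Sc_sub hC h E hφ z h1, Sc_sub hC h E hφ z h2⟩, h1, h2, h3⟩
    · rintro ⟨_, h1, h2, h3⟩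
      exact ⟨⟨h1, h2⟩, h3⟩
  have hright : ∀ y ∈ B₀, ∀ y' ∈ B₀, ∑ z ∈ Cf, i z y y' = if ad y y' then 63 else 0 := by
    intro y hy y' hy'
    have hy1 : ad a₀ y := by simpa [hB₀] using hy
    have hy2 : ad a₀ y' := by simpa [hB₀] using hy'
    obtain ⟨w, hw, rfl⟩ := hφ.surj y hy1
    obtain ⟨w', hw', rfl⟩ := hφ.surj y' hy2
    by_cases hadj : ad (φ w) (φ w')
    · rw [if_pos hadj, ← common_C hC h E hφ hw hw' ((hadjφ w hw w' hw').2 hadj), Finset.card_filter]
      rw [hCf, Finset.sum_filter]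
      apply Finset.sum_congr rfl
      intro z _
      simp only [i, mem_Sc_iff hC h E hφ hw, mem_Sc_iff hC h E hφ hw', hadj, and_true]
      by_cases h2 : z ∈ orbit (stabilizer G a) c
      · simp [h2]
      · simp [h2]
    · rw [if_neg hadj]
      apply Finset.sum_eq_zero
      intro z _
      simp [i, hadj]
  have hsum : ∑ y ∈ B₀, ∑ y' ∈ B₀, (if ad y y' then 63 else 0) = 416 * (100 * 63) := by
    have h1 : ∀ y ∈ B₀, ∑ y' ∈ B₀, (if ad y y' then 63 else 0) = 100 * 63 := by
      intro y hy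
      have hy1 : ad a₀ y := by simpa [hB₀] using hy
      obtain ⟨g, hg, rfl⟩ := hC.transB y hy1
      have h2 := count_move hC hg y₀
      rw [hC.c100] at h2
      rw [← h2, ← Finset.sum_filter, Finset.sum_const, smul_eq_mul, hB₀, Finset.filter_filter]
    rw [Finset.sum_congr rfl h1, Finset.sum_const, cB₀, smul_eq_mul]
  have htotal : ∑ z ∈ Cf, pairCount ad (Sc G a b φ z) = 416 * (100 * 63) := by
    simp only [hleft]
    rw [Finset.sum_comm, ← hsum]
    apply Finset.sum_congr rfl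
    intro y hy
    rw [Finset.sum_comm]
    apply Finset.sum_congr rfl
    intro y' hy'
    exact hright y hy y' hy'
  rw [Finset.sum_congr rfl hconst, Finset.sum_const, cCf, smul_eq_mul] at htotal
  rw [hconst c' (by simpa [hCf] using hc')]
  omega


/-- Some vertex of the large orbit has the standard set of lines. -/
theorem exists_rep : ∃ c₁ ∈ orbit (stabilizer G a) c, Sc G a b φ c₁ = XX ad a₀ c₀ := by
  classical
  set Hc : Subgroup Pm := (stabilizer (stabilizer G a) c).map (EaHom E) with hHc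
  have cHc : Nat.card Hc = 184320 := by
    rw [hHc, Subgroup.card_map_of_injective (EaHom_inj E)]
    have := card_stab_orbit hC h E c
    rw [h.hc] at this
    omega
  have hHle : Hc ≤ A0 P a₀ := by
    rintro _ ⟨x, _, rfl⟩
    exact Ea_mem E x
  haveI : Fact (Nat.Prime 2) := ⟨Nat.prime_two⟩
  obtain ⟨y, hy, hyq⟩ := conj_into (A0 P a₀) Hc Q₀ hHle hC.Q_le 2 12 hC.Q_p
    (by rw [cHc]; norm_num) (by rw [hC.cardA]; norm_num)
  obtain ⟨x, rfl⟩ := Ea_surj E hy
  have hmem : x⁻¹ • c ∈ orbit (stabilizer G a) c := ⟨x⁻¹, rfl⟩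
  refine ⟨x⁻¹ • c, hmem, ?_⟩
  apply hC.cands _ (fun w hw => Sc_sub hC h E hφ _ hw) (Sc_card hC h E hφ hmem) _ (pairCount_Sc hC h E hφ hmem)
  intro q hq
  obtain ⟨s, hs, e⟩ := hyq q hq
  have e' : Ea E s = Ea E x * q * (Ea E x)⁻¹ := e
  have hq' : q = Ea E (x⁻¹ * s * x) := by
    rw [Ea_mul, Ea_mul, Ea_inv, e']
    group
  have hfix : (x⁻¹ * s * x) • (x⁻¹ • c) = x⁻¹ • c := by
    have hs' : s • c = c := hs
    rw [mul_smul, mul_smul, smul_inv_smul, hs']
  rw [hq', ← Sc_smul hφ, hfix]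

/-- The equivariant map on the large orbit. -/
theorem exists_psi {c₁ : Ω} (hc₁ : c₁ ∈ orbit (stabilizer G a) c) (hS : Sc G a b φ c₁ = XX ad a₀ c₀) :
    ∃ ψ, EqData E c₁ (fun y => y ≠ a₀ ∧ ¬ ad a₀ y) ψ ∧ ψ c₁ = c₀ := by
  classical
  apply exists_equi E c₁ c₀
  · intro x hx
    have h1 : Sc G a b φ (x • c₁) = (Sc G a b φ c₁).image (Ea E x) := Sc_smul hφ x c₁
    rw [hx, hS, XX_image hC (Ea_mem E x)] at h1
    have hp : Ea E x c₀ ≠ a₀ ∧ ¬ ad a₀ (Ea E x c₀) :=
      ⟨(A0_ne hC (Ea_mem E x) c₀).2 hC.c₀C.1, fun h2 => hC.c₀C.2 ((A0_ad hC (Ea_mem E x) c₀).1 h2)⟩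
    exact hC.XX_inj _ hp.1 hp.2 h1.symm
  · intro x
    exact ⟨(A0_ne hC (Ea_mem E x) c₀).2 hC.c₀C.1, fun h2 => hC.c₀C.2 ((A0_ad hC (Ea_mem E x) c₀).1 h2)⟩
  · rintro y ⟨h1, h2⟩
    exact hC.transC y h1 h2
  · rw [orbit_eq_iff.2 hc₁, h.hc]
    have := hC.cardCs
    convert this

variable {c₁ : Ω} {ψ : Ω → Fin 1782}

theorem Sc_eq (hc₁ : c₁ ∈ orbit (stabilizer G a) c) (hS : Sc G a b φ c₁ = XX ad a₀ c₀)
    (hψ : EqData E c₁ (fun y => y ≠ a₀ ∧ ¬ ad a₀ y) ψ) (hψ1 : ψ c₁ = c₀) {c' : Ω}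
    (hc' : c' ∈ orbit (stabilizer G a) c₁) : Sc G a b φ c' = XX ad a₀ (ψ c') := by
  obtain ⟨x, rfl⟩ := hc'
  show Sc G a b φ (x • c₁) = XX ad a₀ (ψ (x • c₁))
  rw [Sc_smul hφ, hS, hψ.equiv x c₁ (mem_orbit_self c₁), hψ1, XX_image hC (Ea_mem E x)]

/-- The adjacency on the large orbit. -/
theorem C_adj (hc₁ : c₁ ∈ orbit (stabilizer G a) c) (hS : Sc G a b φ c₁ = XX ad a₀ c₀)
    (hψ : EqData E c₁ (fun y => y ≠ a₀ ∧ ¬ ad a₀ y) ψ) (hψ1 : ψ c₁ = c₀) {c' c'' : Ω}
    (hc' : c' ∈ orbit (stabilizer G a) c₁) (hc'' : c'' ∈ orbit (stabilizer G a) c₁) :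
    Gam G a b c' c'' ↔ ad (ψ c') (ψ c'') := by
  classical
  have horb : orbit (stabilizer G a) c₁ = orbit (stabilizer G a) c := orbit_eq_iff.2 hc₁
  set Bf : Finset Ω := univ.filter (fun z => z ∈ orbit (stabilizer G a) b) with hBf
  set Cf : Finset Ω := univ.filter (fun z => z ∈ orbit (stabilizer G a) c₁) with hCf
  set T : Finset (Fin 1782) := (Cf.filter (fun z => Gam G a b c₁ z)).image ψ with hT
  have hinjC : Set.InjOn ψ (↑(Cf.filter (fun z => Gam G a b c₁ z)) : Set Ω) := by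
    intro z hz z' hz' e
    simp only [hCf, coe_filter, mem_filter, mem_univ, true_and, Set.mem_ofPred_eq] at hz hz'
    exact hψ.inj z hz.1 z' hz'.1 e
  have hT1 : ∀ w ∈ T, w ≠ a₀ ∧ ¬ ad a₀ w ∧ w ≠ c₀ := by
    intro w hw
    obtain ⟨z, hz, rfl⟩ := mem_image.1 hw
    simp only [hCf, mem_filter, mem_univ, true_and] at hz
    have h1 := hψ.mem z hz.1
    refine ⟨h1.1, h1.2, ?_⟩
    intro e
    have : z = c₁ := hψ.inj z hz.1 c₁ (mem_orbit_self c₁) (e.trans hψ1.symm)
    rw [this] at hz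
    exact Gam_irrefl h c₁ hz.2
  have hc₁C : c₁ ∈ orbit (stabilizer G a) c := hc₁
  have cT : T.card = 320 := by
    rw [hT, card_image_of_injOn hinjC]
    have h1 := card_Nb h c₁
    have e1 : Nb G a b c₁ = (Bf.filter (fun z => Gam G a b c₁ z)) ∪ (Cf.filter (fun z => Gam G a b c₁ z)) := by
      ext z
      simp only [Nb, hBf, hCf, mem_filter, mem_univ, true_and, mem_union]
      constructor
      · intro hz
        rcases cover h z with h2 | h2 | h2
        · exfalso
          rw [h2] at hz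
          exact B_disj_C h ((Gam_a c₁).1 (Gam_symm h hz)) hc₁
        · exact Or.inl ⟨h2, hz⟩
        · rw [← horb] at h2
          exact Or.inr ⟨h2, hz⟩
      · rintro (⟨_, h2⟩ | ⟨_, h2⟩)
        · exact h2
        · exact h2
    have hdj : Disjoint (Bf.filter (fun z => Gam G a b c₁ z)) (Cf.filter (fun z => Gam G a b c₁ z)) := by
      rw [Finset.disjoint_left]
      intro z h1 h2
      simp only [hBf, hCf, mem_filter, mem_univ, true_and] at h1 h2
      rw [horb] at h2
      exact B_disj_C h h1.1 h2.1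
    have e2 : (Bf.filter (fun z => Gam G a b c₁ z)).card = 96 := by
      have h3 := Sc_card hC h E hφ hc₁
      unfold Sc at h3
      rw [card_image_of_injOn] at h3
      · exact h3
      · intro z hz z' hz' e
        simp only [coe_filter, mem_filter, mem_univ, true_and, Set.mem_ofPred_eq] at hz hz'
        exact hφ.inj z hz.1 z' hz'.1 e
    rw [e1, card_union_of_disjoint hdj, e2] at h1
    omega
  have hT2 : ∀ g ∈ A0 P a₀, g c₀ = c₀ → T.image g = T := by
    intro g hg hgc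
    apply eq_of_subset_of_card_le
    · intro w hw
      obtain ⟨w₁, hw₁, rfl⟩ := mem_image.1 hw
      obtain ⟨z, hz, rfl⟩ := mem_image.1 hw₁
      simp only [hCf, mem_filter, mem_univ, true_and] at hz
      obtain ⟨x, rfl⟩ := Ea_surj E hg
      have hx : x • c₁ = c₁ := by
        have m1 : x • c₁ ∈ orbit (stabilizer G a) c₁ := ⟨x, rfl⟩
        apply hψ.inj _ m1 _ (mem_orbit_self c₁)
        rw [hψ.equiv x c₁ (mem_orbit_self c₁), hψ1, hgc]
      apply mem_image.2
      refine ⟨x • z, ?_, hψ.equiv x z hz.1⟩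
      simp only [hCf, mem_filter, mem_univ, true_and]
      refine ⟨orbit_stable x.2 hz.1, ?_⟩
      have h1 := (Gam_smul (x : G) c₁ z).2 hz.2
      have e : (x : G) • c₁ = c₁ := hx
      rw [e] at h1
      exact h1
    · rw [card_image_of_injective _ g.injective]
  have hTeq := hC.orbC T hT1 cT hT2
  have hcc : ∀ w ∈ orbit (stabilizer G a) c₁, (Gam G a b c₁ w ↔ ad c₀ (ψ w)) := by
    intro w hw
    constructor
    · intro h1
      have : ψ w ∈ T := mem_image.2 ⟨w, by
        simp only [hCf, mem_filter, mem_univ, true_and]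
        exact ⟨hw, h1⟩, rfl⟩
      rw [hTeq] at this
      simp only [mem_filter, mem_univ, true_and] at this
      exact this.2.2
    · intro h1
      have hm := hψ.mem w hw
      have : ψ w ∈ T := by
        rw [hTeq]
        simp only [mem_filter, mem_univ, true_and]
        exact ⟨hm.1, hm.2, h1⟩
      obtain ⟨z, hz, e⟩ := mem_image.1 this
      simp only [hCf, mem_filter, mem_univ, true_and] at hz
      rw [← hψ.inj z hz.1 w hw e]
      exact hz.2
  obtain ⟨x, hx⟩ := hc'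
  have hx' : x • c₁ = c' := hx
  have h1 := Gam_smul (G := G) (a := a) (b := b) (x : G) c₁ ((x : G)⁻¹ • c'')
  rw [smul_inv_smul] at h1
  have e4 : (x : G) • c₁ = c' := hx'
  rw [e4] at h1
  rw [h1]
  have hm' : (x : G)⁻¹ • c'' ∈ orbit (stabilizer G a) c₁ := orbit_stable (Subgroup.inv_mem _ x.2) hc''
  rw [hcc _ hm']
  have e5 : ψ ((x : G)⁻¹ • c'') = (Ea E x)⁻¹ (ψ c'') := by
    have := hψ.equiv x⁻¹ c'' hc''
    rw [Ea_inv] at this
    exact this
  rw [e5]
  have h2 := hC.ad_inv (Ea E x) (Ea_mem E x).1 c₀ ((Ea E x)⁻¹ (ψ c''))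
  rw [appInv] at h2
  have e6 : Ea E x c₀ = ψ c' := by
    rw [← hψ1, ← hψ.equiv x c₁ (mem_orbit_self c₁), hx']
  rw [e6] at h2
  exact h2.symm

/-- The graph on `Ω` is isomorphic to the concrete graph. -/
theorem graph_iso : ∃ f : Ω ≃ Fin 1782, ∀ x y, Gam G a b x y ↔ ad (f x) (f y) := by
  classical
  obtain ⟨hl, hm, hadj⟩ := lines_adj hC h E hφ
  obtain ⟨c₁, hc₁, hS⟩ := exists_rep hC h E hφ
  obtain ⟨ψ, hψ, hψ1⟩ := exists_psi hC h E hφ hc₁ hS
  have horb : orbit (stabilizer G a) c₁ = orbit (stabilizer G a) c := orbit_eq_iff.2 hc₁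
  let f0 : Ω → Fin 1782 := fun z =>
    if z = a then a₀ else if z ∈ orbit (stabilizer G a) b then φ z else ψ z
  have f_a : f0 a = a₀ := by simp [f0]
  have f_B : ∀ z ∈ orbit (stabilizer G a) b, f0 z = φ z := by
    intro z hz
    have hne : z ≠ a := by
      rintro rfl
      exact a_not_B h hz
    simp [f0, hne, hz]
  have f_C : ∀ z ∈ orbit (stabilizer G a) c₁, f0 z = ψ z := by
    intro z hz
    have hz' : z ∈ orbit (stabilizer G a) c := by rwa [← horb]
    have hne : z ≠ a := by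
      rintro rfl
      exact a_not_C h hz'
    have hnb : z ∉ orbit (stabilizer G a) b := fun h2 => B_disj_C h h2 hz'
    simp [f0, hne, hnb]
  have hcases : ∀ z, z = a ∨ z ∈ orbit (stabilizer G a) b ∨ z ∈ orbit (stabilizer G a) c₁ := by
    intro z
    rw [horb]
    exact cover h z
  have hf0inj : Function.Injective f0 := by
    intro x y e
    have hne1 : ∀ z ∈ orbit (stabilizer G a) b, φ z ≠ a₀ := by
      intro z hz e2
      have := hφ.mem z hz
      rw [e2] at this
      exact hC.ad_irr _ this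
    rcases hcases x with rfl | hx | hx
    · rcases hcases y with rfl | hy | hy
      · rfl
      · rw [f_a, f_B y hy] at e
        exact absurd e.symm (hne1 y hy)
      · rw [f_a, f_C y hy] at e
        exact absurd e.symm (hψ.mem y hy).1
    · rcases hcases y with rfl | hy | hy
      · rw [f_a, f_B x hx] at e
        exact absurd e (hne1 x hx)
      · rw [f_B x hx, f_B y hy] at e
        exact hφ.inj x hx y hy e
      · exfalso
        rw [f_B x hx, f_C y hy] at e
        have h2 := hφ.mem x hx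
        rw [e] at h2
        exact (hψ.mem y hy).2 h2
    · rcases hcases y with rfl | hy | hy
      · rw [f_a, f_C x hx] at e
        exact absurd e (hψ.mem x hx).1
      · exfalso
        rw [f_C x hx, f_B y hy] at e
        have h2 := hφ.mem y hy
        rw [← e] at h2
        exact (hψ.mem x hx).2 h2
      · rw [f_C x hx, f_C y hy] at e
        exact hψ.inj x hx y hy e
  have hbij : Function.Bijective f0 := by
    rw [Fintype.bijective_iff_injective_and_card]
    refine ⟨hf0inj, ?_⟩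
    rw [h.card]
    simp
  let f : Ω ≃ Fin 1782 := Equiv.ofBijective f0 hbij
  have hf : ∀ z, f z = f0 z := fun z => rfl
  have hsymm : ∀ x y, (Gam G a b x y ↔ ad (f0 x) (f0 y)) → (Gam G a b y x ↔ ad (f0 y) (f0 x)) := by
    intro x y h2
    constructor
    · intro h3
      exact hC.ad_symm _ _ (h2.1 (Gam_symm h h3))
    · intro h3
      exact Gam_symm h (h2.2 (hC.ad_symm _ _ h3))
  have h_a : ∀ y, Gam G a b a y ↔ ad (f0 a) (f0 y) := by
    intro y
    rw [f_a, Gam_a]
    rcases hcases y with rfl | hy | hy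
    · rw [f_a]
      constructor
      · intro h2
        exact absurd h2 (a_not_B h)
      · intro h2
        exact absurd h2 (hC.ad_irr _)
    · rw [f_B y hy]
      exact ⟨fun _ => hφ.mem y hy, fun _ => hy⟩
    · rw [f_C y hy]
      have hy' : y ∈ orbit (stabilizer G a) c := by rwa [← horb]
      constructor
      · intro h2
        exact absurd hy' (fun h3 => B_disj_C h h2 h3)
      · intro h2
        exact absurd h2 (hψ.mem y hy).2
  have h_BB : ∀ y ∈ orbit (stabilizer G a) b, ∀ y' ∈ orbit (stabilizer G a) b,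
      (Gam G a b y y' ↔ ad (f0 y) (f0 y')) := by
    intro y hy y' hy'
    rw [f_B y hy, f_B y' hy']
    exact hadj y hy y' hy'
  have h_CB : ∀ z ∈ orbit (stabilizer G a) c₁, ∀ y ∈ orbit (stabilizer G a) b,
      (Gam G a b z y ↔ ad (f0 z) (f0 y)) := by
    intro z hz y hy
    rw [f_C z hz, f_B y hy, ← mem_Sc_iff hC h E hφ hy, Sc_eq hC h E hφ hc₁ hS hψ hψ1 hz]
    simp only [XX, mem_filter, mem_univ, true_and]
    exact ⟨fun h2 => h2.2, fun h2 => ⟨hφ.mem y hy, h2⟩⟩
  have h_CC : ∀ z ∈ orbit (stabilizer G a) c₁, ∀ z' ∈ orbit (stabilizer G a) c₁,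
      (Gam G a b z z' ↔ ad (f0 z) (f0 z')) := by
    intro z hz z' hz'
    rw [f_C z hz, f_C z' hz']
    exact C_adj hC h E hφ hc₁ hS hψ hψ1 hz hz'
  refine ⟨f, ?_⟩
  intro x y
  rw [hf, hf]
  rcases hcases x with rfl | hx | hx
  · exact h_a y
  · rcases hcases y with rfl | hy | hy
    · exact hsymm _ _ (h_a x)
    · exact h_BB x hx y hy
    · exact hsymm _ _ (h_CB y hy x hx)
  · rcases hcases y with rfl | hy | hy
    · exact hsymm _ _ (h_a _)
    · exact h_CB x hx y hy
    · exact h_CC x hx y hy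

end Main

end Hemi


section Final

/-- Groups of the same order preserving a common relation, whose permutation group has at most two
such cosets, coincide when one of them is simple. -/
theorem eq_of_simple {X : Type*} [Finite X] {W P Q : Subgroup (Equiv.Perm X)} (hP : P ≤ W) (hQ : Q ≤ W)
    {n : ℕ} (hcW : Nat.card W ≤ 2 * n) (hcP : Nat.card P = n) (hcQ : Nat.card Q = n) (hn : 2 < n)
    (hs : IsSimpleGroup P) : P = Q := by
  classical
  have hnpos : 0 < n := by omega
  have hWne : Q.relIndex W ≠ 0 := by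
    intro h0
    have h1 := Subgroup.card_mul_index (Q.subgroupOf W)
    have h2 : (Q.subgroupOf W).index = 0 := h0
    rw [h2, mul_zero] at h1
    have : Nat.card W ≠ 0 := Nat.card_pos.ne'
    exact this h1.symm
  have h1 : Q.relIndex P ≤ Q.relIndex W := Subgroup.relIndex_le_of_le_right hP hWne
  have h2 : Q.relIndex W ≤ 2 := by
    have h3 := Subgroup.card_mul_index (Q.subgroupOf W)
    rw [Nat.card_congr (Subgroup.subgroupOfEquivOfLe hQ).toEquiv, hcQ] at h3
    have h4 : n * Q.relIndex W ≤ n * 2 := by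
      calc n * Q.relIndex W = Nat.card W := h3
        _ ≤ 2 * n := hcW
        _ = n * 2 := mul_comm _ _
    exact Nat.le_of_mul_le_mul_left h4 hnpos
  have hcardP : Nat.card P = n := hcP
  have hle : P ≤ Q := by
    rw [← Subgroup.relIndex_eq_one]
    have h3 : Q.relIndex P ≠ 0 := by
      intro h0
      have h4 := Subgroup.card_mul_index (Q.subgroupOf P)
      have h5 : (Q.subgroupOf P).index = 0 := h0
      rw [h5, mul_zero] at h4
      have : Nat.card P ≠ 0 := Nat.card_pos.ne'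
      exact this h4.symm
    have h4 : Q.relIndex P = 1 ∨ Q.relIndex P = 2 := by omega
    rcases h4 with h4 | h4
    · exact h4
    · exfalso
      have h5 : (Q.subgroupOf P).index = 2 := h4
      haveI : (Q.subgroupOf P).Normal := Subgroup.normal_of_index_eq_two h5
      rcases (Subgroup.Normal.eq_bot_or_eq_top (inferInstance : (Q.subgroupOf P).Normal)) with h6 | h6
      · rw [h6, Subgroup.index_bot, hcardP] at h5
        omega
      · rw [h6, Subgroup.index_top] at h5
        omega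
  exact Subgroup.eq_of_le_of_card_ge hle (by rw [hcP, hcQ])

variable {ad : Fin 1782 → Fin 1782 → Prop} {Ω : Type*} [Fintype Ω] [DecidableEq Ω] {G : Subgroup (Equiv.Perm Ω)}
  {a b : Ω}

/-- The transported group. -/
theorem iso_of_graph_iso {P : Subgroup Pm} (hP : P ≤ Cfsg.Agent.Lib.OutMcL.AutAdj ad) {n : ℕ}
    (hcW : Nat.card (Cfsg.Agent.Lib.OutMcL.AutAdj ad) ≤ 2 * n) (hcP : Nat.card P = n) (hn : 2 < n)
    (hs : IsSimpleGroup P) (hcG : Nat.card G = n) (f : Ω ≃ Fin 1782)
    (hf : ∀ x y, Gam G a b x y ↔ ad (f x) (f y)) : Nonempty (G ≃* P) := by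
  classical
  let ψ : Equiv.Perm Ω ≃* Pm := f.permCongrHom
  let Q : Subgroup Pm := G.map ψ.toMonoidHom
  have hQ : Q ≤ Cfsg.Agent.Lib.OutMcL.AutAdj ad := by
    rintro _ ⟨g, hg, rfl⟩
    intro x y
    have e : ∀ z, f.symm ((ψ g) z) = g (f.symm z) := by
      intro z
      show f.symm (f (g (f.symm z))) = _
      simp
    have h1 := hf ((⟨g, hg⟩ : G) • f.symm x) ((⟨g, hg⟩ : G) • f.symm y)
    rw [Gam_smul, hf] at h1
    simp only [Equiv.apply_symm_apply] at h1
    have e2 : ∀ z, f ((⟨g, hg⟩ : G) • f.symm z) = ψ g z := fun z => rfl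
    rw [e2, e2] at h1
    exact h1.symm
  have hcQ : Nat.card Q = n := by
    rw [← hcG]
    exact Nat.card_congr (G.equivMapOfInjective ψ.toMonoidHom ψ.injective).toEquiv.symm
  have e := eq_of_simple hP hQ hcW hcP hcQ hn hs
  refine ⟨(G.equivMapOfInjective ψ.toMonoidHom ψ.injective).trans (MulEquiv.subgroupCongr e.symm)⟩

end Final

end Cfsg.Agent.Lib.SuzRk3C
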