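import Mathlib
import Cfsg.Agent.Lib.SuzOutT
import Cfsg.Agent.Lib.SuzRk3T
import Cfsg.Agent.Lib.SuzRk3B
import Cfsg.Agent.Lib.OutMcL
import Cfsg.Agent.Lib.PermChain12

set_option autoImplicit false
set_option linter.unusedSectionVars false
set_option linter.unusedVariables false
set_option linter.style.haveILetI false
set_option linter.unusedSimpArgs false
set_option maxRecDepth 100000
set_option exponentiation.threshold 3000

/-!
# Explicit checks on the rank three graph on 1782 points: bits, closures and the graph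
-/

namespace Cfsg.Agent.Lib.SuzRk3E

open MulAction Finset Cfsg.Agent.Lib.SuzRk3A Cfsg.Agent.Lib.SuzRk3B Cfsg.Agent.Lib.SuzRk3T
open Cfsg.Agent.Lib.PermChain Cfsg.Agent.Lib.ProgChain Cfsg.Agent.Lib.SparseDfs Cfsg.Agent.Lib.SparseDfs3
  Cfsg.Agent.Lib.SuzPMain Cfsg.Agent.Lib.SuzOutL Cfsg.Agent.Lib.SuzOutT
open Cfsg.Agent.Lib.PermChain12 (allB allB_spec force force_eq)
open Cfsg.Agent.Lib.SuzPTab (tw0 tw1 Om0 Om1)

/-- A bit of a number. -/
noncomputable def tb (m x : ℕ) : Bool := Nat.beq (Nat.land (Nat.shiftRight m x) 1) 1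

theorem tb_eq (m x : ℕ) : tb m x = Nat.testBit m x := by
  have h1 : Nat.land (Nat.shiftRight m x) 1 = (m >>> x) % 2 := by
    show (m >>> x) &&& 1 = _
    exact Nat.and_one_is_mod _
  have h2 : Nat.testBit m x = ((m >>> x) % 2 == 1) := by
    rw [Nat.testBit, Nat.one_and_eq_mod_two]
    by_cases h : (m >>> x) % 2 = 1
    · simp [h]
    · have h' : (m >>> x) % 2 = 0 := by omega
      simp [h']
  unfold tb
  rw [h1, h2, Bool.eq_iff_iff, beq_iff_eq]
  exact iff_of_eq Nat.beq_eq

/-- Equality of booleans. -/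
def bE (a b : Bool) : Bool := cond a b (not b)

theorem bE_spec {a b : Bool} (h : bE a b = true) : a = b := by
  cases a <;> cases b <;> simp_all [bE]

theorem tb_lor (a b z : ℕ) : tb (Nat.lor a b) z = or (tb a z) (tb b z) := by
  rw [tb_eq, tb_eq, tb_eq]
  exact Nat.testBit_or _ _ _

theorem tb_land (a b z : ℕ) : tb (Nat.land a b) z = and (tb a z) (tb b z) := by
  rw [tb_eq, tb_eq, tb_eq]
  exact Nat.testBit_and _ _ _

theorem tb_zero (z : ℕ) : tb 0 z = false := by
  rw [tb_eq]
  simp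

theorem tb_pow (a z : ℕ) : tb (Nat.pow 2 a) z = true ↔ a = z := by
  rw [tb_eq]
  show Nat.testBit (2 ^ a) z = true ↔ _
  rw [Nat.testBit_two_pow]
  simp

/-! ### Disjunctions over ranges -/

/-- A binary disjunction. -/
noncomputable def orR (f : ℕ → ℕ) (k : ℕ) : ℕ → ℕ :=
  Nat.rec (motive := fun _ => ℕ → ℕ) (fun lo => f lo)
    (fun j ih lo => Nat.lor (ih lo) (ih (Nat.add lo (Nat.pow 2 j)))) k

theorem tb_orR (f : ℕ → ℕ) (k lo z : ℕ) :
    tb (orR f k lo) z = true ↔ ∃ x, lo ≤ x ∧ x < lo + 2 ^ k ∧ tb (f x) z = true := by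
  induction k generalizing lo with
  | zero =>
    constructor
    · intro h
      exact ⟨lo, le_rfl, by simp, h⟩
    · rintro ⟨x, h1, h2, h3⟩
      have : x = lo := by
        simp at h2
        omega
      rw [this] at h3
      exact h3
  | succ j ih =>
    have e : orR f (j + 1) lo = Nat.lor (orR f j lo) (orR f j (lo + 2 ^ j)) := rfl
    rw [e, tb_lor, Bool.or_eq_true, ih, ih]
    have hp : 2 ^ (j + 1) = 2 * 2 ^ j := by ring
    constructor
    · rintro (⟨x, h1, h2, h3⟩ | ⟨x, h1, h2, h3⟩)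
      · exact ⟨x, h1, by omega, h3⟩
      · exact ⟨x, by omega, by omega, h3⟩
    · rintro ⟨x, h1, h2, h3⟩
      by_cases h4 : x < lo + 2 ^ j
      · exact Or.inl ⟨x, h1, h4, h3⟩
      · exact Or.inr ⟨x, by omega, by omega, h3⟩

/-- A guarded disjunction. -/
noncomputable def orB (n k : ℕ) (f : ℕ → ℕ) : ℕ := orR (fun x => cond (Nat.ble n x) 0 (f x)) k 0

theorem tb_orB {n k : ℕ} (hk : n ≤ 2 ^ k) (f : ℕ → ℕ) (z : ℕ) :
    tb (orB n k f) z = true ↔ ∃ x, x < n ∧ tb (f x) z = true := by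
  unfold orB
  rw [tb_orR]
  constructor
  · rintro ⟨x, -, h2, h3⟩
    by_cases h4 : n ≤ x
    · rw [Nat.ble_eq_true_of_le h4, cond_true, tb_zero] at h3
      exact absurd h3 (by simp)
    · have h5 : Nat.ble n x = false := by
        rw [← Bool.not_eq_true, Nat.ble_eq]
        exact h4
      rw [h5, cond_false] at h3
      exact ⟨x, by omega, h3⟩
  · rintro ⟨x, h1, h3⟩
    refine ⟨x, Nat.zero_le _, by omega, ?_⟩
    have h5 : Nat.ble n x = false := by
      rw [← Bool.not_eq_true, Nat.ble_eq]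
      omega
    rw [h5, cond_false]
    exact h3

/-- A binary sum. -/
noncomputable def sumR (f : ℕ → ℕ) (k : ℕ) : ℕ → ℕ :=
  Nat.rec (motive := fun _ => ℕ → ℕ) (fun lo => f lo)
    (fun j ih lo => Nat.add (ih lo) (ih (Nat.add lo (Nat.pow 2 j)))) k

theorem sumR_eq (f : ℕ → ℕ) (k lo : ℕ) : sumR f k lo = ∑ x ∈ Ico lo (lo + 2 ^ k), f x := by
  induction k generalizing lo with
  | zero => simp [sumR]
  | succ j ih =>
    have e : sumR f (j + 1) lo = sumR f j lo + sumR f j (lo + 2 ^ j) := rfl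
    rw [e, ih, ih, Finset.sum_Ico_consecutive _ (Nat.le_add_right _ _) (Nat.le_add_right _ _)]
    congr 2
    ring

/-- A guarded sum. -/
noncomputable def sumN (n : ℕ) (f : ℕ → ℕ) : ℕ := sumR (fun x => cond (Nat.ble n x) 0 (f x)) 11 0

theorem sumN_eq {n : ℕ} (hn : n ≤ 2048) (f : ℕ → ℕ) : sumN n f = ∑ x ∈ range n, f x := by
  unfold sumN
  rw [sumR_eq]
  have e : Ico 0 (0 + 2 ^ 11) = Ico 0 n ∪ Ico n 2048 := by
    rw [Finset.Ico_union_Ico_eq_Ico (by norm_num) hn]
    norm_num
  rw [e, Finset.sum_union (Finset.Ico_disjoint_Ico_consecutive _ _ _)]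
  have h0 : ∑ x ∈ Ico n 2048, cond (Nat.ble n x) 0 (f x) = 0 := by
    apply Finset.sum_eq_zero
    intro x hx
    rw [Nat.ble_eq_true_of_le (mem_Ico.1 hx).1]
    rfl
  rw [h0, add_zero, ← Nat.Ico_zero_eq_range]
  apply Finset.sum_congr rfl
  intro x hx
  have h5 : Nat.ble n x = false := by
    rw [← Bool.not_eq_true, Nat.ble_eq]
    have := (mem_Ico.1 hx).2
    omega
  rw [h5, cond_false]

/-- Counting in a range. -/
noncomputable def cnt (p : ℕ → Bool) : ℕ := sumN 1782 (fun x => cond (p x) 1 0)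

theorem cnt_eq (p : ℕ → Bool) : ((range 1782).filter (fun x => p x = true)).card = cnt p := by
  unfold cnt
  rw [sumN_eq (by norm_num), Finset.card_filter]
  apply Finset.sum_congr rfl
  intro x _
  cases p x <;> rfl

theorem card_fil (p : Fin 1782 → Prop) [DecidablePred p] (q : ℕ → Bool) (h : ∀ x : Fin 1782, p x ↔ q x.val = true) :
    (univ.filter p).card = cnt q := by
  rw [← cnt_eq]
  apply Finset.card_bij (fun x _ => x.val)
  · intro x hx
    simp only [mem_filter, mem_univ, true_and] at hx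
    simp only [mem_filter, mem_range]
    exact ⟨x.2, (h x).1 hx⟩
  · intro x _ y _ e
    exact Fin.ext e
  · intro y hy
    simp only [mem_filter, mem_range] at hy
    refine ⟨⟨y, hy.1⟩, ?_, rfl⟩
    simp only [mem_filter, mem_univ, true_and]
    exact (h ⟨y, hy.1⟩).2 hy.2

/-! ### Sets given by masks -/

/-- The set with a given mask. -/
noncomputable def mset (m : ℕ) : Finset (Fin 1782) := univ.filter (fun x => tb m x.val = true)

theorem mem_mset {m : ℕ} {x : Fin 1782} : x ∈ mset m ↔ tb m x.val = true := by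
  simp [mset]

theorem card_mset (m : ℕ) : (mset m).card = cnt (tb m) := card_fil _ _ (fun x => Iff.rfl)

/-! ### Tables and closures -/

/-- The image of a mask under a table. -/
noncomputable def imgA (t m : ℕ) : ℕ := orB 1782 11 (fun x => cond (tb m x) (Nat.pow 2 (imW WW MM t x)) 0)

theorem tb_imgA (t m z : ℕ) : tb (imgA t m) z = true ↔ ∃ x, x < 1782 ∧ tb m x = true ∧ imW WW MM t x = z := by
  unfold imgA
  rw [tb_orB (by norm_num)]
  constructor
  · rintro ⟨x, h1, h2⟩
    cases h3 : tb m x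
    · rw [h3, cond_false, tb_zero] at h2
      exact absurd h2 (by simp)
    · rw [h3, cond_true, tb_pow] at h2
      exact ⟨x, h1, h3, h2⟩
  · rintro ⟨x, h1, h2, h3⟩
    refine ⟨x, h1, ?_⟩
    rw [h2, cond_true, tb_pow]
    exact h3

/-- One step of a closure. -/
noncomputable def stp (t m : ℕ) : ℕ := Nat.lor m (imgA t m)

/-- Several letters. -/
noncomputable def stps (ts : List ℕ) : ℕ → ℕ :=
  List.rec (motive := fun _ => ℕ → ℕ) (fun m => m) (fun t _ ih m => force (stp t m) ih) ts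

/-- The closure. -/
noncomputable def clo (ts : List ℕ) (fuel : ℕ) : ℕ → ℕ :=
  Nat.rec (motive := fun _ => ℕ → ℕ) (fun m => m) (fun _ ih m => force (stps ts m) ih) fuel

theorem stp_inv {R : ℕ → Prop} {t m : ℕ} (hl : ∀ x, x < 1782 → R x → R (imW WW MM t x))
    (hm : ∀ x, tb m x = true → R x) (y : ℕ) (hy : tb (stp t m) y = true) : R y := by
  unfold stp at hy
  rw [tb_lor, Bool.or_eq_true, tb_imgA] at hy
  rcases hy with hy | ⟨x, h1, h2, rfl⟩
  · exact hm y hy
  · exact hl x h1 (hm x h2)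

theorem stps_inv {R : ℕ → Prop} {ts : List ℕ} (hl : ∀ t ∈ ts, ∀ x, x < 1782 → R x → R (imW WW MM t x)) :
    ∀ m, (∀ x, tb m x = true → R x) → ∀ y, tb (stps ts m) y = true → R y := by
  induction ts with
  | nil =>
    intro m hm y hy
    exact hm y hy
  | cons t ts ih =>
    intro m hm y hy
    have e : stps (t :: ts) m = force (stp t m) (stps ts) := rfl
    rw [e, force_eq] at hy
    exact ih (fun k hk => hl k (List.mem_cons_of_mem _ hk)) _
      (stp_inv (hl t (by simp)) hm) y hy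

theorem clo_inv {R : ℕ → Prop} {ts : List ℕ} (hl : ∀ t ∈ ts, ∀ x, x < 1782 → R x → R (imW WW MM t x)) (fuel : ℕ) :
    ∀ m, (∀ x, tb m x = true → R x) → ∀ y, tb (clo ts fuel m) y = true → R y := by
  induction fuel with
  | zero =>
    intro m hm y hy
    exact hm y hy
  | succ fuel ih =>
    intro m hm y hy
    have e : clo ts (fuel + 1) m = force (stps ts m) (clo ts fuel) := rfl
    rw [e, force_eq] at hy
    exact ih _ (stps_inv hl m hm) y hy

/-- Reaching points with a subgroup containing the letters. -/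
theorem reach_clo {H : Subgroup Pm} {ts : List ℕ} (hts : ∀ t ∈ ts, ∃ h ∈ H, RepW WW MM h t) (fuel : ℕ) (z : Fin 1782)
    {x : Fin 1782} (hx : tb (clo ts fuel (Nat.pow 2 z.val)) x.val = true) : ∃ h ∈ H, h z = x := by
  have key := clo_inv (R := fun y => ∃ h ∈ H, (h z).val = y) (ts := ts) (by
    rintro t ht y hy ⟨h, hh, rfl⟩
    obtain ⟨k, hk, hr⟩ := hts t ht
    refine ⟨k * h, H.mul_mem hk hh, ?_⟩
    rw [Equiv.Perm.mul_apply, hr]) fuel (Nat.pow 2 z.val) (by
    intro y hy
    refine ⟨1, H.one_mem, ?_⟩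
    rw [tb_pow] at hy
    rw [← hy]
    rfl) x.val hx
  obtain ⟨h, hh, e⟩ := key
  exact ⟨h, hh, Fin.ext e⟩

/-! ### Tables of the letters -/

theorem rep_g (e : ℕ) (he : e < 184) : RepW WW MM (g e) (lT e) := rep_lT e he

/-- Tables of words. -/
theorem rep_word {w : List ℕ} {t : ℕ} (h : tabW w t = true) : RepW WW MM (prodW g w) t := rep_of_tabW h

/-- Values of words. -/
theorem word_val {w : List ℕ} (hw : wordOK 184 w = true) (x : Fin 1782) :
    (prodW g w x).val = evalL WW MM (tL lT w) x.val := repL_word rep_lT w hw x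

/-! ### The graph -/

/-- The transversal of the group over the point stabiliser. -/
noncomputable def UU (x : ℕ) : Pm := prodW g (tw0 x)

theorem wok_chk : allB 1782 11 (fun x => wordOK 184 (tw0 x)) = true := by decide +kernel

theorem wok (x : Fin 1782) : wordOK 184 (tw0 x.val) = true := allB_spec _ _ _ (by norm_num) wok_chk x.val x.2

theorem UU_val (x p : Fin 1782) : (UU x.val p).val = evalL WW MM (tL lT (tw0 x.val)) p.val := word_val (wok x) p

/-- A row of the graph. -/
noncomputable def row (x : ℕ) : ℕ :=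
  orB 1782 11 (fun p => cond (tb Om1 p) (Nat.pow 2 (evalL WW MM (tL lT (tw0 x)) p)) 0)

theorem tb_row (x : Fin 1782) (z : ℕ) :
    tb (row x.val) z = true ↔ ∃ p : Fin 1782, p ∈ orbF 1782 Om1 ∧ (UU x.val p).val = z := by
  unfold row
  rw [tb_orB (by norm_num)]
  constructor
  · rintro ⟨p, h1, h2⟩
    cases h3 : tb Om1 p
    · rw [h3, cond_false, tb_zero] at h2
      exact absurd h2 (by simp)
    · rw [h3, cond_true, tb_pow] at h2
      refine ⟨⟨p, h1⟩, ?_, ?_⟩
      · rw [mem_orbF, ← tb_eq]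
        exact h3
      · rw [UU_val]
        exact h2
  · rintro ⟨p, h1, h2⟩
    refine ⟨p.val, p.2, ?_⟩
    rw [mem_orbF, ← tb_eq] at h1
    rw [h1, cond_true, tb_pow, ← UU_val]
    exact h2

theorem tb_row_high (x : Fin 1782) (j : ℕ) (hj : 1782 ≤ j) : tb (row x.val) j = false := by
  rw [← Bool.not_eq_true, tb_row]
  rintro ⟨p, -, h⟩
  have := (UU x.val p).2
  omega

/-- The relation on numbers. -/
noncomputable def adN (x y : ℕ) : Bool := tb (row x) y

/-- The relation. -/
def ad (x y : Fin 1782) : Prop := adN x.val y.val = true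

noncomputable instance instDecAd : DecidableRel ad := fun x y => Bool.decEq _ _

theorem ad_iff (x y : Fin 1782) : ad x y ↔ (UU x.val)⁻¹ y ∈ orbF 1782 Om1 := by
  unfold ad adN
  rw [tb_row]
  constructor
  · rintro ⟨p, h1, h2⟩
    have e : y = UU x.val p := Fin.ext h2.symm
    rw [e, invApp]
    exact h1
  · intro h
    exact ⟨_, h, by rw [appInv]⟩

/-- The point stabiliser preserves the neighbours of the base point. -/
theorem stab_O1 {k : Pm} (hk : k ∈ grp g 92 2) {p : Fin 1782} (hp : p ∈ orbF 1782 Om1) :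
    k p ∈ orbF 1782 Om1 := by
  have h1 := lev1.2.mem p hp
  have h2 := lev1.2.img p hp
  have h3 := (lev1.2.cover (k * prodW g (tw1 p.val)) ((grp g 92 2).mul_mem hk h1)).1
  rw [Equiv.Perm.mul_apply, h2] at h3
  exact h3

theorem UU_cover {h : Pm} (hh : h ∈ GG) (x : Fin 1782) : (UU (h x).val)⁻¹ * h * UU x.val ∈ grp g 92 2 := by
  have hall : ∀ p : Fin 1782, p ∈ orbF 1782 Om0 := all_mem_orbF hOm
  have h1 : UU x.val ∈ GG := lev0.2.mem x (hall x)
  have h2 : UU (h x).val ∈ GG := lev0.2.mem (h x) (hall _)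
  have h3 : UU x.val ⟨0, by norm_num⟩ = x := lev0.2.img x (hall x)
  have h4 : UU (h x).val ⟨0, by norm_num⟩ = h x := lev0.2.img (h x) (hall _)
  set k : Pm := (UU (h x).val)⁻¹ * h * UU x.val with hk
  have hkG : k ∈ GG := GG.mul_mem (GG.mul_mem (GG.inv_mem h2) hh) h1
  have h5 : k ⟨0, by norm_num⟩ = ⟨0, by norm_num⟩ := by
    have h7 := invApp (UU (h x).val) ⟨0, by norm_num⟩
    rw [h4] at h7
    rw [hk, Equiv.Perm.mul_apply, h3, Equiv.Perm.mul_apply, h7]
  have h6 := (lev0.2.cover k hkG).2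
  rw [h5, lev0.2.one, inv_one, one_mul] at h6
  exact h6

/-- The group preserves the graph. -/
theorem ad_inv (h : Pm) (hh : h ∈ GG) (x y : Fin 1782) : ad (h x) (h y) ↔ ad x y := by
  have hk := UU_cover hh x
  have e : (UU (h x).val)⁻¹ (h y) = ((UU (h x).val)⁻¹ * h * UU x.val) ((UU x.val)⁻¹ y) := by
    rw [Equiv.Perm.mul_apply, appInv, Equiv.Perm.mul_apply]
  rw [ad_iff, ad_iff, e]
  constructor
  · intro h1
    have h2 := stab_O1 ((grp g 92 2).inv_mem hk) h1
    rwa [invApp] at h2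
  · exact stab_O1 hk

theorem GG_le : GG ≤ Cfsg.Agent.Lib.OutMcL.AutAdj ad := fun h hh x y => ad_inv h hh x y

end Cfsg.Agent.Lib.SuzRk3E
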