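import Mathlib
import Cfsg.Agent.Lib.SuzRk3B

set_option autoImplicit false
set_option linter.unusedSectionVars false
set_option linter.unusedVariables false
set_option linter.style.haveILetI false
set_option linter.unusedSimpArgs false

/-!
# Subgroups containing a Sylow subgroup: an abstract criterion

A family of sets acted on by a group `J`, with the stabiliser of one of them normalising a subgroup `T`: the joins of
`T` with its conjugates control the subgroups between `T` and `J`.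
-/

namespace Cfsg.Agent.Lib.SuzRk3F

open MulAction Finset Cfsg.Agent.Lib.SuzRk3A Cfsg.Agent.Lib.SuzRk3B
open scoped Pointwise

theorem smul_eq (g : Pm) (s : Finset (Fin 1782)) : g • s = s.image g := by
  rw [Finset.smul_finset_def]
  rfl

theorem image_mul (a b : Pm) (s : Finset (Fin 1782)) : s.image (a * b : Pm) = (s.image b).image a := by
  rw [image_image]
  rfl

theorem image_inv_of {a : Pm} {s t : Finset (Fin 1782)} (h : s.image a = t) : t.image (a⁻¹ : Pm) = s := by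
  rw [← h, ← image_mul]
  simp

/-- The data of the criterion. -/
structure FData (J T N₀ : Subgroup Pm) (S : ℕ → Finset (Fin 1782)) (i0 r₀ i₁ : ℕ) (root : ℕ → ℕ)
    (jr : ℕ → Pm) (RR L6 : List ℕ) : Prop where
  cardJ : Nat.card J = 604800
  T_le : T ≤ N₀
  N_le : N₀ ≤ J
  i0lt : i0 < 2016
  closed : ∀ j ∈ J, ∀ i, i < 2016 → ∃ i', i' < 2016 ∧ (S i).image j = S i'
  inj : ∀ i i', i < 2016 → i' < 2016 → S i = S i' → i = i'
  stab : ∀ n ∈ N₀, (S i0).image n = S i0
  norm : ∀ n ∈ N₀, ∀ t ∈ T, n * t * n⁻¹ ∈ T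
  card300 : 300 ≤ Nat.card N₀
  root_lt : ∀ i, i < 2016 → root i < 2016
  tree : ∀ i, i < 2016 → ∃ n ∈ N₀, (S (root i)).image n = S i
  jr_mem : ∀ i, i < 2016 → jr (root i) ∈ J
  jr_img : ∀ i, i < 2016 → (S i0).image (jr (root i)) = S (root i)
  big : ∀ i, i < 2016 → root i ≠ i0 → root i ≠ r₀ → ∀ K : Subgroup Pm, T ≤ K →
    (∀ t ∈ T, jr (root i) * t * (jr (root i))⁻¹ ∈ K) → J ≤ K
  r₀lt : r₀ < 2016
  r₀r : root r₀ = r₀
  r₀jr : jr r₀ ∈ J
  r₀img : (S i0).image (jr r₀) = S r₀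
  r₀ne : r₀ ≠ i0
  RR_iff : ∀ i, i < 2016 → (root i = i0 ∨ root i = r₀) → i ∈ RR
  RR_lt : ∀ i ∈ RR, i < 2016
  RR_N : ∀ n ∈ N₀, ∀ i ∈ RR, ∃ i' ∈ RR, (S i).image n = S i'
  L6_spec : ∀ i ∈ RR, ∀ i' ∈ RR, (S i).image (jr r₀) = S i' → i' ∈ L6
  L6_len : L6.length ≤ 6
  L6_lt : ∀ i ∈ L6, i < 2016
  i₁lt : i₁ < 2016
  i₁r : root i₁ = r₀
  i₁L : i₁ ∉ L6

section

variable {J T N₀ : Subgroup Pm} {S : ℕ → Finset (Fin 1782)} {i0 r₀ i₁ : ℕ} {root : ℕ → ℕ} {jr : ℕ → Pm}
  {RR L6 : List ℕ}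

variable (hF : FData J T N₀ S i0 r₀ i₁ root jr RR L6)
include hF

theorem root_i0 {i : ℕ} (hi : i < 2016) (h : root i = i0) : i = i0 := by
  obtain ⟨n, hn, e⟩ := hF.tree i hi
  rw [h, hF.stab n hn] at e
  exact (hF.inj _ _ hF.i0lt hi e).symm

theorem card_N_le : Nat.card ↥(J ⊓ stabilizer Pm (S i0)) ≤ 300 := by
  classical
  have h1 := Cfsg.Agent.Lib.SuzRk3A.card_eq_orbit_mul_inf J (S i0)
  rw [hF.cardJ] at h1
  have hsub : (Finset.range 2016).image S ⊆ (orbit J (S i0)).toFinset := by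
    intro s hs
    obtain ⟨i, hi, rfl⟩ := mem_image.1 hs
    have hi' := mem_range.1 hi
    obtain ⟨n, hn, e⟩ := hF.tree i hi'
    rw [Set.mem_toFinset]
    refine ⟨⟨n * jr (root i), J.mul_mem (hF.N_le hn) (hF.jr_mem i hi')⟩, ?_⟩
    show (n * jr (root i)) • S i0 = S i
    rw [smul_eq, image_mul, hF.jr_img i hi', e]
  have hc : 2016 ≤ (orbit J (S i0)).ncard := by
    have h2 := card_le_card hsub
    rw [card_image_of_injOn, card_range] at h2
    · rw [Set.ncard_eq_toFinset_card']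
      exact h2
    · intro i hi i' hi' e
      exact hF.inj _ _ (by simpa using hi) (by simpa using hi') e
  have hpos : 0 < Nat.card ↥(J ⊓ stabilizer Pm (S i0)) := Nat.card_pos
  by_contra hlt
  push Not at hlt
  have : 2016 * 301 ≤ (orbit J (S i0)).ncard * Nat.card ↥(J ⊓ stabilizer Pm (S i0)) :=
    Nat.mul_le_mul hc hlt
  rw [← h1] at this
  omega

theorem N_eq : N₀ = J ⊓ stabilizer Pm (S i0) := by
  apply Subgroup.eq_of_le_of_card_ge
  · intro n hn
    refine ⟨hF.N_le hn, ?_⟩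
    show n • S i0 = S i0
    rw [smul_eq, hF.stab n hn]
  · exact (card_N_le hF).trans hF.card300

theorem mem_N {n : Pm} (hn : n ∈ J) (h : (S i0).image n = S i0) : n ∈ N₀ := by
  rw [N_eq hF]
  refine ⟨hn, ?_⟩
  show n • S i0 = S i0
  rw [smul_eq, h]

theorem norm_inv {n : Pm} (hn : n ∈ N₀) {t : Pm} (ht : t ∈ T) : n⁻¹ * t * n ∈ T := by
  have := hF.norm n⁻¹ (N₀.inv_mem hn) t ht
  simpa using this

/-- The case of a big join. -/
theorem K_big {K : Subgroup Pm} (hTK : T ≤ K) (hKJ : K ≤ J) {k : Pm} (hk : k ∈ K) {i : ℕ} (hi : i < 2016)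
    (e : (S i0).image k = S i) (h1 : root i ≠ i0) (h2 : root i ≠ r₀) : K = J := by
  apply le_antisymm hKJ
  obtain ⟨n, hn, en⟩ := hF.tree i hi
  set j := jr (root i) with hj
  have hjJ : j ∈ J := hF.jr_mem i hi
  have hnJ : n ∈ J := hF.N_le hn
  set n' := (n * j)⁻¹ * k with hn'
  have hn'N : n' ∈ N₀ := by
    apply mem_N hF (J.mul_mem (J.inv_mem (J.mul_mem hnJ hjJ)) (hKJ hk))
    have e3 : (S i0).image (n * j : Pm) = S i := by
      rw [image_mul, hF.jr_img i hi, en]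
    rw [image_mul, e]
    exact image_inv_of e3
  have hk' : k = n * j * n' := by
    rw [hn']
    group
  set K' : Subgroup Pm := K.map (MulAut.conj n⁻¹).toMonoidHom with hK'
  have memK' : ∀ y, n * y * n⁻¹ ∈ K → y ∈ K' := by
    intro y hy
    refine ⟨n * y * n⁻¹, hy, ?_⟩
    simp [MulAut.conj_apply]
    group
  have hT' : T ≤ K' := by
    intro t ht
    exact memK' t (hTK (hF.norm n hn t ht))
  have hjT : ∀ t ∈ T, j * t * j⁻¹ ∈ K' := by
    intro t ht
    apply memK'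
    have hs : n'⁻¹ * t * n' ∈ T := norm_inv hF hn'N ht
    have h3 := K.mul_mem (K.mul_mem hk (hTK hs)) (K.inv_mem hk)
    have e3 : k * (n'⁻¹ * t * n') * k⁻¹ = n * (j * t * j⁻¹) * n⁻¹ := by
      rw [hk']
      group
    rwa [e3] at h3
  have hJK' := hF.big i hi h1 h2 K' hT' hjT
  intro y hy
  have h3 : n⁻¹ * y * n ∈ K' := hJK' (J.mul_mem (J.mul_mem (J.inv_mem hnJ) hy) hnJ)
  obtain ⟨z, hz, e3⟩ := h3
  have e4 : n⁻¹ * z * n = n⁻¹ * y * n := by
    rw [← e3]
    simp [MulAut.conj_apply]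
  have e5 : z = y := by
    have := mul_right_cancel (mul_left_cancel (a := n⁻¹) (by simpa [mul_assoc] using e4 : n⁻¹ * (z * n) = n⁻¹ * (y * n)))
    exact this
  rwa [← e5]

/-- Orbits of `K` when `K` is not `J`. -/
theorem K_small {K : Subgroup Pm} (hTK : T ≤ K) (hKJ : K ≤ J) (hne : K ≠ J) {k : Pm} (hk : k ∈ K) :
    ∃ i ∈ RR, (S i0).image k = S i := by
  obtain ⟨i, hi, e⟩ := hF.closed k (hKJ hk) i0 hF.i0lt
  refine ⟨i, ?_, e⟩
  apply hF.RR_iff i hi
  by_contra hcon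
  push Not at hcon
  exact hne (K_big hF hTK hKJ hk hi e hcon.1 hcon.2)

/-- The case of the special join. -/
theorem K_special {K : Subgroup Pm} (hTK : T ≤ K) (hKJ : K ≤ J) (hne : K ≠ J) (hc : 1454 ≤ Nat.card K) {k₀ : Pm}
    (hk₀ : k₀ ∈ K) (e₀ : (S i0).image k₀ = S r₀) : False := by
  classical
  -- the factorisation
  set n₀ := (jr r₀)⁻¹ * k₀ with hn₀
  have hn₀N : n₀ ∈ N₀ := by
    apply mem_N hF (J.mul_mem (J.inv_mem hF.r₀jr) (hKJ hk₀))
    rw [image_mul, e₀]
    exact image_inv_of hF.r₀img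
  have hk₀' : k₀ = jr r₀ * n₀ := by
    rw [hn₀]
    group
  -- all images are in the list
  have hL : ∀ k ∈ K, ∃ i ∈ L6, (S i0).image k = S i := by
    intro k hk
    obtain ⟨i, hi, e⟩ := K_small hF hTK hKJ hne hk
    refine ⟨i, ?_, e⟩
    obtain ⟨i₂, hi₂, e₂⟩ := K_small hF hTK hKJ hne (K.mul_mem (K.inv_mem hk₀) hk)
    obtain ⟨i₃, hi₃, e₃⟩ := hF.RR_N n₀ hn₀N i₂ hi₂
    apply hF.L6_spec i₃ hi₃ i hi
    rw [← e₃, ← e₂, ← e, ← image_mul, ← image_mul, hk₀']
    congr 1
    group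
  -- the orbit is small
  set M := K ⊓ stabilizer Pm (S i0) with hM
  have h1 := Cfsg.Agent.Lib.SuzRk3A.card_eq_orbit_mul_inf K (S i0)
  have horb : (orbit K (S i0)).ncard ≤ 6 := by
    have hsub : (orbit K (S i0)) ⊆ ↑(L6.toFinset.image S) := by
      rintro _ ⟨k, rfl⟩
      obtain ⟨i, hi, e⟩ := hL k.1 k.2
      simp only [coe_image, List.coe_toFinset, Set.mem_image]
      refine ⟨i, hi, ?_⟩
      rw [← e]
      show _ = k.1 • S i0
      rw [smul_eq]
    have h2 := Set.ncard_le_ncard hsub (Finset.finite_toSet _)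
    rw [Set.ncard_coe_finset] at h2
    have h3 : (L6.toFinset.image S).card ≤ L6.length := card_image_le.trans (List.toFinset_card_le _)
    have := hF.L6_len
    omega
  have hMN : M ≤ N₀ := by
    rw [N_eq hF]
    exact inf_le_inf_right _ hKJ
  have c300 : Nat.card N₀ = 300 := by
    apply le_antisymm _ hF.card300
    rw [N_eq hF]
    exact card_N_le hF
  by_cases heq : M = N₀
  · -- the witness
    obtain ⟨n₁, hn₁, e₁⟩ := hF.tree i₁ hF.i₁lt
    have hn₁K : n₁ ∈ K := by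
      have : n₁ ∈ M := by
        rw [heq]
        exact hn₁
      exact this.1
    obtain ⟨i, hi, e⟩ := hL _ (K.mul_mem hn₁K hk₀)
    rw [image_mul, e₀, ← hF.i₁r, e₁] at e
    have e2 := hF.inj _ _ hF.i₁lt (hF.L6_lt i hi) e
    exact hF.i₁L (e2 ▸ hi)
  · -- a proper subgroup
    have hd : Nat.card M ∣ Nat.card N₀ := Subgroup.card_dvd_of_le hMN
    have hlt : Nat.card M ≠ 300 := by
      intro h3
      apply heq
      apply Subgroup.eq_of_le_of_card_ge hMN
      rw [h3, c300]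
    have hle : Nat.card M ≤ 150 := by
      rw [c300] at hd
      obtain ⟨q, hq⟩ := hd
      have hq0 : q ≠ 0 := by
        rintro rfl
        omega
      have hq1 : q ≠ 1 := by
        rintro rfl
        omega
      have hq2 : 2 ≤ q := by omega
      have : Nat.card M * 2 ≤ Nat.card M * q := Nat.mul_le_mul_left _ hq2
      omega
    have : Nat.card K ≤ 6 * 150 := by
      rw [h1]
      exact Nat.mul_le_mul horb hle
    omega

/-- The main criterion. -/
theorem K_eq_J {K : Subgroup Pm} (hTK : T ≤ K) (hKJ : K ≤ J) (hc : 1454 ≤ Nat.card K) : K = J := by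
  by_contra hne
  -- an element moving the base set
  have h1 := Cfsg.Agent.Lib.SuzRk3A.card_eq_orbit_mul_inf K (S i0)
  have hM : Nat.card ↥(K ⊓ stabilizer Pm (S i0)) ≤ 300 := by
    refine le_trans (Subgroup.card_le_of_le (inf_le_inf_right _ hKJ)) (card_N_le hF)
  obtain ⟨k, hk, hkm⟩ : ∃ k ∈ K, (S i0).image k ≠ S i0 := by
    by_contra hcon
    push Not at hcon
    have hle : K ≤ K ⊓ stabilizer Pm (S i0) := by
      intro k hk
      refine ⟨hk, ?_⟩
      show k • S i0 = S i0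
      rw [smul_eq, hcon k hk]
    have := Subgroup.card_le_of_le hle
    omega
  obtain ⟨i, hi, e⟩ := hF.closed k (hKJ hk) i0 hF.i0lt
  have h2 : root i ≠ i0 := by
    intro h3
    have := root_i0 hF hi h3
    rw [this] at e
    exact hkm e
  by_cases h3 : root i = r₀
  · -- move into the special position
    obtain ⟨n, hn, en⟩ := hF.tree i hi
    set K' : Subgroup Pm := K.map (MulAut.conj n⁻¹).toMonoidHom with hK'
    have hcard : Nat.card K' = Nat.card K :=
      (Nat.card_congr (K.equivMapOfInjective _ (MulAut.conj n⁻¹).injective).toEquiv).symm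
    have hnJ := hF.N_le hn
    have memK' : ∀ y ∈ K, n⁻¹ * y * n ∈ K' := by
      intro y hy
      refine ⟨y, hy, ?_⟩
      simp [MulAut.conj_apply]
    have memK : ∀ y ∈ K', n * y * n⁻¹ ∈ K := by
      rintro _ ⟨z, hz, rfl⟩
      have : n * (MulAut.conj n⁻¹).toMonoidHom z * n⁻¹ = z := by
        simp [MulAut.conj_apply]
        group
      rw [this]
      exact hz
    have hT' : T ≤ K' := by
      intro t ht
      have := memK' _ (hTK (hF.norm n hn t ht))
      have e3 : n⁻¹ * (n * t * n⁻¹) * n = t := by group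
      rwa [e3] at this
    have hJ' : K' ≤ J := by
      rintro _ ⟨z, hz, rfl⟩
      have : (MulAut.conj n⁻¹).toMonoidHom z = n⁻¹ * z * n := by
        simp [MulAut.conj_apply]
      rw [this]
      exact J.mul_mem (J.mul_mem (J.inv_mem hnJ) (hKJ hz)) hnJ
    have hne' : K' ≠ J := by
      intro e3
      apply hne
      apply le_antisymm hKJ
      intro y hy
      have h4 : n⁻¹ * y * n ∈ K' := by
        rw [e3]
        exact J.mul_mem (J.mul_mem (J.inv_mem hnJ) hy) hnJ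
      have h5 := memK _ h4
      have e4 : n * (n⁻¹ * y * n) * n⁻¹ = y := by group
      rwa [e4] at h5
    apply K_special hF hT' hJ' hne' (by rw [hcard]; exact hc) (memK' k hk)
    rw [image_mul, image_mul, hF.stab n hn, e, ← en, h3]
    exact image_inv_of rfl
  · exact hne (K_big hF hTK hKJ hk hi e h2 h3)

/-- Subgroups of the right order are point stabilisers. -/
theorem exists_line_of {A : Subgroup Pm} {y₀ : Fin 1782} {Bset : Finset (Fin 1782)} (hJ : ∀ g, g ∈ J ↔ g ∈ A ∧ g y₀ = y₀)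
    (cardA : Nat.card A = 251596800) (hT5 : IsPGroup 5 T) (cB : Bset.card = 416) (hB : ∀ g ∈ A, g y₀ ∈ Bset)
    (H : Subgroup Pm) (hH : H ≤ A) (cH : Nat.card H = 604800) :
    ∃ y₁ ∈ Bset, ∀ g ∈ A, (g ∈ H ↔ g y₁ = y₁) := by
  classical
  have hJA : J ≤ A := fun g hg => ((hJ g).1 hg).1
  have hTJ : T ≤ J := hF.T_le.trans hF.N_le
  haveI : Fact (Nat.Prime 5) := ⟨by norm_num⟩
  obtain ⟨y, hy, hyt⟩ := conj_into A H T hH (hTJ.trans hJA) 5 2 hT5 (by rw [cH]; norm_num) (by rw [cardA]; norm_num)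
  set H' : Subgroup Pm := H.map (MulAut.conj y⁻¹).toMonoidHom with hH'
  have cH' : Nat.card H' = 604800 := by
    rw [← cH]
    exact (Nat.card_congr (H.equivMapOfInjective _ (MulAut.conj y⁻¹).injective).toEquiv).symm
  have conj_eq : ∀ z, (MulAut.conj y⁻¹).toMonoidHom z = y⁻¹ * z * y := by
    intro z
    simp [MulAut.conj_apply]
  have mem_H' : ∀ g, g ∈ H' ↔ y * g * y⁻¹ ∈ H := by
    intro g
    constructor
    · rintro ⟨z, hz, rfl⟩
      rw [conj_eq]
      have e : y * (y⁻¹ * z * y) * y⁻¹ = z := by group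
      rwa [e]
    · intro h1
      refine ⟨_, h1, ?_⟩
      rw [conj_eq]
      group
  have hH'A : H' ≤ A := by
    rintro _ ⟨z, hz, rfl⟩
    rw [conj_eq]
    exact A.mul_mem (A.mul_mem (A.inv_mem hy) (hH hz)) hy
  have hTH' : T ≤ H' := fun t ht => (mem_H' t).2 (hyt t ht)
  set K := H' ⊓ J with hK
  have hKJ : K ≤ J := inf_le_right
  have hTK : T ≤ K := le_inf hTH' hTJ
  have hc : 1454 ≤ Nat.card K := by
    have h1 := Cfsg.Agent.Lib.SuzRk3A.card_eq_orbit_mul_inf H' y₀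
    rw [cH'] at h1
    have horb : (orbit H' y₀).ncard ≤ 416 := by
      have hsub : orbit H' y₀ ⊆ ↑Bset := by
        rintro _ ⟨g, rfl⟩
        exact hB g.1 (hH'A g.2)
      have h2 := Set.ncard_le_ncard hsub (Finset.finite_toSet _)
      rwa [Set.ncard_coe_finset, cB] at h2
    have hle : H' ⊓ stabilizer Pm y₀ ≤ K := by
      intro g hg
      refine ⟨hg.1, (hJ g).2 ⟨hH'A hg.1, hg.2⟩⟩
    have h2 := Subgroup.card_le_of_le hle
    by_contra hlt
    push Not at hlt
    have : (orbit H' y₀).ncard * Nat.card ↥(H' ⊓ stabilizer Pm y₀) ≤ 416 * 1453 :=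
      Nat.mul_le_mul horb (by omega)
    omega
  have hKeq := K_eq_J hF hTK hKJ hc
  have hJH' : J ≤ H' := by
    rw [← hKeq]
    exact inf_le_left
  have hH'J : J = H' := Subgroup.eq_of_le_of_card_ge hJH' (by rw [hF.cardJ, cH'])
  refine ⟨y y₀, hB y hy, ?_⟩
  intro g hg
  have e1 : g ∈ H ↔ y⁻¹ * g * y ∈ H' := by
    rw [mem_H']
    have e : y * (y⁻¹ * g * y) * y⁻¹ = g := by group
    rw [e]
  rw [e1, ← hH'J, hJ]
  constructor
  · rintro ⟨-, h2⟩
    have h3 : y⁻¹ (g (y y₀)) = y₀ := h2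
    have h4 := congrArg y h3
    rwa [appInv] at h4
  · intro h2
    refine ⟨A.mul_mem (A.mul_mem (A.inv_mem hy) hg) hy, ?_⟩
    show y⁻¹ (g (y y₀)) = y₀
    rw [h2, invApp]

end

end Cfsg.Agent.Lib.SuzRk3F
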