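import Mathlib
import Cfsg.Agent.Lib.SuzRk3E
import Cfsg.Agent.Lib.SuzRk3F

set_option autoImplicit false
set_option linter.unusedSectionVars false
set_option linter.unusedVariables false
set_option linter.style.haveILetI false
set_option linter.unusedSimpArgs false
set_option maxRecDepth 100000
set_option exponentiation.threshold 3000

/-!
# Explicit checks on the rank three graph on 1782 points: subgroups of index 416
-/

namespace Cfsg.Agent.Lib.SuzRk3H

open MulAction Finset Cfsg.Agent.Lib.SuzRk3A Cfsg.Agent.Lib.SuzRk3B Cfsg.Agent.Lib.SuzRk3T Cfsg.Agent.Lib.SuzRk3E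
  Cfsg.Agent.Lib.SuzRk3F
open Cfsg.Agent.Lib.PermChain Cfsg.Agent.Lib.ProgChain Cfsg.Agent.Lib.SparseDfs Cfsg.Agent.Lib.SparseDfs3
  Cfsg.Agent.Lib.SuzPMain Cfsg.Agent.Lib.SuzOutL Cfsg.Agent.Lib.SuzOutT
open Cfsg.Agent.Lib.PermChain12 (allB allB_spec force force_eq)

/-! ### General lemmas on closures -/

/-- Induction on a closure in a finite group, without inverses. -/
theorem closure_fin_induction {X : Type*} [Group X] [Finite X] {s : Set X} {P : X → Prop} (h1 : ∀ x ∈ s, P x)
    (h2 : P 1) (h3 : ∀ a b, P a → P b → P (a * b)) : ∀ x ∈ Subgroup.closure s, P x := by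
  intro x hx
  induction hx using Subgroup.closure_induction with
  | mem x hx => exact h1 x hx
  | one => exact h2
  | mul a b _ _ ha hb => exact h3 a b ha hb
  | inv a _ ha =>
    have hpow : ∀ m : ℕ, P (a ^ m) := by
      intro m
      induction m with
      | zero => simpa using h2
      | succ m ih =>
        rw [pow_succ]
        exact h3 _ _ ih ha
    have ho : 0 < orderOf a := orderOf_pos a
    have e : a⁻¹ = a ^ (orderOf a - 1) := by
      rw [eq_comm, ← mul_left_inj a, inv_mul_cancel, ← pow_succ]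
      rw [Nat.sub_add_cancel ho, pow_orderOf_eq_one]
    rw [e]
    exact hpow _

/-- A step of a chain of `p`-groups. -/
theorem isP_step {X : Type*} [Group X] [Finite X] {p : ℕ} [hp : Fact p.Prime] (K : Subgroup X) (hK : IsPGroup p K) (q : X)
    (hq : ∃ k, q ^ (p ^ k) = 1) (hn : ∀ h ∈ K, q * h * q⁻¹ ∈ K) : IsPGroup p (Subgroup.zpowers q ⊔ K : Subgroup X) := by
  obtain ⟨k, hk⟩ := hq
  have h1 : IsPGroup p (Subgroup.zpowers q) := by
    intro z
    obtain ⟨m, hm⟩ := z.2
    refine ⟨k, ?_⟩
    apply Subtype.ext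
    show (z : X) ^ (p ^ k) = 1
    rw [← hm]
    show (q ^ m) ^ (p ^ k) = 1
    rw [← zpow_natCast, ← zpow_mul, mul_comm, zpow_mul, zpow_natCast, hk, one_zpow]
  apply IsPGroup.to_sup_of_normal_right' h1 hK
  rw [Subgroup.zpowers_le]
  rw [Subgroup.mem_normalizer_iff]
  intro h
  constructor
  · exact hn h
  · intro h2
    have hpow : ∀ m : ℕ, ∀ y ∈ K, q ^ m * y * (q ^ m)⁻¹ ∈ K := by
      intro m
      induction m with
      | zero =>
        intro y hy
        simpa using hy
      | succ m ih =>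
        intro y hy
        have h3 := ih _ (hn y hy)
        have e : q ^ (m + 1) * y * (q ^ (m + 1))⁻¹ = q ^ m * (q * y * q⁻¹) * (q ^ m)⁻¹ := by
          rw [pow_succ]
          group
        rw [e]
        exact h3
    have hpos : 0 < p ^ k := pow_pos hp.out.pos k
    have e : q⁻¹ = q ^ (p ^ k - 1) := by
      rw [eq_comm, ← mul_left_inj q, inv_mul_cancel, ← pow_succ, Nat.sub_add_cancel hpos, hk]
    have h3 := hpow (p ^ k - 1) _ h2
    rw [← e] at h3
    simpa [mul_assoc] using h3

theorem prodW_rep (w : List ℕ) (k : ℕ) : prodW g (List.flatten (List.replicate k w)) = prodW g w ^ k := by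
  induction k with
  | zero => simp [prodW]
  | succ k ih => rw [List.replicate_succ, List.flatten_cons, PermChain.prodW_append, ih, pow_succ']

/-- Membership of the value of a flattened word. -/
theorem prodW_flat_mem {H : Subgroup Pm} (G' : ℕ → List ℕ) (hG : ∀ e, prodW g (G' e) ∈ H) (w : List ℕ) :
    prodW g (w.flatMap G') ∈ H := by
  induction w with
  | nil => exact H.one_mem
  | cons e w ih =>
    rw [List.flatMap_cons, PermChain.prodW_append]
    exact H.mul_mem (hG e) ih

/-! ### The sets -/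

/-- A point of a set. -/
noncomputable def FP (i n : ℕ) : ℕ := imW WW MM FT (Nat.add (Nat.mul i 16) n)

/-- The mask of the image of a set. -/
noncomputable def mapF (f : ℕ → ℕ) (i : ℕ) : ℕ := orB 16 4 (fun n => Nat.pow 2 (f (FP i n)))

/-- The mask of a set. -/
noncomputable def FM (i : ℕ) : ℕ := mapF (fun p => p) i

/-- The sets. -/
noncomputable def FS (i : ℕ) : Finset (Fin 1782) := mset (FM i)

theorem tb_mapF (f : ℕ → ℕ) (i z : ℕ) : tb (mapF f i) z = true ↔ ∃ n, n < 16 ∧ f (FP i n) = z := by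
  unfold mapF
  rw [tb_orB (by norm_num)]
  simp only [tb_pow]

theorem fok_chk : allB 2016 11 (fun i => allB 16 4 (fun n => Nat.ble (Nat.succ (FP i n)) 1782)) = true := by
  decide +kernel

theorem FP_lt {i n : ℕ} (hi : i < 2016) (hn : n < 16) : FP i n < 1782 :=
  Nat.le_of_ble_eq_true (allB_spec 16 4 _ (by norm_num) (allB_spec 2016 11 _ (by norm_num) fok_chk i hi) n hn)

theorem FS_image {h : Pm} {f : ℕ → ℕ} (hf : ∀ x : Fin 1782, (h x).val = f x.val) {i i' : ℕ} (hi : i < 2016)
    (hc : Nat.beq (mapF f i) (FM i') = true) : (FS i).image h = FS i' := by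
  have e := Nat.eq_of_beq_eq_true hc
  ext y
  simp only [FS, mem_image, mem_mset]
  constructor
  · rintro ⟨x, hx, rfl⟩
    rw [← e, tb_mapF]
    unfold FM at hx
    rw [tb_mapF] at hx
    obtain ⟨n, hn, e2⟩ := hx
    exact ⟨n, hn, by rw [hf, ← e2]⟩
  · intro hy
    rw [← e, tb_mapF] at hy
    obtain ⟨n, hn, e2⟩ := hy
    refine ⟨⟨FP i n, FP_lt hi hn⟩, ?_, ?_⟩
    · unfold FM
      rw [tb_mapF]
      exact ⟨n, hn, rfl⟩
    · apply Fin.ext
      rw [hf, ← e2]

theorem FM_inj_of {i i' : ℕ} (hi : i < 2016) (hi' : i' < 2016) (h : FS i = FS i') : FM i = FM i' := by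
  apply Nat.eq_of_testBit_eq
  intro j
  rw [← tb_eq, ← tb_eq]
  by_cases hj : j < 1782
  · have := congrArg (fun s => (⟨j, hj⟩ : Fin 1782) ∈ s) h
    simp only [FS, mem_mset, eq_iff_iff] at this
    exact Bool.eq_iff_iff.2 this
  · have key : ∀ k, k < 2016 → tb (FM k) j = false := by
      intro k hk
      rw [← Bool.not_eq_true]
      intro h1
      unfold FM at h1
      rw [tb_mapF] at h1
      obtain ⟨n, hn, e⟩ := h1
      have := FP_lt hk hn
      omega
    rw [key i hi, key i' hi']

theorem sorted_chk : allB 2015 11 (fun i => Nat.ble (Nat.succ (FM i)) (FM (Nat.succ i))) = true := by decide +kernel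

theorem FM_lt : ∀ i j, i < j → j < 2016 → FM i < FM j := by
  intro i j hij
  induction j with
  | zero => omega
  | succ j ih =>
    intro hj
    have h1 : FM j < FM (j + 1) := Nat.le_of_ble_eq_true (allB_spec 2015 11 _ (by norm_num) sorted_chk j (by omega))
    by_cases h2 : i = j
    · rw [h2]
      exact h1
    · exact (ih (by omega) (by omega)).trans h1

theorem FS_inj (i i' : ℕ) (hi : i < 2016) (hi' : i' < 2016) (h : FS i = FS i') : i = i' := by
  have e := FM_inj_of hi hi' h
  by_contra hne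
  rcases Nat.lt_or_gt_of_ne hne with h1 | h1
  · have := FM_lt i i' h1 hi'
    omega
  · have := FM_lt i' i h1 hi
    omega

/-! ### The groups -/

/-- The group `J`. -/
noncomputable abbrev JJ : Subgroup Pm := grp g 136 2

theorem letter_J {w : List ℕ} (hw : w.all (Nat.ble 136) = true) : prodW g w ∈ JJ := prodW_mem lev2.1 hw

/-- The first generator. -/
noncomputable abbrev xP : Pm := prodW g wX
/-- The second generator. -/
noncomputable abbrev tP : Pm := prodW g wT

/-- The Sylow subgroup. -/
noncomputable def TT : Subgroup Pm := Subgroup.closure {xP, tP}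

/-- The words of the normaliser. -/
def nW (l : ℕ) : List ℕ := [wX, wT, wU, wV].getD l []

/-- The tables of the normaliser. -/
def nT (l : ℕ) : ℕ := [tX, tT, tU, tV].getD l 0

/-- The generators of the normaliser. -/
noncomputable def nP (l : ℕ) : Pm := prodW g (nW l)

/-- The normaliser. -/
noncomputable def NN : Subgroup Pm := Subgroup.closure {x | ∃ l, l < 4 ∧ x = nP l}

theorem nP_mem {l : ℕ} (hl : l < 4) : nP l ∈ NN := Subgroup.subset_closure ⟨l, hl, rfl⟩

theorem nT_chk : ∀ l, l < 4 → tabW (nW l) (nT l) = true := by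
  intro l hl
  interval_cases l <;> decide +kernel

theorem nT_rep {l : ℕ} (hl : l < 4) : RepW WW MM (nP l) (nT l) := rep_of_tabW (nT_chk l hl)

theorem TT_le : TT ≤ NN := by
  unfold TT
  rw [Subgroup.closure_le]
  rintro _ (rfl | rfl)
  · exact nP_mem (l := 0) (by norm_num)
  · exact nP_mem (l := 1) (by norm_num)

theorem NN_le : NN ≤ JJ := by
  unfold NN
  rw [Subgroup.closure_le]
  rintro _ ⟨l, hl, rfl⟩
  apply letter_J
  interval_cases l <;> decide +kernel

/-! ### Closure of the family -/

theorem cl_chk : allB 2016 11 (fun i => and (and (Nat.ble (Nat.succ (imW WW MM CT0 i)) 2016)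
    (Nat.beq (mapF (imW WW MM (lT 136)) i) (FM (imW WW MM CT0 i))))
    (and (Nat.ble (Nat.succ (imW WW MM CT1 i)) 2016)
    (Nat.beq (mapF (imW WW MM (lT 137)) i) (FM (imW WW MM CT1 i))))) = true := by
  decide +kernel

theorem FS_closed : ∀ j ∈ JJ, ∀ i, i < 2016 → ∃ i', i' < 2016 ∧ (FS i).image j = FS i' := by
  apply closure_fin_induction
  · rintro _ ⟨e, he, rfl⟩ i hi
    have he2 : e = 136 ∨ e = 137 := by
      have := List.mem_range'_1.mp he
      omega
    have h := allB_spec _ _ _ (by norm_num) cl_chk i hi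
    simp only [Bool.and_eq_true] at h
    rcases he2 with rfl | rfl
    · exact ⟨_, Nat.le_of_ble_eq_true h.1.1, FS_image (rep_g 136 (by norm_num)) hi h.1.2⟩
    · exact ⟨_, Nat.le_of_ble_eq_true h.2.1, FS_image (rep_g 137 (by norm_num)) hi h.2.2⟩
  · intro i hi
    refine ⟨i, hi, ?_⟩
    ext y
    simp
  · intro a b ha hb i hi
    obtain ⟨i', hi', e⟩ := hb i hi
    obtain ⟨i'', hi'', e'⟩ := ha i' hi'
    exact ⟨i'', hi'', by rw [image_mul, e, e']⟩

/-! ### The tree -/

/-- The class of a set. -/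
noncomputable def RXf (i : ℕ) : ℕ := imW 5 31 RXT i
/-- The parent of a set. -/
noncomputable def parF (i : ℕ) : ℕ := imW WW MM PT i
/-- The letter of a set. -/
noncomputable def letF (i : ℕ) : ℕ := imW 2 3 LTt i
/-- The depth of a set. -/
noncomputable def depF (i : ℕ) : ℕ := imW 4 15 DTt i
/-- The root of a set. -/
noncomputable def rootF (i : ℕ) : ℕ := rootsL.getD (RXf i) 0

theorem tree_chk : allB 2016 11 (fun i => cond (Nat.beq (depF i) 0) (Nat.beq (rootF i) i)
    (and (Nat.beq (Nat.succ (depF (parF i))) (depF i)) (and (Nat.beq (RXf (parF i)) (RXf i))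
    (and (Nat.ble (Nat.succ (parF i)) 2016) (and (Nat.ble (Nat.succ (letF i)) 4)
    (Nat.beq (mapF (imW WW MM (nT (letF i))) (parF i)) (FM i))))))) = true := by
  decide +kernel

theorem root_chk : allB 2016 11 (fun i => and (Nat.ble (Nat.succ (rootF i)) 2016)
    (and (Nat.ble (Nat.succ (RXf i)) 18) (Nat.beq (RXf (rootF i)) (RXf i)))) = true := by
  decide +kernel

theorem root_spec {i : ℕ} (hi : i < 2016) : rootF i < 2016 ∧ RXf i < 18 ∧ RXf (rootF i) = RXf i := by
  have h := allB_spec _ _ _ (by norm_num) root_chk i hi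
  simp only [Bool.and_eq_true] at h
  exact ⟨Nat.le_of_ble_eq_true h.1, Nat.le_of_ble_eq_true h.2.1, Nat.eq_of_beq_eq_true h.2.2⟩

theorem tree_N : ∀ d i, i < 2016 → depF i = d → ∃ n ∈ NN, (FS (rootF i)).image n = FS i := by
  intro d
  induction d with
  | zero =>
    intro i hi hd
    have h := allB_spec _ _ _ (by norm_num) tree_chk i hi
    rw [hd] at h
    have h2 : rootF i = i := Nat.eq_of_beq_eq_true h
    refine ⟨1, NN.one_mem, ?_⟩
    rw [h2]
    ext y
    simp
  | succ d ih =>
    intro i hi hd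
    have h := allB_spec _ _ _ (by norm_num) tree_chk i hi
    rw [hd] at h
    have h0 : Nat.beq (d + 1) 0 = false := rfl
    rw [h0, cond_false] at h
    simp only [Bool.and_eq_true] at h
    obtain ⟨h1, h2, h3, h4, h5⟩ := h
    have hd' : depF (parF i) = d := by
      have := Nat.eq_of_beq_eq_true h1
      omega
    have hp : parF i < 2016 := Nat.le_of_ble_eq_true h3
    have hl : letF i < 4 := Nat.le_of_ble_eq_true h4
    obtain ⟨n, hn, e⟩ := ih (parF i) hp hd'
    refine ⟨nP (letF i) * n, NN.mul_mem (nP_mem hl) hn, ?_⟩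
    have e1 : rootF (parF i) = rootF i := by
      unfold rootF
      rw [Nat.eq_of_beq_eq_true h2]
    rw [image_mul, ← e1, e]
    exact FS_image (nT_rep hl) hp h5

theorem tree (i : ℕ) (hi : i < 2016) : ∃ n ∈ NN, (FS (rootF i)).image n = FS i := tree_N _ i hi rfl

/-! ### The roots -/

/-- The conjugating elements. -/
noncomputable def jrF (r : ℕ) : Pm := prodW g (jL.getD (RXf r) [])

/-- The index of the base set. -/
abbrev i0F : ℕ := 583
/-- The index of the special root. -/
abbrev r0F : ℕ := 228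
/-- The index of the witness. -/
abbrev i1F : ℕ := 596

theorem jL_chk : allB 18 5 (fun k => and (and (wordOK 184 (jL.getD k [])) ((jL.getD k []).all (Nat.ble 136)))
    (Nat.beq (mapF (evalL WW MM (tL lT (jL.getD k []))) i0F) (FM (rootsL.getD k 0)))) = true := by
  decide +kernel

theorem jr_mem (i : ℕ) (hi : i < 2016) : jrF (rootF i) ∈ JJ := by
  obtain ⟨h1, h2, h3⟩ := root_spec hi
  have h := allB_spec _ _ _ (by norm_num) jL_chk _ h2
  simp only [Bool.and_eq_true] at h
  unfold jrF
  rw [h3]
  exact letter_J h.1.2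

theorem jr_img (i : ℕ) (hi : i < 2016) : (FS i0F).image (jrF (rootF i)) = FS (rootF i) := by
  obtain ⟨h1, h2, h3⟩ := root_spec hi
  have h := allB_spec _ _ _ (by norm_num) jL_chk _ h2
  simp only [Bool.and_eq_true] at h
  unfold jrF
  rw [h3]
  exact FS_image (word_val h.1.1) (by norm_num) h.2

/-- The generators of a join. -/
def Gw (k e : ℕ) : List ℕ :=
  [wX, wT, jL.getD k [] ++ wX ++ jiL.getD k [], jL.getD k [] ++ wT ++ jiL.getD k []].getD e []

theorem big_chk : allB 18 5 (fun k => or (or (Nat.beq k 0) (Nat.beq k 17))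
    (and (and (eqW ((b136.getD k []).flatMap (Gw k)) [136]) (eqW ((b137.getD k []).flatMap (Gw k)) [137]))
      (eqW (jL.getD k [] ++ jiL.getD k []) []))) = true := by
  decide +kernel

theorem root0 : rootsL.getD 0 0 = i0F := by decide +kernel
theorem root17 : rootsL.getD 17 0 = r0F := by decide +kernel

theorem xP_T : xP ∈ TT := Subgroup.subset_closure (by simp)
theorem tP_T : tP ∈ TT := Subgroup.subset_closure (by simp)

theorem big (i : ℕ) (hi : i < 2016) (h1 : rootF i ≠ i0F) (h2 : rootF i ≠ r0F) (K : Subgroup Pm) (hT : TT ≤ K)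
    (hj : ∀ t ∈ TT, jrF (rootF i) * t * (jrF (rootF i))⁻¹ ∈ K) : JJ ≤ K := by
  obtain ⟨h3, h4, h5⟩ := root_spec hi
  set k := RXf i with hk
  have hk0 : k ≠ 0 := by
    intro e
    apply h1
    unfold rootF
    rw [← hk, e]
    exact root0
  have hk17 : k ≠ 17 := by
    intro e
    apply h2
    unfold rootF
    rw [← hk, e]
    exact root17
  have h := allB_spec _ _ _ (by norm_num) big_chk k h4
  have h6 : Nat.beq k 0 = false := by
    rw [← Bool.not_eq_true, Nat.beq_eq]
    exact hk0
  have h7 : Nat.beq k 17 = false := by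
    rw [← Bool.not_eq_true, Nat.beq_eq]
    exact hk17
  rw [h6, h7] at h
  simp only [Bool.or_false, Bool.false_or, Bool.and_eq_true] at h
  obtain ⟨⟨h8, h9⟩, h10⟩ := h
  have hj' : jrF (rootF i) = prodW g (jL.getD k []) := by
    unfold jrF
    rw [h5]
  have hinv : prodW g (jiL.getD k []) = (prodW g (jL.getD k []))⁻¹ := by
    have e := eq_of_eqW h10
    rw [PermChain.prodW_append] at e
    exact eq_inv_of_mul_eq_one_right (by simpa [prodW] using e)
  have hG : ∀ e, prodW g (Gw k e) ∈ K := by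
    intro e
    have he : e = 0 ∨ e = 1 ∨ e = 2 ∨ e = 3 ∨ 4 ≤ e := by omega
    rcases he with rfl | rfl | rfl | rfl | he
    · exact hT xP_T
    · exact hT tP_T
    · show prodW g (jL.getD k [] ++ wX ++ jiL.getD k []) ∈ K
      rw [PermChain.prodW_append, PermChain.prodW_append, hinv, ← hj']
      exact hj _ xP_T
    · show prodW g (jL.getD k [] ++ wT ++ jiL.getD k []) ∈ K
      rw [PermChain.prodW_append, PermChain.prodW_append, hinv, ← hj']
      exact hj _ tP_T
    · have : Gw k e = [] := by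
        unfold Gw
        exact List.getD_eq_default _ _ (by simpa using he)
      rw [this]
      exact K.one_mem
  have h136 : g 136 ∈ K := by
    have e := eq_of_eqW h8
    have e2 := prodW_flat_mem (Gw k) hG (b136.getD k [])
    rw [e] at e2
    simpa [prodW] using e2
  have h137 : g 137 ∈ K := by
    have e := eq_of_eqW h9
    have e2 := prodW_flat_mem (Gw k) hG (b137.getD k [])
    rw [e] at e2
    simpa [prodW] using e2
  show grp g 136 2 ≤ K
  unfold grp genOf
  rw [Subgroup.closure_le]
  rintro _ ⟨e, he, rfl⟩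
  have he2 : e = 136 ∨ e = 137 := by
    have := List.mem_range'_1.mp he
    omega
  rcases he2 with rfl | rfl
  · exact h136
  · exact h137

/-! ### The stabiliser of the base set -/

theorem stab_chk : allB 4 2 (fun l => Nat.beq (mapF (imW WW MM (nT l)) i0F) (FM i0F)) = true := by decide +kernel

theorem stabF : ∀ n ∈ NN, (FS i0F).image n = FS i0F := by
  apply closure_fin_induction
  · rintro _ ⟨l, hl, rfl⟩
    exact FS_image (nT_rep hl) (by norm_num) (allB_spec _ _ _ (by norm_num) stab_chk l hl)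
  · ext y
    simp
  · intro a b ha hb
    rw [image_mul, hb, ha]

/-- The relations of the normaliser. -/
def relN : List (ℕ × ℕ × ℕ × ℕ) := [(1, 0, 0, 1), (1, 0, 0, 1), (1, 3, 0, 4), (1, 0, 3, 4)]

theorem relN_chk : allB 4 2 (fun l =>
    and (eqW (nW l ++ wX) (List.flatten (List.replicate (relN.getD l (0, 0, 0, 0)).1 wX) ++
        List.flatten (List.replicate (relN.getD l (0, 0, 0, 0)).2.1 wT) ++ nW l))
      (eqW (nW l ++ wT) (List.flatten (List.replicate (relN.getD l (0, 0, 0, 0)).2.2.1 wX) ++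
        List.flatten (List.replicate (relN.getD l (0, 0, 0, 0)).2.2.2 wT) ++ nW l))) = true := by
  decide +kernel

theorem norm_gen {l : ℕ} (hl : l < 4) : ∀ t ∈ TT, nP l * t * (nP l)⁻¹ ∈ TT := by
  have h := allB_spec _ _ _ (by norm_num) relN_chk l hl
  simp only [Bool.and_eq_true] at h
  have key : ∀ a b : ℕ, ∀ u : Pm, nP l * u = xP ^ a * tP ^ b * nP l → nP l * u * (nP l)⁻¹ ∈ TT := by
    intro a b u e
    rw [e, mul_inv_cancel_right]
    exact TT.mul_mem (TT.pow_mem xP_T a) (TT.pow_mem tP_T b)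
  apply closure_fin_induction
  · rintro t (rfl | rfl)
    · apply key (relN.getD l (0, 0, 0, 0)).1 (relN.getD l (0, 0, 0, 0)).2.1
      have e := eq_of_eqW h.1
      simp only [PermChain.prodW_append, prodW_rep] at e
      simpa [nP, mul_assoc] using e
    · apply key (relN.getD l (0, 0, 0, 0)).2.2.1 (relN.getD l (0, 0, 0, 0)).2.2.2
      have e := eq_of_eqW h.2
      simp only [PermChain.prodW_append, prodW_rep] at e
      simpa [nP, mul_assoc] using e
  · simp
  · intro a b ha hb
    have e : nP l * (a * b) * (nP l)⁻¹ = (nP l * a * (nP l)⁻¹) * (nP l * b * (nP l)⁻¹) := by group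
    rw [e]
    exact TT.mul_mem ha hb

theorem normF : ∀ n ∈ NN, ∀ t ∈ TT, n * t * n⁻¹ ∈ TT := by
  apply closure_fin_induction
  · rintro _ ⟨l, hl, rfl⟩
    exact norm_gen hl
  · intro t ht
    simpa using ht
  · intro a b ha hb t ht
    have e : a * b * t * (a * b)⁻¹ = a * (b * t * b⁻¹) * a⁻¹ := by group
    rw [e]
    exact ha _ (hb t ht)

/-! ### The order of the normaliser -/

theorem c300_chk : sumN 2016 (fun i => cond (Nat.beq (RXf i) 2) 1 0) = 300 := by decide +kernel

open scoped Pointwise in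
theorem card300 : 300 ≤ Nat.card NN := by
  classical
  set I : Finset ℕ := (range 2016).filter (fun i => RXf i = 2) with hI
  have cI : I.card = 300 := by
    rw [hI, Finset.card_filter, ← c300_chk, sumN_eq (by norm_num)]
    apply Finset.sum_congr rfl
    intro i _
    by_cases h : RXf i = 2
    · rw [if_pos h, h]
      rfl
    · have h2 : Nat.beq (RXf i) 2 = false := by
        rw [← Bool.not_eq_true, Nat.beq_eq]
        exact h
      rw [if_neg h, h2]
      rfl
  set r := rootsL.getD 2 0 with hr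
  have h1 := Cfsg.Agent.Lib.SuzRk3A.card_eq_orbit_mul_inf NN (FS r)
  have hsub : I.image FS ⊆ (orbit NN (FS r)).toFinset := by
    intro s hs
    obtain ⟨i, hi, rfl⟩ := mem_image.1 hs
    simp only [hI, mem_filter, mem_range] at hi
    obtain ⟨n, hn, e⟩ := tree i hi.1
    rw [Set.mem_toFinset]
    refine ⟨⟨n, hn⟩, ?_⟩
    show n • FS r = FS i
    rw [smul_eq, ← e]
    congr 2
    unfold rootF
    rw [hi.2]
  have hinj : Set.InjOn FS (↑I : Set ℕ) := by
    intro i hi i' hi' e
    simp only [hI, coe_filter, mem_range, Set.mem_ofPred_eq] at hi hi'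
    exact FS_inj i i' hi.1 hi'.1 e
  have h2 := card_le_card hsub
  rw [card_image_of_injOn hinj, cI, ← Set.ncard_eq_toFinset_card'] at h2
  rw [h1]
  have hpos : 0 < Nat.card ↥(NN ⊓ stabilizer Pm (FS r)) := Nat.card_pos
  exact h2.trans (Nat.le_mul_of_pos_right _ hpos)

/-! ### The special sets -/

theorem RR_iff_chk : allB 2016 11 (fun i => or (not (or (Nat.beq (rootF i) i0F) (Nat.beq (rootF i) r0F)))
    (RRL.elem i)) = true := by
  decide +kernel

theorem RR_iff (i : ℕ) (hi : i < 2016) (h : rootF i = i0F ∨ rootF i = r0F) : i ∈ RRL := by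
  have h1 := allB_spec _ _ _ (by norm_num) RR_iff_chk i hi
  have h2 : or (Nat.beq (rootF i) i0F) (Nat.beq (rootF i) r0F) = true := by
    rcases h with h | h
    · rw [h]
      decide
    · rw [h]
      decide
  rw [h2] at h1
  simpa using h1

theorem RR_lt : ∀ i ∈ RRL, i < 2016 := by decide +kernel

theorem RR_gen_chk : allB 4 2 (fun l => RRL.all (fun i => RRL.any (fun i' =>
    Nat.beq (mapF (imW WW MM (nT l)) i) (FM i')))) = true := by
  decide +kernel

theorem RR_N : ∀ n ∈ NN, ∀ i ∈ RRL, ∃ i' ∈ RRL, (FS i).image n = FS i' := by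
  apply closure_fin_induction
  · rintro _ ⟨l, hl, rfl⟩ i hi
    have h := allB_spec _ _ _ (by norm_num) RR_gen_chk l hl
    rw [List.all_eq_true] at h
    obtain ⟨i', hi', e⟩ := List.any_eq_true.1 (h i hi)
    exact ⟨i', hi', FS_image (nT_rep hl) (RR_lt i hi) e⟩
  · intro i hi
    refine ⟨i, hi, ?_⟩
    ext y
    simp
  · intro a b ha hb i hi
    obtain ⟨i', hi', e⟩ := hb i hi
    obtain ⟨i'', hi'', e'⟩ := ha i' hi'
    exact ⟨i'', hi'', by rw [image_mul, e, e']⟩

/-- The word of the special root. -/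
def jS : List ℕ := jL.getD 17 []

theorem Rim_chk : RimL.all (fun p => and (Nat.ble (Nat.succ p.2) 2016) (and (and (wordOK 184 jS) (RRL.elem p.1))
    (and (Nat.beq (mapF (evalL WW MM (tL lT jS)) p.1) (FM p.2)) (or (not (RRL.elem p.2)) (L6L.elem p.2))))) = true := by
  decide +kernel

theorem Rim_cover : ∀ i ∈ RRL, ∃ p ∈ RimL, p.1 = i := by decide +kernel

theorem L6_spec : ∀ i ∈ RRL, ∀ i' ∈ RRL, (FS i).image (jrF r0F) = FS i' → i' ∈ L6L := by
  intro i hi i' hi' e
  obtain ⟨p, hp, rfl⟩ := Rim_cover i hi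
  have h := (List.all_eq_true.1 Rim_chk) p hp
  simp only [Bool.and_eq_true, Bool.or_eq_true, Bool.not_eq_true'] at h
  obtain ⟨h1, ⟨h2, h3⟩, h4, h5⟩ := h
  have h0 : jrF r0F = prodW g jS := by
    have : RXf r0F = 17 := by decide +kernel
    unfold jrF
    rw [this]
    rfl
  have e2 : (FS p.1).image (jrF r0F) = FS p.2 := by
    rw [h0]
    exact FS_image (word_val h2) (RR_lt _ hi) h4
  rw [e2] at e
  have e3 := FS_inj _ _ (Nat.le_of_ble_eq_true h1) (RR_lt _ hi') e
  rw [← e3]
  rcases h5 with h5 | h5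
  · exfalso
    rw [e3] at h5
    have : RRL.elem i' = true := by simpa using hi'
    rw [this] at h5
    exact absurd h5 (by simp)
  · simpa using h5

theorem misc_chk : rootF r0F = r0F ∧ rootF i1F = r0F ∧ L6L.length ≤ 6 ∧ (∀ i ∈ L6L, i < 2016) ∧ i1F ∉ L6L := by
  decide +kernel

theorem jS_J : jrF r0F ∈ JJ := by
  have := jr_mem r0F (by norm_num)
  rwa [misc_chk.1] at this

theorem jS_img : (FS i0F).image (jrF r0F) = FS r0F := by
  have := jr_img r0F (by norm_num)
  rwa [misc_chk.1] at this

/-- The data of the criterion. -/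
theorem fdata : FData JJ TT NN FS i0F r0F i1F rootF jrF RRL L6L where
  cardJ := cardH2
  T_le := TT_le
  N_le := NN_le
  i0lt := by norm_num
  closed := FS_closed
  inj := FS_inj
  stab := stabF
  norm := normF
  card300 := card300
  root_lt := fun i hi => (root_spec hi).1
  tree := tree
  jr_mem := jr_mem
  jr_img := jr_img
  big := big
  r₀lt := by norm_num
  r₀r := misc_chk.1
  r₀jr := jS_J
  r₀img := jS_img
  r₀ne := by norm_num
  RR_iff := RR_iff
  RR_lt := RR_lt
  RR_N := RR_N
  L6_spec := L6_spec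
  L6_len := misc_chk.2.2.1
  L6_lt := misc_chk.2.2.2.1
  i₁lt := by norm_num
  i₁r := misc_chk.2.1
  i₁L := misc_chk.2.2.2.2

/-! ### The Sylow subgroup is a `5`-group -/

theorem x5 : xP ^ 5 = 1 := by
  rw [← prodW_rep]
  exact eq_of_eqW (w₁ := List.flatten (List.replicate 5 wX)) (w₂ := []) (by decide +kernel)

theorem t5 : tP ^ 5 = 1 := by
  rw [← prodW_rep]
  exact eq_of_eqW (w₁ := List.flatten (List.replicate 5 wT)) (w₂ := []) (by decide +kernel)

theorem xt_comm : xP * tP = tP * xP := by
  have e := eq_of_eqW (w₁ := wX ++ wT) (w₂ := wT ++ wX) (by decide +kernel)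
  simpa [PermChain.prodW_append] using e

theorem TT_p : IsPGroup 5 TT := by
  haveI : Fact (Nat.Prime 5) := ⟨by norm_num⟩
  have h1 : IsPGroup 5 (Subgroup.zpowers tP ⊔ ⊥ : Subgroup Pm) := by
    apply isP_step ⊥ IsPGroup.of_bot tP ⟨1, by simpa using t5⟩
    intro h hh
    rw [Subgroup.mem_bot] at hh ⊢
    rw [hh]
    simp
  rw [sup_bot_eq] at h1
  have h2 := isP_step (Subgroup.zpowers tP) h1 xP ⟨1, by simpa using x5⟩ (by
    intro h hh
    obtain ⟨m, rfl⟩ := hh
    have e : Commute xP (tP ^ m) := (show Commute xP tP from xt_comm).zpow_right m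
    show xP * tP ^ m * xP⁻¹ ∈ _
    rw [e.eq, mul_inv_cancel_right]
    exact ⟨m, rfl⟩)
  have e : TT = Subgroup.zpowers xP ⊔ Subgroup.zpowers tP := by
    unfold TT
    rw [Subgroup.zpowers_eq_closure, Subgroup.zpowers_eq_closure, ← Subgroup.closure_union]
    rfl
  rw [e]
  exact h2

end Cfsg.Agent.Lib.SuzRk3H
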