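import Mathlib
import Cfsg.Agent.Lib.SuzRk3E
import Cfsg.Agent.Lib.SuzRk3H

set_option autoImplicit false
set_option linter.unusedSectionVars false
set_option linter.unusedVariables false
set_option linter.style.haveILetI false
set_option linter.unusedSimpArgs false
set_option maxRecDepth 100000
set_option exponentiation.threshold 3000

/-!
# Explicit checks on the rank three graph on 1782 points: the concrete facts
-/

namespace Cfsg.Agent.Lib.SuzRk3G

open MulAction Finset Cfsg.Agent.Lib.SuzRk3A Cfsg.Agent.Lib.SuzRk3B Cfsg.Agent.Lib.SuzRk3T Cfsg.Agent.Lib.SuzRk3E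
  Cfsg.Agent.Lib.SuzRk3H
open Cfsg.Agent.Lib.PermChain Cfsg.Agent.Lib.ProgChain Cfsg.Agent.Lib.SparseDfs Cfsg.Agent.Lib.SparseDfs3
  Cfsg.Agent.Lib.SuzPMain Cfsg.Agent.Lib.SuzOutL Cfsg.Agent.Lib.SuzOutT
open Cfsg.Agent.Lib.PermChain12 (allB allB_spec force force_eq)

attribute [local irreducible] row

/-- The base point. -/
abbrev a₀ : Fin 1782 := ⟨0, by norm_num⟩
/-- The base line. -/
abbrev y₀ : Fin 1782 := ⟨135, by norm_num⟩
/-- A line meeting the base line. -/
abbrev z₁ : Fin 1782 := ⟨142, by norm_num⟩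
/-- A line not meeting the base line. -/
abbrev z₂ : Fin 1782 := ⟨140, by norm_num⟩
/-- A vertex of the large orbit. -/
abbrev c₀ : Fin 1782 := ⟨1, by norm_num⟩

theorem A0_eq : A0 GG a₀ = grp g 92 2 := (lev0.2.stab).symm

theorem mem_A0 {e : ℕ} (he : 92 ≤ e) : g e ∈ A0 GG a₀ := by
  rw [A0_eq]
  exact lev1.1 e he

theorem word_A0 {w : List ℕ} (hw : w.all (Nat.ble 92) = true) : prodW g w ∈ A0 GG a₀ := by
  rw [A0_eq]
  exact prodW_mem lev1.1 hw

theorem JJ_eq : JJ = A0 GG a₀ ⊓ stabilizer Pm y₀ := by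
  rw [A0_eq]
  exact lev1.2.stab

theorem JJ_le : JJ ≤ A0 GG a₀ := by
  rw [JJ_eq]
  exact inf_le_left

theorem JJ_fix {h : Pm} (hh : h ∈ JJ) : h y₀ = y₀ := by
  rw [JJ_eq] at hh
  exact hh.2

theorem cardA : Nat.card (A0 GG a₀) = 251596800 := by
  rw [A0_eq]
  exact cardH1

/-! ### Elementary facts on the graph -/

theorem trans_chk : allB 1782 11 (fun y => tb (clo [lT 0, lT 1] 10 (Nat.pow 2 0)) y) = true := by decide +kernel

theorem trans_G (x : Fin 1782) : ∃ h ∈ GG, h a₀ = x := by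
  refine reach_clo (H := GG) (ts := [lT 0, lT 1]) ?_ 10 a₀ (allB_spec _ _ _ (by norm_num) trans_chk x.val x.2)
  intro t ht
  simp only [List.mem_cons, List.not_mem_nil, or_false] at ht
  rcases ht with rfl | rfl
  · exact ⟨g 0, lev0.1 0 (by norm_num), rep_g 0 (by norm_num)⟩
  · exact ⟨g 1, lev0.1 1 (by norm_num), rep_g 1 (by norm_num)⟩

theorem irr_chk : not (adN 0 0) = true := by decide +kernel

theorem ad_irr (x : Fin 1782) : ¬ ad x x := by
  obtain ⟨h, hh, rfl⟩ := trans_G x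
  rw [ad_inv h hh]
  have : adN 0 0 = false := by simpa using irr_chk
  show ¬ adN 0 0 = true
  rw [this]
  simp

theorem y₀B : ad a₀ y₀ := by
  show adN 0 135 = true
  decide +kernel

theorem z₁100 : ad a₀ z₁ ∧ ad y₀ z₁ := by
  constructor
  · show adN 0 142 = true
    decide +kernel
  · show adN 135 142 = true
    decide +kernel

theorem z₂315 : ad a₀ z₂ ∧ z₂ ≠ y₀ ∧ ¬ ad y₀ z₂ := by
  refine ⟨?_, by decide, ?_⟩
  · show adN 0 140 = true
    decide +kernel
  · show ¬ adN 135 140 = true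
    decide +kernel

theorem beq_false {a b : ℕ} (h : a ≠ b) : Nat.beq a b = false := by
  rw [← Bool.not_eq_true, Nat.beq_eq]
  exact h

theorem ne_of_fin {x y : Fin 1782} (h : x ≠ y) : Nat.beq x.val y.val = false :=
  beq_false (fun e => h (Fin.ext e))

theorem adN_false {x y : Fin 1782} (h : ¬ ad x y) : adN x.val y.val = false := by
  rw [← Bool.not_eq_true]
  exact h

theorem cardBs_chk : cnt (adN 0) = 416 := by decide +kernel

theorem cardBs : (univ.filter (fun x => ad a₀ x)).card = 416 := by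
  rw [card_fil (fun x => ad a₀ x) (adN 0) (fun x => Iff.rfl)]
  exact cardBs_chk

theorem cardCs_chk : cnt (fun x => and (not (Nat.beq x 0)) (not (adN 0 x))) = 1365 := by decide +kernel

theorem cardCs : (univ.filter (fun x => x ≠ a₀ ∧ ¬ ad a₀ x)).card = 1365 := by
  rw [card_fil _ (fun x => and (not (Nat.beq x 0)) (not (adN 0 x)))]
  · exact cardCs_chk
  · intro x
    simp only [Bool.and_eq_true, Bool.not_eq_true', ne_eq]
    constructor
    · rintro ⟨h1, h2⟩
      exact ⟨ne_of_fin h1, adN_false h2⟩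
    · rintro ⟨h1, h2⟩
      refine ⟨?_, ?_⟩
      · intro e
        rw [e] at h1
        simp at h1
      · unfold ad
        show ¬ adN 0 x.val = true
        rw [h2]
        simp

theorem c100_chk : cnt (fun x => and (adN 0 x) (adN 135 x)) = 100 := by decide +kernel

theorem c100 : (univ.filter (fun z => ad a₀ z ∧ ad y₀ z)).card = 100 := by
  rw [card_fil _ (fun x => and (adN 0 x) (adN 135 x))]
  · exact c100_chk
  · intro x
    simp only [Bool.and_eq_true]
    exact Iff.rfl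

theorem c315_chk : cnt (fun x => and (adN 0 x) (and (not (Nat.beq x 135)) (not (adN 135 x)))) = 315 := by decide +kernel

theorem c315 : (univ.filter (fun z => ad a₀ z ∧ z ≠ y₀ ∧ ¬ ad y₀ z)).card = 315 := by
  rw [card_fil _ (fun x => and (adN 0 x) (and (not (Nat.beq x 135)) (not (adN 135 x))))]
  · exact c315_chk
  · intro x
    simp only [Bool.and_eq_true, Bool.not_eq_true', ne_eq]
    constructor
    · rintro ⟨h0, h1, h2⟩
      exact ⟨h0, ne_of_fin h1, adN_false h2⟩
    · rintro ⟨h0, h1, h2⟩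
      refine ⟨h0, ?_, ?_⟩
      · intro e
        rw [e] at h1
        simp at h1
      · show ¬ adN 135 x.val = true
        rw [h2]
        simp

/-! ### Transitivity -/

theorem lets_A0 : ∀ t ∈ [lT 92, lT 93], ∃ h ∈ A0 GG a₀, RepW WW MM h t := by
  intro t ht
  simp only [List.mem_cons, List.not_mem_nil, or_false] at ht
  rcases ht with rfl | rfl
  · exact ⟨g 92, mem_A0 (by norm_num), rep_g 92 (by norm_num)⟩
  · exact ⟨g 93, mem_A0 (by norm_num), rep_g 93 (by norm_num)⟩

theorem transB_chk : allB 1782 11 (fun y => or (not (adN 0 y)) (tb (clo [lT 92, lT 93] 8 (Nat.pow 2 135)) y)) = true := by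
  decide +kernel

theorem transB (y : Fin 1782) (hy : ad a₀ y) : ∃ h ∈ A0 GG a₀, h y₀ = y := by
  have h1 := allB_spec _ _ _ (by norm_num) transB_chk y.val y.2
  have h2 : adN 0 y.val = true := hy
  rw [h2] at h1
  exact reach_clo lets_A0 8 y₀ (by simpa using h1)

theorem sym_base : adN 135 0 = true := by decide +kernel

theorem ad_symm (x y : Fin 1782) (hxy : ad x y) : ad y x := by
  obtain ⟨h, hh, rfl⟩ := trans_G x
  have e : y = h (h⁻¹ y) := (appInv h y).symm
  rw [e] at hxy ⊢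
  rw [ad_inv h hh] at hxy ⊢
  obtain ⟨k, hk, hk'⟩ := transB _ hxy
  rw [← hk']
  have h1 := ad_inv k hk.1 y₀ a₀
  rw [show k a₀ = a₀ from hk.2] at h1
  exact h1.2 sym_base

theorem lets_J : ∀ t ∈ [lT 136, lT 137], ∃ h ∈ JJ, RepW WW MM h t := by
  intro t ht
  simp only [List.mem_cons, List.not_mem_nil, or_false] at ht
  rcases ht with rfl | rfl
  · exact ⟨g 136, lev2.1 136 (by norm_num), rep_g 136 (by norm_num)⟩
  · exact ⟨g 137, lev2.1 137 (by norm_num), rep_g 137 (by norm_num)⟩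

theorem trans100_chk : allB 1782 11 (fun y => or (not (and (adN 0 y) (adN 135 y))) (tb (clo [lT 136, lT 137] 6 (Nat.pow 2 142)) y)) = true := by
  decide +kernel

theorem trans315_chk : allB 1782 11 (fun y => or (not (and (adN 0 y) (and (not (Nat.beq y 135)) (not (adN 135 y)))))
    (tb (clo [lT 136, lT 137] 8 (Nat.pow 2 140)) y)) = true := by
  decide +kernel

theorem trans100 (z : Fin 1782) (hz : ad a₀ z) (hz' : ad y₀ z) : ∃ h ∈ A0 GG a₀, h y₀ = y₀ ∧ h z₁ = z := by
  have h1 := allB_spec _ _ _ (by norm_num) trans100_chk z.val z.2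
  have h2 : adN 0 z.val = true := hz
  have h3 : adN 135 z.val = true := hz'
  rw [h2, h3] at h1
  obtain ⟨h, hh, e⟩ := reach_clo lets_J 6 z₁ (by simpa using h1)
  exact ⟨h, JJ_le hh, JJ_fix hh, e⟩

theorem trans315 (z : Fin 1782) (hz : ad a₀ z) (hne : z ≠ y₀) (hz' : ¬ ad y₀ z) :
    ∃ h ∈ A0 GG a₀, h y₀ = y₀ ∧ h z₂ = z := by
  have h1 := allB_spec _ _ _ (by norm_num) trans315_chk z.val z.2
  have h2 : adN 0 z.val = true := hz
  have h3 : adN 135 z.val = false := adN_false hz'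
  have h4 : Nat.beq z.val 135 = false := ne_of_fin hne
  rw [h2, h3, h4] at h1
  obtain ⟨h, hh, e⟩ := reach_clo lets_J 8 z₂ (by simpa using h1)
  exact ⟨h, JJ_le hh, JJ_fix hh, e⟩

theorem c₀C : c₀ ≠ a₀ ∧ ¬ ad a₀ c₀ := by
  refine ⟨by decide, ?_⟩
  show ¬ adN 0 1 = true
  decide +kernel

theorem transC_chk : allB 1782 11 (fun c => or (or (Nat.beq c 0) (adN 0 c)) (tb (clo [lT 92, lT 93] 9 (Nat.pow 2 1)) c)) = true := by
  decide +kernel

theorem transC (c : Fin 1782) (hc : c ≠ a₀) (hc' : ¬ ad a₀ c) : ∃ h ∈ A0 GG a₀, h c₀ = c := by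
  have h1 := allB_spec _ _ _ (by norm_num) transC_chk c.val c.2
  have h2 : adN 0 c.val = false := adN_false hc'
  have h3 : Nat.beq c.val 0 = false := ne_of_fin hc
  rw [h2, h3] at h1
  exact reach_clo lets_A0 9 c₀ (by simpa using h1)

/-! ### Triples -/

theorem A0_ad {g' : Pm} (hg : g' ∈ A0 GG a₀) (y : Fin 1782) : ad a₀ (g' y) ↔ ad a₀ y := by
  have := ad_inv g' hg.1 a₀ y
  rwa [show g' a₀ = a₀ from hg.2] at this

theorem count_move {g' : Pm} (hg : g' ∈ A0 GG a₀) (u v : Fin 1782) :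
    (univ.filter (fun x => ad a₀ x ∧ ad (g' u) x ∧ ad (g' v) x)).card =
      (univ.filter (fun x => ad a₀ x ∧ ad u x ∧ ad v x)).card := by
  rw [← card_image_of_injective (univ.filter (fun x => ad a₀ x ∧ ad u x ∧ ad v x)) g'.injective]
  apply congrArg Finset.card
  ext y
  simp only [mem_filter, mem_univ, true_and, mem_image]
  constructor
  · rintro ⟨h1, h2, h3⟩
    refine ⟨g'⁻¹ y, ⟨?_, ?_, ?_⟩, appInv g' y⟩
    · rw [← A0_ad hg, appInv]
      exact h1
    · rw [← ad_inv g' hg.1, appInv]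
      exact h2
    · rw [← ad_inv g' hg.1, appInv]
      exact h3
  · rintro ⟨x, ⟨h1, h2, h3⟩, rfl⟩
    exact ⟨(A0_ad hg _).2 h1, (ad_inv g' hg.1 _ _).2 h2, (ad_inv g' hg.1 _ _).2 h3⟩

theorem cliq_base : cnt (fun x => and (adN 0 x) (and (adN 135 x) (adN 142 x))) = 36 := by decide +kernel

theorem cliqB (z w : Fin 1782) (hz : ad a₀ z) (hw : ad a₀ w) (hzw : ad z w) :
    (univ.filter (fun x => ad a₀ x ∧ ad z x ∧ ad w x)).card = 36 := by
  obtain ⟨h, hh, rfl⟩ := transB z hz
  have h1 : ad a₀ (h⁻¹ w) := by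
    rw [← A0_ad hh, appInv]
    exact hw
  have h2 : ad y₀ (h⁻¹ w) := by
    rw [← ad_inv h hh.1, appInv]
    exact hzw
  obtain ⟨k, hk, hk1, hk2⟩ := trans100 _ h1 h2
  have e1 : h y₀ = (h * k) y₀ := by
    rw [Equiv.Perm.mul_apply, hk1]
  have e2 : w = (h * k) z₁ := by
    rw [Equiv.Perm.mul_apply, hk2, appInv]
  rw [e1, e2, count_move ((A0 GG a₀).mul_mem hh hk)]
  rw [card_fil _ (fun x => and (adN 0 x) (and (adN 135 x) (adN 142 x)))]
  · exact cliq_base
  · intro x
    simp only [Bool.and_eq_true]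
    exact Iff.rfl

/-! ### Masks of adjacency -/

theorem mset_inj {m m' : ℕ} (h : mset m = mset m') (hm : ∀ j, 1782 ≤ j → tb m j = false)
    (hm' : ∀ j, 1782 ≤ j → tb m' j = false) : m = m' := by
  apply Nat.eq_of_testBit_eq
  intro j
  rw [← tb_eq, ← tb_eq]
  by_cases hj : j < 1782
  · have := congrArg (fun s => (⟨j, hj⟩ : Fin 1782) ∈ s) h
    simp only [mem_mset, eq_iff_iff] at this
    exact Bool.eq_iff_iff.2 this
  · rw [hm j (by omega), hm' j (by omega)]

theorem XX_mset (c : Fin 1782) : univ.filter (fun y => ad a₀ y ∧ ad c y) = mset (Nat.land (row 0) (row c.val)) := by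
  ext y
  simp only [mem_filter, mem_univ, true_and, mem_mset, tb_land, Bool.and_eq_true]
  exact Iff.rfl

/-! ### Unions of blocks -/

theorem blocks {k : ℕ} (B : Fin k → Finset (Fin 1782)) (hd : ∀ i j, i ≠ j → Disjoint (B i) (B j))
    (T : Finset (Fin 1782)) (hcov : ∀ x ∈ T, ∃ i, x ∈ B i) (hbl : ∀ i, ∀ x ∈ B i, x ∈ T → B i ⊆ T) :
    ∃ I : Finset (Fin k), T = I.biUnion B ∧ T.card = ∑ i ∈ I, (B i).card := by
  classical
  set I : Finset (Fin k) := univ.filter (fun i => (B i ∩ T).Nonempty) with hI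
  have e : T = I.biUnion B := by
    ext x
    simp only [mem_biUnion, hI, mem_filter, mem_univ, true_and]
    constructor
    · intro hx
      obtain ⟨i, hi⟩ := hcov x hx
      exact ⟨i, ⟨x, mem_inter.2 ⟨hi, hx⟩⟩, hi⟩
    · rintro ⟨i, ⟨y, hy⟩, hx⟩
      obtain ⟨h1, h2⟩ := mem_inter.1 hy
      exact hbl i y h1 h2 hx
  refine ⟨I, e, ?_⟩
  rw [e]
  apply Finset.card_biUnion
  intro i _ j _ hij
  exact hd i j hij

theorem disj_of_land {m m' : ℕ} (h : Nat.land m m' = 0) : Disjoint (mset m) (mset m') := by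
  rw [Finset.disjoint_left]
  intro x h1 h2
  rw [mem_mset] at h1 h2
  have := tb_land m m' x.val
  rw [h, h1, h2, tb_zero] at this
  simp at this

/-! ### The two group -/

/-- The words of the two group. -/
def wq (i : ℕ) : List ℕ := wqL.getD i []

/-- The elements of the two group. -/
noncomputable def qP (i : ℕ) : Pm := prodW g (wq i)

/-- The chain of the two group. -/
noncomputable def Qs (k : ℕ) : Subgroup Pm := Subgroup.closure {x | ∃ i, i < k ∧ x = qP i}

/-- The two group. -/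
noncomputable abbrev Q₀ : Subgroup Pm := Qs 12

/-- The relation of two elements of the chain. -/
def relE (i j : ℕ) : List ℕ := (relQ.getD (i * (i - 1) / 2 + j) (0, 0, [])).2.2

theorem relQ_chk : (List.range 12).all (fun i => (List.range i).all (fun j =>
    and ((relE i j).all (fun a => Nat.ble (Nat.succ a) i)) (eqW (wq i ++ wq j) ((relE i j).flatMap wq ++ wq i)))) = true := by
  decide +kernel

theorem ordQ_chk : (List.range 12).all (fun i =>
    eqW (List.flatten (List.replicate (2 ^ (ordQ.getD i 0)) (wq i))) []) = true := by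
  decide +kernel

theorem qP_mem {i k : ℕ} (h : i < k) : qP i ∈ Qs k := Subgroup.subset_closure ⟨i, h, rfl⟩

theorem Qs_succ (k : ℕ) : Qs (k + 1) = Subgroup.zpowers (qP k) ⊔ Qs k := by
  unfold Qs
  rw [Subgroup.zpowers_eq_closure, ← Subgroup.closure_union]
  congr 1
  ext x
  simp only [Set.mem_union, Set.mem_singleton_iff, Set.mem_ofPred_eq]
  constructor
  · rintro ⟨i, hi, rfl⟩
    by_cases h : i = k
    · left
      rw [h]
    · right
      exact ⟨i, by omega, rfl⟩
  · rintro (rfl | ⟨i, hi, rfl⟩)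
    · exact ⟨k, by omega, rfl⟩
    · exact ⟨i, by omega, rfl⟩

theorem Qs_p : ∀ k, k ≤ 12 → IsPGroup 2 (Qs k) := by
  haveI : Fact (Nat.Prime 2) := ⟨Nat.prime_two⟩
  intro k
  induction k with
  | zero =>
    intro _
    have : Qs 0 = ⊥ := by
      unfold Qs
      rw [Subgroup.closure_eq_bot_iff]
      rintro x ⟨i, hi, _⟩
      omega
    rw [this]
    exact IsPGroup.of_bot
  | succ k ih =>
    intro hk
    rw [Qs_succ]
    have hk' : k ∈ List.range 12 := List.mem_range.2 (by omega)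
    apply isP_step (Qs k) (ih (by omega)) (qP k)
    · refine ⟨ordQ.getD k 0, ?_⟩
      have h := (List.all_eq_true.1 ordQ_chk) k hk'
      have e := eq_of_eqW h
      rw [prodW_rep] at e
      exact e
    · have hrel := (List.all_eq_true.1 relQ_chk) k hk'
      rw [List.all_eq_true] at hrel
      intro h hh
      unfold Qs at hh ⊢
      induction hh using Subgroup.closure_induction with
      | mem x hx =>
        obtain ⟨j, hj, rfl⟩ := hx
        have h2 := hrel j (List.mem_range.2 hj)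
        simp only [Bool.and_eq_true] at h2
        have e := eq_of_eqW h2.2
        simp only [PermChain.prodW_append] at e
        have e2 : qP k * qP j * (qP k)⁻¹ = prodW g ((relE k j).flatMap wq) := by
          rw [mul_inv_eq_iff_eq_mul]
          exact e
        rw [e2]
        have hlet : ∀ a ∈ relE k j, a < k := by
          intro a ha
          exact Nat.le_of_ble_eq_true ((List.all_eq_true.1 h2.1) a ha)
        generalize relE k j = l at hlet
        induction l with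
        | nil => exact Subgroup.one_mem _
        | cons a l ih2 =>
          rw [List.flatMap_cons, PermChain.prodW_append]
          exact Subgroup.mul_mem _ (Subgroup.subset_closure ⟨a, hlet a (by simp), rfl⟩)
            (ih2 (fun b hb => hlet b (List.mem_cons_of_mem _ hb)))
      | one => simp
      | mul a b _ _ ha hb =>
        have e : qP k * (a * b) * (qP k)⁻¹ = (qP k * a * (qP k)⁻¹) * (qP k * b * (qP k)⁻¹) := by group
        rw [e]
        exact Subgroup.mul_mem _ ha hb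
      | inv a _ ha =>
        have e : qP k * a⁻¹ * (qP k)⁻¹ = (qP k * a * (qP k)⁻¹)⁻¹ := by group
        rw [e]
        exact Subgroup.inv_mem _ ha

theorem Q_p : IsPGroup 2 Q₀ := Qs_p 12 le_rfl

theorem wq92_chk : (List.range 12).all (fun i => (wq i).all (Nat.ble 92)) = true := by decide +kernel

theorem Q_le : Q₀ ≤ A0 GG a₀ := by
  unfold Q₀ Qs
  rw [Subgroup.closure_le]
  rintro _ ⟨i, hi, rfl⟩
  exact word_A0 ((List.all_eq_true.1 wq92_chk) i (List.mem_range.2 hi))

theorem tQ_chk : tabW (wq 7) tQ0 = true ∧ tabW (wq 10) tQ1 = true ∧ tabW (wq 11) tQ2 = true := by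
  refine ⟨?_, ?_, ?_⟩ <;> decide +kernel

theorem lets_Q : ∀ t ∈ [tQ0, tQ1, tQ2], ∃ h ∈ Q₀, RepW WW MM h t := by
  intro t ht
  simp only [List.mem_cons, List.not_mem_nil, or_false] at ht
  rcases ht with rfl | rfl | rfl
  · exact ⟨qP 7, qP_mem (by norm_num), rep_of_tabW tQ_chk.1⟩
  · exact ⟨qP 10, qP_mem (by norm_num), rep_of_tabW tQ_chk.2.1⟩
  · exact ⟨qP 11, qP_mem (by norm_num), rep_of_tabW tQ_chk.2.2⟩

/-! ### The pair count -/

/-- The count of adjacent pairs in a mask. -/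
noncomputable def pc (m : ℕ) : ℕ := sumN 1782 (fun x => cond (tb m x) (cnt (tb (Nat.land (row x) m))) 0)

theorem pc_eq (m : ℕ) : pairCount ad (mset m) = pc m := by
  classical
  unfold pairCount pc
  rw [sumN_eq (by norm_num), Finset.card_filter, Finset.sum_product, ← Fin.sum_univ_eq_sum_range]
  show _ = ∑ i : Fin 1782, cond (tb m i.val) (cnt (tb (Nat.land (row i.val) m))) 0
  have e : ∀ x : Fin 1782, (∑ y ∈ mset m, if ad x y then 1 else 0) = cnt (tb (Nat.land (row x.val) m)) := by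
    intro x
    rw [← card_mset, ← Finset.card_filter]
    apply congrArg Finset.card
    ext y
    simp only [mem_filter, mem_mset, tb_land, Bool.and_eq_true]
    exact ⟨fun h => ⟨h.2, h.1⟩, fun h => ⟨h.2, h.1⟩⟩
  simp only [e]
  rw [mset, Finset.sum_filter]
  apply Finset.sum_congr rfl
  intro x _
  cases tb m x.val <;> simp

/-! ### The sets of lines -/

/-- The orbits of the two group. -/
def OO (i : ℕ) : ℕ := [Ob0, Ob1, Ob2, Ob3, Ob4].getD i 0

/-- The representatives of the orbits. -/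
def repO (i : ℕ) : ℕ := [207, 209, 299, 135, 141].getD i 0

theorem OO_clo : allB 5 3 (fun i => Nat.beq (clo [tQ0, tQ1, tQ2] 5 (Nat.pow 2 (repO i))) (OO i)) = true := by
  decide +kernel

theorem OO_rep : ∀ i : Fin 5, repO i.val < 1782 := by decide

theorem OO_trans (i : Fin 5) {x y : Fin 1782} (hx : x ∈ mset (OO i.val)) (hy : y ∈ mset (OO i.val)) :
    ∃ h ∈ Q₀, h x = y := by
  have e := Nat.eq_of_beq_eq_true (allB_spec _ _ _ (by norm_num) OO_clo i.val i.2)
  rw [mem_mset, ← e] at hx hy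
  obtain ⟨h₁, hh₁, e₁⟩ := reach_clo lets_Q 5 ⟨repO i.val, OO_rep i⟩ hx
  obtain ⟨h₂, hh₂, e₂⟩ := reach_clo lets_Q 5 ⟨repO i.val, OO_rep i⟩ hy
  refine ⟨h₂ * h₁⁻¹, Q₀.mul_mem hh₂ (Q₀.inv_mem hh₁), ?_⟩
  rw [Equiv.Perm.mul_apply, ← e₁, invApp, e₂]

theorem OO_disj : ∀ i j : Fin 5, i ≠ j → Nat.land (OO i.val) (OO j.val) = 0 := by decide +kernel

theorem OO_cov : allB 1782 11 (fun x => or (not (adN 0 x)) (or (tb Ob0 x) (or (tb Ob1 x) (or (tb Ob2 x) (or (tb Ob3 x) (tb Ob4 x)))))) = true := by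
  decide +kernel

theorem OO_sizes : cnt (tb Ob0) = 32 ∧ cnt (tb Ob1) = 32 ∧ cnt (tb Ob2) = 32 ∧ cnt (tb Ob3) = 64 ∧ cnt (tb Ob4) = 256 := by
  refine ⟨?_, ?_, ?_, ?_, ?_⟩ <;> decide +kernel

theorem pc_false : pc (Nat.lor Ob0 Ob3) ≠ 1920 ∧ pc (Nat.lor Ob1 Ob3) ≠ 1920 ∧ pc (Nat.lor Ob2 Ob3) ≠ 1920 := by
  refine ⟨?_, ?_, ?_⟩ <;> decide +kernel

theorem X_chk : allB 1782 11 (fun x => bE (or (tb Ob0 x) (or (tb Ob1 x) (tb Ob2 x))) (and (adN 0 x) (adN 1 x))) = true := by
  decide +kernel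

theorem subset_sums : ∀ I : Finset (Fin 5), ∑ i ∈ I, (![32, 32, 32, 64, 256] : Fin 5 → ℕ) i = 96 →
    I = {0, 1, 2} ∨ I = {0, 3} ∨ I = {1, 3} ∨ I = {2, 3} := by
  decide +kernel

theorem mset_union (m m' : ℕ) : mset m ∪ mset m' = mset (Nat.lor m m') := by
  ext x
  simp only [mem_union, mem_mset, tb_lor, Bool.or_eq_true]

theorem cands (S : Finset (Fin 1782)) (h1 : ∀ x ∈ S, ad a₀ x) (h2 : S.card = 96) (h3 : ∀ q ∈ Q₀, S.image q = S)
    (h4 : pairCount ad S = 1920) : S = univ.filter (fun y => ad a₀ y ∧ ad c₀ y) := by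
  classical
  obtain ⟨I, eI, cI⟩ := blocks (fun i : Fin 5 => mset (OO i.val))
    (fun i j hij => disj_of_land (OO_disj i j hij)) S
    (by
      intro x hx
      have h5 := allB_spec _ _ _ (by norm_num) OO_cov x.val x.2
      have h6 : adN 0 x.val = true := h1 x hx
      rw [h6] at h5
      simp only [Bool.not_true, Bool.false_or, Bool.or_eq_true] at h5
      rcases h5 with h5 | h5 | h5 | h5 | h5
      · exact ⟨0, mem_mset.2 h5⟩
      · exact ⟨1, mem_mset.2 h5⟩
      · exact ⟨2, mem_mset.2 h5⟩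
      · exact ⟨3, mem_mset.2 h5⟩
      · exact ⟨4, mem_mset.2 h5⟩)
    (by
      intro i x hx hxS y hy
      obtain ⟨h, hh, e⟩ := OO_trans i hx hy
      rw [← h3 h hh, ← e]
      exact mem_image_of_mem _ hxS)
  have hsz : ∀ i : Fin 5, (mset (OO i.val)).card = (![32, 32, 32, 64, 256] : Fin 5 → ℕ) i := by
    intro i
    rw [card_mset]
    obtain ⟨h5, h6, h7, h8, h9⟩ := OO_sizes
    fin_cases i
    · exact h5
    · exact h6
    · exact h7
    · exact h8
    · exact h9
  simp only [hsz] at cI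
  rw [h2] at cI
  obtain ⟨h5, h6, h7⟩ := pc_false
  rcases subset_sums I cI.symm with rfl | rfl | rfl | rfl
  · rw [eI]
    ext x
    simp only [mem_biUnion, mem_filter, mem_univ, true_and]
    have h8 := bE_spec (allB_spec _ _ _ (by norm_num) X_chk x.val x.2)
    have h9 : ad a₀ x ∧ ad c₀ x ↔ and (adN 0 x.val) (adN 1 x.val) = true := by
      rw [Bool.and_eq_true]
      exact Iff.rfl
    rw [h9, ← h8]
    simp only [Bool.or_eq_true, Finset.mem_insert, Finset.mem_singleton, mem_mset]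
    constructor
    · rintro ⟨i, (rfl | rfl | rfl), h10⟩
      · exact Or.inl h10
      · exact Or.inr (Or.inl h10)
      · exact Or.inr (Or.inr h10)
    · rintro (h10 | h10 | h10)
      · exact ⟨0, Or.inl rfl, h10⟩
      · exact ⟨1, Or.inr (Or.inl rfl), h10⟩
      · exact ⟨2, Or.inr (Or.inr rfl), h10⟩
  · exfalso
    apply h5
    have hU : ({0, 3} : Finset (Fin 5)).biUnion (fun i => mset (OO i.val)) = mset Ob0 ∪ mset Ob3 := by
      ext x
      simp [OO]
    rw [← pc_eq, ← mset_union, ← h4, eI, hU]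
  · exfalso
    apply h6
    have hU : ({1, 3} : Finset (Fin 5)).biUnion (fun i => mset (OO i.val)) = mset Ob1 ∪ mset Ob3 := by
      ext x
      simp [OO]
    rw [← pc_eq, ← mset_union, ← h4, eI, hU]
  · exfalso
    apply h7
    have hU : ({2, 3} : Finset (Fin 5)).biUnion (fun i => mset (OO i.val)) = mset Ob2 ∪ mset Ob3 := by
      ext x
      simp [OO]
    rw [← pc_eq, ← mset_union, ← h4, eI, hU]

/-! ### The large orbit -/

/-- The orbits of the stabiliser of the vertex. -/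
def CC (i : ℕ) : ℕ := [Cb0, Cb1, Cb2].getD i 0

/-- The representatives of the orbits. -/
def repC (i : ℕ) : ℕ := [26, 18, 2].getD i 0

theorem tC_chk : tabW wC0 tC0 = true ∧ tabW wC1 tC1 = true := by
  refine ⟨?_, ?_⟩ <;> decide +kernel

theorem wC_mem : wC0.all (Nat.ble 92) = true ∧ wC1.all (Nat.ble 92) = true := by
  refine ⟨?_, ?_⟩ <;> decide +kernel

theorem wC_fix : imW WW MM tC0 1 = 1 ∧ imW WW MM tC1 1 = 1 := by
  refine ⟨?_, ?_⟩ <;> decide +kernel

/-- The stabiliser of the vertex. -/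
noncomputable abbrev AC : Subgroup Pm := A0 GG a₀ ⊓ stabilizer Pm c₀

theorem lets_C : ∀ t ∈ [tC0, tC1], ∃ h ∈ AC, RepW WW MM h t := by
  intro t ht
  simp only [List.mem_cons, List.not_mem_nil, or_false] at ht
  rcases ht with rfl | rfl
  · refine ⟨prodW g wC0, ⟨word_A0 wC_mem.1, ?_⟩, rep_of_tabW tC_chk.1⟩
    apply Fin.ext
    show (prodW g wC0 ⟨1, _⟩).val = 1
    rw [rep_of_tabW tC_chk.1]
    exact wC_fix.1
  · refine ⟨prodW g wC1, ⟨word_A0 wC_mem.2, ?_⟩, rep_of_tabW tC_chk.2⟩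
    apply Fin.ext
    show (prodW g wC1 ⟨1, _⟩).val = 1
    rw [rep_of_tabW tC_chk.2]
    exact wC_fix.2

theorem CC_clo : allB 3 2 (fun i => Nat.beq (clo [tC0, tC1] 9 (Nat.pow 2 (repC i))) (CC i)) = true := by
  decide +kernel

theorem CC_rep : ∀ i : Fin 3, repC i.val < 1782 := by decide

theorem CC_trans (i : Fin 3) {x y : Fin 1782} (hx : x ∈ mset (CC i.val)) (hy : y ∈ mset (CC i.val)) :
    ∃ h ∈ AC, h x = y := by
  have e := Nat.eq_of_beq_eq_true (allB_spec _ _ _ (by norm_num) CC_clo i.val i.2)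
  rw [mem_mset, ← e] at hx hy
  obtain ⟨h₁, hh₁, e₁⟩ := reach_clo lets_C 9 ⟨repC i.val, CC_rep i⟩ hx
  obtain ⟨h₂, hh₂, e₂⟩ := reach_clo lets_C 9 ⟨repC i.val, CC_rep i⟩ hy
  refine ⟨h₂ * h₁⁻¹, AC.mul_mem hh₂ (AC.inv_mem hh₁), ?_⟩
  rw [Equiv.Perm.mul_apply, ← e₁, invApp, e₂]

theorem CC_disj : ∀ i j : Fin 3, i ≠ j → Nat.land (CC i.val) (CC j.val) = 0 := by decide +kernel

theorem CC_cov : allB 1782 11 (fun x => or (or (Nat.beq x 0) (or (adN 0 x) (Nat.beq x 1)))
    (or (tb Cb0 x) (or (tb Cb1 x) (tb Cb2 x)))) = true := by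
  decide +kernel

theorem CC_sizes : cnt (tb Cb0) = 20 ∧ cnt (tb Cb1) = 320 ∧ cnt (tb Cb2) = 1024 := by
  refine ⟨?_, ?_, ?_⟩ <;> decide +kernel

theorem Cb1_chk : allB 1782 11 (fun x => bE (tb Cb1 x) (and (not (Nat.beq x 0)) (and (not (adN 0 x)) (adN 1 x)))) = true := by
  decide +kernel

theorem subset_sums3 : ∀ I : Finset (Fin 3), ∑ i ∈ I, (![20, 320, 1024] : Fin 3 → ℕ) i = 320 → I = {1} := by
  decide +kernel

theorem orbC (T : Finset (Fin 1782)) (h1 : ∀ x ∈ T, x ≠ a₀ ∧ ¬ ad a₀ x ∧ x ≠ c₀) (h2 : T.card = 320)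
    (h3 : ∀ g' ∈ A0 GG a₀, g' c₀ = c₀ → T.image g' = T) :
    T = univ.filter (fun x => x ≠ a₀ ∧ ¬ ad a₀ x ∧ ad c₀ x) := by
  classical
  obtain ⟨I, eI, cI⟩ := blocks (fun i : Fin 3 => mset (CC i.val))
    (fun i j hij => disj_of_land (CC_disj i j hij)) T
    (by
      intro x hx
      obtain ⟨h5, h6, h7⟩ := h1 x hx
      have h8 := allB_spec _ _ _ (by norm_num) CC_cov x.val x.2
      rw [ne_of_fin h5, adN_false h6, ne_of_fin h7] at h8
      simp only [Bool.or_false, Bool.false_or, Bool.or_eq_true] at h8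
      rcases h8 with h8 | h8 | h8
      · exact ⟨0, mem_mset.2 h8⟩
      · exact ⟨1, mem_mset.2 h8⟩
      · exact ⟨2, mem_mset.2 h8⟩)
    (by
      intro i x hx hxT y hy
      obtain ⟨h, hh, e⟩ := CC_trans i hx hy
      rw [← h3 h hh.1 hh.2, ← e]
      exact mem_image_of_mem _ hxT)
  have hsz : ∀ i : Fin 3, (mset (CC i.val)).card = (![20, 320, 1024] : Fin 3 → ℕ) i := by
    intro i
    rw [card_mset]
    obtain ⟨h5, h6, h7⟩ := CC_sizes
    fin_cases i
    · exact h5
    · exact h6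
    · exact h7
  simp only [hsz] at cI
  rw [h2] at cI
  rw [eI, subset_sums3 I cI.symm]
  ext x
  simp only [mem_biUnion, mem_singleton, exists_eq_left, mem_filter, mem_univ, true_and, mem_mset]
  have h8 := bE_spec (allB_spec _ _ _ (by norm_num) Cb1_chk x.val x.2)
  have h9 : CC ((1 : Fin 3) : ℕ) = Cb1 := rfl
  rw [h9, h8]
  simp only [Bool.and_eq_true, Bool.not_eq_true']
  constructor
  · rintro ⟨h10, h11, h12⟩
    refine ⟨?_, ?_, h12⟩
    · intro e
      rw [e] at h10
      simp at h10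
    · show ¬ adN 0 x.val = true
      rw [h11]
      simp
  · rintro ⟨h10, h11, h12⟩
    exact ⟨ne_of_fin h10, adN_false h11, h12⟩

/-! ### Common neighbours determine the vertex -/

theorem XX_chk : allB 3 2 (fun i => not (Nat.beq (Nat.land (row 0) (row (repC i))) (Nat.land (row 0) (row 1)))) = true := by
  decide +kernel

theorem XX_inj (c : Fin 1782) (h1 : c ≠ a₀) (h2 : ¬ ad a₀ c)
    (h : univ.filter (fun y => ad a₀ y ∧ ad c y) = univ.filter (fun y => ad a₀ y ∧ ad c₀ y)) : c = c₀ := by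
  by_contra hne
  have h8 := allB_spec _ _ _ (by norm_num) CC_cov c.val c.2
  rw [ne_of_fin h1, adN_false h2, ne_of_fin hne] at h8
  simp only [Bool.or_false, Bool.false_or, Bool.or_eq_true] at h8
  have hi : ∃ i : Fin 3, tb (CC i.val) c.val = true := by
    rcases h8 with h8 | h8 | h8
    · exact ⟨0, h8⟩
    · exact ⟨1, h8⟩
    · exact ⟨2, h8⟩
  obtain ⟨i, hi⟩ := hi
  have e := Nat.eq_of_beq_eq_true (allB_spec _ _ _ (by norm_num) CC_clo i.val i.2)
  rw [← e] at hi
  obtain ⟨k, hk, hk'⟩ := reach_clo lets_C 9 ⟨repC i.val, CC_rep i⟩ hi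
  have hka : k a₀ = a₀ := hk.1.2
  have hkc : k c₀ = c₀ := hk.2
  have h3 : univ.filter (fun y => ad a₀ y ∧ ad ⟨repC i.val, CC_rep i⟩ y) =
      univ.filter (fun y => ad a₀ y ∧ ad c₀ y) := by
    ext y
    have h4 := congrArg (fun s => k y ∈ s) h
    simp only [mem_filter, mem_univ, true_and, eq_iff_iff] at h4 ⊢
    have h5 := ad_inv k hk.1.1 a₀ y
    rw [hka] at h5
    have h6 := ad_inv k hk.1.1 c₀ y
    rw [hkc] at h6
    have h7 := ad_inv k hk.1.1 ⟨repC i.val, CC_rep i⟩ y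
    rw [hk'] at h7
    rw [h5, h6, h7] at h4
    exact h4
  rw [XX_mset, XX_mset] at h3
  have hhigh : ∀ x : Fin 1782, ∀ j, 1782 ≤ j → tb (Nat.land (row 0) (row x.val)) j = false := by
    intro x j hj
    rw [tb_land, tb_row_high x j hj]
    simp
  have e2 := mset_inj h3 (hhigh _) (hhigh _)
  have h6 := allB_spec _ _ _ (by norm_num) XX_chk i.val i.2
  have e3 : Nat.land (row 0) (row (repC i.val)) = Nat.land (row 0) (row 1) := e2
  rw [e3] at h6
  simp at h6

/-! ### The subgroups of index 416 -/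

theorem exists_line (H : Subgroup Pm) (hH : H ≤ A0 GG a₀) (cH : Nat.card H = 604800) :
    ∃ y₁, ad a₀ y₁ ∧ ∀ g' ∈ A0 GG a₀, (g' ∈ H ↔ g' y₁ = y₁) := by
  classical
  obtain ⟨y₁, hy₁, hy⟩ := Cfsg.Agent.Lib.SuzRk3F.exists_line_of fdata (A := A0 GG a₀) (y₀ := y₀)
    (Bset := univ.filter (fun x => ad a₀ x))
    (by
      intro g'
      rw [JJ_eq]
      exact Iff.rfl)
    cardA TT_p cardBs
    (by
      intro g' hg'
      simp only [mem_filter, mem_univ, true_and]
      exact (A0_ad hg' y₀).2 y₀B)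
    H hH cH
  exact ⟨y₁, by simpa using hy₁, hy⟩

/-- All the concrete facts. -/
theorem conc : Conc GG ad a₀ y₀ z₁ z₂ c₀ Q₀ where
  ad_symm := ad_symm
  ad_irr := ad_irr
  ad_inv := ad_inv
  cardBs := cardBs
  cardCs := cardCs
  cardA := cardA
  y₀B := y₀B
  transB := transB
  z₁100 := z₁100
  z₂315 := z₂315
  trans100 := trans100
  trans315 := trans315
  c100 := c100
  c315 := c315
  exists_line := exists_line
  cliqB := cliqB
  Q_le := Q_le
  Q_p := Q_p
  cands := cands
  c₀C := c₀C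
  transC := transC
  XX_inj := XX_inj
  orbC := orbC

end Cfsg.Agent.Lib.SuzRk3G
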