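import Mathlib
import Cfsg.Agent.Lib.SuzRk3E
import Cfsg.Agent.Lib.GraphRefine

set_option autoImplicit false
set_option linter.unusedSectionVars false
set_option linter.unusedVariables false
set_option linter.style.haveILetI false
set_option linter.unusedSimpArgs false
set_option maxRecDepth 1000000

/-!
# The automorphism group of the rank three graph on 1782 points
-/

namespace Cfsg.Agent.Lib.SuzRk3R

open Finset Cfsg.Agent.Lib.SuzRk3B Cfsg.Agent.Lib.SuzRk3E Cfsg.Agent.Lib.GraphRefine
open Cfsg.Agent.Lib.PermChain12 (force force_eq)

/-- Distinctness of a list, through a hash and a mask of the values seen. -/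
noncomputable def nodupH (M : ℕ) (l : List ℕ) : ℕ → Bool :=
  List.rec (motive := fun _ => ℕ → Bool) (fun _ => true)
    (fun c _ ih m => cond (tb m (Nat.mod c M)) false (force (Nat.lor m (Nat.pow 2 (Nat.mod c M))) ih)) l

theorem nodupH_spec (M : ℕ) (l : List ℕ) : ∀ m, nodupH M l m = true → l.Nodup ∧ ∀ c ∈ l, tb m (c % M) = false := by
  induction l with
  | nil => simp
  | cons c l ih =>
    intro m h
    have e : nodupH M (c :: l) m =
        cond (tb m (Nat.mod c M)) false (force (Nat.lor m (Nat.pow 2 (Nat.mod c M))) (nodupH M l)) := rfl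
    rw [e] at h
    cases h1 : tb m (Nat.mod c M)
    · rw [h1, cond_false, force_eq] at h
      obtain ⟨h2, h3⟩ := ih _ h
      have h4 : ∀ d ∈ l, d % M ≠ c % M ∧ tb m (d % M) = false := by
        intro d hd
        have h5 := h3 d hd
        rw [tb_lor, Bool.or_eq_false_iff] at h5
        refine ⟨?_, h5.1⟩
        intro h6
        have h7 := h5.2
        rw [← Bool.not_eq_true, tb_pow] at h7
        exact h7 h6.symm
      refine ⟨List.nodup_cons.2 ⟨?_, h2⟩, ?_⟩
      · intro hc
        exact (h4 c hc).1 rfl
      · intro d hd
        rcases List.mem_cons.1 hd with rfl | hd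
        · exact h1
        · exact (h4 d hd).2
    · rw [h1, cond_true] at h
      exact absurd h (by simp)

/-- The run of a certificate with a cheap check at the end. -/
noncomputable def runB {α : Type*} (W : α → α → ℕ) (rows : List α) (M : ℕ) : List Op → List ℕ → Option ℕ
  | [], col => if nodupH M col 0 = true then some 1 else none
  | Op.split γ :: ops, col => runB W rows M ops (stepCol W rows col γ)
  | Op.ind b f :: ops, col =>
    match runB W rows M ops (setAt f b col) with
    | some B => if b < col.length then some (cellCount (col.getD b 0) col * B) else none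
    | none => none

theorem run_of_runB {α : Type*} (W : α → α → ℕ) (rows : List α) (M : ℕ) (ops : List Op) :
    ∀ (col : List ℕ) (B : ℕ), runB W rows M ops col = some B → run W rows ops col = some B := by
  induction ops with
  | nil =>
    intro col B h
    rw [runB] at h
    split_ifs at h with h1
    rw [run, if_pos (nodupH_spec M col 0 h1).1]
    exact h
  | cons op ops ih =>
    intro col B h
    cases op with
    | split γ =>
      rw [runB] at h
      rw [run]
      exact ih _ _ h
    | ind b f =>
      rw [runB] at h
      rw [run]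
      cases h1 : runB W rows M ops (setAt f b col) with
      | none =>
        rw [h1] at h
        simp at h
      | some B' =>
        rw [h1] at h
        rw [ih _ _ h1]
        exact h

/-- The colour of an edge. -/
noncomputable def Wd (a b : ℕ × ℕ) : ℕ := cond (tb b.2 a.1) 1 0

/-- The rows. -/
noncomputable def rowsL : List (ℕ × ℕ) := (List.range 1782).map (fun x => (x, row x))

theorem rows_len : rowsL.length = 1782 := by simp [rowsL]

theorem rows_get (i : Fin 1782) : rowsL.getD i.1 (0, 0) = (i.1, row i.1) := by
  have h : i.1 < ((List.range 1782).map (fun x => (x, row x))).length := by simp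
  unfold rowsL
  rw [List.getD_eq_getElem _ _ h]
  simp

theorem Wd_eq (x y : Fin 1782) : Wd (rowsL.getD x.1 (0, 0)) (rowsL.getD y.1 (0, 0)) = if ad y x then 1 else 0 := by
  rw [rows_get, rows_get]
  show cond (adN y.val x.val) 1 0 = _
  by_cases h : ad y x
  · rw [if_pos h]
    have h' : adN y.val x.val = true := h
    rw [h']
    rfl
  · rw [if_neg h]
    have h' : adN y.val x.val = false := by
      rw [← Bool.not_eq_true]
      exact h
    rw [h']
    rfl

/-- The certificate. -/
noncomputable def opsL : List Op := [
  Op.ind 0 2,
  Op.split 2,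
  Op.ind 135 3,
  Op.split 3,
  Op.ind 142 4,
  Op.split 4,
  Op.ind 203 5,
  Op.split 5,
  Op.ind 1279 6,
  Op.split 6,
  Op.ind 1348 7,
  Op.split 7,
  Op.ind 100 8,
  Op.split 8,
  Op.split 576462401572438017,
  Op.split 576462401572700161,
  Op.split 576462676450607105,
  Op.split 2017614282331258881,
  Op.ind 3 9,
  Op.split 9,
  Op.split 412317253632,
  Op.split 962073985024,
  Op.split 549756731392,
  Op.split 131073,
  Op.split 131073,
  Op.split 65536,
  Op.split 32768,
  Op.split 327680,
  Op.split 16384,
  Op.split 32768,
  Op.split 16385,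
  Op.split 32769,
  Op.split 73729,
  Op.split 8192,
  Op.split 40960,
  Op.split 20480,
  Op.split 12289,
  Op.split 10240,
  Op.split 20480,
  Op.split 43008,
  Op.split 37889,
  Op.split 2147491840]

theorem runB_ops : runB Wd rowsL 181731 opsL (List.replicate 1782 0) = some 896690995200 := by decide +kernel

theorem run_ops : run Wd rowsL opsL (List.replicate 1782 0) = some 896690995200 :=
  run_of_runB _ _ _ _ _ _ runB_ops

theorem card_aut : Nat.card (Cfsg.Agent.Lib.OutMcL.AutAdj ad) ≤ 896690995200 := by
  refine card_le_of_run (Equiv.refl _) Wd rowsL (0, 0) rows_len (Cfsg.Agent.Lib.OutMcL.AutAdj ad) ?_ opsL run_ops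
  intro g' hg x y
  show Wd (rowsL.getD (g' x).1 (0, 0)) (rowsL.getD (g' y).1 (0, 0)) = _
  rw [Wd_eq, Wd_eq]
  have := hg y x
  by_cases h : ad y x
  · rw [if_pos h, if_pos (this.2 h)]
  · rw [if_neg h, if_neg (fun h' => h (this.1 h'))]

end Cfsg.Agent.Lib.SuzRk3R
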