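import Mathlib
import Cfsg.Agent.Lib.SuzRk3C
import Cfsg.Agent.Lib.SuzRk3G
import Cfsg.Agent.Lib.SuzRk3R
import Cfsg.Agent.Lib.SuzOutM
import Cfsg.Agent.Lib.SuzG24
import Cfsg.Agent.Lib.ChevTransfer

set_option autoImplicit false
set_option linter.unusedSectionVars false
set_option linter.unusedVariables false
set_option linter.style.haveILetI false
set_option linter.unusedSimpArgs false
set_option maxRecDepth 100000

/-!
# Recognition of the Suzuki group from the rank three action on 1782 points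
-/

namespace Cfsg.Agent.Lib.SuzRk3I

open MulAction Finset Cfsg Cfsg.Agent.Lib.SuzRk3A Cfsg.Agent.Lib.SuzRk3B Cfsg.Agent.Lib.SuzRk3C Cfsg.Agent.Lib.SuzRk3E
  Cfsg.Agent.Lib.SuzRk3G Cfsg.Agent.Lib.SuzRk3R
open Cfsg.Agent.Lib.PermChain Cfsg.Agent.Lib.ProgChain Cfsg.Agent.Lib.SuzPMain Cfsg.Agent.Lib.SuzOutT
  Cfsg.Agent.Lib.SuzOutP Cfsg.Agent.Lib.SuzOutM Cfsg.Agent.Lib.SuzG24 Cfsg.Agent.Lib.TcRel

theorem wA_mem : ∀ x ∈ Cfsg.Agent.TcData.Suz.R1.SL, (wA x).all (Nat.ble 92) = true := by decide +kernel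

/-- The point stabiliser of the concrete group is the subgroup of the presented group. -/
theorem sub_iso : Nonempty (subOf RB Cfsg.Agent.TcData.Suz.R1.SL ≃* A0 GG a₀) := by
  obtain ⟨ψ, hψ⟩ := exists_equiv wA invA cA eA vxA x_ne
  let φ : Cfsg.Spor.Suz →* Pm := GG.subtype.comp ψ.toMonoidHom
  have hφ : Function.Injective φ := (Subgroup.subtype_injective _).comp ψ.injective
  set S : Subgroup Cfsg.Spor.Suz := subOf RB Cfsg.Agent.TcData.Suz.R1.SL with hS
  have hle : S.map φ ≤ A0 GG a₀ := by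
    rw [Subgroup.map_le_iff_le_comap, hS, subOf, Subgroup.closure_le]
    rintro _ ⟨x, hx, rfl⟩
    show φ (PresentedGroup.of x) ∈ A0 GG a₀
    have h1 := hψ [x]
    have h2 : elt [x] = (PresentedGroup.of x : Cfsg.Spor.Suz) := by simp [elt]
    rw [h2] at h1
    have h3 : φ (PresentedGroup.of x) = prodW g (wA x) := by
      show ((ψ (PresentedGroup.of x) : Cfsg.Agent.Lib.SuzOutT.GG) : Pm) = _
      rw [h1]
      simp
    rw [h3]
    exact word_A0 (wA_mem x hx)
  have hcard : Nat.card S = 251596800 := by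
    obtain ⟨e⟩ := main_iso
    rw [Nat.card_congr e.toEquiv, card_GG]
  have heq : S.map φ = A0 GG a₀ := by
    apply Subgroup.eq_of_le_of_card_ge hle
    rw [cardA, Subgroup.card_map_of_injective hφ, hcard]
  exact ⟨(S.equivMapOfInjective φ hφ).trans (MulEquiv.subgroupCongr heq)⟩

/-- The main recognition theorem. -/
theorem main {Ω : Type*} [Fintype Ω] [DecidableEq Ω] (hΩ : Fintype.card Ω = 1782) (G : Subgroup (Equiv.Perm Ω))
    [IsPretransitive G Ω] (a : Ω) (K : Type) [Field K] [Fintype K] (hK : Fintype.card K = 4)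
    (e : stabilizer G a ≃* Lie.chevG2.group K) (b c : Ω) (hb : (orbit (stabilizer G a) b).ncard = 416)
    (hc : (orbit (stabilizer G a) c).ncard = 1365) : Spor.IsoSuz G := by
  obtain ⟨e₁⟩ := main_iso
  obtain ⟨e₂⟩ := sub_iso
  let f₀ : K ≃+* Cfsg.Agent.Lib.F4Mat.K4 :=
    FiniteField.ringEquivOfCardEq (hK.trans Cfsg.Agent.Lib.F4Mat.K4.card_eq.symm)
  let E : stabilizer G a ≃* A0 GG a₀ :=
    e.trans ((Cfsg.Agent.Lib.ChevTransfer.groupEquiv Lie.chevG2 f₀).trans (e₁.symm.trans e₂))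
  have h : R3 G a b c := ⟨hΩ, inferInstance, hb, hc⟩
  have hC := conc
  obtain ⟨φ, hφ⟩ := exists_phi hC h E
  obtain ⟨f, hf⟩ := graph_iso hC h E hφ
  have hcG : Nat.card G = 448345497600 := by
    have h1 := Subgroup.card_mul_index (stabilizer G a)
    have e1 : orbit G a = Set.univ := orbit_eq_univ G a
    rw [index_stabilizer, e1, Set.ncard_univ, Nat.card_eq_fintype_card (α := Ω), hΩ, card_A hC h E] at h1
    omega
  obtain ⟨eG⟩ := iso_of_graph_iso (a := a) (b := b) GG_le (n := 448345497600) (by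
    have := card_aut
    omega) cardH0 (by norm_num) simple_top hcG f hf
  obtain ⟨ψ, -⟩ := exists_equiv wA invA cA eA vxA x_ne
  exact ⟨eG.trans ψ.symm⟩

end Cfsg.Agent.Lib.SuzRk3I
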