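import Mathlib
import Cfsg.Agent.Lib.Fi22J2.O6

set_option autoImplicit false
set_option maxRecDepth 100000
set_option linter.unusedVariables false
set_option linter.unusedSectionVars false

/-!
# The action on an extraspecial quotient as an isometry of the elliptic form in dimension 6
-/

namespace Cfsg.Agent.Lib.SuzSec20.Act

open Matrix Cfsg.Agent.Lib.Fi22J2

/-- The data: a group `L`, a subgroup `K`, central elements `ζ ∈ K` and `n ∉ K`, a labelling of `K` by vectors. -/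
structure Data {L : Type*} [Group L] (K : Subgroup L) (ζ n : L) (lam : L → Vec) : Prop where
  n_cen : ∀ x, n * x = x * n
  n_sq : n * n = 1
  n_not : n ∉ K
  z_cen : ∀ x, ζ * x = x * ζ
  z_mem : ζ ∈ K
  H : ∀ x, ∀ q ∈ K, ∃ r ∈ K, x * q * x⁻¹ = r ∨ x * q * x⁻¹ = n * r
  lam_mul : ∀ q ∈ K, ∀ q' ∈ K, lam (q * q') = lam q + lam q'
  lam_zero : ∀ q ∈ K, lam q = 0 → q = 1 ∨ q = ζ
  lam_one : lam 1 = 0
  lam_z : lam ζ = 0
  lam_surj : ∀ v, ∃ q ∈ K, lam q = v
  sq : ∀ q ∈ K, q * q = 1 ∨ q * q = ζ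
  lam_sq1 : ∀ q ∈ K, q * q = 1 → Qm (lam q) = 0
  lam_sq2 : ∀ q ∈ K, q * q = ζ → Qm (lam q) = 1

variable {L : Type*} [Group L] {K : Subgroup L} {ζ n : L} {lam : L → Vec}

theorem vec_two (v : Vec) : v + v = 0 := by
  funext i
  exact CharTwo.add_self_eq_zero (v i)

/-- The relation between an element of `K` and its conjugate. -/
def Tr (n x q r : L) : Prop := x * q * x⁻¹ = r ∨ x * q * x⁻¹ = n * r

namespace Data

variable (D : Data K ζ n lam)

include D

theorem Tr_unique {x q r r' : L} (hr : r ∈ K) (hr' : r' ∈ K) (h : Tr n x q r) (h' : Tr n x q r') : r = r' := by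
  have hnn : n⁻¹ = n := inv_eq_of_mul_eq_one_left D.n_sq
  rcases h with h | h <;> rcases h' with h' | h'
  · rw [← h, h']
  · exfalso
    apply D.n_not
    have : n = r * r'⁻¹ := by
      rw [← h, h']
      group
    rw [this]
    exact K.mul_mem hr (K.inv_mem hr')
  · exfalso
    apply D.n_not
    have : n = r' * r⁻¹ := by
      rw [← h', h]
      group
    rw [this]
    exact K.mul_mem hr' (K.inv_mem hr)
  · have : n * r = n * r' := by rw [← h, h']
    exact mul_left_cancel this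

theorem Tr_mul {x q q' r r' : L} (h : Tr n x q r) (h' : Tr n x q' r') : Tr n x (q * q') (r * r') := by
  have e : x * (q * q') * x⁻¹ = (x * q * x⁻¹) * (x * q' * x⁻¹) := by group
  unfold Tr
  rw [e]
  rcases h with h | h <;> rcases h' with h' | h' <;> rw [h, h']
  · left; rfl
  · right
    rw [← mul_assoc, ← D.n_cen r, mul_assoc]
  · right
    rw [mul_assoc]
  · left
    calc n * r * (n * r') = (n * n) * (r * r') := by
          rw [mul_assoc n r, ← mul_assoc r, ← D.n_cen r, mul_assoc, mul_assoc]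
      _ = r * r' := by rw [D.n_sq, one_mul]

theorem Tr_comp {x y q r s : L} (h : Tr n y q r) (h' : Tr n x r s) : Tr n (x * y) q s := by
  have e : x * y * q * (x * y)⁻¹ = x * (y * q * y⁻¹) * x⁻¹ := by group
  unfold Tr
  rw [e]
  rcases h with h | h
  · rw [h]
    exact h'
  · rw [h]
    have e2 : x * (n * r) * x⁻¹ = n * (x * r * x⁻¹) := by
      rw [← mul_assoc, ← D.n_cen x, mul_assoc, mul_assoc, mul_assoc]
    rw [e2]
    rcases h' with h' | h'
    · right
      rw [h']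
    · left
      rw [h', ← mul_assoc, D.n_sq, one_mul]

theorem Tr_central {x q r : L} (h : Tr n x q r) {w : L} (hw : ∀ y, w * y = y * w) : Tr n x (q * w) (r * w) := by
  have e : x * (q * w) * x⁻¹ = (x * q * x⁻¹) * w := by
    have : w * x⁻¹ = x⁻¹ * w := hw _
    calc x * (q * w) * x⁻¹ = x * q * (w * x⁻¹) := by group
      _ = x * q * x⁻¹ * w := by rw [this]; group
  unfold Tr
  rw [e]
  rcases h with h | h
  · left
    rw [h]
  · right
    rw [h, mul_assoc]

/-- The choice of a conjugate. -/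
noncomputable def rr (x q : L) (hq : q ∈ K) : L := Classical.choose (D.H x q hq)

theorem rr_mem (x q : L) (hq : q ∈ K) : D.rr x q hq ∈ K := (Classical.choose_spec (D.H x q hq)).1

theorem rr_Tr (x q : L) (hq : q ∈ K) : Tr n x q (D.rr x q hq) := (Classical.choose_spec (D.H x q hq)).2

/-- The section. -/
noncomputable def sg (v : Vec) : L := Classical.choose (D.lam_surj v)

theorem sg_mem (v : Vec) : D.sg v ∈ K := (Classical.choose_spec (D.lam_surj v)).1

theorem sg_lam (v : Vec) : lam (D.sg v) = v := (Classical.choose_spec (D.lam_surj v)).2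

/-- The action on vectors. -/
noncomputable def M (x : L) (v : Vec) : Vec := lam (D.rr x (D.sg v) (D.sg_mem v))

theorem M_spec {x q r : L} (hq : q ∈ K) (hr : r ∈ K) (h : Tr n x q r) : D.M x (lam q) = lam r := by
  set s := D.sg (lam q) with hs
  have hsK : s ∈ K := D.sg_mem _
  have h1 : lam (q⁻¹ * s) = 0 := by
    have e : lam (q⁻¹) = lam q := by
      have h2 := D.lam_mul q hq q⁻¹ (K.inv_mem hq)
      rw [mul_inv_cancel, D.lam_one] at h2
      have h3 := vec_two (lam q)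
      have h4 : lam q + lam q⁻¹ = lam q + lam q := by rw [← h2, h3]
      exact add_left_cancel h4
    rw [D.lam_mul _ (K.inv_mem hq) _ hsK, e, D.sg_lam, vec_two]
  have hw : ∀ y, (q⁻¹ * s) * y = y * (q⁻¹ * s) := by
    intro y
    rcases D.lam_zero _ (K.mul_mem (K.inv_mem hq) hsK) h1 with e | e
    · rw [e]; simp
    · rw [e]
      exact D.z_cen y
  have hwK : q⁻¹ * s ∈ K := K.mul_mem (K.inv_mem hq) hsK
  have h2 : Tr n x s (r * (q⁻¹ * s)) := by
    have := D.Tr_central h hw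
    rwa [mul_inv_cancel_left] at this
  have h3 := D.Tr_unique (D.rr_mem x s hsK) (K.mul_mem hr hwK) (D.rr_Tr x s hsK) h2
  show lam (D.rr x (D.sg (lam q)) _) = lam r
  have h4 : D.rr x (D.sg (lam q)) (D.sg_mem _) = r * (q⁻¹ * s) := h3
  rw [h4, D.lam_mul _ hr _ hwK, h1, add_zero]

theorem M_add (x : L) (u v : Vec) : D.M x (u + v) = D.M x u + D.M x v := by
  have h1 := D.Tr_mul (D.rr_Tr x _ (D.sg_mem u)) (D.rr_Tr x _ (D.sg_mem v))
  have h2 := D.M_spec (K.mul_mem (D.sg_mem u) (D.sg_mem v)) (K.mul_mem (D.rr_mem _ _ _) (D.rr_mem _ _ _)) h1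
  rw [D.lam_mul _ (D.sg_mem u) _ (D.sg_mem v), D.lam_mul _ (D.rr_mem _ _ _) _ (D.rr_mem _ _ _), D.sg_lam, D.sg_lam] at h2
  exact h2

theorem M_mul (x y : L) (v : Vec) : D.M (x * y) v = D.M x (D.M y v) := by
  have h1 := D.Tr_comp (D.rr_Tr y _ (D.sg_mem v)) (D.rr_Tr x _ (D.rr_mem y _ (D.sg_mem v)))
  have h2 := D.M_spec (D.sg_mem v) (D.rr_mem _ _ _) h1
  rw [D.sg_lam] at h2
  rw [h2]
  have h3 := D.M_spec (D.rr_mem y _ (D.sg_mem v)) (D.rr_mem _ _ _) (D.rr_Tr x _ (D.rr_mem y _ (D.sg_mem v)))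
  exact h3.symm

theorem M_one (v : Vec) : D.M 1 v = v := by
  have h1 : Tr n 1 (D.sg v) (D.sg v) := by
    left
    simp
  have h2 := D.M_spec (D.sg_mem v) (D.sg_mem v) h1
  rwa [D.sg_lam] at h2

theorem M_Q (x : L) (v : Vec) : Qm (D.M x v) = Qm v := by
  have hq := D.sg_mem v
  have hr := D.rr_mem x _ hq
  have hT := D.rr_Tr x _ hq
  have hsq : D.rr x _ hq * D.rr x _ hq = x * (D.sg v * D.sg v) * x⁻¹ := by
    have e : x * (D.sg v * D.sg v) * x⁻¹ = (x * D.sg v * x⁻¹) * (x * D.sg v * x⁻¹) := by group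
    rw [e]
    rcases hT with h | h
    · rw [h]
    · rw [h]
      calc _ = (n * n) * (D.rr x _ hq * D.rr x _ hq) := by rw [D.n_sq, one_mul]
        _ = _ := by
          rw [mul_assoc n (D.rr x _ hq), ← mul_assoc (D.rr x _ hq), ← D.n_cen (D.rr x _ hq), mul_assoc, mul_assoc]
  show Qm (lam (D.rr x _ hq)) = Qm v
  rcases D.sq _ hq with h | h
  · rw [h] at hsq
    have h1 : D.rr x _ hq * D.rr x _ hq = 1 := by rw [hsq]; simp
    rw [D.lam_sq1 _ hr h1]
    have h2 := D.lam_sq1 _ hq h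
    rw [D.sg_lam] at h2
    exact h2.symm
  · rw [h] at hsq
    have h1 : D.rr x _ hq * D.rr x _ hq = ζ := by
      rw [hsq, ← D.z_cen x]
      simp
    rw [D.lam_sq2 _ hr h1]
    have h2 := D.lam_sq2 _ hq h
    rw [D.sg_lam] at h2
    exact h2.symm

/-- The linear map. -/
noncomputable def Lin (x : L) : Vec →ₗ[ZMod 2] Vec :=
  AddMonoidHom.toZModLinearMap 2 (AddMonoidHom.mk' (D.M x) (D.M_add x))

theorem Lin_apply (x : L) (v : Vec) : D.Lin x v = D.M x v := rfl

/-- The matrix. -/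
noncomputable def mat (x : L) : Matrix I6 I6 (ZMod 2) := LinearMap.toMatrix' (D.Lin x)

theorem mat_mulVec (x : L) (v : Vec) : D.mat x *ᵥ v = D.M x v := by
  unfold mat
  rw [LinearMap.toMatrix'_mulVec]
  rfl

theorem mat_mul (x y : L) : D.mat (x * y) = D.mat x * D.mat y := by
  unfold mat
  rw [← LinearMap.toMatrix'_comp]
  congr 1
  apply LinearMap.ext
  intro v
  exact D.M_mul x y v

theorem mat_one : D.mat 1 = 1 := by
  unfold mat
  rw [← LinearMap.toMatrix'_id]
  congr 1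
  apply LinearMap.ext
  intro v
  exact D.M_one v

/-- The isometry. -/
noncomputable def Fx (x : L) : O6 :=
  ⟨⟨D.mat x, D.mat x⁻¹, by rw [← D.mat_mul, mul_inv_cancel, D.mat_one], by rw [← D.mat_mul, inv_mul_cancel, D.mat_one]⟩,
    fun u v => by
      show Qm (D.mat x *ᵥ u) = Qm u
      rw [D.mat_mulVec, D.M_Q]⟩

/-- The homomorphism. -/
noncomputable def F : L →* O6 :=
  MonoidHom.mk' D.Fx (fun x y => Subtype.ext (Units.ext (D.mat_mul x y)))

theorem mt_F (x : L) (v : Vec) : mt (D.F x) *ᵥ v = D.M x v := D.mat_mulVec x v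

theorem F_Tr {x q r : L} (hq : q ∈ K) (hr : r ∈ K) (h : Tr n x q r) : mt (D.F x) *ᵥ lam q = lam r := by
  rw [D.mt_F, D.M_spec hq hr h]

theorem F_eq_one {x : L} (h : ∀ q ∈ K, ∃ r ∈ K, Tr n x q r ∧ lam r = lam q) : D.F x = 1 := by
  apply eq_one_of_fix
  intro v
  obtain ⟨q, hq, rfl⟩ := D.lam_surj v
  obtain ⟨r, hr, h1, h2⟩ := h q hq
  rw [D.F_Tr hq hr h1, h2]

end Data

end Cfsg.Agent.Lib.SuzSec20.Act
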