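import Mathlib
import Cfsg.Agent.Lib.SuzSec20Tab
import Cfsg.Agent.Lib.CoOne3
import Cfsg.Agent.Lib.LeechTheta

set_option autoImplicit false
set_option maxRecDepth 100000
set_option linter.unusedVariables false

/-!
# The centralizer of an element of order 3 of the automorphism group of the lattice: an upper bound for its order
-/

namespace Cfsg.Agent.Lib.SuzSec20

open Cfsg Cfsg.Agent.Lib.CoVec Cfsg.Agent.Lib.CoConf Cfsg.Agent.Lib.Co2Rel20 MulAction
open Cfsg.Agent.Lib.Co3Rel19 (dd dd_val dd_eq smul_dd smul_dd_eq dd_inj)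
open Cfsg.Agent.Lib.J2Sec20 (card_le_step dot_dd' dotV eqD dotInt_of_dotV dotInt_eq_of_eqD)
open Cfsg.Agent.Lib.CoOne3 (eq_of_acts)
open Cfsg.Agent.Lib.Golay (idx pt idx_pt pt_idx idx_lt)

/-! ### The element of order 3 -/

theorem wA_ok : okW wA = true := by decide +kernel

/-- The element of order 3. -/
noncomputable def A0 : Co0 := Classical.choose (exists_W wA_ok)

theorem A0_acts : ActsOn A0 (actW wA) := Classical.choose_spec (exists_W wA_ok)

/-- The subgroup of order 3. -/
noncomputable def AA : Subgroup Co0 := Subgroup.zpowers A0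

/-- The centralizer. -/
noncomputable def CC : Subgroup Co0 := Subgroup.centralizer (AA : Set Co0)

theorem mem_CC {x : Co0} : x ∈ CC ↔ x * A0 = A0 * x := by
  unfold CC AA
  rw [Subgroup.mem_centralizer_iff]
  constructor
  · intro h
    exact (h A0 (Subgroup.mem_zpowers A0)).symm
  · rintro h _ ⟨k, rfl⟩
    have h1 : Commute x A0 := h
    exact ((h1.zpow_right k).eq).symm

/-! ### The chain -/

/-- The chain of vectors. -/
def pc (i : ℕ) : ℕ := pcL.getD i 0

/-- The images of the chain of vectors. -/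
def qc (i : ℕ) : ℕ := qcL.getD i 0

/-- The class. -/
def cl (l : ℕ) : List ℕ := clL.getD (l - 1) []

theorem pc_ok : ∀ i < 12, stChk (pc i) = true ∧ Nat.beq (sqN (pc i)) 32 = true ∧ actW wA (pc i) = qc i := by decide +kernel

theorem pc_st {i : ℕ} (hi : i < 12) : St (pc i) := St_of_stChk (pc_ok i hi).1

theorem qc_st {i : ℕ} (hi : i < 12) : St (qc i) := by
  have h := A0_acts.st (pc_st hi)
  rwa [(pc_ok i hi).2.2] at h

theorem A0_pc {i : ℕ} (hi : i < 12) : A0 • dd (pc i) = dd (qc i) :=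
  smul_dd_eq A0_acts (pc_st hi) (pc_ok i hi).2.2

theorem pc_norm {i : ℕ} (hi : i < 12) : sqNorm ((dd (pc i) : LL) : GolayPt → ℤ) = 32 := by
  rw [norm_dd (pc_st hi), Nat.eq_of_beq_eq_true (pc_ok i hi).2.1]
  rfl

/-- The chain of subgroups. -/
noncomputable def KK : ℕ → Subgroup Co0
  | 0 => CC
  | n + 1 => KK n ⊓ stabilizer Co0 (dd (pc n))

theorem mem_KK {n : ℕ} {k : Co0} : k ∈ KK n ↔ k ∈ CC ∧ ∀ i < n, k • dd (pc i) = dd (pc i) := by
  induction n with
  | zero => simp [KK]
  | succ n ih =>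
    show k ∈ KK n ⊓ stabilizer Co0 (dd (pc n)) ↔ _
    rw [Subgroup.mem_inf, ih, mem_stabilizer_iff]
    constructor
    · rintro ⟨⟨h1, h2⟩, h3⟩
      refine ⟨h1, fun i hi => ?_⟩
      rcases Nat.lt_succ_iff_lt_or_eq.1 hi with h | rfl
      · exact h2 i h
      · exact h3
    · rintro ⟨h1, h2⟩
      exact ⟨⟨h1, fun i hi => h2 i (by omega)⟩, h2 n (by omega)⟩

theorem KK_qc {n : ℕ} {k : Co0} (hk : k ∈ KK n) {i : ℕ} (hi : i < n) (h12 : n ≤ 12) : k • dd (qc i) = dd (qc i) := by
  obtain ⟨h1, h2⟩ := mem_KK.1 hk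
  rw [← A0_pc (by omega), ← mul_smul, (mem_CC.1 h1), mul_smul, h2 i hi]

/-- The scan: a vector of squared length 32 with the inner products of the vector of the level is in the class. -/
def Scan : Prop := ∀ x : LL, sqNorm (x : GolayPt → ℤ) = 32 → ∀ l, 1 ≤ l → l < 12 →
  (∀ i < l, dotInt (x : GolayPt → ℤ) ((dd (pc i) : LL) : GolayPt → ℤ) = dotInt ((dd (pc l) : LL) : GolayPt → ℤ) ((dd (pc i) : LL) : GolayPt → ℤ) ∧
    dotInt (x : GolayPt → ℤ) ((dd (qc i) : LL) : GolayPt → ℤ) = dotInt ((dd (pc l) : LL) : GolayPt → ℤ) ((dd (qc i) : LL) : GolayPt → ℤ)) →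
  ∃ c ∈ cl l, x = dd c

theorem step_l (hS : Scan) {l : ℕ} (h1 : 1 ≤ l) (h2 : l < 12) :
    Nat.card (KK l) ≤ (cl l).length * Nat.card (KK (l + 1)) := by
  classical
  have h := card_le_step (K := KK l) (dd (pc l)) (((cl l).map dd).toFinset) (by
    intro k hk
    have hn : sqNorm (((k • dd (pc l) : LL)) : GolayPt → ℤ) = 32 := by
      rw [← pc_norm h2]
      exact co0_sqNorm k _
    obtain ⟨c, hc, e⟩ := hS (k • dd (pc l)) hn l h1 h2 (fun i hi => by
      constructor
      · rw [← (mem_KK.1 hk).2 i hi, dot_smul]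
        rw [(mem_KK.1 hk).2 i hi]
      · rw [← KK_qc hk hi (by omega), dot_smul]
        rw [KK_qc hk hi (by omega)])
    rw [e]
    exact List.mem_toFinset.2 (List.mem_map.2 ⟨c, hc, rfl⟩))
  refine h.trans ?_
  apply Nat.mul_le_mul_right
  exact (List.toFinset_card_le _).trans (by simp)

/-! ### The first level -/

/-- The vectors of squared length 32. -/
theorem min_fin : {x : GolayPt → ℤ | x ∈ leechLattice ∧ sqNorm x = 32}.Finite := by
  apply Set.finite_of_ncard_ne_zero
  rw [Cfsg.Agent.Lib.LeechTheta.ncard32]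
  norm_num

theorem step_0 : Nat.card (KK 0) ≤ 196560 * Nat.card (KK 1) := by
  classical
  have hf : {x : LL | sqNorm (x : GolayPt → ℤ) = 32}.Finite := by
    apply Set.Finite.of_finite_image (f := Subtype.val) _ Subtype.val_injective.injOn
    apply min_fin.subset
    rintro _ ⟨x, hx, rfl⟩
    exact ⟨x.2, hx⟩
  have h := card_le_step (K := KK 0) (dd (pc 0)) hf.toFinset (by
    intro k hk
    rw [Set.Finite.mem_toFinset]
    show sqNorm (((k • dd (pc 0) : LL)) : GolayPt → ℤ) = 32
    rw [← pc_norm (i := 0) (by norm_num)]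
    exact co0_sqNorm k _)
  refine h.trans ?_
  apply Nat.mul_le_mul_right
  rw [← Cfsg.Agent.Lib.LeechTheta.ncard32, ← Finset.card_image_of_injective _ Subtype.val_injective, ← Set.ncard_coe_finset]
  apply Set.ncard_le_ncard _ min_fin
  intro y hy
  simp only [Finset.coe_image, Set.mem_image, Set.Finite.coe_toFinset] at hy
  obtain ⟨x, hx, rfl⟩ := hy
  exact ⟨x.2, hx⟩

/-! ### The last level -/

/-- The vectors of the certificate. -/
def bc (k : ℕ) : ℕ := if k % 2 = 0 then pc (k / 2) else qc (k / 2)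

/-- The coefficients. -/
def cc (j k : ℕ) : ℤ := (cT.getD j []).getD k 0

theorem cert : ∀ j < 24, ∀ m < 24, (Finset.range 24).sum (fun k => cc j k * ((byte (bc k) m : ℤ) - 128)) = if m = j then 8 else 0 := by
  decide +kernel

theorem bc_st {k : ℕ} (hk : k < 24) : St (bc k) := by
  unfold bc
  split_ifs
  · exact pc_st (by omega)
  · exact qc_st (by omega)

/-- An element as an additive map. -/
noncomputable def gHom (g : Co0) : LL →+ LL := AddMonoidHom.mk' (fun v => g • v) (fun a b => g.2.1 a b)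

theorem comb_eq (j : ℕ) (hj : j < 24) : Cfsg.Agent.S0398.e8 (pt j) = ∑ k ∈ Finset.range 24, cc j k • dd (bc k) := by
  apply Subtype.ext
  funext p
  rw [AddSubmonoidClass.coe_finsetSum, Finset.sum_apply, Cfsg.Agent.S0398.e8_apply]
  have hp := idx_lt p
  have h := cert j hj (idx p) hp
  have e1 : ∀ k ∈ Finset.range 24, (((cc j k • dd (bc k) : LL) : GolayPt → ℤ)) p = cc j k * ((byte (bc k) (idx p) : ℤ) - 128) := by
    intro k hk
    have hk' := Finset.mem_range.1 hk
    show cc j k • ((dd (bc k) : LL) : GolayPt → ℤ) p = _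
    rw [dd_val (bc_st hk'), smul_eq_mul]
    rfl
  rw [Finset.sum_congr rfl e1, h]
  by_cases e : idx p = j
  · have : p = pt j := by rw [← e, pt_idx]
    rw [if_pos e, if_pos this]
  · have : p ≠ pt j := by
      rintro rfl
      exact e (idx_pt hj)
    rw [if_neg e, if_neg this]

theorem KK_trivial {g : Co0} (hg : g ∈ KK 12) : g = 1 := by
  have hb : ∀ k < 24, g • dd (bc k) = dd (bc k) := by
    intro k hk
    unfold bc
    split_ifs
    · exact (mem_KK.1 hg).2 _ (by omega)
    · exact KK_qc hg (by omega) le_rfl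
  apply Cfsg.Agent.Lib.J2Sec20.eq_of_e8
  intro p
  have hp := idx_lt p
  rw [one_smul, ← pt_idx p, comb_eq _ hp]
  have h1 := map_sum (gHom g) (fun k => cc (idx p) k • dd (bc k)) (Finset.range 24)
  refine h1.trans ?_
  apply Finset.sum_congr rfl
  intro k hk
  rw [map_zsmul]
  congr 1
  exact hb k (Finset.mem_range.1 hk)

/-! ### The bound -/

theorem cl_len : ((List.range' 1 11).map fun l => (cl l).length) = [891, 40, 3, 32, 2, 1, 1, 2, 1, 1, 1] := by decide +kernel

theorem card_K12 : Nat.card (KK 12) = 1 := by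
  rw [Nat.card_eq_one_iff_unique]
  refine ⟨⟨fun a b => Subtype.ext ((KK_trivial a.2).trans (KK_trivial b.2).symm)⟩, ⟨1⟩⟩

theorem card_CC_le (hS : Scan) : Nat.card CC ≤ 2690072985600 := by
  have e := cl_len
  simp only [List.range', List.map_cons, List.map_nil, List.cons.injEq, and_true] at e
  obtain ⟨h1, h2, h3, h4, h5, h6, h7, h8, h9, h10, h11⟩ := e
  have s0 := step_0
  have s1 := step_l hS (l := 1) (by norm_num) (by norm_num)
  have s2 := step_l hS (l := 2) (by norm_num) (by norm_num)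
  have s3 := step_l hS (l := 3) (by norm_num) (by norm_num)
  have s4 := step_l hS (l := 4) (by norm_num) (by norm_num)
  have s5 := step_l hS (l := 5) (by norm_num) (by norm_num)
  have s6 := step_l hS (l := 6) (by norm_num) (by norm_num)
  have s7 := step_l hS (l := 7) (by norm_num) (by norm_num)
  have s8 := step_l hS (l := 8) (by norm_num) (by norm_num)
  have s9 := step_l hS (l := 9) (by norm_num) (by norm_num)
  have s10 := step_l hS (l := 10) (by norm_num) (by norm_num)
  have s11 := step_l hS (l := 11) (by norm_num) (by norm_num)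
  norm_num at h1 h2 h3 h4 h5 h6 h7 h8 h9 h10 h11 s1 s2 s3 s4 s5 s6 s7 s8 s9 s10 s11
  rw [h1] at s1
  rw [h2] at s2
  rw [h3] at s3
  rw [h4] at s4
  rw [h5] at s5
  rw [h6] at s6
  rw [h7] at s7
  rw [h8] at s8
  rw [h9] at s9
  rw [h10] at s10
  rw [h11, card_K12] at s11
  show Nat.card (KK 0) ≤ _
  omega

end Cfsg.Agent.Lib.SuzSec20
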