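import Mathlib
import Cfsg.Agent.Lib.SuzSec20Bd

set_option autoImplicit false
set_option maxRecDepth 100000
set_option linter.unusedVariables false

/-!
# The subgroup generated by the element of order 3 and the centre, inside its centralizer
-/

namespace Cfsg.Agent.Lib.SuzSec20

open Cfsg Cfsg.Agent.Lib.CoVec Cfsg.Agent.Lib.CoConf Cfsg.Agent.Lib.Co2Rel20
open Cfsg.Agent.Lib.CoOne3 (eq_of_acts)
open Cfsg.Agent.Lib.Five3 (eN eN_st)
open Cfsg.Agent.Lib.Co0Frame (center_cases)
open Cfsg.Agent.Lib.Co0Mono (negCo0)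

/-- the action of the elements of the normal subgroup on codes -/
def nact (k n : ℕ) : ℕ :=
  match k with
  | 0 => n
  | 1 => actW wA n
  | 2 => actW wA (actW wA n)
  | 3 => actNeg n
  | 4 => actNeg (actW wA n)
  | _ => actNeg (actW wA (actW wA n))

/-- the elements of the normal subgroup -/
noncomputable def nel (k : ℕ) : Co0 :=
  match k with
  | 0 => 1
  | 1 => A0
  | 2 => A0 * A0
  | 3 => negCo0
  | 4 => negCo0 * A0
  | _ => negCo0 * (A0 * A0)

theorem nel_acts (k : ℕ) : ActsOn (nel k) (nact k) := by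
  match k with
  | 0 => exact ActsOn.one
  | 1 => exact A0_acts
  | 2 => exact A0_acts.mul A0_acts
  | 3 => exact actNeg_spec
  | 4 => exact actNeg_spec.mul A0_acts
  | _ + 5 => exact actNeg_spec.mul (A0_acts.mul A0_acts)

theorem A0_cube : A0 * A0 * A0 = 1 :=
  eq_of_acts (A0_acts.mul A0_acts |>.mul A0_acts) ActsOn.one (by decide +kernel)

theorem A0_mem : A0 ∈ CC := mem_CC.2 rfl

theorem neg_mem_center : negCo0 ∈ Subgroup.center Co0 := Cfsg.Agent.S0398.neg_center

theorem neg_comm (g : Co0) : negCo0 * g = g * negCo0 := (Subgroup.mem_center_iff.1 neg_mem_center g).symm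

theorem neg_mem_CC : negCo0 ∈ CC := mem_CC.2 (neg_comm A0)

/-- The subgroup. -/
noncomputable def AZ : Subgroup Co0 := AA ⊔ Subgroup.center Co0

theorem nel_mem_AZ (k : ℕ) : nel k ∈ AZ := by
  have h1 : A0 ∈ AZ := Subgroup.mem_sup_left (Subgroup.mem_zpowers A0)
  have h2 : negCo0 ∈ AZ := Subgroup.mem_sup_right neg_mem_center
  match k with
  | 0 => exact Subgroup.one_mem _
  | 1 => exact h1
  | 2 => exact Subgroup.mul_mem _ h1 h1
  | 3 => exact h2
  | 4 => exact Subgroup.mul_mem _ h2 h1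
  | _ + 5 => exact Subgroup.mul_mem _ h2 (Subgroup.mul_mem _ h1 h1)

theorem A0_zpow (m : ℤ) : A0 ^ m = 1 ∨ A0 ^ m = A0 ∨ A0 ^ m = A0 * A0 := by
  have h3 : A0 ^ (3 : ℤ) = 1 := by
    have : A0 ^ (3 : ℤ) = A0 * A0 * A0 := by
      rw [zpow_ofNat, pow_succ, pow_two]
    rw [this, A0_cube]
  have e : A0 ^ m = A0 ^ (m % 3) := by
    conv_lhs => rw [← Int.mul_ediv_add_emod m 3, zpow_add, zpow_mul, h3, one_zpow, one_mul]
  have h0 : m % 3 = 0 ∨ m % 3 = 1 ∨ m % 3 = 2 := by omega
  rcases h0 with h | h | h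
  · left
    rw [e, h, zpow_zero]
  · right; left
    rw [e, h, zpow_one]
  · right; right
    rw [e, h]
    show A0 ^ (2 : ℤ) = _
    rw [zpow_ofNat, pow_two]

theorem mem_AZ_cases {x : Co0} (hx : x ∈ AZ) : ∃ k < 6, x = nel k := by
  have hZ : (Subgroup.center Co0).Normal := inferInstance
  have h1 : (x : Co0) ∈ ((AA ⊔ Subgroup.center Co0 : Subgroup Co0) : Set Co0) := hx
  rw [Subgroup.mul_normal] at h1
  obtain ⟨a, ⟨m, rfl⟩, z, hz, rfl⟩ := h1
  rcases center_cases hz with rfl | rfl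
  · rcases A0_zpow m with h | h | h
    · exact ⟨0, by norm_num, by simp only [zpow_eq_zpow_emod] at *; simp [h, nel]⟩
    · exact ⟨1, by norm_num, by simp only [] at *; simp [h, nel]⟩
    · exact ⟨2, by norm_num, by simp only [] at *; simp [h, nel]⟩
  · rcases A0_zpow m with h | h | h
    · exact ⟨3, by norm_num, by simp only [] at *; simp [h, nel]⟩
    · exact ⟨4, by norm_num, by simp only [] at *; simp [h, nel, neg_comm]⟩
    · exact ⟨5, by norm_num, by simp only [] at *; simp [h, nel, neg_comm]⟩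

/-- The normal subgroup of the centralizer. -/
noncomputable def NN : Subgroup CC := AZ.subgroupOf CC

theorem mem_NN {y : CC} : y ∈ NN ↔ ∃ k < 6, (y : Co0) = nel k := by
  unfold NN
  rw [Subgroup.mem_subgroupOf]
  constructor
  · exact mem_AZ_cases
  · rintro ⟨k, -, e⟩
    rw [e]
    exact nel_mem_AZ k

theorem AZ_comm {x : Co0} (hx : x ∈ AZ) {y : Co0} (hy : y ∈ CC) : y * x = x * y := by
  obtain ⟨k, -, rfl⟩ := mem_AZ_cases hx
  have h1 : y * A0 = A0 * y := mem_CC.1 hy
  match k with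
  | 0 => simp [nel]
  | 1 => exact h1
  | 2 =>
    show y * (A0 * A0) = A0 * A0 * y
    rw [← mul_assoc, h1, mul_assoc, h1, mul_assoc]
  | 3 => exact (neg_comm y).symm
  | 4 =>
    show y * (negCo0 * A0) = negCo0 * A0 * y
    rw [← mul_assoc, ← neg_comm, mul_assoc, h1, mul_assoc]
  | _ + 5 =>
    show y * (negCo0 * (A0 * A0)) = negCo0 * (A0 * A0) * y
    rw [← mul_assoc, ← neg_comm, mul_assoc, ← mul_assoc y, h1, mul_assoc A0, h1]
    simp only [mul_assoc]

instance NN_normal : NN.Normal := by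
  constructor
  intro n hn g
  have h1 : (n : Co0) ∈ AZ := hn
  have h2 : (g : Co0) * n = n * g := AZ_comm h1 g.2
  have e : g * n * g⁻¹ = n := by
    apply Subtype.ext
    show (g : Co0) * n * (g : Co0)⁻¹ = n
    rw [h2]
    simp
  rw [e]
  exact hn

/-- The section. -/
abbrev SS : Type := ↥CC ⧸ NN

/-- The test that a function agrees with an element of the normal subgroup on the frame. -/
def inNchk (f : ℕ → ℕ) : Bool :=
  (List.range 6).any fun k => (List.range 24).all fun i => Nat.beq (f (eN i)) (nact k (eN i))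

theorem inNchk_spec {g : Co0} {f : ℕ → ℕ} (hg : ActsOn g f) (h : inNchk f = true) : ∃ k < 6, g = nel k := by
  unfold inNchk at h
  rw [List.any_eq_true] at h
  obtain ⟨k, hk, h⟩ := h
  rw [List.all_eq_true] at h
  refine ⟨k, List.mem_range.1 hk, eq_of_acts hg (nel_acts k) ?_⟩
  intro i hi
  exact Nat.eq_of_beq_eq_true (h i (List.mem_range.2 hi))

/-- A power. -/
theorem ActsOn.pow' {g : Co0} {f : ℕ → ℕ} (hg : ActsOn g f) (m : ℕ) : ActsOn (g ^ m) (f^[m]) := by
  induction m with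
  | zero => exact ActsOn.one
  | succ m ih =>
    rw [pow_succ]
    have := ih.mul hg
    convert this using 1
    funext n
    rw [Function.iterate_succ_apply]

theorem nel_ne_of (g : Co0) {f : ℕ → ℕ} (hg : ActsOn g f) (h : ∀ k < 6, ∃ i < 24, f (eN i) ≠ nact k (eN i)) : ∀ k < 6, g ≠ nel k := by
  rintro k hk rfl
  obtain ⟨i, hi, e⟩ := h k hk
  apply e
  have h1 := hg _ (by
    have := eN_st (Cfsg.Agent.Lib.Golay.pt i)
    rwa [Cfsg.Agent.Lib.Golay.idx_pt hi] at this)
  have h2 := (nel_acts k) _ (by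
    have := eN_st (Cfsg.Agent.Lib.Golay.pt i)
    rwa [Cfsg.Agent.Lib.Golay.idx_pt hi] at this)
  have hst := hg.st (n := eN i) (by
    have := eN_st (Cfsg.Agent.Lib.Golay.pt i)
    rwa [Cfsg.Agent.Lib.Golay.idx_pt hi] at this)
  have hst2 := (nel_acts k).st (n := eN i) (by
    have := eN_st (Cfsg.Agent.Lib.Golay.pt i)
    rwa [Cfsg.Agent.Lib.Golay.idx_pt hi] at this)
  apply dec_injOn hst.1 hst2.1
  rw [← h1.2, ← h2.2]

end Cfsg.Agent.Lib.SuzSec20
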