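import Mathlib
import Cfsg.Agent.Lib.SuzSec20N
import Cfsg.Agent.Lib.SuzSec20Dat
import Cfsg.Agent.Lib.SuzSec20Act

set_option autoImplicit false
set_option maxRecDepth 100000
set_option linter.unusedVariables false
set_option linter.unusedSectionVars false

/-!
# The extraspecial group of order 128 in the centralizer
-/

namespace Cfsg.Agent.Lib.SuzSec20

open Cfsg Cfsg.Agent.Lib.Leech Cfsg.Agent.Lib.Co0Mono Cfsg.Agent.Lib.Co0Frame
open Cfsg.Agent.Lib.CoTwoData Cfsg.Agent.Lib.CoVec Cfsg.Agent.Lib.MonsterSplit Cfsg.Agent.Lib.CoTwo1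
open Cfsg.Agent.Lib.CoTwo2 Cfsg.Agent.Lib.CoTwo3 Cfsg.Agent.Lib.SympForm Cfsg.Agent.Lib.CoTwo4 Cfsg.Agent.Lib.CoTwo5
open Cfsg.Agent.Lib.OrthoBasic Cfsg.Agent.Lib.CoOneData Cfsg.Agent.Lib.CoOne1 Cfsg.Agent.Lib.CoOne2 Cfsg.Agent.Lib.CoOne3
open Cfsg.Agent.Lib.Co2Rel20 (actW)
open Cfsg.Agent.Lib.CoConf
open Cfsg.Agent.Lib.Five3 (eN eN_st)
open Cfsg.Agent.Lib.Golay (idx pt idx_pt pt_idx idx_lt idxL mem_idxL ap bit bit_eq ofMask mem_ofMask
  decode idx_decode isM24 decode_mem_M24 isM24_valid reduce S48L exists_S48_of_agree toMask RepBy repBy_decode idC decode_idC isM24_idC)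
open Cfsg.Agent.Lib.Fi22J2 (Vec Qm I6 idx6)

theorem t2_A0 : t2 * A0 = A0 * t2 :=
  eq_of_acts (t2_acts.mul A0_acts) (A0_acts.mul t2_acts) (by decide +kernel)

/-- The centralizer of the involution in the centralizer. -/
noncomputable def Lz : Subgroup Co0 := CC ⊓ G

theorem mem_Lz {x : Co0} : x ∈ Lz ↔ x ∈ CC ∧ x * t2 = t2 * x := by
  unfold Lz
  rw [Subgroup.mem_inf, mem_G]

/-- The inclusion. -/
noncomputable def inG : Lz →* G := Subgroup.inclusion inf_le_right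

theorem inG_coe (x : Lz) : ((inG x : G) : Co0) = x := rfl

theorem inG_inj : Function.Injective inG := Subgroup.inclusion_injective _

/-- The group. -/
noncomputable def KK' : Subgroup Lz := R0.comap inG

theorem mem_KK' {q : Lz} : q ∈ KK' ↔ inG q ∈ R0 := Iff.rfl

/-- The involution. -/
noncomputable def zL : Lz := ⟨t2, mem_Lz.2 ⟨mem_CC.2 t2_A0, rfl⟩⟩

/-- The negation. -/
noncomputable def nL : Lz := ⟨negCo0, mem_Lz.2 ⟨neg_mem_CC, neg_comm t2⟩⟩

theorem inG_z : inG zL = zG := rfl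

theorem zL_mem : zL ∈ KK' := zG_mem

theorem nL_cen (x : Lz) : nL * x = x * nL := Subtype.ext (neg_comm x)

theorem zL_cen (x : Lz) : zL * x = x * zL := Subtype.ext (mem_Lz.1 x.2).2.symm

theorem nL_sq : nL * nL = 1 := by
  apply Subtype.ext
  apply Subtype.ext
  apply Equiv.ext
  intro v
  show -(-v) = v
  exact neg_neg v

theorem zL_sq : zL * zL = 1 := by
  apply inG_inj
  rw [map_mul, inG_z, map_one]
  exact Cfsg.Agent.Lib.CoOne3.zG_sq

theorem zL_ne : zL ≠ 1 := by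
  intro h
  apply Cfsg.Agent.Lib.CoOne3.zG_ne
  rw [← inG_z, h, map_one]

theorem nL_not : nL ∉ KK' := by
  intro h
  have h1 : inG nL ∈ R0 := h
  have h2 := R0_inj _ h1 (by
    have := pi_eq_iff (x := inG nL) (y := 1)
    rw [map_one] at this
    exact this.2 (Or.inr (by
      show negCo0 = negCo0 * 1
      simp)))
  have h3 : ((inG nL : G) : Co0) = 1 := by rw [h2]; rfl
  have h4 : negCo0 = 1 := h3
  have h5 := congrArg (fun g : Co0 => (g : Equiv.Perm leechLattice) Spor.leechU) h4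
  exact Cfsg.Agent.Lib.CoOne3.leechU_ne (by
    have h6 : -Spor.leechU = Spor.leechU := h5
    exact h6.symm)

/-! ### Explicit elements -/

/-- The test of commutation with the element of order 3. -/
def cTest (m s : ℕ) : Bool :=
  (List.range 24).all fun i => Nat.beq (actMono s m (actW wA (eN i))) (actW wA (actMono s m (eN i)))

theorem kL0_all : E32L.all (fun m => T16L.all fun s => cTest m s == kL0.contains (m, s)) = true := by decide +kernel

theorem kL0_mem : kL0.all (fun p => E32L.contains p.1 && T16L.contains p.2) = true := by decide +kernel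

theorem kL0_len : kL0.length = 128 ∧ kL0.Nodup := by decide +kernel

theorem mem_of_kL {p : ℕ × ℕ} (hp : p ∈ kL0) : p.1 ∈ E32L ∧ p.2 ∈ T16L := by
  have h := List.all_eq_true.1 kL0_mem p hp
  simpa using h

theorem cTest_iff {m s : ℕ} (hm : m ∈ E32L) (hs : s ∈ T16L) : cTest m s = true ↔ (m, s) ∈ kL0 := by
  have h := List.all_eq_true.1 (List.all_eq_true.1 kL0_all m hm) s hs
  have h1 : cTest m s = kL0.contains (m, s) := by simpa using h
  rw [h1]
  simp

theorem qq_acts {m s : ℕ} (hm : m ∈ E32L) (hs : s ∈ T16L) : ActsOn (qq hm hs) (actMono s m) :=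
  actMono_spec (T_data hs).1 (E_data hm).1 (E_data hm).2.1

theorem st_eN {i : ℕ} (hi : i < 24) : St (eN i) := by
  have := eN_st (Cfsg.Agent.Lib.Golay.pt i)
  rwa [Cfsg.Agent.Lib.Golay.idx_pt hi] at this

theorem code_of_eq {g h : Co0} {f f' : ℕ → ℕ} (hf : ActsOn g f) (hf' : ActsOn h f') (e : g = h) {n : ℕ} (hn : St n) :
    f n = f' n := by
  subst e
  have h1 := hf n hn
  have h2 := hf' n hn
  apply dec_injOn (hf.st hn).1 (hf'.st hn).1
  rw [← h1.2, ← h2.2]

theorem qq_comm_A {m s : ℕ} (hm : m ∈ E32L) (hs : s ∈ T16L) : qq hm hs * A0 = A0 * qq hm hs ↔ (m, s) ∈ kL0 := by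
  rw [← cTest_iff hm hs]
  constructor
  · intro h
    unfold cTest
    rw [List.all_eq_true]
    intro i hi
    have hi' := List.mem_range.1 hi
    rw [Nat.beq_eq]
    exact code_of_eq ((qq_acts hm hs).mul A0_acts) (A0_acts.mul (qq_acts hm hs)) h (st_eN hi')
  · intro h
    apply eq_of_acts ((qq_acts hm hs).mul A0_acts) (A0_acts.mul (qq_acts hm hs))
    intro i hi
    unfold cTest at h
    rw [List.all_eq_true] at h
    exact Nat.eq_of_beq_eq_true (h i (List.mem_range.2 hi))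

theorem qq_cm {m s : ℕ} (hm : m ∈ E32L) (hs : s ∈ T16L) : qq hm hs * t2 = t2 * qq hm hs :=
  Cfsg.Agent.Lib.CoTwo4.qq_mem hm hs |>.1

/-- The element of a pair. -/
noncomputable def qL (p : ℕ × ℕ) (hp : p ∈ kL0) : Lz :=
  ⟨qq (mem_of_kL hp).1 (mem_of_kL hp).2,
    mem_Lz.2 ⟨mem_CC.2 ((qq_comm_A (mem_of_kL hp).1 (mem_of_kL hp).2).2 hp), qq_cm _ _⟩⟩

theorem qL_coe (p : ℕ × ℕ) (hp : p ∈ kL0) : (qL p hp : Co0) = qq (mem_of_kL hp).1 (mem_of_kL hp).2 := rfl

theorem qL_mem (p : ℕ × ℕ) (hp : p ∈ kL0) : qL p hp ∈ KK' :=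
  mem_R0.2 ⟨qX (mem_of_kL hp).1 (mem_of_kL hp).2, rho_qX _ _, rfl⟩

theorem exists_pair {q : Lz} (hq : q ∈ KK') : ∃ (p : ℕ × ℕ) (hp : p ∈ kL0), q = qL p hp := by
  obtain ⟨a, ha, e⟩ := mem_R0.1 (mem_KK'.1 hq)
  obtain ⟨m, s, hm, hs, rfl⟩ := ker_form ha
  have e1 : (q : Co0) = qq hm hs := (congrArg Subtype.val e).symm
  have h2 : (m, s) ∈ kL0 := (qq_comm_A hm hs).1 (by
    rw [← e1]
    exact mem_CC.1 (mem_Lz.1 q.2).1)
  exact ⟨(m, s), h2, Subtype.ext e1⟩

theorem qL_inj {p p' : ℕ × ℕ} {hp : p ∈ kL0} {hp' : p' ∈ kL0} (h : qL p hp = qL p' hp') : p = p' := by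
  have h1 : qq (mem_of_kL hp).1 (mem_of_kL hp).2 = qq (mem_of_kL hp').1 (mem_of_kL hp').2 := congrArg Subtype.val h
  have h2 := qq_inj _ _ _ _ h1
  exact Prod.ext h2.1 h2.2

theorem card_KK' : Nat.card KK' = 2 ^ 7 := by
  classical
  have hb : Function.Bijective (fun p : {p // p ∈ kL0} => (⟨qL p.1 p.2, qL_mem _ _⟩ : KK')) := by
    constructor
    · intro a b h
      exact Subtype.ext (qL_inj (hp := a.2) (hp' := b.2) (congrArg Subtype.val h))
    · rintro ⟨q, hq⟩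
      obtain ⟨p, hp, rfl⟩ := exists_pair hq
      exact ⟨⟨p, hp⟩, rfl⟩
  rw [← Nat.card_congr (Equiv.ofBijective _ hb)]
  have e : Nat.card {p // p ∈ kL0} = kL0.length := by
    have e1 : {p // p ∈ kL0} ≃ ↥kL0.toFinset := Equiv.subtypeEquivRight (fun p => List.mem_toFinset.symm)
    rw [Nat.card_congr e1, Nat.card_eq_fintype_card, Fintype.card_coe, List.toFinset_card_of_nodup kL0_len.2]
  rw [e, kL0_len.1]
  norm_num

/-! ### Commutators and squares -/

/-- The commutation bit. -/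
def cmB (p p' : ℕ × ℕ) : Bool := !Nat.beq (p.1 ^^^ pm p.2 p'.1) (p'.1 ^^^ pm p'.2 p.1)

/-- The square bit. -/
def sqB (p : ℕ × ℕ) : Bool := !Nat.beq (pm p.2 p.1) p.1

theorem qL_comm_iff {p p' : ℕ × ℕ} (hp : p ∈ kL0) (hp' : p' ∈ kL0) : qL p hp * qL p' hp' = qL p' hp' * qL p hp ↔ cmB p p' = false := by
  obtain ⟨hm, hs⟩ := mem_of_kL hp
  obtain ⟨hm', hs'⟩ := mem_of_kL hp'
  unfold cmB
  rw [Bool.not_eq_false', Nat.beq_eq]
  constructor
  · intro h
    have h1 : qq hm hs * qq hm' hs' = qq hm' hs' * qq hm hs := congrArg Subtype.val h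
    exact mask_of_comm hm hs hm' hs' (Subtype.ext h1)
  · intro h
    apply Subtype.ext
    show qq hm hs * qq hm' hs' = qq hm' hs' * qq hm hs
    obtain ⟨hc, hσ, h1⟩ := qq_mul hm hs hm' hs'
    obtain ⟨hc', hσ', h2⟩ := qq_mul hm' hs' hm hs
    rw [h1, h2]
    apply monoCo0_congr
    · rw [h]
    · exact (T_comm' hs hs').symm

theorem qL_sq_iff {p : ℕ × ℕ} (hp : p ∈ kL0) : (sqB p = false → qL p hp * qL p hp = 1) ∧ (sqB p = true → qL p hp * qL p hp = zL) := by
  obtain ⟨hm, hs⟩ := mem_of_kL hp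
  obtain ⟨hc, hσ, h1⟩ := qq_mul hm hs hm hs
  have hpq := T_sq' hs
  constructor
  · intro h
    unfold sqB at h
    rw [Bool.not_eq_false', Nat.beq_eq] at h
    apply Subtype.ext
    show qq hm hs * qq hm hs = 1
    rw [h1, ← monoCo0_one' (ofMask_mem_codeSets (m := 0) (by norm_num) reduce_zero) M24.one_mem]
    apply monoCo0_congr
    · rw [h, Nat.xor_self]
    · exact hpq
  · intro h
    unfold sqB at h
    have e1 : pm p.2 p.1 = p.1 ^^^ mOc := by
      rcases E_T' hm hs with e | e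
      · rw [e] at h
        simp at h
      · exact e
    apply Subtype.ext
    show qq hm hs * qq hm hs = t2
    rw [h1]
    unfold t2
    apply monoCo0_congr
    · rw [e1, ← Nat.xor_assoc, Nat.xor_self, Nat.zero_xor]
    · exact hpq

end Cfsg.Agent.Lib.SuzSec20
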