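import Mathlib
import Cfsg.Agent.Lib.SuzSec20K

set_option autoImplicit false
set_option maxRecDepth 100000
set_option linter.unusedVariables false
set_option linter.unusedSectionVars false

/-!
# The labelling of the extraspecial group by vectors of the elliptic space
-/

namespace Cfsg.Agent.Lib.SuzSec20

open Cfsg Cfsg.Agent.Lib.Leech Cfsg.Agent.Lib.Co0Mono Cfsg.Agent.Lib.Co0Frame
open Cfsg.Agent.Lib.CoTwoData Cfsg.Agent.Lib.CoVec Cfsg.Agent.Lib.MonsterSplit Cfsg.Agent.Lib.CoTwo1
open Cfsg.Agent.Lib.CoTwo2 Cfsg.Agent.Lib.CoTwo3 Cfsg.Agent.Lib.SympForm Cfsg.Agent.Lib.CoTwo4 Cfsg.Agent.Lib.CoTwo5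
open Cfsg.Agent.Lib.OrthoBasic Cfsg.Agent.Lib.CoOneData Cfsg.Agent.Lib.CoOne1 Cfsg.Agent.Lib.CoOne2 Cfsg.Agent.Lib.CoOne3
open Cfsg.Agent.Lib.Golay (idC)
open Cfsg.Agent.Lib.Fi22J2 (Vec Qm I6 idx6)

/-- The dual basis. -/
def gBf (k : ℕ) : ℕ × ℕ := gB.getD k (0, 0)

theorem gB_mem : ∀ k < 6, gBf k ∈ kL0 := by decide +kernel

/-- The elements of the dual basis. -/
noncomputable def gK (k : ℕ) (hk : k < 6) : Lz := qL (gBf k) (gB_mem k hk)

/-- The partner of a coordinate. -/
def tau : I6 → ℕ
  | .inl (.inl 0) => 1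
  | .inl (.inr 0) => 0
  | .inl (.inl 1) => 3
  | .inl (.inr 1) => 2
  | .inr 0 => 5
  | .inr 1 => 4

theorem tau_lt (i : I6) : tau i < 6 := by
  revert i
  decide

open Classical in
/-- The commutation bit of group elements. -/
noncomputable def chi (g q : Lz) : ZMod 2 := if q * g = g * q then 0 else 1

/-- The label of an element. -/
noncomputable def lamz (q : Lz) : Vec := fun i => chi (gK (tau i) (tau_lt i)) q

/-- The label of a pair. -/
def labV (p : ℕ × ℕ) : Vec := fun i => if cmB p (gBf (tau i)) = true then 1 else 0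

theorem lamz_qL {p : ℕ × ℕ} (hp : p ∈ kL0) : lamz (qL p hp) = labV p := by
  funext i
  show chi (gK (tau i) (tau_lt i)) (qL p hp) = _
  unfold chi labV gK
  by_cases h : cmB p (gBf (tau i)) = true
  · have h1 : ¬ (qL p hp * qL _ (gB_mem _ (tau_lt i)) = qL _ (gB_mem _ (tau_lt i)) * qL p hp) := by
      rw [qL_comm_iff]
      simp [h]
    rw [if_neg h1, if_pos h]
  · have h1 : qL p hp * qL _ (gB_mem _ (tau_lt i)) = qL _ (gB_mem _ (tau_lt i)) * qL p hp := by
      rw [qL_comm_iff]
      simpa using h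
    rw [if_pos h1, if_neg h]

/-- Commutators. -/
theorem comm_or {a b : Lz} (ha : a ∈ KK') (hb : b ∈ KK') : a * b = b * a ∨ a * b = zL * (b * a) := by
  rcases R0_comm _ (mem_KK'.1 ha) _ (mem_KK'.1 hb) with h | h
  · left
    have h1 : a * b * a⁻¹ * b⁻¹ = 1 := inG_inj (by simpa using h)
    calc a * b = (a * b * a⁻¹ * b⁻¹) * (b * a) := by group
      _ = b * a := by rw [h1, one_mul]
  · right
    have h1 : a * b * a⁻¹ * b⁻¹ = zL := inG_inj (by simpa [inG_z] using h)
    calc a * b = (a * b * a⁻¹ * b⁻¹) * (b * a) := by group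
      _ = zL * (b * a) := by rw [h1]

theorem chi_mul {g q q' : Lz} (hg : g ∈ KK') (hq : q ∈ KK') (hq' : q' ∈ KK') : chi g (q * q') = chi g q + chi g q' := by
  have hne : ∀ x : Lz, x ≠ zL * x := by
    intro x h
    apply zL_ne
    exact (mul_eq_right.1 h.symm)
  unfold chi
  rcases comm_or hq hg with h | h <;> rcases comm_or hq' hg with h' | h'
  · have e : q * q' * g = g * (q * q') := by
      rw [mul_assoc, h', ← mul_assoc, h, mul_assoc]
    rw [if_pos e, if_pos h, if_pos h', add_zero]
  · have e : q * q' * g = zL * (g * (q * q')) := by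
      calc q * q' * g = q * (q' * g) := mul_assoc _ _ _
        _ = q * (zL * (g * q')) := by rw [h']
        _ = zL * (q * g * q') := by
          rw [← mul_assoc q zL, ← zL_cen q]
          simp only [mul_assoc]
        _ = zL * (g * q * q') := by rw [h]
        _ = zL * (g * (q * q')) := by simp only [mul_assoc]
    have h1 : ¬ (q * q' * g = g * (q * q')) := fun e2 => hne _ (by rw [← e, e2])
    have h2 : ¬ (q' * g = g * q') := fun e2 => hne _ (by rw [← h', e2])
    rw [if_neg h1, if_pos h, if_neg h2, zero_add]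
  · have e : q * q' * g = zL * (g * (q * q')) := by
      rw [mul_assoc, h', ← mul_assoc, h]
      simp only [mul_assoc]
    have h1 : ¬ (q * q' * g = g * (q * q')) := fun e2 => hne _ (by rw [← e, e2])
    have h2 : ¬ (q * g = g * q) := fun e2 => hne _ (by rw [← h, e2])
    rw [if_neg h1, if_neg h2, if_pos h', add_zero]
  · have e : q * q' * g = g * (q * q') := by
      calc q * q' * g = q * (q' * g) := mul_assoc _ _ _
        _ = q * (zL * (g * q')) := by rw [h']
        _ = zL * (q * g * q') := by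
          rw [← mul_assoc q zL, ← zL_cen q]
          simp only [mul_assoc]
        _ = zL * (zL * (g * q) * q') := by rw [h]
        _ = (zL * zL) * (g * (q * q')) := by simp only [mul_assoc]
        _ = _ := by rw [zL_sq, one_mul]
    have h1 : ¬ (q * g = g * q) := fun e2 => hne _ (by rw [← h, e2])
    have h2 : ¬ (q' * g = g * q') := fun e2 => hne _ (by rw [← h', e2])
    rw [if_pos e, if_neg h1, if_neg h2]
    decide

theorem labV_zero : kL0.all (fun p => !(decide (labV p = 0)) || (p == (0, idC) || p == (mOc, idC))) = true := by decide +kernel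

theorem labV_surj : ∀ v : Vec, kL0.any (fun p => decide (labV p = v)) = true := by decide +kernel

theorem labV_Q : kL0.all (fun p => decide (Qm (labV p) = if sqB p = true then 1 else 0)) = true := by decide +kernel

theorem qL_zero (h : (0, idC) ∈ kL0) : qL (0, idC) h = 1 := by
  apply Subtype.ext
  exact qq_one

theorem qL_top (h : (mOc, idC) ∈ kL0) : qL (mOc, idC) h = zL := by
  apply Subtype.ext
  exact qq_t2

theorem K_sq {q : Lz} (hq : q ∈ KK') : q * q = 1 ∨ q * q = zL := by
  rcases R0_sq _ (mem_KK'.1 hq) with h | h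
  · left
    exact inG_inj (by simpa [pow_two] using h)
  · right
    exact inG_inj (by simpa [pow_two, inG_z] using h)

/-- The data of the action. -/
theorem dataK : Act.Data KK' zL nL lamz where
  n_cen := nL_cen
  n_sq := nL_sq
  n_not := nL_not
  z_cen := zL_cen
  z_mem := zL_mem
  H := by
    intro x q hq
    obtain ⟨r, hr, e⟩ := conj_R0 (inG x⁻¹) (mem_KK'.1 hq)
    have e1 : (inG x⁻¹)⁻¹ * inG q * inG x⁻¹ = inG (x * q * x⁻¹) := by
      simp [map_mul, map_inv]
    rw [e1] at e
    have hw : ((x * q * x⁻¹ : Lz) : Co0) ∈ CC := (mem_Lz.1 (x * q * x⁻¹).2).1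
    rcases pi_eq_iff.1 e with h | h
    · have h2 : (r : Co0) ∈ CC := by
        have h3 : ((inG (x * q * x⁻¹) : G) : Co0) = ((x * q * x⁻¹ : Lz) : Co0) := rfl
        rw [← h, h3]
        exact hw
      refine ⟨⟨r, ⟨h2, r.2⟩⟩, hr, Or.inl (Subtype.ext h)⟩
    · have h2 : (r : Co0) ∈ CC := by
        have h3 : ((inG (x * q * x⁻¹) : G) : Co0) = ((x * q * x⁻¹ : Lz) : Co0) := rfl
        rw [h3] at h
        have h4 : (r : Co0) = negCo0 * ((x * q * x⁻¹ : Lz) : Co0) := by
          rw [h, ← mul_assoc]
          have : negCo0 * negCo0 = 1 := congrArg Subtype.val nL_sq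
          rw [this, one_mul]
        rw [h4]
        exact Subgroup.mul_mem _ neg_mem_CC hw
      refine ⟨⟨r, ⟨h2, r.2⟩⟩, hr, Or.inr (Subtype.ext h)⟩
  lam_mul := by
    intro q hq q' hq'
    funext i
    exact chi_mul (by unfold gK; exact qL_mem _ _) hq hq'
  lam_zero := by
    intro q hq h
    obtain ⟨p, hp, rfl⟩ := exists_pair hq
    rw [lamz_qL] at h
    have h1 := List.all_eq_true.1 labV_zero p hp
    simp only [h, decide_true, Bool.not_true, Bool.false_or, Bool.or_eq_true, beq_iff_eq] at h1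
    rcases h1 with rfl | rfl
    · left
      exact qL_zero hp
    · right
      exact qL_top hp
  lam_one := by
    funext i
    show chi _ 1 = 0
    unfold chi
    rw [if_pos (by simp)]
  lam_z := by
    funext i
    show chi _ zL = 0
    unfold chi
    rw [if_pos (zL_cen _)]
  lam_surj := by
    intro v
    have h := labV_surj v
    rw [List.any_eq_true] at h
    obtain ⟨p, hp, e⟩ := h
    refine ⟨qL p hp, qL_mem p hp, ?_⟩
    rw [lamz_qL]
    exact of_decide_eq_true e
  sq := fun q hq => K_sq hq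
  lam_sq1 := by
    intro q hq h
    obtain ⟨p, hp, rfl⟩ := exists_pair hq
    rw [lamz_qL]
    have h1 := of_decide_eq_true (List.all_eq_true.1 labV_Q p hp)
    by_cases hs : sqB p = true
    · exfalso
      apply zL_ne
      rw [← (qL_sq_iff hp).2 hs, h]
    · rwa [if_neg hs] at h1
  lam_sq2 := by
    intro q hq h
    obtain ⟨p, hp, rfl⟩ := exists_pair hq
    rw [lamz_qL]
    have h1 := of_decide_eq_true (List.all_eq_true.1 labV_Q p hp)
    by_cases hs : sqB p = true
    · rwa [if_pos hs] at h1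
    · exfalso
      apply zL_ne
      rw [← h, (qL_sq_iff hp).1 (by simpa using hs)]

/-- The central elements of the group. -/
theorem K_cen {q : Lz} (hq : q ∈ KK') (h : ∀ b ∈ KK', q * b = b * q) : q = 1 ∨ q = zL := by
  apply dataK.lam_zero q hq
  funext i
  show chi _ q = 0
  unfold chi
  rw [if_pos (h _ (by unfold gK; exact qL_mem _ _))]

theorem K_non : ∃ a ∈ KK', ∃ b ∈ KK', a * b ≠ b * a := by
  refine ⟨gK 0 (by norm_num), by unfold gK; exact qL_mem _ _, gK 1 (by norm_num), by unfold gK; exact qL_mem _ _, ?_⟩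
  unfold gK
  rw [Ne, qL_comm_iff]
  decide +kernel

end Cfsg.Agent.Lib.SuzSec20
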