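import Mathlib
import Cfsg.Agent.Lib.SuzSec20Lam

set_option autoImplicit false
set_option maxRecDepth 100000
set_option linter.unusedVariables false
set_option linter.unusedSectionVars false

/-!
# An upper bound for the order of the centralizer of the involution in the centralizer of the element of order 3
-/

namespace Cfsg.Agent.Lib.SuzSec20

open Cfsg Cfsg.Agent.Lib.Leech Cfsg.Agent.Lib.Co0Mono Cfsg.Agent.Lib.Co0Frame
open Cfsg.Agent.Lib.CoTwoData Cfsg.Agent.Lib.CoVec Cfsg.Agent.Lib.MonsterSplit Cfsg.Agent.Lib.CoTwo1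
open Cfsg.Agent.Lib.CoTwo2 Cfsg.Agent.Lib.CoTwo3 Cfsg.Agent.Lib.SympForm Cfsg.Agent.Lib.CoTwo4 Cfsg.Agent.Lib.CoTwo5
open Cfsg.Agent.Lib.OrthoBasic Cfsg.Agent.Lib.CoOneData Cfsg.Agent.Lib.CoOne1 Cfsg.Agent.Lib.CoOne2 Cfsg.Agent.Lib.CoOne3
open Cfsg.Agent.Lib.Co2Rel20 (actW)
open MulAction

/-- Orbit and stabilizer. -/
theorem card_le_step' {Γ X : Type*} [Group Γ] [MulAction Γ X] {K : Subgroup Γ} (p : X) (S : Finset X)
    (h : ∀ k ∈ K, k • p ∈ S) : Nat.card K ≤ S.card * Nat.card ↥(K ⊓ stabilizer Γ p) := by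
  classical
  have h2 := Subgroup.card_mul_index (stabilizer K p)
  rw [index_stabilizer] at h2
  have e : stabilizer K p ≃* ↥(K ⊓ stabilizer Γ p) :=
    { toFun := fun m => ⟨m.1.1, m.1.2, m.2⟩
      invFun := fun m => ⟨⟨m.1, m.2.1⟩, m.2.2⟩
      left_inv := fun m => rfl
      right_inv := fun m => rfl
      map_mul' := fun a b => rfl }
  rw [← Nat.card_congr e.toEquiv, ← h2, mul_comm]
  apply Nat.mul_le_mul_right
  have h3 : orbit K p ⊆ (S : Set X) := by
    rintro _ ⟨k, rfl⟩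
    exact h k.1 k.2
  calc (orbit K p).ncard ≤ (S : Set X).ncard := Set.ncard_le_ncard h3 (Finset.finite_toSet S)
    _ = S.card := Set.ncard_coe_finset S

/-- The action of the group on the numbers. -/
@[reducible] noncomputable def actL : MulAction Lz (Fin 256) where
  smul g a := ⟨A g a, A_lt _ _⟩
  one_smul a := Fin.ext (A_one a.2)
  mul_smul g h a := Fin.ext (A_mul _ (mem_Lz.1 h.2).2 a.2)

/-- The element of order 3 on numbers. -/
def Ab (a : ℕ) : ℕ := ccN (actW wA (tab a))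

theorem A_A0 (a : ℕ) : A A0 a = Ab a := A_of A0_acts a

theorem Cm_A0 : Cm A0 := t2_A0.symm

theorem Ab_comm (x : Lz) {a : ℕ} (ha : a < 256) : A x (Ab a) = Ab (A x a) := by
  have h1 : (x : Co0) * A0 = A0 * x := mem_CC.1 (mem_Lz.1 x.2).1
  rw [← A_A0, ← A_A0, ← A_mul _ Cm_A0 ha, h1, A_mul _ (mem_Lz.1 x.2).2 ha]

theorem Ab_lt {a : ℕ} (h : a < 256) : Ab a < 256 := by
  rw [← A_A0]
  exact A_lt _ _

/-- The chain of numbers. -/
def vs (i : ℕ) : ℕ := [9, 11, 36, 109].getD i 0

theorem vs_lt : ∀ i < 4, vs i < 256 := by decide +kernel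

/-- The chain of subgroups. -/
noncomputable def KL : ℕ → Subgroup Lz
  | 0 => ⊤
  | n + 1 => letI := actL; KL n ⊓ stabilizer Lz (⟨vs n % 256, Nat.mod_lt _ (by norm_num)⟩ : Fin 256)

theorem mem_KL {n : ℕ} (hn : n ≤ 4) {x : Lz} : x ∈ KL n ↔ ∀ i < n, A x (vs i) = vs i := by
  induction n with
  | zero => simp [KL]
  | succ n ih =>
    letI := actL
    show x ∈ KL n ⊓ stabilizer Lz (⟨vs n % 256, Nat.mod_lt _ (by norm_num)⟩ : Fin 256) ↔ _
    rw [Subgroup.mem_inf, ih (by omega), mem_stabilizer_iff]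
    have e : vs n % 256 = vs n := Nat.mod_eq_of_lt (vs_lt n (by omega))
    have e2 : x • (⟨vs n % 256, Nat.mod_lt _ (by norm_num)⟩ : Fin 256) = (⟨vs n % 256, Nat.mod_lt _ (by norm_num)⟩ : Fin 256) ↔
        A x (vs n) = vs n := by
      rw [Fin.ext_iff]
      show A x (vs n % 256) = vs n % 256 ↔ _
      rw [e]
    rw [e2]
    constructor
    · rintro ⟨h1, h2⟩ i hi
      rcases Nat.lt_succ_iff_lt_or_eq.1 hi with h | rfl
      · exact h1 i h
      · exact h2
    · intro h
      exact ⟨fun i hi => h i (by omega), h n (by omega)⟩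

/-- The profile of a number at a level. -/
def profL (l a : ℕ) : Bool :=
  (qB a == qB (vs l)) && (fB a (Ab a) == fB (vs l) (Ab (vs l))) &&
    (List.range l).all fun i => (fB a (vs i) == fB (vs l) (vs i)) && (fB a (Ab (vs i)) == fB (vs l) (Ab (vs i)))

/-- The set of a level. -/
def SL (l : ℕ) : Finset (Fin 256) := Finset.univ.filter fun a => profL l a = true

theorem card_SL : (SL 0).card = 120 ∧ (SL 1).card = 36 ∧ (SL 2).card = 6 ∧ (SL 3).card = 3 := by decide +kernel

theorem step_L {l : ℕ} (hl : l < 4) : Nat.card (KL l) ≤ (SL l).card * Nat.card (KL (l + 1)) := by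
  letI := actL
  have h := card_le_step' (K := KL l) (⟨vs l % 256, Nat.mod_lt _ (by norm_num)⟩ : Fin 256) (SL l) (by
    intro k hk
    have hv := vs_lt l hl
    have e : vs l % 256 = vs l := Nat.mod_eq_of_lt hv
    have hcm := (mem_Lz.1 k.2).2
    have hf := (mem_KL (by omega)).1 hk
    have hv' : ((k • (⟨vs l % 256, Nat.mod_lt _ (by norm_num)⟩ : Fin 256) : Fin 256) : ℕ) = A k (vs l) := by
      show A k (vs l % 256) = _
      rw [e]
    apply Finset.mem_filter.2
    refine ⟨Finset.mem_univ _, ?_⟩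
    rw [hv']
    unfold profL
    simp only [Bool.and_eq_true, beq_iff_eq, List.all_eq_true, List.mem_range]
    refine ⟨⟨qB_A hcm hv, ?_⟩, ?_⟩
    · rw [← Ab_comm k hv]
      exact fB_A hcm hv (Ab_lt hv)
    · intro i hi
      have hvi := vs_lt i (by omega)
      constructor
      · have h1 := fB_A hcm hv hvi
        rw [hf i hi] at h1
        exact h1
      · have h1 := fB_A hcm hv (Ab_lt hvi)
        rw [Ab_comm k hvi, hf i hi] at h1
        exact h1)
  exact h

/-- The span of a list of numbers. -/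
def spanN : List ℕ → List ℕ
  | [] => [0]
  | w :: t => spanN t ++ (spanN t).map (fun u => w ^^^ u)

theorem fix_span {x : Lz} : ∀ {l : List ℕ}, (∀ w ∈ l, w < 256 ∧ A x w = w) → ∀ u ∈ spanN l, u < 256 ∧ A x u = u
  | [], _, u, hu => by
    simp only [spanN, List.mem_singleton] at hu
    subst hu
    exact ⟨by norm_num, A_zero _⟩
  | w :: t, h, u, hu => by
    have ht := fix_span (l := t) (fun y hy => h y (List.mem_cons_of_mem _ hy))
    simp only [spanN, List.mem_append, List.mem_map] at hu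
    rcases hu with hu | ⟨y, hy, rfl⟩
    · exact ht u hu
    · obtain ⟨h1, h2⟩ := h w (by simp)
      obtain ⟨h3, h4⟩ := ht y hy
      exact ⟨Nat.xor_lt_two_pow (n := 8) h1 h3, by rw [A_xor _ h1 h3, h2, h4]⟩

/-- The generators. -/
def preL : List ℕ := [vs 0, Ab (vs 0), vs 1, Ab (vs 1), vs 2, Ab (vs 2), vs 3, Ab (vs 3)]

theorem span_all : ∀ a < 256, a ∈ spanN preL := by decide +kernel

theorem KL4_fix {x : Lz} (hx : x ∈ KL 4) : ∀ a < 256, A x a = a := by
  have hf := (mem_KL le_rfl).1 hx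
  have h1 : ∀ i < 4, A x (Ab (vs i)) = Ab (vs i) := by
    intro i hi
    rw [Ab_comm x (vs_lt i hi), hf i hi]
  have hl : ∀ w ∈ preL, w < 256 ∧ A x w = w := by
    intro w hw
    simp only [preL, List.mem_cons, List.not_mem_nil, or_false] at hw
    rcases hw with rfl | rfl | rfl | rfl | rfl | rfl | rfl | rfl
    · exact ⟨vs_lt 0 (by norm_num), hf 0 (by norm_num)⟩
    · exact ⟨Ab_lt (vs_lt 0 (by norm_num)), h1 0 (by norm_num)⟩
    · exact ⟨vs_lt 1 (by norm_num), hf 1 (by norm_num)⟩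
    · exact ⟨Ab_lt (vs_lt 1 (by norm_num)), h1 1 (by norm_num)⟩
    · exact ⟨vs_lt 2 (by norm_num), hf 2 (by norm_num)⟩
    · exact ⟨Ab_lt (vs_lt 2 (by norm_num)), h1 2 (by norm_num)⟩
    · exact ⟨vs_lt 3 (by norm_num), hf 3 (by norm_num)⟩
    · exact ⟨Ab_lt (vs_lt 3 (by norm_num)), h1 3 (by norm_num)⟩
  intro a ha
  exact (fix_span hl a (span_all a ha)).2

theorem KL4_cases {x : Lz} (hx : x ∈ KL 4) : x ∈ KK' ∨ nL * x ∈ KK' := by
  have hF : F0 (inG x) = 1 := (F0_eq_one_iff _).2 (KL4_fix hx)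
  obtain ⟨r, hr, e⟩ := (F_ker' _).1 hF
  have hw : (x : Co0) ∈ CC := (mem_Lz.1 x.2).1
  rcases pi_eq_iff.1 e with h | h
  · left
    have e2 : inG x = r := Subtype.ext h
    rw [mem_KK', e2]
    exact hr
  · right
    have h2 : ((nL * x : Lz) : Co0) = r := by
      show negCo0 * (x : Co0) = r
      have h3 : (x : Co0) = negCo0 * r := h
      rw [h3, ← mul_assoc]
      have : negCo0 * negCo0 = 1 := congrArg Subtype.val nL_sq
      rw [this, one_mul]
    have e2 : inG (nL * x) = r := Subtype.ext h2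
    rw [mem_KK', e2]
    exact hr

theorem card_KL4 : Nat.card (KL 4) ≤ 256 := by
  classical
  have hfin : Finite Lz := inferInstance
  have h1 : ((KL 4 : Subgroup Lz) : Set Lz) ⊆ (KK' : Set Lz) ∪ (fun y => nL * y) '' (KK' : Set Lz) := by
    intro x hx
    rcases KL4_cases hx with h | h
    · exact Or.inl h
    · right
      refine ⟨nL * x, h, ?_⟩
      show nL * (nL * x) = x
      rw [← mul_assoc, nL_sq, one_mul]
  have h2 : Nat.card (KL 4) = ((KL 4 : Subgroup Lz) : Set Lz).ncard := (Nat.card_coe_set_eq _).symm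
  have h3 : ((KK' : Subgroup Lz) : Set Lz).ncard = 128 := by
    rw [← Nat.card_coe_set_eq]
    exact card_KK'
  rw [h2]
  calc _ ≤ ((KK' : Set Lz) ∪ (fun y => nL * y) '' (KK' : Set Lz)).ncard := Set.ncard_le_ncard h1 (Set.toFinite _)
    _ ≤ (KK' : Set Lz).ncard + ((fun y => nL * y) '' (KK' : Set Lz)).ncard := Set.ncard_union_le _ _
    _ ≤ (KK' : Set Lz).ncard + (KK' : Set Lz).ncard := Nat.add_le_add_left (Set.ncard_image_le (Set.toFinite _)) _
    _ = 256 := by rw [h3]

theorem card_Lz_le : Nat.card Lz ≤ 19906560 := by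
  have s0 := step_L (l := 0) (by norm_num)
  have s1 := step_L (l := 1) (by norm_num)
  have s2 := step_L (l := 2) (by norm_num)
  have s3 := step_L (l := 3) (by norm_num)
  obtain ⟨h0, h1, h2, h3⟩ := card_SL
  rw [h0] at s0
  rw [h1] at s1
  rw [h2] at s2
  rw [h3] at s3
  have s4 := card_KL4
  have e : Nat.card (KL 0) = Nat.card Lz := by
    show Nat.card (⊤ : Subgroup Lz) = _
    exact Subgroup.card_top
  rw [e] at s0
  norm_num at s0 s1 s2 s3
  omega

end Cfsg.Agent.Lib.SuzSec20
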