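import Mathlib
import Cfsg.Agent.Lib.SuzSec20N
import Cfsg.Agent.S1694

set_option autoImplicit false
set_option maxRecDepth 100000
set_option linter.unusedVariables false

/-!
# The presented Suzuki group maps onto the section
-/

namespace Cfsg.Agent.Lib.SuzSec20

open Cfsg Cfsg.Agent.Lib.CoVec Cfsg.Agent.Lib.CoConf Cfsg.Agent.Lib.Co2Rel20
open Cfsg.Agent.Lib.CoOne3 (eq_of_acts)
open Cfsg.Agent.Lib.Five3 (eN eN_st)
open Cfsg.Agent.Lib.Co0Mono (negCo0)
open Cfsg.Spor Cfsg.Spor.Suz

theorem wL_ok : ∀ i < 7, okW (wL i) = true := by decide +kernel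

/-- The generators. -/
noncomputable def gl (i : ℕ) : Co0 := if h : okW (wL i) = true then Classical.choose (exists_W h) else 1

theorem gl_acts {i : ℕ} (hi : i < 7) : ActsOn (gl i) (actW (wL i)) := by
  unfold gl
  rw [dif_pos (wL_ok i hi)]
  exact Classical.choose_spec (exists_W (wL_ok i hi))

theorem gl_comm : ∀ i < 7, ∀ f < 24, actW (wL i) (actW wA (eN f)) = actW wA (actW (wL i) (eN f)) := by decide +kernel

theorem gl_mem {i : ℕ} (hi : i < 7) : gl i ∈ CC :=
  mem_CC.2 (eq_of_acts ((gl_acts hi).mul A0_acts) (A0_acts.mul (gl_acts hi)) (gl_comm i hi))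

/-- The generators in the centralizer. -/
noncomputable def cg (i : ℕ) (hi : i < 7) : CC := ⟨gl i, gl_mem hi⟩

/-- An element of the centralizer acting on codes. -/
abbrev CA (y : CC) (f : ℕ → ℕ) : Prop := ActsOn (y : Co0) f

theorem cg_acts (i : ℕ) (hi : i < 7) : CA (cg i hi) (actW (wL i)) := gl_acts hi

theorem CA.mul {y z : CC} {f g : ℕ → ℕ} (h1 : CA y f) (h2 : CA z g) : CA (y * z) (fun n => f (g n)) :=
  ActsOn.mul h1 h2

theorem CA.pow {y : CC} {f : ℕ → ℕ} (h1 : CA y f) (m : ℕ) : CA (y ^ m) (f^[m]) := by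
  show ActsOn ((y ^ m : CC) : Co0) _
  rw [Subgroup.coe_pow]
  exact ActsOn.pow' h1 m

/-- The map to the section. -/
noncomputable abbrev ιS : CC →* SS := QuotientGroup.mk' NN

theorem ιS_one {y : CC} {f : ℕ → ℕ} (hf : CA y f) (h : inNchk f = true) : ιS y = 1 := by
  rw [QuotientGroup.mk'_apply, QuotientGroup.eq_one_iff]
  exact mem_NN.2 (inNchk_spec hf h)

/-- The number of a generator. -/
def enc : Gen → ℕ
  | .a => 0
  | .b => 1
  | .c => 2
  | .d => 3
  | .e => 4
  | .f => 5
  | .g => 6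

theorem enc_lt (x : Gen) : enc x < 7 := by cases x <;> decide

/-- The table of labels. -/
def labN (i j : ℕ) : ℕ :=
  ([[1,5,2,2,2,2,2],[5,1,3,2,2,3,3],[2,3,1,8,2,2,2],[2,2,8,1,3,2,2],[2,2,2,3,1,2,2],[2,3,2,2,2,1,4],[2,3,2,2,2,4,1]].getD i []).getD j 0

theorem lab_eq (x y : Gen) : coxLabel edges x y = labN (enc x) (enc y) := by
  cases x <;> cases y <;> rfl

theorem chkCox : ∀ i < 7, ∀ j < 7, inNchk ((fun n => actW (wL i) (actW (wL j) n))^[labN i j]) = true := by
  decide +kernel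

/-- The images of the generators. -/
noncomputable def fG (x : Gen) : SS := ιS (cg (enc x) (enc_lt x))

theorem cox_rel (x y : Gen) : (fG x * fG y) ^ coxLabel edges x y = 1 := by
  rw [lab_eq]
  unfold fG
  rw [← map_mul, ← map_pow]
  exact ιS_one (((cg_acts _ _).mul (cg_acts _ _)).pow _) (chkCox _ (enc_lt x) _ (enc_lt y))

/-- short names -/
noncomputable abbrev ca : CC := cg 0 (by norm_num)
noncomputable abbrev cb : CC := cg 1 (by norm_num)
noncomputable abbrev cc' : CC := cg 2 (by norm_num)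
noncomputable abbrev cd : CC := cg 3 (by norm_num)
noncomputable abbrev ce : CC := cg 4 (by norm_num)
noncomputable abbrev cf : CC := cg 5 (by norm_num)
noncomputable abbrev cg' : CC := cg 6 (by norm_num)

theorem fa : CA ca (actW (wL 0)) := cg_acts _ _
theorem fb : CA cb (actW (wL 1)) := cg_acts _ _
theorem fc : CA cc' (actW (wL 2)) := cg_acts _ _
theorem fd : CA cd (actW (wL 3)) := cg_acts _ _
theorem fe : CA ce (actW (wL 4)) := cg_acts _ _
theorem ff : CA cf (actW (wL 5)) := cg_acts _ _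
theorem fg : CA cg' (actW (wL 6)) := cg_acts _ _

theorem ex1 : ιS ((cc' * cd) ^ 4 * ca) = 1 :=
  ιS_one (((fc.mul fd).pow 4).mul fa) (by decide +kernel)

theorem ex2 : ιS ((cf * cg') ^ 2 * ca) = 1 :=
  ιS_one (((ff.mul fg).pow 2).mul fa) (by decide +kernel)

theorem ex3 : ιS ((ca * cb * cc' * cf) ^ 5) = 1 :=
  ιS_one ((((fa.mul fb).mul fc).mul ff).pow 5) (by decide +kernel)

theorem ex4 : ιS ((cb * cf * cg') ^ 5) = 1 :=
  ιS_one (((fb.mul ff).mul fg).pow 5) (by decide +kernel)

theorem ex5 : ιS (((cb * cc' * cd * cc' * cd) ^ 5 * ce) ^ 3) = 1 :=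
  ιS_one (((((((fb.mul fc).mul fd).mul fc).mul fd).pow 5).mul fe).pow 3) (by decide +kernel)

theorem ex0 : ιS (ca * ca) = 1 := ιS_one (fa.mul fa) (by decide +kernel)

theorem extra_rel : ∀ r ∈ extra, FreeGroup.lift fG r = 1 := by
  intro r hr
  have hsq : ιS ca * ιS ca = 1 := by
    have := ex0
    rwa [map_mul] at this
  have ha : fG .a = ιS ca := rfl
  have hb : fG .b = ιS cb := rfl
  have hc : fG .c = ιS cc' := rfl
  have hd : fG .d = ιS cd := rfl
  have he : fG .e = ιS ce := rfl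
  have hf : fG .f = ιS cf := rfl
  have hg : fG .g = ιS cg' := rfl
  simp only [extra, List.mem_cons, List.not_mem_nil, or_false] at hr
  rcases hr with rfl | rfl | rfl | rfl | rfl
  · simp only [map_mul, map_pow, map_inv, FreeGroup.lift_apply_of, a, c, d]
    rw [ha, hc, hd]
    have h := ex1
    rw [map_mul, map_pow, map_mul] at h
    rw [eq_inv_of_mul_eq_one_left h, inv_inv]
    exact hsq
  · simp only [map_mul, map_pow, map_inv, FreeGroup.lift_apply_of, a, f, g]
    rw [ha, hf, hg]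
    have h := ex2
    rw [map_mul, map_pow, map_mul] at h
    rw [eq_inv_of_mul_eq_one_left h, inv_inv]
    exact hsq
  · simp only [map_mul, map_pow, FreeGroup.lift_apply_of, a, b, c, f]
    rw [ha, hb, hc, hf]
    have h := ex3
    simpa only [map_mul, map_pow] using h
  · simp only [map_mul, map_pow, FreeGroup.lift_apply_of, b, f, g]
    rw [hb, hf, hg]
    have h := ex4
    simpa only [map_mul, map_pow] using h
  · simp only [map_mul, map_pow, FreeGroup.lift_apply_of, b, c, d, e]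
    rw [hb, hc, hd, he]
    have h := ex5
    simpa only [map_mul, map_pow] using h

/-- The homomorphism. -/
noncomputable def phi : Spor.Suz →* SS :=
  PresentedGroup.toGroup (f := fG) (by
    rintro r (⟨x, -, y, -, rfl⟩ | hr)
    · rw [map_pow, map_mul, FreeGroup.lift_apply_of, FreeGroup.lift_apply_of]
      exact cox_rel x y
    · exact extra_rel r hr)

theorem phi_a : phi (PresentedGroup.of Gen.a) = ιS ca := PresentedGroup.toGroup.of _

/-! ### Orders -/

theorem nel_mem_CC (k : ℕ) : nel k ∈ CC :=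
  mem_CC.2 (AZ_comm (nel_mem_AZ k) A0_mem).symm

theorem nel_code : ∀ k < 6, ∀ k' < 6, nact k (eN 0) = nact k' (eN 0) → k = k' := by decide +kernel

theorem eN0_st : St (eN 0) := by
  have := eN_st (Cfsg.Agent.Lib.Golay.pt 0)
  rwa [Cfsg.Agent.Lib.Golay.idx_pt (by norm_num)] at this

theorem nel_inj {k k' : ℕ} (hk : k < 6) (hk' : k' < 6) (h : nel k = nel k') : k = k' := by
  apply nel_code k hk k' hk'
  have h1 := nel_acts k _ eN0_st
  have h2 := nel_acts k' _ eN0_st
  have hst := (nel_acts k).st eN0_st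
  have hst2 := (nel_acts k').st eN0_st
  apply dec_injOn hst.1 hst2.1
  rw [← h1.2, ← h2.2, h]

theorem card_NN_ge : 6 ≤ Nat.card NN := by
  haveI : Finite Co0 := Cfsg.Agent.Lib.Co0Frame.finite_Co0
  have hf : Function.Injective (fun k : Fin 6 => (⟨⟨nel k, nel_mem_CC k⟩, mem_NN.2 ⟨k, k.2, rfl⟩⟩ : NN)) := by
    intro k k' h
    have h1 : nel k = nel k' := congrArg (fun y : NN => ((y : CC) : Co0)) h
    exact Fin.ext (nel_inj k.2 k'.2 h1)
  have := Nat.card_le_card_of_injective _ hf
  simpa using this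

theorem card_SS_le (hb : Nat.card CC ≤ 2690072985600) : Nat.card SS ≤ 448345497600 := by
  haveI : Finite Co0 := Cfsg.Agent.Lib.Co0Frame.finite_Co0
  have h := Subgroup.card_eq_card_quotient_mul_card_subgroup NN
  have h6 := card_NN_ge
  have h1 : Nat.card (↥CC ⧸ NN) * 6 ≤ Nat.card (↥CC ⧸ NN) * Nat.card NN := Nat.mul_le_mul_left _ h6
  show Nat.card (↥CC ⧸ NN) ≤ _
  omega

theorem wa_not : ∀ k < 6, ∃ i < 24, actW (wL 0) (eN i) ≠ nact k (eN i) := by decide +kernel

theorem phi_ne : phi (PresentedGroup.of Gen.a) ≠ 1 := by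
  rw [phi_a]
  intro h
  rw [QuotientGroup.mk'_apply, QuotientGroup.eq_one_iff] at h
  obtain ⟨k, hk, e⟩ := mem_NN.1 h
  exact nel_ne_of _ fa wa_not k hk e

theorem phi_inj : Function.Injective phi := by
  have hs := Cfsg.Agent.S1694.result.1
  rw [← MonoidHom.ker_eq_bot_iff]
  rcases hs.eq_bot_or_eq_top_of_normal phi.ker inferInstance with h | h
  · exact h
  · exfalso
    apply phi_ne
    rw [← MonoidHom.mem_ker, h]
    exact Subgroup.mem_top _

theorem phi_bij (hb : Nat.card CC ≤ 2690072985600) : Function.Bijective phi := by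
  haveI : Finite Co0 := Cfsg.Agent.Lib.Co0Frame.finite_Co0
  haveI : Finite Spor.Suz := Nat.finite_of_card_ne_zero (by rw [Cfsg.Agent.S1694.result.2]; norm_num)
  refine (Nat.bijective_iff_injective_and_card phi).2 ⟨phi_inj, ?_⟩
  have h1 := Nat.card_le_card_of_injective _ phi_inj
  have h2 := card_SS_le hb
  rw [Cfsg.Agent.S1694.result.2] at h1 ⊢
  omega

theorem SS_simple (hb : Nat.card CC ≤ 2690072985600) : IsSimpleGroup SS := by
  have e : Spor.Suz ≃* SS := MulEquiv.ofBijective phi (phi_bij hb)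
  have hs := Cfsg.Agent.S1694.result.1
  exact @MulEquiv.isSimpleGroup _ _ _ _ hs e.symm

end Cfsg.Agent.Lib.SuzSec20
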