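import Mathlib
import Cfsg.Agent.Lib.SuzSec20Ch
import Cfsg.Agent.Lib.SuzSec20Hom
import Cfsg.Agent.Lib.CoverW2

set_option autoImplicit false
set_option maxRecDepth 100000
set_option linter.unusedVariables false
set_option linter.unusedSectionVars false

/-!
# The action of the centralizer of the involution on the extraspecial group; the image is the commutator subgroup
-/

namespace Cfsg.Agent.Lib.SuzSec20

open Matrix
open Cfsg Cfsg.Agent.Lib.CoVec Cfsg.Agent.Lib.CoConf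
open Cfsg.Agent.Lib.Co0Mono (negCo0)
open Cfsg.Agent.Lib.CoTwo1 (t2)
open Cfsg.Agent.Lib.CoTwo3 (t2_acts)
open Cfsg.Agent.Lib.CoTwoData (mOc)
open Cfsg.Agent.Lib.CoTwo4 (qq)
open Cfsg.Agent.Lib.CoOne1 (G mem_G)
open Cfsg.Agent.Lib.CoOne3 (eq_of_acts no_anti)
open Cfsg.Agent.Lib.Co2Rel20 (actW exists_W okW)
open Cfsg.Agent.Lib.Five3 (eN)
open Cfsg.Agent.Lib.Fi22J2 (Vec Qm I6 Rf us rv mt act_mul act_inv act_inv' mt_Rf eq_one_of_fix eq_one_of_fix_us SR SR_top card_O6
  no_normal2 Rm_sq pre6 pre5 pre4 pre3 pre2 pre1 pre0 mt_one)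

/-- The group of isometries. -/
abbrev Oz := Cfsg.Agent.Lib.Fi22J2.O6

/-- The homomorphism. -/
noncomputable def Fz : Lz →* Oz := dataK.F

theorem Fz_Tr {x q r : Lz} (hq : q ∈ KK') (hr : r ∈ KK') (h : Act.Tr nL x q r) : mt (Fz x) *ᵥ lamz q = lamz r :=
  dataK.F_Tr hq hr h

theorem Fz_one {x : Lz} (h : ∀ q ∈ KK', ∃ r ∈ KK', Act.Tr nL x q r ∧ lamz r = lamz q) : Fz x = 1 :=
  dataK.F_eq_one h

theorem Tr_of_eq {x q r : Lz} (h : x * q = r * x) : x * q * x⁻¹ = r := by
  rw [h]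
  simp

/-! ### Central elements -/

theorem t2_mem_CC : t2 ∈ CC := mem_CC.2 t2_A0

/-- The normal subgroup, in the centralizer of the involution. -/
noncomputable def nelL (k : ℕ) : Lz := ⟨nel k, mem_Lz.2 ⟨nel_mem_CC k, (AZ_comm (nel_mem_AZ k) t2_mem_CC).symm⟩⟩

theorem nelL_cen (k : ℕ) (x : Lz) : x * nelL k = nelL k * x :=
  Subtype.ext (AZ_comm (nel_mem_AZ k) (mem_Lz.1 x.2).1)

theorem F_nel (k : ℕ) : Fz (nelL k) = 1 := by
  apply Fz_one
  intro q hq
  refine ⟨q, hq, Or.inl ?_, rfl⟩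
  rw [← nelL_cen]
  simp

theorem F_K {r : Lz} (hr : r ∈ KK') : Fz r = 1 := by
  apply Fz_one
  intro q hq
  rcases comm_or hr hq with h | h
  · exact ⟨q, hq, Or.inl (Tr_of_eq h), rfl⟩
  · refine ⟨zL * q, KK'.mul_mem zL_mem hq, Or.inl (Tr_of_eq (by rw [h, mul_assoc])), ?_⟩
    rw [dataK.lam_mul _ zL_mem _ hq, dataK.lam_z, zero_add]

/-! ### The cover -/

/-- The inclusion. -/
noncomputable def incC : Lz →* CC := Subgroup.inclusion inf_le_left

/-- The map to the section. -/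
noncomputable def ιL : Lz →* SS := ιS.comp incC

/-- The involution of the section. -/
noncomputable def zb : SS := ιL zL

theorem ιL_comm (x : Lz) : ιL x * zb = zb * ιL x := by
  unfold zb
  rw [← map_mul, ← map_mul, zL_cen]

/-- The cover. -/
noncomputable def piL : Lz →* Subgroup.centralizer ({zb} : Set SS) :=
  ιL.codRestrict _ (fun x => Subgroup.mem_centralizer_singleton_iff.2 (ιL_comm x))

theorem piL_coe (x : Lz) : ((piL x : Subgroup.centralizer ({zb} : Set SS)) : SS) = ιL x := rfl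

theorem piL_one {x : Lz} : piL x = 1 ↔ ∃ k < 6, (x : Co0) = nel k := by
  rw [← Subtype.coe_inj]
  show ιL x = 1 ↔ _
  show ιS (incC x) = 1 ↔ _
  rw [QuotientGroup.mk'_apply, QuotientGroup.eq_one_iff, mem_NN]
  rfl

theorem nel_sq_cases : ∀ k < 6, nact k (nact k (eN 0)) = eN 0 → k = 0 ∨ k = 3 := by decide +kernel

theorem nel_sq_ne : ∀ k < 6, nact k (nact k (eN 4)) ≠ actMono Cfsg.Agent.Lib.Golay.idC mOc (eN 4) := by decide +kernel

theorem nel_sq {k : ℕ} (hk : k < 6) (h : nel k * nel k = 1) : k = 0 ∨ k = 3 := by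
  apply nel_sq_cases k hk
  exact code_of_eq ((nel_acts k).mul (nel_acts k)) ActsOn.one h (st_eN (by norm_num))

theorem nel_sq' {k : ℕ} (hk : k < 6) (h : nel k * nel k = t2) : False := by
  apply nel_sq_ne k hk
  exact code_of_eq ((nel_acts k).mul (nel_acts k)) t2_acts h (st_eN (by norm_num))

theorem piL_inj {q : Lz} (hq : q ∈ KK') (h : piL q = 1) : q = 1 := by
  obtain ⟨k, hk, e⟩ := piL_one.1 h
  rcases K_sq hq with h2 | h2
  · have h3 : nel k * nel k = 1 := by
      rw [← e]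
      exact congrArg Subtype.val h2
    rcases nel_sq hk h3 with rfl | rfl
    · exact Subtype.ext e
    · exfalso
      apply nL_not
      have : q = nL := Subtype.ext e
      rwa [← this]
  · exfalso
    apply nel_sq' hk
    rw [← e]
    exact congrArg Subtype.val h2

theorem piL_surj : Function.Surjective piL := by
  rintro ⟨d, hd⟩
  obtain ⟨g, rfl⟩ := QuotientGroup.mk_surjective d
  rw [Subgroup.mem_centralizer_singleton_iff] at hd
  let t' : CC := ⟨t2, t2_mem_CC⟩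
  have h1 : ιS (g * t' * g⁻¹ * t'⁻¹) = 1 := by
    have h2 : ιS g * ιS t' = ιS t' * ιS g := hd
    rw [map_mul, map_mul, map_mul, map_inv, map_inv, h2]
    group
  rw [QuotientGroup.mk'_apply, QuotientGroup.eq_one_iff] at h1
  obtain ⟨k, hk, e⟩ := mem_NN.1 h1
  have ht22' : t2 * t2 = 1 := congrArg Subtype.val zL_sq
  have htt : t' * t' = 1 := Subtype.ext ht22'
  have htinv : t'⁻¹ = t' := inv_eq_of_mul_eq_one_left htt
  have e1 : (g : Co0) * t2 * (g : Co0)⁻¹ * t2 = nel k := by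
    rw [← e, htinv]
    rfl
  have hcomm : nel k * t2 = t2 * nel k := (AZ_comm (nel_mem_AZ k) t2_mem_CC).symm
  have ht22 : t2 * t2 = 1 := congrArg Subtype.val zL_sq
  have e2 : (g : Co0) * t2 * (g : Co0)⁻¹ = nel k * t2 := by
    rw [← e1, mul_assoc _ t2 t2, ht22, mul_one]
  have e3 : nel k * nel k = 1 := by
    have h3 : ((g : Co0) * t2 * (g : Co0)⁻¹) * ((g : Co0) * t2 * (g : Co0)⁻¹) = 1 := by
      calc _ = (g : Co0) * (t2 * t2) * (g : Co0)⁻¹ := by group
        _ = 1 := by rw [ht22]; simp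
    rw [e2] at h3
    calc nel k * nel k = nel k * t2 * (t2 * nel k) := by
          rw [mul_assoc, ← mul_assoc t2, ht22, one_mul]
      _ = nel k * t2 * (nel k * t2) := by rw [hcomm]
      _ = 1 := h3
  have e4 : (g : Co0) * t2 = nel k * (t2 * g) := by
    have := congrArg (fun y => y * (g : Co0)) e2
    simp only [inv_mul_cancel_right] at this
    rw [this, mul_assoc]
  rcases nel_sq hk e3 with rfl | rfl
  · have e5 : (g : Co0) * t2 = t2 * g := by
      rw [e4]
      show 1 * _ = _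
      rw [one_mul]
    refine ⟨⟨g, mem_Lz.2 ⟨g.2, e5⟩⟩, ?_⟩
    apply Subtype.ext
    rfl
  · exact (no_anti g e4).elim

theorem piL_eq {x y : Lz} (h : piL x = piL y) : ∃ k < 6, (x : Co0) = nel k * y := by
  have h1 : piL (x * y⁻¹) = 1 := by
    rw [map_mul, map_inv, h, mul_inv_cancel]
  obtain ⟨k, hk, e⟩ := piL_one.1 h1
  refine ⟨k, hk, ?_⟩
  rw [← e]
  show (x : Co0) = (x : Co0) * (y : Co0)⁻¹ * y
  simp

/-! ### The reflections -/

theorem Rf_sq (i : Fin 6) : Rf i * Rf i = 1 :=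
  Subtype.ext (Units.ext (Rm_sq i))

/-- The subgroup generated by products of two reflections. -/
def TT : Subgroup Oz := Subgroup.closure (Set.range fun j : Fin 6 => Rf 0 * Rf j)

theorem Rf_inv (i : Fin 6) : (Rf i)⁻¹ = Rf i := inv_eq_of_mul_eq_one_left (Rf_sq i)

theorem two_cover (y : Oz) : y ∈ TT ∨ Rf 0 * y ∈ TT := by
  have hy : y ∈ SR := by
    rw [SR_top]
    exact Subgroup.mem_top _
  unfold SR at hy
  induction hy using Subgroup.closure_induction_left with
  | one => exact Or.inl (Subgroup.one_mem _)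
  | mul_left a ha b _ ih =>
    obtain ⟨j, rfl⟩ := ha
    have hj : Rf 0 * Rf j ∈ TT := Subgroup.subset_closure ⟨j, rfl⟩
    have hj' : Rf j * Rf 0 ∈ TT := by
      have := TT.inv_mem hj
      rwa [_root_.mul_inv_rev, Rf_inv, Rf_inv] at this
    rcases ih with h | h
    · right
      rw [← mul_assoc]
      exact TT.mul_mem hj h
    · left
      have e : Rf j * b = (Rf j * Rf 0) * (Rf 0 * b) := by
        rw [mul_assoc, ← mul_assoc (Rf 0), Rf_sq, one_mul]
      rw [e]
      exact TT.mul_mem hj' h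
  | inv_mul_cancel a ha b _ ih =>
    obtain ⟨j, rfl⟩ := ha
    have hj : Rf 0 * Rf j ∈ TT := Subgroup.subset_closure ⟨j, rfl⟩
    have hj' : Rf j * Rf 0 ∈ TT := by
      have := TT.inv_mem hj
      rwa [_root_.mul_inv_rev, Rf_inv, Rf_inv] at this
    rw [Rf_inv]
    rcases ih with h | h
    · right
      rw [← mul_assoc]
      exact TT.mul_mem hj h
    · left
      have e : Rf j * b = (Rf j * Rf 0) * (Rf 0 * b) := by
        rw [mul_assoc, ← mul_assoc (Rf 0), Rf_sq, one_mul]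
      rw [e]
      exact TT.mul_mem hj' h

instance finite_Oz : Finite Oz := Nat.finite_of_card_ne_zero (by rw [card_O6]; norm_num)

theorem card_TT_ge : 25920 ≤ Nat.card TT := by
  have h1 : (Set.univ : Set Oz) ⊆ (TT : Set Oz) ∪ (fun y => Rf 0 * y) '' (TT : Set Oz) := by
    intro y _
    rcases two_cover y with h | h
    · exact Or.inl h
    · right
      refine ⟨Rf 0 * y, h, ?_⟩
      show Rf 0 * (Rf 0 * y) = y
      rw [← mul_assoc, Rf_sq, one_mul]
  have h2 : (Set.univ : Set Oz).ncard = 51840 := by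
    rw [Set.ncard_univ, card_O6]
  have h3 : Nat.card TT = (TT : Set Oz).ncard := (Nat.card_coe_set_eq _).symm
  have h4 := Set.ncard_le_ncard h1 (Set.toFinite _)
  have h5 := Set.ncard_union_le (TT : Set Oz) ((fun y => Rf 0 * y) '' (TT : Set Oz))
  have h6 : ((fun y => Rf 0 * y) '' (TT : Set Oz)).ncard ≤ (TT : Set Oz).ncard := Set.ncard_image_le (Set.toFinite _)
  have h7 := h4.trans (h5.trans (Nat.add_le_add_left h6 _))
  rw [h2, ← h3] at h7
  omega

/-! ### The Omega group -/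

/-- The commutator subgroup. -/
abbrev Om : Subgroup Oz := Cfsg.Omega (ZMod 2) Qm

theorem comm_Om (a b : Oz) : a * b * a⁻¹ * b⁻¹ ∈ Om := by
  have := Subgroup.commutator_mem_commutator (Subgroup.mem_top a) (Subgroup.mem_top b)
  rwa [commutatorElement_def] at this

theorem hex_chk : ∀ p ∈ ([(0, 1), (1, 2), (2, 3), (3, 4), (2, 5)] : List (Fin 6 × Fin 6)), ∀ v : Vec,
    rv (us p.1) (rv (us p.2) (rv (us p.1) (rv (us p.2) (rv (us p.1) (rv (us p.2) v))))) = v := by decide +kernel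

theorem adj_Om {i j : Fin 6} (hp : (i, j) ∈ ([(0, 1), (1, 2), (2, 3), (3, 4), (2, 5)] : List (Fin 6 × Fin 6))) : Rf i * Rf j ∈ Om := by
  have h3 : Rf i * Rf j * (Rf i * Rf j) * (Rf i * Rf j) = 1 := by
    apply eq_one_of_fix
    intro v
    have := hex_chk _ hp v
    simp only [act_mul, mt_Rf]
    exact this
  have hinv : (Rf i * Rf j)⁻¹ = Rf j * Rf i := by
    rw [_root_.mul_inv_rev, Rf_inv, Rf_inv]
  have h5 : (Rf i * Rf j) * (Rf i * Rf j) = (Rf j * Rf i) := by
    rw [← hinv]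
    exact eq_inv_of_mul_eq_one_left h3
  have h4 : Rf i * Rf j = (Rf j * Rf i) * (Rf j * Rf i) := by
    calc Rf i * Rf j = (Rf i * Rf j) * ((Rf i * Rf j) * (Rf j * Rf i)) := by
          rw [← hinv, mul_inv_cancel, mul_one]
      _ = ((Rf i * Rf j) * (Rf i * Rf j)) * (Rf j * Rf i) := (mul_assoc _ _ _).symm
      _ = (Rf j * Rf i) * (Rf j * Rf i) := by rw [h5]
  have e : Rf i * (Rf i * Rf j) * (Rf i)⁻¹ * (Rf i * Rf j)⁻¹ = Rf i * Rf j := by
    rw [hinv, Rf_inv]
    conv_rhs => rw [h4]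
    calc Rf i * (Rf i * Rf j) * Rf i * (Rf j * Rf i) = (Rf i * Rf i) * (Rf j * Rf i) * (Rf j * Rf i) := by
          simp only [mul_assoc]
      _ = _ := by rw [Rf_sq, one_mul]
  rw [← e]
  exact comm_Om _ _

theorem R0R_Om : ∀ j : Fin 6, Rf 0 * Rf j ∈ Om := by
  have link : ∀ {i j k : Fin 6}, Rf i * Rf j ∈ Om → Rf j * Rf k ∈ Om → Rf i * Rf k ∈ Om := by
    intro i j k h1 h2
    have e : Rf i * Rf k = (Rf i * Rf j) * (Rf j * Rf k) := by
      rw [mul_assoc, ← mul_assoc (Rf j), Rf_sq, one_mul]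
    rw [e]
    exact Om.mul_mem h1 h2
  have h1 : Rf 0 * Rf 1 ∈ Om := adj_Om (by simp)
  have h2 : Rf 0 * Rf 2 ∈ Om := link h1 (adj_Om (by simp))
  have h3 : Rf 0 * Rf 3 ∈ Om := link h2 (adj_Om (by simp))
  have h4 : Rf 0 * Rf 4 ∈ Om := link h3 (adj_Om (by simp))
  have h5 : Rf 0 * Rf 5 ∈ Om := link h2 (adj_Om (by simp))
  intro j
  fin_cases j
  · show Rf 0 * Rf 0 ∈ Om
    rw [Rf_sq]
    exact Om.one_mem
  · exact h1
  · exact h2
  · exact h3
  · exact h4
  · exact h5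

theorem TT_le : TT ≤ Om := by
  rw [TT, Subgroup.closure_le]
  rintro _ ⟨j, rfl⟩
  exact R0R_Om j

end Cfsg.Agent.Lib.SuzSec20
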