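import Mathlib
import Cfsg.Agent.Lib.SuzSec20Cov
import Cfsg.Agent.Lib.PCore

set_option autoImplicit false
set_option maxRecDepth 100000
set_option linter.unusedVariables false
set_option linter.unusedSectionVars false

/-!
# The cover criterion for the centralizer of the involution of the section
-/

namespace Cfsg.Agent.Lib.SuzSec20

open Matrix
open Cfsg Cfsg.Agent.Lib.CoVec Cfsg.Agent.Lib.CoConf
open Cfsg.Agent.Lib.Co0Mono (negCo0)
open Cfsg.Agent.Lib.CoTwo1 (t2)
open Cfsg.Agent.Lib.CoTwo3 (t2_acts)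
open Cfsg.Agent.Lib.CoTwoData (mOc)
open Cfsg.Agent.Lib.CoTwo4 (qq)
open Cfsg.Agent.Lib.CoOne3 (eq_of_acts no_anti)
open Cfsg.Agent.Lib.Co2Rel20 (actW exists_W okW)
open Cfsg.Agent.Lib.Five3 (eN)
open Cfsg.Agent.Lib.Golay (idC)
open Cfsg.Agent.Lib.Fi22J2 (Vec Qm I6 Rf us rv mt act_mul act_inv act_inv' mt_Rf eq_one_of_fix eq_one_of_fix_us card_O6
  no_normal2 pre6)

/-- The word of a generator. -/
def wE (j : ℕ) : List (ℕ × ℕ) := wEll.getD j []

/-- The root elements. -/
def uBf (i : ℕ) : ℕ × ℕ := uB.getD i (0, 0)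

/-- The images of the root elements. -/
def tE (j i : ℕ) : ℕ × ℕ × ℕ := (tEll.getD j []).getD i (0, 0, 0)

theorem wE_ok : ∀ j < 5, okW (wE j) = true := by decide +kernel

/-- The generators. -/
noncomputable def ell (j : ℕ) : Co0 := if h : okW (wE j) = true then Classical.choose (exists_W h) else 1

theorem ell_acts {j : ℕ} (hj : j < 5) : ActsOn (ell j) (actW (wE j)) := by
  unfold ell
  rw [dif_pos (wE_ok j hj)]
  exact Classical.choose_spec (exists_W (wE_ok j hj))

/-- The test that a word commutes with the element of order three. -/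
def comA (w : List (ℕ × ℕ)) : Bool :=
  (List.range 24).all fun f => Nat.beq (actW w (actW wA (eN f))) (actW wA (actW w (eN f)))

/-- The test that a word commutes with the involution. -/
def comT (w : List (ℕ × ℕ)) : Bool :=
  (List.range 24).all fun f => Nat.beq (actW w (actMono idC mOc (eN f))) (actMono idC mOc (actW w (eN f)))

theorem mem_CC_of_word {x : Co0} {w : List (ℕ × ℕ)} (hx : ActsOn x (actW w)) (h : comA w = true) : x ∈ CC := by
  apply mem_CC.2
  apply eq_of_acts (hx.mul A0_acts) (A0_acts.mul hx)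
  intro f hf
  have := List.all_eq_true.1 h f (List.mem_range.2 hf)
  exact Nat.eq_of_beq_eq_true this

theorem mem_Lz_of_word {x : Co0} {w : List (ℕ × ℕ)} (hx : ActsOn x (actW w)) (h : comA w = true) (h' : comT w = true) :
    x ∈ Lz := by
  refine mem_Lz.2 ⟨mem_CC_of_word hx h, ?_⟩
  apply eq_of_acts (hx.mul t2_acts) (t2_acts.mul hx)
  intro f hf
  have := List.all_eq_true.1 h' f (List.mem_range.2 hf)
  exact Nat.eq_of_beq_eq_true this

theorem wE_com : ∀ j < 5, comA (wE j) = true ∧ comT (wE j) = true := by decide +kernel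

/-- The generators, in the group. -/
noncomputable def ellL (j : ℕ) (hj : j < 5) : Lz :=
  ⟨ell j, mem_Lz_of_word (ell_acts hj) (wE_com j hj).1 (wE_com j hj).2⟩

theorem uB_mem : ∀ i : Fin 6, uBf i ∈ kL0 ∧ labV (uBf i) = us i := by decide +kernel

theorem tE_mem : ∀ j : Fin 5, ∀ i : Fin 6, ((tE j i).1, (tE j i).2.1) ∈ kL0 ∧
    labV ((tE j i).1, (tE j i).2.1) = rv (us 0) (rv (us j.succ) (us i)) := by decide +kernel

/-- The frame check for a generator. -/
def ellChk (j i : ℕ) : Bool :=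
  (List.range 24).all fun f =>
    let a := actW (wE j) (eN f)
    let p := uBf i
    let t := tE j i
    Nat.beq (actW (wE j) (actMono p.2 p.1 (eN f)))
      (if t.2.2 = 0 then actMono t.2.1 t.1 a else actNeg (actMono t.2.1 t.1 a))

theorem ell_chk : ∀ j < 5, ∀ i < 6, ellChk j i = true := by decide +kernel

theorem qL_acts (p : ℕ × ℕ) (hp : p ∈ kL0) : ActsOn (qL p hp : Co0) (actMono p.2 p.1) :=
  qq_acts (mem_of_kL hp).1 (mem_of_kL hp).2

theorem ell_Tr (j : Fin 5) (i : Fin 6) :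
    Act.Tr nL (ellL j j.2) (qL (uBf i) (uB_mem i).1) (qL ((tE j i).1, (tE j i).2.1) (tE_mem j i).1) := by
  have hc := List.all_eq_true.1 (ell_chk j j.2 i i.2)
  have hx := ell_acts j.2
  have hq := qL_acts (uBf i) (uB_mem i).1
  have hr := qL_acts ((tE j i).1, (tE j i).2.1) (tE_mem j i).1
  by_cases h0 : (tE j i).2.2 = 0
  · left
    apply Tr_of_eq
    apply Subtype.ext
    apply eq_of_acts (hx.mul hq) (hr.mul hx)
    intro f hf
    have := Nat.eq_of_beq_eq_true (hc f (List.mem_range.2 hf))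
    simp only [h0, if_true] at this
    exact this
  · right
    apply Tr_of_eq
    rw [mul_assoc nL]
    apply Subtype.ext
    apply eq_of_acts (hx.mul hq) (actNeg_spec.mul (hr.mul hx))
    intro f hf
    have := Nat.eq_of_beq_eq_true (hc f (List.mem_range.2 hf))
    simp only [h0, if_false] at this
    exact this

theorem F_ell_us (j : Fin 5) (i : Fin 6) :
    mt (Fz (ellL j j.2)) *ᵥ us i = mt (Rf 0 * Rf j.succ) *ᵥ us i := by
  have h1 := Fz_Tr (qL_mem _ (uB_mem i).1) (qL_mem _ (tE_mem j i).1) (ell_Tr j i)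
  rw [lamz_qL, lamz_qL, (uB_mem i).2, (tE_mem j i).2] at h1
  rw [h1, act_mul, mt_Rf, mt_Rf]

theorem F_ell (j : Fin 5) : Fz (ellL j j.2) = Rf 0 * Rf j.succ := by
  have h1 : (Rf 0 * Rf j.succ)⁻¹ * Fz (ellL j j.2) = 1 := by
    apply eq_one_of_fix_us
    have key : ∀ i : Fin 6, mt ((Rf 0 * Rf j.succ)⁻¹ * Fz (ellL j j.2)) *ᵥ us i = us i := by
      intro i
      rw [act_mul, F_ell_us, act_inv]
    intro p hp
    simp only [pre6, Cfsg.Agent.Lib.Fi22J2.pre5, Cfsg.Agent.Lib.Fi22J2.pre4, Cfsg.Agent.Lib.Fi22J2.pre3,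
      Cfsg.Agent.Lib.Fi22J2.pre2, Cfsg.Agent.Lib.Fi22J2.pre1, Cfsg.Agent.Lib.Fi22J2.pre0, List.mem_cons,
      List.not_mem_nil, or_false] at hp
    rcases hp with rfl | rfl | rfl | rfl | rfl | rfl <;> exact key _
  exact (inv_mul_eq_one.1 h1).symm

theorem TT_le_range : TT ≤ Fz.range := by
  rw [TT, Subgroup.closure_le]
  rintro _ ⟨j, rfl⟩
  refine Fin.cases ?_ (fun k => ?_) j
  · show Rf 0 * Rf 0 ∈ Fz.range
    rw [Rf_sq]
    exact Subgroup.one_mem _
  · exact ⟨ellL k k.2, F_ell k⟩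

instance finite_Lz : Finite Lz := by
  haveI : Finite Co0 := Cfsg.Agent.Lib.Co0Frame.finite_Co0
  infer_instance

theorem piL_nel {k : ℕ} (hk : k < 6) : piL (nelL k) = 1 := piL_one.2 ⟨k, hk, rfl⟩

theorem piL_nL : piL nL = 1 := piL_one.2 ⟨3, by norm_num, rfl⟩

/-- The products of the central elements and the elements of the extraspecial group. -/
noncomputable def wMap : Fin 6 × KK' → Fz.ker := fun p =>
  ⟨nelL p.1 * p.2, by rw [MonoidHom.mem_ker, map_mul, F_nel, F_K p.2.2, one_mul]⟩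

theorem wMap_inj : Function.Injective wMap := by
  rintro ⟨k, r⟩ ⟨k', r'⟩ h
  have h1 : nelL k * (r : Lz) = nelL k' * (r' : Lz) := congrArg Subtype.val h
  have h2 : piL (r : Lz) = piL (r' : Lz) := by
    have := congrArg piL h1
    rwa [map_mul, map_mul, piL_nel k.2, piL_nel k'.2, one_mul, one_mul] at this
  have h3 : (r : Lz) = r' := by
    have h4 : piL ((r : Lz) * (r' : Lz)⁻¹) = 1 := by rw [map_mul, map_inv, h2, mul_inv_cancel]
    have := piL_inj (KK'.mul_mem r.2 (KK'.inv_mem r'.2)) h4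
    exact mul_inv_eq_one.1 this
  have h5 : nelL k = nelL k' := by
    rw [h3] at h1
    exact mul_right_cancel h1
  have h6 : k = k' := Fin.ext (nel_inj k.2 k'.2 (congrArg Subtype.val h5))
  have h7 : r = r' := Subtype.ext h3
  rw [h6, h7]

theorem card_prod_KK : Nat.card (Fin 6 × KK') = 768 := by
  rw [Nat.card_prod, Nat.card_fin, card_KK']
  norm_num

theorem ker_mul : Nat.card Fz.ker * Nat.card Fz.range = Nat.card Lz := by
  rw [← Subgroup.index_ker]
  exact Subgroup.card_mul_index _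

theorem card_TT_le_range : Nat.card TT ≤ Nat.card Fz.range :=
  Subgroup.card_le_of_le TT_le_range

theorem card_ker_le : Nat.card Fz.ker ≤ 768 := by
  have h1 := ker_mul
  have h2 := card_Lz_le
  have h3 := card_TT_ge
  have h4 := card_TT_le_range
  have h5 : Nat.card Fz.ker * 25920 ≤ Nat.card Fz.ker * Nat.card Fz.range := Nat.mul_le_mul_left _ (h3.trans h4)
  omega

theorem wMap_bij : Function.Bijective wMap :=
  wMap_inj.bijective_of_nat_card_le (by rw [card_prod_KK]; exact card_ker_le)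

theorem card_ker_eq : Nat.card Fz.ker = 768 := by
  rw [← card_prod_KK]
  exact (Nat.card_congr (Equiv.ofBijective _ wMap_bij)).symm

theorem card_range_eq : Nat.card Fz.range = 25920 := by
  have h1 := ker_mul
  have h2 := card_Lz_le
  have h3 := card_TT_ge
  have h4 := card_TT_le_range
  rw [card_ker_eq] at h1
  omega

theorem range_eq : Fz.range = Om := by
  have e : TT = Fz.range := Subgroup.eq_of_le_of_card_ge TT_le_range (by rw [card_range_eq]; exact card_TT_ge)
  apply le_antisymm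
  · rw [← e]
    exact TT_le
  · have hi : Fz.range.index = 2 := by
      have h := Subgroup.card_mul_index Fz.range
      rw [card_range_eq, card_O6] at h
      omega
    have hn : Fz.range.Normal := Subgroup.normal_of_index_eq_two hi
    have hc : Nat.card (Oz ⧸ Fz.range) = 2 := by
      rw [← Subgroup.index_eq_card]
      exact hi
    have hp : Fact (Nat.Prime (Nat.card (Oz ⧸ Fz.range))) := ⟨by rw [hc]; exact Nat.prime_two⟩
    have hcomm : ∀ a b : Oz ⧸ Fz.range, a * b = b * a := by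
      have := isCyclic_of_prime_card (α := Oz ⧸ Fz.range) rfl
      exact fun a b => (IsCyclic.commGroup (α := Oz ⧸ Fz.range)).mul_comm a b
    exact (Subgroup.Normal.quotient_commutative_iff_commutator_le).1 ⟨⟨hcomm⟩⟩

/-- The map to the commutator subgroup. -/
noncomputable def F1 : Lz →* Om :=
  Fz.codRestrict Om (fun x => by
    rw [← range_eq]
    exact ⟨x, rfl⟩)

theorem F1_surj : Function.Surjective F1 := by
  rintro ⟨y, hy⟩
  rw [← range_eq] at hy
  obtain ⟨x, rfl⟩ := hy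
  exact ⟨x, rfl⟩

theorem F1_one {x : Lz} : F1 x = 1 ↔ Fz x = 1 := by
  rw [← Subtype.coe_inj]
  rfl

theorem F1_ker (x : Lz) : F1 x = 1 ↔ ∃ r ∈ KK', piL x = piL r := by
  rw [F1_one]
  constructor
  · intro h
    obtain ⟨⟨k, r⟩, hp⟩ := wMap_bij.2 ⟨x, h⟩
    refine ⟨r, r.2, ?_⟩
    have : nelL k * (r : Lz) = x := congrArg Subtype.val hp
    rw [← this, map_mul, piL_nel k.2, one_mul]
  · rintro ⟨r, hr, e⟩
    obtain ⟨k, hk, e1⟩ := piL_eq e
    have : x = nelL k * r := Subtype.ext e1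
    rw [this, map_mul, F_nel, F_K hr, one_mul]

theorem no_normal_Om (P : Subgroup Om) (hP : P.Normal) (hp : IsPGroup 2 P) : P = ⊥ := by
  haveI hp2 : Fact (Nat.Prime 2) := ⟨Nat.prime_two⟩
  haveI : Finite Om := inferInstance
  have hle : P ≤ pCore 2 Om := Cfsg.Agent.Lib.PCore.le_pCore hP hp
  haveI hch : (pCore 2 Om).Characteristic := Cfsg.Agent.Lib.PCore.pCore_characteristic 2
  have hn : ((pCore 2 Om).map Om.subtype).Normal := by
    constructor
    rintro _ ⟨y, hy, rfl⟩ k
    let φ : Om ≃* Om := MulAut.conjNormal k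
    have h1 : φ y ∈ pCore 2 Om := by
      have h2 : y ∈ (pCore 2 Om).comap φ.toMonoidHom := by
        rw [hch.fixed φ]
        exact hy
      exact h2
    exact ⟨φ y, h1, rfl⟩
  have hp3 : IsPGroup 2 ((pCore 2 Om).map Om.subtype) := (Cfsg.Agent.Lib.PCore.isPGroup_pCore 2).map _
  have h4 := no_normal2 _ hn hp3
  have h5 : pCore 2 Om = ⊥ := (Subgroup.map_eq_bot_iff_of_injective _ Om.subtype_injective).1 h4
  rw [h5] at hle
  exact le_bot_iff.1 hle

theorem F_hC (x : Lz) (h : ∀ q ∈ KK', piL x * piL q = piL q * piL x) : ∃ r ∈ KK', piL x = piL r := by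
  apply (F1_ker x).1
  apply F1_one.2
  apply Fz_one
  intro q hq
  obtain ⟨r, hr, ht⟩ := dataK.H x q hq
  refine ⟨r, hr, ht, ?_⟩
  have h1 : piL (x * q * x⁻¹) = piL q := by
    rw [map_mul, map_mul, map_inv, h q hq]
    simp
  have h2 : piL (x * q * x⁻¹) = piL r := by
    rcases ht with e | e
    · rw [e]
    · rw [e, map_mul, piL_nL, one_mul]
  have h3 : piL (r * q⁻¹) = 1 := by
    rw [map_mul, map_inv, ← h2, h1, mul_inv_cancel]
  have h4 := piL_inj (KK'.mul_mem hr (KK'.inv_mem hq)) h3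
  rw [mul_inv_eq_one.1 h4]

/-! ### The involution is not weakly closed -/

theorem wG_ok : okW wG = true := by decide +kernel

theorem wG_com : comA wG = true := by decide +kernel

theorem kG_mem : kG ∈ kL0 := by decide +kernel

/-- The conjugating element. -/
noncomputable def gW0 : Co0 := Classical.choose (exists_W wG_ok)

theorem gW0_acts : ActsOn gW0 (actW wG) := Classical.choose_spec (exists_W wG_ok)

/-- The conjugating element, in the centralizer. -/
noncomputable def gW : CC := ⟨gW0, mem_CC_of_word gW0_acts wG_com⟩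

theorem wG_chk : ∀ f < 24, actW wG (actMono idC mOc (eN f)) = actNeg (actMono kG.2 kG.1 (actW wG (eN f))) := by
  decide +kernel

theorem gW_rel : (gW : Co0) * t2 = negCo0 * (((qL kG kG_mem : Lz) : Co0) * gW) :=
  eq_of_acts (gW0_acts.mul t2_acts) (actNeg_spec.mul ((qL_acts kG kG_mem).mul gW0_acts)) wG_chk

theorem ιS_neg : ιS (⟨negCo0, neg_mem_CC⟩ : CC) = 1 := by
  rw [QuotientGroup.mk'_apply, QuotientGroup.eq_one_iff]
  exact mem_NN.2 ⟨3, by norm_num, rfl⟩

theorem weak_F : ∃ g : SS, ∃ q ∈ KK', g * zb * g⁻¹ = ((piL q : Subgroup.centralizer ({zb} : Set SS)) : SS) ∧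
    g * zb * g⁻¹ ≠ zb := by
  have h1 : ιS gW * zb = ιL (qL kG kG_mem) * ιS gW := by
    have e : gW * incC zL = (⟨negCo0, neg_mem_CC⟩ : CC) * (incC (qL kG kG_mem) * gW) := Subtype.ext gW_rel
    have := congrArg ιS e
    rw [map_mul, map_mul, map_mul, ιS_neg, one_mul] at this
    exact this
  have h2 : ιS gW * zb * (ιS gW)⁻¹ = ιL (qL kG kG_mem) := by
    rw [h1]
    simp
  refine ⟨ιS gW, _, qL_mem kG kG_mem, h2, ?_⟩
  rw [h2]
  intro h3
  have h4 : piL (qL kG kG_mem) = piL zL := Subtype.ext h3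
  have h5 : piL (qL kG kG_mem * zL⁻¹) = 1 := by
    rw [map_mul, map_inv, h4, mul_inv_cancel]
  have h6 := piL_inj (KK'.mul_mem (qL_mem _ _) (KK'.inv_mem zL_mem)) h5
  have h7 : qL kG kG_mem = zL := mul_inv_eq_one.1 h6
  have h8 : (mOc, idC) ∈ kL0 := by decide +kernel
  rw [← qL_top h8] at h7
  have h9 := qL_inj h7
  revert h9
  decide +kernel

/-! ### The criterion -/

theorem cover : Cfsg.Agent.Lib.CoverW.Cover zb piL zL F1 KK' 3 where
  π_surj := piL_surj
  π_ζ := rfl
  inj := fun q hq h => piL_inj hq h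
  F_surj := F1_surj
  F_ker := F1_ker
  ζ_mem := zL_mem
  ζ_ne := zL_ne
  ζ_sq := zL_sq
  card := card_KK'
  comm := by
    intro a ha b hb
    rcases comm_or ha hb with h | h
    · left
      have : a * b * a⁻¹ * b⁻¹ = (a * b) * (b * a)⁻¹ := by group
      rw [this, h, mul_inv_cancel]
    · right
      have : a * b * a⁻¹ * b⁻¹ = (a * b) * (b * a)⁻¹ := by group
      rw [this, h, mul_assoc, mul_inv_cancel, mul_one]
  sq := by
    intro a ha
    rw [pow_two]
    exact K_sq ha
  cen := fun a ha h => K_cen ha h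
  non := K_non
  hO := no_normal_Om
  hC := F_hC
  weak := weak_F

theorem SS_noncomm : ¬ IsMulCommutative SS := by
  intro h
  obtain ⟨a, ha, b, hb, hab⟩ := K_non
  apply hab
  have h1 : ιL a * ιL b = ιL b * ιL a := h.is_comm.comm _ _
  have h2 : piL (a * b * a⁻¹ * b⁻¹) = 1 := by
    apply Subtype.ext
    show ιL (a * b * a⁻¹ * b⁻¹) = 1
    rw [map_mul, map_mul, map_mul, map_inv, map_inv, h1]
    simp
  have h3 := piL_inj (KK'.mul_mem (KK'.mul_mem (KK'.mul_mem ha hb) (KK'.inv_mem ha)) (KK'.inv_mem hb)) h2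
  have h4 : a * b * a⁻¹ = b := mul_inv_eq_one.1 h3
  exact mul_inv_eq_iff_eq_mul.1 h4

theorem card_AA : Nat.card AA = 3 := by
  have h1 : orderOf A0 = 3 := by
    apply orderOf_eq_prime
    · show A0 ^ 3 = 1
      rw [pow_succ, pow_two]
      exact A0_cube
    · intro h
      have : nel 1 = nel 0 := h
      have := nel_inj (by norm_num) (by norm_num) this
      omega
  unfold AA
  rw [Nat.card_zpowers, h1]

/-- The main theorem on the section. -/
theorem sec_main : ∃ z : SS, orderOf z = 2 ∧ ∃ (Q : Subgroup (Subgroup.centralizer ({z} : Set SS))) (_ : Q.Normal),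
    generalizedFittingSubgroup (Subgroup.centralizer ({z} : Set SS)) = Q ∧ IsExtraspecial 2 Q ∧ Nat.card Q = 2 ^ 7 ∧
    Nonempty ((Subgroup.centralizer ({z} : Set SS)) ⧸ Q ≃* Cfsg.Omega (ZMod 2) (Cfsg.quadFormMinus 2 (ZMod 2) 1 1)) ∧
    ∃ g : SS, (∃ hq : g * z * g⁻¹ ∈ Subgroup.centralizer ({z} : Set SS),
      (⟨g * z * g⁻¹, hq⟩ : Subgroup.centralizer ({z} : Set SS)) ∈ Q) ∧ g * z * g⁻¹ ≠ z := by
  haveI : Finite Co0 := Cfsg.Agent.Lib.Co0Frame.finite_Co0
  obtain ⟨⟨h1, h2, h3, h4, h5⟩, ⟨e⟩⟩ := cover.setting'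
  exact ⟨zb, h1, cover.F.ker, inferInstance, h2, h3, h4, ⟨e⟩, h5⟩

end Cfsg.Agent.Lib.SuzSec20
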