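import Mathlib
import Cfsg.Agent.Lib.SuzSec20Bd
import Cfsg.Agent.Lib.MinCensus20Main

set_option autoImplicit false
set_option maxRecDepth 100000
set_option maxHeartbeats 0

/-! The scan of the census: the bound on the order of the centralizer. -/

namespace Cfsg.Agent.Lib.SuzSec20

open Cfsg Cfsg.Agent.Lib.CoVec Cfsg.Agent.Lib.CoConf Cfsg.Agent.Lib.MinCensus20
open Cfsg.Agent.Lib.Co3Rel19 (dd dd_val dd_eq)
open Cfsg.Agent.Lib.J2Sec20 (dotV eqD dotP dotS dotA_eq dotB_eq dotV_of_dotInt dotInt_of_dotV)
open Cfsg.Agent.Lib.PermChain12 (force force_eq allB allB_spec)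

/-- The keys of a level. -/
def keyOK (l n : ℕ) : Bool :=
  (List.range l).all fun i => eqD n (pc i) (pc l) (pc i) && eqD n (qc i) (pc l) (qc i)

/-- The check of a code. -/
def scanOne (n : ℕ) : Bool :=
  (!(dotV n (pc 0) 16 0)) || (List.range' 1 11).all fun l => !(keyOK l n) || (cl l).any (Nat.beq n)

/-- The check of all codes. -/
noncomputable def scanAll : Bool :=
  allB 195 8 fun j => force (wC j) fun w => allB 1008 10 fun i => scanOne (ent w i)

theorem scanAll_ok : scanAll = true := by decide +kernel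

theorem scanOne_all {j i : ℕ} (hj : j < 195) (hi : i < 1008) : scanOne (ent (wC j) i) = true := by
  have h := allB_spec _ _ _ (by norm_num) scanAll_ok j hj
  simp only [force_eq] at h
  exact allB_spec _ _ _ (by norm_num) h i hi

theorem first_key : ∀ l < 12, 1 ≤ l → dotV (pc l) (pc 0) 16 0 = true := by decide +kernel

theorem eqD_of_dotInt {x y u v : ℕ} (h : dotInt (dec x) (dec y) = dotInt (dec u) (dec v)) : eqD x y u v = true := by
  rw [dotInt_dec, dotInt_dec, dotA_eq, dotA_eq, dotB_eq, dotB_eq] at h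
  push_cast at h
  show Nat.beq _ _ = true
  rw [Nat.beq_eq]
  show dotP x y + 128 * dotS u v = dotP u v + 128 * dotS x y
  zify
  linarith

theorem scan : Scan := by
  intro x hn l h1 h2 hk
  obtain ⟨t, ht, e⟩ := census_all census (x : GolayPt → ℤ) x.2 hn
  obtain ⟨hst, -⟩ := glob_st census ht
  have hj : t / 1008 < 195 := Nat.div_lt_of_lt_mul (by rwa [Nat.mul_comm] at ht)
  have hi : t % 1008 < 1008 := Nat.mod_lt _ (by norm_num)
  have hs := scanOne_all hj hi
  set n := ent (wC (t / 1008)) (t % 1008) with hn'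
  have hst' : St n := hst
  have e' : (x : GolayPt → ℤ) = dec n := e
  have hkey : keyOK l n = true := by
    unfold keyOK
    rw [List.all_eq_true]
    intro i hi
    have hi' := List.mem_range.1 hi
    obtain ⟨a, b⟩ := hk i hi'
    rw [e', dd_val (pc_st (by omega)), dd_val (pc_st h2)] at a
    rw [e', dd_val (qc_st (by omega)), dd_val (pc_st h2)] at b
    rw [Bool.and_eq_true]
    exact ⟨eqD_of_dotInt a, eqD_of_dotInt b⟩
  have h0 : dotV n (pc 0) 16 0 = true := by
    apply dotV_of_dotInt
    have a := (hk 0 (by omega)).1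
    rw [e', dd_val (pc_st (by omega)), dd_val (pc_st h2)] at a
    rw [a, dotInt_of_dotV (first_key l h2 h1)]
  unfold scanOne at hs
  rw [h0] at hs
  simp only [Bool.not_true, Bool.false_or, List.all_eq_true] at hs
  have h3 := hs l (List.mem_range'.2 ⟨l - 1, by omega, by omega⟩)
  rw [hkey] at h3
  simp only [Bool.not_true, Bool.false_or, List.any_eq_true] at h3
  obtain ⟨c, hc, hb⟩ := h3
  have hnc : n = c := Nat.eq_of_beq_eq_true hb
  refine ⟨c, hc, ?_⟩
  apply Subtype.ext
  rw [← hnc, dd_val hst', e']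

/-- The bound. -/
theorem card_CC_le' : Nat.card CC ≤ 2690072985600 := card_CC_le scan

end Cfsg.Agent.Lib.SuzSec20
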