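import Cfsg.Agent.Lib.SuzUpData12

/-!
# The certificate of `Suz`, in pieces
-/

set_option autoImplicit false
set_option maxRecDepth 100000
set_option linter.all false
set_option Elab.async false

namespace Cfsg.Agent.Lib.SuzUpCert12

open Cfsg.Agent.Lib.SchurCoset46 Cfsg.Agent.Lib.SuzUpData12

theorem of_range {f : ℕ → Bool} {a n : ℕ} (h : (List.range' a n).all f = true) {v : ℕ} (h1 : a ≤ v) (h2 : v < a + n) :
    f v = true := by
  rw [List.all_eq_true] at h
  exact h v (List.mem_range'_1.mpr ⟨h1, h2⟩)

theorem ctab : certS.base.tabChk = true := by decide +kernel
theorem cv0 : (List.range' 0 300).all certS.varChk = true := by decide +kernel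
theorem cv300 : (List.range' 300 300).all certS.varChk = true := by decide +kernel
theorem cv600 : (List.range' 600 300).all certS.varChk = true := by decide +kernel
theorem cv900 : (List.range' 900 300).all certS.varChk = true := by decide +kernel
theorem cv1200 : (List.range' 1200 300).all certS.varChk = true := by decide +kernel
theorem cv1500 : (List.range' 1500 300).all certS.varChk = true := by decide +kernel
theorem cv1800 : (List.range' 1800 300).all certS.varChk = true := by decide +kernel
theorem cv2100 : (List.range' 2100 300).all certS.varChk = true := by decide +kernel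
theorem cv2400 : (List.range' 2400 300).all certS.varChk = true := by decide +kernel
theorem cv2700 : (List.range' 2700 300).all certS.varChk = true := by decide +kernel
theorem cv3000 : (List.range' 3000 300).all certS.varChk = true := by decide +kernel
theorem cv3300 : (List.range' 3300 279).all certS.varChk = true := by decide +kernel

/-- The test of a parameter. -/
noncomputable def pf (p : ℕ) : Bool := Nat.beq p 0 ||
  ((certS.relP p).all certS.rowChk && Nat.ble (certS.combF (certS.relP p)).length certS.P &&
    stepOK (opsN certS.E) certS.cf (fun x => x) certS.P certS.E p (expandL 0 (certS.combF (certS.relP p))))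

theorem cp0 : pf 0 = true := by decide +kernel
theorem cp1 : pf 1 = true := by decide +kernel
theorem cp2 : pf 2 = true := by decide +kernel
theorem cp3 : pf 3 = true := by decide +kernel
theorem cp4 : pf 4 = true := by decide +kernel
theorem cp5 : pf 5 = true := by decide +kernel
theorem cp6 : pf 6 = true := by decide +kernel
theorem cp7 : pf 7 = true := by decide +kernel
theorem cp8 : pf 8 = true := by decide +kernel
theorem cp9 : pf 9 = true := by decide +kernel
theorem cp10 : pf 10 = true := by decide +kernel
theorem cp11 : pf 11 = true := by decide +kernel
theorem cp12 : pf 12 = true := by decide +kernel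
theorem cp13 : pf 13 = true := by decide +kernel
theorem cp14 : pf 14 = true := by decide +kernel
theorem cp15 : pf 15 = true := by decide +kernel
theorem cp16 : pf 16 = true := by decide +kernel
theorem cp17 : pf 17 = true := by decide +kernel
theorem cp18 : pf 18 = true := by decide +kernel
theorem cp19 : pf 19 = true := by decide +kernel
theorem cp20 : pf 20 = true := by decide +kernel
theorem ccf : Nat.beq (certS.cf 0) 1 = true := by decide +kernel

theorem cparams : certS.paramsChk = true := by
  show (Nat.beq (certS.cf 0) 1 && (List.range certS.P).all pf) = true
  rw [Bool.and_eq_true]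
  refine ⟨ccf, ?_⟩
  rw [List.all_eq_true]
  intro p hp
  have hp' : p < 21 := List.mem_range.mp hp
  interval_cases p
  · exact cp0
  · exact cp1
  · exact cp2
  · exact cp3
  · exact cp4
  · exact cp5
  · exact cp6
  · exact cp7
  · exact cp8
  · exact cp9
  · exact cp10
  · exact cp11
  · exact cp12
  · exact cp13
  · exact cp14
  · exact cp15
  · exact cp16
  · exact cp17
  · exact cp18
  · exact cp19
  · exact cp20

theorem crel0 : certS.rel0Chk = true := by decide +kernel

theorem cvars : (List.range certS.NV).all certS.varChk = true := by
  rw [List.all_eq_true]
  intro v hv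
  have hv' : v < 3579 := List.mem_range.mp hv
  by_cases h0 : v < 300
  · exact of_range cv0 (by omega) (by omega)
  by_cases h300 : v < 600
  · exact of_range cv300 (by omega) (by omega)
  by_cases h600 : v < 900
  · exact of_range cv600 (by omega) (by omega)
  by_cases h900 : v < 1200
  · exact of_range cv900 (by omega) (by omega)
  by_cases h1200 : v < 1500
  · exact of_range cv1200 (by omega) (by omega)
  by_cases h1500 : v < 1800
  · exact of_range cv1500 (by omega) (by omega)
  by_cases h1800 : v < 2100
  · exact of_range cv1800 (by omega) (by omega)
  by_cases h2100 : v < 2400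
  · exact of_range cv2100 (by omega) (by omega)
  by_cases h2400 : v < 2700
  · exact of_range cv2400 (by omega) (by omega)
  by_cases h2700 : v < 3000
  · exact of_range cv2700 (by omega) (by omega)
  by_cases h3000 : v < 3300
  · exact of_range cv3000 (by omega) (by omega)
  by_cases h3300 : v < 3579
  · exact of_range cv3300 (by omega) (by omega)
  · omega

theorem certS_ok : certS.check = true := by
  simp only [CertE.check, Bool.and_eq_true]
  exact ⟨⟨⟨⟨⟨by decide +kernel, by decide +kernel⟩, ctab⟩, cvars⟩, cparams⟩, crel0⟩

end Cfsg.Agent.Lib.SuzUpCert12
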