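import Cfsg.Agent.Lib.SchurLevD12
import Cfsg.Agent.Lib.SuzCov12
import Cfsg.Agent.Lib.SuzUpData12
import Cfsg.Agent.Lib.SuzUpCert12
import Cfsg.Agent.Lib.SchurCover46
import Cfsg.Agent.Lib.SparseDfs
import Cfsg.Agent.Lib.SchurPerm12
import Cfsg.Agent.S1679
import Cfsg.Agent.S1055

/-!
# The Schur multiplier of `Suz`

On the `1782` cosets of the subgroup `G₂(4)`.
-/

set_option autoImplicit false
set_option maxRecDepth 100000
set_option Elab.async false
set_option linter.style.haveILetI false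

namespace Cfsg.Agent.Lib.SuzUp12

open Cfsg Cfsg.Spor Subgroup Cfsg.Agent.Lib.TcBits Cfsg.Agent.Lib.TcPres Cfsg.Spor.Suz Cfsg.Agent.TcData.Suz
  Cfsg.Agent.Lib.SchurCoset46 Cfsg.Agent.Lib.SchurLev12 Cfsg.Agent.Lib.PermChain12 Cfsg.Agent.Lib.SparseDfs
  Cfsg.Agent.Lib.SuzUpData12 Cfsg.Agent.Lib.SchurLevD12 Cfsg.Agent.Lib.SchurPerm12 Cfsg.Agent.Lib.SchurStem
open Cfsg.Agent.TcData.Suz.I1782 (Phi HH pr hv hR bij hfix)
open Cfsg.Agent.Lib.TcChain

noncomputable section

/-- The presented group. -/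
abbrev QS := PresentedGroup RR

/-- The action on the numbers through the representation. -/
instance actS : MulAction QS ℕ := MulAction.compHom ℕ Phi

theorem smul_eq (g : QS) (i : ℕ) : g • i = Phi g i := rfl

/-! ### Tables of permutations from slices -/

theorem wordPerm_eq_table {β : Type*} {k n : ℕ} {pr' : β → List (ℕ × ℕ)} {w : List β}
    (hv' : ∀ a ∈ w, validProg (2 ^ k) (pr' a) = true) {Z : ℕ → ℕ}
    (hZ : ∀ j, j < k → wordApply pr' w (slice k j) = Z j) {f : ℕ → ℕ} (hn : n ≤ 2 ^ k)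
    (hf : ∀ p, p < n → f p < 2 ^ k ∧ ∀ j, j < k → (f p).testBit j = (Z j).testBit p) {p : ℕ} (hp : p < n) :
    wordPerm pr' w p = f p := by
  have hp' : p < 2 ^ k := lt_of_lt_of_le hp hn
  have himg : wordPerm pr' w p < 2 ^ k := by
    by_contra hc
    have h1 := wordPerm_fix_high _ pr' w hv' (wordPerm pr' w p) (by omega)
    have h2 := (wordPerm pr' w).injective h1
    omega
  obtain ⟨hlt, hbits⟩ := hf p hp
  apply Nat.eq_of_testBit_eq
  intro j
  by_cases hj : j < k
  · have h3 := testBit_wordApply _ pr' w hv' (slice k j) p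
    rw [hZ j hj, testBit_slice] at h3
    simp only [himg, decide_true, Bool.true_and] at h3
    rw [hbits j hj, h3]
  · have hk : 2 ^ k ≤ 2 ^ j := Nat.pow_le_pow_right (by norm_num) (by omega)
    rw [Nat.testBit_lt_two_pow (lt_of_lt_of_le himg hk), Nat.testBit_lt_two_pow (lt_of_lt_of_le hlt hk)]

/-- The check of a table of a word. -/
def chkTab (w : List (Gen × Bool)) (Z : List ℕ) (c : ℕ) : Bool :=
  allB 11 4 (fun j => Nat.beq (wordApply (sgnProg pr) w (slice 11 j)) (Z.getD j 0)) &&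
    allB 1782 11 (fun p => Nat.blt (imW 11 2047 c p) 2048 &&
      allB 11 4 (fun j => (imW 11 2047 c p).testBit j == (Z.getD j 0).testBit p))

theorem Phi_mk (r : FreeGroup Gen) : Phi (PresentedGroup.mk RR r) = wordPerm (sgnProg pr) r.toWord :=
  repOf_mk hR hv r

theorem table_of_chk {r : FreeGroup Gen} {Z : List ℕ} {c : ℕ} (h : chkTab r.toWord Z c = true) {p : ℕ} (hp : p < 1782) :
    Phi (PresentedGroup.mk RR r) p = imW 11 2047 c p := by
  rw [Phi_mk]
  simp only [chkTab, Bool.and_eq_true] at h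
  obtain ⟨h1, h2⟩ := h
  have hj4 : ∀ j, j < 11 → j < 16 := fun j hj => by omega
  refine wordPerm_eq_table (k := 11) (n := 1782) (fun a _ => valid_sgnProg hv a) (Z := fun j => Z.getD j 0) ?_ (f := imW 11 2047 c)
    (by norm_num) ?_ hp
  · intro j hj
    have h3 := allB_spec _ _ _ (by norm_num) h1 j hj
    exact Nat.eq_of_beq_eq_true h3
  · intro p hp
    have h3 := allB_spec _ _ _ (by norm_num) h2 p hp
    simp only [Bool.and_eq_true, Nat.blt_eq] at h3
    refine ⟨by norm_num; exact h3.1, ?_⟩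
    intro j hj
    have h4 := allB_spec _ _ _ (by norm_num) h3.2 j hj
    exact of_decide_eq_true (by simpa using h4)

/-! ### The generators -/

/-- The letters. -/
def genOf : ℕ → Gen
  | 0 => .a
  | 1 => .b
  | 2 => .c
  | 3 => .d
  | 4 => .e
  | 5 => .f
  | _ => .g

/-- The first generator, in the free group. -/
def Afg : FreeGroup Gen := FreeGroup.of .a
/-- The second generator, in the free group. -/
def Bfg : FreeGroup Gen := (wBS.map (fun i => FreeGroup.of (genOf i))).prod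

/-- The generators of `Suz`. -/
def sS (i : ℕ) : QS := if i = 0 then PresentedGroup.mk RR Afg else PresentedGroup.mk RR Bfg

theorem chkA : chkTab Afg.toWord zAS aaTS = true := by decide +kernel
theorem chkB : chkTab Bfg.toWord zBS bbTS = true := by decide +kernel

theorem hP0 {p : ℕ} (hp : p < 1782) : sS 0 • p = imW 11 2047 aaTS p := table_of_chk chkA hp
theorem hP1 {p : ℕ} (hp : p < 1782) : sS 1 • p = imW 11 2047 bbTS p := table_of_chk chkB hp

theorem chk_T : tabPChk 1782 11 11 2047 aaTS bbTS 1782 TS BS = true := by decide +kernel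

theorem chk_I : allB 1782 11 (fun x => Nat.blt (IS x) 1782 && Nat.beq (BS (IS x)) x) = true := by decide +kernel

theorem hTs (c : ℕ) (hc : c < 1782) : (Nat.blt (TS c 0) 1782 && Nat.blt (TS c 1) 1782 && Nat.blt (TS c 2) 1782 && Nat.blt (TS c 3) 1782 &&
    Nat.beq (TS (TS c 1) 0) c && Nat.beq (TS (TS c 3) 2) c && Nat.blt (BS c) 1782 &&
    Nat.beq (imW 11 2047 aaTS (BS (TS c 0))) (BS c) && Nat.beq (imW 11 2047 bbTS (BS (TS c 2))) (BS c)) = true :=
  allB_spec _ _ _ (by norm_num) chk_T c hc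

theorem hlt : ∀ c, c < 1782 → ∀ l, l < 2 * 2 → TS c l < 1782 := by
  intro c hc l hl
  have h := hTs c hc
  simp only [Bool.and_eq_true, Nat.blt_eq] at h
  obtain ⟨⟨⟨⟨⟨⟨⟨⟨a0, a1⟩, a2⟩, a3⟩, -⟩, -⟩, -⟩, -⟩, -⟩ := h
  have hl' : l < 4 := hl
  interval_cases l <;> assumption

theorem hodd : ∀ c, c < 1782 → ∀ i, i < 2 → TS (TS c (2 * i + 1)) (2 * i) = c := by
  intro c hc i hi
  have h := hTs c hc
  simp only [Bool.and_eq_true, Nat.blt_eq] at h
  obtain ⟨⟨⟨⟨⟨⟨⟨⟨-, -⟩, -⟩, -⟩, h5⟩, h6⟩, -⟩, -⟩, -⟩ := h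
  have e1 := Nat.eq_of_beq_eq_true h5
  have e2 := Nat.eq_of_beq_eq_true h6
  interval_cases i
  · exact e1
  · exact e2

theorem hBlt {c : ℕ} (hc : c < 1782) : BS c < 1782 := by
  have h := hTs c hc
  simp only [Bool.and_eq_true, Nat.blt_eq] at h
  obtain ⟨⟨⟨-, h7⟩, -⟩, -⟩ := h
  exact h7

theorem hms : ∀ c, c < 1782 → ∀ i, i < 2 → sS i • BS (TS c (2 * i)) = BS c := by
  intro c hc i hi
  have h := hTs c hc
  simp only [Bool.and_eq_true, Nat.blt_eq] at h
  obtain ⟨⟨⟨⟨⟨⟨⟨⟨a0, a1⟩, a2⟩, a3⟩, -⟩, -⟩, h7⟩, h8⟩, h9⟩ := h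
  interval_cases i
  · show sS 0 • BS (TS c 0) = BS c
    rw [hP0 (hBlt a0), Nat.eq_of_beq_eq_true h8]
  · show sS 1 • BS (TS c 2) = BS c
    rw [hP1 (hBlt a2), Nat.eq_of_beq_eq_true h9]

theorem hsurjB {x : ℕ} (hx : x < 1782) : ∃ c, c < 1782 ∧ BS c = x := by
  have h := allB_spec _ _ _ (by norm_num) chk_I x hx
  simp only [Bool.and_eq_true, Nat.blt_eq] at h
  exact ⟨IS x, h.1, Nat.eq_of_beq_eq_true h.2⟩

/-- An element fixing all points is trivial. -/
theorem eq_one_of_fix {g : QS} (h : ∀ c, c < 1782 → g • BS c = BS c) : g = 1 := by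
  apply Cfsg.Agent.TcData.Suz.Fin.main.2
  rw [map_one]
  ext i
  simp only [Equiv.Perm.coe_one, id_eq]
  by_cases hi : i < 1782
  · obtain ⟨c, hc, rfl⟩ := hsurjB hi
    exact h c hc
  · exact fix_above_all hR (fun x => Cfsg.Agent.TcData.Suz.Fin.hab x i (by omega)) g

theorem inv_evW_B (w : List ℕ) (hw : ∀ l ∈ w, l < 4) {c : ℕ} (hc : c < 1782) :
    (evW sS w)⁻¹ • BS c = BS (endV TS c w) :=
  inv_evW_pt hlt hodd hms w hw hc

theorem evW_one_of {w : List ℕ} (hw : ∀ l ∈ w, l < 4) (h : ∀ c, c < 1782 → endV TS c w = c) : evW sS w = 1 := by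
  rw [← inv_eq_one]
  apply eq_one_of_fix
  intro c hc
  rw [inv_evW_B w hw hc, h c hc]

theorem evW_eq_of {w : List ℕ} (hw : ∀ l ∈ w, l < 4) {g : QS} {f : ℕ → ℕ} (hf : ∀ {p}, p < 1782 → g • p = f p)
    (h : ∀ c, c < 1782 → f (BS (endV TS c w)) = BS c) : evW sS w = g := by
  have h1 : g * (evW sS w)⁻¹ = 1 := by
    apply eq_one_of_fix
    intro c hc
    have h2 : endV TS c w < 1782 := by
      have : ∀ (w : List ℕ), (∀ l ∈ w, l < 4) → ∀ c, c < 1782 → endV TS c w < 1782 := by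
        intro w
        induction w with
        | nil => intro _ c hc; exact hc
        | cons l w ih =>
          intro hw c hc
          exact ih (fun a ha => hw a (List.mem_cons_of_mem _ ha)) _ (hlt c hc l (hw l List.mem_cons_self))
      exact this w hw c hc
    rw [mul_smul, inv_evW_B w hw hc, hf (hBlt h2), h c hc]
  exact (mul_inv_eq_one.mp h1).symm

/-- The check of a word for a generator. -/
def chkGen (x : Gen) (w : List ℕ) (Z : List ℕ) (c : ℕ) : Bool :=
  chkTab (FreeGroup.of x).toWord Z c &&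
    (w.all (fun l => Nat.blt l 4) && allB 1782 11 (fun d => Nat.beq (imW 11 2047 c (BS (endV TS d w))) (BS d)))

theorem of_chkGen {x : Gen} {w Z : List ℕ} {c : ℕ} (h : chkGen x w Z c = true) :
    ∃ w : List ℕ, (∀ l ∈ w, l < 4) ∧ evW sS w = PresentedGroup.mk RR (FreeGroup.of x) := by
  simp only [chkGen, Bool.and_eq_true, List.all_eq_true, Nat.blt_eq] at h
  refine ⟨w, h.2.1, ?_⟩
  apply evW_eq_of h.2.1 (f := imW 11 2047 c) (fun hp => table_of_chk h.1 hp)
  intro d hd
  exact Nat.eq_of_beq_eq_true (allB_spec _ _ _ (by norm_num) h.2.2 d hd)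

theorem gen_a : chkGen .a waS zaS gaTS = true := by decide +kernel
theorem gen_b : chkGen .b wbS zbS gbTS = true := by decide +kernel
theorem gen_c : chkGen .c wcS zcS gcTS = true := by decide +kernel
theorem gen_d : chkGen .d wdS zdS gdTS = true := by decide +kernel
theorem gen_e : chkGen .e weS zeS geTS = true := by decide +kernel
theorem gen_f : chkGen .f wfS zfS gfTS = true := by decide +kernel
theorem gen_g : chkGen .g wgS zgS ggTS = true := by decide +kernel

theorem hgenS : closure (sS '' Set.Iio 2) = ⊤ := by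
  rw [eq_top_iff, ← PresentedGroup.closure_range_of RR, closure_le]
  rintro _ ⟨x, rfl⟩
  have h : ∃ w : List ℕ, (∀ l ∈ w, l < 4) ∧ evW sS w = PresentedGroup.mk RR (FreeGroup.of x) := by
    cases x
    exacts [of_chkGen gen_a, of_chkGen gen_b, of_chkGen gen_c, of_chkGen gen_d, of_chkGen gen_e, of_chkGen gen_f,
      of_chkGen gen_g]
  obtain ⟨w, hw, he⟩ := h
  have h2 := evW_mem_closure sS 2 w hw
  rw [he] at h2
  exact h2

theorem certS_ok : certS.check = true := Cfsg.Agent.Lib.SuzUpCert12.certS_ok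

theorem chk_ne : allB 1782 11 (fun c => Nat.beq c 0 || !(Nat.beq (BS c) 0)) = true := by decide +kernel

/-- The level of `Suz`. -/
theorem levS : LevelData (0 : ℕ) 1782 TS PS BS sS where
  hT := tab_of_cert certS certS_ok
  hm0 := by decide +kernel
  hne := by
    intro c hc h
    have h1 := allB_spec _ _ _ (by norm_num) chk_ne c hc
    rw [Bool.or_eq_true] at h1
    rcases h1 with h1 | h1
    · exact Nat.eq_of_beq_eq_true h1
    · exfalso
      rw [h] at h1
      simp [Nat.beq] at h1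
  hms := hms
  hgen := hgenS

theorem relS_chk : relChk 1782 11 certS.R TS certS.rels = true := by decide +kernel

theorem normS : NormB certS 7 7 := ⟨by decide +kernel, by decide +kernel, fun j hj => by
  have h : (Nat.beq j 0 || Nat.beq j 1) = true := hj
  rw [Bool.or_eq_true] at h
  rcases h with h | h
  · exact Or.inl (Nat.eq_of_beq_eq_true h)
  · exact Or.inr (Nat.eq_of_beq_eq_true h)⟩

/-! ### The stabiliser -/

theorem stab_eq : MulAction.stabilizer QS (0 : ℕ) = HH := by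
  ext g
  rw [MulAction.mem_stabilizer_iff]
  constructor
  · intro h
    have h0 : Phi g 0 = 0 := h
    have h1 : betaF HH Phi hfix (g : QS ⧸ HH) = betaF HH Phi hfix ((1 : QS) : QS ⧸ HH) := by
      rw [betaF_mk, betaF_mk, h0, map_one]
      rfl
    have h2 := bij.2.1 h1
    have h3 : g⁻¹ * 1 ∈ HH := QuotientGroup.eq.mp h2
    rw [mul_one] at h3
    exact (Subgroup.inv_mem_iff HH).mp h3
  · intro h
    exact hfix g h

/-- Transport of the multiplier along an isomorphism. -/
theorem schur_of_equiv {G G' : Type} [Group G] [Group G'] (e : G ≃* G') {d : ℕ} (h : HasCyclicSchurMultiplier G' d) :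
    HasCyclicSchurMultiplier G d := by
  have hk : ∀ {Γ : Type} [Group Γ] (σ : Γ →* G'), (e.symm.toMonoidHom.comp σ).ker = σ.ker := by
    intro Γ _ σ
    ext k
    rw [MonoidHom.mem_ker, MonoidHom.mem_ker]
    show e.symm (σ k) = 1 ↔ _
    exact map_eq_one_iff e.symm e.symm.injective
  have hk' : ∀ {Γ : Type} [Group Γ] (σ : Γ →* G), (e.toMonoidHom.comp σ).ker = σ.ker := by
    intro Γ _ σ
    ext k
    rw [MonoidHom.mem_ker, MonoidHom.mem_ker]
    show e (σ k) = 1 ↔ _
    exact map_eq_one_iff e e.injective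
  refine ⟨?_, ?_⟩
  · obtain ⟨Γ, i1, i2, σ, hσ, ⟨e2⟩⟩ := h.1
    refine ⟨Γ, i1, i2, e.symm.toMonoidHom.comp σ, ⟨?_, ?_, ?_⟩, ⟨(MulEquiv.subgroupCongr (hk σ)).trans e2⟩⟩
    · intro g
      obtain ⟨x, hx⟩ := hσ.1 (e g)
      exact ⟨x, by show e.symm (σ x) = g; rw [hx, e.symm_apply_apply]⟩
    · rw [hk]; exact hσ.2.1
    · rw [hk]; exact hσ.2.2
  · intro Γ _ _ σ hσ
    have hst : IsStemExtension (e.toMonoidHom.comp σ) := by
      refine ⟨?_, ?_, ?_⟩
      · intro g
        obtain ⟨x, hx⟩ := hσ.1 (e.symm g)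
        exact ⟨x, by show e (σ x) = g; rw [hx, e.apply_symm_apply]⟩
      · rw [hk']; exact hσ.2.1
      · rw [hk']; exact hσ.2.2
    obtain ⟨π, hπ⟩ := h.2 Γ _ hst
    refine ⟨(MulEquiv.subgroupCongr (hk' σ)).toMonoidHom.comp π, ?_⟩
    exact (MulEquiv.subgroupCongr (hk' σ)).surjective.comp hπ

/-- The stabiliser and `G₂(4)`. -/
theorem exists_stab : ∃ (K : Type) (_ : Field K) (_ : Fintype K), Fintype.card K = 4 ∧
    Nonempty (↥(MulAction.stabilizer QS (0 : ℕ)) ≃* ↥(Cfsg.Lie.chevG2.group K)) := by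
  obtain ⟨K, i1, i2, hK, ⟨e⟩⟩ := Cfsg.Agent.S1679.result
  exact ⟨K, i1, i2, hK, ⟨(MulEquiv.subgroupCongr stab_eq).trans e⟩⟩

theorem perfect_stab : commutator ↥(MulAction.stabilizer QS (0 : ℕ)) = ⊤ := by
  obtain ⟨K, i1, i2, hK, ⟨e⟩⟩ := exists_stab
  have hF : ∃ a : K, a ≠ 0 ∧ a ≠ 1 := by
    classical
    obtain ⟨a, -, ha⟩ := Finset.exists_mem_notMem_of_card_lt_card (s := ({0, 1} : Finset K)) (t := Finset.univ) (by
      rw [Finset.card_univ, hK]
      exact lt_of_le_of_lt (Finset.card_le_two) (by norm_num))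
    refine ⟨a, ?_, ?_⟩
    · intro h
      exact ha (by simp [h])
    · intro h
      exact ha (by simp [h])
  obtain ⟨h1, h2⟩ := Cfsg.Agent.S1055.result hF
  have h3 : commutator ↥(Cfsg.Lie.chevG2.group K) = ⊤ := by
    rcases (inferInstance : (commutator ↥(Cfsg.Lie.chevG2.group K)).Normal).eq_bot_or_eq_top with h | h
    · exfalso
      have h4 : Subgroup.center ↥(Cfsg.Lie.chevG2.group K) = ⊤ := (commutator_eq_bot_iff_center_eq_top _).1 h
      apply h2
      refine ⟨⟨fun a b => ?_⟩⟩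
      have h5 : a ∈ Subgroup.center ↥(Cfsg.Lie.chevG2.group K) := by rw [h4]; trivial
      exact (Subgroup.mem_center_iff.1 h5 b).symm
    · exact h
  exact perfect_of_equiv e h3

/-- The multiplier of `G₂(4)`, as a hypothesis. -/
def HypG24 : Prop := ∀ (F : Type) [Field F] [Fintype F], Fintype.card F = 4 → HasCyclicSchurMultiplier ↥(Cfsg.Lie.chevG2.group F) 2

theorem hM_stab (hG : HypG24) : HasCyclicSchurMultiplier ↥(MulAction.stabilizer QS (0 : ℕ)) 2 := by
  obtain ⟨K, i1, i2, hK, ⟨e⟩⟩ := exists_stab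
  exact schur_of_equiv e (hG K hK)

instance instNZ2 : NeZero (2 : ℕ) := ⟨by norm_num⟩

/-- The order of the kernel of a stem extension. -/
theorem card_ker (hG : HypG24) {Γ : Type} [Group Γ] [Finite Γ] (σ : Γ →* QS) (hσ : IsStemExtension σ) :
    Nat.card σ.ker ∣ 6 := by
  have hM := hM_stab hG
  have hE : ∀ k ∈ σ.ker, k ^ 324 = 1 := by
    intro k hk
    have h1 := pow_index_mul hσ perfect_stab hM hk
    rw [levS.index_stab] at h1
    haveI : Fact (Nat.Prime 11) := ⟨by norm_num⟩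
    have hc : Nat.card QS = 448345497600 := Cfsg.Agent.TcData.Suz.Fin.main.1
    have h2 := ker_pow_prime hσ 11 (by rw [hc]; norm_num) hk
    rw [hc] at h2
    have h3 := pow_gcd_eq_one.mpr ⟨h1, h2⟩
    have : Nat.gcd (1782 * 2) (448345497600 / 11) = 324 := by norm_num
    rwa [this] at h3
  have h := relChk_spec (k := 11) (by norm_num) relS_chk
  have h2 := card_ker_dvd levS hM perfect_stab certS certS_ok rfl rfl rfl (E := 324) (r := 7) (t := 7) (u := 185) (v := 185)
    rfl normS (by decide) (by norm_num) (by norm_num) (fun j hj => (h j hj).1)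
    (fun j hj => evW_one_of (h j hj).1 (h j hj).2) σ hσ hE
  exact h2

/-- The Schur multiplier of `Suz`, from that of `G₂(4)`. -/
theorem hM_Suz (hG : HypG24) : HasCyclicSchurMultiplier Cfsg.Spor.Suz 6 := by
  haveI : NeZero (6 : ℕ) := ⟨by norm_num⟩
  refine Cfsg.Agent.Lib.SchurCover46.hasCyclicSchurMultiplier_of Cfsg.Agent.Lib.SuzCov12.exists_cover ?_
  intro Γ _ _ σ hσ
  have hd := card_ker hG σ hσ
  let _ : CommGroup σ.ker := { (inferInstance : Group σ.ker) with
    mul_comm := fun a b => Subtype.ext (Subgroup.mem_center_iff.mp (hσ.2.1 b.2) a.1) }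
  have hsq : Squarefree (Nat.card σ.ker) := by
    have h6 : Squarefree (6 : ℕ) := by
      have h : Nat.Coprime 2 3 := by norm_num
      exact (Nat.squarefree_mul h).mpr ⟨Nat.prime_two.prime.squarefree, Nat.prime_three.prime.squarefree⟩
    exact h6.squarefree_of_dvd hd
  haveI : IsZGroup σ.ker := IsZGroup.of_squarefree hsq
  haveI : IsCyclic (Abelianization σ.ker) := inferInstance
  haveI hcy : IsCyclic σ.ker := isCyclic_of_surjective _ (Abelianization.equivOfComm (H := σ.ker)).symm.surjective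
  obtain ⟨u, hu⟩ := hcy.exists_generator
  refine ⟨u, ?_, hu⟩
  obtain ⟨m, hm⟩ := hd
  rw [hm, pow_mul, pow_card_eq_one', one_pow]

end

end Cfsg.Agent.Lib.SuzUp12
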