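import Mathlib
import Cfsg.Agent.Lib.JordanClasses
import Cfsg.Agent.Lib.ClassicalCore

/-!
# Sylow `r`-subgroups of `GL_n(q)` and `SL_n(q)` for large primes `r > n`

The arithmetic of `v_r(q^j - 1)` and the torus giving a homocyclic subgroup of full order.
-/

set_option autoImplicit false
set_option linter.unusedSectionVars false
set_option linter.unusedSimpArgs false
set_option linter.unusedVariables false

namespace Cfsg.Agent.Lib.SylowGL

open Module Polynomial Cfsg.Agent.Lib.JordanClasses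
open scoped Matrix MatrixGroups

section Arithmetic

variable {r : ℕ} [hr : Fact r.Prime] {q : ℕ}

theorem one_le_pow' (hq : 2 ≤ q) (j : ℕ) : 1 ≤ q ^ j := Nat.one_le_pow _ _ (by omega)

theorem dvd_pow_sub_one_iff (hq : 2 ≤ q) (j : ℕ) :
    r ∣ q ^ j - 1 ↔ orderOf (q : ZMod r) ∣ j := by
  rw [orderOf_dvd_iff_pow_eq_one, ← ZMod.natCast_eq_zero_iff, Nat.cast_sub (one_le_pow' hq j)]
  push_cast
  rw [sub_eq_zero]

theorem order_pos (hrq : ¬ r ∣ q) : 0 < orderOf (q : ZMod r) := by
  have h0 : (q : ZMod r) ≠ 0 := by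
    rwa [Ne, ZMod.natCast_eq_zero_iff]
  refine orderOf_pos_iff.2 (isOfFinOrder_iff_pow_eq_one.2 ⟨r - 1, ?_, ZMod.pow_card_sub_one_eq_one h0⟩)
  have := hr.out.two_le
  omega

theorem pow_order_sub_one_ne (hq : 2 ≤ q) {j : ℕ} (hj : j ≠ 0) : q ^ j - 1 ≠ 0 := by
  have : 2 ^ j ≤ q ^ j := Nat.pow_le_pow_left hq j
  have : 2 ^ 1 ≤ 2 ^ j := Nat.pow_le_pow_right (by norm_num) (by omega)
  omega

theorem padicVal_pow_order (hq : 2 ≤ q) (hrq : ¬ r ∣ q) :
    padicValNat r (q ^ orderOf (q : ZMod r) - 1) =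
      padicValNat r ((cyclotomic (orderOf (q : ZMod r)) ℤ).eval (q : ℤ)).natAbs := by
  have hd : 0 < orderOf (q : ZMod r) := order_pos hrq
  set d := orderOf (q : ZMod r) with hddef
  set A : ℤ := ∏ e ∈ d.properDivisors, (cyclotomic e ℤ).eval (q : ℤ) with hA
  have h1 : ((q : ℤ) ^ d - 1) = (cyclotomic d ℤ).eval (q : ℤ) * A := by
    have := congrArg (Polynomial.eval (q : ℤ)) (prod_cyclotomic_eq_X_pow_sub_one hd ℤ)
    rw [← Nat.insert_self_properDivisors hd.ne', Finset.prod_insert Nat.self_notMem_properDivisors,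
      eval_mul, eval_prod] at this
    simpa using this.symm
  have h2 : q ^ d - 1 = ((cyclotomic d ℤ).eval (q : ℤ)).natAbs * A.natAbs := by
    rw [← Int.natAbs_mul, ← h1]
    have : ((q : ℤ) ^ d - 1) = ((q ^ d - 1 : ℕ) : ℤ) := by
      rw [Nat.cast_sub (one_le_pow' hq d)]; push_cast; ring
    rw [this, Int.natAbs_natCast]
  have hne := pow_order_sub_one_ne hq hd.ne'
  have h3 : ¬ r ∣ A.natAbs := by
    intro hdvd
    have h4 : (r : ℤ) ∣ A := Int.natCast_dvd.2 hdvd
    obtain ⟨e, he, h5⟩ := (Nat.prime_iff_prime_int.1 hr.out).exists_mem_finset_dvd h4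
    obtain ⟨h6, h7⟩ := Nat.mem_properDivisors.1 he
    have h8 : 0 < e := Nat.pos_of_dvd_of_pos h6 hd
    have h9 : (cyclotomic e ℤ).eval (q : ℤ) ∣ (X ^ e - 1 : ℤ[X]).eval (q : ℤ) :=
      eval_dvd (cyclotomic.dvd_X_pow_sub_one e ℤ)
    have h10 : (r : ℤ) ∣ ((q ^ e - 1 : ℕ) : ℤ) := by
      rw [Nat.cast_sub (one_le_pow' hq e)]
      have := h5.trans h9
      simpa using this
    have h11 : r ∣ q ^ e - 1 := Int.natCast_dvd_natCast.1 h10
    have h12 := (dvd_pow_sub_one_iff hq e).1 h11
    exact absurd (Nat.le_of_dvd h8 h12) (by omega)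
  rw [h2] at hne ⊢
  have ha : ((cyclotomic d ℤ).eval (q : ℤ)).natAbs ≠ 0 := left_ne_zero_of_mul hne
  have hb : A.natAbs ≠ 0 := right_ne_zero_of_mul hne
  rw [padicValNat.mul ha hb, padicValNat.eq_zero_of_not_dvd h3, add_zero]

theorem padicVal_pow_mul (hq : 2 ≤ q) (hrq : ¬ r ∣ q) {t : ℕ} (ht : t ≠ 0) (htr : t < r) :
    padicValNat r (q ^ (orderOf (q : ZMod r) * t) - 1) =
      padicValNat r (q ^ orderOf (q : ZMod r) - 1) := by
  have hd := order_pos (r := r) hrq
  set d := orderOf (q : ZMod r) with hddef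
  by_cases ht1 : t = 1
  · simp [ht1]
  have hr2 : r ≠ 2 := by omega
  have hodd : Odd r := hr.out.odd_of_ne_two hr2
  have hx1 : 1 < q ^ d := by
    have : 2 ^ d ≤ q ^ d := Nat.pow_le_pow_left hq d
    have : 2 ^ 1 ≤ 2 ^ d := Nat.pow_le_pow_right (by norm_num) (by omega)
    omega
  have hxy : r ∣ q ^ d - 1 := (dvd_pow_sub_one_iff hq d).2 dvd_rfl
  have hx : ¬ r ∣ q ^ d := fun h => hrq (hr.out.dvd_of_dvd_pow h)
  have := padicValNat.pow_sub_pow hodd hx1 hxy hx ht
  rw [one_pow, ← pow_mul] at this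
  rw [this, padicValNat.eq_zero_of_not_dvd (Nat.not_dvd_of_pos_of_lt (by omega) htr), add_zero]

theorem padicVal_term (hq : 2 ≤ q) (hrq : ¬ r ∣ q) {j : ℕ} (hj : j ≠ 0) (hjr : j < r) :
    padicValNat r (q ^ j - 1) =
      if orderOf (q : ZMod r) ∣ j then
        padicValNat r ((cyclotomic (orderOf (q : ZMod r)) ℤ).eval (q : ℤ)).natAbs else 0 := by
  split_ifs with h
  · obtain ⟨t, rfl⟩ := h
    have ht : t ≠ 0 := by rintro rfl; simp at hj
    have hle : t ≤ orderOf (q : ZMod r) * t := Nat.le_mul_of_pos_left _ (order_pos hrq)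
    rw [padicVal_pow_mul hq hrq ht (by omega), padicVal_pow_order hq hrq]
  · exact padicValNat.eq_zero_of_not_dvd fun h' => h ((dvd_pow_sub_one_iff hq j).1 h')

theorem sum_padicVal (hq : 2 ≤ q) (hrq : ¬ r ∣ q) {n : ℕ} (hrn : n < r) :
    ∑ j ∈ Finset.range n, padicValNat r (q ^ (j + 1) - 1) =
      (n / orderOf (q : ZMod r)) *
        padicValNat r ((cyclotomic (orderOf (q : ZMod r)) ℤ).eval (q : ℤ)).natAbs := by
  have h1 : ∀ j ∈ Finset.range n, padicValNat r (q ^ (j + 1) - 1) =
      if orderOf (q : ZMod r) ∣ j + 1 then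
        padicValNat r ((cyclotomic (orderOf (q : ZMod r)) ℤ).eval (q : ℤ)).natAbs else 0 := by
    intro j hj
    have := Finset.mem_range.1 hj
    exact padicVal_term hq hrq (by omega) (by omega)
  rw [Finset.sum_congr rfl h1, Finset.sum_ite, Finset.sum_const_zero, add_zero, Finset.sum_const,
    Nat.card_multiples, smul_eq_mul]

theorem factorization_prod_sub (hq : 2 ≤ q) (hrq : ¬ r ∣ q) {n : ℕ} (hrn : n < r) :
    (∏ i : Fin n, (q ^ n - q ^ (i : ℕ))).factorization r =
      (n / orderOf (q : ZMod r)) *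
        padicValNat r ((cyclotomic (orderOf (q : ZMod r)) ℤ).eval (q : ℤ)).natAbs := by
  have hne : ∀ i ∈ (Finset.univ : Finset (Fin n)), q ^ n - q ^ (i : ℕ) ≠ 0 := by
    intro i _
    have : q ^ (i : ℕ) < q ^ n := Nat.pow_lt_pow_right (by omega) i.2
    omega
  rw [Nat.factorization_prod hne, Finsupp.finset_sum_apply, ← sum_padicVal hq hrq hrn,
    ← Finset.sum_range_reflect, Fin.sum_univ_eq_sum_range
      (fun i => (q ^ n - q ^ i).factorization r) n]
  refine Finset.sum_congr rfl fun j hj => ?_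
  have hj' := Finset.mem_range.1 hj
  have hfac : q ^ n - q ^ j = q ^ j * (q ^ (n - j) - 1) := by
    rw [Nat.mul_sub, mul_one, ← pow_add]
    congr 2
    omega
  have he : n - 1 - j + 1 = n - j := by omega
  rw [he, hfac, Nat.factorization_mul (pow_ne_zero _ (by omega))
    (pow_order_sub_one_ne hq (by omega))]
  simp only [Finsupp.add_apply]
  rw [Nat.factorization_pow]
  simp only [Finsupp.smul_apply, smul_eq_mul]
  rw [Nat.factorization_eq_zero_of_not_dvd hrq, mul_zero, zero_add, Nat.factorization_def _ hr.out]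

end Arithmetic

section Counting

variable {F : Type*} [Field F] [Fintype F] {q : ℕ} {r : ℕ} [hr : Fact r.Prime]

theorem factorization_card_GL (hq : Fintype.card F = q) {n : ℕ} (hrn : n < r) (hrq : ¬ r ∣ q) :
    (Nat.card (GL (Fin n) F)).factorization r =
      (n / orderOf (q : ZMod r)) *
        padicValNat r ((cyclotomic (orderOf (q : ZMod r)) ℤ).eval (q : ℤ)).natAbs := by
  have hq2 : 2 ≤ q := hq ▸ Fintype.one_lt_card
  rw [Matrix.card_GL_field, hq]
  exact factorization_prod_sub hq2 hrq hrn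

end Counting

/-- An injective homomorphism from a group of the right order gives the Sylow subgroups. -/
theorem sylow_equiv_of_injective {G A : Type*} [Group G] [Finite G] [Group A] (p : ℕ)
    [Fact p.Prime] (f : A →* G) (hf : Function.Injective f)
    (hA : Nat.card A = p ^ (Nat.card G).factorization p) (P : Sylow p G) :
    Nonempty (P ≃* A) := by
  let T : Subgroup G := f.range
  let e : A ≃* T := MonoidHom.ofInjective hf
  have hT : Nat.card T = p ^ (Nat.card G).factorization p :=
    (Nat.card_congr e.toEquiv).symm.trans hA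
  have hp : IsPGroup p T := IsPGroup.of_card hT
  obtain ⟨Q, hQ⟩ := hp.exists_le_sylow
  have h : T = Q := Subgroup.eq_of_le_of_card_ge hQ (by rw [hT, Q.card_eq_multiplicity])
  exact ⟨(P.equiv Q).trans ((MulEquiv.subgroupCongr h.symm).trans e.symm)⟩

theorem card_homocyclic (a m : ℕ) [NeZero m] :
    Nat.card (Fin a → Multiplicative (ZMod m)) = m ^ a := by
  rw [Nat.card_fun]
  simp [Nat.card_eq_fintype_card, ZMod.card]

theorem exists_inj_root (K : Type*) [Field K] [Finite K] {m : ℕ} (hm : m ≠ 0)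
    (hdvd : m ∣ Nat.card K - 1) :
    ∃ ι : Multiplicative (ZMod m) →* Kˣ, Function.Injective ι := by
  haveI : NeZero m := ⟨hm⟩
  obtain ⟨g, hg⟩ := IsCyclic.exists_generator (α := Kˣ)
  have hcard : Nat.card Kˣ = Nat.card K - 1 := by
    classical
    haveI := Fintype.ofFinite K
    rw [Nat.card_eq_fintype_card, Fintype.card_units, Nat.card_eq_fintype_card]
  have hord : orderOf g = Nat.card K - 1 := by
    rw [orderOf_eq_card_of_forall_mem_zpowers hg, hcard]
  have hpos : 0 < Nat.card K - 1 := by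
    rw [← hcard]; exact Nat.card_pos
  obtain ⟨c, hc⟩ := hdvd
  have hcpos : c ≠ 0 := by rintro rfl; simp at hc; omega
  set ζ := g ^ c with hζ
  have hζord : orderOf ζ = m := by
    rw [hζ, orderOf_pow_of_dvd hcpos ⟨m, by rw [hord, hc, mul_comm]⟩, hord, hc]
    exact Nat.mul_div_cancel _ (Nat.pos_of_ne_zero hcpos)
  have hc2 : Nat.card (Multiplicative (ZMod m)) = Nat.card (Subgroup.zpowers ζ) := by
    rw [Nat.card_zpowers, hζord, Nat.card_congr Multiplicative.toAdd, Nat.card_zmod]
  let e := mulEquivOfCyclicCardEq hc2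
  refine ⟨(Subgroup.zpowers ζ).subtype.comp e.toMonoidHom, ?_⟩
  intro x y hxy
  apply e.injective
  exact Subtype.ext hxy

section Torus

variable {F : Type*} [Field F] {K : Type*} [Field K] [Algebra F K]

/-- Multiplication on `K^a ⊕ F^b` by a tuple of units. -/
def mulOn {a b : ℕ} (u : Fin a → Kˣ) :
    ((Fin a → K) × (Fin b → F)) ≃ₗ[F] ((Fin a → K) × (Fin b → F)) where
  toFun v := (fun i => (u i : K) * v.1 i, v.2)
  invFun v := (fun i => (((u i)⁻¹ : Kˣ) : K) * v.1 i, v.2)
  map_add' x y := by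
    ext i <;> simp [mul_add]
  map_smul' c x := by
    ext i <;> simp [mul_smul_comm]
  left_inv x := by
    ext i <;> simp
  right_inv x := by
    ext i <;> simp

/-- `mulOn` as a homomorphism. -/
def mulOnHom (a b : ℕ) :
    (Fin a → Kˣ) →* (((Fin a → K) × (Fin b → F)) ≃ₗ[F] ((Fin a → K) × (Fin b → F))) where
  toFun := mulOn
  map_one' := by
    ext v i <;> simp [mulOn]
  map_mul' u v := by
    ext x i <;> simp [mulOn, mul_assoc]

theorem mulOnHom_injective (a b : ℕ) :
    Function.Injective (mulOnHom (F := F) (K := K) a b) := by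
  intro u v h
  funext i
  have := congrArg (fun f => (f (Pi.single i (1 : K), 0)).1 i) h
  ext
  simpa [mulOnHom, mulOn] using this

/-- Transport along a linear equivalence. -/
def conjH {V W : Type*} [AddCommGroup V] [Module F V] [AddCommGroup W] [Module F W]
    (θ : W ≃ₗ[F] V) : (W ≃ₗ[F] W) →* (V ≃ₗ[F] V) where
  toFun f := θ.symm.trans (f.trans θ)
  map_one' := by ext; simp
  map_mul' f g := by ext; simp

theorem conjH_injective {V W : Type*} [AddCommGroup V] [Module F V] [AddCommGroup W] [Module F W]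
    (θ : W ≃ₗ[F] V) : Function.Injective (conjH θ) := by
  intro f g h
  ext x
  have := congrArg (fun k => k (θ x)) h
  simpa [conjH] using this

end Torus

theorem exists_torus {F : Type*} [Field F] [Fintype F] (n d : ℕ) (hd : 0 < d) (m : ℕ) (hm : m ≠ 0)
    (hdvd : m ∣ Fintype.card F ^ d - 1) :
    ∃ f : (Fin (n / d) → Multiplicative (ZMod m)) →* GL (Fin n) F, Function.Injective f := by
  obtain ⟨p, hp⟩ := CharP.exists F
  haveI hpp : Fact p.Prime := ⟨CharP.char_is_prime F p⟩
  haveI : NeZero d := ⟨hd.ne'⟩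
  let K := FiniteField.Extension F p d
  have hK : Nat.card K - 1 = Fintype.card F ^ d - 1 := by
    rw [FiniteField.natCard_extension, Nat.card_eq_fintype_card]
  obtain ⟨ι, hι⟩ := exists_inj_root K hm (hK ▸ hdvd)
  let a := n / d
  let b := n - a * d
  have hfin : finrank F ((Fin a → K) × (Fin b → F)) = finrank F (Fin n → F) := by
    have hfK : finrank F K = d := FiniteField.finrank_extension F p d
    rw [finrank_prod, finrank_pi_fintype]
    simp only [hfK, Finset.sum_const, Finset.card_univ, Fintype.card_fin,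
      smul_eq_mul, finrank_fintype_fun_eq_card]
    have : a * d ≤ n := Nat.div_mul_le_self n d
    omega
  let θ : ((Fin a → K) × (Fin b → F)) ≃ₗ[F] (Fin n → F) := LinearEquiv.ofFinrankEq _ _ hfin
  let f1 : (Fin a → Multiplicative (ZMod m)) →* (Fin a → Kˣ) :=
    { toFun := fun u i => ι (u i)
      map_one' := by ext i; simp
      map_mul' := by intro u v; ext i; simp }
  have hf1 : Function.Injective f1 := by
    intro u v h
    funext i
    exact hι (congrFun h i)
  refine ⟨Gm.symm.toMonoidHom.comp ((conjH θ).comp ((mulOnHom (F := F) a b).comp f1)), ?_⟩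
  exact Gm.symm.injective.comp ((conjH_injective θ).comp ((mulOnHom_injective a b).comp hf1))

section SL

variable {F : Type*} [Field F] [Fintype F] {q : ℕ} {r : ℕ} [hr : Fact r.Prime]

theorem pow_homocyclic (a m : ℕ) [NeZero m] (u : Fin a → Multiplicative (ZMod m)) : u ^ m = 1 := by
  funext i
  have : (u i) ^ Nat.card (Multiplicative (ZMod m)) = 1 := pow_card_eq_one'
  rw [Nat.card_congr Multiplicative.toAdd, Nat.card_zmod] at this
  simpa using this

/-- Lift a homomorphism with values of determinant one. -/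
def toSLHom {A : Type*} [Group A] {n : ℕ} (f : A →* GL (Fin n) F)
    (h : ∀ u, Matrix.det (f u : Matrix (Fin n) (Fin n) F) = 1) : A →* Matrix.SpecialLinearGroup (Fin n) F where
  toFun u := ⟨(f u : Matrix (Fin n) (Fin n) F), h u⟩
  map_one' := by ext; simp
  map_mul' u v := by
    apply Subtype.ext
    change ((f (u * v) : GL (Fin n) F) : Matrix (Fin n) (Fin n) F) =
      (f u : Matrix (Fin n) (Fin n) F) * (f v : Matrix (Fin n) (Fin n) F)
    rw [map_mul]; rfl

theorem toSLHom_injective {A : Type*} [Group A] {n : ℕ} (f : A →* GL (Fin n) F)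
    (h : ∀ u, Matrix.det (f u : Matrix (Fin n) (Fin n) F) = 1) (hf : Function.Injective f) :
    Function.Injective (toSLHom f h) := by
  intro u v huv
  apply hf
  apply Units.ext
  exact congrArg (fun g : Matrix.SpecialLinearGroup (Fin n) F => (g : Matrix (Fin n) (Fin n) F)) huv

theorem factorization_card_SL (hq : Fintype.card F = q) {n : ℕ} (hn : n ≠ 0) :
    (Nat.card (Matrix.SpecialLinearGroup (Fin n) F)).factorization r + (q - 1).factorization r =
      (Nat.card (GL (Fin n) F)).factorization r := by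
  haveI : Nonempty (Fin n) := Fin.pos_iff_nonempty.1 (Nat.pos_of_ne_zero hn)
  have hq2 : 2 ≤ q := hq ▸ Fintype.one_lt_card
  rw [Cfsg.Agent.Lib.ClassicalCore.card_GL_eq_mul_card_SL, hq,
    Nat.factorization_mul (by omega) Nat.card_pos.ne']
  simp only [Finsupp.add_apply]
  omega

theorem card_filter_Icc_of_two_le {d : ℕ} (hd : 2 ≤ d) (n : ℕ) :
    ((Finset.Icc 2 n).filter (fun i => d ∣ i)).card = n / d := by
  rw [← Nat.Ioc_filter_dvd_card_eq_div]
  congr 1
  ext x
  simp only [Finset.mem_filter, Finset.mem_Icc, Finset.mem_Ioc]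
  constructor
  · rintro ⟨⟨h1, h2⟩, h3⟩
    exact ⟨⟨by omega, h2⟩, h3⟩
  · rintro ⟨⟨h1, h2⟩, h3⟩
    refine ⟨⟨?_, h2⟩, h3⟩
    have := Nat.le_of_dvd h1 h3
    omega

theorem card_filter_Icc_one (n : ℕ) :
    ((Finset.Icc 2 n).filter (fun i => 1 ∣ i)).card = n - 1 := by
  simp only [one_dvd, Finset.filter_true, Nat.card_Icc]
  omega

/-- The diagonal torus of `SL_{k+1}`. -/
theorem exists_diag (k m : ℕ) (hm : m ≠ 0) (hdvd : m ∣ Fintype.card F - 1) :
    ∃ f : (Fin k → Multiplicative (ZMod m)) →* Matrix.SpecialLinearGroup (Fin (k + 1)) F, Function.Injective f := by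
  obtain ⟨ι, hι⟩ := exists_inj_root F hm (by rwa [Nat.card_eq_fintype_card])
  classical
  let D : (Fin k → Multiplicative (ZMod m)) → Fin (k + 1) → F := fun u =>
    Fin.cons (∏ i, (ι (u i) : F))⁻¹ (fun i => (ι (u i) : F))
  have hD : ∀ u v, D (u * v) = fun j => D u j * D v j := by
    intro u v
    funext j
    refine Fin.cases ?_ (fun i => ?_) j
    · simp [D, Finset.prod_mul_distrib, mul_comm]
    · simp [D]
  have hD1 : D 1 = fun _ => 1 := by
    funext j
    refine Fin.cases ?_ (fun i => ?_) j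
    · simp [D]
    · simp [D]
  have hdet : ∀ u, Matrix.det (Matrix.diagonal (D u)) = 1 := by
    intro u
    rw [Matrix.det_diagonal, Fin.prod_univ_succ]
    simp only [D, Fin.cons_zero, Fin.cons_succ]
    apply inv_mul_cancel₀
    exact Finset.prod_ne_zero_iff.2 fun i _ => Units.ne_zero _
  refine ⟨{ toFun := fun u => ⟨Matrix.diagonal (D u), hdet u⟩
            map_one' := ?_
            map_mul' := ?_ }, ?_⟩
  · ext i j
    simp only [hD1]
    simp [Matrix.diagonal_apply, Matrix.one_apply]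
  · intro u v
    apply Subtype.ext
    change Matrix.diagonal (D (u * v)) = Matrix.diagonal (D u) * Matrix.diagonal (D v)
    rw [Matrix.diagonal_mul_diagonal, hD]
  · intro u v huv
    funext i
    apply hι
    apply Units.ext
    have h1 : (Matrix.diagonal (D u)) i.succ i.succ = (Matrix.diagonal (D v)) i.succ i.succ :=
      congrArg (fun g : Matrix.SpecialLinearGroup (Fin (k + 1)) F =>
        (g : Matrix (Fin (k + 1)) (Fin (k + 1)) F) i.succ i.succ) huv
    simpa [D, Matrix.diagonal_apply_eq] using h1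

end SL

end Cfsg.Agent.Lib.SylowGL
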