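import Mathlib
import Cfsg.Agent.Lib.MinNorm

/-!
A finite solvable group is the product, in any order, of any choice of Sylow subgroups.
-/

set_option autoImplicit false

namespace Cfsg.Agent.Lib.SylowProd

open Subgroup
open scoped Pointwise

universe u

variable {G : Type u} [Group G]

theorem mul_normal_comm (M : Subgroup G) [hM : M.Normal] (Y : Set G) :
    Y * (M : Set G) = (M : Set G) * Y := by
  ext x
  constructor
  · rintro ⟨y, hy, m, hm, rfl⟩
    refine ⟨y * m * y⁻¹, hM.conj_mem m hm y, y, hy, ?_⟩
    group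
  · rintro ⟨m, hm, y, hy, rfl⟩
    refine ⟨y, hy, y⁻¹ * m * y, ?_, ?_⟩
    · have := hM.conj_mem m hm y⁻¹
      simpa using this
    · group

theorem list_prod_mul_normal (M : Subgroup G) [hM : M.Normal] (l : List (Set G)) (X : Set G)
    (hX : X ∈ l) (hXM : X * (M : Set G) = X) : l.prod * (M : Set G) = l.prod := by
  induction l with
  | nil => simp at hX
  | cons Y l ih =>
    rw [List.prod_cons]
    rcases List.mem_cons.1 hX with rfl | h
    · rw [mul_assoc, mul_normal_comm M l.prod, ← mul_assoc, hXM]
    · rw [mul_assoc, ih h]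

theorem image_list_prod {G' : Type*} [Group G'] (f : G →* G') (l : List (Set G)) :
    f '' l.prod = (l.map (fun X => f '' X)).prod := by
  induction l with
  | nil => simp [Set.image_one, Set.singleton_one]
  | cons Y l ih => rw [List.prod_cons, Set.image_mul, ih, List.map_cons, List.prod_cons]

theorem prod_sylow_eq_univ [Finite G] [Group.IsSolvable G] (t : ℕ) (p : Fin t → ℕ)
    (hp : ∀ i, (p i).Prime) (hall : ∀ q : ℕ, q.Prime → q ∣ Nat.card G → ∃ i, p i = q)
    (S : (i : Fin t) → Sylow (p i) G) :
    (List.ofFn fun i => ((S i : Subgroup G) : Set G)).prod = Set.univ := by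
  have hF : ∀ i, Fact (p i).Prime := fun i => ⟨hp i⟩
  induction hc : Nat.card G using Nat.strong_induction_on generalizing G with
  | _ m ih =>
    by_cases hnt : Nontrivial G
    · obtain ⟨r, M, hr, hMn, hMb, -, -, hMe⟩ :=
        Cfsg.Agent.Lib.MinNorm.exists_abelian_exponent_normal_le (⊤ : Subgroup G) inferInstance
          (by simp)
      have hfr : Fact r.Prime := ⟨hr⟩
      have hMp : IsPGroup r M := Cfsg.Agent.Lib.MinNorm.isPGroup_of_exponent hMe
      obtain ⟨k, hk⟩ := IsPGroup.iff_card.1 hMp
      have hk0 : k ≠ 0 := by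
        rintro rfl
        rw [pow_zero] at hk
        exact hMb (Subgroup.card_eq_one.1 hk)
      have hrG : r ∣ Nat.card G :=
        (hk ▸ dvd_pow_self r hk0 : r ∣ Nat.card M).trans (Subgroup.card_subgroup_dvd_card M)
      obtain ⟨i₀, hi₀⟩ := hall r hr hrG
      have hMS : M ≤ (S i₀ : Subgroup G) := by
        have hMp' : IsPGroup (p i₀) M := by rw [hi₀]; exact hMp
        exact hMp'.le_sylow_of_normal (S i₀)
      have hXM : ((S i₀ : Subgroup G) : Set G) * (M : Set G) = ((S i₀ : Subgroup G) : Set G) := by
        apply le_antisymm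
        · rintro _ ⟨a, ha, b, hb, rfl⟩
          exact (S i₀ : Subgroup G).mul_mem ha (hMS hb)
        · intro x hx
          exact ⟨x, hx, 1, M.one_mem, mul_one x⟩
      set X := (List.ofFn fun i => ((S i : Subgroup G) : Set G)).prod with hX
      have hmul : X * (M : Set G) = X :=
        list_prod_mul_normal M _ _ (List.mem_ofFn.2 ⟨i₀, rfl⟩) hXM
      set q := QuotientGroup.mk' M with hq
      have hqs : Function.Surjective q := QuotientGroup.mk'_surjective M
      have hlt : Nat.card (G ⧸ M) < m := by
        rw [← hc]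
        have h1 := Subgroup.card_eq_card_quotient_mul_card_subgroup M
        have h2 : 1 < Nat.card M := (Subgroup.one_lt_card_iff_ne_bot M).2 hMb
        have h3 : 0 < Nat.card (G ⧸ M) := Nat.card_pos
        nlinarith
      have hdvd : ∀ q' : ℕ, q' ∣ Nat.card (G ⧸ M) → q' ∣ Nat.card G := fun q' h =>
        h.trans ⟨Nat.card M, Subgroup.card_eq_card_quotient_mul_card_subgroup M⟩
      have h1 := ih _ hlt (fun q' hq' hd => hall q' hq' (hdvd q' hd))
        (fun i => (S i).mapSurjective hqs) rfl
      have h2 : q '' X = Set.univ := by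
        rw [← h1, hX]
        rw [image_list_prod, List.map_ofFn]
        congr 1
      apply Set.eq_univ_of_forall
      intro g
      have h3 : q g ∈ q '' X := by rw [h2]; exact Set.mem_univ _
      obtain ⟨h, hh, hhg⟩ := h3
      have h4 : h⁻¹ * g ∈ M := by
        rw [← QuotientGroup.ker_mk' M, MonoidHom.mem_ker]
        change q (h⁻¹ * g) = 1
        rw [map_mul, map_inv, hhg, inv_mul_cancel]
      rw [← hmul]
      exact ⟨h, hh, _, h4, by group⟩
    · rw [not_nontrivial_iff_subsingleton] at hnt
      apply Set.eq_univ_of_forall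
      intro g
      rw [Subsingleton.elim g 1]
      apply Set.mem_prod_list_ofFn.2
      refine ⟨fun i => ⟨1, Subgroup.one_mem _⟩, ?_⟩
      exact Subsingleton.elim _ _

/-- Every element of a finite solvable group is an ordered product of elements of any Sylow
system. -/
theorem exists_prod_sylow [Finite G] [Group.IsSolvable G] (t : ℕ) (p : Fin t → ℕ)
    (hp : ∀ i, (p i).Prime) (hall : ∀ q : ℕ, q.Prime → q ∣ Nat.card G → ∃ i, p i = q)
    (S : (i : Fin t) → Sylow (p i) G) (g : G) :
    ∃ s : (i : Fin t) → G, (∀ i, s i ∈ (S i : Subgroup G)) ∧ g = (List.ofFn s).prod := by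
  have h1 : g ∈ (List.ofFn fun i => ((S i : Subgroup G) : Set G)).prod := by
    rw [prod_sylow_eq_univ t p hp hall S]
    exact Set.mem_univ g
  obtain ⟨f, hf⟩ := Set.mem_prod_list_ofFn.1 h1
  exact ⟨fun i => (f i : G), fun i => (f i).2, hf.symm⟩

end Cfsg.Agent.Lib.SylowProd
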