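import Mathlib

set_option autoImplicit false

namespace Cfsg.Agent.Lib.Sym64

open Subgroup (center centralizer mem_center_iff mem_centralizer_singleton_iff index_ker)
open scoped commutatorElement

section GroupLemma

variable {G : Type*} [Group G]

theorem mul_four_eq_one {a : G} (h : a ^ 4 = 1) : a * a * a * a = 1 := by
  rw [pow_succ, pow_succ, pow_two] at h
  exact h

/-- Class two computation: if `y x = d (x y)` with `d` central and all fourth powers trivial,
then `d² = 1`. -/
theorem central_sq_one (h4 : ∀ a : G, a ^ 4 = 1) (x y d : G) (hd : ∀ g : G, d * g = g * d)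
    (hyx : y * x = d * (x * y)) : d ^ 2 = 1 := by
  have hd4 : d * d * d * d = 1 := mul_four_eq_one (h4 d)
  have h1 : (x * y) * (x * y) = d * (x * x * (y * y)) := by
    calc (x * y) * (x * y) = x * (y * x) * y := by group
      _ = x * (d * (x * y)) * y := by rw [hyx]
      _ = (x * d) * (x * y) * y := by group
      _ = (d * x) * (x * y) * y := by rw [hd x]
      _ = d * (x * x * (y * y)) := by group
  have h2 : (y * y) * (x * x) = x * x * (y * y) := by
    calc (y * y) * (x * x) = y * (y * x) * x := by group
      _ = y * (d * (x * y)) * x := by rw [hyx]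
      _ = (y * d) * (x * (y * x)) := by group
      _ = (d * y) * (x * (d * (x * y))) := by rw [hd y, hyx]
      _ = d * (y * (x * d) * (x * y)) := by group
      _ = d * (y * (d * x) * (x * y)) := by rw [hd x]
      _ = d * ((y * d) * (x * (x * y))) := by group
      _ = d * ((d * y) * (x * (x * y))) := by rw [hd y]
      _ = d * d * ((y * x) * (x * y)) := by group
      _ = d * d * ((d * (x * y)) * (x * y)) := by rw [hyx]
      _ = d * d * d * ((x * y) * (x * y)) := by group
      _ = d * d * d * (d * (x * x * (y * y))) := by rw [h1]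
      _ = (d * d * d * d) * (x * x * (y * y)) := by group
      _ = x * x * (y * y) := by rw [hd4, one_mul]
  have h3 : (x * x * (y * y)) * (x * x * (y * y)) = 1 := by
    have hx4 : x * x * (x * x) = 1 := by
      rw [← mul_four_eq_one (h4 x)]
      group
    have hy4 : y * y * (y * y) = 1 := by
      rw [← mul_four_eq_one (h4 y)]
      group
    calc (x * x * (y * y)) * (x * x * (y * y)) = (x * x) * ((y * y) * (x * x)) * (y * y) := by group
      _ = (x * x) * (x * x * (y * y)) * (y * y) := by rw [h2]
      _ = (x * x * (x * x)) * (y * y * (y * y)) := by group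
      _ = 1 := by rw [hx4, hy4, one_mul]
  have h5 : ((x * y) * (x * y)) * ((x * y) * (x * y)) = 1 := by
    rw [← mul_four_eq_one (h4 (x * y))]
    group
  rw [h1] at h5
  have h6 : d * (x * x * (y * y)) * (d * (x * x * (y * y))) = d * d * ((x * x * (y * y)) * (x * x * (y * y))) := by
    calc d * (x * x * (y * y)) * (d * (x * x * (y * y))) = d * ((x * x * (y * y)) * d) * (x * x * (y * y)) := by group
      _ = d * (d * (x * x * (y * y))) * (x * x * (y * y)) := by rw [← hd]
      _ = _ := by group
  rw [h6, h3, mul_one] at h5
  rw [pow_two]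
  exact h5

section Main

variable [Finite G]

/-- commutator with a second-centre element as a homomorphism into the centre -/
def commHom (x : G) (hx : x ∈ Subgroup.upperCentralSeries G 2) : G →* center G where
  toFun y := ⟨⁅x, y⁆, by
    have := (Subgroup.mem_upperCentralSeries_succ_iff (n := 1)).mp hx y
    rwa [Subgroup.upperCentralSeries_one] at this⟩
  map_one' := by
    apply Subtype.ext
    simp [commutatorElement_def]
  map_mul' a b := by
    apply Subtype.ext
    have hb := (Subgroup.mem_upperCentralSeries_succ_iff (n := 1)).mp hx b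
    rw [Subgroup.upperCentralSeries_one, mem_center_iff] at hb
    show ⁅x, a * b⁆ = ⁅x, a⁆ * ⁅x, b⁆
    have : ⁅x, a * b⁆ = ⁅x, a⁆ * (a * ⁅x, b⁆ * a⁻¹) := by
      simp only [commutatorElement_def]
      group
    rw [this, hb a, mul_inv_cancel_right]

theorem commHom_apply (x : G) (hx : x ∈ Subgroup.upperCentralSeries G 2) (y : G) :
    ((commHom x hx y : center G) : G) = ⁅x, y⁆ := rfl

theorem sq_commHom (h4 : ∀ a : G, a ^ 4 = 1) (x : G) (hx : x ∈ Subgroup.upperCentralSeries G 2) (y : G) :
    (commHom x hx y) ^ 2 = 1 := by
  apply Subtype.ext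
  have hc := (commHom x hx y).2
  rw [mem_center_iff] at hc
  have := central_sq_one h4 y x ⁅x, y⁆ (fun g => (hc g).symm) (by
    simp only [commutatorElement_def]
    group)
  simpa [commHom_apply] using this

/-- Index of the centraliser of an element of the second centre. -/
theorem index_centralizer_le (hZc : IsCyclic (center G)) (h4 : ∀ a : G, a ^ 4 = 1) (x : G) (hx : x ∈ Subgroup.upperCentralSeries G 2) :
    (centralizer ({x} : Set G)).index ≤ 2 := by
  have hk : centralizer ({x} : Set G) = (commHom x hx).ker := by
    ext y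
    rw [MonoidHom.mem_ker, mem_centralizer_singleton_iff]
    constructor
    · intro h
      apply Subtype.ext
      show ⁅x, y⁆ = 1
      rw [commutatorElement_eq_one_iff_mul_comm, h]
    · intro h
      have h2 : ⁅x, y⁆ = 1 := congrArg Subtype.val h
      rw [commutatorElement_eq_one_iff_mul_comm] at h2
      exact h2.symm
  rw [hk, index_ker]
  haveI : IsCyclic (commHom x hx).range := Subgroup.isCyclic _
  obtain ⟨g, hg⟩ := IsCyclic.exists_generator (α := (commHom x hx).range)
  have hc := orderOf_eq_card_of_forall_mem_zpowers hg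
  rw [← hc]
  apply Nat.le_of_dvd (by norm_num)
  apply orderOf_dvd_of_pow_eq_one
  obtain ⟨y, hy⟩ := g.2
  apply Subtype.ext
  show (g : center G) ^ 2 = 1
  rw [← hy]
  exact sq_commHom h4 x hx y

/-- For every element of the second centre, squares are central. -/
theorem sq_mem_center (h4 : ∀ a : G, a ^ 4 = 1) (x : G) (hx : x ∈ Subgroup.upperCentralSeries G 2) :
    x * x ∈ center G := by
  rw [mem_center_iff]
  intro y
  have hc := (commHom x hx y).2
  rw [mem_center_iff] at hc
  have h2 : ⁅x, y⁆ * ⁅x, y⁆ = 1 := by
    have := sq_commHom h4 x hx y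
    have := congrArg Subtype.val this
    simpa [pow_two, commHom_apply] using this
  have e : x * y = ⁅x, y⁆ * (y * x) := by
    simp only [commutatorElement_def]
    group
  have hc' : ∀ g, g * ⁅x, y⁆ = ⁅x, y⁆ * g := hc
  calc y * (x * x) = (y * x) * x := by group
    _ = (⁅x, y⁆ * ⁅x, y⁆) * (y * x) * x := by rw [h2, one_mul]
    _ = ⁅x, y⁆ * (⁅x, y⁆ * (y * x)) * x := by group
    _ = ⁅x, y⁆ * (x * y) * x := by rw [← e]
    _ = (⁅x, y⁆ * x) * (y * x) := by group
    _ = (x * ⁅x, y⁆) * (y * x) := by rw [hc']
    _ = x * (⁅x, y⁆ * (y * x)) := by group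
    _ = x * (x * y) := by rw [← e]
    _ = (x * x) * y := by group

/-- Centre and centraliser of the second centre. -/
theorem main_aux (hcard : Nat.card G = 64) (hZ : Nat.card (center G) = 4) (h4 : ∀ a : G, a ^ 4 = 1)
    (hchar : ∀ A : Subgroup G, A.Characteristic → IsMulCommutative A → IsCyclic A) :
    centralizer (Subgroup.upperCentralSeries G 2 : Set G) = center G := by
  haveI : Fact (Nat.Prime 2) := ⟨Nat.prime_two⟩
  set C₂ := Subgroup.upperCentralSeries G 2 with hC₂
  set K := centralizer (C₂ : Set G) with hK
  haveI hKchar : K.Characteristic := Subgroup.characteristic_centralizer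
  have hZK : center G ≤ K := by
    intro z hz
    rw [hK, Subgroup.mem_centralizer_iff]
    intro g _
    rw [mem_center_iff] at hz
    exact hz g
  have hZC₂ : center G ≤ C₂ := by
    intro z hz
    rw [hC₂]
    refine (Subgroup.mem_upperCentralSeries_succ_iff (n := 1)).mpr fun y => ?_
    rw [Subgroup.upperCentralSeries_one]
    rw [mem_center_iff] at hz
    have : ⁅z, y⁆ = 1 := by
      rw [commutatorElement_eq_one_iff_mul_comm, hz y]
    rw [this]
    exact Subgroup.one_mem _
  -- C₂ ⊓ K = Z
  have hA : C₂ ⊓ K ≤ center G := by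
    haveI : (C₂ ⊓ K).Characteristic := inferInstance
    have hcomm : IsMulCommutative (C₂ ⊓ K : Subgroup G) := by
      refine ⟨⟨fun a b => Subtype.ext ?_⟩⟩
      have h1 : (a : G) ∈ C₂ := a.2.1
      have h2 : (b : G) ∈ centralizer (C₂ : Set G) := b.2.2
      rw [Subgroup.mem_centralizer_iff] at h2
      exact h2 a h1
    have hcyc := hchar _ inferInstance hcomm
    obtain ⟨g, hg⟩ := IsCyclic.exists_generator (α := (C₂ ⊓ K : Subgroup G))
    have hc := orderOf_eq_card_of_forall_mem_zpowers hg
    have hd : Nat.card (C₂ ⊓ K : Subgroup G) ∣ 4 := by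
      rw [← hc]
      apply orderOf_dvd_of_pow_eq_one
      exact Subtype.ext (h4 _)
    have hle : center G ≤ C₂ ⊓ K := le_inf hZC₂ hZK
    have : center G = C₂ ⊓ K := by
      apply Subgroup.eq_of_le_of_card_ge hle
      rw [hZ]
      exact Nat.le_of_dvd (by norm_num) hd
    rw [this]
  have hp : IsPGroup 2 G := IsPGroup.of_card (n := 6) (by rw [hcard]; norm_num)
  haveI := hp.isNilpotent
  have hind : ∀ m, K ⊓ Subgroup.upperCentralSeries G m ≤ center G := by
    intro m
    induction m with
    | zero =>
      intro k hk
      have : k = 1 := by simpa using hk.2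
      rw [this]
      exact Subgroup.one_mem _
    | succ m ih =>
      rintro k ⟨hk1, hk2⟩
      apply hA
      refine ⟨?_, hk1⟩
      rw [hC₂]
      refine (Subgroup.mem_upperCentralSeries_succ_iff (n := 1)).mpr fun y => ?_
      rw [Subgroup.upperCentralSeries_one]
      apply ih
      refine ⟨?_, (Subgroup.mem_upperCentralSeries_succ_iff (n := m)).mp hk2 y⟩
      have hn : K.Normal := inferInstance
      have : ⁅k, y⁆ = k * (y * k⁻¹ * y⁻¹) := by
        simp only [commutatorElement_def]
        group
      rw [this]
      exact K.mul_mem hk1 (hn.conj_mem _ (K.inv_mem hk1) y)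
  obtain ⟨n, hn⟩ := Group.IsNilpotent.nilpotent G
  apply le_antisymm _ hZK
  intro k hk
  apply hind n
  refine ⟨hk, ?_⟩
  rw [hn]
  trivial

/-- Upward bound for the index of centralizers. -/
theorem index_bound (hZc : IsCyclic (center G)) (h4 : ∀ a : G, a ^ 4 = 1) (n : ℕ) :
    ∀ H : Subgroup G, center G ≤ H → H ≤ Subgroup.upperCentralSeries G 2 →
      4 * (centralizer (H : Set G)).index ≤ Nat.card H →
      Nat.card (Subgroup.upperCentralSeries G 2) - Nat.card H ≤ n →
      4 * (centralizer (Subgroup.upperCentralSeries G 2 : Set G)).index ≤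
        Nat.card (Subgroup.upperCentralSeries G 2) := by
  induction n with
  | zero =>
    intro H hZ hle hb hn
    have : H = Subgroup.upperCentralSeries G 2 := by
      apply Subgroup.eq_of_le_of_card_ge hle
      omega
    rw [← this]
    exact hb
  | succ n ih =>
    intro H hZ hle hb hn
    by_cases hH : H = Subgroup.upperCentralSeries G 2
    · rw [← hH]
      exact hb
    obtain ⟨x, hx, hxH⟩ : ∃ x ∈ Subgroup.upperCentralSeries G 2, x ∉ H := by
      by_contra hcon
      push_neg at hcon
      exact hH (le_antisymm hle hcon)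
    set H₁ := Subgroup.closure ((H : Set G) ∪ {x}) with hH₁
    have hHH₁ : H ≤ H₁ := by
      intro a ha
      exact Subgroup.subset_closure (Or.inl ha)
    have hxH₁ : x ∈ H₁ := Subgroup.subset_closure (Or.inr rfl)
    have hH₁le : H₁ ≤ Subgroup.upperCentralSeries G 2 := by
      rw [hH₁, Subgroup.closure_le]
      rintro a (ha | rfl)
      · exact hle ha
      · exact hx
    have hdvd : Nat.card H ∣ Nat.card H₁ := Subgroup.card_dvd_of_le hHH₁
    have hne : Nat.card H ≠ Nat.card H₁ := by
      intro he
      have := Subgroup.eq_of_le_of_card_ge hHH₁ (by rw [he])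
      rw [this] at hxH
      exact hxH hxH₁
    obtain ⟨t, ht⟩ := hdvd
    have hpos : 0 < Nat.card H := Nat.card_pos
    have ht2 : 2 ≤ t := by
      by_contra hlt
      have ht1 : t = 0 ∨ t = 1 := by omega
      rcases ht1 with rfl | rfl
      · have : 0 < Nat.card H₁ := Nat.card_pos
        omega
      · apply hne
        rw [ht, mul_one]
    have hbig : 2 * Nat.card H ≤ Nat.card H₁ := by
      rw [ht, mul_comm]
      exact Nat.mul_le_mul_left _ ht2
    have hcent : centralizer (H : Set G) ⊓ centralizer ({x} : Set G) ≤ centralizer (H₁ : Set G) := by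
      rintro y ⟨hy1, hy2⟩
      rw [Subgroup.mem_centralizer_iff]
      have hcl : H₁ ≤ centralizer ({y} : Set G) := by
        rw [hH₁, Subgroup.closure_le]
        rintro a (ha | rfl)
        · have hy1' : y ∈ centralizer (H : Set G) := hy1
          exact mem_centralizer_singleton_iff.mpr (Subgroup.mem_centralizer_iff.mp hy1' a ha)
        · have hy2' : y ∈ centralizer ({a} : Set G) := hy2
          rw [mem_centralizer_singleton_iff] at hy2'
          exact mem_centralizer_singleton_iff.mpr hy2'.symm
      intro g hg
      have := hcl hg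
      rw [mem_centralizer_singleton_iff] at this
      exact this
    have hidx : (centralizer (H₁ : Set G)).index ≤ (centralizer (H : Set G)).index * 2 := by
      have h1 : (centralizer (H₁ : Set G)).index ≤ (centralizer (H : Set G) ⊓ centralizer ({x} : Set G)).index :=
        Nat.le_of_dvd (Nat.pos_of_ne_zero Subgroup.FiniteIndex.index_ne_zero) (Subgroup.index_dvd_of_le hcent)
      have h2 := Subgroup.index_inf_le (H := centralizer (H : Set G)) (K := centralizer ({x} : Set G))
      have h3 := index_centralizer_le hZc h4 x hx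
      calc _ ≤ _ := h1
        _ ≤ _ := h2
        _ ≤ _ := Nat.mul_le_mul_left _ h3
    refine ih H₁ (hZ.trans hHH₁) hH₁le ?_ ?_
    · omega
    · omega

/-- P. Hall-type statement for order 64: the group has class two. -/
theorem class_two (hcard : Nat.card G = 64) (hZ : Nat.card (center G) = 4) (h4 : ∀ a : G, a ^ 4 = 1)
    (hchar : ∀ A : Subgroup G, A.Characteristic → IsMulCommutative A → IsCyclic A) :
    Subgroup.upperCentralSeries G 2 = ⊤ := by
  have hZc : IsCyclic (center G) := hchar _ inferInstance inferInstance
  have hmain := main_aux hcard hZ h4 hchar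
  have hb := index_bound hZc h4 _ (center G) ?_ ?_ ?_ le_rfl
  · rw [hmain] at hb
    have h1 := Subgroup.card_mul_index (center G)
    rw [hZ, hcard] at h1
    apply Subgroup.eq_top_of_card_eq
    have hle : Nat.card (Subgroup.upperCentralSeries G 2) ≤ Nat.card G := Subgroup.card_le_card_group _
    omega
  · exact le_rfl
  · intro z hz
    refine (Subgroup.mem_upperCentralSeries_succ_iff (n := 1)).mpr fun y => ?_
    rw [Subgroup.upperCentralSeries_one]
    rw [mem_center_iff] at hz
    have : ⁅z, y⁆ = 1 := by
      rw [commutatorElement_eq_one_iff_mul_comm, hz y]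
    rw [this]
    exact Subgroup.one_mem _
  · have : centralizer (center G : Set G) = ⊤ := by
      rw [eq_top_iff]
      intro g _
      rw [Subgroup.mem_centralizer_iff]
      intro z hz
      exact ((mem_center_iff.mp hz) g).symm
    rw [this, hZ]
    simp

/-- There is a non-central element centralising any two given elements. -/
theorem exists_centralizing (hcard : Nat.card G = 64) (hZ : Nat.card (center G) = 4) (h4 : ∀ a : G, a ^ 4 = 1)
    (hchar : ∀ A : Subgroup G, A.Characteristic → IsMulCommutative A → IsCyclic A) (x y : G) :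
    ∃ z : G, z * x = x * z ∧ z * y = y * z ∧ z ∉ center G := by
  have hZc : IsCyclic (center G) := hchar _ inferInstance inferInstance
  have htop := class_two hcard hZ h4 hchar
  have hx : x ∈ Subgroup.upperCentralSeries G 2 := by rw [htop]; trivial
  have hy : y ∈ Subgroup.upperCentralSeries G 2 := by rw [htop]; trivial
  have h1 := index_centralizer_le hZc h4 x hx
  have h2 := index_centralizer_le hZc h4 y hy
  have h3 := Subgroup.index_inf_le (H := centralizer ({x} : Set G)) (K := centralizer ({y} : Set G))
  set C := centralizer ({x} : Set G) ⊓ centralizer ({y} : Set G) with hC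
  have h5 := Subgroup.card_mul_index C
  rw [hcard] at h5
  have h6 : C.index ≤ 4 := by
    calc C.index ≤ _ := h3
      _ ≤ 2 * 2 := Nat.mul_le_mul h1 h2
  have h7 : ¬ C ≤ center G := by
    intro hle
    have h8 : Nat.card C ≤ 4 := by
      rw [← hZ]
      exact Subgroup.card_le_of_le hle
    have h9 : Nat.card C * C.index ≤ 4 * 4 := Nat.mul_le_mul h8 h6
    omega
  obtain ⟨z, hz, hzn⟩ := SetLike.not_le_iff_exists.mp h7
  exact ⟨z, mem_centralizer_singleton_iff.mp hz.1, mem_centralizer_singleton_iff.mp hz.2, hzn⟩

/-- Summary. -/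
theorem mem_second (hcard : Nat.card G = 64) (hZ : Nat.card (center G) = 4) (h4 : ∀ a : G, a ^ 4 = 1)
    (hchar : ∀ A : Subgroup G, A.Characteristic → IsMulCommutative A → IsCyclic A) (x : G) :
    x ∈ Subgroup.upperCentralSeries G 2 := by
  rw [class_two hcard hZ h4 hchar]
  trivial

end Main

end GroupLemma

end Cfsg.Agent.Lib.Sym64
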