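import Mathlib
import Cfsg.Prelude.Def_GeometricClasses
import Cfsg.Agent.Lib.Sym64A

set_option autoImplicit false
open scoped MatrixGroups commutatorElement

namespace Cfsg.Agent.Lib.Sym64

open Matrix Cfsg.Geo

variable {F : Type*} [Field F]

local notation "M4" => Matrix (Fin 4) (Fin 4) F
local notation "GL4" => GL (Fin 4) F

/-- The basic facts on `R`. -/
structure Base (R : Subgroup GL4) (i : F) (s : GL4) : Prop where
  card : Nat.card R = 64
  hi : i * i = -1
  h2 : (2 : F) ≠ 0
  hs : (s : M4) = i • 1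
  smem : s ∈ R
  pow4 : ∀ a ∈ R, a ^ 4 = 1
  sign : ∀ a ∈ R, ∀ b ∈ R, (a : M4) * b = b * a ∨ (a : M4) * b = -((b : M4) * a)
  sq : ∀ a ∈ R, (a : M4) * a = 1 ∨ (a : M4) * a = -1
  central : ∀ M : M4, (∀ a ∈ R, M * (a : M4) = a * M) → ∃ c : F, M = c • 1
  outer : ∀ a ∈ R, ∀ b ∈ R, ∃ z ∈ R, (z : M4) * a = a * z ∧ (z : M4) * b = b * z ∧ ∀ c : F, (z : M4) ≠ c • 1
  cardZ : Nat.card (Subgroup.center R) = 4

theorem exists_base [Fintype F] (hp2 : (2 : F) ≠ 0) (R : Subgroup GL4) (hR : IsLinearSymplecticTypeData 2 R)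
    (hR6 : Nat.card R = 2 ^ 6) : ∃ (i : F) (s : GL4), Base R i s := by
  have hcard : Nat.card R = 64 := by rw [hR6]; norm_num
  haveI : Finite R := Nat.finite_of_card_ne_zero (by rw [hcard]; norm_num)
  have hZ : Nat.card (Subgroup.center R) = 4 := by
    obtain ⟨p', e, -, -, h⟩ := hR.field
    rcases h with h | h | h
    · exact absurd h.1 (by decide)
    · exact h.2.2.1
    · have := h.2.2.1
      simp at this
  have h4 : ∀ a : R, a ^ 4 = 1 := by
    intro a
    have := Monoid.pow_exponent_eq_one a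
    rwa [hR.symplecticType.exponent_eq] at this
  have hchar := hR.symplecticType.cyclic_of_characteristic
  have hv : ∀ u v : R, (((u * v : R) : GL4) : M4) = ((u : GL4) : M4) * ((v : GL4) : M4) := fun u v => rfl
  have hone : (((1 : R) : GL4) : M4) = 1 := rfl
  have hinj : ∀ u v : R, ((u : GL4) : M4) = ((v : GL4) : M4) → u = v :=
    fun u v h => Subtype.ext (Units.ext h)
  have hscal : ∀ z ∈ Subgroup.center R, ∃ c : F, ((z : GL4) : M4) = c • 1 := by
    intro z hz
    apply hR.absIrred.2
    rintro _ ⟨g, hg, rfl⟩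
    have := (Subgroup.mem_center_iff.mp hz) ⟨g, hg⟩
    have h2 := congrArg (fun t : R => ((t : GL4) : M4)) this
    simpa using h2.symm
  have hsc_center : ∀ (z : R) (c : F), ((z : GL4) : M4) = c • 1 → z ∈ Subgroup.center R := by
    intro z c hc
    rw [Subgroup.mem_center_iff]
    intro g
    apply hinj
    rw [hv, hv, hc, Matrix.smul_mul, Matrix.mul_smul, one_mul, mul_one]
  have hZc : IsCyclic (Subgroup.center R) := hchar _ inferInstance inferInstance
  have hmem : ∀ x : R, x ∈ Subgroup.upperCentralSeries R 2 := mem_second hcard hZ h4 hchar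
  -- the generator of the centre
  obtain ⟨g, hg⟩ := IsCyclic.exists_generator (α := Subgroup.center R)
  have hgo : orderOf g = 4 := by
    rw [orderOf_eq_card_of_forall_mem_zpowers hg, hZ]
  obtain ⟨i, hi⟩ := hscal _ g.2
  have hg4 : g ^ 4 = 1 := by
    have := pow_orderOf_eq_one g
    rwa [hgo] at this
  have hg2 : g ^ 2 ≠ 1 := by
    intro h
    have := orderOf_dvd_of_pow_eq_one h
    rw [hgo] at this
    norm_num at this
  have hi2 : ((((g ^ 2 : Subgroup.center R) : R) : GL4) : M4) = (i * i) • 1 := by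
    rw [pow_two]
    show (((g : R) : GL4) : M4) * (((g : R) : GL4) : M4) = _
    rw [hi, Matrix.smul_mul, Matrix.mul_smul, one_mul, smul_smul]
  have hone_ne : (1 : F) ≠ 0 := one_ne_zero
  have hentry : ∀ c d : F, c • (1 : M4) = d • (1 : M4) → c = d := by
    intro c d h
    have := congrFun (congrFun h 0) 0
    simpa using this
  have hii : i * i = -1 := by
    have h1 : i * i ≠ 1 := by
      intro h
      apply hg2
      apply Subtype.ext
      apply hinj
      rw [hi2, h, one_smul]
      rfl
    have h2 : (i * i) * (i * i) = 1 := by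
      have e : ((((g ^ 4 : Subgroup.center R) : R) : GL4) : M4) = ((i * i) * (i * i)) • 1 := by
        rw [show g ^ 4 = g ^ 2 * g ^ 2 by rw [← pow_add]]
        show (((g ^ 2 : Subgroup.center R) : R) : GL4).val * (((g ^ 2 : Subgroup.center R) : R) : GL4).val = _
        rw [hi2, Matrix.smul_mul, Matrix.mul_smul, one_mul, smul_smul]
      rw [hg4] at e
      have e' : (1 : M4) = ((i * i) * (i * i)) • 1 := e
      have := hentry 1 ((i * i) * (i * i)) (by rw [one_smul]; exact e')
      exact this.symm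
    have h3 : (i * i - 1) * (i * i + 1) = 0 := by linear_combination h2
    rcases mul_eq_zero.mp h3 with h | h
    · exact absurd (sub_eq_zero.mp h) h1
    · exact eq_neg_of_add_eq_zero_left h
  refine ⟨i, ((g : R) : GL4), ?_⟩
  have hep : ∀ ε : F, ε * ε = 1 → ε = 1 ∨ ε = -1 := by
    intro ε h
    have h3 : (ε - 1) * (ε + 1) = 0 := by linear_combination h
    rcases mul_eq_zero.mp h3 with h | h
    · exact Or.inl (sub_eq_zero.mp h)
    · exact Or.inr (eq_neg_of_add_eq_zero_left h)
  refine ⟨hcard, hii, hp2, hi, (g : R).2, ?_, ?_, ?_, ?_, ?_, hZ⟩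
  · intro a ha
    have := h4 ⟨a, ha⟩
    exact congrArg Subtype.val this
  · intro a ha b hb
    set a' : R := ⟨a, ha⟩
    set b' : R := ⟨b, hb⟩
    have hc := (commHom a' (hmem a') b').2
    obtain ⟨ε, hε⟩ := hscal _ hc
    have hsq := congrArg Subtype.val (sq_commHom h4 a' (hmem a') b')
    rw [commHom_apply] at hε
    have hsq' : ⁅a', b'⁆ * ⁅a', b'⁆ = 1 := by
      have e : ((commHom a' (hmem a') b' ^ 2 : Subgroup.center R) : R) = ⁅a', b'⁆ * ⁅a', b'⁆ := by
        rw [pow_two]
        rfl
      rw [← e]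
      exact hsq
    have hεε : ε * ε = 1 := by
      have := congrArg (fun t : R => ((t : GL4) : M4)) hsq'
      simp only [hv, hone, hε, Matrix.smul_mul, Matrix.mul_smul, one_mul, smul_smul] at this
      exact hentry _ _ (by rw [this, one_smul])
    have hab : a' * b' = ⁅a', b'⁆ * (b' * a') := by
      simp only [commutatorElement_def]
      group
    have hab' : (a : M4) * b = ε • ((b : M4) * a) := by
      have := congrArg (fun t : R => ((t : GL4) : M4)) hab
      simp only [hv, hε, Matrix.smul_mul, one_mul] at this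
      exact this
    rcases hep ε hεε with rfl | rfl
    · left
      rw [hab', one_smul]
    · right
      rw [hab', neg_smul, one_smul]
  · intro a ha
    set a' : R := ⟨a, ha⟩
    have hc := sq_mem_center h4 a' (hmem a')
    obtain ⟨σ, hσ⟩ := hscal _ hc
    rw [hv] at hσ
    have h44 := mul_four_eq_one (h4 a')
    have hσσ : σ * σ = 1 := by
      have := congrArg (fun t : R => ((t : GL4) : M4)) h44
      simp only [hv, hone] at this
      have e : ((a' : GL4) : M4) * (a' : GL4) * (a' : GL4) * (a' : GL4) =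
          (((a' : GL4) : M4) * (a' : GL4)) * (((a' : GL4) : M4) * (a' : GL4)) := by
        simp only [Matrix.mul_assoc]
      rw [e, hσ, Matrix.smul_mul, Matrix.mul_smul, one_mul, smul_smul] at this
      exact hentry _ _ (by rw [this, one_smul])
    rcases hep σ hσσ with rfl | rfl
    · left
      rw [show (a : M4) * a = ((a' : GL4) : M4) * (a' : GL4) from rfl, hσ, one_smul]
    · right
      rw [show (a : M4) * a = ((a' : GL4) : M4) * (a' : GL4) from rfl, hσ, neg_smul, one_smul]
  · intro M hM
    apply hR.absIrred.2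
    rintro _ ⟨a, ha, rfl⟩
    exact hM a ha
  · intro a ha b hb
    obtain ⟨z, hz1, hz2, hz3⟩ := exists_centralizing hcard hZ h4 hchar ⟨a, ha⟩ ⟨b, hb⟩
    refine ⟨z, z.2, congrArg (fun t : R => ((t : GL4) : M4)) hz1, congrArg (fun t : R => ((t : GL4) : M4)) hz2, ?_⟩
    intro c hc
    exact hz3 (hsc_center z c hc)

end Cfsg.Agent.Lib.Sym64
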