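import Mathlib

set_option autoImplicit false

namespace Cfsg.Agent.Lib.Sym64

open Matrix

variable {F : Type*} [Field F]

local notation "M4" => Matrix (Fin 4) (Fin 4) F

def Z1 : Matrix (Fin 4) (Fin 4) F := !![1,0,0,0;0,-1,0,0;0,0,1,0;0,0,0,-1]
def Z2 : Matrix (Fin 4) (Fin 4) F := !![1,0,0,0;0,1,0,0;0,0,-1,0;0,0,0,-1]
def X1 : Matrix (Fin 4) (Fin 4) F := !![0,1,0,0;1,0,0,0;0,0,0,1;0,0,1,0]
def X2 : Matrix (Fin 4) (Fin 4) F := !![0,0,1,0;0,0,0,1;1,0,0,0;0,1,0,0]
/-- controlled sign -/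
def CZ : Matrix (Fin 4) (Fin 4) F := !![1,0,0,0;0,1,0,0;0,0,1,0;0,0,0,-1]
/-- permutation of order three -/
def P3 : Matrix (Fin 4) (Fin 4) F := !![1,0,0,0;0,0,1,0;0,0,0,1;0,1,0,0]
/-- twice an element of order three, with `M² + M + 1 = 0` after halving -/
def M32' (i : F) : Matrix (Fin 4) (Fin 4) F :=
  !![-1-i,1-i,0,0;-1-i,-1+i,0,0;0,0,-1-i,1-i;0,0,-1-i,-1+i]
/-- twice an element of order five -/
def M5' (i : F) : Matrix (Fin 4) (Fin 4) F := !![-i,1,-i,-1;-i,-1,-i,1;-i,1,i,1;-i,-1,i,-1]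

theorem CZ_Z1 : (CZ : M4) * Z1 = Z1 * CZ := by
  ext a b
  fin_cases a <;> fin_cases b <;> simp [Z1, Z2, X1, X2, CZ, P3, M32', M5', Matrix.mul_apply, Fin.sum_univ_four]

theorem CZ_X1 : (CZ : M4) * X1 = (X1 * Z2) * CZ := by
  ext a b
  fin_cases a <;> fin_cases b <;> simp [Z1, Z2, X1, X2, CZ, P3, M32', M5', Matrix.mul_apply, Fin.sum_univ_four]

theorem CZ_Z2 : (CZ : M4) * Z2 = Z2 * CZ := by
  ext a b
  fin_cases a <;> fin_cases b <;> simp [Z1, Z2, X1, X2, CZ, P3, M32', M5', Matrix.mul_apply, Fin.sum_univ_four]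

theorem CZ_X2 : (CZ : M4) * X2 = (Z1 * X2) * CZ := by
  ext a b
  fin_cases a <;> fin_cases b <;> simp [Z1, Z2, X1, X2, CZ, P3, M32', M5', Matrix.mul_apply, Fin.sum_univ_four]

theorem P3_Z1 : (P3 : M4) * Z1 = Z2 * P3 := by
  ext a b
  fin_cases a <;> fin_cases b <;> simp [Z1, Z2, X1, X2, CZ, P3, M32', M5', Matrix.mul_apply, Fin.sum_univ_four]

theorem P3_X1 : (P3 : M4) * X1 = (X1 * X2) * P3 := by
  ext a b
  fin_cases a <;> fin_cases b <;> simp [Z1, Z2, X1, X2, CZ, P3, M32', M5', Matrix.mul_apply, Fin.sum_univ_four]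

theorem P3_Z2 : (P3 : M4) * Z2 = (Z1 * Z2) * P3 := by
  ext a b
  fin_cases a <;> fin_cases b <;> simp [Z1, Z2, X1, X2, CZ, P3, M32', M5', Matrix.mul_apply, Fin.sum_univ_four]

theorem P3_X2 : (P3 : M4) * X2 = X1 * P3 := by
  ext a b
  fin_cases a <;> fin_cases b <;> simp [Z1, Z2, X1, X2, CZ, P3, M32', M5', Matrix.mul_apply, Fin.sum_univ_four]

theorem Z2_Z1 : (Z2 : M4) * Z1 = Z1 * Z2 := by
  ext a b
  fin_cases a <;> fin_cases b <;> simp [Z1, Z2, X1, X2, CZ, P3, M32', M5', Matrix.mul_apply, Fin.sum_univ_four]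

theorem Z2_X1 : (Z2 : M4) * X1 = X1 * Z2 := by
  ext a b
  fin_cases a <;> fin_cases b <;> simp [Z1, Z2, X1, X2, CZ, P3, M32', M5', Matrix.mul_apply, Fin.sum_univ_four]

theorem Z2_Z2 : (Z2 : M4) * Z2 = Z2 * Z2 := by
  ext a b
  fin_cases a <;> fin_cases b <;> simp [Z1, Z2, X1, X2, CZ, P3, M32', M5', Matrix.mul_apply, Fin.sum_univ_four]

theorem Z2_X2 (i : F) (hi : i * i = -1) : (Z2 : M4) * X2 = ((i • 1 : M4) * (i • 1 : M4) * X2) * Z2 := by
  have e : ∀ a : F, a * i * i = - a := fun a => by rw [mul_assoc, hi, mul_neg, mul_one]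
  ext a b
  fin_cases a <;> fin_cases b <;> simp [Z1, Z2, X1, X2, CZ, P3, M32', M5', Matrix.mul_apply, Fin.sum_univ_four, hi, e] <;> grind

theorem M32_Z1 (i : F) (hi : i * i = -1) : (M32' i) * Z1 = X1 * M32' i := by
  have e : ∀ a : F, a * i * i = - a := fun a => by rw [mul_assoc, hi, mul_neg, mul_one]
  ext a b
  fin_cases a <;> fin_cases b <;> simp [Z1, Z2, X1, X2, CZ, P3, M32', M5', Matrix.mul_apply, Fin.sum_univ_four, hi, e] <;> grind

theorem M32_X1 (i : F) (hi : i * i = -1) : (M32' i) * X1 = ((i • 1 : M4) * Z1 * X1) * M32' i := by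
  have e : ∀ a : F, a * i * i = - a := fun a => by rw [mul_assoc, hi, mul_neg, mul_one]
  ext a b
  fin_cases a <;> fin_cases b <;> simp [Z1, Z2, X1, X2, CZ, P3, M32', M5', Matrix.mul_apply, Fin.sum_univ_four, hi, e] <;> grind

theorem M32_Z2 (i : F) (hi : i * i = -1) : (M32' i) * Z2 = Z2 * M32' i := by
  have e : ∀ a : F, a * i * i = - a := fun a => by rw [mul_assoc, hi, mul_neg, mul_one]
  ext a b
  fin_cases a <;> fin_cases b <;> simp [Z1, Z2, X1, X2, CZ, P3, M32', M5', Matrix.mul_apply, Fin.sum_univ_four, hi, e] <;> grind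

theorem M32_X2 (i : F) (hi : i * i = -1) : (M32' i) * X2 = X2 * M32' i := by
  have e : ∀ a : F, a * i * i = - a := fun a => by rw [mul_assoc, hi, mul_neg, mul_one]
  ext a b
  fin_cases a <;> fin_cases b <;> simp [Z1, Z2, X1, X2, CZ, P3, M32', M5', Matrix.mul_apply, Fin.sum_univ_four, hi, e] <;> grind

theorem M5_Z1 (i : F) (hi : i * i = -1) : (M5' i) * Z1 = X1 * M5' i := by
  have e : ∀ a : F, a * i * i = - a := fun a => by rw [mul_assoc, hi, mul_neg, mul_one]
  ext a b
  fin_cases a <;> fin_cases b <;> simp [Z1, Z2, X1, X2, CZ, P3, M32', M5', Matrix.mul_apply, Fin.sum_univ_four, hi, e] <;> grind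

theorem M5_X1 (i : F) (hi : i * i = -1) : (M5' i) * X1 = ((i • 1 : M4) * Z1 * X1 * X2) * M5' i := by
  have e : ∀ a : F, a * i * i = - a := fun a => by rw [mul_assoc, hi, mul_neg, mul_one]
  ext a b
  fin_cases a <;> fin_cases b <;> simp [Z1, Z2, X1, X2, CZ, P3, M32', M5', Matrix.mul_apply, Fin.sum_univ_four, hi, e] <;> grind

theorem M5_Z2 (i : F) (hi : i * i = -1) : (M5' i) * Z2 = X2 * M5' i := by
  have e : ∀ a : F, a * i * i = - a := fun a => by rw [mul_assoc, hi, mul_neg, mul_one]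
  ext a b
  fin_cases a <;> fin_cases b <;> simp [Z1, Z2, X1, X2, CZ, P3, M32', M5', Matrix.mul_apply, Fin.sum_univ_four, hi, e] <;> grind

theorem M5_X2 (i : F) (hi : i * i = -1) : (M5' i) * X2 = (X1 * Z2) * M5' i := by
  have e : ∀ a : F, a * i * i = - a := fun a => by rw [mul_assoc, hi, mul_neg, mul_one]
  ext a b
  fin_cases a <;> fin_cases b <;> simp [Z1, Z2, X1, X2, CZ, P3, M32', M5', Matrix.mul_apply, Fin.sum_univ_four, hi, e] <;> grind

theorem comm_scalar (h2 : (2 : F) ≠ 0) (m : M4) (h1 : m * Z1 = Z1 * m) (h3 : m * Z2 = Z2 * m) (h4 : m * X1 = X1 * m) (h5 : m * X2 = X2 * m) :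
    ∃ c : F, m = c • 1 := by
  have hself : ∀ x : F, x = -x → x = 0 := by
    intro x hx
    have : (2 : F) * x = 0 := by linear_combination hx
    exact (mul_eq_zero.mp this).resolve_left h2
  have hself' : ∀ x : F, -x = x → x = 0 := fun x hx => hself x hx.symm
  have e1 : ∀ a b : Fin 4, (m * Z1 : M4) a b = (Z1 * m : M4) a b := fun a b => by rw [h1]
  have e2 : ∀ a b : Fin 4, (m * Z2 : M4) a b = (Z2 * m : M4) a b := fun a b => by rw [h3]
  have e3 : ∀ a b : Fin 4, (m * X1 : M4) a b = (X1 * m : M4) a b := fun a b => by rw [h4]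
  have e4 : ∀ a b : Fin 4, (m * X2 : M4) a b = (X2 * m : M4) a b := fun a b => by rw [h5]
  simp only [Matrix.mul_apply, Fin.sum_univ_four] at e1 e2 e3 e4
  have m01 : m 0 1 = 0 := by
    have := e1 0 1
    simp [Z1] at this
    first | exact hself _ this | exact hself' _ this | exact this
  have m02 : m 0 2 = 0 := by
    have := e2 0 2
    simp [Z2] at this
    first | exact hself _ this | exact hself' _ this | exact this
  have m03 : m 0 3 = 0 := by
    have := e1 0 3
    simp [Z1] at this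
    first | exact hself _ this | exact hself' _ this | exact this
  have m10 : m 1 0 = 0 := by
    have := e1 1 0
    simp [Z1] at this
    first | exact hself _ this | exact hself' _ this | exact this
  have m12 : m 1 2 = 0 := by
    have := e1 1 2
    simp [Z1] at this
    first | exact hself _ this | exact hself' _ this | exact this
  have m13 : m 1 3 = 0 := by
    have := e2 1 3
    simp [Z2] at this
    first | exact hself _ this | exact hself' _ this | exact this
  have m20 : m 2 0 = 0 := by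
    have := e2 2 0
    simp [Z2] at this
    first | exact hself _ this | exact hself' _ this | exact this
  have m21 : m 2 1 = 0 := by
    have := e1 2 1
    simp [Z1] at this
    first | exact hself _ this | exact hself' _ this | exact this
  have m23 : m 2 3 = 0 := by
    have := e1 2 3
    simp [Z1] at this
    first | exact hself _ this | exact hself' _ this | exact this
  have m30 : m 3 0 = 0 := by
    have := e1 3 0
    simp [Z1] at this
    first | exact hself _ this | exact hself' _ this | exact this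
  have m31 : m 3 1 = 0 := by
    have := e2 3 1
    simp [Z2] at this
    first | exact hself _ this | exact hself' _ this | exact this
  have m32 : m 3 2 = 0 := by
    have := e1 3 2
    simp [Z1] at this
    first | exact hself _ this | exact hself' _ this | exact this
  have d01 : m 0 0 = m 1 1 := by
    have := e3 0 1
    simpa [X1] using this
  have d23 : m 2 2 = m 3 3 := by
    have := e3 2 3
    simpa [X1] using this
  have d02 : m 0 0 = m 2 2 := by
    have := e4 0 2
    simpa [X2] using this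
  refine ⟨m 0 0, ?_⟩
  ext a b
  fin_cases a <;> fin_cases b <;> simp [m01, m02, m03, m10, m12, m13, m20, m21, m23, m30, m31, m32, ← d01, ← d02, ← d23]

end Cfsg.Agent.Lib.Sym64
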