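import Mathlib
import Cfsg.Prelude.Def_GeometricClasses
import Cfsg.Agent.Lib.Sym64B
import Cfsg.Agent.Lib.Sym64C

set_option autoImplicit false
open scoped MatrixGroups

namespace Cfsg.Agent.Lib.Sym64

open Matrix Cfsg.Geo

variable {F : Type*} [Field F]

local notation "M4" => Matrix (Fin 4) (Fin 4) F
local notation "GL4" => GL (Fin 4) F
local notation "V4" => (Fin 4 → F)

section RingLemmas

variable {A : Type*} [Ring A]

theorem adj_b_a (a b y : A) (hab : a * b = -(b * a)) (hya : y * a = -(a * y)) : (y * b) * a = a * (y * b) := by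
  calc y * b * a = y * (b * a) := mul_assoc _ _ _
    _ = y * (-(a * b)) := by rw [hab, neg_neg]
    _ = -((y * a) * b) := by noncomm_ring
    _ = -(-(a * y) * b) := by rw [hya]
    _ = a * (y * b) := by noncomm_ring

theorem adj_b_b (b y : A) (hyb : y * b = b * y) : (y * b) * b = b * (y * b) := by
  calc y * b * b = (b * y) * b := by rw [hyb]
    _ = b * (y * b) := mul_assoc _ _ _

theorem adj_a_a (a y : A) (hya : y * a = a * y) : (y * a) * a = a * (y * a) := by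
  calc y * a * a = (a * y) * a := by rw [hya]
    _ = a * (y * a) := mul_assoc _ _ _

theorem adj_a_b (a b y : A) (hab : a * b = -(b * a)) (hyb : y * b = -(b * y)) : (y * a) * b = b * (y * a) := by
  calc y * a * b = y * (a * b) := mul_assoc _ _ _
    _ = y * (-(b * a)) := by rw [hab]
    _ = -((y * b) * a) := by noncomm_ring
    _ = -(-(b * y) * a) := by rw [hyb]
    _ = b * (y * a) := by noncomm_ring

theorem adj_ba_a (a b y : A) (hab : a * b = -(b * a)) (hya : y * a = -(a * y)) :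
    (y * (b * a)) * a = a * (y * (b * a)) := by
  have h1 := adj_b_a a b y hab hya
  calc y * (b * a) * a = (y * b * a) * a := by noncomm_ring
    _ = (a * (y * b)) * a := by rw [h1]
    _ = a * (y * (b * a)) := by noncomm_ring

theorem adj_ba_b (a b y : A) (hab : a * b = -(b * a)) (hyb : y * b = -(b * y)) :
    (y * (b * a)) * b = b * (y * (b * a)) := by
  calc y * (b * a) * b = (y * b) * (a * b) := by noncomm_ring
    _ = (-(b * y)) * (-(b * a)) := by rw [hyb, hab]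
    _ = (b * y) * (b * a) := by noncomm_ring
    _ = b * (y * (b * a)) := by noncomm_ring

end RingLemmas

theorem anti_step (A B : M4) (v : V4) (l : F) (hAB : A * B = -(B * A)) (hv : A *ᵥ v = l • v) :
    A *ᵥ (B *ᵥ v) = (-l) • (B *ᵥ v) := by
  rw [Matrix.mulVec_mulVec, hAB, Matrix.neg_mulVec, ← Matrix.mulVec_mulVec, hv, Matrix.mulVec_smul, neg_smul]

theorem comm_step (A B : M4) (v : V4) (l : F) (hAB : A * B = B * A) (hv : A *ᵥ v = l • v) :
    A *ᵥ (B *ᵥ v) = l • (B *ᵥ v) := by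
  rw [Matrix.mulVec_mulVec, hAB, ← Matrix.mulVec_mulVec, hv, Matrix.mulVec_smul]

/-- The standard frame. -/
theorem exists_P (h2 : (2 : F) ≠ 0) (a1 b1 a2 b2 : M4) (haa1 : a1 * a1 = 1) (hbb1 : b1 * b1 = 1) (haa2 : a2 * a2 = 1)
    (hbb2 : b2 * b2 = 1) (hab1 : a1 * b1 = -(b1 * a1)) (hab2 : a2 * b2 = -(b2 * a2)) (h21 : a2 * a1 = a1 * a2)
    (h2b1 : a2 * b1 = b1 * a2) (hb2a1 : b2 * a1 = a1 * b2) (hb2b1 : b2 * b1 = b1 * b2) :
    ∃ P : M4, IsUnit P ∧ a1 * P = P * Z1 ∧ b1 * P = P * X1 ∧ a2 * P = P * Z2 ∧ b2 * P = P * X2 := by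
  classical
  have hone0 : (1 : M4) ≠ 0 := one_ne_zero
  set E : M4 := (1 + a1) * (1 + a2) with hE
  have hE0 : E ≠ 0 := by
    intro h0
    have h1 : b2 * E * b2 = (1 + a1) * (1 - a2) := by
      have e1 : b2 * (1 + a1) = (1 + a1) * b2 := by
        rw [mul_add, add_mul, mul_one, one_mul, hb2a1]
      have e2 : b2 * (1 + a2) * b2 = 1 - a2 := by
        have e3 : b2 * (1 + a2) * b2 = b2 * b2 + b2 * (a2 * b2) := by noncomm_ring
        rw [e3, hab2, hbb2]
        have e4 : b2 * (-(b2 * a2)) = -((b2 * b2) * a2) := by noncomm_ring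
        rw [e4, hbb2, one_mul]
        noncomm_ring
      calc b2 * E * b2 = (b2 * (1 + a1)) * ((1 + a2) * b2) := by rw [hE]; noncomm_ring
        _ = ((1 + a1) * b2) * ((1 + a2) * b2) := by rw [e1]
        _ = (1 + a1) * (b2 * (1 + a2) * b2) := by noncomm_ring
        _ = _ := by rw [e2]
    rw [h0, mul_zero, zero_mul] at h1
    have h3 : (2 : F) • (1 + a1) = 0 := by
      have e : (2 : F) • (1 + a1) = (1 + a1) * (1 + a2) + (1 + a1) * (1 - a2) := by
        rw [← mul_add]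
        have : (1 + a2) + (1 - a2) = (2 : F) • (1 : M4) := by
          rw [two_smul]
          noncomm_ring
        rw [this, Matrix.mul_smul, mul_one]
      rw [e, ← hE, h0, ← h1, add_zero]
    have h4 : 1 + a1 = 0 := (smul_eq_zero.mp h3).resolve_left h2
    have h5 : a1 = -1 := eq_neg_of_add_eq_zero_right h4
    rw [h5] at hab1
    have h6 : (2 : F) • b1 = 0 := by
      rw [two_smul]
      have : -1 * b1 = -(b1 * -1) := hab1
      simp only [neg_mul, one_mul, mul_neg, mul_one, neg_neg] at this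
      have h7 : b1 + b1 = 0 := by
        nth_rewrite 1 [← neg_neg b1]
        rw [this]
        simp
      exact h7
    have h8 : b1 = 0 := (smul_eq_zero.mp h6).resolve_left h2
    rw [h8, zero_mul] at hbb1
    exact hone0 hbb1.symm
  obtain ⟨w, hw⟩ : ∃ w : V4, E *ᵥ w ≠ 0 := by
    by_contra hcon
    push_neg at hcon
    apply hE0
    apply Matrix.ext_of_mulVec_single
    intro k
    rw [hcon, Matrix.zero_mulVec]
  set v0 : V4 := E *ᵥ w with hv0
  have a1E : a1 * E = E := by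
    have e1 : a1 * (1 + a1) = 1 + a1 := by rw [mul_add, mul_one, haa1, add_comm]
    rw [hE, ← mul_assoc, e1]
  have a2E : a2 * E = E := by
    have e1 : a2 * (1 + a1) = (1 + a1) * a2 := by
      rw [mul_add, add_mul, mul_one, one_mul, h21]
    have e2 : a2 * (1 + a2) = 1 + a2 := by rw [mul_add, mul_one, haa2, add_comm]
    rw [hE, ← mul_assoc, e1, mul_assoc, e2]
  have f1 : a1 *ᵥ v0 = (1 : F) • v0 := by
    rw [one_smul, hv0, Matrix.mulVec_mulVec, a1E]
  have f2 : a2 *ᵥ v0 = (1 : F) • v0 := by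
    rw [one_smul, hv0, Matrix.mulVec_mulVec, a2E]
  set v1 : V4 := b1 *ᵥ v0 with hv1
  set v2 : V4 := b2 *ᵥ v0 with hv2
  set v3 : V4 := b1 *ᵥ v2 with hv3
  have a1v1 : a1 *ᵥ v1 = (-1 : F) • v1 := anti_step a1 b1 v0 1 hab1 f1
  have a2v1 : a2 *ᵥ v1 = (1 : F) • v1 := comm_step a2 b1 v0 1 h2b1 f2
  have a1v2 : a1 *ᵥ v2 = (1 : F) • v2 := comm_step a1 b2 v0 1 hb2a1.symm f1
  have a2v2 : a2 *ᵥ v2 = (-1 : F) • v2 := anti_step a2 b2 v0 1 hab2 f2
  have a1v3 : a1 *ᵥ v3 = (-1 : F) • v3 := anti_step a1 b1 v2 1 hab1 a1v2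
  have a2v3 : a2 *ᵥ v3 = (-1 : F) • v3 := comm_step a2 b1 v2 (-1) h2b1 a2v2
  have b1v0 : b1 *ᵥ v0 = v1 := rfl
  have b1v1 : b1 *ᵥ v1 = v0 := by
    rw [hv1, Matrix.mulVec_mulVec, hbb1, Matrix.one_mulVec]
  have b1v2 : b1 *ᵥ v2 = v3 := rfl
  have b1v3 : b1 *ᵥ v3 = v2 := by
    rw [hv3, Matrix.mulVec_mulVec, hbb1, Matrix.one_mulVec]
  have b2v0 : b2 *ᵥ v0 = v2 := rfl
  have b2v1 : b2 *ᵥ v1 = v3 := by
    rw [hv1, Matrix.mulVec_mulVec, hb2b1, ← Matrix.mulVec_mulVec]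
  have b2v2 : b2 *ᵥ v2 = v0 := by
    rw [hv2, Matrix.mulVec_mulVec, hbb2, Matrix.one_mulVec]
  have b2v3 : b2 *ᵥ v3 = v1 := by
    rw [hv3, Matrix.mulVec_mulVec, hb2b1, ← Matrix.mulVec_mulVec, b2v2]
  -- independence
  have h4 : (4 : F) ≠ 0 := by
    have : (4 : F) = 2 * 2 := by norm_num
    rw [this]
    exact mul_ne_zero h2 h2
  have L : ∀ c0 c1 c2 c3 : F, c0 • v0 + c1 • v1 + c2 • v2 + c3 • v3 = 0 → c0 = 0 := by
    intro c0 c1 c2 c3 H
    have e1 : c0 • v0 - c1 • v1 + c2 • v2 - c3 • v3 = 0 := by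
      have := congrArg (fun t => a1 *ᵥ t) H
      simp only [Matrix.mulVec_add, Matrix.mulVec_smul, Matrix.mulVec_zero, f1, a1v1, a1v2, a1v3] at this
      rw [← this]
      module
    have e2 : c0 • v0 + c1 • v1 - c2 • v2 - c3 • v3 = 0 := by
      have := congrArg (fun t => a2 *ᵥ t) H
      simp only [Matrix.mulVec_add, Matrix.mulVec_smul, Matrix.mulVec_zero, f2, a2v1, a2v2, a2v3] at this
      rw [← this]
      module
    have e3 : c0 • v0 - c1 • v1 - c2 • v2 + c3 • v3 = 0 := by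
      have := congrArg (fun t => a1 *ᵥ t) e2
      simp only [Matrix.mulVec_add, Matrix.mulVec_sub, Matrix.mulVec_smul, Matrix.mulVec_zero, f1, a1v1, a1v2, a1v3] at this
      rw [← this]
      module
    have e4 : (4 * c0) • v0 = 0 := by
      have : (4 * c0) • v0 = (c0 • v0 + c1 • v1 + c2 • v2 + c3 • v3) + (c0 • v0 - c1 • v1 + c2 • v2 - c3 • v3)
          + (c0 • v0 + c1 • v1 - c2 • v2 - c3 • v3) + (c0 • v0 - c1 • v1 - c2 • v2 + c3 • v3) := by
        module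
      rw [this, H, e1, e2, e3]
      simp
    rcases smul_eq_zero.mp e4 with h | h
    · exact (mul_eq_zero.mp h).resolve_left h4
    · exact absurd h hw
  let c : Fin 4 → V4 := ![v0, v1, v2, v3]
  let P : M4 := Matrix.of (fun k l => c l k)
  have hcol : ∀ A M : M4, (∀ l, A *ᵥ c l = ∑ j, M j l • c j) → A * P = P * M := by
    intro A M h
    ext k l
    rw [Matrix.mul_apply, Matrix.mul_apply]
    have := congrFun (h l) k
    simp only [Matrix.mulVec, dotProduct, Finset.sum_apply, Pi.smul_apply, smul_eq_mul] at this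
    simp only [P, Matrix.of_apply]
    rw [this]
    apply Finset.sum_congr rfl
    intro j _
    ring
  have hPv : ∀ x : V4, P *ᵥ x = x 0 • v0 + x 1 • v1 + x 2 • v2 + x 3 • v3 := by
    intro x
    ext k
    simp [Matrix.mulVec, dotProduct, Fin.sum_univ_four, P, c, mul_comm]
  have hunit : IsUnit P := by
    rw [← Matrix.mulVec_injective_iff_isUnit]
    have hker : ∀ x : V4, P *ᵥ x = 0 → x = 0 := by
      intro x hx
      rw [hPv] at hx
      have h0 := L _ _ _ _ hx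
      have h1 : x 1 = 0 := by
        have := congrArg (fun t => b1 *ᵥ t) hx
        simp only [Matrix.mulVec_add, Matrix.mulVec_smul, Matrix.mulVec_zero, b1v0, b1v1, b1v2, b1v3] at this
        exact L (x 1) (x 0) (x 3) (x 2) (by rw [← this]; module)
      have h2' : x 2 = 0 := by
        have := congrArg (fun t => b2 *ᵥ t) hx
        simp only [Matrix.mulVec_add, Matrix.mulVec_smul, Matrix.mulVec_zero, b2v0, b2v1, b2v2, b2v3] at this
        exact L (x 2) (x 3) (x 0) (x 1) (by rw [← this]; module)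
      have h3 : x 3 = 0 := by
        have := congrArg (fun t => b1 *ᵥ (b2 *ᵥ t)) hx
        simp only [Matrix.mulVec_add, Matrix.mulVec_smul, Matrix.mulVec_zero, b2v0, b2v1, b2v2, b2v3, b1v0, b1v1, b1v2, b1v3] at this
        exact L (x 3) (x 2) (x 1) (x 0) (by rw [← this]; module)
      ext k
      fin_cases k
      · exact h0
      · exact h1
      · exact h2'
      · exact h3
    intro x y hxy
    have : x - y = 0 := hker _ (by rw [Matrix.mulVec_sub, hxy, sub_self])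
    exact sub_eq_zero.mp this
  refine ⟨P, hunit, hcol _ _ ?_, hcol _ _ ?_, hcol _ _ ?_, hcol _ _ ?_⟩
  · intro l
    fin_cases l <;> simp [Fin.sum_univ_four, Z1, c, f1, a1v1, a1v2, a1v3]
  · intro l
    fin_cases l <;> simp [Fin.sum_univ_four, X1, c, b1v0, b1v1, b1v2, b1v3]
  · intro l
    fin_cases l <;> simp [Fin.sum_univ_four, Z2, c, f2, a2v1, a2v2, a2v3]
  · intro l
    fin_cases l <;> simp [Fin.sum_univ_four, X2, c, b2v0, b2v1, b2v2, b2v3]

section BaseFacts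

theorem Base.i_ne_zero {R : Subgroup GL4} {i : F} {s : GL4} (h : Base R i s) : i ≠ 0 := by
  intro h0
  have := h.hi
  rw [h0, mul_zero] at this
  exact one_ne_zero (neg_eq_zero.mp this.symm)

theorem Base.normalize {R : Subgroup GL4} {i : F} {s : GL4} (h : Base R i s) (a : GL4) (ha : a ∈ R) :
    ∃ (a' : GL4) (c : F), a' ∈ R ∧ c ≠ 0 ∧ (a' : M4) = c • (a : M4) ∧ (a' : M4) * a' = 1 := by
  rcases h.sq a ha with h1 | h1
  · exact ⟨a, 1, ha, one_ne_zero, (one_smul _ _).symm, h1⟩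
  · refine ⟨s * a, i, R.mul_mem h.smem ha, h.i_ne_zero, ?_, ?_⟩
    · rw [Units.val_mul, h.hs, Matrix.smul_mul, one_mul]
    · rw [Units.val_mul, h.hs, Matrix.smul_mul, one_mul, Matrix.smul_mul, Matrix.mul_smul, h1, smul_smul, h.hi]
      simp

theorem Base.anti {R : Subgroup GL4} {i : F} {s : GL4} (h : Base R i s) (a : GL4) (ha : a ∈ R) (hn : ∀ c : F, (a : M4) ≠ c • 1) :
    ∃ b ∈ R, (a : M4) * b = -((b : M4) * a) := by
  by_contra hcon
  push_neg at hcon
  obtain ⟨c, hc⟩ := h.central (a : M4) (fun b hb => by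
    rcases h.sign a ha b hb with h1 | h1
    · exact h1
    · exact absurd h1 (hcon b hb))
  exact hn c hc

theorem nonscalar_of_smul {a a' : M4} {c : F} (hc : c ≠ 0) (e : a' = c • a) (hn : ∀ d : F, a ≠ d • 1) :
    ∀ d : F, a' ≠ d • 1 := by
  intro d hd
  apply hn (c⁻¹ * d)
  rw [mul_smul, ← hd, e, smul_smul, inv_mul_cancel₀ hc, one_smul]

/-- Adjusting an element so that it commutes with an anticommuting pair. -/
theorem Base.adjust {R : Subgroup GL4} {i : F} {s : GL4} (h : Base R i s) (a b y : GL4) (ha : a ∈ R) (hb : b ∈ R) (hy : y ∈ R) (hab : (a : M4) * b = -((b : M4) * a)) :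
    ∃ t : GL4, (t = 1 ∨ t = a ∨ t = b ∨ t = b * a) ∧ ((y * t : GL4) : M4) * a = a * ((y * t : GL4) : M4) ∧
      ((y * t : GL4) : M4) * b = b * ((y * t : GL4) : M4) := by
  rcases h.sign y hy a ha with h1 | h1 <;> rcases h.sign y hy b hb with h2 | h2
  · refine ⟨1, Or.inl rfl, ?_, ?_⟩
    · rw [mul_one]; exact h1
    · rw [mul_one]; exact h2
  · refine ⟨a, Or.inr (Or.inl rfl), ?_, ?_⟩
    · rw [Units.val_mul]; exact adj_a_a _ _ h1
    · rw [Units.val_mul]; exact adj_a_b _ _ _ hab h2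
  · refine ⟨b, Or.inr (Or.inr (Or.inl rfl)), ?_, ?_⟩
    · rw [Units.val_mul]; exact adj_b_a _ _ _ hab h1
    · rw [Units.val_mul]; exact adj_b_b _ _ h2
  · refine ⟨b * a, Or.inr (Or.inr (Or.inr rfl)), ?_, ?_⟩
    · rw [Units.val_mul, Units.val_mul]; exact adj_ba_a _ _ _ hab h1
    · rw [Units.val_mul, Units.val_mul]; exact adj_ba_b _ _ _ hab h2

/-- The four generators of the extraspecial part. -/
theorem Base.exists_frame {R : Subgroup GL4} {i : F} {s : GL4} (h : Base R i s) :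
    ∃ a1 b1 a2 b2 : GL4, a1 ∈ R ∧ b1 ∈ R ∧ a2 ∈ R ∧ b2 ∈ R ∧ (a1 : M4) * a1 = 1 ∧ (b1 : M4) * b1 = 1 ∧ (a2 : M4) * a2 = 1 ∧
      (b2 : M4) * b2 = 1 ∧ (a1 : M4) * b1 = -((b1 : M4) * a1) ∧ (a2 : M4) * b2 = -((b2 : M4) * a2) ∧
      (a2 : M4) * a1 = a1 * a2 ∧ (a2 : M4) * b1 = b1 * a2 ∧ (b2 : M4) * a1 = a1 * b2 ∧ (b2 : M4) * b1 = b1 * b2 := by
  obtain ⟨z, hz, -, -, hzn⟩ := h.outer 1 R.one_mem 1 R.one_mem
  obtain ⟨a1, c1, ha1, hc1, ea1, sa1⟩ := h.normalize z hz
  have hn1 := nonscalar_of_smul hc1 ea1 hzn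
  obtain ⟨b0, hb0, ab0⟩ := h.anti a1 ha1 hn1
  obtain ⟨b1, c2, hb1, hc2, eb1, sb1⟩ := h.normalize b0 hb0
  have ab1 : (a1 : M4) * b1 = -((b1 : M4) * a1) := by
    rw [eb1, Matrix.mul_smul, Matrix.smul_mul, ab0, smul_neg]
  obtain ⟨z2, hz2, z2a, z2b, hz2n⟩ := h.outer a1 ha1 b1 hb1
  obtain ⟨a2, c3, ha2, hc3, ea2, sa2⟩ := h.normalize z2 hz2
  have hn2 := nonscalar_of_smul hc3 ea2 hz2n
  have a2a1 : (a2 : M4) * a1 = a1 * a2 := by
    rw [ea2, Matrix.smul_mul, Matrix.mul_smul, z2a]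
  have a2b1 : (a2 : M4) * b1 = b1 * a2 := by
    rw [ea2, Matrix.smul_mul, Matrix.mul_smul, z2b]
  obtain ⟨y, hy, ay⟩ := h.anti a2 ha2 hn2
  obtain ⟨t, ht, t1, t2⟩ := h.adjust a1 b1 y ha1 hb1 hy ab1
  have htR : t ∈ R := by
    rcases ht with rfl | rfl | rfl | rfl
    · exact R.one_mem
    · exact ha1
    · exact hb1
    · exact R.mul_mem hb1 ha1
  have hta2 : (a2 : M4) * t = t * a2 := by
    rcases ht with rfl | rfl | rfl | rfl
    · simp
    · exact a2a1
    · exact a2b1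
    · rw [Units.val_mul, ← mul_assoc, a2b1, mul_assoc, a2a1, mul_assoc]
  obtain ⟨b2, c4, hb2, hc4, eb2, sb2⟩ := h.normalize (y * t) (R.mul_mem hy htR)
  refine ⟨a1, b1, a2, b2, ha1, hb1, ha2, hb2, sa1, sb1, sa2, sb2, ab1, ?_, a2a1, a2b1, ?_, ?_⟩
  · rw [eb2, Matrix.mul_smul, Matrix.smul_mul, Units.val_mul, ← mul_assoc, ay, neg_mul, mul_assoc, hta2, mul_assoc, smul_neg]
  · rw [eb2, Matrix.smul_mul, Matrix.mul_smul, t1]
  · rw [eb2, Matrix.smul_mul, Matrix.mul_smul, t2]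

end BaseFacts

/-- The standing data for `R`. -/
structure Std (R : Subgroup GL4) (i : F) (s a1 b1 a2 b2 P : GL4) : Prop where
  base : Base R i s
  a1m : a1 ∈ R
  b1m : b1 ∈ R
  a2m : a2 ∈ R
  b2m : b2 ∈ R
  a1P : (a1 : M4) * (P : M4) = (P : M4) * Z1
  b1P : (b1 : M4) * (P : M4) = (P : M4) * X1
  a2P : (a2 : M4) * (P : M4) = (P : M4) * Z2
  b2P : (b2 : M4) * (P : M4) = (P : M4) * X2
  cl : Subgroup.closure {s, a1, b1, a2, b2} = R

theorem exists_std {R : Subgroup GL4} {i : F} {s : GL4} (h : Base R i s) :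
    ∃ a1 b1 a2 b2 P : GL4, Std R i s a1 b1 a2 b2 P := by
  obtain ⟨a1, b1, a2, b2, ha1, hb1, ha2, hb2, sa1, sb1, sa2, sb2, ab1, ab2, a2a1, a2b1, b2a1, b2b1⟩ := h.exists_frame
  obtain ⟨P, hP, h1, h2, h3, h4⟩ := exists_P h.h2 (a1 : M4) b1 a2 b2 sa1 sb1 sa2 sb2 ab1 ab2 a2a1 a2b1 b2a1 b2b1
  refine ⟨a1, b1, a2, b2, hP.unit, h, ha1, hb1, ha2, hb2, h1, h2, h3, h4, ?_⟩
  set T := Subgroup.closure ({s, a1, b1, a2, b2} : Set GL4) with hT
  have hsT : s ∈ T := Subgroup.subset_closure (by simp)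
  have ha1T : a1 ∈ T := Subgroup.subset_closure (by simp)
  have hb1T : b1 ∈ T := Subgroup.subset_closure (by simp)
  have ha2T : a2 ∈ T := Subgroup.subset_closure (by simp)
  have hb2T : b2 ∈ T := Subgroup.subset_closure (by simp)
  apply le_antisymm
  · rw [hT, Subgroup.closure_le]
    rintro u (rfl | rfl | rfl | rfl | rfl)
    · exact h.smem
    · exact ha1
    · exact hb1
    · exact ha2
    · exact hb2
  intro x hx
  obtain ⟨t1, ht1, e1, e2⟩ := h.adjust a1 b1 x ha1 hb1 hx ab1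
  have ht1R : t1 ∈ R := by
    rcases ht1 with rfl | rfl | rfl | rfl
    · exact R.one_mem
    · exact ha1
    · exact hb1
    · exact R.mul_mem hb1 ha1
  have ht1T : t1 ∈ T := by
    rcases ht1 with rfl | rfl | rfl | rfl
    · exact T.one_mem
    · exact ha1T
    · exact hb1T
    · exact T.mul_mem hb1T ha1T
  obtain ⟨t2, ht2, e3, e4⟩ := h.adjust a2 b2 (x * t1) ha2 hb2 (R.mul_mem hx ht1R) ab2
  have ht2R : t2 ∈ R := by
    rcases ht2 with rfl | rfl | rfl | rfl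
    · exact R.one_mem
    · exact ha2
    · exact hb2
    · exact R.mul_mem hb2 ha2
  have ht2T : t2 ∈ T := by
    rcases ht2 with rfl | rfl | rfl | rfl
    · exact T.one_mem
    · exact ha2T
    · exact hb2T
    · exact T.mul_mem hb2T ha2T
  have t2a1 : (t2 : M4) * a1 = a1 * t2 := by
    rcases ht2 with rfl | rfl | rfl | rfl
    · simp
    · exact a2a1
    · exact b2a1
    · rw [Units.val_mul, mul_assoc, a2a1, ← mul_assoc, b2a1, mul_assoc]
  have t2b1 : (t2 : M4) * b1 = b1 * t2 := by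
    rcases ht2 with rfl | rfl | rfl | rfl
    · simp
    · exact a2b1
    · exact b2b1
    · rw [Units.val_mul, mul_assoc, a2b1, ← mul_assoc, b2b1, mul_assoc]
  set x2 : GL4 := x * t1 * t2 with hx2
  have x2R : x2 ∈ R := R.mul_mem (R.mul_mem hx ht1R) ht2R
  have c1 : (x2 : M4) * a1 = a1 * x2 := by
    rw [hx2, Units.val_mul, mul_assoc, t2a1, ← mul_assoc, e1, mul_assoc]
  have c2 : (x2 : M4) * b1 = b1 * x2 := by
    rw [hx2, Units.val_mul, mul_assoc, t2b1, ← mul_assoc, e2, mul_assoc]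
  -- `x2` is scalar
  set Pu : GL4 := hP.unit with hPu
  have hPv : (Pu : M4) = P := hP.unit_spec
  set m : M4 := ((Pu⁻¹ : GL4) : M4) * x2 * P with hm
  have hPm : P * m = x2 * P := by
    rw [hm, ← mul_assoc, ← mul_assoc, ← hPv, ← Units.val_mul, mul_inv_cancel]
    simp
  have hcancel : ∀ A B : M4, P * A = P * B → A = B := by
    intro A B hAB
    have := congrArg (fun t => ((Pu⁻¹ : GL4) : M4) * t) hAB
    simpa [← mul_assoc, ← hPv, ← Units.val_mul] using this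
  have comm_of : ∀ (a A : M4), a * P = P * A → (x2 : M4) * a = a * x2 → m * A = A * m := by
    intro a A h1 h2
    apply hcancel
    rw [← mul_assoc, hPm, mul_assoc, ← h1, ← mul_assoc, h2, mul_assoc, ← mul_assoc P A, ← h1, mul_assoc, hPm]
  obtain ⟨c, hc⟩ := comm_scalar h.h2 m (comm_of _ _ h1 c1) (comm_of _ _ h3 e3) (comm_of _ _ h2 c2) (comm_of _ _ h4 e4)
  have hx2c : (x2 : M4) = c • 1 := by
    have e := hPm
    rw [hc, Matrix.mul_smul, mul_one] at e
    have e' : ((x2 : M4) - c • 1) * P = 0 := by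
      rw [sub_mul, ← e, Matrix.smul_mul, one_mul, sub_self]
    have e'' := congrArg (fun t => t * ((Pu⁻¹ : GL4) : M4)) e'
    simp only [zero_mul, mul_assoc, ← hPv, ← Units.val_mul, mul_inv_cancel, Units.val_one, mul_one] at e''
    exact sub_eq_zero.mp e''
  have hx2T : x2 ∈ T := by
    have h44 : (x2 : M4) * x2 * x2 * x2 = 1 := by
      have := mul_four_eq_one (h.pow4 x2 x2R)
      have := congrArg (fun t : GL4 => (t : M4)) this
      simpa using this
    rw [hx2c] at h44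
    simp only [Matrix.smul_mul, one_mul, Matrix.mul_smul, mul_one, smul_smul] at h44
    have hc4 : c * c * c * c = 1 := by
      have := congrFun (congrFun h44 0) 0
      simpa [mul_assoc] using this
    have hfac : (c - 1) * (c + 1) * ((c - i) * (c + i)) = 0 := by
      have hi := h.hi
      linear_combination hc4 + (-c * c + 1) * hi
    have hpow : ∀ (k : ℕ) (d : F), (s ^ k : GL4).val = d • 1 → x2.val = d • 1 → x2 ∈ T := by
      intro k d h1 h2
      have : x2 = s ^ k := Units.ext (by rw [h1]; exact h2)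
      rw [this]
      exact T.pow_mem hsT k
    have hi := h.hi
    have hs1 : (s ^ 1 : GL4).val = i • 1 := by rw [pow_one]; exact h.hs
    have hs2 : (s ^ 2 : GL4).val = (-1 : F) • 1 := by
      rw [pow_two, Units.val_mul, h.hs, Matrix.smul_mul, Matrix.mul_smul, one_mul, smul_smul, hi]
    have hs3 : (s ^ 3 : GL4).val = (-i) • 1 := by
      rw [pow_succ, Units.val_mul, hs2, h.hs, Matrix.smul_mul, Matrix.mul_smul, one_mul, smul_smul]
      congr 1
      ring
    have hs0 : (s ^ 0 : GL4).val = (1 : F) • 1 := by simp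
    rcases mul_eq_zero.mp hfac with hf | hf
    · rcases mul_eq_zero.mp hf with hf | hf
      · have : c = 1 := sub_eq_zero.mp hf
        exact hpow 0 1 hs0 (by rw [hx2c, this])
      · have : c = -1 := eq_neg_of_add_eq_zero_left hf
        exact hpow 2 (-1) hs2 (by rw [hx2c, this])
    · rcases mul_eq_zero.mp hf with hf | hf
      · have : c = i := sub_eq_zero.mp hf
        exact hpow 1 i hs1 (by rw [hx2c, this])
      · have : c = -i := eq_neg_of_add_eq_zero_left hf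
        exact hpow 3 (-i) hs3 (by rw [hx2c, this])
  have : x = x2 * t2⁻¹ * t1⁻¹ := by
    rw [hx2]
    group
  rw [this]
  exact T.mul_mem (T.mul_mem hx2T (T.inv_mem ht2T)) (T.inv_mem ht1T)

/-- A matrix corresponding to an element of `R` in the frame `P`. -/
def InR (R : Subgroup GL4) (P : GL4) (W : M4) : Prop := ∃ g ∈ R, (g : M4) * (P : M4) = (P : M4) * W

theorem InR.mul {R : Subgroup GL4} {P : GL4} {W W' : M4} (h : InR R P W) (h' : InR R P W') : InR R P (W * W') := by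
  obtain ⟨g, hg, e⟩ := h
  obtain ⟨g', hg', e'⟩ := h'
  refine ⟨g * g', R.mul_mem hg hg', ?_⟩
  rw [Units.val_mul, mul_assoc, e', ← mul_assoc, e, mul_assoc]

/-- Normalizing relations in the frame `P`. -/
def Nrm (R : Subgroup GL4) (P : GL4) (M : M4) : Prop :=
  (∃ W, InR R P W ∧ M * Z1 = W * M) ∧ (∃ W, InR R P W ∧ M * X1 = W * M) ∧
    (∃ W, InR R P W ∧ M * Z2 = W * M) ∧ (∃ W, InR R P W ∧ M * X2 = W * M)

theorem Nrm.smul {R : Subgroup GL4} {P : GL4} {M : M4} (h : Nrm R P M) (c : F) : Nrm R P (c • M) := by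
  obtain ⟨⟨W1, h1, e1⟩, ⟨W2, h2, e2⟩, ⟨W3, h3, e3⟩, ⟨W4, h4, e4⟩⟩ := h
  refine ⟨⟨W1, h1, ?_⟩, ⟨W2, h2, ?_⟩, ⟨W3, h3, ?_⟩, ⟨W4, h4, ?_⟩⟩
  · rw [Matrix.smul_mul, Matrix.mul_smul, e1]
  · rw [Matrix.smul_mul, Matrix.mul_smul, e2]
  · rw [Matrix.smul_mul, Matrix.mul_smul, e3]
  · rw [Matrix.smul_mul, Matrix.mul_smul, e4]

/-- Membership in the normalizer from generators of a finite subgroup. -/
theorem mem_norm_of_gens (R : Subgroup GL4) [Finite R] (S : Set GL4) (hcl : Subgroup.closure S = R) (y : GL4)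
    (h : ∀ u ∈ S, y * u * y⁻¹ ∈ R) : y ∈ subgroupNormalizer R := by
  classical
  have hfw : ∀ u ∈ R, y * u * y⁻¹ ∈ R := by
    intro u hu
    rw [← hcl] at hu
    induction hu using Subgroup.closure_induction with
    | mem x hx =>
      exact h x hx
    | one => simp [R.one_mem]
    | mul x₁ x₂ _ _ h₁ h₂ =>
      have : y * (x₁ * x₂) * y⁻¹ = (y * x₁ * y⁻¹) * (y * x₂ * y⁻¹) := by group
      rw [this]
      exact R.mul_mem h₁ h₂
    | inv x₁ _ h₁ =>
      have : y * x₁⁻¹ * y⁻¹ = (y * x₁ * y⁻¹)⁻¹ := by group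
      rw [this]
      exact R.inv_mem h₁
  unfold subgroupNormalizer
  rw [Subgroup.mem_normalizer_iff]
  intro u
  refine ⟨hfw u, fun hu => ?_⟩
  let φ : R → R := fun v => ⟨y * v * y⁻¹, hfw v v.2⟩
  have hφ : Function.Injective φ := by
    intro v₁ v₂ hv
    have := congrArg Subtype.val hv
    simp only [φ] at this
    exact Subtype.ext (by simpa using this)
  obtain ⟨v, hv⟩ := (Finite.injective_iff_surjective.mp hφ) ⟨y * u * y⁻¹, hu⟩
  have := congrArg Subtype.val hv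
  simp only [φ] at this
  have huv : (v : GL4) = u := by simpa using this
  rw [← huv]
  exact v.2

section StdFacts

theorem Std.finite {R : Subgroup GL4} {i : F} {s a1 b1 a2 b2 P : GL4} (h : Std R i s a1 b1 a2 b2 P) : Finite R :=
  Nat.finite_of_card_ne_zero (by rw [h.base.card]; norm_num)

theorem Std.inZ1 {R : Subgroup GL4} {i : F} {s a1 b1 a2 b2 P : GL4} (h : Std R i s a1 b1 a2 b2 P) : InR R P Z1 := ⟨a1, h.a1m, h.a1P⟩
theorem Std.inX1 {R : Subgroup GL4} {i : F} {s a1 b1 a2 b2 P : GL4} (h : Std R i s a1 b1 a2 b2 P) : InR R P X1 := ⟨b1, h.b1m, h.b1P⟩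
theorem Std.inZ2 {R : Subgroup GL4} {i : F} {s a1 b1 a2 b2 P : GL4} (h : Std R i s a1 b1 a2 b2 P) : InR R P Z2 := ⟨a2, h.a2m, h.a2P⟩
theorem Std.inX2 {R : Subgroup GL4} {i : F} {s a1 b1 a2 b2 P : GL4} (h : Std R i s a1 b1 a2 b2 P) : InR R P X2 := ⟨b2, h.b2m, h.b2P⟩
theorem Std.inI {R : Subgroup GL4} {i : F} {s a1 b1 a2 b2 P : GL4} (h : Std R i s a1 b1 a2 b2 P) : InR R P (i • 1) :=
  ⟨s, h.base.smem, by rw [h.base.hs, Matrix.smul_mul, Matrix.mul_smul, one_mul, mul_one]⟩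

theorem Std.mem_norm {R : Subgroup GL4} {i : F} {s a1 b1 a2 b2 P : GL4} (h : Std R i s a1 b1 a2 b2 P) (y : GL4) (M : M4) (hy : (y : M4) * (P : M4) = (P : M4) * M) (hM : Nrm R P M) :
    y ∈ subgroupNormalizer R := by
  haveI := h.finite
  have key : ∀ (u : GL4) (A W : M4), (u : M4) * (P : M4) = (P : M4) * A → InR R P W → M * A = W * M → y * u * y⁻¹ ∈ R := by
    intro u A W hu hW hMA
    obtain ⟨g, hg, e⟩ := hW
    have : y * u = g * y := by
      have h1 : (y * u) * P = (g * y) * P := by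
        apply Units.ext
        rw [Units.val_mul, Units.val_mul, Units.val_mul, Units.val_mul, mul_assoc, hu, ← mul_assoc, hy, mul_assoc, hMA, ← mul_assoc,
          mul_assoc (g : M4), hy, ← mul_assoc, e]
      exact mul_right_cancel h1
    rw [this, mul_inv_cancel_right]
    exact hg
  obtain ⟨⟨W1, h1, e1⟩, ⟨W2, h2, e2⟩, ⟨W3, h3, e3⟩, ⟨W4, h4, e4⟩⟩ := hM
  apply mem_norm_of_gens R _ h.cl
  rintro u (rfl | rfl | rfl | rfl | rfl)
  · have : y * u = u * y := by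
      apply Units.ext
      rw [Units.val_mul, Units.val_mul, h.base.hs, Matrix.smul_mul, Matrix.mul_smul, one_mul, mul_one]
    rw [this, mul_inv_cancel_right]
    exact h.base.smem
  · exact key _ _ _ h.a1P h1 e1
  · exact key _ _ _ h.b1P h2 e2
  · exact key _ _ _ h.a2P h3 e3
  · exact key _ _ _ h.b2P h4 e4

theorem Std.nrm_CZ {R : Subgroup GL4} {i : F} {s a1 b1 a2 b2 P : GL4} (h : Std R i s a1 b1 a2 b2 P) : Nrm R P CZ :=
  ⟨⟨_, h.inZ1, CZ_Z1⟩, ⟨_, h.inX1.mul h.inZ2, CZ_X1⟩, ⟨_, h.inZ2, CZ_Z2⟩, ⟨_, h.inZ1.mul h.inX2, CZ_X2⟩⟩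

theorem Std.nrm_P3 {R : Subgroup GL4} {i : F} {s a1 b1 a2 b2 P : GL4} (h : Std R i s a1 b1 a2 b2 P) : Nrm R P P3 :=
  ⟨⟨_, h.inZ2, P3_Z1⟩, ⟨_, h.inX1.mul h.inX2, P3_X1⟩, ⟨_, h.inZ1.mul h.inZ2, P3_Z2⟩, ⟨_, h.inX1, P3_X2⟩⟩

theorem Std.nrm_Z2 {R : Subgroup GL4} {i : F} {s a1 b1 a2 b2 P : GL4} (h : Std R i s a1 b1 a2 b2 P) : Nrm R P Z2 :=
  ⟨⟨_, h.inZ1, Z2_Z1⟩, ⟨_, h.inX1, Z2_X1⟩, ⟨_, h.inZ2, Z2_Z2⟩, ⟨_, (h.inI.mul h.inI).mul h.inX2, Z2_X2 i h.base.hi⟩⟩

theorem Std.nrm_M32 {R : Subgroup GL4} {i : F} {s a1 b1 a2 b2 P : GL4} (h : Std R i s a1 b1 a2 b2 P) : Nrm R P (M32' i) :=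
  ⟨⟨_, h.inX1, M32_Z1 i h.base.hi⟩, ⟨_, (h.inI.mul h.inZ1).mul h.inX1, M32_X1 i h.base.hi⟩,
    ⟨_, h.inZ2, M32_Z2 i h.base.hi⟩, ⟨_, h.inX2, M32_X2 i h.base.hi⟩⟩

theorem Std.nrm_M5 {R : Subgroup GL4} {i : F} {s a1 b1 a2 b2 P : GL4} (h : Std R i s a1 b1 a2 b2 P) : Nrm R P (M5' i) :=
  ⟨⟨_, h.inX1, M5_Z1 i h.base.hi⟩, ⟨_, ((h.inI.mul h.inZ1).mul h.inX1).mul h.inX2, M5_X1 i h.base.hi⟩,
    ⟨_, h.inX2, M5_Z2 i h.base.hi⟩, ⟨_, h.inX1.mul h.inZ2, M5_X2 i h.base.hi⟩⟩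

theorem mem_sl (g : GL4) (hg : (g : M4).det = 1) : g ∈ specialLinear (Fin 4) F := by
  unfold specialLinear
  rw [MonoidHom.mem_ker]
  apply Units.ext
  simpa using hg

/-- The final step for the sufficiency: from a conjugate of `x` to a scalar multiple of a normalizing matrix `M`
which commutes with matrices of every non-zero determinant, to a conjugate by a matrix of determinant one. -/
theorem Std.final {R : Subgroup GL4} {i : F} {s a1 b1 a2 b2 P : GL4} (h : Std R i s a1 b1 a2 b2 P) (x u : GL4) (M : M4) (w : F) (hM : Nrm R P M)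
    (hconj : ((u⁻¹ * x * u : GL4) : M4) = w • M)
    (hD : ∀ d : F, d ≠ 0 → ∃ D : GL4, (D : M4) * M = M * D ∧ (D : M4).det = d) :
    ∃ g ∈ specialLinear (Fin 4) F, g⁻¹ * x * g ∈ subgroupNormalizer R := by
  have hdetu : (u : M4).det ≠ 0 := by
    have := (Matrix.isUnit_iff_isUnit_det _).mp u.isUnit
    exact this.ne_zero
  have hdetP : (P : M4).det ≠ 0 := by
    have := (Matrix.isUnit_iff_isUnit_det _).mp P.isUnit
    exact this.ne_zero
  obtain ⟨D, hDM, hDd⟩ := hD ((P : M4).det * ((u : M4).det)⁻¹) (mul_ne_zero hdetP (inv_ne_zero hdetu))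
  refine ⟨u * D * P⁻¹, ?_, ?_⟩
  · apply mem_sl
    have e1 : ((P⁻¹ : GL4) : M4).det * (P : M4).det = 1 := by
      rw [← Matrix.det_mul, ← Units.val_mul]
      simp
    rw [Units.val_mul, Units.val_mul, Matrix.det_mul, Matrix.det_mul, hDd]
    field_simp
    have : ((P⁻¹ : GL4) : M4).det = ((P : M4).det)⁻¹ := eq_inv_of_mul_eq_one_left e1
    rw [this]
    field_simp
  · apply h.mem_norm _ (w • M)
    · have e1 : (u * D * P⁻¹)⁻¹ * x * (u * D * P⁻¹) * P = P * (D⁻¹ * (u⁻¹ * x * u) * D) := by group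
      have e2 := congrArg (fun t : GL4 => (t : M4)) e1
      simp only [Units.val_mul] at e2 ⊢
      rw [e2]
      congr 1
      have hc : ((u⁻¹ : GL4) : M4) * x * u = w • M := by simpa [Units.val_mul] using hconj
      rw [hc, mul_assoc, Matrix.smul_mul, ← hDM, ← Matrix.smul_mul, ← mul_assoc, Matrix.mul_smul]
      simp only [Matrix.smul_mul]
      rw [← Units.val_mul]
      simp
    · exact hM.smul w

end StdFacts

end Cfsg.Agent.Lib.Sym64
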