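import Mathlib
import Cfsg.Prelude.Def_GeometricClasses
import Cfsg.Agent.Lib.Sym64D

set_option autoImplicit false
open scoped MatrixGroups

namespace Cfsg.Agent.Lib.Sym64

open Matrix Cfsg.Geo

variable {F : Type*} [Field F]

local notation "M4" => Matrix (Fin 4) (Fin 4) F
local notation "GL4" => GL (Fin 4) F
local notation "V4" => (Fin 4 → F)

theorem Base.finite {R : Subgroup GL4} {i : F} {s : GL4} (h : Base R i s) : Finite R :=
  Nat.finite_of_card_ne_zero (by rw [h.card]; norm_num)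

theorem Base.trace_zero {R : Subgroup GL4} {i : F} {s : GL4} (h : Base R i s) (a : GL4) (ha : a ∈ R)
    (hn : ∀ c : F, (a : M4) ≠ c • 1) : (a : M4).trace = 0 := by
  obtain ⟨b, hb, hab⟩ := h.anti a ha hn
  have hbi : (b : M4) * ((b⁻¹ : GL4) : M4) = 1 := by
    rw [← Units.val_mul, mul_inv_cancel]
    rfl
  have hib : ((b⁻¹ : GL4) : M4) * (b : M4) = 1 := by
    rw [← Units.val_mul, inv_mul_cancel]
    rfl
  have e : (a : M4) = -((b : M4) * a * ((b⁻¹ : GL4) : M4)) := by
    have h1 : (a : M4) * b * ((b⁻¹ : GL4) : M4) = a := by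
      rw [mul_assoc, hbi, mul_one]
    rw [hab, neg_mul] at h1
    exact h1.symm
  have e2 : ((b : M4) * a * ((b⁻¹ : GL4) : M4)).trace = (a : M4).trace := by
    rw [Matrix.trace_mul_comm, ← mul_assoc, hib, one_mul]
  have e3 : (a : M4).trace = -(a : M4).trace := by
    nth_rewrite 1 [e]
    rw [Matrix.trace_neg, e2]
  have : (2 : F) * (a : M4).trace = 0 := by linear_combination e3
  exact (mul_eq_zero.mp this).resolve_left h.h2

/-- Counting fixed points modulo a prime. -/
theorem fix_mod (S : Subgroup GL4) [Finite S] (y : GL4) (hy : ∀ a ∈ S, y * a * y⁻¹ ∈ S) (r : ℕ) [Fact r.Prime]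
    (hr : ∀ a ∈ S, y ^ r * a = a * y ^ r) :
    Nat.card S ≡ Nat.card (S ⊓ Subgroup.centralizer ({y} : Set GL4) : Subgroup GL4) [MOD r] := by
  classical
  haveI : Fintype S := Fintype.ofFinite S
  let f : Function.End S := fun a => ⟨y * a * y⁻¹, hy a a.2⟩
  have hpow : ∀ (k : ℕ) (a : S), (((f ^ k : Function.End S) a : S) : GL4) = y ^ k * a * (y ^ k)⁻¹ := by
    intro k
    induction k with
    | zero =>
      intro a
      simp
      rfl
    | succ k ih =>
      intro a
      rw [pow_succ']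
      show y * (((f ^ k : Function.End S) a : S) : GL4) * y⁻¹ = _
      rw [ih, pow_succ']
      group
  have hf : f ^ r ^ 1 = 1 := by
    rw [pow_one]
    funext a
    apply Subtype.ext
    rw [hpow, hr a a.2, mul_inv_cancel_right]
    rfl
  have := Equiv.Perm.card_fixedPoints_modEq hf
  rw [← Nat.card_eq_fintype_card, ← Nat.card_eq_fintype_card] at this
  have hc : Nat.card (Function.fixedPoints f) = Nat.card (S ⊓ Subgroup.centralizer ({y} : Set GL4) : Subgroup GL4) := by
    apply Nat.card_congr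
    refine ⟨fun a => ⟨a.1, a.1.2, ?_⟩, fun a => ⟨⟨a.1, a.2.1⟩, ?_⟩, ?_, ?_⟩
    · have h1 : f a.1 = a.1 := a.2
      have h2 : y * (a.1 : GL4) * y⁻¹ = a.1 := congrArg Subtype.val h1
      exact Subgroup.mem_centralizer_singleton_iff.mpr (mul_inv_eq_iff_eq_mul.mp h2).symm
    · apply Subtype.ext
      show y * (a.1 : GL4) * y⁻¹ = a.1
      have h2 : (a.1 : GL4) ∈ Subgroup.centralizer ({y} : Set GL4) := a.2.2
      rw [Subgroup.mem_centralizer_singleton_iff] at h2
      rw [← h2, mul_inv_cancel_right]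
    · intro a
      rfl
    · intro a
      rfl
  rw [hc] at this
  exact this

theorem Base.order_s {R : Subgroup GL4} {i : F} {s : GL4} (h : Base R i s) : orderOf s = 4 := by
  have h1 : (s ^ 2 : GL4) ≠ 1 := by
    intro e
    have := congrArg (fun t : GL4 => ((t : M4) 0 0)) e
    simp only [pow_two, Units.val_mul, h.hs, Matrix.smul_mul, Matrix.mul_smul, one_mul, smul_smul, h.hi] at this
    have h3 : (-1 : F) = 1 := by simpa using this
    have h4 : (2 : F) = 0 := by linear_combination -h3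
    exact h.h2 h4
  have h2 : (s ^ 4 : GL4) = 1 := h.pow4 s h.smem
  have := orderOf_eq_prime_pow (p := 2) (n := 1) (x := s) (by simpa using h1) (by simpa using h2)
  simpa using this

theorem Base.card_zpowers {R : Subgroup GL4} {i : F} {s : GL4} (h : Base R i s) : Nat.card (Subgroup.zpowers s) = 4 := by
  rw [Nat.card_zpowers, h.order_s]

theorem Base.zpowers_le {R : Subgroup GL4} {i : F} {s : GL4} (h : Base R i s) (y : GL4) :
    Subgroup.zpowers s ≤ R ⊓ Subgroup.centralizer ({y} : Set GL4) := by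
  rw [Subgroup.zpowers_le]
  refine ⟨h.smem, Subgroup.mem_centralizer_singleton_iff.mpr ?_⟩
  apply Units.ext
  rw [Units.val_mul, Units.val_mul, h.hs, Matrix.smul_mul, Matrix.mul_smul, one_mul, mul_one]

/-- Scalars in `R` are powers of `s`. -/
theorem Base.scalar_mem {R : Subgroup GL4} {i : F} {s : GL4} (h : Base R i s) (a : GL4) (ha : a ∈ R) (c : F)
    (hc : (a : M4) = c • 1) : a ∈ Subgroup.zpowers s := by
  have h44 : (a : M4) * a * a * a = 1 := by
    have := mul_four_eq_one (h.pow4 a ha)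
    have := congrArg (fun t : GL4 => (t : M4)) this
    simpa using this
  rw [hc] at h44
  simp only [Matrix.smul_mul, one_mul, Matrix.mul_smul, mul_one, smul_smul] at h44
  have hc4 : c * c * c * c = 1 := by
    have := congrFun (congrFun h44 0) 0
    simpa [mul_assoc] using this
  have hi := h.hi
  have hfac : (c - 1) * (c + 1) * ((c - i) * (c + i)) = 0 := by
    linear_combination hc4 + (-c * c + 1) * hi
  have hpow : ∀ (k : ℕ) (d : F), (s ^ k : GL4).val = d • 1 → a.val = d • 1 → a ∈ Subgroup.zpowers s := by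
    intro k d h1 h2
    have : a = s ^ k := Units.ext (by rw [h1]; exact h2)
    rw [this]
    exact Subgroup.npow_mem_zpowers s k
  have hs1 : (s ^ 1 : GL4).val = i • 1 := by rw [pow_one]; exact h.hs
  have hs2 : (s ^ 2 : GL4).val = (-1 : F) • 1 := by
    rw [pow_two, Units.val_mul, h.hs, Matrix.smul_mul, Matrix.mul_smul, one_mul, smul_smul, hi]
  have hs3 : (s ^ 3 : GL4).val = (-i) • 1 := by
    rw [pow_succ, Units.val_mul, hs2, h.hs, Matrix.smul_mul, Matrix.mul_smul, one_mul, smul_smul]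
    congr 1
    ring
  have hs0 : (s ^ 0 : GL4).val = (1 : F) • 1 := by simp
  rcases mul_eq_zero.mp hfac with hf | hf
  · rcases mul_eq_zero.mp hf with hf | hf
    · have : c = 1 := sub_eq_zero.mp hf
      exact hpow 0 1 hs0 (by rw [hc, this])
    · have : c = -1 := eq_neg_of_add_eq_zero_left hf
      exact hpow 2 (-1) hs2 (by rw [hc, this])
  · rcases mul_eq_zero.mp hf with hf | hf
    · have : c = i := sub_eq_zero.mp hf
      exact hpow 1 i hs1 (by rw [hc, this])
    · have : c = -i := eq_neg_of_add_eq_zero_left hf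
      exact hpow 3 (-i) hs3 (by rw [hc, this])

theorem Base.scalar_of_mem {R : Subgroup GL4} {i : F} {s : GL4} (h : Base R i s) (a : GL4) (ha : a ∈ Subgroup.zpowers s) :
    ∃ c : F, (a : M4) = c • 1 := by
  have hfin : IsOfFinOrder s := orderOf_pos_iff.mp (by rw [h.order_s]; norm_num)
  obtain ⟨n, rfl⟩ := (hfin.mem_powers_iff_mem_zpowers.mpr ha)
  refine ⟨i ^ n, ?_⟩
  induction n with
  | zero => simp
  | succ n ih =>
    have ih' := ih (Subgroup.npow_mem_zpowers s n)
    show ((s ^ (n + 1) : GL4) : M4) = _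
    rw [pow_succ, Units.val_mul]
    have ih'' : ((s ^ n : GL4) : M4) = i ^ n • 1 := ih'
    rw [ih'', h.hs, Matrix.smul_mul, Matrix.mul_smul, one_mul, smul_smul, pow_succ]

/-- The trace formula. -/
theorem Base.trace_formula {R : Subgroup GL4} {i : F} {s : GL4} (h : Base R i s) (y : GL4) (hyN : y ∈ subgroupNormalizer R)
    (r : ℕ) (hr : r.Prime) (hodd : r ≠ 2) (z : F) (hz : ((y ^ r : GL4) : M4) = z • 1) :
    (4 : F) * (y : M4).trace * ((y⁻¹ : GL4) : M4).trace = (Nat.card (R ⊓ Subgroup.centralizer ({y} : Set GL4) : Subgroup GL4) : F) := by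
  classical
  haveI := h.finite
  haveI : Fintype R := Fintype.ofFinite R
  have h4 : (4 : F) ≠ 0 := by
    have : (4 : F) = 2 * 2 := by norm_num
    rw [this]
    exact mul_ne_zero h.h2 h.h2
  have hN : ∀ a, a ∈ R ↔ y * a * y⁻¹ ∈ R := Subgroup.mem_normalizer_iff.mp hyN
  have hN' : ∀ a ∈ R, y⁻¹ * a * y ∈ R := by
    intro a ha
    apply (hN _).mpr
    simpa [mul_assoc] using ha
  have hval : ∀ u v : GL4, ((u * v : GL4) : M4) = (u : M4) * (v : M4) := fun u v => rfl
  let term : R → M4 := fun a => (((a : GL4) * y * (a : GL4)⁻¹ : GL4) : M4)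
  set S : M4 := ∑ a : R, term a with hS
  have hcomm : ∀ b ∈ R, S * (b : M4) = (b : M4) * S := by
    intro b hb
    let b' : R := ⟨b, hb⟩
    calc S * (b : M4) = ∑ a : R, term a * (b : M4) := Finset.sum_mul _ _ _
      _ = ∑ c : R, term (b' * c) * (b : M4) :=
        (Equiv.sum_comp (Equiv.mulLeft b') (fun a => term a * (b : M4))).symm
      _ = ∑ c : R, (b : M4) * term c := by
        apply Finset.sum_congr rfl
        intro c _
        simp only [term]
        rw [← hval, ← hval]
        congr 1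
        show b * (c : GL4) * y * (b * (c : GL4))⁻¹ * b = b * ((c : GL4) * y * (c : GL4)⁻¹)
        group
      _ = (b : M4) * S := Finset.mul_sum _ _ _ |>.symm
  obtain ⟨l, hl⟩ := h.central S hcomm
  have htr : ((l • (1 : M4)).trace) = l * 4 := by
    simp [Matrix.trace_smul, Matrix.trace_one]
  have hterm : ∀ a : R, (term a).trace = (y : M4).trace := by
    intro a
    simp only [term]
    rw [hval, hval, Matrix.trace_mul_comm, ← mul_assoc, ← hval, ← hval]
    simp
  have hS1 : S.trace = 64 * (y : M4).trace := by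
    rw [hS, Matrix.trace_sum]
    simp only [hterm]
    rw [Finset.sum_const, Finset.card_univ, ← Nat.card_eq_fintype_card, h.card]
    norm_num
  have hl1 : l * 4 = 64 * (y : M4).trace := by
    rw [← htr, ← hl, hS1]
  have hl2 : l = 16 * (y : M4).trace := by
    apply mul_right_cancel₀ h4
    rw [hl1]
    ring
  -- second trace computation
  set C := (R ⊓ Subgroup.centralizer ({y} : Set GL4) : Subgroup GL4) with hC
  have hc_val : ∀ a : R, (((y⁻¹ : GL4) : M4) * term a).trace = if (a : GL4) ∈ Subgroup.centralizer ({y} : Set GL4) then (4 : F) else 0 := by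
    intro a
    have hca : y⁻¹ * ((a : GL4) * y * (a : GL4)⁻¹) ∈ R := by
      have e : y⁻¹ * ((a : GL4) * y * (a : GL4)⁻¹) = (y⁻¹ * (a : GL4) * y) * (a : GL4)⁻¹ := by group
      rw [e]
      exact R.mul_mem (hN' _ a.2) (R.inv_mem a.2)
    have e0 : ((y⁻¹ : GL4) : M4) * term a = ((y⁻¹ * ((a : GL4) * y * (a : GL4)⁻¹) : GL4) : M4) := rfl
    rw [e0]
    split_ifs with hmem
    · rw [Subgroup.mem_centralizer_singleton_iff] at hmem
      have : y⁻¹ * ((a : GL4) * y * (a : GL4)⁻¹) = 1 := by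
        rw [hmem]
        group
      rw [this]
      simp [Matrix.trace_one]
    · apply h.trace_zero _ hca
      intro κ hκ
      apply hmem
      rw [Subgroup.mem_centralizer_singleton_iff]
      -- y⁻¹ a y = κ a
      set ca : GL4 := y⁻¹ * ((a : GL4) * y * (a : GL4)⁻¹) with hcaDef
      have e1 : y⁻¹ * (a : GL4) * y = ca * a := by
        rw [hcaDef]
        group
      have e2 : ((y⁻¹ * (a : GL4) * y : GL4) : M4) = κ • ((a : GL4) : M4) := by
        rw [e1, hval, hκ, Matrix.smul_mul, one_mul]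
      have e3 : ∀ k : ℕ, (((y⁻¹) ^ k * (a : GL4) * y ^ k : GL4) : M4) = κ ^ k • ((a : GL4) : M4) := by
        intro k
        induction k with
        | zero => simp
        | succ k ih =>
          have : (y⁻¹) ^ (k + 1) * (a : GL4) * y ^ (k + 1) = y⁻¹ * ((y⁻¹) ^ k * (a : GL4) * y ^ k) * y := by
            rw [pow_succ', pow_succ]
            group
          rw [this, hval, hval, ih, Matrix.mul_smul, Matrix.smul_mul, ← hval, ← hval, e2, smul_smul, pow_succ]
      have e4 := e3 r
      have e5 : (y⁻¹) ^ r * (a : GL4) * y ^ r = a := by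
        have c1 : y ^ r * (a : GL4) = a * y ^ r := by
          apply Units.ext
          rw [hval, hval, hz, Matrix.smul_mul, Matrix.mul_smul, one_mul, mul_one]
        rw [inv_pow, mul_assoc, ← c1]
        group
      rw [e5] at e4
      have ha0 : ((a : GL4) : M4) ≠ 0 := by
        intro h0
        have := (a : GL4).val_inv
        rw [h0, zero_mul] at this
        exact zero_ne_one this
      have hκr : κ ^ r = 1 := by
        have e6 : (κ ^ r - 1) • ((a : GL4) : M4) = 0 := by
          rw [sub_smul, ← e4, one_smul, sub_self]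
        exact sub_eq_zero.mp ((smul_eq_zero.mp e6).resolve_right ha0)
      have hκ4 : κ ^ 4 = 1 := by
        have e6 := congrArg (fun t : GL4 => (t : M4)) (h.pow4 _ hca)
        simp only [Units.val_one, Units.val_pow_eq_pow_val] at e6
        rw [hκ] at e6
        rw [smul_pow, one_pow] at e6
        have := congrFun (congrFun e6 0) 0
        simpa using this
      have hκ1 : κ = 1 := by
        have hg : Nat.gcd r 4 = 1 := by
          have h2r : Nat.Coprime r 2 := (Nat.coprime_primes hr Nat.prime_two).mpr hodd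
          have : Nat.Coprime r (2 ^ 2) := h2r.pow_right 2
          exact this
        have := pow_gcd_eq_one.mpr ⟨hκr, hκ4⟩
        rwa [hg, pow_one] at this
      have e7 : ca = 1 := by
        apply Units.ext
        rw [hκ, hκ1, one_smul]
        rfl
      rw [hcaDef] at e7
      have e8 : (a : GL4) * y * (a : GL4)⁻¹ = y := by
        have := congrArg (fun t => y * t) e7
        simpa using this
      exact (mul_inv_eq_iff_eq_mul.mp e8)
  have hT : (((y⁻¹ : GL4) : M4) * S).trace = 4 * (Nat.card C : F) := by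
    rw [hS, Finset.mul_sum, Matrix.trace_sum]
    simp only [hc_val]
    rw [Finset.sum_ite, Finset.sum_const_zero, add_zero, Finset.sum_const, nsmul_eq_mul, mul_comm]
    congr 2
    rw [← Fintype.card_subtype, ← Nat.card_eq_fintype_card]
    apply Nat.card_congr
    refine ⟨fun a => ⟨a.1.1, a.1.2, a.2⟩, fun a => ⟨⟨a.1, a.2.1⟩, a.2.2⟩, ?_, ?_⟩
    · intro a
      rfl
    · intro a
      rfl
  have hT2 : (((y⁻¹ : GL4) : M4) * S).trace = l * ((y⁻¹ : GL4) : M4).trace := by
    rw [hl, Matrix.mul_smul, mul_one, Matrix.trace_smul, smul_eq_mul]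
  rw [hT, hl2] at hT2
  apply mul_left_cancel₀ h4
  rw [hT2]
  ring

/-- The possible sizes of the centraliser. -/
theorem Base.numerics {R : Subgroup GL4} {i : F} {s : GL4} (h : Base R i s) (y : GL4) (hyN : y ∈ subgroupNormalizer R)
    (r : ℕ) [Fact r.Prime] (z : F) (hz : ((y ^ r : GL4) : M4) = z • 1) (hn : ∀ c : F, (y : M4) ≠ c • 1) :
    ∃ n : ℕ, Nat.card (R ⊓ Subgroup.centralizer ({y} : Set GL4) : Subgroup GL4) = n ∧ (n = 4 ∨ n = 8 ∨ n = 16 ∨ n = 32) ∧
      n ≡ 64 [MOD r] := by
  classical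
  haveI := h.finite
  have hN : ∀ a, a ∈ R ↔ y * a * y⁻¹ ∈ R := Subgroup.mem_normalizer_iff.mp hyN
  have hmod := fix_mod R y (fun a ha => (hN a).mp ha) r (fun a _ => by
    apply Units.ext
    rw [Units.val_mul, Units.val_mul, hz, Matrix.smul_mul, Matrix.mul_smul, one_mul, mul_one])
  rw [h.card] at hmod
  set C := (R ⊓ Subgroup.centralizer ({y} : Set GL4) : Subgroup GL4) with hC
  have hCR : C ≤ R := inf_le_left
  have hd : Nat.card C ∣ 64 := by
    rw [← h.card]
    exact Subgroup.card_dvd_of_le hCR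
  have hd4 : 4 ∣ Nat.card C := by
    have := Subgroup.card_dvd_of_le (h.zpowers_le y)
    rwa [h.card_zpowers] at this
  have hne : Nat.card C ≠ 64 := by
    intro he
    have : C = R := by
      apply Subgroup.eq_of_le_of_card_ge hCR
      rw [h.card, he]
    obtain ⟨c, hc⟩ := h.central (y : M4) (fun a ha => by
      have : a ∈ C := by rw [this]; exact ha
      have h2 : a ∈ Subgroup.centralizer ({y} : Set GL4) := this.2
      rw [Subgroup.mem_centralizer_singleton_iff] at h2
      have h3 := congrArg (fun t : GL4 => (t : M4)) h2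
      simpa using h3.symm)
    exact hn c hc
  refine ⟨_, rfl, ?_, hmod.symm⟩
  have hle : Nat.card C ≤ 64 := Nat.le_of_dvd (by norm_num) hd
  obtain ⟨k, hk⟩ := hd4
  rw [hk] at hd hne hle ⊢
  have hk16 : k ≤ 16 := by omega
  have key : ∀ k : ℕ, k ≤ 16 → 4 * k ∣ 64 → 4 * k ≠ 64 → 4 * k = 4 ∨ 4 * k = 8 ∨ 4 * k = 16 ∨ 4 * k = 32 := by
    decide
  exact key k hk16 hd hne

theorem prime_dvd60 {r : ℕ} (hr : r.Prime) (h : r ∣ 60) : r = 2 ∨ r = 3 ∨ r = 5 := by
  have e : (60 : ℕ) = 2 * (2 * (3 * 5)) := by norm_num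
  rw [e] at h
  rcases (Nat.Prime.dvd_mul hr).mp h with h | h
  · exact Or.inl ((Nat.prime_dvd_prime_iff_eq hr Nat.prime_two).mp h)
  rcases (Nat.Prime.dvd_mul hr).mp h with h | h
  · exact Or.inl ((Nat.prime_dvd_prime_iff_eq hr Nat.prime_two).mp h)
  rcases (Nat.Prime.dvd_mul hr).mp h with h | h
  · exact Or.inr (Or.inl ((Nat.prime_dvd_prime_iff_eq hr Nat.prime_three).mp h))
  · exact Or.inr (Or.inr ((Nat.prime_dvd_prime_iff_eq hr Nat.prime_five).mp h))

theorem prime_dvd56 {r : ℕ} (hr : r.Prime) (h : r ∣ 56) : r = 2 ∨ r = 7 := by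
  have e : (56 : ℕ) = 2 ^ 3 * 7 := by norm_num
  rw [e] at h
  rcases (Nat.Prime.dvd_mul hr).mp h with h | h
  · exact Or.inl ((Nat.prime_dvd_prime_iff_eq hr Nat.prime_two).mp (hr.dvd_of_dvd_pow h))
  · exact Or.inr ((Nat.prime_dvd_prime_iff_eq hr (by norm_num)).mp h)

theorem prime_dvd48 {r : ℕ} (hr : r.Prime) (h : r ∣ 48) : r = 2 ∨ r = 3 := by
  have e : (48 : ℕ) = 2 ^ 4 * 3 := by norm_num
  rw [e] at h
  rcases (Nat.Prime.dvd_mul hr).mp h with h | h
  · exact Or.inl ((Nat.prime_dvd_prime_iff_eq hr Nat.prime_two).mp (hr.dvd_of_dvd_pow h))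
  · exact Or.inr ((Nat.prime_dvd_prime_iff_eq hr Nat.prime_three).mp h)

theorem prime_dvd32 {r : ℕ} (hr : r.Prime) (h : r ∣ 32) : r = 2 := by
  have e : (32 : ℕ) = 2 ^ 5 := by norm_num
  rw [e] at h
  exact (Nat.prime_dvd_prime_iff_eq hr Nat.prime_two).mp (hr.dvd_of_dvd_pow h)

/-- Half of the elements of `R` commute with a given element. -/
theorem Base.half_le {R : Subgroup GL4} {i : F} {s : GL4} (h : Base R i s) (a : GL4) (ha : a ∈ R)
    (hn : ∀ c : F, (a : M4) ≠ c • 1) :
    Nat.card (R ⊓ Subgroup.centralizer ({a} : Set GL4) : Subgroup GL4) = 32 := by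
  classical
  haveI := h.finite
  set S := (R ⊓ Subgroup.centralizer ({a} : Set GL4) : Subgroup GL4) with hS
  obtain ⟨b, hb, hab⟩ := h.anti a ha hn
  have hmem : ∀ x : GL4, x ∈ S ↔ x ∈ R ∧ x * a = a * x := by
    intro x
    rw [hS]
    constructor
    · rintro ⟨h1, h2⟩
      exact ⟨h1, Subgroup.mem_centralizer_singleton_iff.mp h2⟩
    · rintro ⟨h1, h2⟩
      exact ⟨h1, Subgroup.mem_centralizer_singleton_iff.mpr h2⟩
  have hor : ∀ x : R, (x : GL4) ∈ S ∨ b * (x : GL4) ∈ S := by
    intro x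
    rcases h.sign x x.2 a ha with h1 | h1
    · left
      exact (hmem _).mpr ⟨x.2, Units.ext h1⟩
    · right
      refine (hmem _).mpr ⟨R.mul_mem hb x.2, Units.ext ?_⟩
      show (b : M4) * ((x : GL4) : M4) * (a : M4) = (a : M4) * ((b : M4) * ((x : GL4) : M4))
      rw [mul_assoc, h1, ← mul_assoc (a : M4), hab]
      noncomm_ring
  haveI : Finite S := Finite.of_injective (Subgroup.inclusion (inf_le_left : S ≤ R)) (Subgroup.inclusion_injective _)
  have hle : Nat.card R ≤ Nat.card (S × Bool) := by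
    let f : R → S × Bool := fun x =>
      if hx : (x : GL4) ∈ S then (⟨x, hx⟩, true) else (⟨b * x, (hor x).resolve_left hx⟩, false)
    apply Nat.card_le_card_of_injective f
    intro x x' hxx
    by_cases h1 : (x : GL4) ∈ S <;> by_cases h2 : (x' : GL4) ∈ S
    · simp only [f, h1, h2, dif_pos] at hxx
      have := congrArg (fun t => ((t.1 : S) : GL4)) hxx
      exact Subtype.ext this
    · simp [f, h1, h2] at hxx
    · simp [f, h1, h2] at hxx
    · simp only [f, h1, h2, dif_neg, not_false_eq_true] at hxx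
      have := congrArg (fun t => ((t.1 : S) : GL4)) hxx
      exact Subtype.ext (mul_left_cancel this)
  rw [h.card, Nat.card_prod, Nat.card_eq_fintype_card (α := Bool), Fintype.card_bool] at hle
  have hd : Nat.card S ∣ 64 := by
    rw [← h.card]
    exact Subgroup.card_dvd_of_le inf_le_left
  have hne : Nat.card S ≠ 64 := by
    intro he
    have hSR : S = R := by
      apply Subgroup.eq_of_le_of_card_ge inf_le_left
      rw [h.card, he]
    obtain ⟨c, hc⟩ := h.central (a : M4) (fun x hx => by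
      have : x ∈ S := by rw [hSR]; exact hx
      have h2 := ((hmem x).mp this).2
      have h3 := congrArg (fun t : GL4 => (t : M4)) h2
      simpa using h3.symm)
    exact hn c hc
  have h64 : Nat.card S ≤ 64 := Nat.le_of_dvd (by norm_num) hd
  have hge : 32 ≤ Nat.card S := by omega
  have key : ∀ k : ℕ, k ≤ 64 → 32 ≤ k → k ∣ 64 → k ≠ 64 → k = 32 := by decide
  exact key _ h64 hge hd hne

theorem Base.not_seven {R : Subgroup GL4} {i : F} {s : GL4} (h : Base R i s) (y : GL4) (hyN : y ∈ subgroupNormalizer R)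
    (z : F) (hz : ((y ^ 7 : GL4) : M4) = z • 1) (hn : ∀ c : F, (y : M4) ≠ c • 1) : False := by
  classical
  haveI : Fact (Nat.Prime 7) := ⟨by norm_num⟩
  haveI := h.finite
  obtain ⟨n, hn1, hcases, hmod⟩ := h.numerics y hyN 7 z hz hn
  have hn8 : n = 8 := by
    rcases hcases with rfl | rfl | rfl | rfl
    · exact absurd hmod (by decide)
    · rfl
    · exact absurd hmod (by decide)
    · exact absurd hmod (by decide)
  subst hn8
  set C := (R ⊓ Subgroup.centralizer ({y} : Set GL4) : Subgroup GL4) with hC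
  haveI : Finite C := Finite.of_injective (Subgroup.inclusion (inf_le_left : C ≤ R)) (Subgroup.inclusion_injective _)
  obtain ⟨a, haC, haz⟩ : ∃ a ∈ C, a ∉ Subgroup.zpowers s := by
    by_contra hcon
    push_neg at hcon
    have h1 : Nat.card C ≤ Nat.card (Subgroup.zpowers s) := by
      haveI : Finite (Subgroup.zpowers s) := Nat.finite_of_card_ne_zero (by rw [h.card_zpowers]; norm_num)
      exact Subgroup.card_le_of_le hcon
    rw [hn1, h.card_zpowers] at h1
    omega
  have haR : a ∈ R := haC.1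
  have hay : a * y = y * a := Subgroup.mem_centralizer_singleton_iff.mp haC.2
  have han : ∀ c : F, (a : M4) ≠ c • 1 := fun c hc => haz (h.scalar_mem a haR c hc)
  have h32 := h.half_le a haR han
  set S := (R ⊓ Subgroup.centralizer ({a} : Set GL4) : Subgroup GL4) with hS
  haveI : Finite S := Finite.of_injective (Subgroup.inclusion (inf_le_left : S ≤ R)) (Subgroup.inclusion_injective _)
  have hN : ∀ x, x ∈ R ↔ y * x * y⁻¹ ∈ R := Subgroup.mem_normalizer_iff.mp hyN
  have hmod2 := fix_mod S y (fun x hx => by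
      refine ⟨(hN x).mp hx.1, Subgroup.mem_centralizer_singleton_iff.mpr ?_⟩
      have h1 : x * a = a * x := Subgroup.mem_centralizer_singleton_iff.mp hx.2
      have h2 : y⁻¹ * a * y = a := by rw [mul_assoc, hay]; group
      calc y * x * y⁻¹ * a = y * x * (y⁻¹ * a * y) * y⁻¹ := by group
        _ = y * (x * a) * y⁻¹ := by rw [h2]; group
        _ = y * (a * x) * y⁻¹ := by rw [h1]
        _ = (y * a) * x * y⁻¹ := by group
        _ = (a * y) * x * y⁻¹ := by rw [hay]
        _ = a * (y * x * y⁻¹) := by group) 7 (fun x _ => by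
    apply Units.ext
    rw [Units.val_mul, Units.val_mul, hz, Matrix.smul_mul, Matrix.mul_smul, one_mul, mul_one])
  rw [h32] at hmod2
  set W := (S ⊓ Subgroup.centralizer ({y} : Set GL4) : Subgroup GL4) with hW
  have hWC : W ≤ C := fun x hx => ⟨hx.1.1, hx.2⟩
  haveI : Finite W := Finite.of_injective (Subgroup.inclusion hWC) (Subgroup.inclusion_injective _)
  have hZW : Subgroup.zpowers s ≤ W := by
    rw [Subgroup.zpowers_le]
    refine ⟨⟨h.smem, ?_⟩, (h.zpowers_le y (Subgroup.mem_zpowers s)).2⟩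
    exact (h.zpowers_le a (Subgroup.mem_zpowers s)).2
  have haW : a ∈ W := ⟨⟨haR, Subgroup.mem_centralizer_singleton_iff.mpr rfl⟩, haC.2⟩
  have hd1 : Nat.card W ∣ 8 := by
    rw [← hn1]
    exact Subgroup.card_dvd_of_le hWC
  have hd2 : 4 ∣ Nat.card W := by
    have := Subgroup.card_dvd_of_le hZW
    rwa [h.card_zpowers] at this
  have hne : Nat.card W ≠ 4 := by
    intro he
    have : Subgroup.zpowers s = W := by
      apply Subgroup.eq_of_le_of_card_ge hZW
      rw [he, h.card_zpowers]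
    rw [← this] at haW
    exact haz haW
  have key : ∀ k : ℕ, k ≤ 8 → k ∣ 8 → 4 ∣ k → k ≠ 4 → k = 8 := by decide
  have h8 := key _ (Nat.le_of_dvd (by norm_num) hd1) hd1 hd2 hne
  rw [h8] at hmod2
  exact absurd hmod2 (by decide)

theorem Base.prime_le_five {R : Subgroup GL4} {i : F} {s : GL4} (h : Base R i s) (y : GL4) (hyN : y ∈ subgroupNormalizer R)
    (r : ℕ) [hrp : Fact r.Prime] (z : F) (hz : ((y ^ r : GL4) : M4) = z • 1) (hn : ∀ c : F, (y : M4) ≠ c • 1) (hr2 : r ≠ 2) :
    r = 3 ∨ r = 5 := by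
  obtain ⟨n, -, hcases, hmod⟩ := h.numerics y hyN r z hz hn
  have hr := hrp.out
  rcases hcases with rfl | rfl | rfl | rfl
  · have := (Nat.modEq_iff_dvd' (by norm_num)).mp hmod
    rcases prime_dvd60 hr this with h1 | h1 | h1
    · exact absurd h1 hr2
    · exact Or.inl h1
    · exact Or.inr h1
  · have := (Nat.modEq_iff_dvd' (by norm_num)).mp hmod
    rcases prime_dvd56 hr this with h1 | h1
    · exact absurd h1 hr2
    · subst h1
      exact (h.not_seven y hyN z hz hn).elim
  · have := (Nat.modEq_iff_dvd' (by norm_num)).mp hmod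
    rcases prime_dvd48 hr this with h1 | h1
    · exact absurd h1 hr2
    · exact Or.inl h1
  · have := (Nat.modEq_iff_dvd' (by norm_num)).mp hmod
    exact absurd (prime_dvd32 hr this) hr2

theorem Base.three {R : Subgroup GL4} {i : F} {s : GL4} (h : Base R i s) (y : GL4) (hyN : y ∈ subgroupNormalizer R)
    (z : F) (hz : ((y ^ 3 : GL4) : M4) = z • 1) (hn : ∀ c : F, (y : M4) ≠ c • 1) :
    (4 : F) * (y : M4).trace * ((y⁻¹ : GL4) : M4).trace = 4 ∨ (4 : F) * (y : M4).trace * ((y⁻¹ : GL4) : M4).trace = 16 := by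
  haveI : Fact (Nat.Prime 3) := ⟨Nat.prime_three⟩
  obtain ⟨n, hn1, hcases, hmod⟩ := h.numerics y hyN 3 z hz hn
  have ht := h.trace_formula y hyN 3 Nat.prime_three (by norm_num) z hz
  rw [hn1] at ht
  rcases hcases with rfl | rfl | rfl | rfl
  · left; rw [ht]; norm_num
  · exact absurd hmod (by decide)
  · right; rw [ht]; norm_num
  · exact absurd hmod (by decide)

theorem Base.five {R : Subgroup GL4} {i : F} {s : GL4} (h : Base R i s) (y : GL4) (hyN : y ∈ subgroupNormalizer R)
    (z : F) (hz : ((y ^ 5 : GL4) : M4) = z • 1) (hn : ∀ c : F, (y : M4) ≠ c • 1) :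
    Nat.card (R ⊓ Subgroup.centralizer ({y} : Set GL4) : Subgroup GL4) = 4 ∧
      (4 : F) * (y : M4).trace * ((y⁻¹ : GL4) : M4).trace = 4 := by
  haveI : Fact (Nat.Prime 5) := ⟨Nat.prime_five⟩
  obtain ⟨n, hn1, hcases, hmod⟩ := h.numerics y hyN 5 z hz hn
  have ht := h.trace_formula y hyN 5 Nat.prime_five (by norm_num) z hz
  rw [hn1] at ht
  rcases hcases with rfl | rfl | rfl | rfl
  · exact ⟨hn1, by rw [ht]; norm_num⟩
  · exact absurd hmod (by decide)
  · exact absurd hmod (by decide)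
  · exact absurd hmod (by decide)

/-- Ratios of conjugates under a fifth root of unity. -/
theorem Base.no_ratio {R : Subgroup GL4} {i : F} {s : GL4} (h : Base R i s) (y a : GL4) (hy5 : y ^ 5 = 1) (haR : a ∈ R)
    (hay : a * y ≠ y * a) (m : ℕ) (hm : Nat.Coprime m 5) (κ : F) (hκ4 : κ ^ 4 = 1)
    (e : (a : M4) = κ • ((y ^ m * a * (y ^ m)⁻¹ : GL4) : M4)) : False := by
  have hval : ∀ u v : GL4, ((u * v : GL4) : M4) = (u : M4) * (v : M4) := fun u v => rfl
  set g := y ^ m with hg
  have e3 : ∀ k : ℕ, (a : M4) = κ ^ k • ((g ^ k * a * (g ^ k)⁻¹ : GL4) : M4) := by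
    intro k
    induction k with
    | zero => simp
    | succ k ih =>
      have : g ^ (k + 1) * a * (g ^ (k + 1))⁻¹ = g ^ k * (g * a * g⁻¹) * (g ^ k)⁻¹ := by
        rw [pow_succ]
        group
      rw [this, hval, hval, pow_succ, mul_smul]
      have e' : ((g * a * g⁻¹ : GL4) : M4) = κ⁻¹ • (a : M4) := by
        have hκ0 : κ ≠ 0 := by
          rintro rfl
          simp at hκ4
        rw [eq_inv_smul_iff₀ hκ0]
        exact e.symm
      have hκ0 : κ ≠ 0 := by
        rintro rfl
        simp at hκ4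
      rw [e', Matrix.mul_smul, Matrix.smul_mul, smul_smul, smul_smul, mul_inv_cancel_right₀ hκ0]
      rw [← hval, ← hval]
      exact ih
  have hg5 : g ^ 5 = 1 := by
    rw [hg, ← pow_mul, mul_comm, pow_mul, hy5, one_pow]
  have e5 := e3 5
  rw [hg5] at e5
  simp only [one_mul, inv_one, mul_one] at e5
  have ha0 : (a : M4) ≠ 0 := by
    intro h0
    have := a.val_inv
    rw [h0, zero_mul] at this
    exact zero_ne_one this
  have hκ5 : κ ^ 5 = 1 := by
    have e6 : (κ ^ 5 - 1) • (a : M4) = 0 := by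
      rw [sub_smul, ← e5, one_smul, sub_self]
    exact sub_eq_zero.mp ((smul_eq_zero.mp e6).resolve_right ha0)
  have hκ1 : κ = 1 := by
    have := pow_gcd_eq_one.mpr ⟨hκ5, hκ4⟩
    simpa using this
  rw [hκ1, one_smul] at e
  have hga : g * a = a * g := by
    have e' : g * a * g⁻¹ = a := Units.ext e.symm
    exact mul_inv_eq_iff_eq_mul.mp e'
  obtain ⟨m', -, hm'⟩ := Nat.exists_mul_mod_eq_one_of_coprime hm (by norm_num)
  have hyg : y = g ^ m' := by
    rw [hg, ← pow_mul, pow_eq_pow_mod _ hy5, hm', pow_one]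
  apply hay
  rw [hyg]
  exact ((Commute.pow_left hga m').eq).symm

/-- An element `1 + N` with `N² = 0` of order five does not normalize `R`. -/
theorem Base.no_transvection {R : Subgroup GL4} {i : F} {s : GL4} (h : Base R i s) (y : GL4) (hyN : y ∈ subgroupNormalizer R)
    (hy5 : y ^ 5 = 1) (N : M4) (hN : (y : M4) = 1 + N) (hNN : N * N = 0) (hn : ∀ c : F, (y : M4) ≠ c • 1) : False := by
  classical
  haveI := h.finite
  have hval : ∀ u v : GL4, ((u * v : GL4) : M4) = (u : M4) * (v : M4) := fun u v => rfl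
  have h4 : (4 : F) ≠ 0 := by
    have : (4 : F) = 2 * 2 := by norm_num
    rw [this]
    exact mul_ne_zero h.h2 h.h2
  have hz5 : ((y ^ 5 : GL4) : M4) = (1 : F) • 1 := by
    rw [hy5, one_smul]
    rfl
  obtain ⟨hC4, -⟩ := h.five y hyN 1 hz5 hn
  set C := (R ⊓ Subgroup.centralizer ({y} : Set GL4) : Subgroup GL4) with hC
  haveI : Finite C := Finite.of_injective (Subgroup.inclusion (inf_le_left : C ≤ R)) (Subgroup.inclusion_injective _)
  have hCz : Subgroup.zpowers s = C := by
    apply Subgroup.eq_of_le_of_card_ge (h.zpowers_le y)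
    rw [hC4, h.card_zpowers]
  obtain ⟨z, hz, -, -, hzn⟩ := h.outer 1 R.one_mem 1 R.one_mem
  have hay : z * y ≠ y * z := by
    intro e
    have : z ∈ C := ⟨hz, Subgroup.mem_centralizer_singleton_iff.mpr e⟩
    rw [← hCz] at this
    obtain ⟨c, hc⟩ := h.scalar_of_mem z this
    exact hzn c hc
  have hNr : ∀ x, x ∈ R ↔ y * x * y⁻¹ ∈ R := Subgroup.mem_normalizer_iff.mp hyN
  have hconjR : ∀ k : ℕ, y ^ k * z * (y ^ k)⁻¹ ∈ R := by
    intro k
    induction k with
    | zero => simpa using hz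
    | succ k ih =>
      have : y ^ (k + 1) * z * (y ^ (k + 1))⁻¹ = y * (y ^ k * z * (y ^ k)⁻¹) * y⁻¹ := by
        rw [pow_succ']
        group
      rw [this]
      exact (hNr _).mp ih
  have hpw : ∀ k : ℕ, ((y ^ k : GL4) : M4) = 1 + (k : F) • N := by
    intro k
    induction k with
    | zero => simp
    | succ k ih =>
      rw [pow_succ, hval, ih, hN, add_mul, mul_add, mul_add, one_mul, one_mul, mul_one, Matrix.smul_mul, hNN]
      push_cast
      rw [add_smul, one_smul]
      simp only [smul_zero, add_zero, mul_one]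
      abel
  have hinv : ∀ k : ℕ, (((y ^ k)⁻¹ : GL4) : M4) = 1 - (k : F) • N := by
    intro k
    have e1 : ((y ^ k : GL4) : M4) * (1 - (k : F) • N) = 1 := by
      rw [hpw]
      simp only [add_mul, mul_sub, one_mul, mul_one, Matrix.smul_mul, Matrix.mul_smul, hNN, smul_zero, sub_zero]
      abel
    have e2 : (((y ^ k)⁻¹ : GL4) : M4) * ((y ^ k : GL4) : M4) = 1 := by
      rw [← hval, inv_mul_cancel]
      rfl
    calc (((y ^ k)⁻¹ : GL4) : M4) = (((y ^ k)⁻¹ : GL4) : M4) * (((y ^ k : GL4) : M4) * (1 - (k : F) • N)) := by rw [e1, mul_one]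
      _ = 1 - (k : F) • N := by rw [← mul_assoc, e2, one_mul]
  have hform : ∀ k : ℕ, ((y ^ k * z * (y ^ k)⁻¹ : GL4) : M4) = (z : M4) + (k : F) • (N * z - z * N) - ((k : F) * (k : F)) • (N * z * N) := by
    intro k
    rw [hval, hval, hpw, hinv]
    simp only [add_mul, mul_sub, one_mul, mul_one, Matrix.smul_mul, Matrix.mul_smul, smul_smul, mul_add, smul_sub, sub_mul, smul_add]
    abel
  have hA0 := hform 0
  have hA1 := hform 1
  have hA2 := hform 2
  have hA3 := hform 3
  set b : GL4 := y ^ 3 * z * (y ^ 3)⁻¹ with hb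
  have hbR : b ∈ R := hconjR 3
  have hbb : ((b⁻¹ : GL4) : M4) * (b : M4) = 1 := by
    rw [← hval, inv_mul_cancel]
    rfl
  have hE : (b : M4) - (3 : F) • ((y ^ 2 * z * (y ^ 2)⁻¹ : GL4) : M4) + (3 : F) • ((y ^ 1 * z * (y ^ 1)⁻¹ : GL4) : M4) -
      ((y ^ 0 * z * (y ^ 0)⁻¹ : GL4) : M4) = 0 := by
    rw [hA3, hA2, hA1, hA0]
    push_cast
    module
  have htr0 : ∀ k : ℕ, (k = 0 ∨ k = 1 ∨ k = 2) → (((b⁻¹ * (y ^ k * z * (y ^ k)⁻¹) : GL4) : M4)).trace = 0 := by
    intro k hk
    apply h.trace_zero _ (R.mul_mem (R.inv_mem hbR) (hconjR k))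
    intro κ hκ
    have hκ4 : κ ^ 4 = 1 := by
      have e6 := congrArg (fun t : GL4 => (t : M4)) (h.pow4 _ (R.mul_mem (R.inv_mem hbR) (hconjR k)))
      simp only [Units.val_one, Units.val_pow_eq_pow_val] at e6
      rw [hκ, smul_pow, one_pow] at e6
      have := congrFun (congrFun e6 0) 0
      simpa using this
    -- `y^k z y^-k = κ b`
    have e1 : ((y ^ k * z * (y ^ k)⁻¹ : GL4) : M4) = κ • (b : M4) := by
      have e2 : y ^ k * z * (y ^ k)⁻¹ = b * (b⁻¹ * (y ^ k * z * (y ^ k)⁻¹)) := by group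
      rw [e2, hval, hκ, Matrix.mul_smul, mul_one]
    have hm3 : ∀ m : ℕ, 3 = k + m → Nat.Coprime m 5 → False := by
      intro m hm hc
      apply h.no_ratio y z hy5 hz hay m hc κ hκ4
      have e2 : z = (y ^ k)⁻¹ * (y ^ k * z * (y ^ k)⁻¹) * y ^ k := by group
      have e3 : y ^ m * z * (y ^ m)⁻¹ = (y ^ k)⁻¹ * b * y ^ k := by
        rw [hb, hm, pow_add]
        group
      rw [e3, hval, hval]
      nth_rewrite 1 [e2]
      rw [hval, hval, e1, Matrix.mul_smul, Matrix.smul_mul]
    rcases hk with rfl | rfl | rfl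
    · exact hm3 3 rfl (by norm_num)
    · exact hm3 2 rfl (by norm_num)
    · exact hm3 1 rfl (by norm_num)
  have hfin := congrArg (fun t => (((b⁻¹ : GL4) : M4) * t).trace) hE
  simp only [mul_sub, mul_add, Matrix.mul_smul, hbb, Matrix.trace_sub, Matrix.trace_add, Matrix.trace_smul, mul_zero,
    Matrix.trace_zero] at hfin
  have t0 := htr0 0 (by simp)
  have t1 := htr0 1 (by simp)
  have t2 := htr0 2 (by simp)
  rw [hval] at t0 t1 t2
  rw [t0, t1, t2] at hfin
  simp [Matrix.trace_one] at hfin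
  exact h4 (by simpa using hfin)

/-- Conjugation invariance. -/
theorem conj_facts (x g : GL4) (r : ℕ) (z : F) (hz : ((x ^ r : GL4) : M4) = z • 1) (hn : ∀ c : F, (x : M4) ≠ c • 1) :
    ((((g⁻¹ * x * g) ^ r : GL4)) : M4) = z • 1 ∧ (∀ c : F, ((g⁻¹ * x * g : GL4) : M4) ≠ c • 1) ∧
      ((g⁻¹ * x * g : GL4) : M4).trace = (x : M4).trace ∧
      (((g⁻¹ * x * g)⁻¹ : GL4) : M4).trace = ((x⁻¹ : GL4) : M4).trace := by
  have hval : ∀ u v : GL4, ((u * v : GL4) : M4) = (u : M4) * (v : M4) := fun u v => rfl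
  have hgi : (g : M4) * ((g⁻¹ : GL4) : M4) = 1 := by
    rw [← hval, mul_inv_cancel]
    rfl
  have hig : ((g⁻¹ : GL4) : M4) * (g : M4) = 1 := by
    rw [← hval, inv_mul_cancel]
    rfl
  refine ⟨?_, ?_, ?_, ?_⟩
  · have : (g⁻¹ * x * g) ^ r = g⁻¹ * x ^ r * g := by
      have := conj_pow (a := g⁻¹) (b := x) (i := r)
      simpa using this
    rw [this, hval, hval, hz, Matrix.mul_smul, Matrix.smul_mul, mul_one, hig]
  · intro c hc
    apply hn c
    have : x = g * (g⁻¹ * x * g) * g⁻¹ := by group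
    rw [this, hval, hval, hc, Matrix.mul_smul, Matrix.smul_mul, mul_one, hgi]
  · rw [hval, hval, Matrix.trace_mul_comm, ← mul_assoc, hgi, one_mul]
  · have : (g⁻¹ * x * g)⁻¹ = g⁻¹ * x⁻¹ * g := by group
    rw [this, hval, hval, Matrix.trace_mul_comm, ← mul_assoc, hgi, one_mul]

end Cfsg.Agent.Lib.Sym64
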