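import Mathlib
import Cfsg.Prelude.Def_GeometricClasses
import Cfsg.Agent.Lib.Sym64E

set_option autoImplicit false
open scoped MatrixGroups

namespace Cfsg.Agent.Lib.Sym64

open Matrix Cfsg.Geo

variable {F : Type*} [Field F]

local notation "M4" => Matrix (Fin 4) (Fin 4) F
local notation "GL4" => GL (Fin 4) F

theorem det4 (a b c d e f g h i' j k l m n o p : F) : (!![a,b,c,d;e,f,g,h;i',j,k,l;m,n,o,p] : M4).det =
   a * (f * (k * p - l * o) - g * (j * p - l * n) + h * (j * o - k * n))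
   - b * (e * (k * p - l * o) - g * (i' * p - l * m) + h * (i' * o - k * m))
   + c * (e * (j * p - l * n) - f * (i' * p - l * m) + h * (i' * n - j * m))
   - d * (e * (j * o - k * n) - f * (i' * o - k * m) + g * (i' * n - j * m)) := by
  rw [Matrix.det_succ_row_zero]
  simp [Fin.sum_univ_succ, Matrix.det_fin_three, Fin.succAbove]
  ring

/-- The element `diag(1,ω,ω,ω)`. -/
def xOm (ω : F) (hω : ω * ω + ω + 1 = 0) : GL4 where
  val := !![1,0,0,0;0,ω,0,0;0,0,ω,0;0,0,0,ω]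
  inv := !![1,0,0,0;0,-ω-1,0,0;0,0,-ω-1,0;0,0,0,-ω-1]
  val_inv := by
    ext a b
    fin_cases a <;> fin_cases b <;> simp [Matrix.mul_apply, Fin.sum_univ_four] <;> grind
  inv_val := by
    ext a b
    fin_cases a <;> fin_cases b <;> simp [Matrix.mul_apply, Fin.sum_univ_four] <;> grind

theorem three_case {R : Subgroup GL4} {i : F} {s : GL4} (h : Base R i s) (ω : F) (hω : ω * ω + ω + 1 = 0)
    (H : ∀ x ∈ specialLinear (Fin 4) F, (∃ z : F, ((x ^ 3 : GL4) : M4) = z • (1 : M4)) → (∀ z : F, (x : M4) ≠ z • (1 : M4)) →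
      ∃ g ∈ specialLinear (Fin 4) F, g⁻¹ * x * g ∈ subgroupNormalizer R) : (3 : F) = 0 := by
  have hω3 : ω * ω * ω = 1 := by linear_combination (ω - 1) * hω
  by_cases hω1 : ω = 1
  · rw [hω1] at hω
    linear_combination hω
  set x := xOm ω hω with hx
  have hxv : (x : M4) = !![1,0,0,0;0,ω,0,0;0,0,ω,0;0,0,0,ω] := rfl
  have hxi : ((x⁻¹ : GL4) : M4) = !![1,0,0,0;0,-ω-1,0,0;0,0,-ω-1,0;0,0,0,-ω-1] := rfl
  have hSL : x ∈ specialLinear (Fin 4) F := by
    apply mem_sl
    rw [hxv, det4]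
    linear_combination hω3
  have hpow : ((x ^ 3 : GL4) : M4) = (1 : F) • (1 : M4) := by
    rw [Units.val_pow_eq_pow_val, hxv, pow_succ, pow_two, one_smul]
    ext a b
    fin_cases a <;> fin_cases b <;> simp [Matrix.mul_apply, Fin.sum_univ_four, hω3, Matrix.one_apply]
  have hns : ∀ c : F, (x : M4) ≠ c • (1 : M4) := by
    intro c hc
    have e0 := congrFun (congrFun hc 0) 0
    have e1 := congrFun (congrFun hc 1) 1
    rw [hxv] at e0 e1
    simp at e0 e1
    exact hω1 (e1.trans e0.symm)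
  obtain ⟨g, -, hy⟩ := H x hSL ⟨1, hpow⟩ hns
  obtain ⟨hz', hn', ht, ht'⟩ := conj_facts x g 3 1 hpow hns
  have htx : (x : M4).trace = 1 + ω + ω + ω := by
    rw [hxv]
    simp [Matrix.trace, Fin.sum_univ_four]
  have htx' : ((x⁻¹ : GL4) : M4).trace = 1 + (-ω - 1) + (-ω - 1) + (-ω - 1) := by
    rw [hxi]
    simp [Matrix.trace, Fin.sum_univ_four]
  have key := h.three _ hy 1 hz' hn'
  rw [ht, ht', htx, htx'] at key
  have h2 := h.h2
  rcases key with key | key
  · have e : (2 : F) ^ 3 * 3 = 0 := by linear_combination key + 36 * hω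
    exact (mul_eq_zero.mp e).resolve_left (pow_ne_zero 3 h2)
  · have e : (2 : F) ^ 2 * 3 = 0 := by linear_combination key + 36 * hω
    exact (mul_eq_zero.mp e).resolve_left (pow_ne_zero 2 h2)

/-- The element of order five with trace `τ + 2`. -/
def xTau (τ : F) : GL4 where
  val := !![0,-1,0,0;1,τ,0,0;0,0,1,0;0,0,0,1]
  inv := !![τ,1,0,0;-1,0,0,0;0,0,1,0;0,0,0,1]
  val_inv := by
    ext a b
    fin_cases a <;> fin_cases b <;> simp [Matrix.mul_apply, Fin.sum_univ_four]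
  inv_val := by
    ext a b
    fin_cases a <;> fin_cases b <;> simp [Matrix.mul_apply, Fin.sum_univ_four]

theorem five_case {R : Subgroup GL4} {i : F} {s : GL4} (h : Base R i s) (τ : F) (hτ : τ * τ + τ - 1 = 0)
    (H : ∀ x ∈ specialLinear (Fin 4) F, (∃ z : F, ((x ^ 5 : GL4) : M4) = z • (1 : M4)) → (∀ z : F, (x : M4) ≠ z • (1 : M4)) →
      ∃ g ∈ specialLinear (Fin 4) F, g⁻¹ * x * g ∈ subgroupNormalizer R) : (5 : F) = 0 := by
  set x := xTau τ with hx
  have hxv : (x : M4) = !![0,-1,0,0;1,τ,0,0;0,0,1,0;0,0,0,1] := rfl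
  have hxi : ((x⁻¹ : GL4) : M4) = !![τ,1,0,0;-1,0,0,0;0,0,1,0;0,0,0,1] := rfl
  have hSL : x ∈ specialLinear (Fin 4) F := by
    apply mem_sl
    rw [hxv, det4]
    ring
  have hτ2 : τ * τ = 1 - τ := by linear_combination hτ
  have hA2 : (x : M4) * (x : M4) = !![-1,-τ,0,0;τ,-τ,0,0;0,0,1,0;0,0,0,1] := by
    rw [hxv]
    ext a b
    fin_cases a <;> fin_cases b <;> simp [Matrix.mul_apply, Fin.sum_univ_four, hτ2] <;> grind
  have hA4 : (!![-1,-τ,0,0;τ,-τ,0,0;0,0,1,0;0,0,0,1] : M4) * !![-1,-τ,0,0;τ,-τ,0,0;0,0,1,0;0,0,0,1] = ((x⁻¹ : GL4) : M4) := by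
    rw [hxi]
    ext a b
    fin_cases a <;> fin_cases b <;> simp [Matrix.mul_apply, Fin.sum_univ_four, hτ2] <;> grind
  have hpow : ((x ^ 5 : GL4) : M4) = (1 : F) • (1 : M4) := by
    have e : x ^ 5 = x * x * (x * x) * x := by simp only [pow_succ, pow_zero, one_mul, mul_assoc]
    rw [e, one_smul, Units.val_mul, Units.val_mul, Units.val_mul, hA2, hA4, ← Units.val_mul, inv_mul_cancel]
    rfl
  have hns : ∀ c : F, (x : M4) ≠ c • (1 : M4) := by
    intro c hc
    have e0 := congrFun (congrFun hc 0) 1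
    rw [hxv] at e0
    simp at e0
  obtain ⟨g, -, hy⟩ := H x hSL ⟨1, hpow⟩ hns
  obtain ⟨hz', hn', ht, ht'⟩ := conj_facts x g 5 1 hpow hns
  have htx : (x : M4).trace = τ + 2 := by
    rw [hxv]
    simp [Matrix.trace, Fin.sum_univ_four]
    ring
  have htx' : ((x⁻¹ : GL4) : M4).trace = τ + 2 := by
    rw [hxi]
    simp [Matrix.trace, Fin.sum_univ_four]
    ring
  have key := (h.five _ hy 1 hz' hn').2
  rw [ht, ht', htx, htx'] at key
  have h4 : (4 : F) ≠ 0 := by
    have : (4 : F) = 2 * 2 := by norm_num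
    rw [this]
    exact mul_ne_zero h.h2 h.h2
  have h3 : 3 * τ + 4 = 0 := by
    apply mul_left_cancel₀ h4
    linear_combination key - 4 * hτ
  linear_combination (3 * τ - 1) * h3 - 9 * hτ

/-- A transvection. -/
def xTr : GL4 where
  val := !![1,1,0,0;0,1,0,0;0,0,1,0;0,0,0,1]
  inv := !![1,-1,0,0;0,1,0,0;0,0,1,0;0,0,0,1]
  val_inv := by
    ext a b
    fin_cases a <;> fin_cases b <;> simp [Matrix.mul_apply, Fin.sum_univ_four]
  inv_val := by
    ext a b
    fin_cases a <;> fin_cases b <;> simp [Matrix.mul_apply, Fin.sum_univ_four]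

theorem trans_case {R : Subgroup GL4} {i : F} {s : GL4} (h : Base R i s) (h5 : (5 : F) = 0)
    (H : ∀ x ∈ specialLinear (Fin 4) F, (∃ z : F, ((x ^ 5 : GL4) : M4) = z • (1 : M4)) → (∀ z : F, (x : M4) ≠ z • (1 : M4)) →
      ∃ g ∈ specialLinear (Fin 4) F, g⁻¹ * x * g ∈ subgroupNormalizer R) : False := by
  set x : GL4 := xTr with hx
  have hxv : (x : M4) = !![1,1,0,0;0,1,0,0;0,0,1,0;0,0,0,1] := rfl
  have hSL : x ∈ specialLinear (Fin 4) F := by
    apply mem_sl
    rw [hxv, det4]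
    ring
  have hval : ∀ u v : GL4, ((u * v : GL4) : M4) = (u : M4) * (v : M4) := fun u v => rfl
  have hA2 : (x : M4) * (x : M4) = !![1,2,0,0;0,1,0,0;0,0,1,0;0,0,0,1] := by
    rw [hxv]
    ext a b
    fin_cases a <;> fin_cases b <;> simp [Matrix.mul_apply, Fin.sum_univ_four]
    norm_num
  have hA4 : (!![1,2,0,0;0,1,0,0;0,0,1,0;0,0,0,1] : M4) * !![1,2,0,0;0,1,0,0;0,0,1,0;0,0,0,1] = !![1,4,0,0;0,1,0,0;0,0,1,0;0,0,0,1] := by
    ext a b
    fin_cases a <;> fin_cases b <;> simp [Matrix.mul_apply, Fin.sum_univ_four]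
    norm_num
  have hA5 : (!![1,4,0,0;0,1,0,0;0,0,1,0;0,0,0,1] : M4) * (x : M4) = 1 := by
    rw [hxv]
    ext a b
    fin_cases a <;> fin_cases b <;> simp [Matrix.mul_apply, Fin.sum_univ_four]
    linear_combination h5
  have hx5 : x ^ 5 = 1 := by
    have e : x ^ 5 = x * x * (x * x) * x := by simp only [pow_succ, pow_zero, one_mul, mul_assoc]
    rw [e]
    apply Units.ext
    rw [Units.val_mul, Units.val_mul, Units.val_mul, hA2, hA4, hA5]
    rfl
  have hpow : ((x ^ 5 : GL4) : M4) = (1 : F) • (1 : M4) := by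
    rw [hx5, one_smul]
    rfl
  have hns : ∀ c : F, (x : M4) ≠ c • (1 : M4) := by
    intro c hc
    have e0 := congrFun (congrFun hc 0) 1
    rw [hxv] at e0
    simp at e0
  obtain ⟨g, -, hy⟩ := H x hSL ⟨1, hpow⟩ hns
  obtain ⟨-, hn', -, -⟩ := conj_facts x g 5 1 hpow hns
  set E : M4 := !![0,1,0,0;0,0,0,0;0,0,0,0;0,0,0,0] with hE
  have hEE : E * E = 0 := by
    rw [hE]
    ext a b
    fin_cases a <;> fin_cases b <;> simp [Matrix.mul_apply, Fin.sum_univ_four]
  have hxE : (x : M4) = 1 + E := by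
    rw [hxv, hE]
    ext a b
    fin_cases a <;> fin_cases b <;> simp [Matrix.one_apply]
  have hgi : (g : M4) * ((g⁻¹ : GL4) : M4) = 1 := by
    rw [← hval, mul_inv_cancel]
    rfl
  have hig : ((g⁻¹ : GL4) : M4) * (g : M4) = 1 := by
    rw [← hval, inv_mul_cancel]
    rfl
  refine h.no_transvection _ hy ?_ (((g⁻¹ : GL4) : M4) * E * g) ?_ ?_ hn'
  · have : (g⁻¹ * x * g) ^ 5 = g⁻¹ * x ^ 5 * g := by
      have := conj_pow (a := g⁻¹) (b := x) (i := 5)
      simpa using this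
    rw [this, hx5]
    group
  · rw [hval, hval, hxE, mul_add, add_mul, mul_one, hig]
  · calc ((g⁻¹ : GL4) : M4) * E * g * (((g⁻¹ : GL4) : M4) * E * g)
        = ((g⁻¹ : GL4) : M4) * E * ((g : M4) * ((g⁻¹ : GL4) : M4)) * E * g := by noncomm_ring
      _ = 0 := by
        rw [hgi, mul_one, mul_assoc ((g⁻¹ : GL4) : M4), hEE]
        simp

/-- Non-scalar elements of prime order different from two exist when the prime divides the order. -/
theorem exists_order_elt [Fintype F] (r : ℕ) [hr : Fact r.Prime] (hr2 : r ≠ 2) (hd : r ∣ Nat.card (specialLinear (Fin 4) F)) :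
    ∃ x ∈ specialLinear (Fin 4) F, ((x ^ r : GL4) : M4) = (1 : F) • (1 : M4) ∧ ∀ c : F, (x : M4) ≠ c • (1 : M4) := by
  classical
  haveI : Finite (specialLinear (Fin 4) F) := inferInstance
  obtain ⟨x, hx⟩ := exists_prime_orderOf_dvd_card' r hd
  have hxr : ((x : GL4)) ^ r = 1 := by
    have := pow_orderOf_eq_one x
    rw [hx] at this
    exact congrArg Subtype.val this
  refine ⟨x, x.2, by rw [hxr, one_smul]; rfl, ?_⟩
  intro c hc
  have hdet : ((x : GL4) : M4).det = 1 := by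
    have := x.2
    unfold specialLinear at this
    rw [MonoidHom.mem_ker] at this
    have e := congrArg (fun t : Fˣ => (t : F)) this
    simpa using e
  rw [hc, Matrix.det_smul, Matrix.det_one, Fintype.card_fin, mul_one] at hdet
  have hcr : c ^ r = 1 := by
    have e := congrArg (fun t : GL4 => (t : M4)) hxr
    simp only [Units.val_pow_eq_pow_val, Units.val_one] at e
    rw [hc, smul_pow, one_pow] at e
    have := congrFun (congrFun e 0) 0
    simpa using this
  have hg : Nat.gcd r 4 = 1 := by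
    have h2r : Nat.Coprime r 2 := (Nat.coprime_primes hr.out Nat.prime_two).mpr hr2
    have : Nat.Coprime r (2 ^ 2) := h2r.pow_right 2
    exact this
  have hc1 : c = 1 := by
    have := pow_gcd_eq_one.mpr ⟨hcr, hdet⟩
    rwa [hg, pow_one] at this
  have hx1 : x = 1 := by
    apply Subtype.ext
    apply Units.ext
    rw [hc, hc1, one_smul]
    rfl
  rw [hx1, orderOf_one] at hx
  exact hr.out.one_lt.ne hx

theorem exists_omega [Fintype F] {p : ℕ} (hF : Fintype.card F = p) (h3 : p % 3 = 1) : ∃ ω : F, ω * ω + ω + 1 = 0 := by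
  classical
  haveI : Fact (Nat.Prime 3) := ⟨Nat.prime_three⟩
  have hd : 3 ∣ Nat.card Fˣ := by
    rw [Nat.card_eq_fintype_card, Fintype.card_units, hF]
    omega
  obtain ⟨u, hu⟩ := exists_prime_orderOf_dvd_card' 3 hd
  have h1 : u ^ 3 = 1 := by
    rw [← hu]
    exact pow_orderOf_eq_one u
  have h2 : (u : F) ^ 3 = 1 := by
    have := congrArg (fun t : Fˣ => (t : F)) h1
    simpa using this
  have hne : (u : F) ≠ 1 := by
    intro h
    have : u = 1 := Units.ext h
    rw [this, orderOf_one] at hu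
    omega
  refine ⟨u, ?_⟩
  have : ((u : F) - 1) * ((u : F) * u + u + 1) = 0 := by linear_combination h2
  exact (mul_eq_zero.mp this).resolve_left (sub_ne_zero.mpr hne)

theorem sq_mod5 : IsSquare ((1 : ℕ) : ZMod 5) ∧ IsSquare ((4 : ℕ) : ZMod 5) :=
  ⟨⟨1, by decide⟩, ⟨2, by decide⟩⟩

theorem exists_tau {p : ℕ} [hp : Fact p.Prime] [CharP F p] (hp4 : p % 4 = 1) (h2 : (2 : F) ≠ 0) (h5 : p % 5 = 1 ∨ p % 5 = 4) :
    ∃ τ : F, τ * τ + τ - 1 = 0 := by
  haveI : Fact (Nat.Prime 5) := ⟨Nat.prime_five⟩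
  have hsq : IsSquare ((5 : ℕ) : ZMod p) := by
    rw [ZMod.exists_sq_eq_prime_iff_of_mod_four_eq_one hp4 (by norm_num)]
    have e : ((p : ℕ) : ZMod 5) = ((p % 5 : ℕ) : ZMod 5) := by
      rw [ZMod.natCast_mod]
    rw [e]
    rcases h5 with h | h <;> rw [h]
    · exact sq_mod5.1
    · exact sq_mod5.2
  obtain ⟨t, ht⟩ := hsq
  let φ : ZMod p →+* F := ZMod.castHom (dvd_refl p) F
  have hφ : φ t * φ t = 5 := by
    rw [← map_mul, ← ht, map_natCast]
    norm_num
  refine ⟨(φ t - 1) / 2, ?_⟩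
  field_simp
  linear_combination hφ

theorem order_mod5 : orderOf ((2 : ℕ) : ZMod 5) = 4 ∧ orderOf ((3 : ℕ) : ZMod 5) = 4 := by
  constructor <;> (rw [orderOf_eq_iff (by norm_num)]; decide)

/-- The necessity of the condition. -/
theorem forward [Fintype F] {p : ℕ} [hp : Fact p.Prime] [CharP F p] (hF : Fintype.card F = p) (hp4 : p % 4 = 1)
    {R : Subgroup GL4} {i : F} {s : GL4} (h : Base R i s) (r : ℕ) [hr : Fact r.Prime]
    (hΩ : r ∣ (subgroupNormalizer R).relIndex (specialLinear (Fin 4) F))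
    (H : ∀ x ∈ specialLinear (Fin 4) F, (∃ z : F, ((x ^ r : GL4) : M4) = z • (1 : M4)) → (∀ z : F, (x : M4) ≠ z • (1 : M4)) →
      ∃ g ∈ specialLinear (Fin 4) F, g⁻¹ * x * g ∈ subgroupNormalizer R) :
    r = 2 ∨ (r = 3 ∧ p % 3 = 2) ∨ (r = 5 ∧ orderOf (p : ZMod 5) = 4) := by
  by_cases hr2 : r = 2
  · exact Or.inl hr2
  right
  obtain ⟨x, hxSL, hxr, hxn⟩ := exists_order_elt (F := F) r hr2 (hΩ.trans (Subgroup.relIndex_dvd_card _ _))
  obtain ⟨g, -, hy⟩ := H x hxSL ⟨1, hxr⟩ hxn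
  obtain ⟨hz', hn', -, -⟩ := conj_facts x g r 1 hxr hxn
  have hpp := hp.out
  rcases h.prime_le_five _ hy r 1 hz' hn' hr2 with rfl | rfl
  · left
    refine ⟨rfl, ?_⟩
    by_contra hne
    have hp3 : p % 3 = 0 ∨ p % 3 = 1 := by omega
    rcases hp3 with h0 | h1
    · have : 3 ∣ p := Nat.dvd_of_mod_eq_zero h0
      have := (Nat.prime_dvd_prime_iff_eq Nat.prime_three hpp).mp this
      omega
    · obtain ⟨ω, hω⟩ := exists_omega hF h1
      have h3 := three_case h ω hω H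
      have h3' : ((3 : ℕ) : F) = 0 := by exact_mod_cast h3
      have := (CharP.cast_eq_zero_iff F p 3).mp h3'
      have := (Nat.prime_dvd_prime_iff_eq hpp Nat.prime_three).mp this
      omega
  · right
    refine ⟨rfl, ?_⟩
    have hcast : ((p : ℕ) : ZMod 5) = ((p % 5 : ℕ) : ZMod 5) := by
      rw [ZMod.natCast_mod]
    have hcases : p % 5 = 0 ∨ p % 5 = 1 ∨ p % 5 = 4 ∨ p % 5 = 2 ∨ p % 5 = 3 := by omega
    rcases hcases with h0 | h1 | h1 | h1 | h1
    · have : 5 ∣ p := Nat.dvd_of_mod_eq_zero h0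
      have hp5 := (Nat.prime_dvd_prime_iff_eq Nat.prime_five hpp).mp this
      have h5 : (5 : F) = 0 := by
        have : ((p : ℕ) : F) = 0 := CharP.cast_eq_zero F p
        rw [← hp5] at this
        exact_mod_cast this
      exact (trans_case h h5 H).elim
    · obtain ⟨τ, hτ⟩ := exists_tau hp4 h.h2 (Or.inl h1)
      have h5 := five_case h τ hτ H
      have h5' : ((5 : ℕ) : F) = 0 := by exact_mod_cast h5
      have := (CharP.cast_eq_zero_iff F p 5).mp h5'
      have := (Nat.prime_dvd_prime_iff_eq hpp Nat.prime_five).mp this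
      omega
    · obtain ⟨τ, hτ⟩ := exists_tau hp4 h.h2 (Or.inr h1)
      have h5 := five_case h τ hτ H
      have h5' : ((5 : ℕ) : F) = 0 := by exact_mod_cast h5
      have := (CharP.cast_eq_zero_iff F p 5).mp h5'
      have := (Nat.prime_dvd_prime_iff_eq hpp Nat.prime_five).mp this
      omega
    · rw [hcast, h1]
      exact order_mod5.1
    · rw [hcast, h1]
      exact order_mod5.2

end Cfsg.Agent.Lib.Sym64
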