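import Mathlib
import Cfsg.Prelude.Def_GeometricClasses
import Cfsg.Agent.Lib.Sym64G
import Cfsg.Agent.Lib.MatConj
import Cfsg.Agent.Lib.EigenSq
import Cfsg.Agent.Lib.EigenThree
import Cfsg.Agent.Lib.PolyBasis
import Cfsg.Agent.Lib.PrimOrder
import Cfsg.Agent.Lib.SqScalar
import Cfsg.Agent.Lib.InvolConj
import Cfsg.Agent.Lib.PGLInvol

set_option autoImplicit false
open scoped MatrixGroups

namespace Cfsg.Agent.Lib.Sym64

open Matrix Cfsg.Geo Module Polynomial

variable {F : Type*} [Field F]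

local notation "M4" => Matrix (Fin 4) (Fin 4) F
local notation "GL4" => GL (Fin 4) F
local notation "V4" => (Fin 4 → F)

/-- Conjugacy from a basis. -/
theorem conj_of_basis (x : GL4) (b : Basis (Fin 4) F V4) (T : M4) (h : ∀ k, (x : M4) *ᵥ b k = ∑ l, T l k • b l) :
    ∃ u : GL4, ((u⁻¹ * x * u : GL4) : M4) = T := by
  apply Cfsg.Agent.Lib.MatConj.exists_conj_of_equiv' b.equivFun
  have key : b.equivFun.toLinearMap ∘ₗ Matrix.toLin' (x : M4) = Matrix.toLin' T ∘ₗ b.equivFun.toLinearMap := by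
    apply b.ext
    intro k
    simp only [LinearMap.comp_apply, Matrix.toLin'_apply, LinearEquiv.coe_coe, h k, map_sum, map_smul]
    ext a
    simp only [Finset.sum_apply, Pi.smul_apply, Basis.equivFun_apply, Basis.repr_self, smul_eq_mul, Matrix.mulVec, dotProduct]
    rw [Finset.sum_eq_single a, Finset.sum_eq_single k]
    · simp
    · intro c _ hc
      simp [Finsupp.single_apply, hc]
    · simp
    · intro c _ hc
      simp [Finsupp.single_apply, hc]
    · simp
  intro v
  exact LinearMap.congr_fun key v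

theorem exists_root [Fintype F] (n : ℕ) (hc : Nat.Coprime (Fintype.card F - 1) n) (z : F) (hz : z ≠ 0) :
    ∃ w : F, w ≠ 0 ∧ w ^ n = z := by
  classical
  have hc' : (Nat.card Fˣ).Coprime n := by
    rw [Nat.card_eq_fintype_card, Fintype.card_units]
    exact hc
  let e := powCoprime hc'
  refine ⟨(e.symm (Units.mk0 z hz) : Fˣ), Units.ne_zero _, ?_⟩
  have h1 : e (e.symm (Units.mk0 z hz)) = Units.mk0 z hz := e.apply_symm_apply _
  have h2 : (e.symm (Units.mk0 z hz)) ^ n = Units.mk0 z hz := h1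
  have := congrArg (fun t : Fˣ => (t : F)) h2
  simpa using this

/-- Dividing an element by a scalar. -/
def scaleGL (w : F) (hw : w ≠ 0) (x : GL4) : GL4 where
  val := w⁻¹ • (x : M4)
  inv := w • ((x⁻¹ : GL4) : M4)
  val_inv := by
    rw [Matrix.smul_mul, Matrix.mul_smul, ← Units.val_mul, mul_inv_cancel, smul_smul, inv_mul_cancel₀ hw]
    simp
  inv_val := by
    rw [Matrix.smul_mul, Matrix.mul_smul, ← Units.val_mul, inv_mul_cancel, smul_smul, mul_inv_cancel₀ hw]
    simp

theorem scaleGL_val (w : F) (hw : w ≠ 0) (x : GL4) : ((scaleGL w hw x : GL4) : M4) = w⁻¹ • (x : M4) := rfl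

theorem scale_conj (w : F) (hw : w ≠ 0) (x u : GL4) (T : M4) (h : ((u⁻¹ * scaleGL w hw x * u : GL4) : M4) = T) :
    ((u⁻¹ * x * u : GL4) : M4) = w • T := by
  rw [← h, Units.val_mul, Units.val_mul, Units.val_mul, Units.val_mul, scaleGL_val, Matrix.mul_smul, Matrix.smul_mul, smul_smul,
    mul_inv_cancel₀ hw, one_smul]

/-- Variation of the final step for elements whose square is scalar. -/
theorem Std.final_sq [Fintype F] {R : Subgroup GL4} {i : F} {s a1 b1 a2 b2 P : GL4} (h : Std R i s a1 b1 a2 b2 P) (x u : GL4) (M : M4) (w z : F)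
    (hM : Nrm R P M) (hconj : ((u⁻¹ * x * u : GL4) : M4) = w • M) (hx2 : (x : M4) * x = z • (1 : M4))
    (hns : ∀ c : F, (x : M4) ≠ c • (1 : M4)) :
    ∃ g ∈ specialLinear (Fin 4) F, g⁻¹ * x * g ∈ subgroupNormalizer R := by
  obtain ⟨g, hg1, hg2⟩ := Cfsg.Agent.Lib.SqScalar.exists_conj_fix x (u * P⁻¹) z hx2 hns
  refine ⟨g, mem_sl g hg1, ?_⟩
  rw [hg2]
  apply h.mem_norm _ (w • M)
  · have e1 : (u * P⁻¹)⁻¹ * x * (u * P⁻¹) * P = P * (u⁻¹ * x * u) := by group
    have e2 := congrArg (fun t : GL4 => (t : M4)) e1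
    simp only [Units.val_mul] at e2 ⊢
    rw [e2]
    congr 1
  · exact hM.smul w

/-- The sufficiency for `r = 2`. -/
theorem back_two [Fintype F] {R : Subgroup GL4} {i : F} {s a1 b1 a2 b2 P : GL4} (h : Std R i s a1 b1 a2 b2 P)
    (x : GL4) (hxSL : x ∈ specialLinear (Fin 4) F) (z : F) (hz : ((x ^ 2 : GL4) : M4) = z • (1 : M4))
    (hns : ∀ c : F, (x : M4) ≠ c • (1 : M4)) :
    ∃ g ∈ specialLinear (Fin 4) F, g⁻¹ * x * g ∈ subgroupNormalizer R := by
  classical
  have hxx : (x : M4) * x = z • (1 : M4) := by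
    rw [← hz, pow_two]
    rfl
  have hdetx : (x : M4).det = 1 := by
    have := hxSL
    unfold specialLinear at this
    rw [MonoidHom.mem_ker] at this
    have e := congrArg (fun t : Fˣ => (t : F)) this
    simpa using e
  have hz0 : z ≠ 0 := by
    rintro rfl
    have := congrArg Matrix.det hxx
    rw [Matrix.det_mul, hdetx, zero_smul, Matrix.det_zero] at this
    simp at this
  have hi := h.base.hi
  have h2 := h.base.h2
  -- `z` is a square
  have hsq : IsSquare z := by
    by_contra hns'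
    obtain ⟨X₀, hX1, hX2⟩ := Cfsg.Agent.Lib.InvolConj.exists_block (n := 4) 2 rfl z
    have hirr := Cfsg.Agent.Lib.PGLInvol.irred_of_nonsquare hns'
    have hm : (X ^ 2 - C z : F[X]).Monic := by monicity!
    have hax : aeval (x : M4) (X ^ 2 - C z : F[X]) = 0 := by
      simp only [map_sub, map_pow, aeval_X, aeval_C, Algebra.algebraMap_eq_smul_one]
      rw [pow_two, hxx, sub_self]
    have haX : aeval X₀ (X ^ 2 - C z : F[X]) = 0 := by
      simp only [map_sub, map_pow, aeval_X, aeval_C, Algebra.algebraMap_eq_smul_one]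
      rw [pow_two, hX1, sub_self]
    obtain ⟨u, hu⟩ := Cfsg.Agent.Lib.MatConj.exists_conj_of_poly x X₀ _ hirr hm hax haX
    have hd : X₀.det = 1 := by
      rw [← hu, Units.val_mul, Units.val_mul, Matrix.det_mul, Matrix.det_mul, hdetx, mul_one, ← Matrix.det_mul,
        ← Units.val_mul, inv_mul_cancel]
      simp
    rw [hX2] at hd
    have hzz : (z - 1) * (z + 1) = 0 := by linear_combination hd
    rcases mul_eq_zero.mp hzz with h1 | h1
    · apply hns'
      exact ⟨1, by rw [sub_eq_zero.mp h1]; ring⟩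
    · apply hns'
      exact ⟨i, by rw [eq_neg_of_add_eq_zero_left h1, hi]⟩
  obtain ⟨w, hw⟩ := hsq
  have hw0 : w ≠ 0 := by
    rintro rfl
    exact hz0 (by rw [hw]; ring)
  obtain ⟨a, b, e, he1, he2⟩ := Cfsg.Agent.Lib.EigenSq.exists_eigen_basis (Matrix.toLin' (x : M4)) w (mul_ne_zero h2 hw0) (by
    intro v
    rw [Matrix.toLin'_apply, Matrix.toLin'_apply, Matrix.mulVec_mulVec, hxx, hw, Matrix.smul_mulVec, Matrix.one_mulVec])
  have hab : a + b = 4 := by
    have := finrank_eq_card_basis e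
    simpa using this.symm
  simp only [Matrix.toLin'_apply] at he1 he2
  have hscal : ∀ c : F, (∀ j, (x : M4) *ᵥ e j = c • e j) → False := by
    intro c hc
    apply hns c
    have key : Matrix.toLin' (x : M4) = Matrix.toLin' (c • (1 : M4)) := by
      apply e.ext
      intro j
      rw [Matrix.toLin'_apply, Matrix.toLin'_apply, hc j, Matrix.smul_mulVec, Matrix.one_mulVec]
    exact Matrix.toLin'.injective key
  have ha0 : a ≠ 0 := by
    rintro rfl
    apply hscal (-w)
    rintro (j | j)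
    · exact j.elim0
    · exact he2 j
  have hb0 : b ≠ 0 := by
    rintro rfl
    apply hscal w
    rintro (j | j)
    · exact he1 j
    · exact j.elim0
  have hcases : (a = 1 ∧ b = 3) ∨ (a = 2 ∧ b = 2) ∨ (a = 3 ∧ b = 1) := by omega
  have hsmul_sum : ∀ (b' : Basis (Fin 4) F V4) (l : Fin 4 → F) (k : Fin 4), ∑ m, (Matrix.diagonal l : M4) m k • b' m = l k • b' k := by
    intro b' l k
    rw [Finset.sum_eq_single k]
    · simp
    · intro c _ hc
      simp [Matrix.diagonal_apply, hc]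
    · simp
  rcases hcases with ⟨rfl, rfl⟩ | ⟨rfl, rfl⟩ | ⟨rfl, rfl⟩
  · -- eigenvalue `w` once: target `(-w) • CZ`
    let φ : Fin 1 ⊕ Fin 3 ≃ Fin 4 := (Equiv.sumComm _ _).trans finSumFinEquiv
    obtain ⟨u, hu⟩ := conj_of_basis x (e.reindex φ) (Matrix.diagonal ![-w, -w, -w, w]) (by
      intro k
      rw [hsmul_sum, Basis.reindex_apply]
      fin_cases k
      · exact he2 0
      · exact he2 1
      · exact he2 2
      · exact he1 0)
    refine h.final_sq x u CZ (-w) z h.nrm_CZ (hu.trans ?_) hxx hns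
    ext a b
    fin_cases a <;> fin_cases b <;> simp [CZ, Matrix.diagonal_apply]
  · let φ : Fin 2 ⊕ Fin 2 ≃ Fin 4 := finSumFinEquiv
    obtain ⟨u, hu⟩ := conj_of_basis x (e.reindex φ) (Matrix.diagonal ![w, w, -w, -w]) (by
      intro k
      rw [hsmul_sum, Basis.reindex_apply]
      fin_cases k
      · exact he1 0
      · exact he1 1
      · exact he2 0
      · exact he2 1)
    refine h.final_sq x u Z2 w z h.nrm_Z2 (hu.trans ?_) hxx hns
    ext a b
    fin_cases a <;> fin_cases b <;> simp [Z2, Matrix.diagonal_apply]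
  · let φ : Fin 3 ⊕ Fin 1 ≃ Fin 4 := finSumFinEquiv
    obtain ⟨u, hu⟩ := conj_of_basis x (e.reindex φ) (Matrix.diagonal ![w, w, w, -w]) (by
      intro k
      rw [hsmul_sum, Basis.reindex_apply]
      fin_cases k
      · exact he1 0
      · exact he1 1
      · exact he1 2
      · exact he2 0)
    refine h.final_sq x u CZ w z h.nrm_CZ (hu.trans ?_) hxx hns
    ext a b
    fin_cases a <;> fin_cases b <;> simp [CZ, Matrix.diagonal_apply]

/-- Diagonal matrix of given determinant. -/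
def diagD (d : F) (hd : d ≠ 0) : GL4 where
  val := !![d,0,0,0;0,1,0,0;0,0,1,0;0,0,0,1]
  inv := !![d⁻¹,0,0,0;0,1,0,0;0,0,1,0;0,0,0,1]
  val_inv := by
    ext a b
    fin_cases a <;> fin_cases b <;> simp [Matrix.mul_apply, Fin.sum_univ_four, hd]
  inv_val := by
    ext a b
    fin_cases a <;> fin_cases b <;> simp [Matrix.mul_apply, Fin.sum_univ_four, hd]

theorem hD_P3 (d : F) (hd : d ≠ 0) : ∃ D : GL4, (D : M4) * P3 = P3 * (D : M4) ∧ (D : M4).det = d := by
  refine ⟨diagD d hd, ?_, ?_⟩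
  · ext a b
    fin_cases a <;> fin_cases b <;> simp [diagD, P3, Matrix.mul_apply, Fin.sum_univ_four]
  · show (!![d,0,0,0;0,1,0,0;0,0,1,0;0,0,0,1] : M4).det = d
    rw [det4]
    ring

/-- Determinants of elements commuting with the block matrix of order three. -/
theorem hD_M32 [Fintype F] (i : F) (hi : i * i = -1) (h2 : (2 : F) ≠ 0) (h3 : (3 : F) ≠ 0) (d : F) (hd : d ≠ 0) :
    ∃ D : GL4, (D : M4) * M32' i = M32' i * (D : M4) ∧ (D : M4).det = d := by
  obtain ⟨A, B, hAB⟩ := Cfsg.Agent.Lib.SqScalar.exists_norm_eq (-3 : F) d (neg_ne_zero.mpr h3)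
  set h : F := 2⁻¹ with hh
  have hh2 : 2 * h = 1 := mul_inv_cancel₀ h2
  set α := A + B with hα
  set β := 2 * B with hβ
  set D : M4 := !![α * (h * (-1 - i)) + β, α * (h * (1 - i)), 0, 0;
    α * (h * (-1 - i)), α * (h * (-1 + i)) + β, 0, 0; 0, 0, 1, 0; 0, 0, 0, 1] with hD
  have hdet : D.det = d := by
    rw [hD, det4, ← hAB, hα, hβ]
    have e : h * h * 4 = 1 := by linear_combination (2 * h + 1) * hh2
    grind
  refine ⟨Matrix.GeneralLinearGroup.mkOfDetNeZero D (by rw [hdet]; exact hd), ?_, hdet⟩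
  show D * M32' i = M32' i * D
  rw [hD]
  ext a b
  fin_cases a <;> fin_cases b <;> simp [M32', Matrix.mul_apply, Fin.sum_univ_four] <;> grind

/-- Elements of prescribed determinant commuting with a matrix annihilated by an irreducible polynomial of degree four. -/
theorem exists_comm_det_irred [Fintype F] (T : M4) (f : F[X]) (hf : Irreducible f) (hdeg : f.natDegree = 4) (hT : aeval T f = 0)
    (d : F) (hd : d ≠ 0) : ∃ D : GL4, (D : M4) * T = T * (D : M4) ∧ (D : M4).det = d := by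
  classical
  haveI : Fact (Irreducible f) := ⟨hf⟩
  let φ : AdjoinRoot f →ₐ[F] M4 :=
    Ideal.Quotient.liftₐ (Ideal.span {f}) (aeval T) (by
      intro a ha
      obtain ⟨g, rfl⟩ := Ideal.mem_span_singleton'.mp ha
      rw [map_mul, hT, mul_zero])
  have hroot : φ (AdjoinRoot.root f) = T := by
    have : AdjoinRoot.root f = AdjoinRoot.mk f X := rfl
    rw [this]
    show aeval T X = T
    simp
  have hpb := AdjoinRoot.powerBasis hf.ne_zero
  have hrank : finrank F (AdjoinRoot f) = 4 := by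
    rw [(AdjoinRoot.powerBasis hf.ne_zero).finrank]
    simpa using hdeg
  haveI : Module.Finite F (AdjoinRoot f) := (AdjoinRoot.powerBasis hf.ne_zero).finite
  haveI : Finite (AdjoinRoot f) := Module.finite_of_finite F
  obtain ⟨t, ht⟩ := FiniteField.norm_surjective F (AdjoinRoot f) d
  let v₀ : V4 := Pi.single 0 1
  have hv₀ : v₀ ≠ 0 := by
    intro h0
    have := congrFun h0 0
    simp [v₀] at this
  let ψ : AdjoinRoot f →ₗ[F] V4 :=
    { toFun := fun k => (φ k) *ᵥ v₀
      map_add' := by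
        intro a b
        rw [map_add, Matrix.add_mulVec]
      map_smul' := by
        intro c a
        rw [map_smul, Matrix.smul_mulVec, RingHom.id_apply] }
  have hψ : ∀ k, ψ k = (φ k) *ᵥ v₀ := fun _ => rfl
  have hinj : Function.Injective ψ := by
    rw [injective_iff_map_eq_zero]
    intro k hk
    by_contra hk0
    apply hv₀
    have e1 : φ k⁻¹ * φ k = 1 := by
      rw [← map_mul, inv_mul_cancel₀ hk0, map_one]
    have e2 : (φ k⁻¹ * φ k) *ᵥ v₀ = 0 := by
      rw [← Matrix.mulVec_mulVec, ← hψ, hk, Matrix.mulVec_zero]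
    rwa [e1, Matrix.one_mulVec] at e2
  have hdim : finrank F (AdjoinRoot f) = finrank F V4 := by
    rw [hrank]
    simp
  let e : AdjoinRoot f ≃ₗ[F] V4 := LinearEquiv.ofInjectiveOfFinrankEq ψ hinj hdim
  have he : ∀ k, e k = ψ k := fun _ => rfl
  have hkey : Matrix.toLin' (φ t) = e.toLinearMap ∘ₗ (LinearMap.mulLeft F t) ∘ₗ e.symm.toLinearMap := by
    apply LinearMap.ext
    intro v
    obtain ⟨k, rfl⟩ := e.surjective v
    simp only [LinearMap.comp_apply, LinearEquiv.coe_coe, LinearEquiv.symm_apply_apply, LinearMap.mulLeft_apply,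
      Matrix.toLin'_apply]
    rw [he, he, hψ, hψ, map_mul, Matrix.mulVec_mulVec]
  have hdet : (φ t).det = d := by
    rw [← LinearMap.det_toLin', hkey, LinearMap.det_conj, ← ht, Algebra.norm_apply]
    rfl
  refine ⟨Matrix.GeneralLinearGroup.mkOfDetNeZero (φ t) (by rw [hdet]; exact hd), ?_, hdet⟩
  show φ t * T = T * φ t
  rw [← hroot, ← map_mul, ← map_mul, mul_comm]

/-- Decomposition for an element of prime order `n` with irreducible `n`-th cyclotomic polynomial. -/
theorem cyc_split (n : ℕ) [hn : Fact n.Prime] (hcast : (n : F) ≠ 0) (hirr : Irreducible (cyclotomic n F)) (A : M4) (hA : A ^ n = 1)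
    (hA1 : A ≠ 1) :
    let T : Module.End F V4 := Matrix.toLinAlgEquiv' A
    IsCompl (LinearMap.ker (aeval T (X - C 1 : F[X]))) (LinearMap.ker (aeval T (cyclotomic n F))) ∧
      (n - 1) ∣ finrank F (LinearMap.ker (aeval T (cyclotomic n F))) ∧
      finrank F (LinearMap.ker (aeval T (cyclotomic n F))) ≠ 0 ∧
      ∀ v ∈ LinearMap.ker (aeval T (cyclotomic n F)), T v ∈ LinearMap.ker (aeval T (cyclotomic n F)) := by
  intro T
  have hcop := Cfsg.Agent.Lib.PrimOrder.coprime_cyc (F := F) n hcast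
  have hT0 : aeval T ((X - C 1 : F[X]) * cyclotomic n F) = 0 := by
    rw [Cfsg.Agent.Lib.PrimOrder.mul_cyc]
    simp only [map_sub, map_pow, aeval_X, map_one]
    have : T ^ n = 1 := by
      show (Matrix.toLinAlgEquiv' A) ^ n = 1
      rw [← map_pow, hA, map_one]
    rw [this, sub_self]
  have hdisj := Polynomial.disjoint_ker_aeval_of_isCoprime T hcop
  have hsup : LinearMap.ker (aeval T (X - C 1 : F[X])) ⊔ LinearMap.ker (aeval T (cyclotomic n F)) = ⊤ := by
    rw [Polynomial.sup_ker_aeval_eq_ker_aeval_mul_of_coprime T hcop, hT0, LinearMap.ker_zero]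
  have hc : IsCompl (LinearMap.ker (aeval T (X - C 1 : F[X]))) (LinearMap.ker (aeval T (cyclotomic n F))) :=
    ⟨hdisj, codisjoint_iff.mpr hsup⟩
  have hTW : ∀ v ∈ LinearMap.ker (aeval T (cyclotomic n F)), T v ∈ LinearMap.ker (aeval T (cyclotomic n F)) := by
    intro v hv
    rw [LinearMap.mem_ker] at hv ⊢
    have : aeval T (cyclotomic n F) * aeval T (X : F[X]) = aeval T (X : F[X]) * aeval T (cyclotomic n F) := by
      rw [← map_mul, ← map_mul, mul_comm]
    rw [aeval_X] at this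
    have h2 := LinearMap.congr_fun this v
    simp only [Module.End.mul_apply, hv, map_zero] at h2
    exact h2
  refine ⟨hc, ?_, ?_, hTW⟩
  · have hrest : aeval (T.restrict hTW : Module.End F (LinearMap.ker (aeval T (cyclotomic n F)))) (cyclotomic n F) = 0 := by
      ext v
      have := Cfsg.Agent.Lib.EigenThree.aeval_restrict_apply T _ hTW (cyclotomic n F) v
      rw [this]
      have h2 := v.2
      rw [LinearMap.mem_ker] at h2
      rw [h2]
      simp
    have := Cfsg.Agent.Lib.PolyBasis.natDegree_dvd_finrank _ _ hirr hrest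
    rwa [Cfsg.Agent.Lib.PrimOrder.natDegree_cyc] at this
  · intro h0
    have hW : LinearMap.ker (aeval T (cyclotomic n F)) = ⊥ := Submodule.finrank_eq_zero.mp h0
    rw [hW, sup_bot_eq] at hsup
    apply hA1
    have hT1 : T = 1 := by
      apply LinearMap.ext
      intro v
      have : v ∈ LinearMap.ker (aeval T (X - C 1 : F[X])) := by rw [hsup]; trivial
      rw [LinearMap.mem_ker] at this
      simp only [map_sub, aeval_X, aeval_C, map_one, LinearMap.sub_apply, Module.End.one_apply, sub_eq_zero] at this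
      exact this
    exact (Matrix.toLinAlgEquiv' (R := F) (n := Fin 4)).injective (by rw [map_one]; exact hT1)

theorem scale_pow (w : F) (hw : w ≠ 0) (x : GL4) (n : ℕ) :
    ((scaleGL w hw x ^ n : GL4) : M4) = (w⁻¹) ^ n • ((x ^ n : GL4) : M4) := by
  rw [Units.val_pow_eq_pow_val, Units.val_pow_eq_pow_val, scaleGL_val, _root_.smul_pow]

theorem z_ne_zero_of_pow (x : GL4) (n : ℕ) (z : F) (hz : ((x ^ n : GL4) : M4) = z • (1 : M4)) : z ≠ 0 := by
  rintro rfl
  rw [zero_smul] at hz
  have h1 := (x ^ n).val_inv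
  have h2 : ((x ^ n : GL4) : M4) = 0 := hz
  rw [h2, zero_mul] at h1
  exact zero_ne_one h1

/-- Passing to an element with `y ^ n = 1`. -/
theorem exists_scale [Fintype F] (x : GL4) (n : ℕ) (hn0 : n ≠ 0) (z : F) (hz : ((x ^ n : GL4) : M4) = z • (1 : M4))
    (hns : ∀ c : F, (x : M4) ≠ c • (1 : M4)) (hc : Nat.Coprime (Fintype.card F - 1) n) :
    ∃ (w : F) (hw : w ≠ 0), ((scaleGL w hw x : GL4) : M4) ^ n = 1 ∧ ((scaleGL w hw x : GL4) : M4) ≠ 1 := by
  obtain ⟨w, hw, hwz⟩ := exists_root n hc z (z_ne_zero_of_pow x n z hz)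
  refine ⟨w, hw, ?_, ?_⟩
  · rw [← Units.val_pow_eq_pow_val, scale_pow, hz, smul_smul, ← hwz, ← mul_pow, inv_mul_cancel₀ hw, one_pow, one_smul]
  · intro h1
    apply hns w
    rw [scaleGL_val] at h1
    rw [← h1, smul_smul, mul_inv_cancel₀ hw, one_smul]

theorem aeval_T_eq_zero (A : M4) (f : F[X])
    (h : aeval (Matrix.toLinAlgEquiv' A : Module.End F V4) f = 0) : aeval A f = 0 := by
  rw [Polynomial.aeval_algEquiv] at h
  have h2 : Matrix.toLinAlgEquiv' (R := F) (n := Fin 4) (aeval A f) = 0 := h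
  exact (Matrix.toLinAlgEquiv' (R := F) (n := Fin 4)).injective (by rw [h2, map_zero])

theorem cyc3_eval (i : F) (hi : i * i = -1) (h2 : (2 : F) ≠ 0) : aeval ((2⁻¹ : F) • M32' i) (cyclotomic 3 F) = 0 := by
  haveI : Fact (Nat.Prime 3) := ⟨Nat.prime_three⟩
  rw [cyclotomic_prime]
  simp only [map_sum, map_pow, aeval_X, Finset.sum_range_succ, Finset.sum_range_zero, zero_add, pow_zero, pow_one]
  set h : F := 2⁻¹ with hh
  have hh2 : 2 * h = 1 := mul_inv_cancel₀ h2
  rw [pow_two]
  ext a b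
  fin_cases a <;> fin_cases b <;> simp [M32', Matrix.mul_apply, Fin.sum_univ_four, Matrix.one_apply] <;> grind

set_option maxHeartbeats 1600000 in
theorem cyc5_eval (i : F) (hi : i * i = -1) (h2 : (2 : F) ≠ 0) : aeval ((2⁻¹ : F) • M5' i) (cyclotomic 5 F) = 0 := by
  haveI : Fact (Nat.Prime 5) := ⟨Nat.prime_five⟩
  rw [cyclotomic_prime]
  simp only [Finset.sum_range_succ, Finset.sum_range_zero, zero_add, pow_zero, pow_one, map_add, map_pow, aeval_X, map_one]
  set h : F := 2⁻¹ with hh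
  have hh2 : 2 * h = 1 := mul_inv_cancel₀ h2
  have e : ∀ a : F, a * i * i = - a := fun a => by rw [mul_assoc, hi, mul_neg, mul_one]
  have hM2 : M5' i * M5' i = !![-2,-2*i,-2*i,2;-2,-2*i,2*i,-2;-2*i,-2,-2,2*i;2*i,2,-2,2*i] := by
    ext a b
    fin_cases a <;> fin_cases b <;> simp [M5', Matrix.mul_apply, Fin.sum_univ_four, hi, e] <;> grind
  have hM3 : (!![-2,-2*i,-2*i,2;-2,-2*i,2*i,-2;-2*i,-2,-2,2*i;2*i,2,-2,2*i] : M4) * M5' i =
      !![-4,-4,4*i,-4*i;4*i,4*i,-4,4;4*i,-4*i,-4,-4;4,-4,-4*i,-4*i] := by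
    ext a b
    fin_cases a <;> fin_cases b <;> simp [M5', Matrix.mul_apply, Fin.sum_univ_four, hi, e] <;> grind
  have hM4 : (!![-4,-4,4*i,-4*i;4*i,4*i,-4,4;4*i,-4*i,-4,-4;4,-4,-4*i,-4*i] : M4) * M5' i =
      !![8*i,8*i,8*i,8*i;8,-8,8,-8;8*i,8*i,-8*i,-8*i;-8,8,8,-8] := by
    ext a b
    fin_cases a <;> fin_cases b <;> simp [M5', Matrix.mul_apply, Fin.sum_univ_four, hi, e] <;> grind
  have p2 : (h • M5' i) ^ 2 = (h * h) • (!![-2,-2*i,-2*i,2;-2,-2*i,2*i,-2;-2*i,-2,-2,2*i;2*i,2,-2,2*i] : M4) := by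
    rw [_root_.smul_pow, pow_two, pow_two, hM2]
  have p3 : (h • M5' i) ^ 3 = (h * h * h) • (!![-4,-4,4*i,-4*i;4*i,4*i,-4,4;4*i,-4*i,-4,-4;4,-4,-4*i,-4*i] : M4) := by
    rw [pow_succ, p2, Matrix.smul_mul, Matrix.mul_smul, hM3, smul_smul]
  have p4 : (h • M5' i) ^ 4 = (h * h * h * h) • (!![8*i,8*i,8*i,8*i;8,-8,8,-8;8*i,8*i,-8*i,-8*i;-8,8,8,-8] : M4) := by
    rw [pow_succ, p3, Matrix.smul_mul, Matrix.mul_smul, hM4, smul_smul]
  rw [p2, p3, p4]
  ext a b
  fin_cases a <;> fin_cases b <;> simp [M5', Matrix.one_apply] <;> grind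

theorem finrank_top_of (T : Module.End F V4) (f : F[X]) (h : finrank F (LinearMap.ker (aeval T f)) = 4) : aeval T f = 0 := by
  have hW : LinearMap.ker (aeval T f) = ⊤ := Submodule.eq_top_of_finrank_eq (by simpa using h)
  exact LinearMap.ker_eq_top.mp hW

theorem finrank_le_four (W : Submodule F V4) : finrank F W ≤ 4 := by
  have := Submodule.finrank_le W
  simpa using this

theorem zmod5_ne_of_order {p : ℕ} (hord : orderOf (p : ZMod 5) = 4) : 5 ≠ p := by
  rintro rfl
  have e : ((5 : ℕ) : ZMod 5) = 0 := ZMod.natCast_self 5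
  rw [e] at hord
  have := pow_orderOf_eq_one (0 : ZMod 5)
  rw [hord] at this
  exact absurd this (by decide)

theorem coprime_of_order {p n : ℕ} [hn : Fact n.Prime] (hp2 : 2 ≤ p) (hord : orderOf (p : ZMod n) = n - 1) (hn2 : n ≠ 2) :
    Nat.Coprime (p - 1) n := by
  rw [Nat.coprime_comm, Nat.Prime.coprime_iff_not_dvd hn.out]
  intro hdvd
  have h3 : ((p - 1 : ℕ) : ZMod n) = 0 := (ZMod.natCast_eq_zero_iff _ _).mpr hdvd
  rw [Nat.cast_sub (by omega), sub_eq_zero, Nat.cast_one] at h3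
  rw [h3, orderOf_one] at hord
  have := hn.out.two_le
  omega

/-- The sufficiency for `r = 5`. -/
theorem back_five [Fintype F] {p : ℕ} [hp : Fact p.Prime] [CharP F p] (hF : Fintype.card F = p) {R : Subgroup GL4} {i : F}
    {s a1 b1 a2 b2 P : GL4} (h : Std R i s a1 b1 a2 b2 P) (hord : orderOf (p : ZMod 5) = 4)
    (x : GL4) (z : F) (hz : ((x ^ 5 : GL4) : M4) = z • (1 : M4))
    (hns : ∀ c : F, (x : M4) ≠ c • (1 : M4)) :
    ∃ g ∈ specialLinear (Fin 4) F, g⁻¹ * x * g ∈ subgroupNormalizer R := by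
  classical
  haveI hf5 : Fact (Nat.Prime 5) := ⟨Nat.prime_five⟩
  have hnp := zmod5_ne_of_order hord
  have hirr : Irreducible (cyclotomic 5 F) :=
    Cfsg.Agent.Lib.PrimOrder.irreducible_cyc (p := p) 5 hnp (by rw [hF]; simpa using hord)
  have hcast : ((5 : ℕ) : F) ≠ 0 := Cfsg.Agent.Lib.PrimOrder.natCast_ne_zero_of_ne Nat.prime_five hp.out hnp
  have hc : Nat.Coprime (Fintype.card F - 1) 5 := by
    rw [hF]
    exact coprime_of_order hp.out.two_le (by simpa using hord) (by norm_num)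
  obtain ⟨w, hw, hy5, hy1⟩ := exists_scale x 5 (by norm_num) z hz hns hc
  set y := scaleGL w hw x with hy
  obtain ⟨hcompl, hd, hne, hTW⟩ := cyc_split 5 hcast hirr (y : M4) hy5 hy1
  have hdeg : (cyclotomic 5 F).natDegree = 4 := by
    rw [Cfsg.Agent.Lib.PrimOrder.natDegree_cyc]
  have hW4 : finrank F (LinearMap.ker (aeval (Matrix.toLinAlgEquiv' (y : M4) : Module.End F V4) (cyclotomic 5 F))) = 4 := by
    have hle := finrank_le_four (LinearMap.ker (aeval (Matrix.toLinAlgEquiv' (y : M4) : Module.End F V4) (cyclotomic 5 F)))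
    obtain ⟨k, hk⟩ := hd
    omega
  have hy0 : aeval (y : M4) (cyclotomic 5 F) = 0 := aeval_T_eq_zero _ _ (finrank_top_of _ _ hW4)
  have h2 := h.base.h2
  have hi := h.base.hi
  have hM := cyc5_eval i hi h2
  obtain ⟨u, hu⟩ := Cfsg.Agent.Lib.MatConj.exists_conj_of_poly y _ _ hirr (cyclotomic.monic 5 F) hy0 hM
  have hconj := scale_conj w hw x u _ hu
  rw [smul_smul] at hconj
  refine h.final x u (M5' i) (w * 2⁻¹) h.nrm_M5 hconj ?_
  intro d hd0
  obtain ⟨D, hD1, hD2⟩ := exists_comm_det_irred _ _ hirr hdeg hM d hd0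
  refine ⟨D, ?_, hD2⟩
  rw [Matrix.mul_smul, Matrix.smul_mul] at hD1
  exact smul_right_injective _ (inv_ne_zero h2) hD1

/-- The change of basis for the permutation of order three. -/
theorem P3_conj (h3 : (3 : F) ≠ 0) :
    ∃ B : GL4, (B : M4) * !![1,0,0,0;0,1,0,0;0,0,0,-1;0,0,1,-1] = P3 * (B : M4) := by
  set B : M4 := !![1,0,0,0;0,1,1,0;0,1,0,-1;0,1,-1,1] with hB
  have hdet : B.det ≠ 0 := by
    rw [hB, det4]
    intro h0
    apply h3
    linear_combination -h0
  refine ⟨Matrix.GeneralLinearGroup.mkOfDetNeZero B hdet, ?_⟩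
  show B * _ = P3 * B
  rw [hB]
  ext a b
  fin_cases a <;> fin_cases b <;> simp [P3, Matrix.mul_apply, Fin.sum_univ_four]

theorem order_mod3 : orderOf ((2 : ℕ) : ZMod 3) = 2 := by
  rw [orderOf_eq_iff (by norm_num)]
  decide

/-- The sufficiency for `r = 3`. -/
theorem back_three [Fintype F] {p : ℕ} [hp : Fact p.Prime] [CharP F p] (hF : Fintype.card F = p) {R : Subgroup GL4} {i : F}
    {s a1 b1 a2 b2 P : GL4} (h : Std R i s a1 b1 a2 b2 P) (hp3 : p % 3 = 2)
    (x : GL4) (z : F) (hz : ((x ^ 3 : GL4) : M4) = z • (1 : M4))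
    (hns : ∀ c : F, (x : M4) ≠ c • (1 : M4)) :
    ∃ g ∈ specialLinear (Fin 4) F, g⁻¹ * x * g ∈ subgroupNormalizer R := by
  classical
  haveI hf3 : Fact (Nat.Prime 3) := ⟨Nat.prime_three⟩
  have hnp : 3 ≠ p := by
    rintro rfl
    omega
  have hcastz : ((p : ℕ) : ZMod 3) = ((p % 3 : ℕ) : ZMod 3) := by
    rw [ZMod.natCast_mod]
  have hord : orderOf ((p : ℕ) : ZMod 3) = 2 := by
    rw [hcastz, hp3]
    exact order_mod3
  have hirr : Irreducible (cyclotomic 3 F) :=
    Cfsg.Agent.Lib.PrimOrder.irreducible_cyc (p := p) 3 hnp (by rw [hF]; simpa using hord)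
  have hcast : ((3 : ℕ) : F) ≠ 0 := Cfsg.Agent.Lib.PrimOrder.natCast_ne_zero_of_ne Nat.prime_three hp.out hnp
  have hcast' : (3 : F) ≠ 0 := by exact_mod_cast hcast
  have hc : Nat.Coprime (Fintype.card F - 1) 3 := by
    rw [hF]
    exact coprime_of_order hp.out.two_le (by simpa using hord) (by norm_num)
  obtain ⟨w, hw, hy3, hy1⟩ := exists_scale x 3 (by norm_num) z hz hns hc
  set y := scaleGL w hw x with hy
  obtain ⟨hcompl, hd, hne, hTW⟩ := cyc_split 3 hcast hirr (y : M4) hy3 hy1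
  set T : Module.End F V4 := Matrix.toLinAlgEquiv' (y : M4) with hT
  have hdeg : (cyclotomic 3 F).natDegree = 2 := by
    rw [Cfsg.Agent.Lib.PrimOrder.natDegree_cyc]
  have h2 := h.base.h2
  have hi := h.base.hi
  have hle := finrank_le_four (LinearMap.ker (aeval T (cyclotomic 3 F)))
  have hcases : finrank F (LinearMap.ker (aeval T (cyclotomic 3 F))) = 4 ∨ finrank F (LinearMap.ker (aeval T (cyclotomic 3 F))) = 2 := by
    obtain ⟨k, hk⟩ := hd
    omega
  rcases hcases with hW4 | hW2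
  · have hy0 : aeval (y : M4) (cyclotomic 3 F) = 0 := aeval_T_eq_zero _ _ (finrank_top_of _ _ hW4)
    have hM := cyc3_eval i hi h2
    obtain ⟨u, hu⟩ := Cfsg.Agent.Lib.MatConj.exists_conj_of_poly y _ _ hirr (cyclotomic.monic 3 F) hy0 hM
    have hconj := scale_conj w hw x u _ hu
    rw [smul_smul] at hconj
    exact h.final x u (M32' i) (w * 2⁻¹) h.nrm_M32 hconj (fun d hd0 => hD_M32 i hi h2 hcast' d hd0)
  · -- the mixed case
    set U := LinearMap.ker (aeval T (X - C 1 : F[X])) with hU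
    set W := LinearMap.ker (aeval T (cyclotomic 3 F)) with hW
    have hU2 : finrank F U = 2 := by
      have := Submodule.finrank_add_eq_of_isCompl hcompl
      simp only [Module.finrank_fin_fun] at this
      omega
    have hUv : ∀ v : U, T (v : V4) = v := by
      intro v
      have : aeval T (X - C 1 : F[X]) (v : V4) = 0 := LinearMap.mem_ker.mp v.2
      simp only [map_sub, aeval_X, aeval_C, map_one, LinearMap.sub_apply, Module.End.one_apply, sub_eq_zero] at this
      exact this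
    have hrest : aeval (T.restrict hTW : Module.End F W) (cyclotomic 3 F) = 0 := by
      apply LinearMap.ext
      intro v
      apply Subtype.ext
      rw [Cfsg.Agent.Lib.EigenThree.aeval_restrict_apply]
      exact LinearMap.mem_ker.mp v.2
    obtain ⟨m, v, b, hb⟩ := Cfsg.Agent.Lib.MatConj.exists_poly_basis' (T.restrict hTW) (cyclotomic 3 F) hirr hrest 2 hdeg
    have hm : m = 1 := by
      have := finrank_eq_card_basis b
      rw [hW2] at this
      simp at this
      omega
    subst hm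
    set bU : Basis (Fin 2) F U := Module.finBasisOfFinrankEq F U hU2 with hbU
    let e : Basis (Fin 2 ⊕ (Fin 2 × Fin 1)) F V4 := (bU.prod b).map (Submodule.prodEquivOfIsCompl U W hcompl)
    let φ : (Fin 2 ⊕ (Fin 2 × Fin 1)) ≃ Fin 4 :=
      (Equiv.sumCongr (Equiv.refl _) (Equiv.prodUnique _ _)).trans finSumFinEquiv
    have he1 : ∀ j, e (Sum.inl j) = (bU j : V4) := by
      intro j
      simp [e, Module.Basis.map_apply, Module.Basis.prod_apply]
    have he2 : ∀ j, e (Sum.inr j) = (b j : V4) := by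
      intro j
      simp [e, Module.Basis.map_apply, Module.Basis.prod_apply]
    have hb0 : ((b (0, 0) : W) : V4) = (v 0 : V4) := by
      rw [hb]
      simp
    have hb1 : ((b (1, 0) : W) : V4) = T (v 0 : V4) := by
      rw [hb]
      simp
    have hTv : ∀ u : V4, (y : M4) *ᵥ u = T u := fun u => rfl
    -- relation on `W`
    have hrel : T (T (v 0 : V4)) = -(v 0 : V4) - T (v 0 : V4) := by
      have h2 : aeval T (cyclotomic 3 F) (v 0 : V4) = 0 := LinearMap.mem_ker.mp (v 0).2
      rw [cyclotomic_prime] at h2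
      simp only [Finset.sum_range_succ, Finset.sum_range_zero, zero_add, pow_zero, pow_one, map_add, map_one, map_pow, aeval_X,
        LinearMap.add_apply, Module.End.one_apply] at h2
      rw [pow_two, Module.End.mul_apply] at h2
      rw [eq_neg_of_add_eq_zero_right h2]
      abel
    have c0 : (e.reindex φ) 0 = (bU 0 : V4) := by
      rw [Basis.reindex_apply]
      exact he1 0
    have c1 : (e.reindex φ) 1 = (bU 1 : V4) := by
      rw [Basis.reindex_apply]
      exact he1 1
    have c2 : (e.reindex φ) 2 = (v 0 : V4) := by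
      rw [Basis.reindex_apply]
      exact (he2 (0, 0)).trans hb0
    have c3 : (e.reindex φ) 3 = T (v 0 : V4) := by
      rw [Basis.reindex_apply]
      exact (he2 (1, 0)).trans hb1
    obtain ⟨u₁, hu₁⟩ := conj_of_basis y (e.reindex φ) !![1,0,0,0;0,1,0,0;0,0,0,-1;0,0,1,-1] (by
      intro k
      rw [Fin.sum_univ_four, c0, c1, c2, c3]
      fin_cases k
      · show (y : M4) *ᵥ (e.reindex φ) 0 = _
        rw [c0, hTv, hUv]
        simp
      · show (y : M4) *ᵥ (e.reindex φ) 1 = _
        rw [c1, hTv, hUv]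
        simp
      · show (y : M4) *ᵥ (e.reindex φ) 2 = _
        rw [c2, hTv]
        simp
      · show (y : M4) *ᵥ (e.reindex φ) 3 = _
        rw [c3, hTv, hrel]
        simp
        abel)
    obtain ⟨B, hB⟩ := P3_conj hcast'
    have hconj := scale_conj w hw x (u₁ * B⁻¹) P3 (by
      have e1 : (u₁ * B⁻¹)⁻¹ * y * (u₁ * B⁻¹) = B * (u₁⁻¹ * y * u₁) * B⁻¹ := by group
      rw [e1, Units.val_mul, Units.val_mul, hu₁, hB, mul_assoc, ← Units.val_mul, mul_inv_cancel]
      simp)
    exact h.final x (u₁ * B⁻¹) P3 w h.nrm_P3 hconj (fun d hd0 => hD_P3 d hd0)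

end Cfsg.Agent.Lib.Sym64
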