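import Mathlib

/-!
# Groups of order 64, exponent 4, centre of order 4, all characteristic abelian subgroups cyclic.

Every element squares into the centre, every commutator lies in the centre and squares to one;
there are symplectic pairs `a₁ b₁`, `a₂ b₂`, and the group is the central product.
-/

set_option autoImplicit false
set_option linter.style.haveILetI false

namespace Cfsg.Agent.Lib.SymType64

open Subgroup

variable {G : Type*} [Group G]

/-- The commutator `u v u⁻¹ v⁻¹`. -/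
def cm (u v : G) : G := u * v * u⁻¹ * v⁻¹

theorem cm_def (u v : G) : cm u v = u * v * u⁻¹ * v⁻¹ := rfl

theorem map_mem_center (φ : G ≃* G) {z : G} (hz : z ∈ center G) : φ z ∈ center G := by
  rw [mem_center_iff] at hz ⊢
  intro g
  have := hz (φ.symm g)
  have h2 := congrArg φ this
  simpa using h2

/-- The second centre. -/
def Y₂ (G : Type*) [Group G] : Subgroup G where
  carrier := {y | ∀ g, cm y g ∈ center G}
  one_mem' := by
    intro g
    have : cm (1 : G) g = 1 := by simp [cm]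
    rw [this]
    exact one_mem _
  mul_mem' := by
    intro a b ha hb g
    have h : cm (a * b) g = a * cm b g * a⁻¹ * cm a g := by
      simp only [cm]; group
    rw [h]
    exact mul_mem (Subgroup.Normal.conj_mem inferInstance _ (hb g) a) (ha g)
  inv_mem' := by
    intro a ha g
    have h : cm a⁻¹ g = a⁻¹ * (cm a g)⁻¹ * a⁻¹⁻¹ := by
      simp only [cm]; group
    rw [h]
    exact Subgroup.Normal.conj_mem inferInstance _ (inv_mem (ha g)) a⁻¹

theorem mem_Y₂ {y : G} : y ∈ Y₂ G ↔ ∀ g, cm y g ∈ center G := Iff.rfl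

theorem center_le_Y₂ : center G ≤ Y₂ G := by
  intro z hz g
  have : cm z g = 1 := by
    rw [cm, (mem_center_iff.1 hz g).symm]; group
  rw [this]
  exact one_mem _

instance Y₂_char : (Y₂ G).Characteristic := by
  rw [characteristic_iff_le_comap]
  intro φ y hy g'
  have h : cm (φ.toMonoidHom y) g' = φ (cm y (φ.symm g')) := by
    simp [cm, map_mul, map_inv]
  rw [h]
  exact map_mem_center φ (hy _)

theorem cm_sq_left {a b : G} (h : cm a b ∈ center G) : cm (a ^ 2) b = cm a b ^ 2 := by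
  have h1 : cm (a ^ 2) b = a * cm a b * a⁻¹ * cm a b := by
    simp only [cm, pow_two]; group
  have h2 : a * cm a b = cm a b * a := (mem_center_iff.1 h a)
  rw [h1, h2, mul_assoc (cm a b), mul_inv_cancel, mul_one, pow_two]

theorem cm_sq_right {a b : G} (h : cm a b ∈ center G) : cm a (b ^ 2) = cm a b ^ 2 := by
  have h1 : cm a (b ^ 2) = cm a b * (b * cm a b * b⁻¹) := by
    simp only [cm, pow_two]; group
  have h2 : b * cm a b = cm a b * b := (mem_center_iff.1 h b)
  rw [h1, h2, mul_assoc (cm a b) b, mul_inv_cancel, mul_one, pow_two]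

/-- The subgroup generated by squares of the second centre and the centre. -/
def B₂ (G : Type*) [Group G] : Subgroup G :=
  closure ({y | ∃ a ∈ Y₂ G, y = a ^ 2} ∪ (center G : Set G))

instance B₂_char : (B₂ G).Characteristic := by
  rw [characteristic_iff_le_comap]
  intro φ
  unfold B₂
  rw [closure_le]
  rintro y (⟨a, ha, rfl⟩ | hy)
  · apply Subgroup.subset_closure
    left
    refine ⟨φ a, ?_, by simp⟩
    exact (characteristic_iff_le_comap.1 (inferInstance : (Y₂ G).Characteristic) φ) ha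
  · apply Subgroup.subset_closure
    right
    exact map_mem_center φ hy

/-- The main structural hypotheses. -/
structure Hyp (G : Type*) [Group G] : Prop where
  card : Nat.card G = 64
  exp4 : ∀ g : G, g ^ 4 = 1
  cardZ : Nat.card (center G) = 4
  char : ∀ A : Subgroup G, A.Characteristic → IsMulCommutative A → IsCyclic A

variable (hG : Hyp G)
include hG

theorem finiteG : Finite G := Nat.finite_of_card_ne_zero (by rw [hG.card]; norm_num)

/-- A characteristic abelian subgroup containing the centre is the centre. -/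
theorem eq_center_of_char {A : Subgroup G} (hc : A.Characteristic) (ha : IsMulCommutative A)
    (hZ : center G ≤ A) : A = center G := by
  haveI := finiteG hG
  haveI := hG.char A hc ha
  obtain ⟨g, hg⟩ := IsCyclic.exists_generator (α := A)
  have h1 : Nat.card A = orderOf g := (orderOf_eq_card_of_forall_mem_zpowers hg).symm
  have h2 : orderOf g ∣ 4 := orderOf_dvd_of_pow_eq_one (by
    apply Subtype.ext
    simpa using hG.exp4 (g : G))
  have h3 : Nat.card A ≤ 4 := by
    rw [h1]; exact Nat.le_of_dvd (by norm_num) h2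
  symm
  apply Subgroup.eq_of_le_of_card_ge hZ
  rw [hG.cardZ]
  exact h3

theorem sq_mem_center_of_Y₂ {y : G} (hy : y ∈ Y₂ G) : y ^ 2 ∈ center G := by
  have hcomm : IsMulCommutative (B₂ G) := by
    have hgen : ∀ x ∈ ({y | ∃ a ∈ Y₂ G, y = a ^ 2} ∪ (center G : Set G)),
        ∀ y ∈ ({y | ∃ a ∈ Y₂ G, y = a ^ 2} ∪ (center G : Set G)), x * y = y * x := by
      rintro x (⟨a, ha, rfl⟩ | hx) y (⟨b, hb, rfl⟩ | hy)
      · have h1 : cm a b ∈ center G := ha b
        have h2 : cm (a ^ 2) b = cm a b ^ 2 := cm_sq_left h1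
        have h2c : cm (a ^ 2) b ∈ center G := by rw [h2]; exact pow_mem h1 2
        have h3 : cm (a ^ 2) (b ^ 2) = (cm a b ^ 2) ^ 2 := by
          rw [cm_sq_right h2c, h2]
        have h4 : cm (a ^ 2) (b ^ 2) = 1 := by
          rw [h3, ← pow_mul]
          exact hG.exp4 _
        have h5 : a ^ 2 * b ^ 2 * (a ^ 2)⁻¹ * (b ^ 2)⁻¹ = 1 := h4
        have h6 : a ^ 2 * b ^ 2 = b ^ 2 * a ^ 2 := by
          calc a ^ 2 * b ^ 2 = (a ^ 2 * b ^ 2 * (a ^ 2)⁻¹ * (b ^ 2)⁻¹) * (b ^ 2 * a ^ 2) := by group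
            _ = b ^ 2 * a ^ 2 := by rw [h5, one_mul]
        exact h6
      · exact (mem_center_iff.1 hy _)
      · exact (mem_center_iff.1 hx _).symm
      · exact (mem_center_iff.1 hy _)
    exact Subgroup.isMulCommutative_closure hgen
  have h := eq_center_of_char hG (inferInstance) hcomm (by
    intro z hz
    exact Subgroup.subset_closure (Or.inr hz))
  rw [← h]
  exact Subgroup.subset_closure (Or.inl ⟨y, hy, rfl⟩)

/-- `Y₂` is strictly bigger than the centre. -/
theorem exists_mem_Y₂_not_center : ∃ y ∈ Y₂ G, y ∉ center G := by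
  haveI := finiteG hG
  have hp : IsPGroup 2 (G ⧸ center G) := by
    have hpG : IsPGroup 2 G := IsPGroup.of_card (n := 6) (by rw [hG.card]; norm_num)
    exact IsPGroup.to_quotient hpG _
  have hnt : Nontrivial (G ⧸ center G) := by
    rw [← not_subsingleton_iff_nontrivial]
    intro hs
    have h1 : Nat.card (G ⧸ center G) = 1 := Nat.card_of_subsingleton (1 : G ⧸ center G)
    have h2 := Subgroup.card_eq_card_quotient_mul_card_subgroup (center G)
    rw [h1, hG.card, hG.cardZ] at h2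
    omega
  haveI : Fact (Nat.Prime 2) := ⟨Nat.prime_two⟩
  have hc := hp.center_nontrivial
  obtain ⟨q, hq⟩ := exists_ne (1 : center (G ⧸ center G))
  obtain ⟨y, hy⟩ := QuotientGroup.mk_surjective (q : G ⧸ center G)
  refine ⟨y, ?_, ?_⟩
  · intro g
    have h1 : ((cm y g : G) : G ⧸ center G) = 1 := by
      have h2 := mem_center_iff.1 q.2 (g : G ⧸ center G)
      rw [← hy] at h2
      simp only [cm, QuotientGroup.mk_mul, QuotientGroup.mk_inv]
      rw [h2.symm]
      group
    exact (QuotientGroup.eq_one_iff _).1 h1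
  · intro h
    apply hq
    apply Subtype.ext
    rw [← hy]
    exact (QuotientGroup.eq_one_iff _).2 h

theorem exists_noncomm_Y₂ : ∃ y₁ ∈ Y₂ G, ∃ y₂ ∈ Y₂ G, cm y₁ y₂ ≠ 1 := by
  by_contra hno
  push Not at hno
  obtain ⟨y, hy, hyZ⟩ := exists_mem_Y₂_not_center hG
  have hcomm : IsMulCommutative (Y₂ G) := by
    refine IsMulCommutative.of_comm ?_
    intro a b
    apply Subtype.ext
    have h := hno a a.2 b b.2
    show (a : G) * b = b * a
    calc (a : G) * b = cm (a : G) b * (b * a) := by simp only [cm]; group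
      _ = b * a := by rw [h, one_mul]
  have h := eq_center_of_char hG (inferInstance) hcomm center_le_Y₂
  exact hyZ (h ▸ hy)

omit hG in
/-- Splitting off a symplectic pair. -/
theorem pair_lemma {H : Type*} [Group H] [Finite H] {e x₁ x₂ : H} (he : e ∈ center H) (he2 : e ^ 2 = 1)
    (he1 : e ≠ 1) (hx : cm x₁ x₂ = e) (hvals : ∀ u, (cm u x₁ = 1 ∨ cm u x₁ = e) ∧ (cm u x₂ = 1 ∨ cm u x₂ = e)) :
    ∃ K : Subgroup H, (∀ u, u ∈ K ↔ cm u x₁ = 1 ∧ cm u x₂ = 1) ∧ Nat.card H = 4 * Nat.card K ∧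
      ∀ u, ∃ k ∈ K, ∃ α β : ℕ, α < 2 ∧ β < 2 ∧ u = k * x₂ ^ α * x₁ ^ β := by
  classical
  have hE : ∀ u, u ∈ zpowers e ↔ u = 1 ∨ u = e := by
    intro u
    constructor
    · rintro ⟨k, rfl⟩
      rcases Int.even_or_odd' k with ⟨m, rfl | rfl⟩
      · left
        show e ^ (2 * m) = 1
        rw [zpow_mul]
        simp [he2]
      · right
        show e ^ (2 * m + 1) = e
        rw [zpow_add, zpow_mul]
        simp [he2]
    · rintro (rfl | rfl)
      · exact one_mem _
      · exact mem_zpowers _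
  have hcardE : Nat.card (zpowers e) = 2 := by
    rw [Nat.card_zpowers]
    exact orderOf_eq_prime he2 he1
  have hcomm : ∀ {z : H}, z ∈ zpowers e → z ∈ center H := by
    intro z hz
    rcases (hE z).1 hz with rfl | rfl
    · exact one_mem _
    · exact he
  have hcmmul : ∀ u v y : H, cm u y ∈ zpowers e → cm v y ∈ zpowers e → cm (u * v) y = cm u y * cm v y := by
    intro u v y hu hv
    have h1 : cm (u * v) y = u * cm v y * u⁻¹ * cm u y := by
      simp only [cm]; group
    have h2 : u * cm v y = cm v y * u := mem_center_iff.1 (hcomm hv) u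
    rw [h1, h2, mul_assoc (cm v y), mul_inv_cancel, mul_one]
    exact mem_center_iff.1 (hcomm hu) _
  let f₀ : H → (zpowers e) × (zpowers e) := fun u =>
    (⟨cm u x₁, (hE _).2 (hvals u).1⟩, ⟨cm u x₂, (hE _).2 (hvals u).2⟩)
  let f : H →* (zpowers e) × (zpowers e) := MonoidHom.mk' f₀ (by
    intro u v
    apply Prod.ext
    · apply Subtype.ext
      exact hcmmul u v x₁ ((hE _).2 (hvals u).1) ((hE _).2 (hvals v).1)
    · apply Subtype.ext
      exact hcmmul u v x₂ ((hE _).2 (hvals u).2) ((hE _).2 (hvals v).2))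
  have hf₀ : ∀ u, ((f u).1 : H) = cm u x₁ ∧ ((f u).2 : H) = cm u x₂ := fun u => ⟨rfl, rfl⟩
  have hx11 : cm x₁ x₁ = 1 := by simp [cm]
  have hx22 : cm x₂ x₂ = 1 := by simp [cm]
  have hx21 : cm x₂ x₁ = e := by
    have h1 : cm x₂ x₁ = (cm x₁ x₂)⁻¹ := by simp only [cm]; group
    rw [h1, hx]
    have : e * e = 1 := by rw [← pow_two, he2]
    exact inv_eq_of_mul_eq_one_left this
  have hsolve : ∀ p₁ p₂ : zpowers e, ∃ α β : ℕ, α < 2 ∧ β < 2 ∧ f (x₂ ^ α * x₁ ^ β) = (p₁, p₂) := by
    intro p₁ p₂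
    have hfx₁ : f x₁ = (1, ⟨e, mem_zpowers e⟩) := by
      apply Prod.ext
      · apply Subtype.ext; exact hx11
      · apply Subtype.ext; exact hx
    have hfx₂ : f x₂ = (⟨e, mem_zpowers e⟩, 1) := by
      apply Prod.ext
      · apply Subtype.ext; exact hx21
      · apply Subtype.ext; exact hx22
    rcases (hE _).1 p₁.2 with h1 | h1 <;> rcases (hE _).1 p₂.2 with h2 | h2
    · refine ⟨0, 0, by norm_num, by norm_num, ?_⟩
      apply Prod.ext
      · apply Subtype.ext; simp [h1]
      · apply Subtype.ext; simp [h2]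
    · refine ⟨0, 1, by norm_num, by norm_num, ?_⟩
      simp only [pow_zero, one_mul, pow_one, hfx₁]
      apply Prod.ext
      · apply Subtype.ext; simp [h1]
      · apply Subtype.ext; simp [h2]
    · refine ⟨1, 0, by norm_num, by norm_num, ?_⟩
      simp only [pow_zero, mul_one, pow_one, hfx₂]
      apply Prod.ext
      · apply Subtype.ext; simp [h1]
      · apply Subtype.ext; simp [h2]
    · refine ⟨1, 1, by norm_num, by norm_num, ?_⟩
      simp only [pow_one, map_mul, hfx₁, hfx₂]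
      apply Prod.ext
      · apply Subtype.ext; simp [h1]
      · apply Subtype.ext; simp [h2]
  have hsurj : Function.Surjective f := by
    rintro ⟨p₁, p₂⟩
    obtain ⟨α, β, _, _, h⟩ := hsolve p₁ p₂
    exact ⟨_, h⟩
  refine ⟨f.ker, ?_, ?_, ?_⟩
  · intro u
    rw [MonoidHom.mem_ker]
    constructor
    · intro h
      have h1 : f u = 1 := h
      have h2 := hf₀ u
      rw [h1] at h2
      exact ⟨h2.1.symm, h2.2.symm⟩
    · rintro ⟨h1, h2⟩
      apply Prod.ext
      · apply Subtype.ext; exact h1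
      · apply Subtype.ext; exact h2
  · have h1 := Subgroup.card_eq_card_quotient_mul_card_subgroup f.ker
    have h2 : Nat.card (H ⧸ f.ker) = 4 := by
      rw [Nat.card_congr (QuotientGroup.quotientKerEquivOfSurjective f hsurj).toEquiv, Nat.card_prod, hcardE]
    rw [h1, h2]
  · intro u
    obtain ⟨α, β, hα, hβ, h⟩ := hsolve (f u).1 (f u).2
    refine ⟨u * (x₂ ^ α * x₁ ^ β)⁻¹, ?_, α, β, hα, hβ, by group⟩
    rw [MonoidHom.mem_ker, map_mul, map_inv, h]
    simp

omit hG in
theorem cm_comm_of {a b : G} (h : cm a b = 1) : a * b = b * a := by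
  calc a * b = cm a b * (b * a) := by simp only [cm]; group
    _ = b * a := by rw [h, one_mul]

omit hG in
theorem cm_eq_one_of {a b : G} (h : a * b = b * a) : cm a b = 1 := by
  rw [cm, h]; group

omit hG in
theorem cm_symm_one {a b : G} (h : cm a b = 1) : cm b a = 1 :=
  cm_eq_one_of (cm_comm_of h).symm

theorem structure_thm : ∃ e a₁ b₁ a₂ b₂ : G, e ∈ center G ∧ e ≠ 1 ∧ e ^ 2 = 1 ∧
    (∀ u v, cm u v = 1 ∨ cm u v = e) ∧ (∀ u, u ^ 2 ∈ center G) ∧
    (∀ z ∈ center G, z ^ 2 = 1 → z = 1 ∨ z = e) ∧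
    cm a₁ b₁ = e ∧ cm a₂ b₂ = e ∧ cm a₁ a₂ = 1 ∧ cm a₁ b₂ = 1 ∧ cm b₁ a₂ = 1 ∧ cm b₁ b₂ = 1 ∧
    ∀ u, ∃ z ∈ center G, ∃ α₁ β₁ α₂ β₂ : ℕ, α₁ < 2 ∧ β₁ < 2 ∧ α₂ < 2 ∧ β₂ < 2 ∧
      u = z * b₂ ^ β₂ * a₂ ^ α₂ * b₁ ^ β₁ * a₁ ^ α₁ := by
  classical
  haveI hfin := finiteG hG
  obtain ⟨y₁, hy₁, y₂, hy₂, hne⟩ := exists_noncomm_Y₂ hG
  set e := cm y₁ y₂ with he_def
  have he : e ∈ center G := hy₁ y₂
  have hsqz : ∀ {y : G}, y ∈ Y₂ G → ∀ g, (cm y g) ^ 2 = 1 := by
    intro y hy g
    rw [← cm_sq_left (hy g)]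
    exact cm_eq_one_of (mem_center_iff.1 (sq_mem_center_of_Y₂ hG hy) g).symm
  have he2 : e ^ 2 = 1 := hsqz hy₁ y₂
  -- the involution of the centre is unique
  have hZ2 : ∀ z ∈ center G, z ^ 2 = 1 → z = 1 ∨ z = e := by
    intro z hz hz2
    haveI hcz : IsCyclic (center G) := hG.char _ inferInstance (by
      refine IsMulCommutative.of_comm ?_
      intro a b
      apply Subtype.ext
      exact mem_center_iff.1 b.2 a)
    obtain ⟨g, hg⟩ := IsCyclic.exists_generator (α := center G)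
    have hog : orderOf g = 4 := by
      rw [← hG.cardZ]
      exact orderOf_eq_card_of_forall_mem_zpowers hg
    have key : ∀ w : center G, w ^ 2 = 1 → w = 1 ∨ w = g ^ 2 := by
      intro w hw
      obtain ⟨k, hk⟩ := hg w
      have hk' : g ^ k = w := hk
      have h1 : g ^ (k * 2) = 1 := by
        rw [zpow_mul, hk']
        exact_mod_cast hw
      have h2 := orderOf_dvd_iff_zpow_eq_one.2 h1
      rw [hog] at h2
      have h3 : (2 : ℤ) ∣ k := by omega
      obtain ⟨m, rfl⟩ := h3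
      rcases Int.even_or_odd' m with ⟨n, rfl | rfl⟩
      · left
        rw [← hk', show (2 : ℤ) * (2 * n) = 4 * n by ring, zpow_mul]
        have : g ^ (4 : ℤ) = 1 := by
          have := pow_orderOf_eq_one g
          rw [hog] at this
          exact_mod_cast this
        rw [this, one_zpow]
      · right
        rw [← hk', show (2 : ℤ) * (2 * n + 1) = 4 * n + 2 by ring, zpow_add, zpow_mul]
        have : g ^ (4 : ℤ) = 1 := by
          have := pow_orderOf_eq_one g
          rw [hog] at this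
          exact_mod_cast this
        rw [this, one_zpow, one_mul]
        exact zpow_ofNat g 2
    have he' := key ⟨e, he⟩ (Subtype.ext he2)
    have hz' := key ⟨z, hz⟩ (Subtype.ext hz2)
    rcases hz' with h | h
    · left
      exact congrArg Subtype.val h
    · right
      rcases he' with h' | h'
      · exact absurd (congrArg Subtype.val h') hne
      · have := h.trans h'.symm
        exact congrArg Subtype.val this
  have hinvcm : ∀ u y : G, cm u y = (cm y u)⁻¹ := by
    intro u y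
    simp only [cm]; group
  have hvalsY : ∀ {y : G}, y ∈ Y₂ G → ∀ u, cm u y = 1 ∨ cm u y = e := by
    intro y hy u
    have h1 : cm u y ∈ center G := by
      rw [hinvcm]; exact inv_mem (hy u)
    apply hZ2 _ h1
    rw [hinvcm, inv_pow, hsqz hy u, inv_one]
  have hx21 : cm y₁ y₂ = e := rfl
  obtain ⟨L, hL, hLcard, hLdec⟩ := pair_lemma he he2 hne hx21 (fun u => ⟨hvalsY hy₁ u, hvalsY hy₂ u⟩)
  have hL16 : Nat.card L = 16 := by
    rw [hG.card] at hLcard
    omega
  have hZL : center G ≤ L := by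
    intro z hz
    rw [hL]
    exact ⟨cm_eq_one_of (mem_center_iff.1 hz y₁).symm, cm_eq_one_of (mem_center_iff.1 hz y₂).symm⟩
  have hLZ : Nat.card ((center G).subgroupOf L) = 4 := by
    rw [Nat.card_congr (Subgroup.subgroupOfEquivOfLe hZL).toEquiv, hG.cardZ]
  -- `L` modulo the centre is abelian
  have hLcm : ∀ l ∈ L, ∀ l' ∈ L, cm l l' ∈ center G := by
    intro l hl l' hl'
    have hQ : Nat.card (L ⧸ (center G).subgroupOf L) = 2 ^ 2 := by
      have h := Subgroup.card_eq_card_quotient_mul_card_subgroup ((center G).subgroupOf L)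
      rw [hL16, hLZ] at h
      omega
    haveI : Fact (Nat.Prime 2) := ⟨Nat.prime_two⟩
    have hcq : IsMulCommutative (L ⧸ (center G).subgroupOf L) := IsPGroup.isMulCommutative_of_card_eq_prime_sq (p := 2) hQ
    have h1 : ((⟨l, hl⟩ : L) : L ⧸ (center G).subgroupOf L) * ((⟨l', hl'⟩ : L) : L ⧸ (center G).subgroupOf L) =
        ((⟨l', hl'⟩ : L) : L ⧸ (center G).subgroupOf L) * ((⟨l, hl⟩ : L) : L ⧸ (center G).subgroupOf L) :=
      hcq.is_comm.comm _ _
    have h2 : (((⟨l, hl⟩ : L) * ⟨l', hl'⟩ * (⟨l, hl⟩ : L)⁻¹ * (⟨l', hl'⟩ : L)⁻¹ : L) : L ⧸ (center G).subgroupOf L) = 1 := by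
      simp only [QuotientGroup.mk_mul, QuotientGroup.mk_inv]
      rw [h1]
      group
    have h3 := (QuotientGroup.eq_one_iff _).1 h2
    rw [Subgroup.mem_subgroupOf] at h3
    exact h3
  have hcomL : ∀ {l : G}, l ∈ L → l * y₁ = y₁ * l ∧ l * y₂ = y₂ * l := by
    intro l hl
    have := (hL l).1 hl
    exact ⟨cm_comm_of this.1, cm_comm_of this.2⟩
  have hcm_dec : ∀ {l : G}, l ∈ L → ∀ (k : G) (α β : ℕ), cm l (k * y₂ ^ α * y₁ ^ β) = cm l k := by
    intro l hl k α β
    have h1 : Commute l (y₂ ^ α) := ((show Commute l y₂ from (hcomL hl).2)).pow_right α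
    have h2 : Commute l (y₁ ^ β) := ((show Commute l y₁ from (hcomL hl).1)).pow_right β
    have h3 : l * (k * y₂ ^ α * y₁ ^ β) = l * k * y₂ ^ α * y₁ ^ β := by group
    simp only [cm]
    have h4 : l * k * y₂ ^ α * y₁ ^ β = l * k * (y₂ ^ α * y₁ ^ β) := by group
    have h5 : (y₂ ^ α * y₁ ^ β) * l = l * (y₂ ^ α * y₁ ^ β) := by
      rw [mul_assoc, ← h2.eq, ← mul_assoc, ← h1.eq, mul_assoc]
    have h6 : l⁻¹ * (k * y₂ ^ α * y₁ ^ β)⁻¹ = (k * y₂ ^ α * y₁ ^ β * l)⁻¹ := by group
    have h7 : (k * y₂ ^ α * y₁ ^ β * l) = k * l * (y₂ ^ α * y₁ ^ β) := by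
      rw [mul_assoc k, mul_assoc k, mul_assoc (y₂ ^ α), ← mul_assoc (y₂ ^ α), h5, ← mul_assoc, mul_assoc k]
    calc l * (k * y₂ ^ α * y₁ ^ β) * l⁻¹ * (k * y₂ ^ α * y₁ ^ β)⁻¹
        = l * (k * y₂ ^ α * y₁ ^ β) * (l⁻¹ * (k * y₂ ^ α * y₁ ^ β)⁻¹) := by group
      _ = l * (k * y₂ ^ α * y₁ ^ β) * (k * l * (y₂ ^ α * y₁ ^ β))⁻¹ := by rw [h6, h7]
      _ = l * k * l⁻¹ * k⁻¹ := by group
  have hLY : L ≤ Y₂ G := by
    intro l hl g
    obtain ⟨k, hk, α, β, _, _, rfl⟩ := hLdec g
    rw [hcm_dec hl]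
    exact hLcm l hl k hk
  have hall : ∀ u : G, u ∈ Y₂ G := by
    intro u
    obtain ⟨k, hk, α, β, _, _, rfl⟩ := hLdec u
    exact mul_mem (mul_mem (hLY hk) (pow_mem hy₂ _)) (pow_mem hy₁ _)
  have hvals : ∀ u v, cm u v = 1 ∨ cm u v = e := fun u v => hvalsY (hall v) u
  -- a second pair
  obtain ⟨a₂, ha₂L, ha₂Z⟩ : ∃ a₂ ∈ L, a₂ ∉ center G := by
    by_contra hno
    push Not at hno
    have h1 : L ≤ center G := hno
    have h2 := Subgroup.card_le_of_le h1
    rw [hL16, hG.cardZ] at h2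
    omega
  obtain ⟨b₂, hb₂L, hab⟩ : ∃ b₂ ∈ L, cm a₂ b₂ = e := by
    by_contra hno
    push Not at hno
    apply ha₂Z
    rw [mem_center_iff]
    intro g
    obtain ⟨k, hk, α, β, _, _, rfl⟩ := hLdec g
    apply Eq.symm
    apply cm_comm_of
    rw [hcm_dec ha₂L]
    rcases hvals a₂ k with h | h
    · exact h
    · exact absurd h (hno k hk)
  -- splitting `L`
  let a₂' : L := ⟨a₂, ha₂L⟩
  let b₂' : L := ⟨b₂, hb₂L⟩
  let e' : L := ⟨e, hZL he⟩
  have hcoe : ∀ u v : L, ((cm u v : L) : G) = cm (u : G) (v : G) := fun u v => rfl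
  have he'c : e' ∈ center L := by
    rw [mem_center_iff]
    intro g
    apply Subtype.ext
    exact mem_center_iff.1 he g
  have he'2 : e' ^ 2 = 1 := Subtype.ext he2
  have he'1 : e' ≠ 1 := fun h => hne (congrArg Subtype.val h)
  have hx' : cm a₂' b₂' = e' := Subtype.ext hab
  haveI : Finite L := inferInstance
  obtain ⟨K, hK, hKcard, hKdec⟩ := pair_lemma he'c he'2 he'1 hx' (fun u => by
    constructor
    · rcases hvals (u : G) a₂ with h | h
      · left; exact Subtype.ext h
      · right; exact Subtype.ext h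
    · rcases hvals (u : G) b₂ with h | h
      · left; exact Subtype.ext h
      · right; exact Subtype.ext h)
  have hK4 : Nat.card K = 4 := by
    rw [hL16] at hKcard
    omega
  have hZK : (center G).subgroupOf L ≤ K := by
    intro z hz
    rw [hK]
    rw [Subgroup.mem_subgroupOf] at hz
    constructor
    · apply Subtype.ext
      exact cm_eq_one_of (mem_center_iff.1 hz a₂).symm
    · apply Subtype.ext
      exact cm_eq_one_of (mem_center_iff.1 hz b₂).symm
  have hKZ : K = (center G).subgroupOf L := by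
    symm
    apply Subgroup.eq_of_le_of_card_ge hZK
    rw [hK4, hLZ]
  refine ⟨e, y₁, y₂, a₂, b₂, he, hne, he2, hvals, fun u => sq_mem_center_of_Y₂ hG (hall u), hZ2, rfl, hab,
    cm_symm_one ((hL a₂).1 ha₂L).1, cm_symm_one ((hL b₂).1 hb₂L).1,
    cm_symm_one ((hL a₂).1 ha₂L).2, cm_symm_one ((hL b₂).1 hb₂L).2, ?_⟩
  intro u
  obtain ⟨k, hk, α, β, hα, hβ, rfl⟩ := hLdec u
  obtain ⟨k₂, hk₂, γ, δ, hγ, hδ, hk₂eq⟩ := hKdec ⟨k, hk⟩
  rw [hKZ, Subgroup.mem_subgroupOf] at hk₂
  refine ⟨(k₂ : G), hk₂, β, α, δ, γ, hβ, hα, hδ, hγ, ?_⟩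
  have h3 : k = (k₂ : G) * b₂ ^ γ * a₂ ^ δ := congrArg Subtype.val hk₂eq
  rw [h3]

end Cfsg.Agent.Lib.SymType64
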