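import Mathlib
import Cfsg.Agent.Lib.SymType64
import Cfsg.Prelude.Def_GeometricClasses

/-!
# Absolutely irreducible matrix groups of order 64 of symplectic type with centre of order 4
-/

set_option autoImplicit false
set_option linter.style.haveILetI false

namespace Cfsg.Agent.Lib.SymType64M

open Subgroup Cfsg.Geo Cfsg.Agent.Lib.SymType64 Matrix
open scoped MatrixGroups

variable {F : Type*} [Field F] {R : Subgroup (GL (Fin 4) F)}

local notation "M4" => Matrix (Fin 4) (Fin 4) F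

/-- The elementary facts about `R` used below. -/
structure SymData (R : Subgroup (GL (Fin 4) F)) : Prop where
  two_ne : (2 : F) ≠ 0
  card : Nat.card R = 64
  comm_or : ∀ u ∈ R, ∀ v ∈ R, (u : M4) * v = v * u ∨ (u : M4) * v = -((v : M4) * u)
  sq_or : ∀ u ∈ R, (u : M4) * u = 1 ∨ (u : M4) * u = -1
  scal_or_anti : ∀ u ∈ R, (∃ c : F, (u : M4) = c • 1) ∨ ∃ v ∈ R, (u : M4) * v = -((v : M4) * u)
  comm_scal : ∀ A : M4, (∀ u ∈ R, A * u = (u : M4) * A) → ∃ c : F, A = c • 1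
  exists_i : ∃ (ι : F) (i₀ : GL (Fin 4) F), i₀ ∈ R ∧ (i₀ : M4) = ι • 1 ∧ ι * ι = -1

theorem card_R_hyp (hRs : IsSymplecticTypeGroup 2 R) (hR6 : Nat.card R = 2 ^ 6)
    (hRZ : Nat.card (center R) = 4) : Hyp R where
  card := by rw [hR6]; norm_num
  exp4 := by
    intro g
    have h1 := Monoid.pow_exponent_eq_one g
    rw [hRs.exponent_eq] at h1
    simpa using h1
  cardZ := hRZ
  char := hRs.cyclic_of_characteristic

/-- Central elements are scalars. -/
theorem center_scalar (hRi : ActsAbsolutelyIrreducibly (matrixSet R)) {z : R} (hz : z ∈ center R) :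
    ∃ c : F, ((z : GL (Fin 4) F) : M4) = c • 1 := by
  apply hRi.2
  rintro s ⟨g, hg, rfl⟩
  have := (mem_center_iff.1 hz ⟨g, hg⟩)
  have h2 : (g : GL (Fin 4) F) * (z : GL (Fin 4) F) = (z : GL (Fin 4) F) * g := congrArg Subtype.val this
  exact (congrArg Units.val h2).symm

theorem cm_val (u v : R) : (((cm u v : R) : GL (Fin 4) F) : M4) * ((v : GL (Fin 4) F) : M4) * ((u : GL (Fin 4) F) : M4) = ((u : GL (Fin 4) F) : M4) * ((v : GL (Fin 4) F) : M4) := by
  have h : (cm u v : R) * v * u = u * v := by simp [cm]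
  exact congrArg (fun w : R => ((w : GL (Fin 4) F) : M4)) h

/-- The data extracted from the hypotheses, with the symplectic basis. -/
theorem exists_data (h2 : (2 : F) ≠ 0) (hRs : IsSymplecticTypeGroup 2 R)
    (hRi : ActsAbsolutelyIrreducibly (matrixSet R)) (hR6 : Nat.card R = 2 ^ 6)
    (hRZ : Nat.card (center R) = 4) :
    SymData R ∧ ∃ (ι : F) (i₀ a₁ b₁ a₂ b₂ : GL (Fin 4) F), ι * ι = -1 ∧ (i₀ : M4) = ι • 1 ∧
      i₀ ∈ R ∧ a₁ ∈ R ∧ b₁ ∈ R ∧ a₂ ∈ R ∧ b₂ ∈ R ∧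
      (a₁ : M4) * a₁ = 1 ∧ (b₁ : M4) * b₁ = 1 ∧ (a₂ : M4) * a₂ = 1 ∧ (b₂ : M4) * b₂ = 1 ∧
      (a₁ : M4) * b₁ = -((b₁ : M4) * a₁) ∧ (a₂ : M4) * b₂ = -((b₂ : M4) * a₂) ∧
      (a₁ : M4) * a₂ = (a₂ : M4) * a₁ ∧ (a₁ : M4) * b₂ = (b₂ : M4) * a₁ ∧
      (b₁ : M4) * a₂ = (a₂ : M4) * b₁ ∧ (b₁ : M4) * b₂ = (b₂ : M4) * b₁ ∧
      ∀ u ∈ R, ∃ k α₁ β₁ α₂ β₂ : ℕ, α₁ < 2 ∧ β₁ < 2 ∧ α₂ < 2 ∧ β₂ < 2 ∧
        u = i₀ ^ k * b₂ ^ β₂ * a₂ ^ α₂ * b₁ ^ β₁ * a₁ ^ α₁ := by
  classical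
  have hH := card_R_hyp hRs hR6 hRZ
  haveI hfin : Finite R := finiteG hH
  obtain ⟨e, a₁, b₁, a₂, b₂, he, he1, he2, hvals, hsqZ, hZ2, h11, h22, h12, h12', h21, h21', hdec⟩ :=
    structure_thm hH
  -- the central involution is `-1`
  have hscal := fun (z : R) (hz : z ∈ center R) => center_scalar hRi hz
  obtain ⟨c₀, hc₀⟩ := hscal e he
  have hval_mul : ∀ u v : R, ((u * v : R) : GL (Fin 4) F).val = ((u : GL (Fin 4) F) : M4) * (v : GL (Fin 4) F) := fun _ _ => rfl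
  have hone_val : ((1 : R) : GL (Fin 4) F).val = (1 : M4) := rfl
  have hone_ne : (1 : M4) ≠ 0 := one_ne_zero
  have hc₀2 : c₀ * c₀ = 1 := by
    have h1 : ((e * e : R) : GL (Fin 4) F).val = (1 : M4) := by
      rw [← pow_two, he2]; rfl
    rw [hval_mul, hc₀, smul_mul_smul_comm, mul_one] at h1
    by_contra hne
    have h3 := congrFun (congrFun h1 0) 0
    simp at h3
    exact hne h3
  have hc₀ne : c₀ ≠ 1 := by
    rintro rfl
    apply he1
    apply Subtype.ext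
    apply Units.ext
    rw [hc₀]
    simp
  have hc₀neg : c₀ = -1 := by
    have h3 : (c₀ - 1) * (c₀ + 1) = 0 := by linear_combination hc₀2
    rcases mul_eq_zero.1 h3 with h | h
    · exact absurd (sub_eq_zero.1 h) hc₀ne
    · linear_combination h
  have he_val : ((e : GL (Fin 4) F) : M4) = -1 := by
    rw [hc₀, hc₀neg]; simp
  -- commutators
  have hcomm_or : ∀ u v : R, ((u : GL (Fin 4) F) : M4) * (v : GL (Fin 4) F) = (v : GL (Fin 4) F) * (u : GL (Fin 4) F) ∨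
      ((u : GL (Fin 4) F) : M4) * (v : GL (Fin 4) F) = -(((v : GL (Fin 4) F) : M4) * (u : GL (Fin 4) F)) := by
    intro u v
    rcases hvals u v with h | h
    · left
      have := cm_comm_of h
      exact congrArg (fun w : R => ((w : GL (Fin 4) F) : M4)) this
    · right
      have h3 := cm_val u v
      rw [h, he_val, mul_assoc] at h3
      rw [← h3]
      simp
  have hanti_of : ∀ {u v : R}, cm u v = e → ((u : GL (Fin 4) F) : M4) * (v : GL (Fin 4) F) = -(((v : GL (Fin 4) F) : M4) * (u : GL (Fin 4) F)) := by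
    intro u v h
    have h3 := cm_val u v
    rw [h, he_val, mul_assoc] at h3
    rw [← h3]
    simp
  have hcomm_of : ∀ {u v : R}, cm u v = 1 → ((u : GL (Fin 4) F) : M4) * (v : GL (Fin 4) F) = (v : GL (Fin 4) F) * (u : GL (Fin 4) F) := by
    intro u v h
    exact congrArg (fun w : R => ((w : GL (Fin 4) F) : M4)) (cm_comm_of h)
  -- squares
  have hsq_or : ∀ u : R, ((u : GL (Fin 4) F) : M4) * (u : GL (Fin 4) F) = 1 ∨ ((u : GL (Fin 4) F) : M4) * (u : GL (Fin 4) F) = -1 := by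
    intro u
    obtain ⟨c, hc⟩ := hscal (u ^ 2) (hsqZ u)
    have h1 : ((u ^ 2 : R) : GL (Fin 4) F).val = ((u : GL (Fin 4) F) : M4) * (u : GL (Fin 4) F) := by
      rw [pow_two]; rfl
    rw [h1] at hc
    have h4 : (u ^ 2) * (u ^ 2) = 1 := by
      rw [← pow_add]; exact hH.exp4 u
    have h5 : ((u ^ 2 * u ^ 2 : R) : GL (Fin 4) F).val = (1 : M4) := by rw [h4]; rfl
    rw [hval_mul, h1, hc, smul_mul_smul_comm, mul_one] at h5
    have h6 : c * c = 1 := by
      have h3 := congrFun (congrFun h5 0) 0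
      simpa using h3
    have h7 : (c - 1) * (c + 1) = 0 := by linear_combination h6
    rcases mul_eq_zero.1 h7 with h | h
    · left
      rw [hc, sub_eq_zero.1 h]; simp
    · right
      have : c = -1 := by linear_combination h
      rw [hc, this]; simp
  -- the fourth root of unity
  haveI hcz : IsCyclic (center R) := hH.char _ inferInstance (by
    refine IsMulCommutative.of_comm ?_
    intro a b
    apply Subtype.ext
    exact mem_center_iff.1 b.2 a)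
  obtain ⟨g, hg⟩ := IsCyclic.exists_generator (α := center R)
  have hog : orderOf g = 4 := (orderOf_eq_card_of_forall_mem_zpowers hg).trans hRZ
  obtain ⟨ι, hι⟩ := hscal g g.2
  have hι2 : ι * ι = -1 := by
    have hg2 : ((g ^ 2 : center R) : R) ≠ 1 := by
      intro h
      have h1 : g ^ 2 = 1 := Subtype.ext h
      have h3 := orderOf_dvd_of_pow_eq_one h1
      rw [hog] at h3
      omega
    have hmat : (((g ^ 2 : center R) : R) : GL (Fin 4) F).val = (ι * ι) • (1 : M4) := by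
      have : (((g ^ 2 : center R) : R) : GL (Fin 4) F).val = (((g : R) : GL (Fin 4) F) : M4) * (((g : R) : GL (Fin 4) F) : M4) := by
        rw [pow_two]; rfl
      rw [this, hι, smul_mul_smul_comm, mul_one]
    have hne : ι * ι ≠ 1 := by
      intro h
      apply hg2
      apply Subtype.ext
      apply Units.ext
      rw [hmat, h]
      simp
    have h4 : (ι * ι) * (ι * ι) = 1 := by
      have h5 : g ^ 2 * g ^ 2 = 1 := by
        have h55 := pow_orderOf_eq_one g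
        rw [hog] at h55
        rw [← pow_add]; exact h55
      have h6 : (((g ^ 2 * g ^ 2 : center R) : R) : GL (Fin 4) F).val = (1 : M4) := by
        rw [h5]; rfl
      have h7 : (((g ^ 2 * g ^ 2 : center R) : R) : GL (Fin 4) F).val = (((g ^ 2 : center R) : R) : GL (Fin 4) F).val * (((g ^ 2 : center R) : R) : GL (Fin 4) F).val := rfl
      rw [h7, hmat, smul_mul_smul_comm, mul_one] at h6
      have h3 := congrFun (congrFun h6 0) 0
      simpa using h3
    have h7 : (ι * ι - 1) * (ι * ι + 1) = 0 := by linear_combination h4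
    rcases mul_eq_zero.1 h7 with h | h
    · exact absurd (sub_eq_zero.1 h) hne
    · linear_combination h
  have hdata : SymData R := by
    refine ⟨h2, by rw [hR6]; norm_num, ?_, ?_, ?_, ?_, ⟨ι, ((g : R) : GL (Fin 4) F), (g : R).2, hι, hι2⟩⟩
    · intro u hu v hv
      exact hcomm_or ⟨u, hu⟩ ⟨v, hv⟩
    · intro u hu
      exact hsq_or ⟨u, hu⟩
    · intro u hu
      by_cases hz : (⟨u, hu⟩ : R) ∈ center R
      · left
        exact hscal _ hz
      · right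
        rw [mem_center_iff] at hz
        push Not at hz
        obtain ⟨v, hv⟩ := hz
        refine ⟨v, v.2, ?_⟩
        refine hanti_of (u := ⟨u, hu⟩) (v := v) ?_
        rcases hvals ⟨u, hu⟩ v with h | h
        · exact absurd (cm_comm_of h).symm hv
        · exact h
    · intro A hA
      apply hRi.2
      rintro s ⟨g, hg, rfl⟩
      exact hA g hg
  refine ⟨hdata, ?_⟩
  -- normalise squares
  let i₀ : R := (g : R)
  have hi₀ : ((i₀ : GL (Fin 4) F) : M4) = ι • 1 := hι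
  have hnorm : ∀ u : R, ∃ u' : R, ((u' : GL (Fin 4) F) : M4) * (u' : GL (Fin 4) F) = 1 ∧
      ((u : R) = u' ∨ u = i₀ ^ 3 * u') ∧ ∀ v : R, (cm u' v = cm u v) := by
    intro u
    have hi₀c : i₀ ∈ center R := g.2
    rcases hsq_or u with h | h
    · exact ⟨u, h, Or.inl rfl, fun _ => rfl⟩
    · refine ⟨i₀ * u, ?_, Or.inr ?_, ?_⟩
      · have h1 : ((i₀ * u : R) : GL (Fin 4) F).val = ι • ((u : GL (Fin 4) F) : M4) := by
          rw [hval_mul, hi₀]; simp
        rw [h1, smul_mul_smul_comm, h, hι2]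
        simp
      · have h8 : i₀ ^ 4 = 1 := hH.exp4 i₀
        calc u = i₀ ^ 4 * u := by rw [h8, one_mul]
          _ = i₀ ^ 3 * (i₀ * u) := by rw [pow_succ]; group
      · intro v
        simp only [cm]
        have : i₀ * v = v * i₀ := mem_center_iff.1 hi₀c v |>.symm
        have h9 : i₀ * u * v * (i₀ * u)⁻¹ * v⁻¹ = u * v * u⁻¹ * v⁻¹ := by
          have h10 : i₀ * u = u * i₀ := mem_center_iff.1 hi₀c u |>.symm
          calc i₀ * u * v * (i₀ * u)⁻¹ * v⁻¹ = u * i₀ * v * (u * i₀)⁻¹ * v⁻¹ := by rw [h10]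
            _ = u * (i₀ * v) * i₀⁻¹ * u⁻¹ * v⁻¹ := by group
            _ = u * (v * i₀) * i₀⁻¹ * u⁻¹ * v⁻¹ := by rw [this]
            _ = u * v * u⁻¹ * v⁻¹ := by group
        exact h9
  obtain ⟨a₁', ha₁s, ha₁or, ha₁c⟩ := hnorm a₁
  obtain ⟨b₁', hb₁s, hb₁or, hb₁c⟩ := hnorm b₁
  obtain ⟨a₂', ha₂s, ha₂or, ha₂c⟩ := hnorm a₂
  obtain ⟨b₂', hb₂s, hb₂or, hb₂c⟩ := hnorm b₂
  have hcmsymm : ∀ u v : R, cm v u = (cm u v)⁻¹ := by
    intro u v; simp only [cm]; group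
  have hc1 : ∀ {x y x' y' : R}, (∀ v, cm x' v = cm x v) → (∀ v, cm y' v = cm y v) → cm x' y' = cm x y := by
    intro x y x' y' hx hy
    rw [hx, hcmsymm, hy, ← hcmsymm]
  refine ⟨ι, (i₀ : GL (Fin 4) F), (a₁' : GL (Fin 4) F), (b₁' : GL (Fin 4) F), (a₂' : GL (Fin 4) F), (b₂' : GL (Fin 4) F),
    hι2, hi₀, i₀.2, a₁'.2, b₁'.2, a₂'.2, b₂'.2, ha₁s, hb₁s, ha₂s, hb₂s, ?_, ?_, ?_, ?_, ?_, ?_, ?_⟩
  · exact hanti_of ((hc1 ha₁c hb₁c).trans h11)
  · exact hanti_of ((hc1 ha₂c hb₂c).trans h22)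
  · exact hcomm_of ((hc1 ha₁c ha₂c).trans h12)
  · exact hcomm_of ((hc1 ha₁c hb₂c).trans h12')
  · exact hcomm_of ((hc1 hb₁c ha₂c).trans h21)
  · exact hcomm_of ((hc1 hb₁c hb₂c).trans h21')
  · intro u hu
    have hi₀c : i₀ ∈ center R := g.2
    have hcentral : ∀ (k : ℕ) (x : R), i₀ ^ k * x = x * i₀ ^ k := by
      intro k x
      exact (mem_center_iff.1 (pow_mem hi₀c k) x).symm
    have hstep : ∀ (p q : ℕ) (X Y : R), (i₀ ^ p * X) * (i₀ ^ q * Y) = i₀ ^ (p + q) * (X * Y) := by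
      intro p q X Y
      rw [pow_add, mul_assoc, ← mul_assoc X, ← hcentral q X]
      simp only [mul_assoc]
    have hpw : ∀ (x x' : R), (x = x' ∨ x = i₀ ^ 3 * x') → ∀ α : ℕ, ∃ k : ℕ, x ^ α = i₀ ^ k * x' ^ α := by
      intro x x' h α
      rcases h with rfl | rfl
      · exact ⟨0, by simp⟩
      · refine ⟨3 * α, ?_⟩
        have hc : Commute (i₀ ^ 3) x' := hcentral 3 x'
        rw [hc.mul_pow, pow_mul]
    obtain ⟨z, hz, α₁, β₁, α₂, β₂, h1, h2', h3, h4, hu'⟩ := hdec ⟨u, hu⟩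
    obtain ⟨k₁, hk₁⟩ := hpw _ _ ha₁or α₁
    obtain ⟨k₂, hk₂⟩ := hpw _ _ hb₁or β₁
    obtain ⟨k₃, hk₃⟩ := hpw _ _ ha₂or α₂
    obtain ⟨k₄, hk₄⟩ := hpw _ _ hb₂or β₂
    obtain ⟨k₀, hk₀⟩ : ∃ k₀ : ℕ, z = i₀ ^ k₀ * 1 := by
      have hzz := hg ⟨z, hz⟩
      have hzz' : (⟨z, hz⟩ : center R) ∈ Submonoid.powers g := mem_powers_iff_mem_zpowers.2 hzz
      obtain ⟨k, hk⟩ := hzz'
      refine ⟨k, ?_⟩
      rw [mul_one]
      exact (congrArg Subtype.val hk).symm
    refine ⟨k₀ + k₄ + k₃ + k₂ + k₁, α₁, β₁, α₂, β₂, h1, h2', h3, h4, ?_⟩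
    have hfinal : (⟨u, hu⟩ : R) = i₀ ^ (k₀ + k₄ + k₃ + k₂ + k₁) * b₂' ^ β₂ * a₂' ^ α₂ * b₁' ^ β₁ * a₁' ^ α₁ := by
      rw [hu', hk₀, hk₁, hk₂, hk₃, hk₄, hstep, hstep, hstep, hstep]
      simp only [mul_assoc, one_mul]
    have h9 := congrArg Subtype.val hfinal
    simpa using h9

end Cfsg.Agent.Lib.SymType64M
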