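import Mathlib
import Cfsg.Agent.Lib.SymType64M

/-!
# Elements normalising `R` with restricted minimal polynomials: the negative statements.
-/

set_option autoImplicit false
set_option linter.style.haveILetI false

namespace Cfsg.Agent.Lib.SymType64Neg

open Subgroup Cfsg.Geo Cfsg.Agent.Lib.SymType64M Matrix
open scoped MatrixGroups

variable {F : Type*} [Field F] {R : Subgroup (GL (Fin 4) F)}

local notation "M4" => Matrix (Fin 4) (Fin 4) F

theorem ne_zero_of_gl (g : GL (Fin 4) F) : (g : M4) ≠ 0 := by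
  intro h
  have h1 : (g : M4) * ((g⁻¹ : GL (Fin 4) F) : M4) = 1 := by
    rw [← Units.val_mul]; simp
  rw [h, zero_mul] at h1
  exact zero_ne_one h1

theorem smul_one_inj {a b : F} (h : a • (1 : M4) = b • (1 : M4)) : a = b := by
  have h3 := congrFun (congrFun h 0) 0
  simpa using h3

theorem conj_mem {x u : GL (Fin 4) F} (hxN : x ∈ subgroupNormalizer R) (hu : u ∈ R) : x * u * x⁻¹ ∈ R :=
  (mem_normalizer_iff.1 hxN u).1 hu

theorem conj_inv_mem {x u : GL (Fin 4) F} (hxN : x ∈ subgroupNormalizer R) (hu : u ∈ R) : x⁻¹ * u * x ∈ R := by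
  have h := conj_mem (inv_mem hxN) hu
  simpa using h

theorem trace_eq_zero (hD : SymData R) {u : GL (Fin 4) F} (hu : u ∈ R) (hns : ∀ c : F, (u : M4) ≠ c • 1) :
    (u : M4).trace = 0 := by
  rcases hD.scal_or_anti u hu with ⟨c, hc⟩ | ⟨v, hv, huv⟩
  · exact absurd hc (hns c)
  · have h1 : (v : M4) * ((v⁻¹ : GL (Fin 4) F) : M4) = 1 := by
      rw [← Units.val_mul]; simp
    have h2 : ((v⁻¹ : GL (Fin 4) F) : M4) * (v : M4) = 1 := by
      rw [← Units.val_mul]; simp
    have h3 : (u : M4).trace = -(u : M4).trace := by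
      calc (u : M4).trace = ((u : M4) * (v * ((v⁻¹ : GL (Fin 4) F) : M4))).trace := by rw [h1, mul_one]
        _ = (((u : M4) * v) * ((v⁻¹ : GL (Fin 4) F) : M4)).trace := by rw [mul_assoc]
        _ = (-(((v : M4) * u) * ((v⁻¹ : GL (Fin 4) F) : M4))).trace := by rw [huv, neg_mul]
        _ = -(((v : M4) * u) * ((v⁻¹ : GL (Fin 4) F) : M4)).trace := by rw [Matrix.trace_neg]
        _ = -(((v⁻¹ : GL (Fin 4) F) : M4) * ((v : M4) * u)).trace := by rw [Matrix.trace_mul_comm]
        _ = -(u : M4).trace := by rw [← mul_assoc, h2, one_mul]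
    have h4 : (2 : F) * (u : M4).trace = 0 := by linear_combination h3
    exact (mul_eq_zero.1 h4).resolve_left hD.two_ne

theorem scal_pow_four (hD : SymData R) {u : GL (Fin 4) F} (hu : u ∈ R) {c : F} (hc : (u : M4) = c • 1) :
    c ^ 4 = 1 := by
  have h1 : (u : M4) * u = (c * c) • 1 := by
    rw [hc, smul_mul_smul_comm, mul_one]
  have h2 : c * c = 1 ∨ c * c = -1 := by
    rcases hD.sq_or u hu with h | h
    · left
      rw [h1] at h
      have := smul_one_inj (F := F) (a := c * c) (b := 1) (by rw [h, one_smul])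
      exact this
    · right
      rw [h1] at h
      have := smul_one_inj (F := F) (a := c * c) (b := -1) (by rw [h, neg_smul, one_smul])
      exact this
  rcases h2 with h | h
  · calc c ^ 4 = (c * c) * (c * c) := by ring
      _ = 1 := by rw [h]; ring
  · calc c ^ 4 = (c * c) * (c * c) := by ring
      _ = 1 := by rw [h]; ring

/-- An element normalising `R` whose odd power is scalar, not itself a scalar, moves some line `F u`. -/
theorem exists_moved (hD : SymData R) {x : GL (Fin 4) F} (hxN : x ∈ subgroupNormalizer R) {l : ℕ} (hl : Odd l)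
    {z : F} (hz : ((x : M4)) ^ l = z • 1) (hns : ∀ c : F, (x : M4) ≠ c • 1) :
    ∃ u ∈ R, ∀ c : F, (x : M4) * (u : M4) ≠ c • ((u : M4) * (x : M4)) := by
  by_contra hno
  push Not at hno
  obtain ⟨c, hc⟩ := hD.comm_scal (x : M4) (by
    intro u hu
    obtain ⟨c, hc⟩ := hno u hu
    -- `c` is a fourth root of unity
    have hw : x * u * x⁻¹ * u⁻¹ ∈ R := mul_mem (conj_mem hxN hu) (inv_mem hu)
    have hu1 : (u : M4) * ((u⁻¹ : GL (Fin 4) F) : M4) = 1 := by
      rw [← Units.val_mul]; simp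
    have hx1 : (x : M4) * ((x⁻¹ : GL (Fin 4) F) : M4) = 1 := by
      rw [← Units.val_mul]; simp
    have hwv : ((x * u * x⁻¹ * u⁻¹ : GL (Fin 4) F) : M4) = c • 1 := by
      simp only [Units.val_mul]
      rw [hc, smul_mul_assoc, smul_mul_assoc, mul_assoc (u : M4), hx1, mul_one, hu1]
    have hc4 := scal_pow_four hD hw hwv
    have hpow : ∀ k : ℕ, (x : M4) ^ k * (u : M4) = c ^ k • ((u : M4) * (x : M4) ^ k) := by
      intro k
      induction k with
      | zero => simp
      | succ k ih =>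
        rw [pow_succ', mul_assoc, ih, mul_smul_comm, ← mul_assoc, hc, smul_mul_assoc, smul_smul, mul_assoc,
          pow_succ', mul_comm (c ^ k) c]
    have hzne : z ≠ 0 := by
      rintro rfl
      rw [zero_smul] at hz
      apply ne_zero_of_gl (x ^ l)
      rw [Units.val_pow_eq_pow_val, hz]
    have hl' := hpow l
    rw [hz, smul_mul_assoc, one_mul, mul_smul_comm, mul_one, smul_smul] at hl'
    have hcl : c ^ l = 1 := by
      have h5 : (z - c ^ l * z) • (u : M4) = 0 := by
        rw [sub_smul, ← hl', sub_self]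
      rcases smul_eq_zero.1 h5 with h6 | h6
      · have h7 : z * (1 - c ^ l) = 0 := by linear_combination h6
        rcases mul_eq_zero.1 h7 with h8 | h8
        · exact absurd h8 hzne
        · linear_combination -h8
      · exact absurd h6 (ne_zero_of_gl u)
    have hc1 : c = 1 := by
      obtain ⟨m, rfl⟩ := hl
      rcases Nat.even_or_odd' m with ⟨q, rfl | rfl⟩
      · have : c ^ (2 * (2 * q) + 1) = (c ^ 4) ^ q * c := by ring
        rw [this, hc4, one_pow, one_mul] at hcl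
        exact hcl
      · have : c ^ (2 * (2 * q + 1) + 1) = (c ^ 4) ^ q * c ^ 3 := by ring
        rw [this, hc4, one_pow, one_mul] at hcl
        calc c = c ^ 3 * c := by rw [hcl, one_mul]
          _ = c ^ 4 := by ring
          _ = 1 := hc4
    rw [hc, hc1, one_smul])
  exact hns c hc

/-- The stabiliser of the line through a matrix under conjugation. -/
def Ls (U : M4) (hU : U ≠ 0) : Subgroup (GL (Fin 4) F) where
  carrier := {w | ∃ c : F, (w : M4) * U = c • (U * (w : M4))}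
  one_mem' := ⟨1, by simp⟩
  mul_mem' := by
    rintro a b ⟨c₁, h₁⟩ ⟨c₂, h₂⟩
    refine ⟨c₂ * c₁, ?_⟩
    simp only [Units.val_mul]
    rw [mul_assoc, h₂, mul_smul_comm, ← mul_assoc, h₁, smul_mul_assoc, smul_smul, mul_assoc]
  inv_mem' := by
    rintro a ⟨c, h⟩
    have ha1 : (a : M4) * ((a⁻¹ : GL (Fin 4) F) : M4) = 1 := by
      rw [← Units.val_mul]; simp
    have ha2 : ((a⁻¹ : GL (Fin 4) F) : M4) * (a : M4) = 1 := by
      rw [← Units.val_mul]; simp
    have hc : c ≠ 0 := by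
      rintro rfl
      rw [zero_smul] at h
      apply hU
      calc U = ((a⁻¹ : GL (Fin 4) F) : M4) * ((a : M4) * U) := by rw [← mul_assoc, ha2, one_mul]
        _ = 0 := by rw [h, mul_zero]
    refine ⟨c⁻¹, ?_⟩
    have h2 : U * ((a⁻¹ : GL (Fin 4) F) : M4) = c • (((a⁻¹ : GL (Fin 4) F) : M4) * U) := by
      calc U * ((a⁻¹ : GL (Fin 4) F) : M4) = ((a⁻¹ : GL (Fin 4) F) : M4) * ((a : M4) * U) * ((a⁻¹ : GL (Fin 4) F) : M4) := by
            rw [← mul_assoc, ha2, one_mul]
        _ = ((a⁻¹ : GL (Fin 4) F) : M4) * (c • (U * (a : M4))) * ((a⁻¹ : GL (Fin 4) F) : M4) := by rw [h]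
        _ = c • (((a⁻¹ : GL (Fin 4) F) : M4) * U) := by
            rw [mul_smul_comm, smul_mul_assoc, mul_assoc, mul_assoc, ha1, mul_one]
    rw [h2, smul_smul, inv_mul_cancel₀ hc, one_smul]

theorem mem_Ls {U : M4} {hU : U ≠ 0} {w : GL (Fin 4) F} :
    w ∈ Ls U hU ↔ ∃ c : F, (w : M4) * U = c • (U * (w : M4)) := Iff.rfl

/-- In an `F`-algebra, the relation `x² = τ x - 1` gives a cubic relation for conjugation by `x`. -/
theorem ad_cubic {A : Type*} [Ring A] [Algebra F A] {x y a : A} {τ : F} (hy : y = τ • 1 - x) (hx2 : x * x = τ • x - 1) :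
    (x * (x * x)) * a * (y * (y * y)) - (τ * τ - 1) • ((x * x) * a * (y * y)) + (τ * τ - 1) • (x * a * y) - a = 0 := by
  have h3 : x * (x * x) = (τ * τ - 1) • x - τ • 1 := by
    rw [hx2, mul_sub, mul_smul_comm, hx2, mul_one]
    module
  have hyy : y * y = τ • y - 1 := by
    subst hy
    simp only [sub_mul, mul_sub, smul_mul_assoc, mul_smul_comm, one_mul, mul_one, hx2]
    module
  have hy3 : y * (y * y) = (τ * τ - 1) • y - τ • 1 := by
    rw [hyy, mul_sub, mul_smul_comm, hyy, mul_one]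
    module
  rw [h3, hy3, hx2, hyy, hy]
  simp only [sub_mul, mul_sub, smul_mul_assoc, mul_smul_comm, one_mul, mul_one, smul_sub, smul_smul]
  module

theorem pow5_of_quad {A : Type*} [Ring A] [Algebra F A] {x : A} {τ : F} (hx2 : x * x = τ • x - 1) (hτ : τ * τ + τ - 1 = 0) :
    x ^ 5 = 1 := by
  have hτ' : τ * τ = 1 - τ := by linear_combination hτ
  have h3 : x * (x * x) = (-τ) • x - τ • 1 := by
    rw [hx2, mul_sub, mul_smul_comm, hx2, mul_one, smul_sub, smul_smul, hτ']
    module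
  have h4 : x * (x * (x * x)) = (-1 : F) • x + τ • 1 := by
    rw [h3, mul_sub, mul_smul_comm, hx2, mul_smul_comm, mul_one, smul_sub, smul_smul]
    have : -τ * τ = τ - 1 := by linear_combination -hτ
    rw [this]
    module
  have h5 : x * (x * (x * (x * x))) = 1 := by
    rw [h4, mul_add, mul_smul_comm, hx2, mul_smul_comm, mul_one]
    module
  rw [show x ^ 5 = x * (x * (x * (x * x))) by simp only [pow_succ, pow_zero, one_mul, mul_assoc], h5]

/-- An element normalising `R` with `x² = τ x - 1` (`τ² + τ = 1`) is a scalar. -/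
theorem neg_five (hD : SymData R) {x : GL (Fin 4) F} (hxN : x ∈ subgroupNormalizer R) {τ : F}
    (hx2 : (x : M4) * x = τ • (x : M4) - 1) (hτ : τ * τ + τ - 1 = 0) (hns : ∀ c : F, (x : M4) ≠ c • 1) : False := by
  have hx5 : (x : M4) ^ 5 = 1 := pow5_of_quad hx2 hτ
  obtain ⟨u, hu, hmoved⟩ := exists_moved hD hxN (l := 5) (by decide) (z := 1) (by rw [hx5, one_smul]) hns
  set X : M4 := (x : M4) with hX
  set U : M4 := (u : M4) with hUdef
  have hU0 : U ≠ 0 := ne_zero_of_gl u
  have hxL : x ∉ Ls U hU0 := by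
    rintro ⟨c, hc⟩
    exact hmoved c hc
  have hx5G : x ^ 5 = 1 := by
    apply Units.ext
    rw [Units.val_pow_eq_pow_val]
    simpa using hx5
  have hkL : ∀ k : ℕ, k = 1 ∨ k = 2 ∨ k = 3 → x ^ k ∉ Ls U hU0 := by
    rintro k (rfl | rfl | rfl) h
    · apply hxL
      simpa using h
    · apply hxL
      have h1 : x = ((x ^ 2) ^ 3) * (x ^ 5)⁻¹ := by
        rw [hx5G]
        have : (x ^ 2) ^ 3 = x ^ 5 * x := by group
        rw [this, hx5G]; simp
      rw [h1]
      refine mul_mem (pow_mem h 3) (inv_mem ?_)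
      rw [hx5G]
      exact one_mem _
    · apply hxL
      have h1 : x = ((x ^ 3) ^ 2) * (x ^ 5)⁻¹ := by
        have : (x ^ 3) ^ 2 = x ^ 5 * x := by group
        rw [this, hx5G]; simp
      rw [h1]
      refine mul_mem (pow_mem h 2) (inv_mem ?_)
      rw [hx5G]
      exact one_mem _
  set Y : M4 := ((x⁻¹ : GL (Fin 4) F) : M4) with hYdef
  have hXY : X * Y = 1 := by
    rw [hX, hYdef, ← Units.val_mul]; simp
  have hYX : Y * X = 1 := by
    rw [hX, hYdef, ← Units.val_mul]; simp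
  have hY : Y = τ • 1 - X := by
    have h1 : X * (τ • 1 - X) = 1 := by
      rw [mul_sub, hx2, mul_smul_comm, mul_one]; abel
    calc Y = Y * (X * (τ • 1 - X)) := by rw [h1, mul_one]
      _ = τ • 1 - X := by rw [← mul_assoc, hYX, one_mul]
  have hcub := ad_cubic (F := F) (a := U) hY hx2
  -- the conjugates
  let uk : ℕ → GL (Fin 4) F := fun k => x ^ k * u * (x ^ k)⁻¹
  have hukR : ∀ k, uk k ∈ R := fun k => conj_mem (pow_mem hxN k) hu
  have hukv : ∀ k, ((uk k : GL (Fin 4) F) : M4) = X ^ k * U * Y ^ k := by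
    intro k
    simp only [uk, Units.val_mul]
    simp [Units.val_pow_eq_pow_val, hX, hUdef, hYdef]
  have hw : ∀ j, j < 3 → ∀ c : F, ((uk j * (uk 3)⁻¹ : GL (Fin 4) F) : M4) ≠ c • 1 := by
    intro j hj c hc
    have h1 : ((uk j : GL (Fin 4) F) : M4) = c • ((uk 3 : GL (Fin 4) F) : M4) := by
      have h2 : ((uk j * (uk 3)⁻¹ * uk 3 : GL (Fin 4) F) : M4) = c • ((uk 3 : GL (Fin 4) F) : M4) := by
        rw [Units.val_mul, hc, smul_mul_assoc, one_mul]
      rw [← h2]
      simp
    -- conjugate down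
    obtain ⟨k, hk⟩ : ∃ k, 3 = j + k := ⟨3 - j, by omega⟩
    have hk3 : k = 1 ∨ k = 2 ∨ k = 3 := by omega
    apply hkL k hk3
    rw [hukv j, hukv 3, hk, pow_add, add_comm j k, pow_add Y] at h1
    have hcomm : Commute Y X := hYX.trans hXY.symm
    have hYXj : Y ^ j * X ^ j = 1 := by
      rw [← hcomm.mul_pow j, hYX, one_pow]
    have hYXk : Y ^ k * X ^ k = 1 := by
      rw [← hcomm.mul_pow k, hYX, one_pow]
    have hXYk : X ^ k * Y ^ k = 1 := by
      rw [← hcomm.symm.mul_pow k, hXY, one_pow]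
    have h2 : U = c • (X ^ k * U * Y ^ k) := by
      calc U = (Y ^ j * X ^ j) * U * (Y ^ j * X ^ j) := by rw [hYXj]; simp
        _ = Y ^ j * (X ^ j * U * Y ^ j) * X ^ j := by simp only [mul_assoc]
        _ = Y ^ j * (c • (X ^ j * X ^ k * U * (Y ^ k * Y ^ j))) * X ^ j := by rw [h1]
        _ = c • ((Y ^ j * X ^ j) * (X ^ k * U * Y ^ k) * (Y ^ j * X ^ j)) := by
            simp only [mul_smul_comm, smul_mul_assoc, mul_assoc]
        _ = c • (X ^ k * U * Y ^ k) := by rw [hYXj]; simp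
    have h3 : U * X ^ k = c • (X ^ k * U) := by
      have h4 := congrArg (fun A : M4 => A * X ^ k) h2
      simp only [smul_mul_assoc, mul_assoc, hYXk, mul_one] at h4
      exact h4
    have hc0 : c ≠ 0 := by
      rintro rfl
      rw [zero_smul] at h3
      apply hU0
      calc U = U * (X ^ k * Y ^ k) := by rw [hXYk, mul_one]
        _ = 0 := by rw [← mul_assoc, h3, zero_mul]
    refine ⟨c⁻¹, ?_⟩
    rw [Units.val_pow_eq_pow_val]
    show X ^ k * U = c⁻¹ • (U * X ^ k)
    rw [h3, smul_smul, inv_mul_cancel₀ hc0, one_smul]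
  have htr : ∀ j, j < 3 → ((uk j * (uk 3)⁻¹ : GL (Fin 4) F) : M4).trace = 0 := fun j hj =>
    trace_eq_zero hD (mul_mem (hukR j) (inv_mem (hukR 3))) (hw j hj)
  have hu3 : ∀ j, ((uk j : GL (Fin 4) F) : M4) * (((uk 3)⁻¹ : GL (Fin 4) F) : M4) = ((uk j * (uk 3)⁻¹ : GL (Fin 4) F) : M4) := fun j => rfl
  have hmain : ((1 : M4) - (τ * τ - 1) • ((uk 2 * (uk 3)⁻¹ : GL (Fin 4) F) : M4) + (τ * τ - 1) • ((uk 1 * (uk 3)⁻¹ : GL (Fin 4) F) : M4) - ((uk 0 * (uk 3)⁻¹ : GL (Fin 4) F) : M4)) = 0 := by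
    have h0 : (X * (X * X)) * U * (Y * (Y * Y)) = ((uk 3 : GL (Fin 4) F) : M4) := by
      rw [hukv]; simp only [pow_succ, pow_zero, one_mul, mul_assoc]
    have h1 : (X * X) * U * (Y * Y) = ((uk 2 : GL (Fin 4) F) : M4) := by
      rw [hukv]; simp only [pow_succ, pow_zero, one_mul, mul_assoc]
    have h2 : X * U * Y = ((uk 1 : GL (Fin 4) F) : M4) := by
      rw [hukv]; simp only [pow_succ, pow_zero, one_mul, mul_assoc]
    have h3 : U = ((uk 0 : GL (Fin 4) F) : M4) := by
      rw [hukv]; simp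
    rw [h0, h1, h2] at hcub
    rw [h3] at hcub
    have h4 := congrArg (fun A : M4 => A * (((uk 3)⁻¹ : GL (Fin 4) F) : M4)) hcub
    simp only [sub_mul, add_mul, smul_mul_assoc, zero_mul] at h4
    have h5 : ((uk 3 : GL (Fin 4) F) : M4) * (((uk 3)⁻¹ : GL (Fin 4) F) : M4) = 1 := by
      rw [← Units.val_mul]; simp
    rw [h5, hu3 2, hu3 1, hu3 0] at h4
    exact h4
  have hfour : (4 : F) = 0 := by
    have h1 := congrArg Matrix.trace hmain
    simp only [Matrix.trace_sub, Matrix.trace_add, Matrix.trace_smul, htr 2 (by norm_num), htr 1 (by norm_num),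
      htr 0 (by norm_num), Matrix.trace_one, Matrix.trace_zero] at h1
    simpa using h1
  apply hD.two_ne
  have : (2 : F) * 2 = 0 := by linear_combination hfour
  exact mul_self_eq_zero.1 this

open Module in
theorem finrank_fix_le (hD : SymData R) {s : GL (Fin 4) F} (hs : s ∈ R) (hns : ∀ c : F, (s : M4) ≠ c • 1) :
    finrank F (LinearMap.ker ((s : M4) - 1).mulVecLin) ≤ 2 := by
  obtain ⟨t, ht, hst⟩ : ∃ t ∈ R, (s : M4) * (t : M4) = -((t : M4) * (s : M4)) := by
    rcases hD.scal_or_anti s hs with ⟨c, hc⟩ | h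
    · exact absurd hc (hns c)
    · exact h
  set W := LinearMap.ker ((s : M4) - 1).mulVecLin with hW
  have hWmem : ∀ v, v ∈ W ↔ (s : M4) *ᵥ v = v := by
    intro v
    rw [hW, LinearMap.mem_ker, Matrix.mulVecLin_apply, Matrix.sub_mulVec, Matrix.one_mulVec, sub_eq_zero]
  have hinj : Function.Injective (t : M4).mulVecLin := by
    intro a b hab
    have h1 : ((t⁻¹ : GL (Fin 4) F) : M4) * (t : M4) = 1 := by
      rw [← Units.val_mul]; simp
    have h2 := congrArg (fun v => ((t⁻¹ : GL (Fin 4) F) : M4) *ᵥ v) hab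
    simpa [Matrix.mulVec_mulVec, h1] using h2
  have hfr : finrank F (W.map (t : M4).mulVecLin) = finrank F W :=
    (Submodule.equivMapOfInjective _ hinj W).finrank_eq.symm
  have hdisj : Disjoint W (W.map (t : M4).mulVecLin) := by
    rw [Submodule.disjoint_def]
    rintro v hv ⟨w, hw, rfl⟩
    have hw' := (hWmem w).1 hw
    have hv' := (hWmem _).1 hv
    have h1 : (s : M4) *ᵥ ((t : M4) *ᵥ w) = -((t : M4) *ᵥ w) := by
      rw [Matrix.mulVec_mulVec, hst, Matrix.neg_mulVec, ← Matrix.mulVec_mulVec, hw']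
    simp only [Matrix.mulVecLin_apply] at hv' ⊢
    rw [h1] at hv'
    have h2 : (2 : F) • ((t : M4) *ᵥ w) = 0 := by
      rw [two_smul]
      nth_rewrite 1 [← hv']
      simp
    exact (smul_eq_zero.1 h2).resolve_left hD.two_ne
  have h3 := Submodule.finrank_add_finrank_le_of_disjoint hdisj
  rw [hfr, Module.finrank_fin_fun] at h3
  omega

open Module in
theorem fix_le_of_normal (hD : SymData R) {x w : GL (Fin 4) F} (hxN : x ∈ subgroupNormalizer R) {lam : F}
    (hlam : lam ≠ 0) (hH : 3 ≤ finrank F (LinearMap.ker ((x : M4) - lam • 1).mulVecLin)) (hw : w ∈ R)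
    (hns : ∀ c : F, ((w⁻¹ * (x * w * x⁻¹) : GL (Fin 4) F) : M4) ≠ c • 1) :
    (∀ v, ((w⁻¹ * (x * w * x⁻¹) : GL (Fin 4) F) : M4) *ᵥ v = v → (x : M4) *ᵥ v = lam • v) ∧
      ((w⁻¹ * (x * w * x⁻¹) : GL (Fin 4) F) : M4) * ((w⁻¹ * (x * w * x⁻¹) : GL (Fin 4) F) : M4) = 1 := by
  have hsR : w⁻¹ * (x * w * x⁻¹) ∈ R := mul_mem (inv_mem hw) (conj_mem hxN hw)
  set s : GL (Fin 4) F := w⁻¹ * (x * w * x⁻¹) with hs
  set H := LinearMap.ker ((x : M4) - lam • 1).mulVecLin with hHdef
  have hHmem : ∀ v, v ∈ H ↔ (x : M4) *ᵥ v = lam • v := by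
    intro v
    rw [hHdef, LinearMap.mem_ker, Matrix.mulVecLin_apply, Matrix.sub_mulVec, Matrix.smul_mulVec, Matrix.one_mulVec,
      sub_eq_zero]
  have hwinv1 : ((w⁻¹ : GL (Fin 4) F) : M4) * (w : M4) = 1 := by
    rw [← Units.val_mul]; simp
  have hwinv2 : (w : M4) * ((w⁻¹ : GL (Fin 4) F) : M4) = 1 := by
    rw [← Units.val_mul]; simp
  have hinj : Function.Injective ((w⁻¹ : GL (Fin 4) F) : M4).mulVecLin := by
    intro a b hab
    have h2 := congrArg (fun v => (w : M4) *ᵥ v) hab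
    simpa [Matrix.mulVec_mulVec, hwinv2] using h2
  set B := H.map ((w⁻¹ : GL (Fin 4) F) : M4).mulVecLin with hB
  have hfr : finrank F B = finrank F H := (Submodule.equivMapOfInjective _ hinj H).finrank_eq.symm
  have hsum := Submodule.finrank_sup_add_finrank_inf_eq H B
  have hle : finrank F ↥(H ⊔ B) ≤ 4 := by
    have := Submodule.finrank_le (H ⊔ B)
    rwa [Module.finrank_fin_fun] at this
  have hK2 : 2 ≤ finrank F ↥(H ⊓ B) := by omega
  have hKfix : H ⊓ B ≤ LinearMap.ker ((s : M4) - 1).mulVecLin := by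
    rintro v ⟨hv, h, hh, rfl⟩
    rw [LinearMap.mem_ker, Matrix.mulVecLin_apply, Matrix.sub_mulVec, Matrix.one_mulVec, sub_eq_zero]
    have hv' : (x : M4) *ᵥ (((w⁻¹ : GL (Fin 4) F) : M4).mulVecLin h) = lam • (((w⁻¹ : GL (Fin 4) F) : M4).mulVecLin h) :=
      (hHmem _).1 hv
    have hh' := (hHmem h).1 hh
    simp only [Matrix.mulVecLin_apply] at hv' ⊢
    have hxinv1 : ((x⁻¹ : GL (Fin 4) F) : M4) * (x : M4) = 1 := by
      rw [← Units.val_mul]; simp
    have h1 : ((x⁻¹ : GL (Fin 4) F) : M4) *ᵥ (((w⁻¹ : GL (Fin 4) F) : M4) *ᵥ h) = lam⁻¹ • (((w⁻¹ : GL (Fin 4) F) : M4) *ᵥ h) := by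
      generalize ((w⁻¹ : GL (Fin 4) F) : M4) *ᵥ h = v at hv'
      calc ((x⁻¹ : GL (Fin 4) F) : M4) *ᵥ v = lam⁻¹ • (lam • (((x⁻¹ : GL (Fin 4) F) : M4) *ᵥ v)) := by
            rw [smul_smul, inv_mul_cancel₀ hlam, one_smul]
        _ = lam⁻¹ • (((x⁻¹ : GL (Fin 4) F) : M4) *ᵥ (lam • v)) := by rw [Matrix.mulVec_smul]
        _ = lam⁻¹ • (((x⁻¹ : GL (Fin 4) F) : M4) *ᵥ ((x : M4) *ᵥ v)) := by rw [hv']
        _ = lam⁻¹ • v := by rw [Matrix.mulVec_mulVec, hxinv1, Matrix.one_mulVec]
    simp only [hs, Units.val_mul]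
    rw [← Matrix.mulVec_mulVec, ← Matrix.mulVec_mulVec, ← Matrix.mulVec_mulVec, h1, Matrix.mulVec_smul,
      Matrix.mulVec_smul, Matrix.mulVec_mulVec (h) (w : M4), hwinv2, Matrix.one_mulVec, hh', smul_smul,
      inv_mul_cancel₀ hlam, one_smul]
  have hfixle := finrank_fix_le hD hsR hns
  have hEq : H ⊓ B = LinearMap.ker ((s : M4) - 1).mulVecLin :=
    Submodule.eq_of_le_of_finrank_le hKfix (by omega)
  constructor
  · intro v hv
    have h1 : v ∈ LinearMap.ker ((s : M4) - 1).mulVecLin := by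
      rw [LinearMap.mem_ker, Matrix.mulVecLin_apply, Matrix.sub_mulVec, Matrix.one_mulVec, sub_eq_zero]
      exact hv
    rw [← hEq] at h1
    exact (hHmem v).1 h1.1
  · rcases hD.sq_or s hsR with h | h
    · exact h
    · exfalso
      have hpos : 0 < finrank F ↥(H ⊓ B) := by omega
      obtain ⟨⟨v, hv⟩, hv0⟩ := Module.finrank_pos_iff_exists_ne_zero.1 hpos
      have hv1 : v ∈ LinearMap.ker ((s : M4) - 1).mulVecLin := hKfix hv
      rw [LinearMap.mem_ker, Matrix.mulVecLin_apply, Matrix.sub_mulVec, Matrix.one_mulVec, sub_eq_zero] at hv1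
      have h2 : ((s : M4) * (s : M4)) *ᵥ v = v := by
        rw [← Matrix.mulVec_mulVec, hv1, hv1]
      rw [h, Matrix.neg_mulVec, Matrix.one_mulVec] at h2
      have h3 : (2 : F) • v = 0 := by
        rw [two_smul]
        nth_rewrite 1 [← h2]
        simp
      have h4 := (smul_eq_zero.1 h3).resolve_left hD.two_ne
      exact hv0 (Subtype.ext h4)

open Module in
/-- An element normalising `R` with cube scalar, and an eigenspace of dimension at least three, is a scalar. -/
theorem neg_three (hD : SymData R) {x : GL (Fin 4) F} (hxN : x ∈ subgroupNormalizer R) {z : F}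
    (hz : (x : M4) ^ 3 = z • 1) (hns : ∀ c : F, (x : M4) ≠ c • 1) {lam : F}
    (hH : 3 ≤ finrank F (LinearMap.ker ((x : M4) - lam • 1).mulVecLin)) : False := by
  have hxinv1 : ((x⁻¹ : GL (Fin 4) F) : M4) * (x : M4) = 1 := by
    rw [← Units.val_mul]; simp
  have hxinv2 : (x : M4) * ((x⁻¹ : GL (Fin 4) F) : M4) = 1 := by
    rw [← Units.val_mul]; simp
  have hlam : lam ≠ 0 := by
    rintro rfl
    have hpos : 0 < finrank F (LinearMap.ker ((x : M4) - (0 : F) • 1).mulVecLin) := by omega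
    obtain ⟨⟨v, hv⟩, hv0⟩ := Module.finrank_pos_iff_exists_ne_zero.1 hpos
    rw [LinearMap.mem_ker, Matrix.mulVecLin_apply, zero_smul, sub_zero] at hv
    apply hv0
    apply Subtype.ext
    have h2 := congrArg (fun v => ((x⁻¹ : GL (Fin 4) F) : M4) *ᵥ v) hv
    simpa [Matrix.mulVec_mulVec, hxinv1] using h2
  obtain ⟨u, hu, hmoved⟩ := exists_moved hD hxN (l := 3) (by decide) hz hns
  -- the three differences
  let sg : GL (Fin 4) F → GL (Fin 4) F := fun w => w⁻¹ * (x * w * x⁻¹)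
  have hsg : ∀ w, sg (x * w * x⁻¹) = x * sg w * x⁻¹ := by
    intro w
    simp only [sg]
    group
  have hconj_ns : ∀ w : GL (Fin 4) F, (∀ c : F, (w : M4) ≠ c • 1) → ∀ c : F, ((x * w * x⁻¹ : GL (Fin 4) F) : M4) ≠ c • 1 := by
    intro w hw c hc
    apply hw c
    have h1 : (x : M4) * (w : M4) * ((x⁻¹ : GL (Fin 4) F) : M4) = c • 1 := by
      rw [← hc]; simp
    calc (w : M4) = ((x⁻¹ : GL (Fin 4) F) : M4) * ((x : M4) * (w : M4) * ((x⁻¹ : GL (Fin 4) F) : M4)) * (x : M4) := by
          simp only [mul_assoc, hxinv1, mul_one]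
          rw [← mul_assoc, hxinv1, one_mul]
      _ = c • 1 := by
          rw [h1, mul_smul_comm, smul_mul_assoc, mul_one, hxinv1]
  have hu1 : (u : M4) * ((u⁻¹ : GL (Fin 4) F) : M4) = 1 := by
    rw [← Units.val_mul]; simp
  have hns1 : ∀ c : F, ((sg u : GL (Fin 4) F) : M4) ≠ c • 1 := by
    intro c hc
    apply hmoved c
    have h1 : ((u⁻¹ * (x * u * x⁻¹) : GL (Fin 4) F) : M4) = c • 1 := hc
    have h2 : ((x * u * x⁻¹ : GL (Fin 4) F) : M4) = c • (u : M4) := by
      have h3 : ((u * (u⁻¹ * (x * u * x⁻¹)) : GL (Fin 4) F) : M4) = c • (u : M4) := by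
        rw [Units.val_mul, h1, mul_smul_comm, mul_one]
      rwa [mul_inv_cancel_left] at h3
    calc (x : M4) * (u : M4) = ((x * u * x⁻¹ : GL (Fin 4) F) : M4) * (x : M4) := by
          simp only [Units.val_mul, mul_assoc, hxinv1, mul_one]
      _ = c • ((u : M4) * (x : M4)) := by rw [h2, smul_mul_assoc]
  have hu1R : x * u * x⁻¹ ∈ R := conj_mem hxN hu
  have hu2R : x * (x * u * x⁻¹) * x⁻¹ ∈ R := conj_mem hxN hu1R
  have hns2 := hconj_ns _ hns1
  have hns3 := hconj_ns _ hns2
  rw [← hsg] at hns2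
  rw [← hsg, ← hsg] at hns3
  obtain ⟨hf1, hq1⟩ := fix_le_of_normal hD hxN hlam hH hu hns1
  obtain ⟨hf2, hq2⟩ := fix_le_of_normal hD hxN hlam hH hu1R hns2
  obtain ⟨hf3, hq3⟩ := fix_le_of_normal hD hxN hlam hH hu2R hns3
  have hxcu : x ^ 3 * u = u * x ^ 3 := by
    apply Units.ext
    simp only [Units.val_mul, Units.val_pow_eq_pow_val]
    rw [hz, smul_mul_assoc, one_mul, mul_smul_comm, mul_one]
  have hx3u : x * (x * (x * u * x⁻¹) * x⁻¹) * x⁻¹ = u := by
    have h1 : x * (x * (x * u * x⁻¹) * x⁻¹) * x⁻¹ = x ^ 3 * u * (x ^ 3)⁻¹ := by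
      rw [show x ^ 3 = x * x * x by simp only [pow_succ, pow_zero, one_mul]]
      group
    rw [h1, hxcu]
    group
  set S₁ : M4 := ((u⁻¹ * (x * u * x⁻¹) : GL (Fin 4) F) : M4) with hS₁
  set S₂ : M4 := (((x * u * x⁻¹)⁻¹ * (x * (x * u * x⁻¹) * x⁻¹) : GL (Fin 4) F) : M4) with hS₂
  set S₃ : M4 := (((x * (x * u * x⁻¹) * x⁻¹)⁻¹ * (x * (x * (x * u * x⁻¹) * x⁻¹) * x⁻¹) : GL (Fin 4) F) : M4) with hS₃
  have h123 : S₁ * S₂ * S₃ = 1 := by
    rw [hS₁, hS₂, hS₃, ← Units.val_mul, ← Units.val_mul]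
    have : u⁻¹ * (x * u * x⁻¹) * ((x * u * x⁻¹)⁻¹ * (x * (x * u * x⁻¹) * x⁻¹)) *
        ((x * (x * u * x⁻¹) * x⁻¹)⁻¹ * (x * (x * (x * u * x⁻¹) * x⁻¹) * x⁻¹)) = 1 := by
      rw [hx3u]
      group
    rw [this]
    rfl
  have hS3eq : S₃ = S₂ * S₁ := by
    calc S₃ = (S₂ * S₂) * S₃ := by rw [hq2, one_mul]
      _ = S₂ * ((S₁ * S₁) * S₂) * S₃ := by rw [hq1, one_mul]
      _ = S₂ * S₁ * (S₁ * S₂ * S₃) := by simp only [mul_assoc]
      _ = S₂ * S₁ := by rw [h123, mul_one]
  have hcomm : S₁ * S₂ = S₂ * S₁ := by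
    have h1 : (S₂ * S₁) * (S₂ * S₁) = 1 := by rw [← hS3eq]; exact hq3
    calc S₁ * S₂ = S₁ * S₂ * ((S₂ * S₁) * (S₂ * S₁)) := by rw [h1, mul_one]
      _ = S₁ * (S₂ * S₂) * S₁ * S₂ * S₁ := by simp only [mul_assoc]
      _ = S₂ * S₁ := by rw [hq2, mul_one, hq1, one_mul]
  set H := LinearMap.ker ((x : M4) - lam • 1).mulVecLin with hHdef
  have hHmem : ∀ v, v ∈ H ↔ (x : M4) *ᵥ v = lam • v := by
    intro v
    rw [hHdef, LinearMap.mem_ker, Matrix.mulVecLin_apply, Matrix.sub_mulVec, Matrix.smul_mulVec, Matrix.one_mulVec,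
      sub_eq_zero]
  have ht : ∀ (S : M4), S * S = 1 → (∀ v, S *ᵥ v = v → (x : M4) *ᵥ v = lam • v) → ∀ a, ((1 + S) *ᵥ a) ∈ H := by
    intro S hS hf a
    rw [hHmem]
    apply hf
    rw [Matrix.mulVec_mulVec, mul_add, mul_one, hS, add_comm]
  have hall : ∀ y, y ∈ H := by
    intro y
    have h1 := ht S₁ hq1 hf1 ((1 + S₂) *ᵥ y)
    have h2 := ht S₁ hq1 hf1 ((1 - S₂) *ᵥ y)
    have h3 := ht S₂ hq2 hf2 ((1 - S₁) *ᵥ y)
    have h4 : ((1 - S₁) * (1 - S₂)) *ᵥ y ∈ H := by
      rw [hHmem]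
      apply hf3
      rw [Matrix.mulVec_mulVec]
      congr 1
      rw [hS3eq]
      have e1 : S₂ * S₁ * S₁ = S₂ := by rw [mul_assoc, hq1, mul_one]
      have e2 : S₂ * S₁ * S₂ = S₁ := by rw [← hcomm, mul_assoc, hq2, mul_one]
      have e3 : S₂ * S₁ * (S₁ * S₂) = 1 := by rw [← mul_assoc, e1, hq2]
      simp only [mul_sub, sub_mul, mul_one, one_mul, e1, e2, e3]
      rw [hcomm]
      abel
    have h5 := H.add_mem (H.add_mem (H.add_mem h1 h2) h3) h4
    have h6 : (1 + S₁) *ᵥ ((1 + S₂) *ᵥ y) + (1 + S₁) *ᵥ ((1 - S₂) *ᵥ y) + (1 + S₂) *ᵥ ((1 - S₁) *ᵥ y) +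
        ((1 - S₁) * (1 - S₂)) *ᵥ y = (4 : F) • y := by
      simp only [Matrix.mulVec_mulVec, ← Matrix.add_mulVec]
      have e : (1 + S₁) * (1 + S₂) + (1 + S₁) * (1 - S₂) + (1 + S₂) * (1 - S₁) + (1 - S₁) * (1 - S₂) = (4 : F) • 1 := by
        simp only [mul_add, add_mul, mul_sub, sub_mul, mul_one, one_mul]
        rw [← hcomm]
        have : (4 : F) • (1 : M4) = 1 + 1 + 1 + 1 := by
          rw [show (4 : F) = 1 + 1 + 1 + 1 by norm_num]
          simp only [add_smul, one_smul]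
        rw [this]
        abel
      rw [e, Matrix.smul_mulVec, Matrix.one_mulVec]
    rw [h6] at h5
    have h40 : (4 : F) ≠ 0 := by
      intro h
      apply hD.two_ne
      have : (2 : F) * 2 = 0 := by linear_combination h
      exact mul_self_eq_zero.1 this
    exact (H.smul_mem_iff h40).1 h5
  apply hns lam
  apply Matrix.toLin'.injective
  apply LinearMap.ext
  intro y
  have := (hHmem y).1 (hall y)
  simp only [map_smul, Matrix.toLin'_apply, LinearMap.smul_apply, Matrix.toLin'_one, LinearMap.id_apply]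
  exact this

theorem aux_prime {r c : ℕ} (hp : r.Prime) (hr7 : 7 ≤ r) (hc : c = 4 ∨ c = 8 ∨ c = 16 ∨ c = 32)
    (hm : c ≡ 64 [MOD r]) : r = 7 ∧ c = 8 := by
  have hle : c ≤ 64 := by omega
  have hd : r ∣ 64 - c := (Nat.modEq_iff_dvd' hle).1 hm
  rcases hc with rfl | rfl | rfl | rfl
  · exfalso
    have h1 : r ≤ 60 := Nat.le_of_dvd (by norm_num) hd
    interval_cases r <;> first | (revert hp; norm_num; done) | omega
  · have h1 : r ≤ 56 := Nat.le_of_dvd (by norm_num) hd
    refine ⟨?_, rfl⟩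
    interval_cases r <;> first | rfl | (revert hp; norm_num; done) | omega
  · exfalso
    have h1 : r ≤ 48 := Nat.le_of_dvd (by norm_num) hd
    interval_cases r <;> first | (revert hp; norm_num; done) | omega
  · exfalso
    have h1 : r ≤ 32 := Nat.le_of_dvd (by norm_num) hd
    interval_cases r <;> first | (revert hp; norm_num; done) | omega

set_option maxHeartbeats 4000000 in
/-- Elements of prime order at least seven normalising `R` are scalars. -/
theorem neg_large (hD : SymData R) {x : GL (Fin 4) F} (hxN : x ∈ subgroupNormalizer R) {r : ℕ} [hr : Fact r.Prime]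
    (hr7 : 7 ≤ r) {z : F} (hz : (x : M4) ^ r = z • 1) (hns : ∀ c : F, (x : M4) ≠ c • 1) : False := by
  classical
  haveI hfinR : Finite R := Nat.finite_of_card_ne_zero (by rw [hD.card]; norm_num)
  -- the map on `R`
  let f : R → R := fun w => ⟨x * w * x⁻¹, conj_mem hxN w.2⟩
  have hxrc : ∀ w : GL (Fin 4) F, x ^ r * w = w * x ^ r := by
    intro w
    apply Units.ext
    simp only [Units.val_mul, Units.val_pow_eq_pow_val]
    rw [hz, smul_mul_assoc, one_mul, mul_smul_comm, mul_one]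
  have hfk : ∀ (k : ℕ) (w : R), ((f^[k] w : R) : GL (Fin 4) F) = x ^ k * w * (x ^ k)⁻¹ := by
    intro k w
    induction k with
    | zero => simp
    | succ k ih =>
      rw [Function.iterate_succ_apply']
      show x * ((f^[k] w : R) : GL (Fin 4) F) * x⁻¹ = _
      rw [ih, pow_succ']
      group
  have hfr : ∀ w : R, f^[r] w = w := by
    intro w
    apply Subtype.ext
    rw [hfk, hxrc]
    group
  -- centraliser
  let C : Subgroup R :=
    { carrier := {w | x * (w : GL (Fin 4) F) = w * x}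
      one_mem' := by simp
      mul_mem' := by
        intro a b ha hb
        show x * ((a : GL (Fin 4) F) * b) = (a : GL (Fin 4) F) * b * x
        rw [← mul_assoc, show x * (a : GL (Fin 4) F) = a * x from ha, mul_assoc, show x * (b : GL (Fin 4) F) = b * x from hb, mul_assoc]
      inv_mem' := by
        intro a ha
        have ha' : x * (a : GL (Fin 4) F) = a * x := ha
        show x * ((a : GL (Fin 4) F))⁻¹ = ((a : GL (Fin 4) F))⁻¹ * x
        rw [mul_inv_eq_iff_eq_mul, mul_assoc, ha', ← mul_assoc, inv_mul_cancel, one_mul] }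
  have hCmem : ∀ w : R, w ∈ C ↔ x * (w : GL (Fin 4) F) = w * x := fun _ => Iff.rfl
  have hfix : ∀ w : R, f w = w ↔ w ∈ C := by
    intro w
    rw [hCmem]
    constructor
    · intro h
      have h1 : x * (w : GL (Fin 4) F) * x⁻¹ = w := congrArg Subtype.val h
      rw [mul_inv_eq_iff_eq_mul] at h1
      exact h1
    · intro h
      apply Subtype.ext
      show x * (w : GL (Fin 4) F) * x⁻¹ = w
      rw [h]
      group
  -- general count
  have hcount : ∀ A : Subgroup R, (∀ w ∈ A, f w ∈ A) → Nat.card A ≡ Nat.card ↥(C ⊓ A) [MOD r] := by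
    intro A hA
    let g : Function.End A := fun a => ⟨f a, hA _ a.2⟩
    have hgk : ∀ (k : ℕ) (a : A), ((g^[k] a : A) : R) = f^[k] a := by
      intro k a
      induction k with
      | zero => rfl
      | succ k ih =>
        rw [Function.iterate_succ_apply', Function.iterate_succ_apply']
        show f ((g^[k] a : A) : R) = _
        rw [ih]
    have hgpow : ∀ (k : ℕ) (a : A), (g ^ k) a = g^[k] a := by
      intro k a
      induction k generalizing a with
      | zero => rfl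
      | succ k ih =>
        rw [pow_succ, Function.iterate_succ_apply]
        exact ih (g a)
    have hg1 : g ^ r ^ 1 = 1 := by
      rw [pow_one]
      funext a
      show (g ^ r) a = a
      rw [hgpow]
      apply Subtype.ext
      rw [hgk, hfr]
    haveI : Fintype A := Fintype.ofFinite A
    have h1 := Equiv.Perm.card_fixedPoints_modEq (f := g) (p := r) (n := 1) hg1
    have h2 : Nat.card (Function.fixedPoints g) = Nat.card ↥(C ⊓ A) := by
      apply Nat.card_congr
      refine ⟨fun a => ⟨a.1.1, (hfix _).1 (congrArg Subtype.val a.2), a.1.2⟩,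
        fun b => ⟨⟨b.1, b.2.2⟩, Subtype.ext ((hfix _).2 b.2.1)⟩, ?_, ?_⟩
      · intro a; rfl
      · intro b; rfl
    rw [Nat.card_eq_fintype_card, ← h2, Nat.card_eq_fintype_card]
    exact h1
  obtain ⟨ι, i₀, hi₀R, hi₀, hι⟩ := hD.exists_i
  let i' : R := ⟨i₀, hi₀R⟩
  have hi'C : i' ∈ C := by
    rw [hCmem]
    apply Units.ext
    simp only [Units.val_mul]
    show (x : M4) * (i₀ : M4) = (i₀ : M4) * (x : M4)
    rw [hi₀, mul_smul_comm, smul_mul_assoc, mul_one, one_mul]
  have hi'4 : Nat.card (zpowers i') = 4 := by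
    rw [Nat.card_zpowers]
    have h1 : ¬ i' ^ 2 ^ 1 = 1 := by
      intro h
      have h2 : ((i' ^ 2 : R) : GL (Fin 4) F) = 1 := by
        have := congrArg Subtype.val h
        simpa using this
      have h3 : (i₀ : M4) * (i₀ : M4) = 1 := by
        have := congrArg Units.val h2
        simpa [pow_two] using this
      rw [hi₀, smul_mul_smul_comm, mul_one, hι] at h3
      have h4 := smul_one_inj (F := F) (a := -1) (b := 1) (by rw [h3, one_smul])
      apply hD.two_ne
      linear_combination -h4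
    have h2 : i' ^ 2 ^ (1 + 1) = 1 := by
      apply Subtype.ext
      apply Units.ext
      show (i₀ : M4) ^ 4 = 1
      rw [hi₀, smul_pow, one_pow]
      have : ι ^ 4 = 1 := by
        calc ι ^ 4 = (ι * ι) * (ι * ι) := by ring
          _ = 1 := by rw [hι]; ring
      rw [this, one_smul]
    have := orderOf_eq_prime_pow (p := 2) (n := 1) h1 h2
    simpa using this
  have hZ'C : zpowers i' ≤ C := by
    rw [zpowers_le]
    exact hi'C
  have hCdvd : Nat.card C ∣ 2 ^ 6 := by
    have := Subgroup.card_subgroup_dvd_card C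
    rwa [hD.card] at this
  obtain ⟨k, hk6, hkc⟩ := (Nat.dvd_prime_pow Nat.prime_two).1 hCdvd
  have hk2 : 2 ≤ k := by
    have h1 : Nat.card (zpowers i') ∣ Nat.card C := Subgroup.card_dvd_of_le hZ'C
    rw [hi'4, hkc] at h1
    by_contra hlt
    have hk1 : k ≤ 1 := by omega
    interval_cases k <;> omega
  have htop := hcount ⊤ (fun _ _ => mem_top _)
  have hctop : Nat.card (⊤ : Subgroup R) = 64 := by
    rw [Subgroup.card_top, hD.card]
  have hinf : C ⊓ ⊤ = C := inf_top_eq _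
  rw [hctop, hinf] at htop
  have hk6' : k ≠ 6 := by
    intro h6
    subst h6
    have h1 : C = ⊤ := by
      apply Subgroup.eq_top_of_card_eq
      rw [hkc, hD.card]
      norm_num
    obtain ⟨c, hc⟩ := hD.comm_scal (x : M4) (by
      intro u hu
      have h2 : (⟨u, hu⟩ : R) ∈ C := by rw [h1]; exact mem_top _
      exact congrArg Units.val h2)
    exact hns c hc
  have hcases : Nat.card C = 4 ∨ Nat.card C = 8 ∨ Nat.card C = 16 ∨ Nat.card C = 32 := by
    have : k = 2 ∨ k = 3 ∨ k = 4 ∨ k = 5 := by omega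
    rw [hkc]
    rcases this with rfl | rfl | rfl | rfl <;> norm_num
  obtain ⟨hr77, hC8⟩ := aux_prime hr.out hr7 hcases htop.symm
  subst hr77
  -- a non-central fixed element
  obtain ⟨a, haC, haZ⟩ : ∃ a ∈ C, a ∉ zpowers i' := by
    by_contra hno
    push Not at hno
    have h2 := Subgroup.card_le_of_le (show C ≤ zpowers i' from hno)
    rw [hC8, hi'4] at h2
    omega
  have hans : ∀ c : F, ((a : GL (Fin 4) F) : M4) ≠ c • 1 := by
    intro c hc
    apply haZ
    have hc4 := scal_pow_four hD a.2 hc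
    have h1 : (c - 1) * ((c + 1) * ((c - ι) * (c + ι))) = 0 := by
      have hι2 : ι * ι = -1 := hι
      linear_combination hc4 + (-(c * c) + 1) * hι2
    have hap : ∀ (k : ℕ) (d : F), ((i₀ : M4)) ^ k = d • 1 → c = d → a = i' ^ k → a ∈ zpowers i' := by
      intro k d _ _ h
      rw [h]
      exact pow_mem (mem_zpowers _) k
    have heq : ∀ (k : ℕ), c = ι ^ k → a ∈ zpowers i' := by
      intro k hk
      have : a = i' ^ k := by
        apply Subtype.ext
        apply Units.ext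
        show ((a : GL (Fin 4) F) : M4) = ((i' ^ k : R) : GL (Fin 4) F).val
        rw [hc, hk]
        have : ((i' ^ k : R) : GL (Fin 4) F).val = (i₀ : M4) ^ k := by
          simp [i']
        rw [this, hi₀, smul_pow, one_pow]
      rw [this]
      exact pow_mem (mem_zpowers _) k
    rcases mul_eq_zero.1 h1 with h | h
    · exact heq 0 (by simp; linear_combination h)
    · rcases mul_eq_zero.1 h with h | h
      · exact heq 2 (by rw [pow_two, hι]; linear_combination h)
      · rcases mul_eq_zero.1 h with h | h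
        · exact heq 1 (by rw [pow_one]; linear_combination h)
        · refine heq 3 ?_
          have : ι ^ 3 = -ι := by
            calc ι ^ 3 = (ι * ι) * ι := by ring
              _ = -ι := by rw [hι]; ring
          rw [this]
          linear_combination h
  -- its centraliser
  let D : Subgroup R :=
    { carrier := {w | (a : GL (Fin 4) F) * (w : GL (Fin 4) F) = w * a}
      one_mem' := by simp
      mul_mem' := by
        intro b c hb hc
        show (a : GL (Fin 4) F) * ((b : GL (Fin 4) F) * c) = (b : GL (Fin 4) F) * c * a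
        rw [← mul_assoc, show (a : GL (Fin 4) F) * (b : GL (Fin 4) F) = b * a from hb, mul_assoc, show (a : GL (Fin 4) F) * (c : GL (Fin 4) F) = c * a from hc, mul_assoc]
      inv_mem' := by
        intro b hb
        have hb' : (a : GL (Fin 4) F) * (b : GL (Fin 4) F) = b * a := hb
        show (a : GL (Fin 4) F) * ((b : GL (Fin 4) F))⁻¹ = ((b : GL (Fin 4) F))⁻¹ * a
        rw [mul_inv_eq_iff_eq_mul, mul_assoc, hb', ← mul_assoc, inv_mul_cancel, one_mul] }
  have hDmem : ∀ w : R, w ∈ D ↔ (a : GL (Fin 4) F) * (w : GL (Fin 4) F) = w * a := fun _ => Iff.rfl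
  have hDmat : ∀ w : R, w ∈ D ↔ ((a : GL (Fin 4) F) : M4) * ((w : GL (Fin 4) F) : M4) = ((w : GL (Fin 4) F) : M4) * ((a : GL (Fin 4) F) : M4) := by
    intro w
    rw [hDmem]
    constructor
    · intro h; exact congrArg Units.val h
    · intro h; exact Units.ext h
  -- commuting and anticommuting are exclusive
  have hexcl : ∀ w : R, ((a : GL (Fin 4) F) : M4) * ((w : GL (Fin 4) F) : M4) = ((w : GL (Fin 4) F) : M4) * ((a : GL (Fin 4) F) : M4) →
      ((a : GL (Fin 4) F) : M4) * ((w : GL (Fin 4) F) : M4) = -(((w : GL (Fin 4) F) : M4) * ((a : GL (Fin 4) F) : M4)) → False := by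
    intro w h1 h2
    have h3 : (2 : F) • (((w : GL (Fin 4) F) : M4) * ((a : GL (Fin 4) F) : M4)) = 0 := by
      rw [two_smul]
      nth_rewrite 1 [← h1]
      rw [h2]
      simp
    have h4 := (smul_eq_zero.1 h3).resolve_left hD.two_ne
    exact ne_zero_of_gl (((w : GL (Fin 4) F)) * (a : GL (Fin 4) F)) (by rw [Units.val_mul]; exact h4)
  have hDindex : D.index = 2 := by
    rw [Subgroup.index_eq_two_iff]
    obtain ⟨t, ht, hat⟩ : ∃ t ∈ R, ((a : GL (Fin 4) F) : M4) * (t : M4) = -((t : M4) * ((a : GL (Fin 4) F) : M4)) := by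
      rcases hD.scal_or_anti a a.2 with ⟨c, hc⟩ | h
      · exact absurd hc (hans c)
      · exact h
    refine ⟨⟨t, ht⟩, ?_⟩
    intro b
    rw [hDmat, hDmat]
    have hb := hD.comm_or _ a.2 _ b.2
    have hbt : ((a : GL (Fin 4) F) : M4) * (((b : R) : GL (Fin 4) F) * t : GL (Fin 4) F).val =
        ((b : GL (Fin 4) F) : M4) * t * ((a : GL (Fin 4) F) : M4) ∨ True := Or.inr trivial
    rcases hb with hb | hb
    · right
      refine ⟨hb, ?_⟩
      intro h1
      apply hexcl ⟨(b : GL (Fin 4) F) * t, mul_mem b.2 ht⟩ h1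
      show ((a : GL (Fin 4) F) : M4) * (((b : GL (Fin 4) F) : M4) * (t : M4)) = -(((b : GL (Fin 4) F) : M4) * (t : M4) * ((a : GL (Fin 4) F) : M4))
      rw [← mul_assoc, hb, mul_assoc, hat]
      simp [mul_assoc]
    · left
      constructor
      · show ((a : GL (Fin 4) F) : M4) * (((b : GL (Fin 4) F) : M4) * (t : M4)) = ((b : GL (Fin 4) F) : M4) * (t : M4) * ((a : GL (Fin 4) F) : M4)
        rw [← mul_assoc, hb, neg_mul, mul_assoc, hat]
        simp [mul_assoc]
      · intro h1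
        exact hexcl b h1 hb
  have hD32 : Nat.card D = 32 := by
    have h1 := Subgroup.card_mul_index D
    rw [hDindex, hD.card] at h1
    omega
  have hDinv : ∀ w ∈ D, f w ∈ D := by
    intro w hw
    rw [hDmem] at hw ⊢
    have hax : (a : GL (Fin 4) F) * x = x * a := ((hCmem a).1 haC).symm
    have hax' : (a : GL (Fin 4) F) * x⁻¹ = x⁻¹ * a := (show Commute (a : GL (Fin 4) F) x from hax).inv_right
    show (a : GL (Fin 4) F) * (x * (w : GL (Fin 4) F) * x⁻¹) = x * (w : GL (Fin 4) F) * x⁻¹ * a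
    calc (a : GL (Fin 4) F) * (x * (w : GL (Fin 4) F) * x⁻¹) = ((a : GL (Fin 4) F) * x) * (w : GL (Fin 4) F) * x⁻¹ := by group
      _ = x * ((a : GL (Fin 4) F) * (w : GL (Fin 4) F)) * x⁻¹ := by rw [hax]; group
      _ = x * (w : GL (Fin 4) F) * ((a : GL (Fin 4) F) * x⁻¹) := by rw [hw]; group
      _ = x * (w : GL (Fin 4) F) * x⁻¹ * a := by rw [hax']; group
  have hmod := hcount D hDinv
  rw [hD32] at hmod
  have hcdvd : Nat.card ↥(C ⊓ D) ∣ Nat.card C := Subgroup.card_dvd_of_le inf_le_left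
  rw [hC8] at hcdvd
  have hZ'CD : zpowers i' ≤ C ⊓ D := by
    rw [zpowers_le]
    refine ⟨hi'C, ?_⟩
    show i' ∈ D
    rw [hDmat]
    show ((a : GL (Fin 4) F) : M4) * (i₀ : M4) = (i₀ : M4) * ((a : GL (Fin 4) F) : M4)
    rw [hi₀, mul_smul_comm, smul_mul_assoc, mul_one, one_mul]
  have haCD : a ∈ C ⊓ D := by
    refine ⟨haC, ?_⟩
    show a ∈ D
    rw [hDmem]
  have hne4 : Nat.card ↥(C ⊓ D) ≠ 4 := by
    intro h4
    have := Subgroup.eq_of_le_of_card_ge hZ'CD (by rw [h4, hi'4])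
    rw [← this] at haCD
    exact haZ haCD
  have hle8 : Nat.card ↥(C ⊓ D) ≤ 8 := Nat.le_of_dvd (by norm_num) hcdvd
  have hm2 : (Nat.card ↥(C ⊓ D)) % 7 = 32 % 7 := hmod.symm
  have hcpos : Nat.card ↥(C ⊓ D) ≠ 0 := Nat.card_pos.ne'
  interval_cases hh : Nat.card ↥(C ⊓ D) <;> omega

end Cfsg.Agent.Lib.SymType64Neg
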