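import Mathlib
import Cfsg.Agent.Lib.SymType64Neg

/-!
# Normal form for the group `R`: conjugation to the standard Pauli matrices.
-/

set_option autoImplicit false
set_option linter.style.haveILetI false

namespace Cfsg.Agent.Lib.SymType64NF

open Subgroup Cfsg.Geo Cfsg.Agent.Lib.SymType64M Cfsg.Agent.Lib.SymType64Neg Matrix
open scoped MatrixGroups

variable {F : Type*} [Field F] {R : Subgroup (GL (Fin 4) F)}

local notation "M4" => Matrix (Fin 4) (Fin 4) F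

/-- `Z ⊗ 1`. -/
def Zm1 : Matrix (Fin 4) (Fin 4) F := !![1,0,0,0;0,1,0,0;0,0,-1,0;0,0,0,-1]
/-- `1 ⊗ Z`. -/
def Zm2 : Matrix (Fin 4) (Fin 4) F := !![1,0,0,0;0,-1,0,0;0,0,1,0;0,0,0,-1]
/-- `X ⊗ 1`. -/
def Xm1 : Matrix (Fin 4) (Fin 4) F := !![0,0,1,0;0,0,0,1;1,0,0,0;0,1,0,0]
/-- `1 ⊗ X`. -/
def Xm2 : Matrix (Fin 4) (Fin 4) F := !![0,1,0,0;1,0,0,0;0,0,0,1;0,0,1,0]

theorem mul_cols (A B : M4) (c : Fin 4 → Fin 4 → F) (h : ∀ j, A *ᵥ c j = ∑ k, B k j • c k) :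
    A * Matrix.of (fun i j => c j i) = Matrix.of (fun i j => c j i) * B := by
  ext i j
  have h1 := congrFun (h j) i
  simp only [Matrix.mulVec, dotProduct, Finset.sum_apply, Pi.smul_apply, smul_eq_mul] at h1
  simp only [Matrix.mul_apply, Matrix.of_apply]
  rw [h1]
  exact Finset.sum_congr rfl fun k _ => mul_comm _ _

/-- Anticommuting with an invertible element excludes being scalar. -/
theorem not_scalar_of_anti (h2 : (2 : F) ≠ 0) {u t : GL (Fin 4) F} (h : (u : M4) * t = -((t : M4) * u)) (c : F) :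
    (u : M4) ≠ c • 1 := by
  intro hc
  rw [hc, smul_mul_assoc, one_mul, mul_smul_comm, mul_one] at h
  have h3 : (2 * c) • (t : M4) = 0 := by
    rw [mul_smul, two_smul]
    nth_rewrite 1 [h]
    simp
  rcases smul_eq_zero.1 h3 with h4 | h4
  · rcases mul_eq_zero.1 h4 with h5 | h5
    · exact h2 h5
    · rw [h5, zero_smul] at hc
      exact ne_zero_of_gl u hc
  · exact ne_zero_of_gl t h4

theorem exists_nf (hD : SymData R) {a₁ b₁ a₂ b₂ : GL (Fin 4) F} (ha₁ : a₁ ∈ R) (ha₂ : a₂ ∈ R)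
    (hs1 : (a₁ : M4) * a₁ = 1) (hs2 : (b₁ : M4) * b₁ = 1) (hs3 : (a₂ : M4) * a₂ = 1) (hs4 : (b₂ : M4) * b₂ = 1)
    (r1 : (a₁ : M4) * b₁ = -((b₁ : M4) * a₁)) (r2 : (a₂ : M4) * b₂ = -((b₂ : M4) * a₂))
    (r3 : (a₁ : M4) * a₂ = (a₂ : M4) * a₁) (r4 : (a₁ : M4) * b₂ = (b₂ : M4) * a₁)
    (r5 : (b₁ : M4) * a₂ = (a₂ : M4) * b₁) (r6 : (b₁ : M4) * b₂ = (b₂ : M4) * b₁) :
    ∃ h : GL (Fin 4) F, (a₁ : M4) * (h : M4) = (h : M4) * (Zm1 : M4) ∧ (a₂ : M4) * (h : M4) = (h : M4) * (Zm2 : M4) ∧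
      (b₁ : M4) * (h : M4) = (h : M4) * (Xm1 : M4) ∧ (b₂ : M4) * (h : M4) = (h : M4) * (Xm2 : M4) := by
  classical
  have h2 := hD.two_ne
  have h40 : (4 : F) ≠ 0 := by
    intro h
    apply h2
    have : (2 : F) * 2 = 0 := by linear_combination h
    exact mul_self_eq_zero.1 this
  set A₁ : M4 := (a₁ : M4) with hA₁
  set A₂ : M4 := (a₂ : M4) with hA₂
  set B₁ : M4 := (b₁ : M4) with hB₁
  set B₂ : M4 := (b₂ : M4) with hB₂
  have htr1 : A₁.trace = 0 := trace_eq_zero hD ha₁ (not_scalar_of_anti h2 r1)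
  have htr2 : A₂.trace = 0 := trace_eq_zero hD ha₂ (not_scalar_of_anti h2 r2)
  have htr12 : (A₁ * A₂).trace = 0 := by
    have hanti : ((a₁ * a₂ : GL (Fin 4) F) : M4) * (b₁ : M4) = -((b₁ : M4) * ((a₁ * a₂ : GL (Fin 4) F) : M4)) := by
      simp only [Units.val_mul]
      rw [← hA₁, ← hA₂, ← hB₁, mul_assoc, ← r5, ← mul_assoc, r1, neg_mul, mul_assoc]
    exact trace_eq_zero hD (mul_mem ha₁ ha₂) (not_scalar_of_anti h2 hanti)
  -- the joint eigenvector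
  obtain ⟨v, hv0, hv1, hv2⟩ : ∃ v : Fin 4 → F, v ≠ 0 ∧ A₁ *ᵥ v = v ∧ A₂ *ᵥ v = v := by
    have hP : (1 + A₁) * (1 + A₂) ≠ 0 := by
      intro h0
      have h1 := congrArg Matrix.trace h0
      simp only [mul_add, add_mul, one_mul, mul_one, Matrix.trace_add, Matrix.trace_one, htr1, htr2, htr12,
        Matrix.trace_zero] at h1
      apply h40
      simpa using h1
    have hw : ∃ w, ((1 + A₁) * (1 + A₂)) *ᵥ w ≠ 0 := by
      by_contra hno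
      push Not at hno
      apply hP
      apply Matrix.toLin'.injective
      apply LinearMap.ext
      intro w
      rw [Matrix.toLin'_apply, hno w]
      simp
    obtain ⟨w, hw⟩ := hw
    refine ⟨_, hw, ?_, ?_⟩
    · rw [Matrix.mulVec_mulVec]
      congr 1
      rw [← mul_assoc, mul_add A₁ 1 A₁, mul_one, hs1, add_comm A₁ 1]
    · rw [Matrix.mulVec_mulVec]
      congr 1
      have e : A₂ * (1 + A₁) = (1 + A₁) * A₂ := by rw [mul_add, add_mul, mul_one, one_mul, r3]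
      calc A₂ * ((1 + A₁) * (1 + A₂)) = (A₂ * (1 + A₁)) * (1 + A₂) := by rw [mul_assoc]
        _ = (1 + A₁) * A₂ * (1 + A₂) := by rw [e]
        _ = (1 + A₁) * (A₂ * (1 + A₂)) := by rw [mul_assoc]
        _ = (1 + A₁) * (1 + A₂) := by rw [mul_add A₂, mul_one, hs3, add_comm A₂ 1]
  set c : Fin 4 → Fin 4 → F := ![v, B₂ *ᵥ v, B₁ *ᵥ v, (B₁ * B₂) *ᵥ v] with hc
  have hc0 : c 0 = v := rfl
  have hc1 : c 1 = B₂ *ᵥ v := rfl
  have hc2 : c 2 = B₁ *ᵥ v := rfl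
  have hc3 : c 3 = (B₁ * B₂) *ᵥ v := rfl
  -- the actions on columns
  have ha10 : A₁ *ᵥ c 0 = c 0 := hv1
  have ha11 : A₁ *ᵥ c 1 = c 1 := by
    rw [hc1, Matrix.mulVec_mulVec, r4, ← Matrix.mulVec_mulVec, hv1]
  have ha12 : A₁ *ᵥ c 2 = -c 2 := by
    rw [hc2, Matrix.mulVec_mulVec, r1, Matrix.neg_mulVec, ← Matrix.mulVec_mulVec, hv1]
  have ha13 : A₁ *ᵥ c 3 = -c 3 := by
    have e : A₁ * (B₁ * B₂) = -((B₁ * B₂) * A₁) := by
      rw [← mul_assoc, r1, neg_mul, mul_assoc B₁, r4, mul_assoc B₁]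
    rw [hc3, Matrix.mulVec_mulVec, e, Matrix.neg_mulVec, ← Matrix.mulVec_mulVec, hv1]
  have ha20 : A₂ *ᵥ c 0 = c 0 := hv2
  have ha21 : A₂ *ᵥ c 1 = -c 1 := by
    rw [hc1, Matrix.mulVec_mulVec, r2, Matrix.neg_mulVec, ← Matrix.mulVec_mulVec, hv2]
  have ha22 : A₂ *ᵥ c 2 = c 2 := by
    rw [hc2, Matrix.mulVec_mulVec, ← r5, ← Matrix.mulVec_mulVec, hv2]
  have ha23 : A₂ *ᵥ c 3 = -c 3 := by
    have e : A₂ * (B₁ * B₂) = -((B₁ * B₂) * A₂) := by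
      rw [← mul_assoc, ← r5, mul_assoc B₁, r2, mul_neg, mul_assoc B₁]
    rw [hc3, Matrix.mulVec_mulVec, e, Matrix.neg_mulVec, ← Matrix.mulVec_mulVec, hv2]
  have hb10 : B₁ *ᵥ c 0 = c 2 := rfl
  have hb11 : B₁ *ᵥ c 1 = c 3 := by
    rw [hc1, hc3, Matrix.mulVec_mulVec]
  have hb12 : B₁ *ᵥ c 2 = c 0 := by
    rw [hc2, Matrix.mulVec_mulVec, hs2, Matrix.one_mulVec, hc0]
  have hb13 : B₁ *ᵥ c 3 = c 1 := by
    rw [hc3, hc1, Matrix.mulVec_mulVec, ← mul_assoc, hs2, one_mul]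
  have hb20 : B₂ *ᵥ c 0 = c 1 := rfl
  have hb21 : B₂ *ᵥ c 1 = c 0 := by
    rw [hc1, Matrix.mulVec_mulVec, hs4, Matrix.one_mulVec, hc0]
  have hb22 : B₂ *ᵥ c 2 = c 3 := by
    rw [hc2, hc3, Matrix.mulVec_mulVec, r6]
  have hb23 : B₂ *ᵥ c 3 = c 2 := by
    rw [hc3, hc2, Matrix.mulVec_mulVec, ← mul_assoc, ← r6, mul_assoc, hs4, mul_one]
  -- nonzero columns
  have hne : ∀ (g : GL (Fin 4) F), (g : M4) *ᵥ v ≠ 0 := by
    intro g hg
    apply hv0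
    have h1 : ((g⁻¹ : GL (Fin 4) F) : M4) * (g : M4) = 1 := by
      rw [← Units.val_mul]; simp
    have h3 := congrArg (fun w => ((g⁻¹ : GL (Fin 4) F) : M4) *ᵥ w) hg
    simpa [Matrix.mulVec_mulVec, h1] using h3
  have hc0ne : c 0 ≠ 0 := hv0
  have hc1ne : c 1 ≠ 0 := hne b₂
  have hc2ne : c 2 ≠ 0 := hne b₁
  have hc3ne : c 3 ≠ 0 := by
    have := hne (b₁ * b₂)
    rw [Units.val_mul] at this
    exact this
  set h0 : M4 := Matrix.of (fun i j => c j i) with hh0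
  have hmv : ∀ l : Fin 4 → F, h0 *ᵥ l = l 0 • c 0 + l 1 • c 1 + l 2 • c 2 + l 3 • c 3 := by
    intro l
    ext i
    simp only [hh0, Matrix.mulVec, dotProduct, Matrix.of_apply, Fin.sum_univ_four, Pi.add_apply, Pi.smul_apply, smul_eq_mul]
    ring
  have hker : ∀ l : Fin 4 → F, h0 *ᵥ l = 0 → l = 0 := by
    intro l hl
    rw [hmv] at hl
    have e1 : l 0 • c 0 + l 1 • c 1 - l 2 • c 2 - l 3 • c 3 = 0 := by
      have := congrArg (fun w => A₁ *ᵥ w) hl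
      simp only [Matrix.mulVec_add, Matrix.mulVec_smul, ha10, ha11, ha12, ha13, Matrix.mulVec_zero, smul_neg] at this
      rw [← this]
      abel
    have e2 : l 0 • c 0 - l 1 • c 1 + l 2 • c 2 - l 3 • c 3 = 0 := by
      have := congrArg (fun w => A₂ *ᵥ w) hl
      simp only [Matrix.mulVec_add, Matrix.mulVec_smul, ha20, ha21, ha22, ha23, Matrix.mulVec_zero, smul_neg] at this
      rw [← this]
      abel
    have e3 : l 0 • c 0 - l 1 • c 1 - l 2 • c 2 + l 3 • c 3 = 0 := by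
      have := congrArg (fun w => A₁ *ᵥ w) e2
      simp only [Matrix.mulVec_add, Matrix.mulVec_sub, Matrix.mulVec_smul, ha10, ha11, ha12, ha13, Matrix.mulVec_zero, smul_neg] at this
      rw [← this]
      abel
    have t0 : (4 * l 0) • c 0 = 0 := by linear_combination (norm := module) hl + e1 + e2 + e3
    have t1 : (4 * l 1) • c 1 = 0 := by linear_combination (norm := module) hl + e1 - e2 - e3
    have t2 : (4 * l 2) • c 2 = 0 := by linear_combination (norm := module) hl - e1 + e2 - e3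
    have t3 : (4 * l 3) • c 3 = 0 := by linear_combination (norm := module) hl - e1 - e2 + e3
    have key : ∀ (j : Fin 4), c j ≠ 0 → (4 * l j) • c j = 0 → l j = 0 := by
      intro j h1 h3
      rcases smul_eq_zero.1 h3 with h4 | h4
      · exact (mul_eq_zero.1 h4).resolve_left h40
      · exact absurd h4 h1
    funext j
    fin_cases j
    · exact key 0 hc0ne t0
    · exact key 1 hc1ne t1
    · exact key 2 hc2ne t2
    · exact key 3 hc3ne t3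
  have hinj : Function.Injective h0.mulVec := by
    intro a b hab
    have h3 : h0 *ᵥ (a - b) = 0 := by
      rw [Matrix.mulVec_sub]
      exact sub_eq_zero.2 hab
    exact sub_eq_zero.1 (hker _ h3)
  obtain ⟨h, hh⟩ := Matrix.mulVec_injective_iff_isUnit.1 hinj
  refine ⟨h, ?_, ?_, ?_, ?_⟩
  · rw [hh]
    apply mul_cols
    intro j
    fin_cases j <;> simp [Fin.sum_univ_four, Zm1, ha10, ha11, ha12, ha13]
  · rw [hh]
    apply mul_cols
    intro j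
    fin_cases j <;> simp [Fin.sum_univ_four, Zm2, ha20, ha21, ha22, ha23]
  · rw [hh]
    apply mul_cols
    intro j
    fin_cases j <;> simp [Fin.sum_univ_four, Xm1, hb10, hb11, hb12, hb13]
  · rw [hh]
    apply mul_cols
    intro j
    fin_cases j <;> simp [Fin.sum_univ_four, Xm2, hb20, hb21, hb22, hb23]

/-- The normal form data of `R`. -/
structure Frame (R : Subgroup (GL (Fin 4) F)) (ι : F) (h i₀ a₁ b₁ a₂ b₂ : GL (Fin 4) F) : Prop where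
  hι : ι * ι = -1
  hi₀ : i₀ ∈ R
  hi₀v : (i₀ : M4) = ι • 1
  ha₁ : a₁ ∈ R
  hb₁ : b₁ ∈ R
  ha₂ : a₂ ∈ R
  hb₂ : b₂ ∈ R
  ra₁ : (a₁ : M4) * (h : M4) = (h : M4) * (Zm1 : M4)
  ra₂ : (a₂ : M4) * (h : M4) = (h : M4) * (Zm2 : M4)
  rb₁ : (b₁ : M4) * (h : M4) = (h : M4) * (Xm1 : M4)
  rb₂ : (b₂ : M4) * (h : M4) = (h : M4) * (Xm2 : M4)
  word : ∀ u ∈ R, ∃ k α₁ β₁ α₂ β₂ : ℕ, u = i₀ ^ k * b₂ ^ β₂ * a₂ ^ α₂ * b₁ ^ β₁ * a₁ ^ α₁

theorem exists_frame {F : Type*} [Field F] {R : Subgroup (GL (Fin 4) F)} (h2 : (2 : F) ≠ 0) (hRs : IsSymplecticTypeGroup 2 R)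
    (hRi : ActsAbsolutelyIrreducibly (matrixSet R)) (hR6 : Nat.card R = 2 ^ 6)
    (hRZ : Nat.card (center R) = 4) :
    SymData R ∧ ∃ (ι : F) (h i₀ a₁ b₁ a₂ b₂ : GL (Fin 4) F), Frame R ι h i₀ a₁ b₁ a₂ b₂ := by
  obtain ⟨hD, ι, i₀, a₁, b₁, a₂, b₂, hι, hi₀v, hi₀, ha₁, hb₁, ha₂, hb₂, s1, s2, s3, s4, r1, r2, r3, r4, r5, r6, hw⟩ :=
    exists_data h2 hRs hRi hR6 hRZ
  obtain ⟨h, ra₁, ra₂, rb₁, rb₂⟩ := exists_nf hD ha₁ ha₂ s1 s2 s3 s4 r1 r2 r3 r4 r5 r6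
  refine ⟨hD, ι, h, i₀, a₁, b₁, a₂, b₂, ⟨hι, hi₀, hi₀v, ha₁, hb₁, ha₂, hb₂, ra₁, ra₂, rb₁, rb₂, ?_⟩⟩
  intro u hu
  obtain ⟨k, α₁, β₁, α₂, β₂, -, -, -, -, h'⟩ := hw u hu
  exact ⟨k, α₁, β₁, α₂, β₂, h'⟩

/-- `W` comes from an element of `R`. -/
def Pz (R : Subgroup (GL (Fin 4) F)) (h : GL (Fin 4) F) (W : M4) : Prop :=
  ∃ u ∈ R, (u : M4) * (h : M4) = (h : M4) * W

theorem Pz.mul {h : GL (Fin 4) F} {W₁ W₂ : M4} (h1 : Pz R h W₁) (h2 : Pz R h W₂) : Pz R h (W₁ * W₂) := by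
  obtain ⟨u₁, hu₁, e₁⟩ := h1
  obtain ⟨u₂, hu₂, e₂⟩ := h2
  refine ⟨u₁ * u₂, mul_mem hu₁ hu₂, ?_⟩
  rw [Units.val_mul, mul_assoc, e₂, ← mul_assoc, e₁, mul_assoc]

section frame

variable {ι : F} {h i₀ a₁ b₁ a₂ b₂ : GL (Fin 4) F} (hf : Frame R ι h i₀ a₁ b₁ a₂ b₂)
include hf

theorem Frame.pzι : Pz R h (ι • 1) := ⟨i₀, hf.hi₀, by rw [hf.hi₀v]; simp⟩
theorem Frame.pzZ1 : Pz R h (Zm1 : M4) := ⟨a₁, hf.ha₁, hf.ra₁⟩
theorem Frame.pzZ2 : Pz R h (Zm2 : M4) := ⟨a₂, hf.ha₂, hf.ra₂⟩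
theorem Frame.pzX1 : Pz R h (Xm1 : M4) := ⟨b₁, hf.hb₁, hf.rb₁⟩
theorem Frame.pzX2 : Pz R h (Xm2 : M4) := ⟨b₂, hf.hb₂, hf.rb₂⟩
theorem Frame.pzι_mul {W : M4} (hW : Pz R h W) : Pz R h (ι • W) := by
  have := (Frame.pzι hf).mul hW
  simpa using this

theorem Frame.normal (hR : Finite R) {D₀ : GL (Fin 4) F} (h1 : ∃ W, Pz R h W ∧ (D₀ : M4) * (Zm1 : M4) = W * (D₀ : M4))
    (h2 : ∃ W, Pz R h W ∧ (D₀ : M4) * (Zm2 : M4) = W * (D₀ : M4))
    (h3 : ∃ W, Pz R h W ∧ (D₀ : M4) * (Xm1 : M4) = W * (D₀ : M4))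
    (h4 : ∃ W, Pz R h W ∧ (D₀ : M4) * (Xm2 : M4) = W * (D₀ : M4)) : h * D₀ * h⁻¹ ∈ subgroupNormalizer R := by
  classical
  set D := h * D₀ * h⁻¹ with hDdef
  have hhinv : ((h⁻¹ : GL (Fin 4) F) : M4) * (h : M4) = 1 := by
    rw [← Units.val_mul]; simp
  have hhinv2 : (h : M4) * ((h⁻¹ : GL (Fin 4) F) : M4) = 1 := by
    rw [← Units.val_mul]; simp
  have key : ∀ (g : GL (Fin 4) F) (g₀ : M4), (g : M4) * (h : M4) = (h : M4) * g₀ →
      (∃ W, Pz R h W ∧ (D₀ : M4) * g₀ = W * (D₀ : M4)) → D * g * D⁻¹ ∈ R := by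
    rintro g g₀ hg ⟨W, ⟨u, hu, hW⟩, hrel⟩
    have h5 : D * g = u * D := by
      apply Units.ext
      simp only [hDdef, Units.val_mul]
      have h6 : ((h⁻¹ : GL (Fin 4) F) : M4) * (g : M4) = g₀ * ((h⁻¹ : GL (Fin 4) F) : M4) := by
        calc ((h⁻¹ : GL (Fin 4) F) : M4) * (g : M4) = ((h⁻¹ : GL (Fin 4) F) : M4) * ((g : M4) * (h : M4)) * ((h⁻¹ : GL (Fin 4) F) : M4) := by
              simp only [mul_assoc, hhinv2, mul_one]
          _ = g₀ * ((h⁻¹ : GL (Fin 4) F) : M4) := by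
              rw [hg, ← mul_assoc, hhinv, one_mul]
      calc (h : M4) * (D₀ : M4) * ((h⁻¹ : GL (Fin 4) F) : M4) * (g : M4) = (h : M4) * (D₀ : M4) * (((h⁻¹ : GL (Fin 4) F) : M4) * (g : M4)) := by
            simp only [mul_assoc]
        _ = (h : M4) * ((D₀ : M4) * g₀) * ((h⁻¹ : GL (Fin 4) F) : M4) := by
            rw [h6]; simp only [mul_assoc]
        _ = ((h : M4) * W) * ((D₀ : M4) * ((h⁻¹ : GL (Fin 4) F) : M4)) := by
            rw [hrel]; simp only [mul_assoc]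
        _ = (u : M4) * ((h : M4) * (D₀ : M4) * ((h⁻¹ : GL (Fin 4) F) : M4)) := by
            rw [← hW]; simp only [mul_assoc]
    rw [h5]
    simpa using hu
  let T : Subgroup (GL (Fin 4) F) := R.comap (MulAut.conj D).toMonoidHom
  have hTmem : ∀ g, g ∈ T ↔ D * g * D⁻¹ ∈ R := fun g => Iff.rfl
  have hi₀T : i₀ ∈ T := by
    rw [hTmem]
    have : D * i₀ * D⁻¹ = i₀ := by
      have h5 : D * i₀ = i₀ * D := by
        apply Units.ext
        simp only [Units.val_mul]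
        rw [hf.hi₀v, mul_smul_comm, smul_mul_assoc, mul_one, one_mul]
      rw [h5]
      group
    rw [this]
    exact hf.hi₀
  have ha₁T : a₁ ∈ T := key a₁ _ hf.ra₁ h1
  have ha₂T : a₂ ∈ T := key a₂ _ hf.ra₂ h2
  have hb₁T : b₁ ∈ T := key b₁ _ hf.rb₁ h3
  have hb₂T : b₂ ∈ T := key b₂ _ hf.rb₂ h4
  have hRT : ∀ u ∈ R, D * u * D⁻¹ ∈ R := by
    intro u hu
    rw [← hTmem]
    obtain ⟨k, α₁, β₁, α₂, β₂, rfl⟩ := hf.word u hu
    exact mul_mem (mul_mem (mul_mem (mul_mem (pow_mem hi₀T _) (pow_mem hb₂T _)) (pow_mem ha₂T _)) (pow_mem hb₁T _)) (pow_mem ha₁T _)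
  show D ∈ Subgroup.normalizer (R : Set (GL (Fin 4) F))
  rw [mem_normalizer_iff]
  intro u
  refine ⟨hRT u, fun hu => ?_⟩
  -- surjectivity of conjugation on the finite group `R`
  let φ : R → R := fun w => ⟨D * w * D⁻¹, hRT w w.2⟩
  have hφinj : Function.Injective φ := by
    intro w₁ w₂ he
    apply Subtype.ext
    have := congrArg Subtype.val he
    simpa [φ] using this
  haveI := hR
  obtain ⟨w, hw⟩ := (Finite.injective_iff_surjective.1 hφinj) ⟨D * u * D⁻¹, hu⟩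
  have h7 : D * (w : GL (Fin 4) F) * D⁻¹ = D * u * D⁻¹ := congrArg Subtype.val hw
  have h8 : (w : GL (Fin 4) F) = u := by simpa using h7
  rw [← h8]
  exact w.2

/-- A matrix commuting with all Paulis is a scalar. -/
theorem Frame.comm (hD : SymData R) (G : M4) (h1 : G * (Zm1 : M4) = (Zm1 : M4) * G) (h2 : G * (Zm2 : M4) = (Zm2 : M4) * G)
    (h3 : G * (Xm1 : M4) = (Xm1 : M4) * G) (h4 : G * (Xm2 : M4) = (Xm2 : M4) * G) : ∃ c : F, G = c • 1 := by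
  have hhinv : ((h⁻¹ : GL (Fin 4) F) : M4) * (h : M4) = 1 := by
    rw [← Units.val_mul]; simp
  have hhinv2 : (h : M4) * ((h⁻¹ : GL (Fin 4) F) : M4) = 1 := by
    rw [← Units.val_mul]; simp
  set A : M4 := (h : M4) * G * ((h⁻¹ : GL (Fin 4) F) : M4) with hA
  have key : ∀ (g : GL (Fin 4) F) (g₀ : M4), (g : M4) * (h : M4) = (h : M4) * g₀ → G * g₀ = g₀ * G →
      Commute A (g : M4) := by
    intro g g₀ hg hG
    have h6 : ((h⁻¹ : GL (Fin 4) F) : M4) * (g : M4) = g₀ * ((h⁻¹ : GL (Fin 4) F) : M4) := by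
      calc ((h⁻¹ : GL (Fin 4) F) : M4) * (g : M4) = ((h⁻¹ : GL (Fin 4) F) : M4) * ((g : M4) * (h : M4)) * ((h⁻¹ : GL (Fin 4) F) : M4) := by
            simp only [mul_assoc, hhinv2, mul_one]
        _ = g₀ * ((h⁻¹ : GL (Fin 4) F) : M4) := by
            rw [hg, ← mul_assoc, hhinv, one_mul]
    show A * (g : M4) = (g : M4) * A
    rw [hA]
    calc (h : M4) * G * ((h⁻¹ : GL (Fin 4) F) : M4) * (g : M4) = (h : M4) * G * (((h⁻¹ : GL (Fin 4) F) : M4) * (g : M4)) := by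
          simp only [mul_assoc]
      _ = (h : M4) * (G * g₀) * ((h⁻¹ : GL (Fin 4) F) : M4) := by rw [h6]; simp only [mul_assoc]
      _ = ((h : M4) * g₀) * G * ((h⁻¹ : GL (Fin 4) F) : M4) := by rw [hG]; simp only [mul_assoc]
      _ = (g : M4) * ((h : M4) * G * ((h⁻¹ : GL (Fin 4) F) : M4)) := by rw [← hg]; simp only [mul_assoc]
  obtain ⟨c, hc⟩ := hD.comm_scal A (by
    intro u hu
    obtain ⟨k, α₁, β₁, α₂, β₂, rfl⟩ := hf.word u hu
    have hi : Commute A (i₀ : M4) := by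
      show A * (i₀ : M4) = (i₀ : M4) * A
      rw [hf.hi₀v, mul_smul_comm, smul_mul_assoc, mul_one, one_mul]
    have ha₁ := key a₁ _ hf.ra₁ h1
    have ha₂ := key a₂ _ hf.ra₂ h2
    have hb₁ := key b₁ _ hf.rb₁ h3
    have hb₂ := key b₂ _ hf.rb₂ h4
    have := ((((hi.pow_right k).mul_right (hb₂.pow_right β₂)).mul_right (ha₂.pow_right α₂)).mul_right (hb₁.pow_right β₁)).mul_right (ha₁.pow_right α₁)
    simp only [Units.val_mul, Units.val_pow_eq_pow_val]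
    exact this.eq)
  refine ⟨c, ?_⟩
  calc G = ((h⁻¹ : GL (Fin 4) F) : M4) * A * (h : M4) := by
        rw [hA]
        simp only [mul_assoc, hhinv, mul_one]
        rw [← mul_assoc, hhinv, one_mul]
    _ = c • 1 := by
        rw [hc, mul_smul_comm, smul_mul_assoc, mul_one, hhinv]

end frame

end Cfsg.Agent.Lib.SymType64NF
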