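import Mathlib
import Cfsg.Agent.Lib.SymType64NF

/-!
# Explicit Clifford elements: `CZ`, `A ⊗ 1`, `A ⊗ A`, and an element of order five.
-/

set_option autoImplicit false
set_option linter.unusedVariables false
set_option linter.unreachableTactic false
set_option linter.unusedTactic false
set_option linter.unusedSimpArgs false
set_option linter.unnecessarySimpa false
set_option maxHeartbeats 1000000

namespace Cfsg.Agent.Lib.SymType64Model

open Subgroup Cfsg.Geo Cfsg.Agent.Lib.SymType64M Cfsg.Agent.Lib.SymType64Neg Cfsg.Agent.Lib.SymType64NF Matrix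
open scoped MatrixGroups

variable {F : Type*} [Field F] {R : Subgroup (GL (Fin 4) F)}

local notation "M4" => Matrix (Fin 4) (Fin 4) F

/-- Controlled `Z`. -/
def CZm : Matrix (Fin 4) (Fin 4) F := !![1,0,0,0;0,1,0,0;0,0,1,0;0,0,0,-1]
/-- Twice `A ⊗ 1`, `A` of order three. -/
def AIp (ι : F) : Matrix (Fin 4) (Fin 4) F := !![-1+ι,0,1+ι,0; 0,-1+ι,0,1+ι; -1+ι,0,-1-ι,0; 0,-1+ι,0,-1-ι]
/-- Twice `A ⊗ A`. -/
def AAp (ι : F) : Matrix (Fin 4) (Fin 4) F := !![-ι,-1,-1,ι; -ι,1,-1,-ι; -ι,-1,1,-ι; -ι,1,1,ι]
/-- Twice an element of order five. -/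
def D5p (ι : F) : Matrix (Fin 4) (Fin 4) F := !![-ι,-ι,1,1; -ι,ι,1,-1; -ι,-ι,-1,-1; ι,-ι,1,-1]

theorem rel_CZ_Zm1 (ι : F) (hι : ι * ι = -1) : (CZm : M4) * (Zm1 : M4) = ((Zm1) : M4) * (CZm : M4) := by
  have hι2 : ι ^ 2 = -1 := by rw [pow_two, hι]
  have hι3 : ι ^ 3 = -ι := by rw [pow_succ, hι2]; ring
  have hι4 : ι ^ 4 = 1 := by rw [show ι ^ 4 = ι ^ 2 * ι ^ 2 by ring, hι2]; ring
  ext i j
  fin_cases i <;> fin_cases j <;> simp [Zm1, Zm2, Xm1, Xm2, CZm, AIp, AAp, D5p, Matrix.mul_apply, Fin.sum_univ_four, Matrix.smul_apply, Matrix.one_apply, Matrix.transpose_apply] <;> first | ring1 | (ring_nf; simp only [hι2, hι3, hι4]; ring1) | (ring_nf; simp only [hι2, hι3, hι4]; done) | linear_combination hι | linear_combination -hι | linear_combination 2 * hι | linear_combination -2 * hι | linear_combination 3 * hι | linear_combination -3 * hι | linear_combination 4 * hι | linear_combination -4 * hι | linear_combination ι * hι | linear_combination -ι * hι | linear_combination (ι + 1) * hι | linear_combination (ι - 1) * hι | linear_combination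 (-ι + 1) * hι | linear_combination (-ι - 1) * hι | linear_combination 2 * ι * hι | linear_combination -2 * ι * hι | linear_combination (2 * ι + 2) * hι | linear_combination (2 * ι - 2) * hι | linear_combination (-2 * ι + 2) * hι | linear_combination (-2 * ι - 2) * hι | linear_combination (ι * ι) * hι | linear_combination (-(ι * ι)) * hι

theorem rel_CZ_Zm2 (ι : F) (hι : ι * ι = -1) : (CZm : M4) * (Zm2 : M4) = ((Zm2) : M4) * (CZm : M4) := by
  have hι2 : ι ^ 2 = -1 := by rw [pow_two, hι]
  have hι3 : ι ^ 3 = -ι := by rw [pow_succ, hι2]; ring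
  have hι4 : ι ^ 4 = 1 := by rw [show ι ^ 4 = ι ^ 2 * ι ^ 2 by ring, hι2]; ring
  ext i j
  fin_cases i <;> fin_cases j <;> simp [Zm1, Zm2, Xm1, Xm2, CZm, AIp, AAp, D5p, Matrix.mul_apply, Fin.sum_univ_four, Matrix.smul_apply, Matrix.one_apply, Matrix.transpose_apply] <;> first | ring1 | (ring_nf; simp only [hι2, hι3, hι4]; ring1) | (ring_nf; simp only [hι2, hι3, hι4]; done) | linear_combination hι | linear_combination -hι | linear_combination 2 * hι | linear_combination -2 * hι | linear_combination 3 * hι | linear_combination -3 * hι | linear_combination 4 * hι | linear_combination -4 * hι | linear_combination ι * hι | linear_combination -ι * hι | linear_combination (ι + 1) * hι | linear_combination (ι - 1) * hι | linear_combination (-ι + 1) * hι | linear_combination (-ι - 1) * hι | linear_combination 2 * ι * hι | linear_combination -2 * ι * hι | linear_combination (2 * ι + 2) * hι | linear_combination (2 * ι - 2) * hι | linear_combination (-2 * ι + 2) * hι | linear_combination (-2 * ι - 2) * hι | linear_combination (ι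 * ι) * hι | linear_combination (-(ι * ι)) * hι

theorem rel_CZ_Xm1 (ι : F) (hι : ι * ι = -1) : (CZm : M4) * (Xm1 : M4) = ((Zm2 * Xm1) : M4) * (CZm : M4) := by
  have hι2 : ι ^ 2 = -1 := by rw [pow_two, hι]
  have hι3 : ι ^ 3 = -ι := by rw [pow_succ, hι2]; ring
  have hι4 : ι ^ 4 = 1 := by rw [show ι ^ 4 = ι ^ 2 * ι ^ 2 by ring, hι2]; ring
  ext i j
  fin_cases i <;> fin_cases j <;> simp [Zm1, Zm2, Xm1, Xm2, CZm, AIp, AAp, D5p, Matrix.mul_apply, Fin.sum_univ_four, Matrix.smul_apply, Matrix.one_apply, Matrix.transpose_apply] <;> first | ring1 | (ring_nf; simp only [hι2, hι3, hι4]; ring1) | (ring_nf; simp only [hι2, hι3, hι4]; done) | linear_combination hι | linear_combination -hι | linear_combination 2 * hι | linear_combination -2 * hι | linear_combination 3 * hι | linear_combination -3 * hι | linear_combination 4 * hι | linear_combination -4 * hι | linear_combination ι * hι | linear_combination -ι * hι | linear_combination (ι + 1) * hι | linear_combination (ι - 1) * hι | linear_combination (-ι + 1) * hι | linear_combination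 (-ι - 1) * hι | linear_combination 2 * ι * hι | linear_combination -2 * ι * hι | linear_combination (2 * ι + 2) * hι | linear_combination (2 * ι - 2) * hι | linear_combination (-2 * ι + 2) * hι | linear_combination (-2 * ι - 2) * hι | linear_combination (ι * ι) * hι | linear_combination (-(ι * ι)) * hι

theorem rel_CZ_Xm2 (ι : F) (hι : ι * ι = -1) : (CZm : M4) * (Xm2 : M4) = ((Xm2 * Zm1) : M4) * (CZm : M4) := by
  have hι2 : ι ^ 2 = -1 := by rw [pow_two, hι]
  have hι3 : ι ^ 3 = -ι := by rw [pow_succ, hι2]; ring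
  have hι4 : ι ^ 4 = 1 := by rw [show ι ^ 4 = ι ^ 2 * ι ^ 2 by ring, hι2]; ring
  ext i j
  fin_cases i <;> fin_cases j <;> simp [Zm1, Zm2, Xm1, Xm2, CZm, AIp, AAp, D5p, Matrix.mul_apply, Fin.sum_univ_four, Matrix.smul_apply, Matrix.one_apply, Matrix.transpose_apply] <;> first | ring1 | (ring_nf; simp only [hι2, hι3, hι4]; ring1) | (ring_nf; simp only [hι2, hι3, hι4]; done) | linear_combination hι | linear_combination -hι | linear_combination 2 * hι | linear_combination -2 * hι | linear_combination 3 * hι | linear_combination -3 * hι | linear_combination 4 * hι | linear_combination -4 * hι | linear_combination ι * hι | linear_combination -ι * hι | linear_combination (ι + 1) * hι | linear_combination (ι - 1) * hι | linear_combination (-ι + 1) * hι | linear_combination (-ι - 1) * hι | linear_combination 2 * ι * hι | linear_combination -2 * ι * hι | linear_combination (2 * ι + 2) * hι | linear_combination (2 * ι - 2) * hι | linear_combination (-2 * ι + 2) * hι | linear_combination (-2 * ι - 2) * hι | linear_combination (ι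 * ι) * hι | linear_combination (-(ι * ι)) * hι

theorem rel_AI_Zm1 (ι : F) (hι : ι * ι = -1) : (AIp ι : M4) * (Zm1 : M4) = ((Xm1) : M4) * (AIp ι : M4) := by
  have hι2 : ι ^ 2 = -1 := by rw [pow_two, hι]
  have hι3 : ι ^ 3 = -ι := by rw [pow_succ, hι2]; ring
  have hι4 : ι ^ 4 = 1 := by rw [show ι ^ 4 = ι ^ 2 * ι ^ 2 by ring, hι2]; ring
  ext i j
  fin_cases i <;> fin_cases j <;> simp [Zm1, Zm2, Xm1, Xm2, CZm, AIp, AAp, D5p, Matrix.mul_apply, Fin.sum_univ_four, Matrix.smul_apply, Matrix.one_apply, Matrix.transpose_apply] <;> first | ring1 | (ring_nf; simp only [hι2, hι3, hι4]; ring1) | (ring_nf; simp only [hι2, hι3, hι4]; done) | linear_combination hι | linear_combination -hι | linear_combination 2 * hι | linear_combination -2 * hι | linear_combination 3 * hι | linear_combination -3 * hι | linear_combination 4 * hι | linear_combination -4 * hι | linear_combination ι * hι | linear_combination -ι * hι | linear_combination (ι + 1) * hι | linear_combination (ι - 1) * hι | linear_combination (-ι + 1) * hι | linear_combination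 (-ι - 1) * hι | linear_combination 2 * ι * hι | linear_combination -2 * ι * hι | linear_combination (2 * ι + 2) * hι | linear_combination (2 * ι - 2) * hι | linear_combination (-2 * ι + 2) * hι | linear_combination (-2 * ι - 2) * hι | linear_combination (ι * ι) * hι | linear_combination (-(ι * ι)) * hι

theorem rel_AI_Zm2 (ι : F) (hι : ι * ι = -1) : (AIp ι : M4) * (Zm2 : M4) = ((Zm2) : M4) * (AIp ι : M4) := by
  have hι2 : ι ^ 2 = -1 := by rw [pow_two, hι]
  have hι3 : ι ^ 3 = -ι := by rw [pow_succ, hι2]; ring
  have hι4 : ι ^ 4 = 1 := by rw [show ι ^ 4 = ι ^ 2 * ι ^ 2 by ring, hι2]; ring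
  ext i j
  fin_cases i <;> fin_cases j <;> simp [Zm1, Zm2, Xm1, Xm2, CZm, AIp, AAp, D5p, Matrix.mul_apply, Fin.sum_univ_four, Matrix.smul_apply, Matrix.one_apply, Matrix.transpose_apply] <;> first | ring1 | (ring_nf; simp only [hι2, hι3, hι4]; ring1) | (ring_nf; simp only [hι2, hι3, hι4]; done) | linear_combination hι | linear_combination -hι | linear_combination 2 * hι | linear_combination -2 * hι | linear_combination 3 * hι | linear_combination -3 * hι | linear_combination 4 * hι | linear_combination -4 * hι | linear_combination ι * hι | linear_combination -ι * hι | linear_combination (ι + 1) * hι | linear_combination (ι - 1) * hι | linear_combination (-ι + 1) * hι | linear_combination (-ι - 1) * hι | linear_combination 2 * ι * hι | linear_combination -2 * ι * hι | linear_combination (2 * ι + 2) * hι | linear_combination (2 * ι - 2) * hι | linear_combination (-2 * ι + 2) * hι | linear_combination (-2 * ι - 2) * hι | linear_combination (ι * ι) * hι | linear_combination (-(ι * ι)) * hι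

theorem rel_AI_Xm1 (ι : F) (hι : ι * ι = -1) : (AIp ι : M4) * (Xm1 : M4) = ((ι • (Xm1 * Zm1)) : M4) * (AIp ι : M4) := by
  have hι2 : ι ^ 2 = -1 := by rw [pow_two, hι]
  have hι3 : ι ^ 3 = -ι := by rw [pow_succ, hι2]; ring
  have hι4 : ι ^ 4 = 1 := by rw [show ι ^ 4 = ι ^ 2 * ι ^ 2 by ring, hι2]; ring
  ext i j
  fin_cases i <;> fin_cases j <;> simp [Zm1, Zm2, Xm1, Xm2, CZm, AIp, AAp, D5p, Matrix.mul_apply, Fin.sum_univ_four, Matrix.smul_apply, Matrix.one_apply, Matrix.transpose_apply] <;> first | ring1 | (ring_nf; simp only [hι2, hι3, hι4]; ring1) | (ring_nf; simp only [hι2, hι3, hι4]; done) | linear_combination hι | linear_combination -hι | linear_combination 2 * hι | linear_combination -2 * hι | linear_combination 3 * hι | linear_combination -3 * hι | linear_combination 4 * hι | linear_combination -4 * hι | linear_combination ι * hι | linear_combination -ι * hι | linear_combination (ι + 1) * hι | linear_combination (ι - 1) * hι | linear_combination (-ι + 1) * hι | linear_combination (-ι - 1) * hι | linear_combination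 2 * ι * hι | linear_combination -2 * ι * hι | linear_combination (2 * ι + 2) * hι | linear_combination (2 * ι - 2) * hι | linear_combination (-2 * ι + 2) * hι | linear_combination (-2 * ι - 2) * hι | linear_combination (ι * ι) * hι | linear_combination (-(ι * ι)) * hι

theorem rel_AI_Xm2 (ι : F) (hι : ι * ι = -1) : (AIp ι : M4) * (Xm2 : M4) = ((Xm2) : M4) * (AIp ι : M4) := by
  have hι2 : ι ^ 2 = -1 := by rw [pow_two, hι]
  have hι3 : ι ^ 3 = -ι := by rw [pow_succ, hι2]; ring
  have hι4 : ι ^ 4 = 1 := by rw [show ι ^ 4 = ι ^ 2 * ι ^ 2 by ring, hι2]; ring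
  ext i j
  fin_cases i <;> fin_cases j <;> simp [Zm1, Zm2, Xm1, Xm2, CZm, AIp, AAp, D5p, Matrix.mul_apply, Fin.sum_univ_four, Matrix.smul_apply, Matrix.one_apply, Matrix.transpose_apply] <;> first | ring1 | (ring_nf; simp only [hι2, hι3, hι4]; ring1) | (ring_nf; simp only [hι2, hι3, hι4]; done) | linear_combination hι | linear_combination -hι | linear_combination 2 * hι | linear_combination -2 * hι | linear_combination 3 * hι | linear_combination -3 * hι | linear_combination 4 * hι | linear_combination -4 * hι | linear_combination ι * hι | linear_combination -ι * hι | linear_combination (ι + 1) * hι | linear_combination (ι - 1) * hι | linear_combination (-ι + 1) * hι | linear_combination (-ι - 1) * hι | linear_combination 2 * ι * hι | linear_combination -2 * ι * hι | linear_combination (2 * ι + 2) * hι | linear_combination (2 * ι - 2) * hι | linear_combination (-2 * ι + 2) * hι | linear_combination (-2 * ι - 2) * hι | linear_combination (ι * ι) * hι | linear_combination (-(ι * ι)) * hι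

theorem rel_AA_Zm1 (ι : F) (hι : ι * ι = -1) : (AAp ι : M4) * (Zm1 : M4) = ((Xm1) : M4) * (AAp ι : M4) := by
  have hι2 : ι ^ 2 = -1 := by rw [pow_two, hι]
  have hι3 : ι ^ 3 = -ι := by rw [pow_succ, hι2]; ring
  have hι4 : ι ^ 4 = 1 := by rw [show ι ^ 4 = ι ^ 2 * ι ^ 2 by ring, hι2]; ring
  ext i j
  fin_cases i <;> fin_cases j <;> simp [Zm1, Zm2, Xm1, Xm2, CZm, AIp, AAp, D5p, Matrix.mul_apply, Fin.sum_univ_four, Matrix.smul_apply, Matrix.one_apply, Matrix.transpose_apply] <;> first | ring1 | (ring_nf; simp only [hι2, hι3, hι4]; ring1) | (ring_nf; simp only [hι2, hι3, hι4]; done) | linear_combination hι | linear_combination -hι | linear_combination 2 * hι | linear_combination -2 * hι | linear_combination 3 * hι | linear_combination -3 * hι | linear_combination 4 * hι | linear_combination -4 * hι | linear_combination ι * hι | linear_combination -ι * hι | linear_combination (ι + 1) * hι | linear_combination (ι - 1) * hι | linear_combination (-ι + 1) * hι | linear_combination (-ι - 1) * hι | linear_combination 2 * ι * hι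 | linear_combination -2 * ι * hι | linear_combination (2 * ι + 2) * hι | linear_combination (2 * ι - 2) * hι | linear_combination (-2 * ι + 2) * hι | linear_combination (-2 * ι - 2) * hι | linear_combination (ι * ι) * hι | linear_combination (-(ι * ι)) * hι

theorem rel_AA_Zm2 (ι : F) (hι : ι * ι = -1) : (AAp ι : M4) * (Zm2 : M4) = ((Xm2) : M4) * (AAp ι : M4) := by
  have hι2 : ι ^ 2 = -1 := by rw [pow_two, hι]
  have hι3 : ι ^ 3 = -ι := by rw [pow_succ, hι2]; ring
  have hι4 : ι ^ 4 = 1 := by rw [show ι ^ 4 = ι ^ 2 * ι ^ 2 by ring, hι2]; ring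
  ext i j
  fin_cases i <;> fin_cases j <;> simp [Zm1, Zm2, Xm1, Xm2, CZm, AIp, AAp, D5p, Matrix.mul_apply, Fin.sum_univ_four, Matrix.smul_apply, Matrix.one_apply, Matrix.transpose_apply] <;> first | ring1 | (ring_nf; simp only [hι2, hι3, hι4]; ring1) | (ring_nf; simp only [hι2, hι3, hι4]; done) | linear_combination hι | linear_combination -hι | linear_combination 2 * hι | linear_combination -2 * hι | linear_combination 3 * hι | linear_combination -3 * hι | linear_combination 4 * hι | linear_combination -4 * hι | linear_combination ι * hι | linear_combination -ι * hι | linear_combination (ι + 1) * hι | linear_combination (ι - 1) * hι | linear_combination (-ι + 1) * hι | linear_combination (-ι - 1) * hι | linear_combination 2 * ι * hι | linear_combination -2 * ι * hι | linear_combination (2 * ι + 2) * hι | linear_combination (2 * ι - 2) * hι | linear_combination (-2 * ι + 2) * hι | linear_combination (-2 * ι - 2) * hι | linear_combination (ι * ι) * hι | linear_combination (-(ι * ι)) * hι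

theorem rel_AA_Xm1 (ι : F) (hι : ι * ι = -1) : (AAp ι : M4) * (Xm1 : M4) = ((ι • (Xm1 * Zm1)) : M4) * (AAp ι : M4) := by
  have hι2 : ι ^ 2 = -1 := by rw [pow_two, hι]
  have hι3 : ι ^ 3 = -ι := by rw [pow_succ, hι2]; ring
  have hι4 : ι ^ 4 = 1 := by rw [show ι ^ 4 = ι ^ 2 * ι ^ 2 by ring, hι2]; ring
  ext i j
  fin_cases i <;> fin_cases j <;> simp [Zm1, Zm2, Xm1, Xm2, CZm, AIp, AAp, D5p, Matrix.mul_apply, Fin.sum_univ_four, Matrix.smul_apply, Matrix.one_apply, Matrix.transpose_apply] <;> first | ring1 | (ring_nf; simp only [hι2, hι3, hι4]; ring1) | (ring_nf; simp only [hι2, hι3, hι4]; done) | linear_combination hι | linear_combination -hι | linear_combination 2 * hι | linear_combination -2 * hι | linear_combination 3 * hι | linear_combination -3 * hι | linear_combination 4 * hι | linear_combination -4 * hι | linear_combination ι * hι | linear_combination -ι * hι | linear_combination (ι + 1) * hι | linear_combination (ι - 1) * hι | linear_combination (-ι + 1) * hι | linear_combination (-ι - 1) * hι | linear_combination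 2 * ι * hι | linear_combination -2 * ι * hι | linear_combination (2 * ι + 2) * hι | linear_combination (2 * ι - 2) * hι | linear_combination (-2 * ι + 2) * hι | linear_combination (-2 * ι - 2) * hι | linear_combination (ι * ι) * hι | linear_combination (-(ι * ι)) * hι

theorem rel_AA_Xm2 (ι : F) (hι : ι * ι = -1) : (AAp ι : M4) * (Xm2 : M4) = ((ι • (Xm2 * Zm2)) : M4) * (AAp ι : M4) := by
  have hι2 : ι ^ 2 = -1 := by rw [pow_two, hι]
  have hι3 : ι ^ 3 = -ι := by rw [pow_succ, hι2]; ring
  have hι4 : ι ^ 4 = 1 := by rw [show ι ^ 4 = ι ^ 2 * ι ^ 2 by ring, hι2]; ring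
  ext i j
  fin_cases i <;> fin_cases j <;> simp [Zm1, Zm2, Xm1, Xm2, CZm, AIp, AAp, D5p, Matrix.mul_apply, Fin.sum_univ_four, Matrix.smul_apply, Matrix.one_apply, Matrix.transpose_apply] <;> first | ring1 | (ring_nf; simp only [hι2, hι3, hι4]; ring1) | (ring_nf; simp only [hι2, hι3, hι4]; done) | linear_combination hι | linear_combination -hι | linear_combination 2 * hι | linear_combination -2 * hι | linear_combination 3 * hι | linear_combination -3 * hι | linear_combination 4 * hι | linear_combination -4 * hι | linear_combination ι * hι | linear_combination -ι * hι | linear_combination (ι + 1) * hι | linear_combination (ι - 1) * hι | linear_combination (-ι + 1) * hι | linear_combination (-ι - 1) * hι | linear_combination 2 * ι * hι | linear_combination -2 * ι * hι | linear_combination (2 * ι + 2) * hι | linear_combination (2 * ι - 2) * hι | linear_combination (-2 * ι + 2) * hι | linear_combination (-2 * ι - 2) * hι | linear_combination (ι * ι) * hι | linear_combination (-(ι * ι)) * hι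

theorem rel_D5_Zm1 (ι : F) (hι : ι * ι = -1) : (D5p ι : M4) * (Zm1 : M4) = ((Zm2 * Xm1) : M4) * (D5p ι : M4) := by
  have hι2 : ι ^ 2 = -1 := by rw [pow_two, hι]
  have hι3 : ι ^ 3 = -ι := by rw [pow_succ, hι2]; ring
  have hι4 : ι ^ 4 = 1 := by rw [show ι ^ 4 = ι ^ 2 * ι ^ 2 by ring, hι2]; ring
  ext i j
  fin_cases i <;> fin_cases j <;> simp [Zm1, Zm2, Xm1, Xm2, CZm, AIp, AAp, D5p, Matrix.mul_apply, Fin.sum_univ_four, Matrix.smul_apply, Matrix.one_apply, Matrix.transpose_apply] <;> first | ring1 | (ring_nf; simp only [hι2, hι3, hι4]; ring1) | (ring_nf; simp only [hι2, hι3, hι4]; done) | linear_combination hι | linear_combination -hι | linear_combination 2 * hι | linear_combination -2 * hι | linear_combination 3 * hι | linear_combination -3 * hι | linear_combination 4 * hι | linear_combination -4 * hι | linear_combination ι * hι | linear_combination -ι * hι | linear_combination (ι + 1) * hι | linear_combination (ι - 1) * hι | linear_combination (-ι + 1) * hι | linear_combination (-ι - 1) * hι | linear_combination 2 *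 ι * hι | linear_combination -2 * ι * hι | linear_combination (2 * ι + 2) * hι | linear_combination (2 * ι - 2) * hι | linear_combination (-2 * ι + 2) * hι | linear_combination (-2 * ι - 2) * hι | linear_combination (ι * ι) * hι | linear_combination (-(ι * ι)) * hι

theorem rel_D5_Zm2 (ι : F) (hι : ι * ι = -1) : (D5p ι : M4) * (Zm2 : M4) = ((Xm2 * Zm1) : M4) * (D5p ι : M4) := by
  have hι2 : ι ^ 2 = -1 := by rw [pow_two, hι]
  have hι3 : ι ^ 3 = -ι := by rw [pow_succ, hι2]; ring
  have hι4 : ι ^ 4 = 1 := by rw [show ι ^ 4 = ι ^ 2 * ι ^ 2 by ring, hι2]; ring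
  ext i j
  fin_cases i <;> fin_cases j <;> simp [Zm1, Zm2, Xm1, Xm2, CZm, AIp, AAp, D5p, Matrix.mul_apply, Fin.sum_univ_four, Matrix.smul_apply, Matrix.one_apply, Matrix.transpose_apply] <;> first | ring1 | (ring_nf; simp only [hι2, hι3, hι4]; ring1) | (ring_nf; simp only [hι2, hι3, hι4]; done) | linear_combination hι | linear_combination -hι | linear_combination 2 * hι | linear_combination -2 * hι | linear_combination 3 * hι | linear_combination -3 * hι | linear_combination 4 * hι | linear_combination -4 * hι | linear_combination ι * hι | linear_combination -ι * hι | linear_combination (ι + 1) * hι | linear_combination (ι - 1) * hι | linear_combination (-ι + 1) * hι | linear_combination (-ι - 1) * hι | linear_combination 2 * ι * hι | linear_combination -2 * ι * hι | linear_combination (2 * ι + 2) * hι | linear_combination (2 * ι - 2) * hι | linear_combination (-2 * ι + 2) * hι | linear_combination (-2 * ι - 2) * hι | linear_combination (ι * ι) * hι | linear_combination (-(ι * ι)) * hι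

theorem rel_D5_Xm1 (ι : F) (hι : ι * ι = -1) : (D5p ι : M4) * (Xm1 : M4) = (((-ι) • (Zm2 * Xm1 * Zm1)) : M4) * (D5p ι : M4) := by
  have hι2 : ι ^ 2 = -1 := by rw [pow_two, hι]
  have hι3 : ι ^ 3 = -ι := by rw [pow_succ, hι2]; ring
  have hι4 : ι ^ 4 = 1 := by rw [show ι ^ 4 = ι ^ 2 * ι ^ 2 by ring, hι2]; ring
  ext i j
  fin_cases i <;> fin_cases j <;> simp [Zm1, Zm2, Xm1, Xm2, CZm, AIp, AAp, D5p, Matrix.mul_apply, Fin.sum_univ_four, Matrix.smul_apply, Matrix.one_apply, Matrix.transpose_apply] <;> first | ring1 | (ring_nf; simp only [hι2, hι3, hι4]; ring1) | (ring_nf; simp only [hι2, hι3, hι4]; done) | linear_combination hι | linear_combination -hι | linear_combination 2 * hι | linear_combination -2 * hι | linear_combination 3 * hι | linear_combination -3 * hι | linear_combination 4 * hι | linear_combination -4 * hι | linear_combination ι * hι | linear_combination -ι * hι | linear_combination (ι + 1) * hι | linear_combination (ι - 1) * hι | linear_combination (-ι + 1) * hι | linear_combination (-ι - 1) * hι | linear_combination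 2 * ι * hι | linear_combination -2 * ι * hι | linear_combination (2 * ι + 2) * hι | linear_combination (2 * ι - 2) * hι | linear_combination (-2 * ι + 2) * hι | linear_combination (-2 * ι - 2) * hι | linear_combination (ι * ι) * hι | linear_combination (-(ι * ι)) * hι

theorem rel_D5_Xm2 (ι : F) (hι : ι * ι = -1) : (D5p ι : M4) * (Xm2 : M4) = ((Zm2) : M4) * (D5p ι : M4) := by
  have hι2 : ι ^ 2 = -1 := by rw [pow_two, hι]
  have hι3 : ι ^ 3 = -ι := by rw [pow_succ, hι2]; ring
  have hι4 : ι ^ 4 = 1 := by rw [show ι ^ 4 = ι ^ 2 * ι ^ 2 by ring, hι2]; ring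
  ext i j
  fin_cases i <;> fin_cases j <;> simp [Zm1, Zm2, Xm1, Xm2, CZm, AIp, AAp, D5p, Matrix.mul_apply, Fin.sum_univ_four, Matrix.smul_apply, Matrix.one_apply, Matrix.transpose_apply] <;> first | ring1 | (ring_nf; simp only [hι2, hι3, hι4]; ring1) | (ring_nf; simp only [hι2, hι3, hι4]; done) | linear_combination hι | linear_combination -hι | linear_combination 2 * hι | linear_combination -2 * hι | linear_combination 3 * hι | linear_combination -3 * hι | linear_combination 4 * hι | linear_combination -4 * hι | linear_combination ι * hι | linear_combination -ι * hι | linear_combination (ι + 1) * hι | linear_combination (ι - 1) * hι | linear_combination (-ι + 1) * hι | linear_combination (-ι - 1) * hι | linear_combination 2 * ι * hι | linear_combination -2 * ι * hι | linear_combination (2 * ι + 2) * hι | linear_combination (2 * ι - 2) * hι | linear_combination (-2 * ι + 2) * hι | linear_combination (-2 * ι - 2) * hι | linear_combination (ι * ι) * hι | linear_combination (-(ι * ι)) * hι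

theorem adj_AI (ι : F) (hι : ι * ι = -1) : (AIp ι : M4) * (AIp (-ι))ᵀ = (4 : F) • 1 := by
  have hι2 : ι ^ 2 = -1 := by rw [pow_two, hι]
  have hι3 : ι ^ 3 = -ι := by rw [pow_succ, hι2]; ring
  have hι4 : ι ^ 4 = 1 := by rw [show ι ^ 4 = ι ^ 2 * ι ^ 2 by ring, hι2]; ring
  ext i j
  fin_cases i <;> fin_cases j <;> simp [Zm1, Zm2, Xm1, Xm2, CZm, AIp, AAp, D5p, Matrix.mul_apply, Fin.sum_univ_four, Matrix.smul_apply, Matrix.one_apply, Matrix.transpose_apply] <;> first | ring1 | (ring_nf; simp only [hι2, hι3, hι4]; ring1) | (ring_nf; simp only [hι2, hι3, hι4]; done) | linear_combination hι | linear_combination -hι | linear_combination 2 * hι | linear_combination -2 * hι | linear_combination 3 * hι | linear_combination -3 * hι | linear_combination 4 * hι | linear_combination -4 * hι | linear_combination ι * hι | linear_combination -ι * hι | linear_combination (ι + 1) * hι | linear_combination (ι - 1) * hι | linear_combination (-ι + 1) * hι | linear_combination (-ι - 1) * hι | linear_combination 2 * ι * hι | linear_combination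 -2 * ι * hι | linear_combination (2 * ι + 2) * hι | linear_combination (2 * ι - 2) * hι | linear_combination (-2 * ι + 2) * hι | linear_combination (-2 * ι - 2) * hι | linear_combination (ι * ι) * hι | linear_combination (-(ι * ι)) * hι

theorem adj_AI' (ι : F) (hι : ι * ι = -1) : (AIp (-ι))ᵀ * (AIp ι : M4) = (4 : F) • 1 := by
  have hι2 : ι ^ 2 = -1 := by rw [pow_two, hι]
  have hι3 : ι ^ 3 = -ι := by rw [pow_succ, hι2]; ring
  have hι4 : ι ^ 4 = 1 := by rw [show ι ^ 4 = ι ^ 2 * ι ^ 2 by ring, hι2]; ring
  ext i j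
  fin_cases i <;> fin_cases j <;> simp [Zm1, Zm2, Xm1, Xm2, CZm, AIp, AAp, D5p, Matrix.mul_apply, Fin.sum_univ_four, Matrix.smul_apply, Matrix.one_apply, Matrix.transpose_apply] <;> first | ring1 | (ring_nf; simp only [hι2, hι3, hι4]; ring1) | (ring_nf; simp only [hι2, hι3, hι4]; done) | linear_combination hι | linear_combination -hι | linear_combination 2 * hι | linear_combination -2 * hι | linear_combination 3 * hι | linear_combination -3 * hι | linear_combination 4 * hι | linear_combination -4 * hι | linear_combination ι * hι | linear_combination -ι * hι | linear_combination (ι + 1) * hι | linear_combination (ι - 1) * hι | linear_combination (-ι + 1) * hι | linear_combination (-ι - 1) * hι | linear_combination 2 * ι * hι | linear_combination -2 * ι * hι | linear_combination (2 * ι + 2) * hι | linear_combination (2 * ι - 2) * hι | linear_combination (-2 * ι + 2) * hι | linear_combination (-2 * ι - 2) * hι | linear_combination (ι * ι) * hι | linear_combination (-(ι * ι)) * hι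

theorem adj_AA (ι : F) (hι : ι * ι = -1) : (AAp ι : M4) * (AAp (-ι))ᵀ = (4 : F) • 1 := by
  have hι2 : ι ^ 2 = -1 := by rw [pow_two, hι]
  have hι3 : ι ^ 3 = -ι := by rw [pow_succ, hι2]; ring
  have hι4 : ι ^ 4 = 1 := by rw [show ι ^ 4 = ι ^ 2 * ι ^ 2 by ring, hι2]; ring
  ext i j
  fin_cases i <;> fin_cases j <;> simp [Zm1, Zm2, Xm1, Xm2, CZm, AIp, AAp, D5p, Matrix.mul_apply, Fin.sum_univ_four, Matrix.smul_apply, Matrix.one_apply, Matrix.transpose_apply] <;> first | ring1 | (ring_nf; simp only [hι2, hι3, hι4]; ring1) | (ring_nf; simp only [hι2, hι3, hι4]; done) | linear_combination hι | linear_combination -hι | linear_combination 2 * hι | linear_combination -2 * hι | linear_combination 3 * hι | linear_combination -3 * hι | linear_combination 4 * hι | linear_combination -4 * hι | linear_combination ι * hι | linear_combination -ι * hι | linear_combination (ι + 1) * hι | linear_combination (ι - 1) * hι | linear_combination (-ι + 1) * hι | linear_combination (-ι - 1) * hι | linear_combination 2 * ι * hι | linear_combination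 -2 * ι * hι | linear_combination (2 * ι + 2) * hι | linear_combination (2 * ι - 2) * hι | linear_combination (-2 * ι + 2) * hι | linear_combination (-2 * ι - 2) * hι | linear_combination (ι * ι) * hι | linear_combination (-(ι * ι)) * hι

theorem adj_AA' (ι : F) (hι : ι * ι = -1) : (AAp (-ι))ᵀ * (AAp ι : M4) = (4 : F) • 1 := by
  have hι2 : ι ^ 2 = -1 := by rw [pow_two, hι]
  have hι3 : ι ^ 3 = -ι := by rw [pow_succ, hι2]; ring
  have hι4 : ι ^ 4 = 1 := by rw [show ι ^ 4 = ι ^ 2 * ι ^ 2 by ring, hι2]; ring
  ext i j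
  fin_cases i <;> fin_cases j <;> simp [Zm1, Zm2, Xm1, Xm2, CZm, AIp, AAp, D5p, Matrix.mul_apply, Fin.sum_univ_four, Matrix.smul_apply, Matrix.one_apply, Matrix.transpose_apply] <;> first | ring1 | (ring_nf; simp only [hι2, hι3, hι4]; ring1) | (ring_nf; simp only [hι2, hι3, hι4]; done) | linear_combination hι | linear_combination -hι | linear_combination 2 * hι | linear_combination -2 * hι | linear_combination 3 * hι | linear_combination -3 * hι | linear_combination 4 * hι | linear_combination -4 * hι | linear_combination ι * hι | linear_combination -ι * hι | linear_combination (ι + 1) * hι | linear_combination (ι - 1) * hι | linear_combination (-ι + 1) * hι | linear_combination (-ι - 1) * hι | linear_combination 2 * ι * hι | linear_combination -2 * ι * hι | linear_combination (2 * ι + 2) * hι | linear_combination (2 * ι - 2) * hι | linear_combination (-2 * ι + 2) * hι | linear_combination (-2 * ι - 2) * hι | linear_combination (ι * ι) * hι | linear_combination (-(ι * ι)) * hι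

theorem adj_D5 (ι : F) (hι : ι * ι = -1) : (D5p ι : M4) * (D5p (-ι))ᵀ = (4 : F) • 1 := by
  have hι2 : ι ^ 2 = -1 := by rw [pow_two, hι]
  have hι3 : ι ^ 3 = -ι := by rw [pow_succ, hι2]; ring
  have hι4 : ι ^ 4 = 1 := by rw [show ι ^ 4 = ι ^ 2 * ι ^ 2 by ring, hι2]; ring
  ext i j
  fin_cases i <;> fin_cases j <;> simp [Zm1, Zm2, Xm1, Xm2, CZm, AIp, AAp, D5p, Matrix.mul_apply, Fin.sum_univ_four, Matrix.smul_apply, Matrix.one_apply, Matrix.transpose_apply] <;> first | ring1 | (ring_nf; simp only [hι2, hι3, hι4]; ring1) | (ring_nf; simp only [hι2, hι3, hι4]; done) | linear_combination hι | linear_combination -hι | linear_combination 2 * hι | linear_combination -2 * hι | linear_combination 3 * hι | linear_combination -3 * hι | linear_combination 4 * hι | linear_combination -4 * hι | linear_combination ι * hι | linear_combination -ι * hι | linear_combination (ι + 1) * hι | linear_combination (ι - 1) * hι | linear_combination (-ι + 1) * hι | linear_combination (-ι - 1) * hι | linear_combination 2 * ι * hι | linear_combination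 -2 * ι * hι | linear_combination (2 * ι + 2) * hι | linear_combination (2 * ι - 2) * hι | linear_combination (-2 * ι + 2) * hι | linear_combination (-2 * ι - 2) * hι | linear_combination (ι * ι) * hι | linear_combination (-(ι * ι)) * hι

theorem adj_D5' (ι : F) (hι : ι * ι = -1) : (D5p (-ι))ᵀ * (D5p ι : M4) = (4 : F) • 1 := by
  have hι2 : ι ^ 2 = -1 := by rw [pow_two, hι]
  have hι3 : ι ^ 3 = -ι := by rw [pow_succ, hι2]; ring
  have hι4 : ι ^ 4 = 1 := by rw [show ι ^ 4 = ι ^ 2 * ι ^ 2 by ring, hι2]; ring
  ext i j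
  fin_cases i <;> fin_cases j <;> simp [Zm1, Zm2, Xm1, Xm2, CZm, AIp, AAp, D5p, Matrix.mul_apply, Fin.sum_univ_four, Matrix.smul_apply, Matrix.one_apply, Matrix.transpose_apply] <;> first | ring1 | (ring_nf; simp only [hι2, hι3, hι4]; ring1) | (ring_nf; simp only [hι2, hι3, hι4]; done) | linear_combination hι | linear_combination -hι | linear_combination 2 * hι | linear_combination -2 * hι | linear_combination 3 * hι | linear_combination -3 * hι | linear_combination 4 * hι | linear_combination -4 * hι | linear_combination ι * hι | linear_combination -ι * hι | linear_combination (ι + 1) * hι | linear_combination (ι - 1) * hι | linear_combination (-ι + 1) * hι | linear_combination (-ι - 1) * hι | linear_combination 2 * ι * hι | linear_combination -2 * ι * hι | linear_combination (2 * ι + 2) * hι | linear_combination (2 * ι - 2) * hι | linear_combination (-2 * ι + 2) * hι | linear_combination (-2 * ι - 2) * hι | linear_combination (ι * ι) * hι | linear_combination (-(ι * ι)) * hι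

theorem cz_sq (ι : F) (hι : ι * ι = -1) : (CZm : M4) * (CZm : M4) = 1 := by
  have hι2 : ι ^ 2 = -1 := by rw [pow_two, hι]
  have hι3 : ι ^ 3 = -ι := by rw [pow_succ, hι2]; ring
  have hι4 : ι ^ 4 = 1 := by rw [show ι ^ 4 = ι ^ 2 * ι ^ 2 by ring, hι2]; ring
  ext i j
  fin_cases i <;> fin_cases j <;> simp [Zm1, Zm2, Xm1, Xm2, CZm, AIp, AAp, D5p, Matrix.mul_apply, Fin.sum_univ_four, Matrix.smul_apply, Matrix.one_apply, Matrix.transpose_apply] <;> first | ring1 | (ring_nf; simp only [hι2, hι3, hι4]; ring1) | (ring_nf; simp only [hι2, hι3, hι4]; done) | linear_combination hι | linear_combination -hι | linear_combination 2 * hι | linear_combination -2 * hι | linear_combination 3 * hι | linear_combination -3 * hι | linear_combination 4 * hι | linear_combination -4 * hι | linear_combination ι * hι | linear_combination -ι * hι | linear_combination (ι + 1) * hι | linear_combination (ι - 1) * hι | linear_combination (-ι + 1) * hι | linear_combination (-ι - 1) * hι | linear_combination 2 * ι * hι | linear_combination -2 * ι * hι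 | linear_combination (2 * ι + 2) * hι | linear_combination (2 * ι - 2) * hι | linear_combination (-2 * ι + 2) * hι | linear_combination (-2 * ι - 2) * hι | linear_combination (ι * ι) * hι | linear_combination (-(ι * ι)) * hι

theorem ai_sq (ι : F) (hι : ι * ι = -1) : (AIp ι : M4) * (AIp ι) = (-2 : F) • (AIp ι) - (4 : F) • 1 := by
  have hι2 : ι ^ 2 = -1 := by rw [pow_two, hι]
  have hι3 : ι ^ 3 = -ι := by rw [pow_succ, hι2]; ring
  have hι4 : ι ^ 4 = 1 := by rw [show ι ^ 4 = ι ^ 2 * ι ^ 2 by ring, hι2]; ring
  ext i j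
  fin_cases i <;> fin_cases j <;> simp [Zm1, Zm2, Xm1, Xm2, CZm, AIp, AAp, D5p, Matrix.mul_apply, Fin.sum_univ_four, Matrix.smul_apply, Matrix.one_apply, Matrix.transpose_apply] <;> first | ring1 | (ring_nf; simp only [hι2, hι3, hι4]; ring1) | (ring_nf; simp only [hι2, hι3, hι4]; done) | linear_combination hι | linear_combination -hι | linear_combination 2 * hι | linear_combination -2 * hι | linear_combination 3 * hι | linear_combination -3 * hι | linear_combination 4 * hι | linear_combination -4 * hι | linear_combination ι * hι | linear_combination -ι * hι | linear_combination (ι + 1) * hι | linear_combination (ι - 1) * hι | linear_combination (-ι + 1) * hι | linear_combination (-ι - 1) * hι | linear_combination 2 * ι * hι | linear_combination -2 * ι * hι | linear_combination (2 * ι + 2) * hι | linear_combination (2 * ι - 2) * hι | linear_combination (-2 * ι + 2) * hι | linear_combination (-2 * ι - 2) * hι | linear_combination (ι * ι) * hι | linear_combination (-(ι * ι)) * hι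

theorem aa_sq (ι : F) (hι : ι * ι = -1) : (AAp ι : M4) * (AAp ι) = !![2*ι,2*ι,2*ι,2*ι; -2,2,-2,2; -2,-2,2,2; -2*ι,2*ι,2*ι,-2*ι] := by
  have hι2 : ι ^ 2 = -1 := by rw [pow_two, hι]
  have hι3 : ι ^ 3 = -ι := by rw [pow_succ, hι2]; ring
  have hι4 : ι ^ 4 = 1 := by rw [show ι ^ 4 = ι ^ 2 * ι ^ 2 by ring, hι2]; ring
  ext i j
  fin_cases i <;> fin_cases j <;> simp [Zm1, Zm2, Xm1, Xm2, CZm, AIp, AAp, D5p, Matrix.mul_apply, Fin.sum_univ_four, Matrix.smul_apply, Matrix.one_apply, Matrix.transpose_apply] <;> first | ring1 | (ring_nf; simp only [hι2, hι3, hι4]; ring1) | (ring_nf; simp only [hι2, hι3, hι4]; done) | linear_combination hι | linear_combination -hι | linear_combination 2 * hι | linear_combination -2 * hι | linear_combination 3 * hι | linear_combination -3 * hι | linear_combination 4 * hι | linear_combination -4 * hι | linear_combination ι * hι | linear_combination -ι * hι | linear_combination (ι + 1) * hι | linear_combination (ι - 1) * hι | linear_combination (-ι + 1) * hι | linear_combination (-ι - 1) * hι | linear_combination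 2 * ι * hι | linear_combination -2 * ι * hι | linear_combination (2 * ι + 2) * hι | linear_combination (2 * ι - 2) * hι | linear_combination (-2 * ι + 2) * hι | linear_combination (-2 * ι - 2) * hι | linear_combination (ι * ι) * hι | linear_combination (-(ι * ι)) * hι

theorem aa_cube' (ι : F) (hι : ι * ι = -1) : (!![2*ι,2*ι,2*ι,2*ι; -2,2,-2,2; -2,-2,2,2; -2*ι,2*ι,2*ι,-2*ι] : M4) * (AAp ι) = (8 : F) • 1 := by
  have hι2 : ι ^ 2 = -1 := by rw [pow_two, hι]
  have hι3 : ι ^ 3 = -ι := by rw [pow_succ, hι2]; ring
  have hι4 : ι ^ 4 = 1 := by rw [show ι ^ 4 = ι ^ 2 * ι ^ 2 by ring, hι2]; ring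
  ext i j
  fin_cases i <;> fin_cases j <;> simp [Zm1, Zm2, Xm1, Xm2, CZm, AIp, AAp, D5p, Matrix.mul_apply, Fin.sum_univ_four, Matrix.smul_apply, Matrix.one_apply, Matrix.transpose_apply] <;> first | ring1 | (ring_nf; simp only [hι2, hι3, hι4]; ring1) | (ring_nf; simp only [hι2, hι3, hι4]; done) | linear_combination hι | linear_combination -hι | linear_combination 2 * hι | linear_combination -2 * hι | linear_combination 3 * hι | linear_combination -3 * hι | linear_combination 4 * hι | linear_combination -4 * hι | linear_combination ι * hι | linear_combination -ι * hι | linear_combination (ι + 1) * hι | linear_combination (ι - 1) * hι | linear_combination (-ι + 1) * hι | linear_combination (-ι - 1) * hι | linear_combination 2 * ι * hι | linear_combination -2 * ι * hι | linear_combination (2 * ι + 2) * hι | linear_combination (2 * ι - 2) * hι | linear_combination (-2 * ι + 2) * hι | linear_combination (-2 * ι - 2) * hι | linear_combination (ι * ι) * hι | linear_combination (-(ι * ι)) * hι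

theorem d5_2 (ι : F) (hι : ι * ι = -1) : (D5p ι : M4) * (D5p ι) = !![-2,-2*ι,-2*ι,-2; -2*ι,-2,-2,-2*ι; -2,2*ι,-2*ι,2; -2*ι,2,-2,2*ι] := by
  have hι2 : ι ^ 2 = -1 := by rw [pow_two, hι]
  have hι3 : ι ^ 3 = -ι := by rw [pow_succ, hι2]; ring
  have hι4 : ι ^ 4 = 1 := by rw [show ι ^ 4 = ι ^ 2 * ι ^ 2 by ring, hι2]; ring
  ext i j
  fin_cases i <;> fin_cases j <;> simp [Zm1, Zm2, Xm1, Xm2, CZm, AIp, AAp, D5p, Matrix.mul_apply, Fin.sum_univ_four, Matrix.smul_apply, Matrix.one_apply, Matrix.transpose_apply] <;> first | ring1 | (ring_nf; simp only [hι2, hι3, hι4]; ring1) | (ring_nf; simp only [hι2, hι3, hι4]; done) | linear_combination hι | linear_combination -hι | linear_combination 2 * hι | linear_combination -2 * hι | linear_combination 3 * hι | linear_combination -3 * hι | linear_combination 4 * hι | linear_combination -4 * hι | linear_combination ι * hι | linear_combination -ι * hι | linear_combination (ι + 1) * hι | linear_combination (ι - 1) * hι | linear_combination (-ι + 1) * hι | linear_combination (-ι - 1) * hι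 | linear_combination 2 * ι * hι | linear_combination -2 * ι * hι | linear_combination (2 * ι + 2) * hι | linear_combination (2 * ι - 2) * hι | linear_combination (-2 * ι + 2) * hι | linear_combination (-2 * ι - 2) * hι | linear_combination (ι * ι) * hι | linear_combination (-(ι * ι)) * hι

theorem d5_3 (ι : F) (hι : ι * ι = -1) : (!![-2,-2*ι,-2*ι,-2; -2*ι,-2,-2,-2*ι; -2,2*ι,-2*ι,2; -2*ι,2,-2,2*ι] : M4) * (D5p ι) = !![-4,4*ι,-4,4*ι; 4*ι,-4,-4*ι,4; 4*ι,-4,4*ι,-4; -4,4*ι,4,-4*ι] := by
  have hι2 : ι ^ 2 = -1 := by rw [pow_two, hι]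
  have hι3 : ι ^ 3 = -ι := by rw [pow_succ, hι2]; ring
  have hι4 : ι ^ 4 = 1 := by rw [show ι ^ 4 = ι ^ 2 * ι ^ 2 by ring, hι2]; ring
  ext i j
  fin_cases i <;> fin_cases j <;> simp [Zm1, Zm2, Xm1, Xm2, CZm, AIp, AAp, D5p, Matrix.mul_apply, Fin.sum_univ_four, Matrix.smul_apply, Matrix.one_apply, Matrix.transpose_apply] <;> first | ring1 | (ring_nf; simp only [hι2, hι3, hι4]; ring1) | (ring_nf; simp only [hι2, hι3, hι4]; done) | linear_combination hι | linear_combination -hι | linear_combination 2 * hι | linear_combination -2 * hι | linear_combination 3 * hι | linear_combination -3 * hι | linear_combination 4 * hι | linear_combination -4 * hι | linear_combination ι * hι | linear_combination -ι * hι | linear_combination (ι + 1) * hι | linear_combination (ι - 1) * hι | linear_combination (-ι + 1) * hι | linear_combination (-ι - 1) * hι | linear_combination 2 * ι * hι | linear_combination -2 * ι * hι | linear_combination (2 * ι + 2) * hι | linear_combination (2 * ι - 2) * hι | linear_combination (-2 * ι + 2) * hι | linear_combination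 (-2 * ι - 2) * hι | linear_combination (ι * ι) * hι | linear_combination (-(ι * ι)) * hι

theorem d5_4 (ι : F) (hι : ι * ι = -1) : (!![-4,4*ι,-4,4*ι; 4*ι,-4,-4*ι,4; 4*ι,-4,4*ι,-4; -4,4*ι,4,-4*ι] : M4) * (D5p ι) = !![8*ι,8*ι,8*ι,-8*ι; 8*ι,-8*ι,8*ι,8*ι; 8,8,-8,8; 8,-8,-8,-8] := by
  have hι2 : ι ^ 2 = -1 := by rw [pow_two, hι]
  have hι3 : ι ^ 3 = -ι := by rw [pow_succ, hι2]; ring
  have hι4 : ι ^ 4 = 1 := by rw [show ι ^ 4 = ι ^ 2 * ι ^ 2 by ring, hι2]; ring
  ext i j
  fin_cases i <;> fin_cases j <;> simp [Zm1, Zm2, Xm1, Xm2, CZm, AIp, AAp, D5p, Matrix.mul_apply, Fin.sum_univ_four, Matrix.smul_apply, Matrix.one_apply, Matrix.transpose_apply] <;> first | ring1 | (ring_nf; simp only [hι2, hι3, hι4]; ring1) | (ring_nf; simp only [hι2, hι3, hι4]; done) | linear_combination hι | linear_combination -hι | linear_combination 2 * hι | linear_combination -2 * hι | linear_combination 3 * hι | linear_combination -3 * hι | linear_combination 4 * hι | linear_combination -4 * hι | linear_combination ι * hι | linear_combination -ι * hι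 | linear_combination (ι + 1) * hι | linear_combination (ι - 1) * hι | linear_combination (-ι + 1) * hι | linear_combination (-ι - 1) * hι | linear_combination 2 * ι * hι | linear_combination -2 * ι * hι | linear_combination (2 * ι + 2) * hι | linear_combination (2 * ι - 2) * hι | linear_combination (-2 * ι + 2) * hι | linear_combination (-2 * ι - 2) * hι | linear_combination (ι * ι) * hι | linear_combination (-(ι * ι)) * hι

theorem d5_5 (ι : F) (hι : ι * ι = -1) : (!![8*ι,8*ι,8*ι,-8*ι; 8*ι,-8*ι,8*ι,8*ι; 8,8,-8,8; 8,-8,-8,-8] : M4) * (D5p ι) = (32 : F) • 1 := by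
  have hι2 : ι ^ 2 = -1 := by rw [pow_two, hι]
  have hι3 : ι ^ 3 = -ι := by rw [pow_succ, hι2]; ring
  have hι4 : ι ^ 4 = 1 := by rw [show ι ^ 4 = ι ^ 2 * ι ^ 2 by ring, hι2]; ring
  ext i j
  fin_cases i <;> fin_cases j <;> simp [Zm1, Zm2, Xm1, Xm2, CZm, AIp, AAp, D5p, Matrix.mul_apply, Fin.sum_univ_four, Matrix.smul_apply, Matrix.one_apply, Matrix.transpose_apply] <;> first | ring1 | (ring_nf; simp only [hι2, hι3, hι4]; ring1) | (ring_nf; simp only [hι2, hι3, hι4]; done) | linear_combination hι | linear_combination -hι | linear_combination 2 * hι | linear_combination -2 * hι | linear_combination 3 * hι | linear_combination -3 * hι | linear_combination 4 * hι | linear_combination -4 * hι | linear_combination ι * hι | linear_combination -ι * hι | linear_combination (ι + 1) * hι | linear_combination (ι - 1) * hι | linear_combination (-ι + 1) * hι | linear_combination (-ι - 1) * hι | linear_combination 2 * ι * hι | linear_combination -2 * ι * hι | linear_combination (2 * ι + 2) * hι | linear_combination (2 * ι - 2) * hι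 | linear_combination (-2 * ι + 2) * hι | linear_combination (-2 * ι - 2) * hι | linear_combination (ι * ι) * hι | linear_combination (-(ι * ι)) * hι

/-- An element of `GL` given as half of a matrix with known adjoint. -/
noncomputable def halfGL (h2 : (2 : F) ≠ 0) {X X' : M4} (h : X * X' = (4 : F) • 1) (h' : X' * X = (4 : F) • 1) :
    GL (Fin 4) F :=
  ⟨(2 : F)⁻¹ • X, (2 : F)⁻¹ • X', by
    rw [smul_mul_smul_comm, h, smul_smul]
    have : (2 : F)⁻¹ * (2 : F)⁻¹ * 4 = 1 := by field_simp; norm_num
    rw [this, one_smul], by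
    rw [smul_mul_smul_comm, h', smul_smul]
    have : (2 : F)⁻¹ * (2 : F)⁻¹ * 4 = 1 := by field_simp; norm_num
    rw [this, one_smul]⟩

theorem halfGL_val (h2 : (2 : F) ≠ 0) {X X' : M4} (h : X * X' = (4 : F) • 1) (h' : X' * X = (4 : F) • 1) :
    ((halfGL h2 h h' : GL (Fin 4) F) : M4) = (2 : F)⁻¹ • X := rfl

theorem halfGL_inv_val (h2 : (2 : F) ≠ 0) {X X' : M4} (h : X * X' = (4 : F) • 1) (h' : X' * X = (4 : F) • 1) :
    (((halfGL h2 h h')⁻¹ : GL (Fin 4) F) : M4) = (2 : F)⁻¹ • X' := rfl

theorem cz_sq' : (CZm : M4) * (CZm : M4) = 1 := by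
  ext i j
  fin_cases i <;> fin_cases j <;> simp [CZm, Matrix.mul_apply, Fin.sum_univ_four, Matrix.one_apply]

/-- `CZ` in `GL`. -/
def CZG (F : Type*) [Field F] : GL (Fin 4) F := ⟨CZm, CZm, cz_sq', cz_sq'⟩

theorem CZG_val : ((CZG F : GL (Fin 4) F) : M4) = CZm := rfl

section frame

variable {ι : F} {h i₀ a₁ b₁ a₂ b₂ : GL (Fin 4) F} (hf : Frame R ι h i₀ a₁ b₁ a₂ b₂) (hR : Finite R)
include hf hR

theorem normal_half (h2 : (2 : F) ≠ 0) {X X' : M4} (hX : X * X' = (4 : F) • 1) (hX' : X' * X = (4 : F) • 1)
    (r1 : ∃ W, Pz R h W ∧ X * (Zm1 : M4) = W * X) (r2 : ∃ W, Pz R h W ∧ X * (Zm2 : M4) = W * X)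
    (r3 : ∃ W, Pz R h W ∧ X * (Xm1 : M4) = W * X) (r4 : ∃ W, Pz R h W ∧ X * (Xm2 : M4) = W * X) :
    h * halfGL h2 hX hX' * h⁻¹ ∈ subgroupNormalizer R := by
  have key : ∀ g : M4, (∃ W, Pz R h W ∧ X * g = W * X) →
      (∃ W, Pz R h W ∧ ((halfGL h2 hX hX' : GL (Fin 4) F) : M4) * g = W * ((halfGL h2 hX hX' : GL (Fin 4) F) : M4)) := by
    rintro g ⟨W, hW, he⟩
    refine ⟨W, hW, ?_⟩
    rw [halfGL_val, smul_mul_assoc, he, mul_smul_comm]
  exact Frame.normal hf hR (key _ r1) (key _ r2) (key _ r3) (key _ r4)

theorem normal_CZ : h * CZG F * h⁻¹ ∈ subgroupNormalizer R :=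
  Frame.normal hf hR ⟨_, Frame.pzZ1 hf, rel_CZ_Zm1 ι hf.hι⟩ ⟨_, Frame.pzZ2 hf, rel_CZ_Zm2 ι hf.hι⟩
    ⟨_, (Frame.pzZ2 hf).mul (Frame.pzX1 hf), rel_CZ_Xm1 ι hf.hι⟩ ⟨_, (Frame.pzX2 hf).mul (Frame.pzZ1 hf), rel_CZ_Xm2 ι hf.hι⟩

theorem normal_AI (h2 : (2 : F) ≠ 0) : h * halfGL h2 (adj_AI ι hf.hι) (adj_AI' ι hf.hι) * h⁻¹ ∈ subgroupNormalizer R :=
  normal_half hf hR h2 _ _ ⟨_, Frame.pzX1 hf, rel_AI_Zm1 ι hf.hι⟩ ⟨_, Frame.pzZ2 hf, rel_AI_Zm2 ι hf.hι⟩
    ⟨_, Frame.pzι_mul hf ((Frame.pzX1 hf).mul (Frame.pzZ1 hf)), rel_AI_Xm1 ι hf.hι⟩ ⟨_, Frame.pzX2 hf, rel_AI_Xm2 ι hf.hι⟩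

theorem normal_AA (h2 : (2 : F) ≠ 0) : h * halfGL h2 (adj_AA ι hf.hι) (adj_AA' ι hf.hι) * h⁻¹ ∈ subgroupNormalizer R :=
  normal_half hf hR h2 _ _ ⟨_, Frame.pzX1 hf, rel_AA_Zm1 ι hf.hι⟩ ⟨_, Frame.pzX2 hf, rel_AA_Zm2 ι hf.hι⟩
    ⟨_, Frame.pzι_mul hf ((Frame.pzX1 hf).mul (Frame.pzZ1 hf)), rel_AA_Xm1 ι hf.hι⟩
    ⟨_, Frame.pzι_mul hf ((Frame.pzX2 hf).mul (Frame.pzZ2 hf)), rel_AA_Xm2 ι hf.hι⟩

theorem normal_D5 (h2 : (2 : F) ≠ 0) : h * halfGL h2 (adj_D5 ι hf.hι) (adj_D5' ι hf.hι) * h⁻¹ ∈ subgroupNormalizer R := by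
  have hneg : ∀ {W : M4}, Pz R h W → Pz R h ((-ι) • W) := by
    intro W hW
    have h3 := Frame.pzι_mul hf (Frame.pzι_mul hf (Frame.pzι_mul hf hW))
    have h4 : ι • ι • ι • W = (-ι) • W := by
      rw [smul_smul, smul_smul]
      congr 1
      rw [hf.hι]
      ring
    rwa [h4] at h3
  exact normal_half hf hR h2 _ _ ⟨_, (Frame.pzZ2 hf).mul (Frame.pzX1 hf), rel_D5_Zm1 ι hf.hι⟩
    ⟨_, (Frame.pzX2 hf).mul (Frame.pzZ1 hf), rel_D5_Zm2 ι hf.hι⟩
    ⟨_, hneg (((Frame.pzZ2 hf).mul (Frame.pzX1 hf)).mul (Frame.pzZ1 hf)), rel_D5_Xm1 ι hf.hι⟩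
    ⟨_, Frame.pzZ2 hf, rel_D5_Xm2 ι hf.hι⟩

end frame

end Cfsg.Agent.Lib.SymType64Model
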