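import Mathlib
import Cfsg.Agent.Lib.SymType64Model
import Cfsg.Agent.Lib.EigenConj
import Cfsg.Agent.Lib.UnitaryConjGU
import Cfsg.Agent.Lib.GUParab

/-!
# Unitary facts for groups of symplectic type of order `2⁶` in `GU₄(p)`
-/

set_option autoImplicit false
set_option linter.style.haveILetI false
set_option linter.unusedVariables false
set_option linter.unusedSectionVars false
set_option linter.unusedSimpArgs false

namespace Cfsg.Agent.Lib.SymType64U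

open Subgroup Cfsg Cfsg.Geo Cfsg.Agent.Lib.SymType64M Cfsg.Agent.Lib.SymType64Neg Cfsg.Agent.Lib.SymType64NF
  Cfsg.Agent.Lib.SymType64Model Cfsg.Agent.Lib.UnitaryConjGU Cfsg.Agent.Lib.UnitaryBasic Cfsg.Agent.Lib.HermCount
  Cfsg.Agent.Lib.EigenConj Matrix
open scoped MatrixGroups

variable {F : Type*} [Field F] [Fintype F] {q : ℕ} {R : Subgroup (GL (Fin 4) F)}

local notation "M4" => Matrix (Fin 4) (Fin 4) F

theorem trace_st (hF : Fintype.card F = q ^ 2) {n : ℕ} (X : Matrix (Fin n) (Fin n) F) :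
    (st q X).trace = X.trace ^ q := by
  simp only [Matrix.trace, Matrix.diag, st_apply]
  exact (map_sum (sigma hF) _ _).symm

theorem det_st (hF : Fintype.card F = q ^ 2) {n : ℕ} (X : Matrix (Fin n) (Fin n) F) :
    (st q X).det = X.det ^ q := by
  rw [st_eq hF, Matrix.det_transpose]
  exact (RingHom.map_det (sigma hF) X).symm

theorem map_AIp (σ : F →+* F) (ι : F) : (AIp ι).map σ = AIp (σ ι) := by
  ext i j
  fin_cases i <;> fin_cases j <;> simp [AIp]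

theorem map_AAp (σ : F →+* F) (ι : F) : (AAp ι).map σ = AAp (σ ι) := by
  ext i j
  fin_cases i <;> fin_cases j <;> simp [AAp]

theorem map_D5p (σ : F →+* F) (ι : F) : (D5p ι).map σ = D5p (σ ι) := by
  ext i j
  fin_cases i <;> fin_cases j <;> simp [D5p]

theorem map_Zm1 (σ : F →+* F) : (Zm1 : M4).map σ = Zm1 := by
  ext i j
  fin_cases i <;> fin_cases j <;> simp [Zm1]

theorem st_Zm1 (hF : Fintype.card F = q ^ 2) : st q (Zm1 : M4) = Zm1 := by
  rw [st_eq hF, map_Zm1]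
  ext i j
  fin_cases i <;> fin_cases j <;> simp [Zm1]

theorem map_Zm2 (σ : F →+* F) : (Zm2 : M4).map σ = Zm2 := by
  ext i j
  fin_cases i <;> fin_cases j <;> simp [Zm2]

theorem st_Zm2 (hF : Fintype.card F = q ^ 2) : st q (Zm2 : M4) = Zm2 := by
  rw [st_eq hF, map_Zm2]
  ext i j
  fin_cases i <;> fin_cases j <;> simp [Zm2]

theorem map_Xm1 (σ : F →+* F) : (Xm1 : M4).map σ = Xm1 := by
  ext i j
  fin_cases i <;> fin_cases j <;> simp [Xm1]

theorem st_Xm1 (hF : Fintype.card F = q ^ 2) : st q (Xm1 : M4) = Xm1 := by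
  rw [st_eq hF, map_Xm1]
  ext i j
  fin_cases i <;> fin_cases j <;> simp [Xm1]

theorem map_Xm2 (σ : F →+* F) : (Xm2 : M4).map σ = Xm2 := by
  ext i j
  fin_cases i <;> fin_cases j <;> simp [Xm2]

theorem st_Xm2 (hF : Fintype.card F = q ^ 2) : st q (Xm2 : M4) = Xm2 := by
  rw [st_eq hF, map_Xm2]
  ext i j
  fin_cases i <;> fin_cases j <;> simp [Xm2]

theorem sq_Zm1 : (Zm1 : M4) * Zm1 = 1 := by
  ext i j
  fin_cases i <;> fin_cases j <;> simp [Zm1, Matrix.mul_apply, Fin.sum_univ_four, Matrix.one_apply]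

theorem sq_Zm2 : (Zm2 : M4) * Zm2 = 1 := by
  ext i j
  fin_cases i <;> fin_cases j <;> simp [Zm2, Matrix.mul_apply, Fin.sum_univ_four, Matrix.one_apply]

theorem sq_Xm1 : (Xm1 : M4) * Xm1 = 1 := by
  ext i j
  fin_cases i <;> fin_cases j <;> simp [Xm1, Matrix.mul_apply, Fin.sum_univ_four, Matrix.one_apply]

theorem sq_Xm2 : (Xm2 : M4) * Xm2 = 1 := by
  ext i j
  fin_cases i <;> fin_cases j <;> simp [Xm2, Matrix.mul_apply, Fin.sum_univ_four, Matrix.one_apply]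

/-- The Gram matrix of `h` is a scalar. -/
theorem gram_scalar (hF : Fintype.card F = q ^ 2) (hD : SymData R) (hRU : R ≤ GU 4 F q) {ι : F}
    {h i₀ a₁ b₁ a₂ b₂ : GL (Fin 4) F} (hf : Frame R ι h i₀ a₁ b₁ a₂ b₂) :
    ∃ c : F, st q (h : M4) * (h : M4) = c • 1 := by
  have key : ∀ (g : GL (Fin 4) F) (g₀ : M4), g ∈ R → (g : M4) * (h : M4) = (h : M4) * g₀ → st q g₀ = g₀ → g₀ * g₀ = 1 →
      (st q (h : M4) * (h : M4)) * g₀ = g₀ * (st q (h : M4) * (h : M4)) := by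
    intro g g₀ hg hr hst hsq
    have h1 : st q (g : M4) * (g : M4) = 1 := st_mul_self_of_mem hF (hRU hg)
    have h2 : st q ((g : M4) * (h : M4)) * ((g : M4) * (h : M4)) = st q (h : M4) * (h : M4) := by
      rw [st_mul hF]
      calc st q (h : M4) * st q (g : M4) * ((g : M4) * (h : M4)) = st q (h : M4) * (st q (g : M4) * (g : M4)) * (h : M4) := by
            simp only [mul_assoc]
        _ = _ := by rw [h1, mul_one]
    rw [hr, st_mul hF, hst] at h2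
    calc (st q (h : M4) * (h : M4)) * g₀ = (g₀ * st q (h : M4) * ((h : M4) * g₀)) * g₀ := by rw [h2]
      _ = g₀ * (st q (h : M4) * (h : M4)) * (g₀ * g₀) := by simp only [mul_assoc]
      _ = _ := by rw [hsq, mul_one]
  exact Frame.comm hf hD _ (key a₁ _ hf.ha₁ hf.ra₁ (st_Zm1 hF) sq_Zm1) (key a₂ _ hf.ha₂ hf.ra₂ (st_Zm2 hF) sq_Zm2)
    (key b₁ _ hf.hb₁ hf.rb₁ (st_Xm1 hF) sq_Xm1) (key b₂ _ hf.hb₂ hf.rb₂ (st_Xm2 hF) sq_Xm2)

/-- Conjugates by `h` of unitary matrices are unitary. -/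
theorem conj_unitary (hF : Fintype.card F = q ^ 2) {h : GL (Fin 4) F} {c : F}
    (hG : st q (h : M4) * (h : M4) = c • 1) {D₀ : M4} (hD₀ : st q D₀ * D₀ = 1) :
    st q ((h : M4) * D₀ * ((h⁻¹ : GL (Fin 4) F) : M4)) * ((h : M4) * D₀ * ((h⁻¹ : GL (Fin 4) F) : M4)) = 1 := by
  have h1 : (h : M4) * ((h⁻¹ : GL (Fin 4) F) : M4) = 1 := by
    rw [← Units.val_mul]; simp
  have h2 : st q ((h⁻¹ : GL (Fin 4) F) : M4) * st q (h : M4) = 1 := by
    rw [← st_mul hF, h1, st_one hF]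
  have h3 : st q (h : M4) = c • ((h⁻¹ : GL (Fin 4) F) : M4) := by
    calc st q (h : M4) = st q (h : M4) * ((h : M4) * ((h⁻¹ : GL (Fin 4) F) : M4)) := by rw [h1, mul_one]
      _ = c • ((h⁻¹ : GL (Fin 4) F) : M4) := by
          rw [← mul_assoc, hG, smul_mul_assoc, one_mul]
  simp only [st_mul hF]
  calc st q ((h⁻¹ : GL (Fin 4) F) : M4) * (st q D₀ * st q (h : M4)) * ((h : M4) * D₀ * ((h⁻¹ : GL (Fin 4) F) : M4))
      = st q ((h⁻¹ : GL (Fin 4) F) : M4) * (st q D₀ * (st q (h : M4) * (h : M4)) * D₀) * ((h⁻¹ : GL (Fin 4) F) : M4) := by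
        simp only [mul_assoc]
    _ = st q ((h⁻¹ : GL (Fin 4) F) : M4) * (c • (st q D₀ * D₀)) * ((h⁻¹ : GL (Fin 4) F) : M4) := by
        rw [hG]
        congr 2
        rw [mul_smul_comm, mul_one, smul_mul_assoc]
    _ = st q ((h⁻¹ : GL (Fin 4) F) : M4) * (c • ((h⁻¹ : GL (Fin 4) F) : M4)) := by
        rw [hD₀, mul_smul_comm, mul_one, smul_mul_assoc, mul_smul_comm]
    _ = 1 := by rw [← h3, h2]

/-- The scalar `w` as an element of `GL`. -/
noncomputable def scG (w : F) (hw : w ≠ 0) : GL (Fin 4) F :=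
  ⟨w • 1, w⁻¹ • 1, by rw [smul_mul_smul_comm, mul_inv_cancel₀ hw, mul_one, one_smul],
    by rw [smul_mul_smul_comm, inv_mul_cancel₀ hw, mul_one, one_smul]⟩

theorem scG_val (w : F) (hw : w ≠ 0) : ((scG w hw : GL (Fin 4) F) : M4) = w • 1 := rfl

theorem scG_comm (w : F) (hw : w ≠ 0) (g : GL (Fin 4) F) : scG w hw * g = g * scG w hw := by
  apply Units.ext
  simp only [Units.val_mul, scG_val]
  rw [smul_mul_assoc, one_mul, mul_smul_comm, mul_one]

theorem scG_mem_normalizer (w : F) (hw : w ≠ 0) : scG w hw ∈ subgroupNormalizer R := by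
  show _ ∈ Subgroup.normalizer (R : Set (GL (Fin 4) F))
  rw [mem_normalizer_iff]
  intro u
  rw [scG_comm, mul_inv_cancel_right]

theorem scG_mem_GU (hF : Fintype.card F = q ^ 2) (w : F) (hw : w ≠ 0) (hw1 : w ^ q * w = 1) : scG w hw ∈ GU 4 F q := by
  apply mem_of_st_mul_self hF
  rw [scG_val, st_smul_one hF, smul_mul_smul_comm, mul_one, hw1, one_smul]

/-- The final assembly of a positive case. -/
theorem finish (hF : Fintype.card F = q ^ 2) {x y D : GL (Fin 4) F} {w : F} (hw : w ≠ 0) (hw1 : w ^ q * w = 1)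
    (hxy : x = scG w hw * y) (hy : y ∈ GU 4 F q) (hD : D ∈ GU 4 F q) (hDN : D ∈ subgroupNormalizer R)
    (hconj : ∃ G : GL (Fin 4) F, (G : M4) * (y : M4) = (D : M4) * (G : M4))
    (hc : ∀ t : F, t ^ q * t = 1 → ∃ c ∈ GU 4 F q, c * D = D * c ∧ (c : M4).det = t) :
    ∃ g ∈ GU 4 F q ⊓ specialLinear (Fin 4) F, g⁻¹ * x * g ∈ subgroupNormalizer R := by
  obtain ⟨G, hG⟩ := hconj
  have hGconj : IsConj (y : GL (Fin 4) F) D := by
    rw [isConj_iff]
    refine ⟨G, ?_⟩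
    rw [mul_inv_eq_iff_eq_mul]
    exact Units.ext hG
  have hU := isConj_GU_of_GL hF ⟨y, hy⟩ ⟨D, hD⟩ hGconj
  obtain ⟨g₁, hg₁⟩ := isConj_iff.1 hU
  have hg₁' : (g₁ : GL (Fin 4) F) * y * (g₁ : GL (Fin 4) F)⁻¹ = D := congrArg Subtype.val hg₁
  -- determinant adjustment
  set t : F := ((g₁⁻¹ : GL (Fin 4) F) : M4).det with ht
  have htU : t ^ q * t = 1 := by
    have h1 : st q (((g₁⁻¹ : ↥(GU 4 F q)) : GL (Fin 4) F) : M4) * (((g₁⁻¹ : ↥(GU 4 F q)) : GL (Fin 4) F) : M4) = 1 :=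
      st_mul_self_of_mem hF (g₁⁻¹).2
    have h2 := congrArg Matrix.det h1
    rw [Matrix.det_mul, det_st hF, Matrix.det_one] at h2
    exact h2
  obtain ⟨c, hcU, hcD, hcdet⟩ := hc t htU
  refine ⟨(g₁ : GL (Fin 4) F)⁻¹ * c⁻¹, Subgroup.mem_inf.2 ⟨mul_mem (inv_mem g₁.2) (inv_mem hcU), ?_⟩, ?_⟩
  · show Matrix.GeneralLinearGroup.det ((g₁ : GL (Fin 4) F)⁻¹ * c⁻¹) = 1
    have h3 : ((Matrix.GeneralLinearGroup.det ((g₁ : GL (Fin 4) F)⁻¹) : Fˣ) : F) = t := rfl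
    have h4 : ((Matrix.GeneralLinearGroup.det c : Fˣ) : F) = t := hcdet
    have h5 : Matrix.GeneralLinearGroup.det ((g₁ : GL (Fin 4) F)⁻¹) = Matrix.GeneralLinearGroup.det c :=
      Units.ext (h3.trans h4.symm)
    rw [map_mul, h5, map_inv, mul_inv_cancel]
  · have h6 : ((g₁ : GL (Fin 4) F)⁻¹ * c⁻¹)⁻¹ * x * ((g₁ : GL (Fin 4) F)⁻¹ * c⁻¹) = scG w hw * D := by
      have hcDinv : c * D * c⁻¹ = D := by rw [hcD]; group
      calc ((g₁ : GL (Fin 4) F)⁻¹ * c⁻¹)⁻¹ * x * ((g₁ : GL (Fin 4) F)⁻¹ * c⁻¹)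
          = c * (g₁ : GL (Fin 4) F) * (scG w hw * y) * (g₁ : GL (Fin 4) F)⁻¹ * c⁻¹ := by rw [hxy]; group
        _ = c * (scG w hw * (g₁ : GL (Fin 4) F)) * y * (g₁ : GL (Fin 4) F)⁻¹ * c⁻¹ := by
            rw [mul_assoc c, ← mul_assoc (g₁ : GL (Fin 4) F), ← scG_comm w hw (g₁ : GL (Fin 4) F)]
            group
        _ = scG w hw * (c * ((g₁ : GL (Fin 4) F) * y * (g₁ : GL (Fin 4) F)⁻¹) * c⁻¹) := by
            rw [← mul_assoc c (scG w hw), ← scG_comm w hw c]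
            group
        _ = scG w hw * D := by rw [hg₁', hcDinv]
    rw [h6]
    exact mul_mem (scG_mem_normalizer w hw) hDN

end Cfsg.Agent.Lib.SymType64U
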