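import Mathlib
import Cfsg.Agent.Lib.SymType64U

/-!
# Conjugacy of unitary involutions and elements of order three
-/

set_option autoImplicit false
set_option linter.style.haveILetI false
set_option linter.unusedVariables false
set_option linter.unusedSectionVars false
set_option linter.unusedSimpArgs false
set_option linter.unreachableTactic false
set_option linter.unusedTactic false

namespace Cfsg.Agent.Lib.SymType64E

open Module Cfsg Cfsg.Agent.Lib.SymType64U Cfsg.Agent.Lib.UnitaryConjGU Cfsg.Agent.Lib.UnitaryBasic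
  Cfsg.Agent.Lib.EigenConj Matrix
open scoped MatrixGroups

variable {F : Type*} [Field F]

local notation "M4" => Matrix (Fin 4) (Fin 4) F

/-- The eigenvalues of an involution. -/
def al2 (F : Type*) [Field F] : Fin 2 → F := ![1, -1]

theorem al2_inj (h2 : (2 : F) ≠ 0) : Function.Injective (al2 F) := by
  intro a b hab
  fin_cases a <;> fin_cases b <;> first | rfl | skip
  · exfalso
    have h : (1 : F) = -1 := hab
    apply h2
    linear_combination h
  · exfalso
    have h : (-1 : F) = 1 := hab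
    apply h2
    linear_combination -h

theorem invol_iSup (h2 : (2 : F) ≠ 0) {Y : M4} (hY : Y * Y = 1) : ⨆ i, ek Y (al2 F i) = ⊤ := by
  rw [eq_top_iff]
  intro v _
  have h1 : (1 + Y) *ᵥ v ∈ ⨆ i, ek Y (al2 F i) := by
    apply Submodule.mem_iSup_of_mem (0 : Fin 2)
    rw [mem_ek]
    show Y *ᵥ ((1 + Y) *ᵥ v) = (1 : F) • ((1 + Y) *ᵥ v)
    rw [Matrix.mulVec_mulVec, mul_add, mul_one, hY, one_smul, add_comm]
  have h3 : (1 - Y) *ᵥ v ∈ ⨆ i, ek Y (al2 F i) := by
    apply Submodule.mem_iSup_of_mem (1 : Fin 2)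
    rw [mem_ek]
    show Y *ᵥ ((1 - Y) *ᵥ v) = (-1 : F) • ((1 - Y) *ᵥ v)
    rw [Matrix.mulVec_mulVec, mul_sub, mul_one, hY, ← Matrix.smul_mulVec]
    congr 1
    simp
  have h4 := Submodule.add_mem _ (Submodule.smul_mem _ (2 : F)⁻¹ h1) (Submodule.smul_mem _ (2 : F)⁻¹ h3)
  have h5 : (2 : F)⁻¹ • ((1 + Y) *ᵥ v) + (2 : F)⁻¹ • ((1 - Y) *ᵥ v) = v := by
    rw [← smul_add, ← Matrix.add_mulVec]
    have : (1 + Y + (1 - Y)) = (2 : F) • (1 : M4) := by
      rw [two_smul]; abel
    rw [this, Matrix.smul_mulVec, Matrix.one_mulVec, smul_smul, inv_mul_cancel₀ h2, one_smul]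
  rwa [h5] at h4

theorem eq_smul_one_of_top {Y : M4} {a : F} (h : ek Y a = ⊤) : Y = a • 1 := by
  apply mul_eq_of_mulVec
  intro v
  have hv : v ∈ ek Y a := by rw [h]; trivial
  rw [mem_ek.1 hv, Matrix.smul_mulVec, Matrix.one_mulVec]

theorem top_of_finrank {Y : M4} {a : F} (h : finrank F (ek Y a) = 4) : ek Y a = ⊤ :=
  Submodule.eq_top_of_finrank_eq (by rw [h, Module.finrank_fin_fun])

/-- Dimension data of an involution. -/
theorem invol_data (h2 : (2 : F) ≠ 0) {Y : M4} (hY : Y * Y = 1) (hns : ∀ c : F, Y ≠ c • 1) :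
    ∃ d : ℕ, (d = 1 ∨ d = 2 ∨ d = 3) ∧ finrank F (ek Y (al2 F 0)) = d ∧ finrank F (ek Y (al2 F 1)) = 4 - d ∧
      Y.trace = (d : F) - ((4 - d : ℕ) : F) := by
  have hS := invol_iSup h2 hY
  have hsum := sum_finrank (al2_inj h2) hS
  rw [Fin.sum_univ_two] at hsum
  have htr := trace_of_eigen (al2_inj h2) hS Y (al2 F) (fun i v hv => hv)
  rw [Fin.sum_univ_two] at htr
  refine ⟨finrank F (ek Y (al2 F 0)), ?_, rfl, by omega, ?_⟩
  · have h0 : finrank F (ek Y (al2 F 0)) ≠ 4 := fun h => hns _ (eq_smul_one_of_top (top_of_finrank h))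
    have h1 : finrank F (ek Y (al2 F 1)) ≠ 4 := fun h => hns _ (eq_smul_one_of_top (top_of_finrank h))
    omega
  · rw [htr, show finrank F (ek Y (al2 F 1)) = 4 - finrank F (ek Y (al2 F 0)) by omega]
    simp [al2]
    ring

/-- Involutions with the same trace are conjugate. -/
theorem invol_conj (h2 : (2 : F) ≠ 0) {Y Y' : M4} (hY : Y * Y = 1) (hY' : Y' * Y' = 1) (hns : ∀ c : F, Y ≠ c • 1)
    (hns' : ∀ c : F, Y' ≠ c • 1) (htr : Y.trace = Y'.trace) :
    ∃ G : GL (Fin 4) F, (G : M4) * Y = Y' * (G : M4) := by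
  obtain ⟨d, hd, h1, h3, h4⟩ := invol_data h2 hY hns
  obtain ⟨d', hd', h1', h3', h4'⟩ := invol_data h2 hY' hns'
  have h40 : (4 : F) ≠ 0 := by
    intro h
    apply h2
    have : (2 : F) * 2 = 0 := by linear_combination h
    exact mul_self_eq_zero.1 this
  have hdd : d = d' := by
    rw [h4, h4'] at htr
    rcases hd with rfl | rfl | rfl <;> rcases hd' with rfl | rfl | rfl <;> first | rfl | exfalso
    all_goals norm_num at htr
    all_goals first | exact h2 (by linear_combination htr) | exact h2 (by linear_combination -htr) | exact h40 (by linear_combination htr) | exact h40 (by linear_combination -htr) | exact h2 (by linear_combination htr / 2) | exact h2 htr | skip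
  subst hdd
  apply conj_of_eigen (al2_inj h2) (invol_iSup h2 hY) (invol_iSup h2 hY')
  intro i
  fin_cases i
  · show finrank F (ek Y (al2 F 0)) = finrank F (ek Y' (al2 F 0))
    rw [h1, h1']
  · show finrank F (ek Y (al2 F 1)) = finrank F (ek Y' (al2 F 1))
    rw [h3, h3']

/-- The eigenvalues of an element of order three. -/
def al3 (ω : F) : Fin 3 → F := ![1, ω, ω * ω]

theorem al3_inj {ω : F} (h3 : (3 : F) ≠ 0) (hω : ω * ω + ω + 1 = 0) : Function.Injective (al3 ω) := by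
  have h0 : ω ≠ 1 := by
    rintro rfl
    apply h3
    linear_combination hω
  have h00 : ω ≠ 0 := by
    rintro rfl
    simp at hω
  have h1 : (1 : F) ≠ ω * ω := by
    intro h
    apply h3
    have h5 : ω = -2 := by linear_combination hω + h
    rw [h5] at h
    linear_combination -h
  have h2 : ω ≠ ω * ω := by
    intro h
    have h5 : ω * (ω - 1) = 0 := by linear_combination -h
    rcases mul_eq_zero.1 h5 with h6 | h6
    · exact h00 h6
    · exact h0 (sub_eq_zero.1 h6)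
  intro a b hab
  fin_cases a <;> fin_cases b <;> first | rfl | skip
  · exact absurd hab (Ne.symm h0)
  · exact absurd hab h1
  · exact absurd hab h0
  · exact absurd hab h2
  · exact absurd hab (Ne.symm h1)
  · exact absurd hab (Ne.symm h2)

theorem cube_iSup {ω : F} (h3 : (3 : F) ≠ 0) (hω : ω * ω + ω + 1 = 0) {Y : M4} (hY : Y * (Y * Y) = 1) :
    ⨆ i, ek Y (al3 ω i) = ⊤ := by
  have hω3 : ω * (ω * ω) = 1 := by linear_combination (ω - 1) * hω
  rw [eq_top_iff]
  intro v _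
  have e1 : (1 + Y + Y * Y) *ᵥ v ∈ ⨆ i, ek Y (al3 ω i) := by
    apply Submodule.mem_iSup_of_mem (0 : Fin 3)
    rw [mem_ek]
    show Y *ᵥ ((1 + Y + Y * Y) *ᵥ v) = (1 : F) • ((1 + Y + Y * Y) *ᵥ v)
    rw [Matrix.mulVec_mulVec, one_smul]
    congr 1
    rw [mul_add, mul_add, mul_one, hY]
    abel
  have e2 : (1 + (ω * ω) • Y + ω • (Y * Y)) *ᵥ v ∈ ⨆ i, ek Y (al3 ω i) := by
    apply Submodule.mem_iSup_of_mem (1 : Fin 3)
    rw [mem_ek]
    show Y *ᵥ ((1 + (ω * ω) • Y + ω • (Y * Y)) *ᵥ v) = ω • ((1 + (ω * ω) • Y + ω • (Y * Y)) *ᵥ v)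
    rw [Matrix.mulVec_mulVec, ← Matrix.smul_mulVec]
    congr 1
    rw [mul_add, mul_add, mul_one, mul_smul_comm, mul_smul_comm, hY, smul_add, smul_add, smul_smul, smul_smul,
      show ω * (ω * ω) = 1 from hω3]
    simp only [one_smul]
    abel_nf
  have e3 : (1 + ω • Y + (ω * ω) • (Y * Y)) *ᵥ v ∈ ⨆ i, ek Y (al3 ω i) := by
    apply Submodule.mem_iSup_of_mem (2 : Fin 3)
    rw [mem_ek]
    show Y *ᵥ ((1 + ω • Y + (ω * ω) • (Y * Y)) *ᵥ v) = (ω * ω) • ((1 + ω • Y + (ω * ω) • (Y * Y)) *ᵥ v)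
    rw [Matrix.mulVec_mulVec, ← Matrix.smul_mulVec]
    congr 1
    rw [mul_add, mul_add, mul_one, mul_smul_comm, mul_smul_comm, hY, smul_add, smul_add, smul_smul, smul_smul]
    have h5 : ω * ω * ω = 1 := by linear_combination hω3
    have h6 : ω * ω * (ω * ω) = ω := by
      calc ω * ω * (ω * ω) = (ω * (ω * ω)) * ω := by ring
        _ = ω := by rw [hω3, one_mul]
    rw [h5, h6, one_smul]
    abel_nf
  have e4 := Submodule.smul_mem _ (3 : F)⁻¹ (Submodule.add_mem _ (Submodule.add_mem _ e1 e2) e3)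
  have h5 : (3 : F)⁻¹ • ((1 + Y + Y * Y) *ᵥ v + (1 + (ω * ω) • Y + ω • (Y * Y)) *ᵥ v + (1 + ω • Y + (ω * ω) • (Y * Y)) *ᵥ v) = v := by
    rw [← Matrix.add_mulVec, ← Matrix.add_mulVec]
    have : (1 + Y + Y * Y) + (1 + (ω * ω) • Y + ω • (Y * Y)) + (1 + ω • Y + (ω * ω) • (Y * Y)) = (3 : F) • (1 : M4) := by
      have h7 : (1 + Y + Y * Y) + (1 + (ω * ω) • Y + ω • (Y * Y)) + (1 + ω • Y + (ω * ω) • (Y * Y)) =
          (3 : F) • (1 : M4) + (ω * ω + ω + 1) • Y + (ω * ω + ω + 1) • (Y * Y) := by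
        module
      rw [h7, hω]
      simp
    rw [this, Matrix.smul_mulVec, Matrix.one_mulVec, smul_smul, inv_mul_cancel₀ h3, one_smul]
  rwa [h5] at e4

/-- Dimension data of a unitary element of order three; `ω^q = ω`. -/
theorem cube_data {q : ℕ} [Fintype F] (hF : Fintype.card F = q ^ 2) {ω : F} (h3 : (3 : F) ≠ 0) (hω : ω * ω + ω + 1 = 0)
    (hωq : ω ^ q = ω) (hinj : ∀ a b : ℕ, a ≤ 4 → b ≤ 4 → (a : F) = b → a = b) {Y : M4} (hY : Y * (Y * Y) = 1)
    (hU : st q Y = Y * Y) (hns : ∀ c : F, Y ≠ c • 1) :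
    ∃ d : ℕ, (d = 1 ∨ d = 2) ∧ finrank F (ek Y (al3 ω 0)) = 4 - 2 * d ∧ finrank F (ek Y (al3 ω 1)) = d ∧
      finrank F (ek Y (al3 ω 2)) = d ∧ Y.trace = (if d = 1 then 1 else -2) := by
  have hS := cube_iSup h3 hω hY
  have hI := al3_inj h3 hω
  have hsum := sum_finrank hI hS
  rw [Fin.sum_univ_three] at hsum
  have htr := trace_of_eigen hI hS Y (al3 ω) (fun i v hv => hv)
  rw [Fin.sum_univ_three] at htr
  have htr2 := trace_of_eigen hI hS (Y * Y) (fun i => al3 ω i * al3 ω i) (fun i v hv => by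
    rw [← Matrix.mulVec_mulVec, hv, Matrix.mulVec_smul, hv, smul_smul])
  rw [Fin.sum_univ_three] at htr2
  have hω3 : ω * (ω * ω) = 1 := by linear_combination (ω - 1) * hω
  have hω4 : ω * ω * (ω * ω) = ω := by
    calc ω * ω * (ω * ω) = (ω * (ω * ω)) * ω := by ring
      _ = ω := by rw [hω3, one_mul]
  set d₀ := finrank F (ek Y (al3 ω 0)) with hd₀
  set d₁ := finrank F (ek Y (al3 ω 1)) with hd₁
  set d₂ := finrank F (ek Y (al3 ω 2)) with hd₂
  have hv0 : al3 ω 0 = 1 := rfl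
  have hv1 : al3 ω 1 = ω := rfl
  have hv2 : al3 ω 2 = ω * ω := rfl
  rw [hv0, hv1, hv2] at htr htr2
  rw [mul_one, hω4] at htr2
  have hfrob : Y.trace ^ q = Y.trace := by
    have h1 : Y.trace ^ q = sigma hF Y.trace := rfl
    have hs : sigma hF ω = ω := hωq
    rw [h1, htr]
    simp only [map_add, map_mul, map_natCast, map_one, hs]
  have hY2 : (Y * Y).trace = Y.trace := by
    rw [← hU, trace_st hF, hfrob]
  have hdiff : ((d₁ : F) - d₂) * (ω - ω * ω) = 0 := by
    rw [htr, htr2] at hY2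
    linear_combination -hY2
  have hne : ω - ω * ω ≠ 0 := by
    intro h
    have h5 := hI (show al3 ω 1 = al3 ω 2 from sub_eq_zero.1 h)
    exact absurd h5 (by decide)
  have hdd : (d₁ : F) = d₂ := sub_eq_zero.1 ((mul_eq_zero.1 hdiff).resolve_right hne)
  have hd12 : d₁ = d₂ := hinj _ _ (by omega) (by omega) hdd
  have hd₀4 : d₀ ≠ 4 := fun h => hns _ (eq_smul_one_of_top (top_of_finrank h))
  refine ⟨d₁, by omega, by omega, rfl, hd12.symm, ?_⟩
  have hcases : d₁ = 1 ∨ d₁ = 2 := by omega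
  rcases hcases with h1 | h1
  · have h0 : d₀ = 2 := by omega
    have h22 : d₂ = 1 := by omega
    rw [if_pos h1, htr, h0, h1, h22]
    push_cast
    linear_combination hω
  · have h0 : d₀ = 0 := by omega
    have h22 : d₂ = 2 := by omega
    rw [if_neg (by omega), htr, h0, h1, h22]
    push_cast
    linear_combination 2 * hω

/-- Unitary elements of order three with the same trace are conjugate. -/
theorem cube_conj {q : ℕ} [Fintype F] (hF : Fintype.card F = q ^ 2) {ω : F} (h3 : (3 : F) ≠ 0) (hω : ω * ω + ω + 1 = 0)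
    (hωq : ω ^ q = ω) (hinj : ∀ a b : ℕ, a ≤ 4 → b ≤ 4 → (a : F) = b → a = b) {Y Y' : M4} (hY : Y * (Y * Y) = 1)
    (hY' : Y' * (Y' * Y') = 1) (hU : st q Y = Y * Y) (hU' : st q Y' = Y' * Y') (hns : ∀ c : F, Y ≠ c • 1)
    (hns' : ∀ c : F, Y' ≠ c • 1) (htr : Y.trace = Y'.trace) : ∃ G : GL (Fin 4) F, (G : M4) * Y = Y' * (G : M4) := by
  obtain ⟨d, hd, h1, h2, h4, h5⟩ := cube_data hF h3 hω hωq hinj hY hU hns
  obtain ⟨d', hd', h1', h2', h4', h5'⟩ := cube_data hF h3 hω hωq hinj hY' hU' hns'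
  have hdd : d = d' := by
    rw [h5, h5'] at htr
    rcases hd with rfl | rfl <;> rcases hd' with rfl | rfl <;> first | rfl | exfalso
    · simp at htr
      apply h3
      linear_combination htr
    · simp at htr
      apply h3
      linear_combination -htr
  subst hdd
  apply conj_of_eigen (al3_inj h3 hω) (cube_iSup h3 hω hY) (cube_iSup h3 hω hY')
  intro i
  fin_cases i
  · show finrank F (ek Y (al3 ω 0)) = finrank F (ek Y' (al3 ω 0))
    rw [h1, h1']
  · show finrank F (ek Y (al3 ω 1)) = finrank F (ek Y' (al3 ω 1))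
    rw [h2, h2']
  · show finrank F (ek Y (al3 ω 2)) = finrank F (ek Y' (al3 ω 2))
    rw [h4, h4']

end Cfsg.Agent.Lib.SymType64E
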