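import Mathlib
import Cfsg.Agent.Lib.SymType64E

/-!
# Unitary elements of order five when `p` has order four modulo five
-/

set_option autoImplicit false
set_option linter.style.haveILetI false
set_option linter.unusedVariables false
set_option linter.unusedSectionVars false
set_option linter.unusedSimpArgs false
set_option linter.unreachableTactic false
set_option linter.unusedTactic false

namespace Cfsg.Agent.Lib.SymType64Five

open Module Cfsg Cfsg.Agent.Lib.HermCount Cfsg.Agent.Lib.SymType64NF Cfsg.Agent.Lib.SymType64U Cfsg.Agent.Lib.UnitaryConjGU Cfsg.Agent.Lib.UnitaryBasic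
  Cfsg.Agent.Lib.EigenConj Matrix
open scoped MatrixGroups

variable {F : Type*} [Field F] [Fintype F] {q : ℕ}

local notation "M4" => Matrix (Fin 4) (Fin 4) F

/-- The block form of an element of order five. -/
def Bτ (τ : F) : Matrix (Fin 4) (Fin 4) F := !![0,-1,0,0;1,τ,0,0;0,0,0,-1;0,0,1,-1-τ]
/-- The block form of `y + y⁻¹`. -/
def Tτ (τ : F) : Matrix (Fin 4) (Fin 4) F := !![τ,0,0,0;0,τ,0,0;0,0,-1-τ,0;0,0,0,-1-τ]

/-- The basic facts on the field used here. -/
structure TauData (q : ℕ) (τ : F) : Prop where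
  hτ : τ * τ + τ - 1 = 0
  hτq : τ ^ q = -1 - τ
  hne : (2 : F) * τ + 1 ≠ 0
  hne2 : τ ≠ 2
  hne2' : -1 - τ ≠ 2
  noζ : ∀ ζ : F, ζ ^ 5 = 1 → ζ = 1

theorem indep {τ' : F} (hne2 : τ' ≠ 2) (hno : ∀ ζ : F, ζ ^ 5 = 1 → ζ = 1) {Y Y4 : M4} (hY5 : Y * Y4 = 1) (hY4 : Y4 * Y = 1)
    (hp : Y ^ 5 = 1) {v : Fin 4 → F} (hv : v ≠ 0) (hh : (Y + Y4) *ᵥ v = τ' • v) {a b : F}
    (hab : a • v + b • (Y *ᵥ v) = 0) : a = 0 ∧ b = 0 := by
  by_cases hb : b = 0
  · subst hb
    simp only [zero_smul, add_zero] at hab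
    exact ⟨(smul_eq_zero.1 hab).resolve_right hv, rfl⟩
  · exfalso
    set l := -a / b with hl
    have h1 : Y *ᵥ v = l • v := by
      have h2 : b • (Y *ᵥ v) = (-a) • v := by
        rw [neg_smul]
        exact eq_neg_of_add_eq_zero_right hab
      calc Y *ᵥ v = b⁻¹ • (b • (Y *ᵥ v)) := by rw [smul_smul, inv_mul_cancel₀ hb, one_smul]
        _ = l • v := by rw [h2, smul_smul, hl]; congr 1; field_simp
    have hpow : ∀ k : ℕ, (Y ^ k) *ᵥ v = l ^ k • v := by
      intro k
      induction k with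
      | zero => simp
      | succ k ih =>
        rw [pow_succ, ← Matrix.mulVec_mulVec, h1, Matrix.mulVec_smul, ih, smul_smul, pow_succ, mul_comm]
    have h5 := hpow 5
    rw [hp, Matrix.one_mulVec] at h5
    have hl5 : l ^ 5 = 1 := by
      have h6 : (l ^ 5 - 1) • v = 0 := by rw [sub_smul, ← h5, one_smul, sub_self]
      exact sub_eq_zero.1 ((smul_eq_zero.1 h6).resolve_right hv)
    have hl1 := hno l hl5
    rw [hl1, one_smul] at h1
    have h4v : Y4 *ᵥ v = v := by
      calc Y4 *ᵥ v = Y4 *ᵥ (Y *ᵥ v) := by rw [h1]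
        _ = v := by rw [Matrix.mulVec_mulVec, hY4, Matrix.one_mulVec]
    rw [Matrix.add_mulVec, h1, h4v, ← two_smul F v] at hh
    have h7 : ((2 : F) - τ') • v = 0 := by rw [sub_smul, hh, sub_self]
    have h8 := (smul_eq_zero.1 h7).resolve_right hv
    exact hne2 (sub_eq_zero.1 h8).symm

theorem five_basis (hF : Fintype.card F = q ^ 2) {τ : F} (hd : TauData q τ) {Y : M4} (hU : st q Y * Y = 1) (hp : Y ^ 5 = 1)
    (hne : Y ≠ 1) : ∃ M : GL (Fin 4) F, Y * (M : M4) = (M : M4) * Bτ τ ∧ (Y + Y ^ 4) * (M : M4) = (M : M4) * Tτ τ := by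
  classical
  have hq0 : q ≠ 0 := by have := two_le_q hF; omega
  set τ' : F := -1 - τ with hτ'
  have hτ'q : τ' ^ q = τ := by
    have h1 : τ' ^ q = sigma hF τ' := rfl
    have h2 : sigma hF τ = -1 - τ := hd.hτq
    rw [h1, hτ', map_sub, map_neg, map_one, h2]
    ring
  have hτq : τ ^ q = τ' := hd.hτq
  have hττ' : τ - τ' ≠ 0 := by
    intro h
    apply hd.hne
    rw [hτ'] at h
    linear_combination h
  set Y4 : M4 := Y ^ 4 with hY4def
  have hY5 : Y * Y4 = 1 := by
    rw [hY4def, ← pow_succ', hp]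
  have hY4' : Y4 * Y = 1 := by
    rw [hY4def, ← pow_succ, hp]
  have hstY : st q Y = Y4 := by
    calc st q Y = st q Y * (Y * Y4) := by rw [hY5, mul_one]
      _ = Y4 := by rw [← mul_assoc, hU, one_mul]
  have hstY4 : st q Y4 = Y := by rw [← hstY, st_st hF]
  set H : M4 := Y + Y4 with hH
  have hstH : st q H = H := by
    rw [hH, st_add hF, hstY, hstY4, add_comm]
  have hYH : Y * H = H * Y := by
    rw [hH, mul_add, add_mul, hY5, hY4']
  have hfact : (H - τ • 1) * (H - τ' • 1) * (Y - 1) = 0 := by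
    have h1 : (H - τ • 1) * (H - τ' • 1) = 1 + Y + Y ^ 2 + Y ^ 3 + Y4 := by
      have h2 : H * H = Y ^ 2 + 2 • (1 : M4) + Y ^ 3 := by
        rw [hH, mul_add, add_mul, add_mul, hY5, hY4', hY4def]
        have : Y ^ 4 * Y ^ 4 = Y ^ 3 := by
          rw [← pow_add, show 4 + 4 = 5 + 3 by norm_num, pow_add, hp, one_mul]
        rw [this, pow_two]
        rw [two_nsmul]
        abel
      have h3 : τ * τ' = -1 := by
        rw [hτ']
        linear_combination -hd.hτ
      have h4 : τ + τ' = -1 := by rw [hτ']; ring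
      calc (H - τ • 1) * (H - τ' • 1) = H * H - (τ + τ') • H + (τ * τ') • 1 := by
            simp only [sub_mul, mul_sub, smul_mul_assoc, mul_smul_comm, one_mul, mul_one, smul_sub, smul_smul]
            module
        _ = 1 + Y + Y ^ 2 + Y ^ 3 + Y4 := by
            rw [h2, h3, h4, hH]
            simp only [neg_smul, one_smul, two_nsmul]
            abel
    rw [h1]
    have h5 : (1 + Y + Y ^ 2 + Y ^ 3 + Y4) * (Y - 1) = Y ^ 5 - 1 := by
      rw [hY4def]
      noncomm_ring
    rw [h5, hp, sub_self]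
  -- both eigenspaces are nonzero
  have hdet0 : (H - τ • 1).det = 0 ∨ (H - τ' • 1).det = 0 := by
    obtain ⟨w, hw⟩ : ∃ w, (Y - 1) *ᵥ w ≠ 0 := by
      by_contra hno
      push Not at hno
      apply hne
      apply mul_eq_of_mulVec
      intro w
      have := hno w
      rw [Matrix.sub_mulVec, Matrix.one_mulVec, sub_eq_zero] at this
      rw [this, Matrix.one_mulVec]
    have h1 : (H - τ • 1) *ᵥ ((H - τ' • 1) *ᵥ ((Y - 1) *ᵥ w)) = 0 := by
      rw [Matrix.mulVec_mulVec, Matrix.mulVec_mulVec, hfact, Matrix.zero_mulVec]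
    by_cases h2 : (H - τ' • 1) *ᵥ ((Y - 1) *ᵥ w) = 0
    · right
      exact Matrix.exists_mulVec_eq_zero_iff.1 ⟨_, hw, h2⟩
    · left
      exact Matrix.exists_mulVec_eq_zero_iff.1 ⟨_, h2, h1⟩
  have hst1 : st q (H - τ • 1) = H - τ' • 1 := by
    have h1 : st q (H - τ • 1) = st q H - st q (τ • (1 : M4)) := (isAnti_st hF).sub _ _
    rw [h1, hstH, st_smul_one hF, hτq]
  have hst2 : st q (H - τ' • 1) = H - τ • 1 := by
    have h1 : st q (H - τ' • 1) = st q H - st q (τ' • (1 : M4)) := (isAnti_st hF).sub _ _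
    rw [h1, hstH, st_smul_one hF, hτ'q]
  have hdet1 : (H - τ • 1).det = 0 := by
    rcases hdet0 with h | h
    · exact h
    · rw [← hst2, det_st hF, h, zero_pow hq0]
  have hdet2 : (H - τ' • 1).det = 0 := by
    rw [← hst1, det_st hF, hdet1, zero_pow hq0]
  obtain ⟨v, hv0, hv⟩ := Matrix.exists_mulVec_eq_zero_iff.2 hdet1
  obtain ⟨v', hv'0, hv'⟩ := Matrix.exists_mulVec_eq_zero_iff.2 hdet2
  have hHv : H *ᵥ v = τ • v := by
    rw [Matrix.sub_mulVec, Matrix.smul_mulVec, Matrix.one_mulVec, sub_eq_zero] at hv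
    exact hv
  have hHv' : H *ᵥ v' = τ' • v' := by
    rw [Matrix.sub_mulVec, Matrix.smul_mulVec, Matrix.one_mulVec, sub_eq_zero] at hv'
    exact hv'
  have hYY : ∀ {u : Fin 4 → F} {l : F}, H *ᵥ u = l • u → Y *ᵥ (Y *ᵥ u) = (-1 : F) • u + l • (Y *ᵥ u) := by
    intro u l hu
    have h1 : Y * H = Y * Y + 1 := by rw [hH, mul_add, hY5]
    have h2 : (Y * H) *ᵥ u = l • (Y *ᵥ u) := by
      rw [← Matrix.mulVec_mulVec, hu, Matrix.mulVec_smul]
    rw [h1, Matrix.add_mulVec, Matrix.one_mulVec, ← Matrix.mulVec_mulVec] at h2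
    rw [← h2]
    simp
  have hHY : ∀ {u : Fin 4 → F} {l : F}, H *ᵥ u = l • u → H *ᵥ (Y *ᵥ u) = l • (Y *ᵥ u) := by
    intro u l hu
    rw [Matrix.mulVec_mulVec, ← hYH, ← Matrix.mulVec_mulVec, hu, Matrix.mulVec_smul]
  set c : Fin 4 → Fin 4 → F := ![v, Y *ᵥ v, v', Y *ᵥ v'] with hc
  have hc0 : c 0 = v := rfl
  have hc1 : c 1 = Y *ᵥ v := rfl
  have hc2 : c 2 = v' := rfl
  have hc3 : c 3 = Y *ᵥ v' := rfl
  set h0 : M4 := Matrix.of (fun i j => c j i) with hh0
  have hmv : ∀ l : Fin 4 → F, h0 *ᵥ l = l 0 • c 0 + l 1 • c 1 + l 2 • c 2 + l 3 • c 3 := by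
    intro l
    ext i
    simp only [hh0, Matrix.mulVec, dotProduct, Matrix.of_apply, Fin.sum_univ_four, Pi.add_apply, Pi.smul_apply, smul_eq_mul]
    ring
  have hker : ∀ l : Fin 4 → F, h0 *ᵥ l = 0 → l = 0 := by
    intro l hl
    rw [hmv] at hl
    set A := l 0 • v + l 1 • (Y *ᵥ v) with hA
    set B := l 2 • v' + l 3 • (Y *ᵥ v') with hB
    have hAB : A + B = 0 := by
      rw [hA, hB, ← hl, hc0, hc1, hc2, hc3]
      abel
    have hHA : H *ᵥ A = τ • A := by
      rw [hA, Matrix.mulVec_add, Matrix.mulVec_smul, Matrix.mulVec_smul, hHv, hHY hHv, smul_add, smul_comm, smul_comm τ (l 1)]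
    have hHB : H *ᵥ B = τ' • B := by
      rw [hB, Matrix.mulVec_add, Matrix.mulVec_smul, Matrix.mulVec_smul, hHv', hHY hHv', smul_add, smul_comm, smul_comm τ' (l 3)]
    have h1 : τ • A + τ' • B = 0 := by
      rw [← hHA, ← hHB, ← Matrix.mulVec_add, hAB, Matrix.mulVec_zero]
    have hB' : B = -A := eq_neg_of_add_eq_zero_right hAB
    have h2 : (τ - τ') • A = 0 := by
      rw [hB', smul_neg, ← sub_eq_add_neg, ← sub_smul] at h1
      exact h1
    have hA0 : A = 0 := (smul_eq_zero.1 h2).resolve_left hττ'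
    have hB0 : B = 0 := by rw [hB', hA0, neg_zero]
    obtain ⟨e0, e1⟩ := indep hd.hne2 hd.noζ hY5 hY4' hp hv0 hHv hA0
    obtain ⟨e2, e3⟩ := indep hd.hne2' hd.noζ hY5 hY4' hp hv'0 hHv' hB0
    funext j
    fin_cases j
    · exact e0
    · exact e1
    · exact e2
    · exact e3
  have hinj : Function.Injective h0.mulVec := by
    intro a b hab
    have h3 : h0 *ᵥ (a - b) = 0 := by
      rw [Matrix.mulVec_sub]
      exact sub_eq_zero.2 hab
    exact sub_eq_zero.1 (hker _ h3)
  obtain ⟨M, hM⟩ := Matrix.mulVec_injective_iff_isUnit.1 hinj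
  refine ⟨M, ?_, ?_⟩
  · rw [hM]
    apply mul_cols
    intro j
    have e1 := hYY hHv
    have e2 := hYY hHv'
    fin_cases j
    · simp [Fin.sum_univ_four, Bτ, hc0, hc1, hc2, hc3]
    · simp [Fin.sum_univ_four, Bτ, hc0, hc1, hc2, hc3, e1]
    · simp [Fin.sum_univ_four, Bτ, hc0, hc1, hc2, hc3]
    · simp [Fin.sum_univ_four, Bτ, hc0, hc1, hc2, hc3, e2, hτ']
  · rw [hM]
    apply mul_cols
    intro j
    have e1 := hHY hHv
    have e2 := hHY hHv'
    fin_cases j
    · simp [Fin.sum_univ_four, Tτ, hc0, hc1, hc2, hc3, hHv]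
    · simp [Fin.sum_univ_four, Tτ, hc0, hc1, hc2, hc3, e1]
    · simp [Fin.sum_univ_four, Tτ, hc0, hc1, hc2, hc3, hHv', hτ']
    · simp [Fin.sum_univ_four, Tτ, hc0, hc1, hc2, hc3, e2, hτ']

open Polynomial in
theorem exists_form (h2 : (2 : F) ≠ 0) (hodd : Fintype.card F % 2 = 1) {τ : F} (hτ4 : τ * τ ≠ 4) (s : F) :
    ∃ a b : F, a * a + a * b * τ + b * b = s := by
  set d : F := (2 : F)⁻¹ with hd
  have h22 : (2 : F) * d = 1 := mul_inv_cancel₀ h2
  have hk : 1 - τ * τ * d * d ≠ 0 := by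
    intro h
    apply hτ4
    linear_combination (-4) * h + (-(τ * τ) * (1 + 2 * d)) * h22
  have hf : degree (X ^ 2 : F[X]) = 2 := degree_X_pow 2
  have hg : degree (C (1 - τ * τ * d * d) * X ^ 2 - C s : F[X]) = 2 := by
    rw [degree_sub_C]
    · exact degree_C_mul_X_pow 2 hk
    · rw [degree_C_mul_X_pow 2 hk]
      norm_num
  obtain ⟨u, b, hub⟩ := FiniteField.exists_root_sum_quadratic hf hg hodd
  simp only [eval_pow, eval_X, eval_sub, eval_mul, eval_C] at hub
  refine ⟨u - b * τ * d, b, ?_⟩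
  linear_combination hub + (b ^ 2 * τ ^ 2 * d - u * b * τ) * h22

/-- The centraliser of an element of order five has all determinants of norm one. -/
theorem five_cent (hF : Fintype.card F = q ^ 2) (h2 : (2 : F) ≠ 0) (hodd : Fintype.card F % 2 = 1) {τ : F} (hd : TauData q τ) {Y : M4}
    (hU : st q Y * Y = 1) (hp : Y ^ 5 = 1) (hne : Y ≠ 1) {t : F} (ht : t ^ q * t = 1) :
    ∃ c : GL (Fin 4) F, c ∈ GU 4 F q ∧ (c : M4) * Y = Y * (c : M4) ∧ (c : M4).det = t := by
  classical
  have hq0 : q ≠ 0 := by have := two_le_q hF; omega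
  obtain ⟨M, hM1, hM2⟩ := five_basis hF hd hU hp hne
  set τ' : F := -1 - τ with hτ'
  have hτ'q : τ' ^ q = τ := by
    have h1 : τ' ^ q = sigma hF τ' := rfl
    have h3 : sigma hF τ = -1 - τ := hd.hτq
    rw [h1, hτ', map_sub, map_neg, map_one, h3]
    ring
  have hτq : τ ^ q = τ' := hd.hτq
  have hττ' : τ - τ' ≠ 0 := by
    intro h
    apply hd.hne
    rw [hτ'] at h
    linear_combination h
  set Y4 : M4 := Y ^ 4 with hY4def
  have hY5 : Y * Y4 = 1 := by
    rw [hY4def, ← pow_succ', hp]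
  have hY4' : Y4 * Y = 1 := by
    rw [hY4def, ← pow_succ, hp]
  have hstY : st q Y = Y4 := by
    calc st q Y = st q Y * (Y * Y4) := by rw [hY5, mul_one]
      _ = Y4 := by rw [← mul_assoc, hU, one_mul]
  have hstY4 : st q Y4 = Y := by rw [← hstY, st_st hF]
  set H : M4 := Y + Y4 with hH
  have hstH : st q H = H := by
    rw [hH, st_add hF, hstY, hstY4, add_comm]
  set κ : F := (τ - τ')⁻¹ with hκ
  have hκ1 : κ * (τ - τ') = 1 := inv_mul_cancel₀ hττ'
  have hκq : κ ^ q = -κ := by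
    rw [hκ, inv_pow]
    have h3 : (τ - τ') ^ q = τ' - τ := by
      have h4 : (τ - τ') ^ q = sigma hF (τ - τ') := rfl
      rw [h4, map_sub]
      show τ ^ q - τ' ^ q = _
      rw [hτq, hτ'q]
    rw [h3, ← neg_sub, inv_neg]
  set Pi : M4 := κ • (H - τ' • 1) with hPi
  set Pi' : M4 := 1 - Pi with hPi'
  -- Everything commutes: polynomials in `Y`
  have hYH : Commute Y H := by
    show Y * H = H * Y
    rw [hH, mul_add, add_mul, hY5, hY4']
  have hY4H : Commute Y4 H := by
    show Y4 * H = H * Y4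
    rw [hH, mul_add, add_mul, hY5, hY4']
  have hYY4 : Commute Y Y4 := by
    show Y * Y4 = Y4 * Y
    rw [hY5, hY4']
  have hYPi : Commute Y Pi :=
    ((hYH.sub_right (Commute.smul_right (Commute.one_right Y) τ')).smul_right κ)
  have hY4Pi : Commute Y4 Pi :=
    ((hY4H.sub_right (Commute.smul_right (Commute.one_right Y4) τ')).smul_right κ)
  -- `(H - τ)(H - τ') = 0`
  have hfact : (H - τ • 1) * (H - τ' • 1) = 0 := by
    -- on the basis `M`
    have h3 : (H - τ • 1) * (H - τ' • 1) * (M : M4) = (M : M4) * ((Tτ τ - τ • 1) * (Tτ τ - τ' • 1)) := by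
      have e1 : ∀ l : F, (H - l • 1) * (M : M4) = (M : M4) * (Tτ τ - l • 1) := by
        intro l
        rw [sub_mul, hM2, mul_sub, smul_mul_assoc, one_mul, mul_smul_comm, mul_one]
      rw [mul_assoc, e1 τ', ← mul_assoc, e1 τ, mul_assoc]
    have h4 : (Tτ τ - τ • 1) * (Tτ τ - τ' • 1) = 0 := by
      ext i j
      fin_cases i <;> fin_cases j <;> simp [Tτ, Matrix.mul_apply, Fin.sum_univ_four, Matrix.one_apply, hτ']
    rw [h4, mul_zero] at h3
    have h5 : (M : M4) * ((M⁻¹ : GL (Fin 4) F) : M4) = 1 := by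
      rw [← Units.val_mul]; simp
    calc (H - τ • 1) * (H - τ' • 1) = (H - τ • 1) * (H - τ' • 1) * ((M : M4) * ((M⁻¹ : GL (Fin 4) F) : M4)) := by
          rw [h5, mul_one]
      _ = 0 := by rw [← mul_assoc, h3, zero_mul]
  have hPiH : Pi * H = τ • Pi := by
    have : (H - τ • 1) * Pi = 0 := by
      rw [hPi, mul_smul_comm, hfact, smul_zero]
    have h3 : Commute H Pi := ((Commute.refl H).sub_right (Commute.smul_right (Commute.one_right H) τ')).smul_right κ
    rw [sub_mul, smul_mul_assoc, one_mul, sub_eq_zero] at this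
    rw [← h3.eq, this]
  have hPiPi : Pi * Pi = Pi := by
    calc Pi * Pi = κ • (Pi * H - τ' • Pi) := by
          rw [hPi]
          simp only [mul_smul_comm, mul_sub, mul_one]
      _ = (κ * (τ - τ')) • Pi := by rw [hPiH, ← sub_smul, smul_smul]
      _ = Pi := by rw [hκ1, one_smul]
  have hPiPi' : Pi * Pi' = 0 := by
    rw [hPi', mul_sub, mul_one, hPiPi, sub_self]
  have hPi'Pi : Pi' * Pi = 0 := by
    rw [hPi', sub_mul, one_mul, hPiPi, sub_self]
  have hPi'Pi' : Pi' * Pi' = Pi' := by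
    rw [hPi', sub_mul, one_mul, mul_sub, mul_one, hPiPi, sub_self, sub_zero]
  have hPi'H : Pi' * H = τ' • Pi' := by
    have h3 : κ • ((τ - τ') • (H - τ • 1)) = H - τ • 1 := by
      rw [smul_smul, hκ1, one_smul]
    have h4 : Pi' = (-κ) • (H - τ • 1) := by
      rw [hPi', hPi]
      have h5 : (1 : M4) = (κ * (τ - τ')) • 1 := by rw [hκ1, one_smul]
      nth_rewrite 1 [h5]
      module
    rw [h4, smul_mul_assoc]
    have h6 : (H - τ • 1) * H = τ' • (H - τ • 1) := by
      have h7 : (H - τ • 1) * (H - τ' • 1) = (H - τ • 1) * H - τ' • (H - τ • 1) := by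
        rw [mul_sub, mul_smul_comm, mul_one]
      rw [hfact] at h7
      exact (sub_eq_zero.1 h7.symm)
    rw [h6, smul_comm]
  have hstPi : st q Pi = Pi' := by
    have h3 : st q (τ' • (1 : M4)) = τ • 1 := by rw [st_smul_one hF, hτ'q]
    have h4 : st q (H - τ' • 1) = H - τ • 1 := by
      have h1 : st q (H - τ' • 1) = st q H - st q (τ' • (1 : M4)) := (isAnti_st hF).sub _ _
      rw [h1, hstH, h3]
    have h5 : st q Pi = κ ^ q • st q (H - τ' • 1) := by
      rw [hPi]
      have h6 : κ • (H - τ' • 1) = (κ • (1 : M4)) * (H - τ' • 1) := by simp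
      rw [h6, st_mul hF, st_smul_one hF]
      simp
    rw [h5, h4, hκq, hPi', hPi]
    have h5 : (1 : M4) = (κ * (τ - τ')) • 1 := by rw [hκ1, one_smul]
    nth_rewrite 2 [h5]
    module
  have hstPi' : st q Pi' = Pi := by
    rw [← hstPi, st_st hF]
  -- the parameters
  obtain ⟨s, hs0, hst⟩ := Cfsg.Agent.Lib.GUParab.hilbert90 hF (l := t) (by
    rw [HermCount.nrm, mul_comm]; exact ht)
  have hτ4 : τ * τ ≠ 4 := by
    intro h
    apply hd.hne
    have h5 : τ = -3 := by linear_combination hd.hτ - h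
    have h6 : (5 : F) = 0 := by
      rw [h5] at h
      linear_combination h
    have h7 : ((2 : F) * τ + 1) * ((2 : F) * τ + 1) = 0 := by
      linear_combination 4 * hd.hτ + h6
    exact mul_self_eq_zero.1 h7
  obtain ⟨a, b, hab⟩ := exists_form h2 hodd hτ4 s
  have hsq : s ^ q = a ^ q * a ^ q + a ^ q * b ^ q * τ' + b ^ q * b ^ q := by
    have h3 := congrArg (sigma hF) hab
    simp only [map_add, map_mul, sigma_apply, hτq] at h3
    exact h3.symm
  have hsq0 : s ^ q ≠ 0 := pow_ne_zero _ hs0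
  set z : F := (s ^ q)⁻¹ with hz
  have hzs : z * s ^ q = 1 := inv_mul_cancel₀ hsq0
  set α : F := a ^ q * z with hα
  set β : F := b ^ q * z with hβ
  have hzq : z ^ q = s⁻¹ := by
    rw [hz, inv_pow, pow_q_pow_q hF]
  have hαq : α ^ q = a * s⁻¹ := by
    rw [hα, mul_pow, pow_q_pow_q hF, hzq]
  have hβq : β ^ q = b * s⁻¹ := by
    rw [hβ, mul_pow, pow_q_pow_q hF, hzq]
  set u : M4 := a • 1 + b • Y with hu
  set u' : M4 := α • 1 + β • Y with hu'
  set ub : M4 := a ^ q • 1 + b ^ q • Y4 with hub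
  set ub' : M4 := α ^ q • 1 + β ^ q • Y4 with hub'
  have hstu : st q u = ub := by
    rw [hu, st_add hF, ← mul_one (a • (1 : M4))]
    have h3 : st q (b • Y) = b ^ q • Y4 := by
      have h6 : b • Y = (b • (1 : M4)) * Y := by simp
      rw [h6, st_mul hF, st_smul_one hF, hstY]
      simp
    rw [h3, mul_one, st_smul_one hF]
  have hstu' : st q u' = ub' := by
    rw [hu', st_add hF]
    have h3 : st q (β • Y) = β ^ q • Y4 := by
      have h6 : β • Y = (β • (1 : M4)) * Y := by simp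
      rw [h6, st_mul hF, st_smul_one hF, hstY]
      simp
    rw [h3, st_smul_one hF]
  have cPY : ∀ (l m : F), Commute Pi (l • 1 + m • Y) := fun l m =>
    (Commute.add_right (Commute.smul_right (Commute.one_right Pi) l) (Commute.smul_right hYPi.symm m))
  have cPY4 : ∀ (l m : F), Commute Pi (l • 1 + m • Y4) := fun l m =>
    (Commute.add_right (Commute.smul_right (Commute.one_right Pi) l) (Commute.smul_right hY4Pi.symm m))
  have cP'Y : ∀ (l m : F), Commute Pi' (l • 1 + m • Y) := fun l m =>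
    (Commute.sub_left (Commute.one_left _) (cPY l m))
  have cP'Y4 : ∀ (l m : F), Commute Pi' (l • 1 + m • Y4) := fun l m =>
    (Commute.sub_left (Commute.one_left _) (cPY4 l m))
  set c : M4 := Pi * u + Pi' * u' with hc
  have hstc : st q c = ub * Pi' + ub' * Pi := by
    rw [hc, st_add hF, st_mul hF, st_mul hF, hstPi, hstPi', hstu, hstu']
  have hterm1 : Pi' * (ub * u') = Pi' := by
    have h3 : ub * u' = (z * (a ^ q * a ^ q + b ^ q * b ^ q)) • 1 + (z * (a ^ q * b ^ q)) • H := by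
      rw [hub, hu', hH, hα, hβ]
      simp only [add_mul, mul_add, smul_mul_assoc, mul_smul_comm, one_mul, mul_one, hY4']
      module
    rw [h3, mul_add, mul_smul_comm, mul_smul_comm, mul_one, hPi'H, smul_smul, ← add_smul]
    have h4 : z * (a ^ q * a ^ q + b ^ q * b ^ q) + z * (a ^ q * b ^ q) * τ' = 1 := by
      rw [← hzs, hsq]
      ring
    rw [h4, one_smul]
  have hterm2 : Pi * (ub' * u) = Pi := by
    have h3 : ub' * u = (s⁻¹ * (a * a + b * b)) • 1 + (s⁻¹ * (a * b)) • H := by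
      rw [hub', hu, hH, hαq, hβq]
      simp only [add_mul, mul_add, smul_mul_assoc, mul_smul_comm, one_mul, mul_one, hY4']
      module
    rw [h3, mul_add, mul_smul_comm, mul_smul_comm, mul_one, hPiH]
    have h4 : s⁻¹ * (a * a + b * b) + s⁻¹ * (a * b) * τ = 1 := by
      have h5 : s⁻¹ * s = 1 := inv_mul_cancel₀ hs0
      calc s⁻¹ * (a * a + b * b) + s⁻¹ * (a * b) * τ = s⁻¹ * (a * a + a * b * τ + b * b) := by ring
        _ = s⁻¹ * s := by rw [hab]
        _ = 1 := h5
    calc (s⁻¹ * (a * a + b * b)) • Pi + (s⁻¹ * (a * b)) • τ • Pi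
        = (s⁻¹ * (a * a + b * b) + s⁻¹ * (a * b) * τ) • Pi := by
          generalize Pi = PP
          module
      _ = Pi := by rw [h4, one_smul]
  have hcc : st q c * c = 1 := by
    rw [hstc, hc]
    have e1 : ub * Pi' = Pi' * ub := (cP'Y4 _ _).symm.eq
    have e2 : ub' * Pi = Pi * ub' := (cPY4 _ _).symm.eq
    have e3 : ub * Pi = Pi * ub := (cPY4 _ _).symm.eq
    have e4 : ub' * Pi' = Pi' * ub' := (cP'Y4 _ _).symm.eq
    calc (ub * Pi' + ub' * Pi) * (Pi * u + Pi' * u')
        = ub * (Pi' * Pi) * u + (ub * Pi') * (Pi' * u') + (ub' * Pi) * (Pi * u) + ub' * (Pi * Pi') * u' := by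
          simp only [add_mul, mul_add, mul_assoc]
          abel
      _ = Pi' * (ub * u') + Pi * (ub' * u) := by
          rw [hPi'Pi, hPiPi', mul_zero, zero_mul, mul_zero, zero_mul, e1, e2, zero_add, add_zero]
          calc Pi' * ub * (Pi' * u') + Pi * ub' * (Pi * u) = Pi' * (ub * Pi') * u' + Pi * (ub' * Pi) * u := by
                simp only [mul_assoc]
            _ = (Pi' * Pi') * (ub * u') + (Pi * Pi) * (ub' * u) := by
                rw [e1, e2]
                simp only [mul_assoc]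
            _ = _ := by rw [hPi'Pi', hPiPi]
      _ = 1 := by rw [hterm1, hterm2, hPi']; abel
  have hcc' : c * st q c = 1 := mul_eq_one_comm.1 hcc
  have hcY : c * Y = Y * c := by
    have h3 : Commute c Y := by
      refine Commute.add_left (Commute.mul_left hYPi.symm ?_) (Commute.mul_left ?_ ?_)
      · exact Commute.add_left (Commute.smul_left (Commute.one_left Y) a) (Commute.smul_left (Commute.refl Y) b)
      · exact Commute.sub_left (Commute.one_left Y) hYPi.symm
      · exact Commute.add_left (Commute.smul_left (Commute.one_left Y) α) (Commute.smul_left (Commute.refl Y) β)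
    exact h3.eq
  let cG : GL (Fin 4) F := ⟨c, st q c, hcc', hcc⟩
  have hcGv : (cG : M4) = c := rfl
  refine ⟨cG, mem_of_st_mul_self hF hcc, hcY, ?_⟩
  rw [hcGv]
  -- determinant
  have hMinv : (M : M4) * ((M⁻¹ : GL (Fin 4) F) : M4) = 1 := by
    rw [← Units.val_mul]; simp
  have hMdet : (M : M4).det ≠ 0 := by
    intro h0
    have := congrArg Matrix.det hMinv
    rw [Matrix.det_mul, h0, zero_mul, Matrix.det_one] at this
    exact zero_ne_one this
  set c₀ : M4 := !![a,-b,0,0;b,a+b*τ,0,0;0,0,α,-β;0,0,β,α+β*τ'] with hc₀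
  have hcM : c * (M : M4) = (M : M4) * c₀ := by
    have e1 : (H - τ' • 1) * (M : M4) = (M : M4) * (Tτ τ - τ' • 1) := by
      rw [sub_mul, hM2, mul_sub, smul_mul_assoc, one_mul, mul_smul_comm, mul_one]
    set P₀ : M4 := κ • (Tτ τ - τ' • 1) with hP₀
    have e2 : Pi * (M : M4) = (M : M4) * P₀ := by
      rw [hPi, smul_mul_assoc, e1, hP₀, mul_smul_comm]
    have e3 : Pi' * (M : M4) = (M : M4) * (1 - P₀) := by
      rw [hPi', sub_mul, one_mul, e2, mul_sub, mul_one]
    have e4 : u * (M : M4) = (M : M4) * (a • 1 + b • Bτ τ) := by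
      rw [hu, add_mul, smul_mul_assoc, smul_mul_assoc, one_mul, hM1, mul_add, mul_smul_comm, mul_smul_comm, mul_one]
    have e5 : u' * (M : M4) = (M : M4) * (α • 1 + β • Bτ τ) := by
      rw [hu', add_mul, smul_mul_assoc, smul_mul_assoc, one_mul, hM1, mul_add, mul_smul_comm, mul_smul_comm, mul_one]
    have e6 : P₀ * (a • 1 + b • Bτ τ) + (1 - P₀) * (α • 1 + β • Bτ τ) = c₀ := by
      have hκ3 : κ * (τ - (-1 - τ)) = 1 := hκ1
      ext i j
      fin_cases i <;> fin_cases j <;>
        simp [hP₀, hc₀, Tτ, Bτ, Matrix.mul_apply, Fin.sum_univ_four, Matrix.one_apply, hτ'] <;>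
        first
          | linear_combination (a - α) * hκ3
          | linear_combination (β - b) * hκ3
          | linear_combination (b - β) * hκ3
          | linear_combination (a + b * τ - α - β * τ) * hκ3
    rw [hc, add_mul, mul_assoc, e4, ← mul_assoc, e2, mul_assoc Pi', e5, ← mul_assoc Pi', e3, mul_assoc, mul_assoc, ← mul_add, e6]
  have hdet : c.det = c₀.det := by
    have := congrArg Matrix.det hcM
    rw [Matrix.det_mul, Matrix.det_mul, mul_comm] at this
    exact mul_left_cancel₀ hMdet this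
  rw [hdet]
  have hc₀det : c₀.det = (a * (a + b * τ) + b * b) * (α * (α + β * τ') + β * β) := by
    rw [hc₀]
    have e : Fin.succAbove (1 : Fin 4) (2 : Fin 3) = 3 := by decide
    simp [Matrix.det_succ_row_zero, Fin.sum_univ_succ, Matrix.submatrix, e]
    ring
  rw [hc₀det]
  have h5 : a * (a + b * τ) + b * b = s := by rw [← hab]; ring
  have h6 : α * (α + β * τ') + β * β = z := by
    rw [hα, hβ]
    calc a ^ q * z * (a ^ q * z + b ^ q * z * τ') + b ^ q * z * (b ^ q * z)
        = z * z * (a ^ q * a ^ q + a ^ q * b ^ q * τ' + b ^ q * b ^ q) := by ring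
      _ = z * (z * s ^ q) := by rw [← hsq]; ring
      _ = z := by rw [hzs, mul_one]
  rw [h5, h6, hz]
  calc s * (s ^ q)⁻¹ = t * s ^ q * (s ^ q)⁻¹ := by rw [← hst]
    _ = t := by rw [mul_assoc, mul_inv_cancel₀ hsq0, mul_one]

end Cfsg.Agent.Lib.SymType64Five
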