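import Mathlib
import Cfsg.Agent.Lib.SymType64Five

/-!
# Explicit centralising unitary matrices with prescribed determinant.
-/

set_option autoImplicit false
set_option linter.style.haveILetI false
set_option linter.unusedVariables false
set_option linter.unusedSectionVars false
set_option linter.unusedSimpArgs false
set_option linter.unreachableTactic false
set_option linter.unusedTactic false

namespace Cfsg.Agent.Lib.SymType64Cent

open Module Cfsg Cfsg.Agent.Lib.HermCount Cfsg.Agent.Lib.SymType64NF Cfsg.Agent.Lib.SymType64Model Cfsg.Agent.Lib.SymType64U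
  Cfsg.Agent.Lib.UnitaryConjGU Cfsg.Agent.Lib.UnitaryBasic Cfsg.Agent.Lib.EigenConj Matrix
open scoped MatrixGroups

variable {F : Type*} [Field F] [Fintype F] {q : ℕ}

local notation "M4" => Matrix (Fin 4) (Fin 4) F

/-- `diag(t, 1, 1, 1)`. -/
def c0d (t : F) : Matrix (Fin 4) (Fin 4) F := !![t,0,0,0;0,1,0,0;0,0,1,0;0,0,0,1]

/-- The quasireflection in the singlet vector `(0, 1, -1, 0)`; `d = 1/2`. -/
def c0s (d t : F) : Matrix (Fin 4) (Fin 4) F :=
  !![1,0,0,0;0,(1+t)*d,(1-t)*d,0;0,(1-t)*d,(1+t)*d,0;0,0,0,1]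

/-- The matrix `a + b A` on the block `{0, 2}`, with `α, β, δ` the entries of `A`. -/
def c0e (a b α β δ : F) : Matrix (Fin 4) (Fin 4) F :=
  !![a+b*α,0,b*β,0;0,1,0,0;b*α,0,a+b*δ,0;0,0,0,1]

theorem map_c0d (σ : F →+* F) (t : F) : (c0d t).map σ = c0d (σ t) := by
  ext i j
  fin_cases i <;> fin_cases j <;> simp [c0d]

theorem map_c0s (σ : F →+* F) (d t : F) : (c0s d t).map σ = c0s (σ d) (σ t) := by
  ext i j
  fin_cases i <;> fin_cases j <;> simp [c0s]

theorem map_c0e (σ : F →+* F) (a b α β δ : F) : (c0e a b α β δ).map σ = c0e (σ a) (σ b) (σ α) (σ β) (σ δ) := by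
  ext i j
  fin_cases i <;> fin_cases j <;> simp [c0e]

theorem det_c0d (t : F) : (c0d t).det = t := by
  have e : Fin.succAbove (1 : Fin 4) (2 : Fin 3) = 3 := by decide
  simp [c0d, Matrix.det_succ_row_zero, Fin.sum_univ_succ, Matrix.submatrix, e]

theorem det_c0s {d t : F} (hd : 2 * d = 1) : (c0s d t).det = t := by
  have e : Fin.succAbove (1 : Fin 4) (2 : Fin 3) = 3 := by decide
  simp [c0s, Matrix.det_succ_row_zero, Fin.sum_univ_succ, Matrix.submatrix, e]
  linear_combination t * (2 * d + 1) * hd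

theorem det_c0e {a b α β δ : F} (h1 : α + δ = -1) (h2 : 2 * (α * δ) = 1) (h3 : β = -δ) :
    (c0e a b α β δ).det = a * a - a * b + b * b := by
  have e : Fin.succAbove (1 : Fin 4) (2 : Fin 3) = 3 := by decide
  have e' : Fin.succAbove (2 : Fin 4) (2 : Fin 3) = 3 := by decide
  simp [c0e, Matrix.det_succ_row_zero, Fin.sum_univ_succ, Matrix.submatrix, e, e']
  subst h3
  linear_combination (a * b) * h1 + (b * b) * h2

theorem st_c0d (hF : Fintype.card F = q ^ 2) {t : F} (ht : t ^ q * t = 1) : st q (c0d t) * c0d t = 1 := by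
  rw [st_eq hF, map_c0d]
  have h0 : sigma hF t * t = 1 := ht
  ext i j
  fin_cases i <;> fin_cases j <;> simp [c0d, Matrix.mul_apply, Fin.sum_univ_four, Matrix.one_apply, h0, ht]

theorem st_c0s (hF : Fintype.card F = q ^ 2) {d t : F} (hd : 2 * d = 1) (hdq : d ^ q = d) (ht : t ^ q * t = 1) :
    st q (c0s d t) * c0s d t = 1 := by
  rw [st_eq hF, map_c0s]
  have h0 : sigma hF t * t = 1 := ht
  have h1 : sigma hF d = d := hdq
  rw [h1]
  generalize sigma hF t = t' at h0
  have e1 : (1 + t') * d * ((1 + t) * d) + (1 - t') * d * ((1 - t) * d) = 1 := by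
    linear_combination (2 * d * d) * h0 + (2 * d + 1) * hd
  have e2 : (1 + t') * d * ((1 - t) * d) + (1 - t') * d * ((1 + t) * d) = 0 := by
    linear_combination (-2 * d * d) * h0 + (2 * d * d - 2 * d * d) * hd
  have e3 : (1 - t') * d * ((1 + t) * d) + (1 + t') * d * ((1 - t) * d) = 0 := by
    linear_combination (-2 * d * d) * h0
  have e4 : (1 - t') * d * ((1 - t) * d) + (1 + t') * d * ((1 + t) * d) = 1 := by
    linear_combination (2 * d * d) * h0 + (2 * d + 1) * hd
  ext i j
  fin_cases i <;> fin_cases j <;>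
    simp [c0s, Matrix.mul_apply, Fin.sum_univ_four, Matrix.one_apply, e1, e2, e3, e4]

/-- Unitarity of `c0e` with the entries of the standard element of order three. -/
theorem st_c0e (hF : Fintype.card F = q ^ 2) {a b α β δ : F} (h1 : α + δ = -1) (h2 : 2 * (α * δ) = 1) (h3 : β = -δ)
    (hαq : α ^ q = δ) (hδq : δ ^ q = α) (hβq : β ^ q = -α)
    (R1 : a ^ q * b = a * b ^ q) (R2 : a ^ q * a + b ^ q * b - a * b ^ q = 1) :
    st q (c0e a b α β δ) * c0e a b α β δ = 1 := by
  rw [st_eq hF, map_c0e]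
  have e1 : sigma hF α = δ := hαq
  have e2 : sigma hF β = -α := hβq
  have e3 : sigma hF δ = α := hδq
  rw [e1, e2, e3]
  have R1' : sigma hF a * b = a * sigma hF b := R1
  have R2' : sigma hF a * a + sigma hF b * b - a * sigma hF b = 1 := R2
  generalize sigma hF a = a' at R1' R2'
  generalize sigma hF b = b' at R1' R2'
  subst h3
  have f1 : (a' + b' * δ) * (a + b * α) + b' * δ * (b * α) = 1 := by
    linear_combination R2' + α * R1' + (a * b') * h1 + (b' * b) * h2
  have f2 : -((a' + b' * δ) * (b * δ)) + b' * δ * (a + b * δ) = 0 := by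
    linear_combination (-δ) * R1'
  have f3 : -(b' * α * (a + b * α)) + (a' + b' * α) * (b * α) = 0 := by
    linear_combination α * R1'
  have f4 : b' * α * (b * δ) + (a' + b' * α) * (a + b * δ) = 1 := by
    linear_combination R2' + δ * R1' + (a * b') * h1 + (b' * b) * h2
  ext i j
  fin_cases i <;> fin_cases j <;>
    simp [c0e, Matrix.mul_apply, Fin.sum_univ_four, Matrix.one_apply, f1, f2, f3, f4]

/-- Parameters for `c0e` of determinant `t`. -/
theorem exists_c0e_params (hF : Fintype.card F = q ^ 2) {ω : F} (hω : ω * ω + ω + 1 = 0) (hωq : ω ^ q = ω)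
    (h3 : (3 : F) ≠ 0) {t : F} (ht : t ^ q * t = 1) :
    ∃ a b : F, a ^ q * b = a * b ^ q ∧ a ^ q * a + b ^ q * b - a * b ^ q = 1 ∧ a * a - a * b + b * b = t := by
  have hnrm : nrm q t = 1 := by rw [nrm, mul_comm]; exact ht
  obtain ⟨s, hs0, hs⟩ := Cfsg.Agent.Lib.GUParab.hilbert90 hF hnrm
  have hq0 : q ≠ 0 := by have := two_le_q hF; omega
  have hsq2 : (s ^ q) ^ q = s := by
    rw [← pow_mul, ← pow_two, ← hF]
    exact FiniteField.pow_card s
  have hsq0 : s ^ q ≠ 0 := pow_ne_zero _ hs0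
  have hd : ω - ω * ω ≠ 0 := by
    intro h
    apply h3
    have h4 : (ω - ω * ω) * (ω - ω * ω) = -3 := by
      linear_combination (ω * ω - 3 * ω + 3) * hω
    rw [h, mul_zero] at h4
    linear_combination h4
  set s' : F := (s ^ q)⁻¹ with hs'
  set b : F := (s - s') / (ω - ω * ω) with hb
  set a : F := s - b * ω with ha
  have hA : a + b * ω = s := by rw [ha]; ring
  have hB : a + b * (ω * ω) = s' := by
    have h5 : b * (ω - ω * ω) = s - s' := by rw [hb]; exact div_mul_cancel₀ _ hd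
    rw [ha]; linear_combination -h5
  have hss' : s ^ q * s' = 1 := by rw [hs']; exact mul_inv_cancel₀ hsq0
  -- apply `σ`
  set σ := sigma hF with hσ
  have hσω : σ ω = ω := hωq
  have hA' : σ a + σ b * ω = s ^ q := by
    have := congrArg σ hA
    rw [map_add, map_mul, hσω] at this
    exact this
  have hB' : σ a + σ b * (ω * ω) = s⁻¹ := by
    have := congrArg σ hB
    rw [map_add, map_mul, map_mul, hσω] at this
    rw [this, hs']
    show (σ ((s ^ q)⁻¹)) = s⁻¹
    rw [map_inv₀]
    show ((s ^ q) ^ q)⁻¹ = s⁻¹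
    rw [hsq2]
  have e1 : (σ a + σ b * (ω * ω)) * (a + b * ω) = 1 := by
    rw [hB', hA]; exact inv_mul_cancel₀ hs0
  have e2 : (σ a + σ b * ω) * (a + b * (ω * ω)) = 1 := by
    rw [hA', hB]; exact hss'
  have h8 : s * s' = t := by
    rw [hs']
    nth_rewrite 1 [hs]
    rw [mul_assoc, mul_inv_cancel₀ hsq0, mul_one]
  have hω3 : ω * (ω * ω) = 1 := by linear_combination (ω - 1) * hω
  have h9 : a * a - a * b + b * b = t := by
    rw [← h8, ← hA, ← hB]
    linear_combination (-a * b) * hω - (b * b) * hω3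
  refine ⟨a, b, ?_⟩
  show σ a * b = a * σ b ∧ σ a * a + σ b * b - a * σ b = 1 ∧ a * a - a * b + b * b = t
  refine ⟨?_, ?_, h9⟩ <;> clear_value σ <;> generalize σ a = a' at * <;> generalize σ b = b' at *
  · have h6 : (a' * b - a * b') * (ω - ω * ω) = 0 := by
      linear_combination e1 - e2
    rcases mul_eq_zero.1 h6 with h7 | h7
    · linear_combination h7
    · exact absurd h7 hd
  · have h6 : (a' * b - a * b') * (ω - ω * ω) = 0 := by
      linear_combination e1 - e2
    have R1 : a' * b = a * b' := by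
      rcases mul_eq_zero.1 h6 with h7 | h7
      · linear_combination h7
      · exact absurd h7 hd
    linear_combination e1 - (a * b') * hω - ω * R1 - b' * b * (ω - 1) * hω

section transport

variable {h : GL (Fin 4) F} {c : F}

/-- Conjugates by `h` (with scalar Gram matrix) of unitary matrices lie in `GU`. -/
theorem conj_mem_GU (hF : Fintype.card F = q ^ 2) (hG : st q (h : M4) * (h : M4) = c • 1) {D₀ : GL (Fin 4) F}
    (hD₀ : st q (D₀ : M4) * (D₀ : M4) = 1) : h * D₀ * h⁻¹ ∈ GU 4 F q := by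
  apply mem_of_st_mul_self hF
  simpa only [Units.val_mul] using conj_unitary hF hG hD₀

/-- A unit from a unitary matrix. -/
noncomputable def unitGL (hF : Fintype.card F = q ^ 2) (X : M4) (hX : st q X * X = 1) : GL (Fin 4) F :=
  ⟨X, st q X, mul_eq_one_comm.1 hX, hX⟩

theorem unitGL_val (hF : Fintype.card F = q ^ 2) (X : M4) (hX : st q X * X = 1) :
    ((unitGL hF X hX : GL (Fin 4) F) : M4) = X := rfl

/-- Transport of a centralising unitary element of prescribed determinant. -/
theorem cent_transport (hF : Fintype.card F = q ^ 2) (hG : st q (h : M4) * (h : M4) = c • 1) {D₀ : GL (Fin 4) F}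
    {c₀ : M4} {t : F} (hc₀ : st q c₀ * c₀ = 1) (hcomm : c₀ * (D₀ : M4) = (D₀ : M4) * c₀) (hdet : c₀.det = t) :
    ∃ c' ∈ GU 4 F q, c' * (h * D₀ * h⁻¹) = (h * D₀ * h⁻¹) * c' ∧ (c' : M4).det = t := by
  refine ⟨h * unitGL hF c₀ hc₀ * h⁻¹, conj_mem_GU hF hG hc₀, ?_, ?_⟩
  · have h1 : unitGL hF c₀ hc₀ * D₀ = D₀ * unitGL hF c₀ hc₀ := Units.ext hcomm
    calc h * unitGL hF c₀ hc₀ * h⁻¹ * (h * D₀ * h⁻¹) = h * (unitGL hF c₀ hc₀ * D₀) * h⁻¹ := by group
      _ = h * (D₀ * unitGL hF c₀ hc₀) * h⁻¹ := by rw [h1]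
      _ = _ := by group
  · have h2 : Matrix.GeneralLinearGroup.det (h * unitGL hF c₀ hc₀ * h⁻¹) = Matrix.GeneralLinearGroup.det (unitGL hF c₀ hc₀) := by
      rw [map_mul, map_mul, map_inv, mul_comm, ← mul_assoc, inv_mul_cancel, one_mul]
    have h3 := congrArg (Units.val) h2
    exact h3.trans hdet

end transport

end Cfsg.Agent.Lib.SymType64Cent
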