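import Mathlib
import Cfsg.Agent.Lib.SymType64Cent
import Cfsg.Agent.Lib.SymType64E

/-!
# Positive cases: the elements of order two, three and five which normalise `R`.
-/

set_option autoImplicit false
set_option linter.style.haveILetI false
set_option linter.unusedVariables false
set_option linter.unusedSectionVars false
set_option linter.unusedSimpArgs false
set_option linter.unreachableTactic false
set_option linter.unusedTactic false

namespace Cfsg.Agent.Lib.SymType64Pos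

open Subgroup Module Cfsg Cfsg.Geo Cfsg.Agent.Lib.HermCount Cfsg.Agent.Lib.SymType64NF Cfsg.Agent.Lib.SymType64Model
  Cfsg.Agent.Lib.SymType64U Cfsg.Agent.Lib.SymType64M Cfsg.Agent.Lib.SymType64Neg
  Cfsg.Agent.Lib.UnitaryConjGU Cfsg.Agent.Lib.UnitaryBasic Cfsg.Agent.Lib.EigenConj Cfsg.Agent.Lib.SymType64E
  Cfsg.Agent.Lib.SymType64Cent Matrix
open scoped MatrixGroups

variable {F : Type*} [Field F] [Fintype F] {q : ℕ} {R : Subgroup (GL (Fin 4) F)}

local notation "M4" => Matrix (Fin 4) (Fin 4) F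

theorem st_smul (a : F) (X : M4) : st q (a • X) = (a ^ q) • st q X := by
  ext i j
  simp [st_apply, mul_pow]

theorem two_inv_pow (hF : Fintype.card F = q ^ 2) : ((2 : F)⁻¹) ^ q = (2 : F)⁻¹ := by
  have h1 : ((2 : F)⁻¹) ^ q = sigma hF ((2 : F)⁻¹) := rfl
  rw [h1, map_inv₀, map_ofNat]

/-- Half of a matrix with Hermitian adjoint of norm `4` is unitary. -/
theorem st_half_unitary (hF : Fintype.card F = q ^ 2) (h2 : (2 : F) ≠ 0) {X X' : M4} (hst : st q X = X')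
    (hX : X' * X = (4 : F) • 1) : st q ((2 : F)⁻¹ • X) * ((2 : F)⁻¹ • X) = 1 := by
  rw [st_smul, two_inv_pow hF, hst, smul_mul_smul_comm, hX, smul_smul]
  have h3 : (2 : F)⁻¹ * (2 : F)⁻¹ * 4 = 1 := by
    field_simp
    norm_num
  rw [h3, one_smul]

theorem iota_pow {ι : F} (hι : ι * ι = -1) (hq4 : q % 4 = 3) : ι ^ q = -ι := by
  obtain ⟨k, rfl⟩ : ∃ k, q = 4 * k + 3 := ⟨q / 4, by omega⟩
  have h4 : ι ^ 4 = 1 := by
    have : ι ^ 4 = (ι * ι) * (ι * ι) := by ring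
    rw [this, hι]; ring
  rw [pow_add, pow_mul, h4, one_pow, one_mul]
  have : ι ^ 3 = (ι * ι) * ι := by ring
  rw [this, hι]; ring

theorem st_AI (hF : Fintype.card F = q ^ 2) {ι : F} (hιq : ι ^ q = -ι) : st q (AIp ι) = (AIp (-ι))ᵀ := by
  rw [st_eq hF, map_AIp]
  have : sigma hF ι = -ι := hιq
  rw [this]

theorem st_AA (hF : Fintype.card F = q ^ 2) {ι : F} (hιq : ι ^ q = -ι) : st q (AAp ι) = (AAp (-ι))ᵀ := by
  rw [st_eq hF, map_AAp]
  have : sigma hF ι = -ι := hιq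
  rw [this]

theorem st_D5 (hF : Fintype.card F = q ^ 2) {ι : F} (hιq : ι ^ q = -ι) : st q (D5p ι) = (D5p (-ι))ᵀ := by
  rw [st_eq hF, map_D5p]
  have : sigma hF ι = -ι := hιq
  rw [this]

theorem map_CZ (σ : F →+* F) : (CZm : M4).map σ = CZm := by
  ext i j
  fin_cases i <;> fin_cases j <;> simp [CZm]

theorem st_CZ (hF : Fintype.card F = q ^ 2) : st q (CZm : M4) = CZm := by
  rw [st_eq hF, map_CZ]
  ext i j
  fin_cases i <;> fin_cases j <;> simp [CZm]

theorem trace_Zm1 : (Zm1 : M4).trace = 0 := by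
  simp [Zm1, Matrix.trace, Fin.sum_univ_four]

theorem trace_CZ : (CZm : M4).trace = 2 := by
  simp [CZm, Matrix.trace, Fin.sum_univ_four]
  norm_num

theorem trace_AI (ι : F) (d : F) (hd : 2 * d = 1) : (d • AIp ι : M4).trace = -2 := by
  simp [AIp, Matrix.trace, Fin.sum_univ_four]
  linear_combination (-2 : F) * hd

theorem trace_AA (ι : F) (d : F) (hd : 2 * d = 1) : (d • AAp ι : M4).trace = 1 := by
  simp [AAp, Matrix.trace, Fin.sum_univ_four]
  linear_combination hd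

theorem ns_Zm1 (h2 : (2 : F) ≠ 0) (c : F) : (Zm1 : M4) ≠ c • 1 := by
  intro h
  have h0 := congrFun (congrFun h 0) 0
  have h3 := congrFun (congrFun h 2) 2
  simp [Zm1, Matrix.smul_apply, Matrix.one_apply] at h0 h3
  apply h2
  linear_combination h0 - h3

theorem ns_CZ (h2 : (2 : F) ≠ 0) (c : F) : (CZm : M4) ≠ c • 1 := by
  intro h
  have h0 := congrFun (congrFun h 0) 0
  have h3 := congrFun (congrFun h 3) 3
  simp [CZm, Matrix.smul_apply, Matrix.one_apply] at h0 h3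
  apply h2
  linear_combination h0 - h3

theorem ns_AI (h2 : (2 : F) ≠ 0) {ι : F} (hι : ι * ι = -1) (c : F) : ((2 : F)⁻¹ • AIp ι : M4) ≠ c • 1 := by
  intro h
  have h0 := congrFun (congrFun h 0) 2
  simp [AIp, Matrix.smul_apply, Matrix.one_apply, h2] at h0
  have h3 : (1 + ι) * (1 - ι) = 2 := by linear_combination -hι
  have h4 : 1 + ι = 0 := h0
  rw [h4, zero_mul] at h3
  exact h2 h3.symm

theorem ns_AA (h2 : (2 : F) ≠ 0) (ι : F) (c : F) : ((2 : F)⁻¹ • AAp ι : M4) ≠ c • 1 := by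
  intro h
  have h0 := congrFun (congrFun h 0) 1
  simp [AAp, Matrix.smul_apply, Matrix.one_apply, h2] at h0

theorem ns_D5 (h2 : (2 : F) ≠ 0) (ι : F) (c : F) : ((2 : F)⁻¹ • D5p ι : M4) ≠ c • 1 := by
  intro h
  have h0 := congrFun (congrFun h 0) 2
  simp [D5p, Matrix.smul_apply, Matrix.one_apply, h2] at h0

/-- The involution `Zm1` as a unit. -/
def ZG (F : Type*) [Field F] [Fintype F] : GL (Fin 4) F := ⟨Zm1, Zm1, sq_Zm1, sq_Zm1⟩

theorem ZG_val : ((ZG F : GL (Fin 4) F) : M4) = Zm1 := rfl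

/-- Reduction to a model inside the frame. -/
theorem finish_model (hF : Fintype.card F = q ^ 2) {h : GL (Fin 4) F} {c : F} (hG : st q (h : M4) * (h : M4) = c • 1)
    {x y D₀ : GL (Fin 4) F} {w : F} (hw : w ≠ 0) (hw1 : w ^ q * w = 1) (hxy : x = scG w hw * y) (hy : y ∈ GU 4 F q)
    (hD₀ : st q (D₀ : M4) * (D₀ : M4) = 1) (hDN : h * D₀ * h⁻¹ ∈ subgroupNormalizer R)
    (hconj : ∃ G₀ : GL (Fin 4) F, (G₀ : M4) * (y : M4) = (D₀ : M4) * (G₀ : M4))
    (hc : ∀ t : F, t ^ q * t = 1 → ∃ c₀ : M4, st q c₀ * c₀ = 1 ∧ c₀ * (D₀ : M4) = (D₀ : M4) * c₀ ∧ c₀.det = t) :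
    ∃ g ∈ GU 4 F q ⊓ specialLinear (Fin 4) F, g⁻¹ * x * g ∈ subgroupNormalizer R := by
  refine finish hF hw hw1 hxy hy (conj_mem_GU hF hG hD₀) hDN ?_ ?_
  · obtain ⟨G₀, hG₀⟩ := hconj
    refine ⟨h * G₀, ?_⟩
    have e : ((h * D₀ * h⁻¹ : GL (Fin 4) F) : M4) * ((h * G₀ : GL (Fin 4) F) : M4) = (h : M4) * ((D₀ : M4) * (G₀ : M4)) := by
      rw [← Units.val_mul, ← Units.val_mul, ← Units.val_mul]
      congr 1
      group
    rw [e, Units.val_mul, mul_assoc, hG₀]
  · intro t ht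
    obtain ⟨c₀, h1, h2, h3⟩ := hc t ht
    exact cent_transport hF hG h1 h2 h3

section scale

variable {x : GL (Fin 4) F} {w : F}

theorem scale_val (hw : w ≠ 0) : (((scG w hw)⁻¹ * x : GL (Fin 4) F) : M4) = w⁻¹ • (x : M4) := by
  rw [Units.val_mul]
  show (w⁻¹ • (1 : M4)) * (x : M4) = _
  rw [smul_mul_assoc, one_mul]

theorem scale_pow (hw : w ≠ 0) (n : ℕ) : (((scG w hw)⁻¹ * x : GL (Fin 4) F) : M4) ^ n = (w⁻¹) ^ n • (x : M4) ^ n := by
  rw [scale_val, smul_pow]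

theorem scale_ns (hw : w ≠ 0) (hns : ∀ c : F, (x : M4) ≠ c • 1) (c : F) :
    (((scG w hw)⁻¹ * x : GL (Fin 4) F) : M4) ≠ c • 1 := by
  rw [scale_val]
  intro h
  apply hns (w * c)
  have h1 := congrArg (fun X : M4 => w • X) h
  simp only [smul_smul, mul_inv_cancel₀ hw, one_smul] at h1
  exact h1

theorem scale_eq (hw : w ≠ 0) : x = scG w hw * ((scG w hw)⁻¹ * x) := by group

theorem scale_mem (hF : Fintype.card F = q ^ 2) (hw : w ≠ 0) (hw1 : w ^ q * w = 1) (hx : x ∈ GU 4 F q) :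
    (scG w hw)⁻¹ * x ∈ GU 4 F q :=
  mul_mem (inv_mem (scG_mem_GU hF w hw hw1)) hx

/-- Norm of the scalar. -/
theorem norm_of_pow (hF : Fintype.card F = q ^ 2) (hx : x ∈ GU 4 F q) {n : ℕ} {z : F} (hz : (x : M4) ^ n = z • 1) :
    z ^ q * z = 1 := by
  have h1 : st q (((x ^ n : GL (Fin 4) F)) : M4) * ((x ^ n : GL (Fin 4) F) : M4) = 1 :=
    st_mul_self_of_mem hF (pow_mem hx n)
  rw [Units.val_pow_eq_pow_val, hz, st_smul_one hF, smul_mul_smul_comm, mul_one] at h1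
  have h3 := congrFun (congrFun h1 0) 0
  simpa [Matrix.smul_apply, Matrix.one_apply] using h3

end scale

section two

variable {ι : F} {h i₀ a₁ b₁ a₂ b₂ : GL (Fin 4) F} {c : F}

theorem pos_two_aux (hF : Fintype.card F = q ^ 2) (h2 : (2 : F) ≠ 0) (hf : Frame R ι h i₀ a₁ b₁ a₂ b₂) (hR : Finite R)
    (hG : st q (h : M4) * (h : M4) = c • 1) {x y : GL (Fin 4) F} {w : F} (hw : w ≠ 0) (hw1 : w ^ q * w = 1)
    (hxy : x = scG w hw * y) (hy : y ∈ GU 4 F q) (hy2 : (y : M4) * (y : M4) = 1) (hns : ∀ c : F, (y : M4) ≠ c • 1)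
    (htr : (y : M4).trace = 0 ∨ (y : M4).trace = 2) :
    ∃ g ∈ GU 4 F q ⊓ specialLinear (Fin 4) F, g⁻¹ * x * g ∈ subgroupNormalizer R := by
  rcases htr with htr | htr
  · refine finish_model hF hG (D₀ := ZG F) hw hw1 hxy hy ?_ ?_ ?_ ?_
    · rw [ZG_val, st_Zm1 hF, sq_Zm1]
    · have e : h * ZG F * h⁻¹ = a₁ := by
        rw [mul_inv_eq_iff_eq_mul]
        exact Units.ext hf.ra₁.symm
      rw [e]
      exact Subgroup.le_normalizer hf.ha₁
    · exact invol_conj h2 hy2 sq_Zm1 hns (ns_Zm1 h2) (by rw [htr, ZG_val, trace_Zm1])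
    · intro t ht
      refine ⟨c0d t, st_c0d hF ht, ?_, det_c0d t⟩
      rw [ZG_val]
      ext i j
      fin_cases i <;> fin_cases j <;> simp [c0d, Zm1, Matrix.mul_apply, Fin.sum_univ_four]
  · refine finish_model hF hG (D₀ := CZG F) hw hw1 hxy hy ?_ (normal_CZ hf hR) ?_ ?_
    · rw [CZG_val, st_CZ hF, cz_sq']
    · exact invol_conj h2 hy2 cz_sq' hns (ns_CZ h2) (by rw [htr, CZG_val, trace_CZ])
    · intro t ht
      refine ⟨c0d t, st_c0d hF ht, ?_, det_c0d t⟩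
      rw [CZG_val]
      ext i j
      fin_cases i <;> fin_cases j <;> simp [c0d, CZm, Matrix.mul_apply, Fin.sum_univ_four]

/-- The half order of the group of squares. -/
theorem ringChar_ne (h2 : (2 : F) ≠ 0) : ringChar F ≠ 2 := by
  intro h
  apply h2
  have := ringChar.Nat.cast_ringChar (R := F)
  rw [h] at this
  exact_mod_cast this

theorem isSquare_of_norm_one (hF : Fintype.card F = q ^ 2) (h2 : (2 : F) ≠ 0) (hq : q % 2 = 1) {z : F} (hz : z ^ q * z = 1) :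
    IsSquare z := by
  have hz0 : z ≠ 0 := by
    rintro rfl
    rw [mul_zero] at hz
    exact zero_ne_one hz
  rw [FiniteField.isSquare_iff (ringChar_ne h2) hz0, hF]
  obtain ⟨m, rfl⟩ : ∃ m, q = 2 * m + 1 := ⟨q / 2, by omega⟩
  have e : (2 * m + 1) ^ 2 / 2 = (2 * m + 2) * m := by
    have : (2 * m + 1) ^ 2 = 2 * ((2 * m + 2) * m) + 1 := by ring
    rw [this]
    omega
  rw [e, pow_mul]
  have : z ^ (2 * m + 2) = 1 := by
    rw [show 2 * m + 2 = (2 * m + 1) + 1 by ring, pow_succ, hz]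
  rw [this, one_pow]

theorem isSquare_of_fixed (hF : Fintype.card F = q ^ 2) (h2 : (2 : F) ≠ 0) (hq : q % 2 = 1) {a : F} (ha0 : a ≠ 0) (ha : a ^ q = a) :
    IsSquare a := by
  rw [FiniteField.isSquare_iff (ringChar_ne h2) ha0, hF]
  obtain ⟨m, rfl⟩ : ∃ m, q = 2 * m + 1 := ⟨q / 2, by omega⟩
  have e : (2 * m + 1) ^ 2 / 2 = 2 * m * (m + 1) := by
    have : (2 * m + 1) ^ 2 = 2 * (2 * m * (m + 1)) + 1 := by ring
    rw [this]
    omega
  rw [e, pow_mul]
  have : a ^ (2 * m) = 1 := by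
    have h1 : a ^ (2 * m) * a = a := by rw [← pow_succ, ha]
    exact mul_right_cancel₀ ha0 (by rw [h1, one_mul])
  rw [this, one_pow]

theorem pos_two_w (hF : Fintype.card F = q ^ 2) (h2 : (2 : F) ≠ 0) (hf : Frame R ι h i₀ a₁ b₁ a₂ b₂) (hR : Finite R)
    (hG : st q (h : M4) * (h : M4) = c • 1) {x : GL (Fin 4) F} (hx : x ∈ GU 4 F q) {z : F} (hz : (x : M4) ^ 2 = z • 1)
    (hns : ∀ c : F, (x : M4) ≠ c • 1) {w : F} (hw : w ≠ 0) (hwz : z = w * w) (hw1 : w ^ q * w = 1)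
    (htr : (w⁻¹ • (x : M4)).trace = 0 ∨ (w⁻¹ • (x : M4)).trace = 2) :
    ∃ g ∈ GU 4 F q ⊓ specialLinear (Fin 4) F, g⁻¹ * x * g ∈ subgroupNormalizer R := by
  refine pos_two_aux hF h2 hf hR hG hw hw1 (scale_eq hw) (scale_mem hF hw hw1 hx) ?_ (scale_ns hw hns) ?_
  · rw [← pow_two, scale_pow, hz, smul_smul, hwz]
    have : (w⁻¹) ^ 2 * (w * w) = 1 := by field_simp
    rw [this, one_smul]
  · rw [scale_val]; exact htr

theorem det_Zm1 : (Zm1 : M4).det = 1 := by
  have e : Fin.succAbove (1 : Fin 4) (2 : Fin 3) = 3 := by decide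
  have e' : Fin.succAbove (2 : Fin 4) (2 : Fin 3) = 3 := by decide
  simp [Zm1, Matrix.det_succ_row_zero, Fin.sum_univ_succ, Matrix.submatrix, e, e']

theorem pos_two (hF : Fintype.card F = q ^ 2) (hq4 : q % 4 = 3) (h2 : (2 : F) ≠ 0) (hf : Frame R ι h i₀ a₁ b₁ a₂ b₂) (hR : Finite R)
    (hG : st q (h : M4) * (h : M4) = c • 1) {x : GL (Fin 4) F} (hx : x ∈ GU 4 F q) (hdet : (x : M4).det = 1) {z : F}
    (hz : (x : M4) ^ 2 = z • 1) (hns : ∀ c : F, (x : M4) ≠ c • 1) :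
    ∃ g ∈ GU 4 F q ⊓ specialLinear (Fin 4) F, g⁻¹ * x * g ∈ subgroupNormalizer R := by
  have hz1 := norm_of_pow hF hx hz
  have hq2 : q % 2 = 1 := by omega
  obtain ⟨w, hwz⟩ := isSquare_of_norm_one hF h2 hq2 hz1
  have hw : w ≠ 0 := by
    rintro rfl
    rw [hwz] at hz1
    simp at hz1
  have hqoddn : Odd q := Nat.odd_iff.2 hq2
  -- the data of the involution
  have hy2 : (w⁻¹ • (x : M4)) * (w⁻¹ • (x : M4)) = 1 := by
    rw [smul_mul_smul_comm, ← pow_two (x : M4), hz, smul_smul, hwz]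
    have : w⁻¹ * w⁻¹ * (w * w) = 1 := by field_simp
    rw [this, one_smul]
  have hyns : ∀ c : F, (w⁻¹ • (x : M4)) ≠ c • 1 := by
    intro c hc
    have := scale_ns (x := x) hw hns c
    rw [scale_val] at this
    exact this hc
  obtain ⟨d, hd, -, -, htr⟩ := invol_data h2 hy2 hyns
  have hx1 : st q (x : M4) * (x : M4) = 1 := st_mul_self_of_mem hF hx
  have he : w ^ q * w = 1 := by
    have he2 : (w ^ q * w) * (w ^ q * w) = 1 := by
      rw [hwz, mul_pow] at hz1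
      linear_combination hz1
    have he3 : (w ^ q * w - 1) * (w ^ q * w + 1) = 0 := by linear_combination he2
    rcases mul_eq_zero.1 he3 with he4 | he4
    · linear_combination he4
    exfalso
    have he5 : w ^ q * w = -1 := by linear_combination he4
    -- the trace vanishes
    have hst : st q (w⁻¹ • (x : M4)) * (w⁻¹ • (x : M4)) = -1 := by
      rw [st_smul, smul_mul_smul_comm, hx1]
      have h1 : (w⁻¹) ^ q * w⁻¹ = -1 := by
        rw [inv_pow, ← mul_inv, he5]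
        norm_num
      rw [h1]
      simp
    have hst2 : st q (w⁻¹ • (x : M4)) = -(w⁻¹ • (x : M4)) := by
      calc st q (w⁻¹ • (x : M4)) = st q (w⁻¹ • (x : M4)) * ((w⁻¹ • (x : M4)) * (w⁻¹ • (x : M4))) := by rw [hy2, mul_one]
        _ = (st q (w⁻¹ • (x : M4)) * (w⁻¹ • (x : M4))) * (w⁻¹ • (x : M4)) := by rw [mul_assoc]
        _ = _ := by rw [hst]; simp
    have htr2 := trace_st hF (w⁻¹ • (x : M4))
    rw [hst2, Matrix.trace_neg] at htr2
    have htr3 : (w⁻¹ • (x : M4)).trace ^ q = (w⁻¹ • (x : M4)).trace := by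
      rw [htr]
      show sigma hF _ = _
      rw [map_sub, map_natCast, map_natCast]
    rw [htr3] at htr2
    have htr0 : (w⁻¹ • (x : M4)).trace = 0 := by
      have : (2 : F) * (w⁻¹ • (x : M4)).trace = 0 := by linear_combination -htr2
      exact (mul_eq_zero.1 this).resolve_left h2
    obtain ⟨G, hG'⟩ := invol_conj h2 hy2 sq_Zm1 hyns (ns_Zm1 h2) (by rw [htr0, trace_Zm1])
    have hdd := congrArg Matrix.det hG'
    rw [Matrix.det_mul, Matrix.det_mul, det_Zm1, one_mul, mul_comm] at hdd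
    have hGdet : (G : M4).det ≠ 0 := by
      have := (Matrix.isUnit_iff_isUnit_det _).1 G.isUnit
      exact this.ne_zero
    have hy1 : (w⁻¹ • (x : M4)).det = 1 := mul_right_cancel₀ hGdet (by rw [hdd, one_mul])
    rw [Matrix.det_smul, hdet, Fintype.card_fin, mul_one] at hy1
    have hw4 : w ^ 4 = 1 := by
      rw [inv_pow] at hy1
      exact inv_eq_one.1 hy1
    obtain ⟨k, hk⟩ : ∃ k, q + 1 = 4 * k := ⟨(q + 1) / 4, by omega⟩
    have he6 : w ^ q * w = 1 := by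
      rw [← pow_succ, hk, pow_mul, hw4, one_pow]
    rw [he6] at he5
    apply h2
    linear_combination he5
  have hcases : (w⁻¹ • (x : M4)).trace = 0 ∨ (w⁻¹ • (x : M4)).trace = 2 ∨ (w⁻¹ • (x : M4)).trace = -2 := by
    rw [htr]
    rcases hd with rfl | rfl | rfl
    · right; right; norm_num
    · left; norm_num
    · right; left; norm_num
  rcases hcases with h0 | h0 | h0
  · exact pos_two_w hF h2 hf hR hG hx hz hns hw hwz he (Or.inl h0)
  · exact pos_two_w hF h2 hf hR hG hx hz hns hw hwz he (Or.inr h0)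
  · have hw' : -w ≠ 0 := neg_ne_zero.2 hw
    refine pos_two_w hF h2 hf hR hG hx hz hns hw' (by rw [hwz]; ring) ?_ (Or.inr ?_)
    · rw [hqoddn.neg_pow]; linear_combination he
    · rw [inv_neg, neg_smul, Matrix.trace_neg, h0]; ring

end two

section three

variable {ι : F} {h i₀ a₁ b₁ a₂ b₂ : GL (Fin 4) F} {c : F}

theorem comm_AA (ι d t e : F) (hd : 2 * d = 1) : c0s d t * (e • AAp ι) = (e • AAp ι) * c0s d t := by
  rw [mul_smul_comm, smul_mul_assoc]
  congr 1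
  ext i j
  fin_cases i <;> fin_cases j <;> simp [c0s, AAp, Matrix.mul_apply, Fin.sum_univ_four] <;>
    first | ring1 | linear_combination (-1 : F) * hd | linear_combination hd | linear_combination (-ι) * hd | linear_combination ι * hd

theorem comm_AI (ι d a b e : F) (hd : 2 * d = 1) (hι : ι * ι = -1) :
    c0e a b ((-1 + ι) * d) ((1 + ι) * d) ((-1 - ι) * d) * (e • AIp ι) = (e • AIp ι) * c0e a b ((-1 + ι) * d) ((1 + ι) * d) ((-1 - ι) * d) := by
  rw [mul_smul_comm, smul_mul_assoc]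
  congr 1
  ext i j
  fin_cases i <;> fin_cases j <;> simp [c0e, AIp, Matrix.mul_apply, Fin.sum_univ_four] <;>
    first | ring1 | skip

theorem st_of_cube {Y : M4} (hU : st q Y * Y = 1) (hY : Y * (Y * Y) = 1) : st q Y = Y * Y := by
  calc st q Y = st q Y * (Y * (Y * Y)) := by rw [hY, mul_one]
    _ = (st q Y * Y) * (Y * Y) := by rw [mul_assoc]
    _ = _ := by rw [hU, one_mul]

theorem cube_half (h2 : (2 : F) ≠ 0) {X : M4} (h : X * (X * X) = (8 : F) • 1) :
    ((2 : F)⁻¹ • X) * (((2 : F)⁻¹ • X) * ((2 : F)⁻¹ • X)) = 1 := by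
  rw [smul_mul_smul_comm, smul_mul_smul_comm, h, smul_smul]
  have h3 : (2 : F)⁻¹ * ((2 : F)⁻¹ * (2 : F)⁻¹) * 8 = 1 := by
    field_simp
    norm_num
  rw [h3, one_smul]

theorem cube_AA {ι : F} (hι : ι * ι = -1) : (AAp ι : M4) * ((AAp ι : M4) * (AAp ι : M4)) = (8 : F) • 1 := by
  rw [← mul_assoc, aa_sq ι hι, aa_cube' ι hι]

theorem cube_AI {ι : F} (hι : ι * ι = -1) : (AIp ι : M4) * ((AIp ι : M4) * (AIp ι : M4)) = (8 : F) • 1 := by
  rw [← mul_assoc, ai_sq ι hι, sub_mul, smul_mul_assoc, smul_mul_assoc, one_mul, ai_sq ι hι]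
  ext i j
  simp [Matrix.sub_apply, Matrix.smul_apply]
  ring

theorem pos_three (hF : Fintype.card F = q ^ 2) (hq4 : q % 4 = 3) (h2 : (2 : F) ≠ 0) (hf : Frame R ι h i₀ a₁ b₁ a₂ b₂) (hR : Finite R)
    (hG : st q (h : M4) * (h : M4) = c • 1) {ω : F} (h3 : (3 : F) ≠ 0) (hω : ω * ω + ω + 1 = 0) (hωq : ω ^ q = ω)
    (hinj : ∀ a b : ℕ, a ≤ 4 → b ≤ 4 → (a : F) = b → a = b) (hq3 : q % 3 = 1)
    {x : GL (Fin 4) F} (hx : x ∈ GU 4 F q) {z : F} (hz : (x : M4) ^ 3 = z • 1) (hns : ∀ c : F, (x : M4) ≠ c • 1) :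
    ∃ g ∈ GU 4 F q ⊓ specialLinear (Fin 4) F, g⁻¹ * x * g ∈ subgroupNormalizer R := by
  have hz1 := norm_of_pow hF hx hz
  have hz0 : z ≠ 0 := by
    rintro rfl
    rw [mul_zero] at hz1
    exact zero_ne_one hz1
  have hι := hf.hι
  have hιq : ι ^ q = -ι := iota_pow hι hq4
  have hzq1 : z ^ (q + 1) = 1 := by rw [pow_succ, hz1]
  have hcop : Nat.Coprime 3 (q + 1) := (Nat.Prime.coprime_iff_not_dvd Nat.prime_three).2 (by omega)
  obtain ⟨k, -, hk⟩ := Nat.exists_mul_mod_eq_one_of_coprime hcop (by have := two_le_q hF; omega)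
  set w : F := z ^ k with hwdef
  have hw : w ≠ 0 := pow_ne_zero _ hz0
  have hw3 : w ^ 3 = z := by
    rw [hwdef, ← pow_mul, mul_comm k 3, ← Nat.div_add_mod (3 * k) (q + 1), hk, pow_add, pow_mul, hzq1, one_pow, one_mul, pow_one]
  have hw1 : w ^ q * w = 1 := by
    rw [hwdef, ← pow_mul, mul_comm k q, pow_mul, ← mul_pow, hz1, one_pow]
  set y : GL (Fin 4) F := (scG w hw)⁻¹ * x with hydef
  have hyU : y ∈ GU 4 F q := scale_mem hF hw hw1 hx
  have hyval : (y : M4) = w⁻¹ • (x : M4) := scale_val hw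
  have hyns : ∀ c : F, (y : M4) ≠ c • 1 := scale_ns hw hns
  have hY : (y : M4) * ((y : M4) * (y : M4)) = 1 := by
    have h4 : (y : M4) * ((y : M4) * (y : M4)) = (y : M4) ^ 3 := by
      rw [pow_succ, pow_two, mul_assoc]
    rw [h4, scale_pow hw, hz, smul_smul, ← hw3]
    have : (w⁻¹) ^ 3 * w ^ 3 = 1 := by field_simp
    rw [this, one_smul]
  have hU1 : st q (y : M4) * (y : M4) = 1 := st_mul_self_of_mem hF hyU
  have hU : st q (y : M4) = (y : M4) * (y : M4) := st_of_cube hU1 hY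
  obtain ⟨d, hd, -, -, -, htr⟩ := cube_data hF h3 hω hωq hinj hY hU hyns
  have hd2 : (2 : F) * (2 : F)⁻¹ = 1 := mul_inv_cancel₀ h2
  rcases hd with rfl | rfl
  · -- the class of `AA`
    set Y' : M4 := (2 : F)⁻¹ • AAp ι with hY'
    have hY'U : st q Y' * Y' = 1 := st_half_unitary hF h2 (st_AA hF hιq) (adj_AA' ι hι)
    have hY'3 : Y' * (Y' * Y') = 1 := cube_half h2 (cube_AA hι)
    refine finish_model hF hG (D₀ := halfGL h2 (adj_AA ι hι) (adj_AA' ι hι)) hw hw1 (scale_eq hw) hyU hY'U (normal_AA hf hR h2) ?_ ?_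
    · refine cube_conj hF h3 hω hωq hinj hY hY'3 hU (st_of_cube hY'U hY'3) hyns (ns_AA h2 ι) ?_
      rw [htr]
      show _ = Y'.trace
      rw [hY', trace_AA ι _ hd2]
      simp
    · intro t ht
      exact ⟨c0s (2 : F)⁻¹ t, st_c0s hF hd2 (two_inv_pow hF) ht, comm_AA ι _ t _ hd2, det_c0s hd2⟩
  · set Y' : M4 := (2 : F)⁻¹ • AIp ι with hY'
    have hY'U : st q Y' * Y' = 1 := st_half_unitary hF h2 (st_AI hF hιq) (adj_AI' ι hι)
    have hY'3 : Y' * (Y' * Y') = 1 := cube_half h2 (cube_AI hι)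
    refine finish_model hF hG (D₀ := halfGL h2 (adj_AI ι hι) (adj_AI' ι hι)) hw hw1 (scale_eq hw) hyU hY'U (normal_AI hf hR h2) ?_ ?_
    · refine cube_conj hF h3 hω hωq hinj hY hY'3 hU (st_of_cube hY'U hY'3) hyns (ns_AI h2 hι) ?_
      rw [htr]
      show _ = Y'.trace
      rw [hY', trace_AI ι _ hd2]
      simp
    · intro t ht
      obtain ⟨a, b, R1, R2, hdet⟩ := exists_c0e_params hF hω hωq h3 ht
      set d : F := (2 : F)⁻¹ with hddef
      have hσι : sigma hF ι = -ι := hιq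
      have hσd : sigma hF d = d := two_inv_pow hF
      refine ⟨c0e a b ((-1 + ι) * d) ((1 + ι) * d) ((-1 - ι) * d), ?_, comm_AI ι d a b d hd2 hι, ?_⟩
      · refine st_c0e hF ?_ ?_ ?_ ?_ ?_ ?_ R1 R2
        · linear_combination (-1 : F) * hd2
        · linear_combination (2 * d + 1) * hd2 - (2 * d * d) * hι
        · ring
        · show sigma hF _ = _
          rw [map_mul, map_add, map_neg, map_one, hσι, hσd]; ring
        · show sigma hF _ = _
          rw [map_mul, map_sub, map_neg, map_one, hσι, hσd]; ring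
        · show sigma hF _ = _
          rw [map_mul, map_add, map_one, hσι, hσd]; ring
      · rw [det_c0e ?_ ?_ ?_, hdet]
        · linear_combination (-1 : F) * hd2
        · linear_combination (2 * d + 1) * hd2 - (2 * d * d) * hι
        · ring

end three

end Cfsg.Agent.Lib.SymType64Pos
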