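import Mathlib
import Cfsg.Agent.Lib.SymType64Pos
import Cfsg.Agent.Lib.SymType64Five
import Cfsg.Agent.Lib.UnitaryTv

/-!
# The case of order five, and explicit elements for the negative cases.
-/

set_option autoImplicit false
set_option linter.style.haveILetI false
set_option linter.unusedVariables false
set_option linter.unusedSectionVars false
set_option linter.unusedSimpArgs false
set_option linter.unreachableTactic false
set_option linter.unusedTactic false

namespace Cfsg.Agent.Lib.SymType64Fin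

open Subgroup Module Cfsg Cfsg.Geo Cfsg.Agent.Lib.HermCount Cfsg.Agent.Lib.SymType64NF Cfsg.Agent.Lib.SymType64Model
  Cfsg.Agent.Lib.SymType64U Cfsg.Agent.Lib.SymType64M Cfsg.Agent.Lib.SymType64Neg
  Cfsg.Agent.Lib.UnitaryConjGU Cfsg.Agent.Lib.UnitaryBasic Cfsg.Agent.Lib.EigenConj Cfsg.Agent.Lib.SymType64E
  Cfsg.Agent.Lib.SymType64Cent Cfsg.Agent.Lib.SymType64Pos Cfsg.Agent.Lib.SymType64Five Matrix
open scoped MatrixGroups

variable {F : Type*} [Field F] [Fintype F] {q : ℕ} {R : Subgroup (GL (Fin 4) F)}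

local notation "M4" => Matrix (Fin 4) (Fin 4) F

/-- A nontrivial `l`-th root of unity exists when the prime `l` divides the order of `Fˣ`. -/
theorem exists_root {l : ℕ} (hl : l.Prime) (hd : l ∣ Fintype.card F - 1) : ∃ ζ : F, ζ ^ l = 1 ∧ ζ ≠ 1 := by
  classical
  haveI : Fact l.Prime := ⟨hl⟩
  have h1 : l ∣ Fintype.card Fˣ := by rwa [Fintype.card_units]
  obtain ⟨u, hu⟩ := exists_prime_orderOf_dvd_card l h1
  refine ⟨(u : F), ?_, ?_⟩
  · rw [← Units.val_pow_eq_pow_val, ← hu, pow_orderOf_eq_one]; rfl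
  · intro h
    have : u = 1 := Units.ext h
    rw [this, orderOf_one] at hu
    exact hl.one_lt.ne hu

/-- A root of unity of prime order `l` forces `l` to divide the order of `Fˣ`. -/
theorem dvd_of_root {l : ℕ} (hl : l.Prime) {ζ : F} (h1 : ζ ^ l = 1) (h2 : ζ ≠ 1) : l ∣ Fintype.card F - 1 := by
  classical
  have hζ0 : ζ ≠ 0 := by
    rintro rfl
    rw [zero_pow hl.ne_zero] at h1
    exact zero_ne_one h1
  set u : Fˣ := Units.mk0 ζ hζ0
  haveI : Fact l.Prime := ⟨hl⟩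
  have h3 : orderOf u = l := by
    apply orderOf_eq_prime
    · apply Units.ext
      simpa [u] using h1
    · intro h
      apply h2
      have := congrArg Units.val h
      simpa [u] using this
  rw [← h3, ← Fintype.card_units]
  exact orderOf_dvd_card

theorem card_sub_one (hF : Fintype.card F = q ^ 2) (hq : 1 ≤ q) : ((Fintype.card F - 1 : ℕ) : ZMod 5) = (q : ZMod 5) ^ 2 - 1 := by
  rw [hF, Nat.cast_sub (Nat.one_le_pow _ _ hq)]
  simp

/-- If `q` has order four modulo five, `F` has no fifth root of unity. -/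
theorem no_root_five (hF : Fintype.card F = q ^ 2) (hq : 1 ≤ q) (hord : orderOf (q : ZMod 5) = 4) :
    ∀ ζ : F, ζ ^ 5 = 1 → ζ = 1 := by
  intro ζ h1
  by_contra h2
  have h3 := dvd_of_root (by norm_num) h1 h2
  have h4 : ((Fintype.card F - 1 : ℕ) : ZMod 5) = 0 := (ZMod.natCast_eq_zero_iff _ 5).2 h3
  rw [card_sub_one hF hq] at h4
  have h5 : (q : ZMod 5) ^ 2 = 1 := by linear_combination h4
  have h6 := orderOf_dvd_of_pow_eq_one h5
  rw [hord] at h6
  omega

theorem five_ne_zero' {p : ℕ} [hp : Fact p.Prime] [CharP F p] (hp4 : p % 4 = 3) : (5 : F) ≠ 0 := by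
  intro h
  have h1 : ((5 : ℕ) : F) = 0 := by exact_mod_cast h
  have h2 := (CharP.cast_eq_zero_iff F p 5).1 h1
  have h3 := (Nat.prime_dvd_prime_iff_eq hp.out (by norm_num)).1 h2
  omega

/-- The golden ratio of `F`. -/
theorem exists_tau {p : ℕ} [hp : Fact p.Prime] [CharP F p] (hF : Fintype.card F = p ^ 2) (hp4 : p % 4 = 3) (h2 : (2 : F) ≠ 0)
    (hord : orderOf (p : ZMod 5) = 4) : ∃ τ : F, TauData p τ := by
  have h5 : (5 : F) ≠ 0 := five_ne_zero' hp4
  have hq1 : 1 ≤ p := hp.out.one_le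
  have hq2 : p % 2 = 1 := by omega
  have hno := no_root_five hF hq1 hord
  have h5q : (5 : F) ^ p = 5 := by
    show sigma hF 5 = 5
    exact map_ofNat _ 5
  obtain ⟨s, hs⟩ := isSquare_of_fixed hF h2 hq2 h5 h5q
  have hd2 : (2 : F) * (2 : F)⁻¹ = 1 := mul_inv_cancel₀ h2
  set d : F := (2 : F)⁻¹ with hd
  set τ : F := d * (s - 1) with hτdef
  have hτ : τ * τ + τ - 1 = 0 := by
    rw [hτdef]
    linear_combination (-d * d) * hs + (-d * s + 3 * d + 1) * hd2
  have hσ0 : (sigma hF) τ * (sigma hF) τ + (sigma hF) τ - 1 = 0 := by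
    have := congrArg (sigma hF) hτ
    rwa [map_sub, map_add, map_mul, map_one, map_zero] at this
  have hfac : ((sigma hF) τ - τ) * ((sigma hF) τ + τ + 1) = 0 := by
    linear_combination hσ0 - hτ
  have hcase : τ ^ p = τ ∨ τ ^ p = -1 - τ := by
    rcases mul_eq_zero.1 hfac with h | h
    · left
      show sigma hF τ = τ
      linear_combination h
    · right
      show sigma hF τ = -1 - τ
      linear_combination h
  have hnot : τ ^ p ≠ τ := by
    intro hfix
    have hσ : sigma hF τ = τ := hfix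
    have hδ0 : τ * τ - 4 ≠ 0 := by
      intro δ0
      apply h5
      linear_combination δ0 - (τ - 3) * (hτ - δ0)
    have hδq : (τ * τ - 4) ^ p = τ * τ - 4 := by
      show sigma hF _ = _
      rw [map_sub, map_mul, hσ, map_ofNat]
    obtain ⟨ξ, hξ⟩ := isSquare_of_fixed hF h2 hq2 hδ0 hδq
    set ζ : F := d * (τ + ξ) with hζdef
    have h1 : ζ * ζ = τ * ζ - 1 := by
      rw [hζdef]
      linear_combination (-d * d) * hξ + (d * τ * τ + d * τ * ξ - 2 * d - 1) * hd2
    have h55 : ζ ^ 5 = 1 := by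
      linear_combination (ζ ^ 3 + τ * ζ ^ 2 + (τ ^ 2 - 1) * ζ + (τ ^ 3 - 2 * τ)) * h1 + ((τ ^ 2 - τ - 1) * ζ - (τ - 1)) * hτ
    have h6 := hno ζ h55
    rw [h6] at h1
    have h7 : τ = 2 := by linear_combination -h1
    apply h5
    rw [h7] at hτ
    linear_combination hτ
  have hτq : τ ^ p = -1 - τ := hcase.resolve_left hnot
  refine ⟨τ, ⟨hτ, hτq, ?_, ?_, ?_, hno⟩⟩
  · intro h
    apply h5
    linear_combination (2 * τ + 1) * h - 4 * hτ
  · intro h
    apply h5
    rw [h] at hτ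
    linear_combination hτ
  · intro h
    apply h5
    have h7 : τ = -3 := by linear_combination -h
    rw [h7] at hτ
    linear_combination hτ

theorem D5_pow (ι : F) (hι : ι * ι = -1) : (D5p ι : M4) ^ 5 = (32 : F) • 1 := by
  have e : (D5p ι : M4) ^ 5 = (D5p ι : M4) * D5p ι * D5p ι * D5p ι * D5p ι := by
    simp only [pow_succ, pow_zero, one_mul]
  rw [e, d5_2 ι hι, d5_3 ι hι, d5_4 ι hι, d5_5 ι hι]

section five

variable {ι : F} {h i₀ a₁ b₁ a₂ b₂ : GL (Fin 4) F} {c : F}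

theorem pos_five (hF : Fintype.card F = q ^ 2) (hq4 : q % 4 = 3) (h2 : (2 : F) ≠ 0) (hf : Frame R ι h i₀ a₁ b₁ a₂ b₂) (hR : Finite R)
    (hG : st q (h : M4) * (h : M4) = c • 1) {τ : F} (hd : TauData q τ) (hq5 : ¬ 5 ∣ q + 1)
    {x : GL (Fin 4) F} (hx : x ∈ GU 4 F q) {z : F} (hz : (x : M4) ^ 5 = z • 1) (hns : ∀ c : F, (x : M4) ≠ c • 1) :
    ∃ g ∈ GU 4 F q ⊓ specialLinear (Fin 4) F, g⁻¹ * x * g ∈ subgroupNormalizer R := by
  have hz1 := norm_of_pow hF hx hz
  have hz0 : z ≠ 0 := by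
    rintro rfl
    rw [mul_zero] at hz1
    exact zero_ne_one hz1
  have hι := hf.hι
  have hιq : ι ^ q = -ι := iota_pow hι hq4
  have hzq1 : z ^ (q + 1) = 1 := by rw [pow_succ, hz1]
  have hcop : Nat.Coprime 5 (q + 1) := (Nat.Prime.coprime_iff_not_dvd (by norm_num)).2 hq5
  obtain ⟨k, -, hk⟩ := Nat.exists_mul_mod_eq_one_of_coprime hcop (by have := two_le_q hF; omega)
  set w : F := z ^ k with hwdef
  have hw : w ≠ 0 := pow_ne_zero _ hz0
  have hw5 : w ^ 5 = z := by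
    rw [hwdef, ← pow_mul, mul_comm k 5, ← Nat.div_add_mod (5 * k) (q + 1), hk, pow_add, pow_mul, hzq1, one_pow, one_mul, pow_one]
  have hw1 : w ^ q * w = 1 := by
    rw [hwdef, ← pow_mul, mul_comm k q, pow_mul, ← mul_pow, hz1, one_pow]
  set y : GL (Fin 4) F := (scG w hw)⁻¹ * x with hydef
  have hyU : y ∈ GU 4 F q := scale_mem hF hw hw1 hx
  have hyns : ∀ c : F, (y : M4) ≠ c • 1 := scale_ns hw hns
  have hY : (y : M4) ^ 5 = 1 := by
    rw [scale_pow hw, hz, smul_smul, ← hw5]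
    have : (w⁻¹) ^ 5 * w ^ 5 = 1 := by field_simp
    rw [this, one_smul]
  have hU1 : st q (y : M4) * (y : M4) = 1 := st_mul_self_of_mem hF hyU
  have hy1 : (y : M4) ≠ 1 := by
    have := hyns 1
    rwa [one_smul] at this
  -- the model
  set Y' : M4 := (2 : F)⁻¹ • D5p ι with hY'
  have hY'U : st q Y' * Y' = 1 := st_half_unitary hF h2 (st_D5 hF hιq) (adj_D5' ι hι)
  have hY'5 : Y' ^ 5 = 1 := by
    rw [hY', smul_pow, D5_pow ι hι, smul_smul]
    have : ((2 : F)⁻¹) ^ 5 * 32 = 1 := by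
      field_simp
      norm_num
    rw [this, one_smul]
  have hY'1 : Y' ≠ 1 := by
    have := ns_D5 h2 ι 1
    rwa [one_smul] at this
  refine finish_model hF hG (D₀ := halfGL h2 (adj_D5 ι hι) (adj_D5' ι hι)) hw hw1 (scale_eq hw) hyU hY'U (normal_D5 hf hR h2) ?_ ?_
  · obtain ⟨M, hM, -⟩ := five_basis hF hd hU1 hY hy1
    obtain ⟨M', hM', -⟩ := five_basis hF hd hY'U hY'5 hY'1
    refine ⟨M' * M⁻¹, ?_⟩
    show ((M' * M⁻¹ : GL (Fin 4) F) : M4) * (y : M4) = Y' * ((M' * M⁻¹ : GL (Fin 4) F) : M4)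
    have e1 : ((M⁻¹ : GL (Fin 4) F) : M4) * (M : M4) = 1 := by
      rw [← Units.val_mul]; simp
    have e2 : (M : M4) * ((M⁻¹ : GL (Fin 4) F) : M4) = 1 := by
      rw [← Units.val_mul]; simp
    rw [Units.val_mul]
    calc (M' : M4) * ((M⁻¹ : GL (Fin 4) F) : M4) * (y : M4)
        = (M' : M4) * ((M⁻¹ : GL (Fin 4) F) : M4) * (y : M4) * ((M : M4) * ((M⁻¹ : GL (Fin 4) F) : M4)) := by rw [e2, mul_one]
      _ = (M' : M4) * ((M⁻¹ : GL (Fin 4) F) : M4) * ((y : M4) * (M : M4)) * ((M⁻¹ : GL (Fin 4) F) : M4) := by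
          simp only [mul_assoc]
      _ = (M' : M4) * (((M⁻¹ : GL (Fin 4) F) : M4) * (M : M4)) * Bτ τ * ((M⁻¹ : GL (Fin 4) F) : M4) := by
          rw [hM]; simp only [mul_assoc]
      _ = ((M' : M4) * Bτ τ) * ((M⁻¹ : GL (Fin 4) F) : M4) := by rw [e1, mul_one]
      _ = Y' * ((M' : M4) * ((M⁻¹ : GL (Fin 4) F) : M4)) := by rw [← hM', mul_assoc]
  · intro t ht
    have hodd : Fintype.card F % 2 = 1 := by
      rw [hF, Nat.pow_mod]
      have : q % 2 = 1 := by omega
      rw [this]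
    obtain ⟨c', hc'U, hc'c, hc'det⟩ := five_cent hF h2 hodd hd hY'U hY'5 hY'1 ht
    exact ⟨(c' : M4), st_mul_self_of_mem hF hc'U, hc'c, hc'det⟩

end five

end Cfsg.Agent.Lib.SymType64Fin
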