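import Mathlib
import Cfsg.Agent.Lib.SymType64Fin

/-!
# Explicit elements for the negative cases.
-/

set_option autoImplicit false
set_option linter.style.haveILetI false
set_option linter.unusedVariables false
set_option linter.unusedSectionVars false
set_option linter.unusedSimpArgs false
set_option linter.unreachableTactic false
set_option linter.unusedTactic false

namespace Cfsg.Agent.Lib.SymType64Ex

open Subgroup Module Cfsg Cfsg.Geo Cfsg.Agent.Lib.HermCount Cfsg.Agent.Lib.SymType64NF Cfsg.Agent.Lib.SymType64Model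
  Cfsg.Agent.Lib.SymType64U Cfsg.Agent.Lib.SymType64M Cfsg.Agent.Lib.SymType64Neg
  Cfsg.Agent.Lib.UnitaryConjGU Cfsg.Agent.Lib.UnitaryBasic Cfsg.Agent.Lib.EigenConj Cfsg.Agent.Lib.SymType64E
  Cfsg.Agent.Lib.SymType64Cent Cfsg.Agent.Lib.SymType64Pos Cfsg.Agent.Lib.SymType64Five Cfsg.Agent.Lib.SymType64Fin Matrix
open scoped MatrixGroups

variable {F : Type*} [Field F] {R : Subgroup (GL (Fin 4) F)}

local notation "M4" => Matrix (Fin 4) (Fin 4) F

section conj

variable {g x : GL (Fin 4) F}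

theorem conj_val : ((g⁻¹ * x * g : GL (Fin 4) F) : M4) = ((g⁻¹ : GL (Fin 4) F) : M4) * (x : M4) * (g : M4) := by
  simp only [Units.val_mul]

theorem inv_mul_val : ((g⁻¹ : GL (Fin 4) F) : M4) * (g : M4) = 1 := by
  rw [← Units.val_mul]; simp

theorem mul_inv_val : (g : M4) * ((g⁻¹ : GL (Fin 4) F) : M4) = 1 := by
  rw [← Units.val_mul]; simp

theorem conj_smul (z : F) : ((g⁻¹ : GL (Fin 4) F) : M4) * (z • (1 : M4)) * (g : M4) = z • 1 := by
  rw [mul_smul_comm, mul_one, smul_mul_assoc, inv_mul_val]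

theorem conj_pow_val {n : ℕ} {z : F} (hz : (x : M4) ^ n = z • 1) : ((g⁻¹ * x * g : GL (Fin 4) F) : M4) ^ n = z • 1 := by
  have e : (g⁻¹ * x * g) ^ n = g⁻¹ * x ^ n * g := by
    have := conj_pow (a := g⁻¹) (b := x) (i := n)
    simpa using this
  rw [← Units.val_pow_eq_pow_val, e, conj_val, Units.val_pow_eq_pow_val, hz, conj_smul]

theorem conj_ns (hns : ∀ c : F, (x : M4) ≠ c • 1) (c : F) : ((g⁻¹ * x * g : GL (Fin 4) F) : M4) ≠ c • 1 := by
  intro h
  apply hns c
  rw [conj_val] at h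
  calc (x : M4) = (g : M4) * (((g⁻¹ : GL (Fin 4) F) : M4) * (x : M4) * (g : M4)) * ((g⁻¹ : GL (Fin 4) F) : M4) := by
        simp only [mul_assoc, mul_inv_val, mul_one]
        rw [← mul_assoc, mul_inv_val, one_mul]
    _ = c • 1 := by
        rw [h, mul_smul_comm, mul_one, smul_mul_assoc, mul_inv_val]

/-- The rank-one consequence for `neg_three`. -/
theorem neg_three_app (hD : SymData R) (hN : g⁻¹ * x * g ∈ subgroupNormalizer R) {z : F} (hz : (x : M4) ^ 3 = z • 1)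
    (hns : ∀ c : F, (x : M4) ≠ c • 1) {lam : F} {u v : Fin 4 → F} (hr : (x : M4) - lam • 1 = vecMulVec u v) : False := by
  refine neg_three hD hN (conj_pow_val hz) (conj_ns hns) (lam := lam) ?_
  have e : ((g⁻¹ * x * g : GL (Fin 4) F) : M4) - lam • 1 = ((g⁻¹ : GL (Fin 4) F) : M4) * vecMulVec u v * (g : M4) := by
    rw [← hr, mul_sub, sub_mul, conj_val, conj_smul]
  rw [e]
  set W : M4 := ((g⁻¹ : GL (Fin 4) F) : M4) * vecMulVec u v * (g : M4) with hW
  have hrank : W.rank ≤ 1 :=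
    ((Matrix.rank_mul_le_left _ _).trans (Matrix.rank_mul_le_right _ _)).trans (Matrix.rank_vecMulVec_le u v)
  have h1 := LinearMap.finrank_range_add_finrank_ker (W.mulVecLin)
  rw [Module.finrank_fin_fun] at h1
  have h2 : W.rank = finrank F (LinearMap.range W.mulVecLin) := rfl
  omega

theorem neg_five_app (hD : SymData R) (hN : g⁻¹ * x * g ∈ subgroupNormalizer R) {τ : F}
    (hx2 : (x : M4) * x = τ • (x : M4) - 1) (hτ : τ * τ + τ - 1 = 0) (hns : ∀ c : F, (x : M4) ≠ c • 1) : False := by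
  refine neg_five hD hN ?_ hτ (conj_ns hns)
  rw [conj_val]
  calc ((g⁻¹ : GL (Fin 4) F) : M4) * (x : M4) * (g : M4) * (((g⁻¹ : GL (Fin 4) F) : M4) * (x : M4) * (g : M4))
      = ((g⁻¹ : GL (Fin 4) F) : M4) * (x : M4) * ((g : M4) * ((g⁻¹ : GL (Fin 4) F) : M4)) * (x : M4) * (g : M4) := by
        simp only [mul_assoc]
    _ = ((g⁻¹ : GL (Fin 4) F) : M4) * ((x : M4) * (x : M4)) * (g : M4) := by
        rw [mul_inv_val, mul_one]; simp only [mul_assoc]
    _ = _ := by
        rw [hx2, mul_sub, sub_mul, mul_smul_comm, smul_mul_assoc, mul_one, inv_mul_val]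

end conj

section explicit

variable [Fintype F] {q : ℕ}

/-- `diag(ω, ω, ω, 1)`. -/
def X3 (ω : F) : Matrix (Fin 4) (Fin 4) F := !![ω,0,0,0;0,ω,0,0;0,0,ω,0;0,0,0,1]

theorem st_X3 (hF : Fintype.card F = q ^ 2) {ω : F} (h : ω ^ q * ω = 1) : st q (X3 ω) * X3 ω = 1 := by
  have hq0 : q ≠ 0 := by have := two_le_q hF; omega
  ext i j
  fin_cases i <;> fin_cases j <;> simp [st_apply, X3, Matrix.mul_apply, Fin.sum_univ_four, Matrix.one_apply, h, hq0]

theorem det_X3 (ω : F) : (X3 ω).det = ω * (ω * ω) := by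
  have e : Fin.succAbove (1 : Fin 4) (2 : Fin 3) = 3 := by decide
  have e' : Fin.succAbove (2 : Fin 4) (2 : Fin 3) = 3 := by decide
  simp [X3, Matrix.det_succ_row_zero, Fin.sum_univ_succ, Matrix.submatrix, e, e']

theorem pow_X3 {ω : F} (h : ω ^ 3 = 1) : (X3 ω) ^ 3 = (1 : F) • 1 := by
  have e : (X3 ω) ^ 3 = X3 ω * X3 ω * X3 ω := by
    simp only [pow_succ, pow_zero, one_mul]
  have h' : ω * ω * ω = 1 := by rw [← h]; ring
  rw [e, one_smul]
  ext i j
  fin_cases i <;> fin_cases j <;> simp [X3, Matrix.mul_apply, Fin.sum_univ_four, Matrix.one_apply, h']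

theorem ns_X3 {ω : F} (h : ω ≠ 1) (c : F) : X3 ω ≠ c • 1 := by
  intro hc
  have h0 := congrFun (congrFun hc 0) 0
  have h3 := congrFun (congrFun hc 3) 3
  simp [X3, Matrix.smul_apply, Matrix.one_apply] at h0 h3
  exact h (h0.trans h3.symm)

theorem rank_X3 (ω : F) : X3 ω - ω • 1 = vecMulVec ![0,0,0,1] ![0,0,0,1-ω] := by
  ext i j
  fin_cases i <;> fin_cases j <;> simp [X3, Matrix.sub_apply, Matrix.smul_apply, Matrix.one_apply, vecMulVec_apply]

/-- The block matrix of trace `2τ`. -/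
def X5 (a b a' b' : F) : Matrix (Fin 4) (Fin 4) F := !![a,b,0,0;-b',a',0,0;0,0,a,b;0,0,-b',a']

/-- The transvection in characteristic three. -/
def N9 (ι β γ : F) : Matrix (Fin 4) (Fin 4) F := !![ι,ι*γ,0,0;ι*β,-ι,0,0;0,0,0,0;0,0,0,0]

theorem sq_N9 {ι β γ : F} (h : γ * β = -1) : N9 ι β γ * N9 ι β γ = 0 := by
  ext i j
  fin_cases i <;> fin_cases j <;> simp [N9, Matrix.mul_apply, Fin.sum_univ_four] <;>
    first
      | ring1
      | linear_combination (ι * ι) * h

theorem map_N9 (σ : F →+* F) (ι β γ : F) : (N9 ι β γ).map σ = N9 (σ ι) (σ β) (σ γ) := by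
  ext i j
  fin_cases i <;> fin_cases j <;> simp [N9]

theorem map_X5 (σ : F →+* F) (a b a' b' : F) : (X5 a b a' b').map σ = X5 (σ a) (σ b) (σ a') (σ b') := by
  ext i j
  fin_cases i <;> fin_cases j <;> simp [X5]

theorem st_N9 (hF : Fintype.card F = q ^ 2) {ι β γ : F} (h : γ * β = -1) (hι : ι ^ q = -ι) (hβ : β ^ q = γ) (hγ : γ ^ q = β) :
    st q (1 + N9 ι β γ) * (1 + N9 ι β γ) = 1 := by
  have e1 : st q (N9 ι β γ) = - N9 ι β γ := by
    have h1 : sigma hF ι = -ι := hι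
    have h2 : sigma hF β = γ := hβ
    have h3 : sigma hF γ = β := hγ
    rw [st_eq hF, map_N9, h1, h2, h3]
    ext i j
    fin_cases i <;> fin_cases j <;> simp [N9]
  rw [st_add hF, st_one hF, e1]
  calc (1 + -N9 ι β γ) * (1 + N9 ι β γ) = 1 - N9 ι β γ * N9 ι β γ := by noncomm_ring
    _ = 1 := by rw [sq_N9 h, sub_zero]

theorem rank_N9 (ι β γ : F) (h : γ * β = -1) :
    (1 + N9 ι β γ) - (1 : F) • 1 = vecMulVec ![1,β,0,0] ![ι,ι*γ,0,0] := by
  ext i j
  fin_cases i <;> fin_cases j <;> simp [N9, Matrix.add_apply, Matrix.sub_apply, Matrix.smul_apply, Matrix.one_apply, vecMulVec_apply] <;>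
    first
      | ring1
      | linear_combination (-ι) * h

theorem det_N9 {ι β γ : F} (hι : ι * ι = -1) (h : γ * β = -1) : (1 + N9 ι β γ).det = 1 := by
  have e : Fin.succAbove (1 : Fin 4) (2 : Fin 3) = 3 := by decide
  have e' : Fin.succAbove (2 : Fin 4) (2 : Fin 3) = 3 := by decide
  simp [N9, Matrix.det_succ_row_zero, Fin.sum_univ_succ, Matrix.submatrix, e, e', Matrix.add_apply, Matrix.one_apply]
  linear_combination (-ι * ι) * h

theorem cube_N9 {ι β γ : F} (h : γ * β = -1) (h3 : (3 : F) = 0) : (1 + N9 ι β γ) ^ 3 = (1 : F) • 1 := by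
  have hN : N9 ι β γ * N9 ι β γ = 0 := sq_N9 h
  generalize N9 ι β γ = N at hN
  have h3N : (3 : ℕ) • N = 0 := by
    rw [← Nat.cast_smul_eq_nsmul F]
    push_cast
    rw [h3, zero_smul]
  have e : (1 + N) ^ 3 = 1 + (3 : ℕ) • N + (3 : ℕ) • (N * N) + N * (N * N) := by noncomm_ring
  rw [e, hN, h3N, one_smul]
  simp

theorem ns_N9 {ι β γ : F} (hι : ι * ι = -1) (h : γ * β = -1) (c : F) : 1 + N9 ι β γ ≠ c • 1 := by
  intro hc
  have h0 := congrFun (congrFun hc 1) 0
  simp [N9, Matrix.add_apply, Matrix.smul_apply, Matrix.one_apply] at h0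
  rcases h0 with h0 | h0
  · rw [h0, mul_zero] at hι
    exact one_ne_zero (neg_eq_zero.1 hι.symm)
  · rw [h0, mul_zero] at h
    exact one_ne_zero (neg_eq_zero.1 h.symm)

theorem sq_X5 {a b a' b' τ : F} (h1 : a + a' = τ) (h2 : a * a' + b * b' = 1) :
    X5 a b a' b' * X5 a b a' b' = τ • X5 a b a' b' - 1 := by
  subst h1
  ext i j
  fin_cases i <;> fin_cases j <;>
    simp [X5, Matrix.mul_apply, Fin.sum_univ_four, Matrix.sub_apply, Matrix.smul_apply, Matrix.one_apply] <;>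
    first
      | ring1
      | linear_combination h2
      | linear_combination -h2

theorem st_X5 (hF : Fintype.card F = q ^ 2) {a b a' b' : F} (ha : a ^ q = a') (hb : b ^ q = b') (ha' : a' ^ q = a) (hb' : b' ^ q = b)
    (h2 : a * a' + b * b' = 1) : st q (X5 a b a' b') * X5 a b a' b' = 1 := by
  have e1 : sigma hF a = a' := ha
  have e2 : sigma hF b = b' := hb
  have e3 : sigma hF a' = a := ha'
  have e4 : sigma hF b' = b := hb'
  rw [st_eq hF, map_X5, e1, e2, e3, e4]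
  ext i j
  fin_cases i <;> fin_cases j <;>
    simp [X5, Matrix.mul_apply, Fin.sum_univ_four, Matrix.one_apply] <;>
    first
      | ring1
      | linear_combination h2
      | linear_combination -h2

theorem det_X5 {a b a' b' : F} (h2 : a * a' + b * b' = 1) : (X5 a b a' b').det = 1 := by
  have e : Fin.succAbove (1 : Fin 4) (2 : Fin 3) = 3 := by decide
  have e' : Fin.succAbove (2 : Fin 4) (2 : Fin 3) = 3 := by decide
  simp [X5, Matrix.det_succ_row_zero, Fin.sum_univ_succ, Matrix.submatrix, e, e']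
  linear_combination (a * a' + b * b' + 1) * h2

theorem ns_X5 {a b a' b' τ : F} (h5 : (5 : F) ≠ 0) (h1 : a + a' = τ) (h2 : a * a' + b * b' = 1) (hτ : τ * τ + τ - 1 = 0) (c : F) :
    X5 a b a' b' ≠ c • 1 := by
  intro hc
  have h0 := congrFun (congrFun hc 0) 0
  have h01 := congrFun (congrFun hc 0) 1
  have h11 := congrFun (congrFun hc 1) 1
  simp [X5, Matrix.smul_apply, Matrix.one_apply] at h0 h01 h11
  have e1 : a' = a := h11.trans h0.symm
  rw [e1, h01] at h2
  rw [e1] at h1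
  apply h5
  have e2 : a * a = 1 := by linear_combination h2
  subst h1
  have e4 : (2 : F) * a = -3 := by linear_combination hτ - 4 * e2
  have e5 : (2 : F) * a * (2 * a) = 9 := by rw [e4]; norm_num
  linear_combination 4 * e2 - e5

/-- The property to be studied. -/
def CondP (R : Subgroup (GL (Fin 4) F)) (q r : ℕ) : Prop :=
  ∀ x ∈ GU 4 F q ⊓ specialLinear (Fin 4) F, (∃ z : F, ((x ^ r : GL (Fin 4) F) : M4) = z • (1 : M4)) →
    (∀ z : F, (x : M4) ≠ z • (1 : M4)) →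
    ∃ g ∈ GU 4 F q ⊓ specialLinear (Fin 4) F, g⁻¹ * x * g ∈ subgroupNormalizer R

theorem mem_su (hF : Fintype.card F = q ^ 2) {X : M4} (hX : st q X * X = 1) (hdet : X.det = 1) :
    unitGL hF X hX ∈ GU 4 F q ⊓ specialLinear (Fin 4) F := by
  refine Subgroup.mem_inf.2 ⟨mem_of_st_mul_self hF hX, ?_⟩
  show Matrix.GeneralLinearGroup.det (unitGL hF X hX) = 1
  exact Units.ext hdet

/-- `r = 3`, `q ≡ 2 (mod 3)`. -/
theorem neg_r3_two (hF : Fintype.card F = q ^ 2) (hD : SymData R) (hq3 : q % 3 = 2) (hH : CondP R q 3) : False := by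
  have hq1 : 1 ≤ q := by have := two_le_q hF; omega
  have hdvd : 3 ∣ Fintype.card F - 1 := by
    rw [hF]
    obtain ⟨k, rfl⟩ : ∃ k, q = 3 * k + 2 := ⟨q / 3, by omega⟩
    refine ⟨3 * k * k + 4 * k + 1, ?_⟩
    have : (3 * k + 2) ^ 2 = 3 * (3 * k * k + 4 * k + 1) + 1 := by ring
    omega
  obtain ⟨ω, hω3, hω1⟩ := exists_root Nat.prime_three hdvd
  have hωq : ω ^ q * ω = 1 := by
    obtain ⟨k, rfl⟩ : ∃ k, q = 3 * k + 2 := ⟨q / 3, by omega⟩
    rw [pow_add, pow_mul, hω3, one_pow, one_mul, ← pow_succ]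
    exact hω3
  have hX := st_X3 hF hωq
  have hdet : (X3 ω).det = 1 := by
    rw [det_X3, ← hω3]; ring
  obtain ⟨g, -, hg⟩ := hH _ (mem_su hF hX hdet) ⟨1, by
    rw [Units.val_pow_eq_pow_val, unitGL_val]; exact pow_X3 hω3⟩ (by
    rw [unitGL_val]; exact ns_X3 hω1)
  exact neg_three_app hD hg (z := 1) (by rw [unitGL_val]; exact pow_X3 hω3) (by rw [unitGL_val]; exact ns_X3 hω1)
    (lam := ω) (by rw [unitGL_val]; exact rank_X3 ω)

/-- `r = 3`, `q = 3`. -/
theorem neg_r3_three (hF : Fintype.card F = 3 ^ 2) (h3 : (3 : F) = 0) (hD : SymData R) (hH : CondP R 3 3) : False := by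
  have h2 : (2 : F) ≠ 0 := hD.two_ne
  obtain ⟨ι, i₀, -, -, hι⟩ := hD.exists_i
  have hι3 : ι ^ 3 = -ι := iota_pow hι (by norm_num)
  have hιn : ι ^ 3 * ι = 1 := by rw [hι3]; linear_combination -hι
  obtain ⟨β, hβ⟩ := isSquare_of_norm_one hF h2 (by norm_num) hιn
  have hβ0 : β ^ 3 * β = -1 := by
    rw [← hι]
    nth_rewrite 1 [hβ]
    rw [hβ]
    ring
  have hβq : β ^ 3 ^ 2 = β := by
    rw [← hF]; exact FiniteField.pow_card β
  have hβ3 : (β ^ 3) ^ 3 = β := by rw [← pow_mul]; exact hβq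
  set γ : F := β ^ 3 with hγ
  have hX := st_N9 hF (ι := ι) hβ0 hι3 rfl hβ3
  have hz := cube_N9 (ι := ι) hβ0 h3
  have hns := ns_N9 hι hβ0
  obtain ⟨g, -, hg⟩ := hH _ (mem_su hF hX (det_N9 hι hβ0)) ⟨1, by
    rw [Units.val_pow_eq_pow_val, unitGL_val]; exact hz⟩ (by
    rw [unitGL_val]; exact hns)
  exact neg_three_app hD hg (z := 1) (by rw [unitGL_val]; exact hz) (by rw [unitGL_val]; exact hns)
    (lam := 1) (by rw [unitGL_val]; exact rank_N9 ι β γ hβ0)

/-- Prime divisors of the index. -/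
theorem neg_big {r : ℕ} [hr : Fact r.Prime] (hF : Fintype.card F = q ^ 2) (hD : SymData R) (hr7 : 7 ≤ r)
    (hdvd : r ∣ Nat.card (GU 4 F q ⊓ specialLinear (Fin 4) F : Subgroup (GL (Fin 4) F))) (hH : CondP R q r) : False := by
  obtain ⟨x, hx⟩ := exists_prime_orderOf_dvd_card' r hdvd
  have hx' : orderOf (x : GL (Fin 4) F) = r := by rw [Subgroup.orderOf_coe]; exact hx
  have hxr : (x : GL (Fin 4) F) ^ r = 1 := by rw [← hx']; exact pow_orderOf_eq_one _
  have hz : ((x : GL (Fin 4) F) : M4) ^ r = (1 : F) • 1 := by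
    rw [← Units.val_pow_eq_pow_val, hxr, one_smul]; rfl
  have hcop : Nat.Coprime r 4 := by
    have : Nat.Coprime r 2 := (Nat.Prime.coprime_iff_not_dvd hr.out).2 (fun h => by
      have := Nat.le_of_dvd (by norm_num) h; omega)
    exact Nat.Coprime.pow_right 2 this
  have hns : ∀ c : F, ((x : GL (Fin 4) F) : M4) ≠ c • 1 := by
    intro c hc
    have hc0 : c ^ r = 1 := by
      have h1 := hz
      rw [hc, smul_pow, one_pow, one_smul] at h1
      have h3 := congrFun (congrFun h1 0) 0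
      simpa [Matrix.smul_apply, Matrix.one_apply] using h3
    have hc4 : c ^ 4 = 1 := by
      have h1 : ((x : GL (Fin 4) F) : M4).det = 1 := by
        have := (Subgroup.mem_inf.1 x.2).2
        exact congrArg Units.val this
      rw [hc, Matrix.det_smul, Matrix.det_one, Fintype.card_fin, mul_one] at h1
      exact h1
    have hc1 : c = 1 := by
      have := (pow_gcd_eq_one (a := c) (m := r) (n := 4)).2 ⟨hc0, hc4⟩
      rw [hcop] at this
      simpa using this
    rw [hc1, one_smul] at hc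
    have hx1 : (x : GL (Fin 4) F) = 1 := Units.ext hc
    rw [hx1, orderOf_one] at hx'
    exact hr.out.one_lt.ne hx'
  obtain ⟨g, -, hg⟩ := hH _ x.2 ⟨1, by rw [Units.val_pow_eq_pow_val]; exact hz⟩ hns
  exact neg_large hD hg hr7 (conj_pow_val hz) (conj_ns hns)

/-- `r = 5`, `q ≡ ±1 (mod 5)`. -/
theorem neg_r5 (hF : Fintype.card F = q ^ 2) (hD : SymData R) (h5 : (5 : F) ≠ 0) (hq5 : q % 5 = 1 ∨ q % 5 = 4) (hH : CondP R q 5) :
    False := by
  have hq1 : 1 ≤ q := by have := two_le_q hF; omega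
  have hdvd : 5 ∣ Fintype.card F - 1 := by
    rw [hF]
    have h1 : (q ^ 2) % 5 = 1 := by
      rw [Nat.pow_mod]
      rcases hq5 with h | h <;> rw [h]
    have h2 : 1 ≤ q ^ 2 := Nat.one_le_pow _ _ hq1
    omega
  obtain ⟨ζ, hζ5, hζ1⟩ := exists_root (by norm_num) hdvd
  have hΦ : ζ ^ 4 + ζ ^ 3 + ζ ^ 2 + ζ + 1 = 0 := by
    have h1 : (ζ - 1) * (ζ ^ 4 + ζ ^ 3 + ζ ^ 2 + ζ + 1) = 0 := by linear_combination hζ5
    exact (mul_eq_zero.1 h1).resolve_left (sub_ne_zero.2 hζ1)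
  set τ : F := ζ + ζ ^ 4 with hτdef
  have hτ : τ * τ + τ - 1 = 0 := by
    rw [hτdef]
    linear_combination hΦ + (ζ ^ 3 + 2) * hζ5
  have hτq : τ ^ q = τ := by
    have e : τ ^ q = sigma hF τ := rfl
    rw [e, hτdef, map_add, map_pow]
    have e2 : sigma hF ζ = ζ ^ q := rfl
    rw [e2]
    obtain ⟨k, hk⟩ : ∃ k, q = 5 * k + q % 5 := ⟨q / 5, (Nat.div_add_mod q 5).symm⟩
    rcases hq5 with h | h
    · rw [h] at hk
      have e3 : ζ ^ q = ζ := by
        rw [hk, pow_add, pow_mul, hζ5, one_pow, one_mul, pow_one]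
      rw [e3]
    · rw [h] at hk
      have e3 : ζ ^ q = ζ ^ 4 := by
        rw [hk, pow_add, pow_mul, hζ5, one_pow, one_mul]
      rw [e3, add_comm]
      congr 1
      have : (ζ ^ 4) ^ 4 = ζ ^ 5 * ζ ^ 5 * ζ ^ 5 * ζ := by ring
      rw [this, hζ5]
      ring
  obtain ⟨a, ha⟩ := Cfsg.Agent.Lib.UnitaryTv.exists_trace_eq hF hτq
  have hqq : ∀ u : F, (u ^ q) ^ q = u := by
    intro u
    rw [← pow_mul, ← pow_two, ← hF]
    exact FiniteField.pow_card u
  have hρ : (1 - a * a ^ q) ^ q = 1 - a * a ^ q := by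
    have e : (1 - a * a ^ q) ^ q = sigma hF (1 - a * a ^ q) := rfl
    rw [e, map_sub, map_one, map_mul]
    have e2 : sigma hF a = a ^ q := rfl
    rw [e2, map_pow, e2, ← pow_mul, ← pow_two, ← hF, FiniteField.pow_card, mul_comm]
  have hb : ∃ b : F, b * b ^ q = 1 - a * a ^ q := by
    by_cases h0 : 1 - a * a ^ q = 0
    · refine ⟨0, ?_⟩
      rw [h0, zero_mul]
    · exact Cfsg.Agent.Lib.UnitaryTv.exists_nrm_eq hF h0 hρ
  obtain ⟨b, hb⟩ := hb
  have h1 : a * a ^ q + b * b ^ q = 1 := by rw [hb]; ring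
  have hX := st_X5 hF (a := a) (b := b) rfl rfl (hqq a) (hqq b) h1
  have hns := ns_X5 h5 ha h1 hτ
  have hsq := sq_X5 ha h1
  have hX55 : (X5 a b (a ^ q) (b ^ q)) ^ 5 = (1 : F) • 1 := by
    rw [one_smul]
    exact pow5_of_quad hsq hτ
  obtain ⟨g, -, hg⟩ := hH _ (mem_su hF hX (det_X5 h1)) ⟨1, by
    rw [Units.val_pow_eq_pow_val, unitGL_val]; exact hX55⟩ (by
    rw [unitGL_val]; exact hns)
  exact neg_five_app hD hg (τ := τ) (by rw [unitGL_val]; exact hsq) hτ (by rw [unitGL_val]; exact hns)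

end explicit

end Cfsg.Agent.Lib.SymType64Ex
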