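/-
SympFree: an isometry of a symplectic `F_p`-space all of whose non-trivial powers (up to order `h`)
act without fixed points has `h ∣ p ^ n ± 1`, where `2 n` is the dimension of the space.
-/
import Mathlib
import Cfsg.Agent.Lib.SelfCent
import Cfsg.Agent.Lib.ExtraES2

set_option autoImplicit false
set_option linter.style.haveILetI false

namespace Cfsg.Agent.Lib.SympFree

open Polynomial

section field

variable {p : ℕ} [hp : Fact p.Prime] {K : Type*} [Field K] [Finite K] [Algebra (ZMod p) K]

/-- The quadratic step: `K₀` a subfield of the finite field `K = F_p[a]`, with `a + a⁻¹ ∈ K₀`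
and `a ∉ K₀`.  Then `|K| = q²`, `q = |K₀|`, and `a ^ (q + 1) = 1`. -/
theorem field_step (K₀ : Subfield K) (a : K) (ha : a ≠ 0) (hy : a + a⁻¹ ∈ K₀) (hna : a ∉ K₀)
    (hgen : ∀ r : K, ∃ f : (ZMod p)[X], r = aeval a f) :
    ∃ e : ℕ, Nat.card K = (p ^ e) ^ 2 ∧ a ^ (p ^ e + 1) = 1 := by
  classical
  haveI : Fintype K := Fintype.ofFinite K
  haveI : CharP K p := charP_of_injective_algebraMap (algebraMap (ZMod p) K).injective p
  have hconst : ∀ c : ZMod p, algebraMap (ZMod p) K c ∈ K₀ := by
    intro c
    have : c = ((c.val : ℕ) : ZMod p) := (ZMod.natCast_zmod_val c).symm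
    rw [this, map_natCast]
    exact natCast_mem K₀ _
  have ha2 : a * a = (a + a⁻¹) * a - 1 := by
    field_simp
    ring
  -- every element is `s + t a`
  have hform : ∀ f : (ZMod p)[X], ∃ s ∈ K₀, ∃ t ∈ K₀, aeval a f = s + t * a := by
    intro f
    induction f using Polynomial.induction_on with
    | C c =>
      refine ⟨algebraMap (ZMod p) K c, hconst c, 0, K₀.zero_mem, ?_⟩
      simp
    | add f g hf hg =>
      obtain ⟨s, hs, t, ht, e⟩ := hf
      obtain ⟨s', hs', t', ht', e'⟩ := hg
      refine ⟨s + s', K₀.add_mem hs hs', t + t', K₀.add_mem ht ht', ?_⟩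
      rw [map_add, e, e']
      ring
    | monomial n c ih =>
      obtain ⟨s, hs, t, ht, e⟩ := ih
      have e2 : aeval a (C c * X ^ (n + 1) : (ZMod p)[X]) = aeval a (C c * X ^ n : (ZMod p)[X]) * a := by
        simp only [map_mul, map_pow, aeval_X, pow_succ]
        ring
      refine ⟨-t, K₀.neg_mem ht, s + t * (a + a⁻¹), K₀.add_mem hs (K₀.mul_mem ht hy), ?_⟩
      rw [e2, e]
      linear_combination t * ha2
  let F : K₀ × K₀ → K := fun x => (x.1 : K) + (x.2 : K) * a
  have hFinj : Function.Injective F := by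
    rintro ⟨s, t⟩ ⟨s', t'⟩ hst
    have hst' : (s : K) + (t : K) * a = (s' : K) + (t' : K) * a := hst
    by_cases htt : (t : K) = t'
    · have hss : (s : K) = s' := by
        rw [htt] at hst'
        exact add_right_cancel hst'
      exact Prod.ext (Subtype.ext hss) (Subtype.ext htt)
    · exfalso
      apply hna
      have hne : (t : K) - t' ≠ 0 := sub_ne_zero.mpr htt
      have : a = ((s' : K) - s) / ((t : K) - t') := by
        field_simp
        linear_combination hst'
      rw [this]
      exact K₀.div_mem (K₀.sub_mem s'.2 s.2) (K₀.sub_mem t.2 t'.2)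
  have hFsurj : Function.Surjective F := by
    intro r
    obtain ⟨f, rfl⟩ := hgen r
    obtain ⟨s, hs, t, ht, e⟩ := hform f
    exact ⟨(⟨s, hs⟩, ⟨t, ht⟩), e.symm⟩
  have hcard : Nat.card K = Nat.card K₀ * Nat.card K₀ := by
    rw [← Nat.card_prod]
    exact (Nat.card_congr (Equiv.ofBijective F ⟨hFinj, hFsurj⟩)).symm
  -- the order of `K₀` is a power of `p`
  have hKp : ∃ f : ℕ, Nat.card K = p ^ f := by
    have := Module.natCard_eq_pow_finrank (K := ZMod p) (V := K)
    rw [Nat.card_zmod] at this
    exact ⟨_, this⟩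
  obtain ⟨f, hf⟩ := hKp
  obtain ⟨e, -, he⟩ := (Nat.dvd_prime_pow hp.out).1 (show Nat.card K₀ ∣ p ^ f from ⟨Nat.card K₀, by rw [← hf, hcard]⟩)
  refine ⟨e, by rw [hcard, he]; ring, ?_⟩
  -- the Frobenius
  haveI : ExpChar K p := ExpChar.prime hp.out
  have hpow : ∀ r ∈ K₀, r ^ (p ^ e) = r := by
    intro r hr
    haveI : Fintype K₀ := Fintype.ofFinite K₀
    have h1 := FiniteField.pow_card (⟨r, hr⟩ : K₀)
    rw [← Nat.card_eq_fintype_card, he] at h1
    exact congrArg Subtype.val h1
  have hy2 : (a + a⁻¹) ^ (p ^ e) = a + a⁻¹ := hpow _ hy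
  have hq1 : a ^ 2 - (a + a⁻¹) * a + 1 = 0 := by
    field_simp
    ring
  set φ := iterateFrobenius K p e with hφ
  have hφa : φ a = a ^ p ^ e := rfl
  have hq2 : φ a ^ 2 - (a + a⁻¹) * φ a + 1 = 0 := by
    have := congrArg φ hq1
    simp only [map_add, map_sub, map_mul, map_pow, map_one, map_zero] at this
    have h3 : φ a + φ a⁻¹ = a + a⁻¹ := by
      rw [← map_add]
      exact hy2
    rw [h3] at this
    exact this
  have hfac : (φ a - a) * (φ a - a⁻¹) = 0 := by
    have : (φ a - a) * (φ a - a⁻¹) = φ a ^ 2 - (a + a⁻¹) * φ a + a * a⁻¹ := by ring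
    rw [this, mul_inv_cancel₀ ha]
    exact hq2
  rcases mul_eq_zero.1 hfac with h1 | h1
  · -- `a ^ q = a` puts `a` in `K₀`
    exfalso
    apply hna
    have hq : 1 < p ^ e := by
      by_contra hle
      have h1le : Nat.card K₀ ≤ 1 := by omega
      have hc : Nat.card K₀ = 1 := le_antisymm h1le Nat.card_pos
      have := K₀.one_mem
      have h0 := K₀.zero_mem
      have huniq : (⟨1, this⟩ : K₀) = ⟨0, h0⟩ := by
        haveI := (Nat.card_eq_one_iff_unique.1 hc).1
        exact Subsingleton.elim _ _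
      exact one_ne_zero (congrArg Subtype.val huniq)
    haveI : Fact (1 < p ^ e) := ⟨hq⟩
    have hP : (X ^ (p ^ e) - X : K[X]) ≠ 0 := FiniteField.X_pow_card_sub_X_ne_zero K hq
    have hdeg : (X ^ (p ^ e) - X : K[X]).natDegree = p ^ e := FiniteField.X_pow_card_sub_X_natDegree_eq K hq
    haveI : Fintype K₀ := Fintype.ofFinite K₀
    let T : Finset K := Finset.univ.image (fun r : K₀ => (r : K))
    let S : Finset K := (X ^ (p ^ e) - X : K[X]).roots.toFinset
    have hTS : T ⊆ S := by
      intro r hr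
      obtain ⟨r', -, rfl⟩ := Finset.mem_image.1 hr
      rw [Multiset.mem_toFinset, Polynomial.mem_roots hP]
      simp [IsRoot, hpow _ r'.2]
    have hTc : T.card = p ^ e := by
      rw [Finset.card_image_of_injective _ Subtype.val_injective, Finset.card_univ,
        ← Nat.card_eq_fintype_card, he]
    have hSc : S.card ≤ p ^ e := by
      refine le_trans (Multiset.toFinset_card_le _) ?_
      have h5 := Polynomial.card_roots' (X ^ (p ^ e) - X : K[X])
      rw [hdeg] at h5
      exact h5
    have hEq : T = S := Finset.eq_of_subset_of_card_le hTS (by omega)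
    have haS : a ∈ S := by
      rw [Multiset.mem_toFinset, Polynomial.mem_roots hP]
      simp only [IsRoot, eval_sub, eval_pow, eval_X]
      rw [← hφa, sub_eq_zero.1 h1, sub_self]
    rw [← hEq] at haS
    obtain ⟨r', -, hr'⟩ := Finset.mem_image.1 haS
    rw [← hr']
    exact r'.2
  · have : a ^ p ^ e = a⁻¹ := sub_eq_zero.1 h1
    rw [pow_succ, this, inv_mul_cancel₀ ha]

end field


section key

variable {p : ℕ} [hp : Fact p.Prime] {W : Type*} [AddCommGroup W] [Module (ZMod p) W] [Finite W]

/-- An irreducible isometry of a nondegenerate pairing, of finite order: either its square is `1`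
or `|W| = q²` and `A ^ (q + 1) = 1` for a power `q` of `p`. -/
theorem key [Nontrivial W] (B : W →ₗ[ZMod p] W →ₗ[ZMod p] ZMod p)
    (hnd : ∀ v, (∀ u, B u v = 0) → v = 0)
    (A : Module.End (ZMod p) W) {h : ℕ} (hh : 0 < h) (hA : A ^ h = 1)
    (hiso : ∀ u v, B (A u) (A v) = B u v)
    (hirr : ∀ S : Submodule (ZMod p) W, S ≠ ⊥ → (∀ v ∈ S, A v ∈ S) → S = ⊤) :
    A ^ 2 = 1 ∨ ∃ e : ℕ, Nat.card W = (p ^ e) ^ 2 ∧ A ^ (p ^ e + 1) = 1 := by
  classical
  let φ : (ZMod p)[X] →ₐ[ZMod p] Module.End (ZMod p) W := aeval A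
  have hφX : φ X = A := aeval_X A
  have hcomm : ∀ f : (ZMod p)[X], A * φ f = φ f * A := by
    intro f
    rw [← hφX, ← map_mul, ← map_mul, mul_comm]
  have hinj0 : ∀ f : (ZMod p)[X], φ f ≠ 0 → Function.Injective (φ f) := by
    intro f hf
    have hker : LinearMap.ker (φ f) = ⊥ := by
      by_contra hne
      have htop := hirr _ hne (by
        intro v hv
        rw [LinearMap.mem_ker] at hv ⊢
        have := LinearMap.congr_fun (hcomm f) v
        simp only [Module.End.mul_apply] at this
        rw [← this, hv, map_zero])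
      exact hf (LinearMap.ker_eq_top.1 htop)
    exact LinearMap.ker_eq_bot.1 hker
  let I : Ideal (ZMod p)[X] := RingHom.ker (φ : (ZMod p)[X] →+* Module.End (ZMod p) W)
  have hmemI : ∀ f, f ∈ I ↔ φ f = 0 := fun f => RingHom.mem_ker
  have hEnd1 : (1 : Module.End (ZMod p) W) ≠ 0 := by
    obtain ⟨v, hv⟩ := exists_ne (0 : W)
    intro h0
    exact hv (by simpa using LinearMap.congr_fun h0 v)
  haveI hIprime : I.IsPrime := by
    constructor
    · intro htop
      have : (1 : (ZMod p)[X]) ∈ I := by rw [htop]; trivial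
      rw [hmemI, map_one] at this
      exact hEnd1 this
    · intro f g hfg
      rw [hmemI, map_mul] at hfg
      by_cases hf : φ f = 0
      · exact Or.inl ((hmemI f).2 hf)
      · right
        rw [hmemI]
        ext v
        apply hinj0 f hf
        have := LinearMap.congr_fun hfg v
        simpa using this
  let ψ : ((ZMod p)[X] ⧸ I) →+* Module.End (ZMod p) W :=
    Ideal.Quotient.lift I (φ : (ZMod p)[X] →+* Module.End (ZMod p) W) (fun f hf => (hmemI f).1 hf)
  have hψmk : ∀ f, ψ (Ideal.Quotient.mk I f) = φ f := fun f => rfl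
  have hψinj : Function.Injective ψ := by
    rw [injective_iff_map_eq_zero]
    intro r hr
    obtain ⟨f, rfl⟩ := Ideal.Quotient.mk_surjective r
    rw [hψmk] at hr
    exact Ideal.Quotient.eq_zero_iff_mem.2 ((hmemI f).2 hr)
  haveI : Finite (Module.End (ZMod p) W) :=
    Finite.of_injective (fun f : Module.End (ZMod p) W => (f : W → W)) DFunLike.coe_injective
  haveI : Finite ((ZMod p)[X] ⧸ I) := Finite.of_injective ψ hψinj
  have hfield : IsField ((ZMod p)[X] ⧸ I) := Finite.isDomain_to_isField _
  haveI hImax : I.IsMaximal := Ideal.Quotient.maximal_of_isField I hfield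
  letI : Field ((ZMod p)[X] ⧸ I) := Ideal.Quotient.field I
  let a : (ZMod p)[X] ⧸ I := Ideal.Quotient.mk I X
  have hψa : ψ a = A := by
    show φ X = A
    exact hφX
  have hapow : a ^ h = 1 := by
    have : ψ (a ^ h) = ψ 1 := by
      rw [map_pow, hψa, hA, map_one]
    exact hψinj this
  have ha0 : a ≠ 0 := by
    intro h0
    rw [h0, zero_pow hh.ne'] at hapow
    exact zero_ne_one hapow
  have hainv : a⁻¹ = a ^ (h - 1) := by
    refine (eq_inv_of_mul_eq_one_left ?_).symm
    rw [← pow_succ, Nat.sub_add_cancel hh, hapow]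
  set Ab := A ^ (h - 1) with hAb
  have hψainv : ψ a⁻¹ = Ab := by
    rw [hainv, map_pow, hψa]
  have hAAb : ∀ v, A (Ab v) = v := by
    intro v
    have : A * Ab = 1 := by
      rw [hAb, ← pow_succ', Nat.sub_add_cancel hh, hA]
    simpa using LinearMap.congr_fun this v
  have hAbA : ∀ v, Ab (A v) = v := by
    intro v
    have : Ab * A = 1 := by
      rw [hAb, ← pow_succ, Nat.sub_add_cancel hh, hA]
    simpa using LinearMap.congr_fun this v
  have hAbiso : ∀ u v, B (Ab u) (Ab v) = B u v := by
    intro u v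
    have := hiso (Ab u) (Ab v)
    rw [hAAb, hAAb] at this
    exact this.symm
  have hadj1 : ∀ u v, B (A u) v = B u (Ab v) := by
    intro u v
    have := hiso u (Ab v)
    rw [hAAb] at this
    exact this
  have hadj2 : ∀ u v, B (Ab u) v = B u (A v) := by
    intro u v
    have := hAbiso u (A v)
    rw [hAbA] at this
    exact this
  -- the self-adjoint subfield
  let K₀ : Subfield ((ZMod p)[X] ⧸ I) :=
    { carrier := {r | ∀ u v, B (ψ r u) v = B u (ψ r v)}
      mul_mem' := by
        intro r s hr hs u v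
        simp only [map_mul, Module.End.mul_apply]
        rw [hr, hs, ← Module.End.mul_apply, ← Module.End.mul_apply, ← map_mul, ← map_mul, mul_comm]
      one_mem' := by
        intro u v
        simp
      add_mem' := by
        intro r s hr hs u v
        simp only [map_add, LinearMap.add_apply]
        rw [hr, hs]
      zero_mem' := by
        intro u v
        simp
      neg_mem' := by
        intro r hr u v
        simp only [map_neg, LinearMap.neg_apply]
        rw [hr]
      inv_mem' := by
        intro r hr u v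
        by_cases h0 : r = 0
        · simp [h0]
        · have hrr : ∀ w, ψ r (ψ r⁻¹ w) = w := by
            intro w
            rw [← Module.End.mul_apply, ← map_mul, mul_inv_cancel₀ h0, map_one]
            rfl
          have h1 := hr (ψ r⁻¹ u) (ψ r⁻¹ v)
          rw [hrr, hrr] at h1
          exact h1.symm }
  have hmemK₀ : ∀ r, r ∈ K₀ ↔ ∀ u v, B (ψ r u) v = B u (ψ r v) := fun r => Iff.rfl
  by_cases hna : a ∈ K₀
  · left
    rw [hmemK₀, hψa] at hna
    ext v
    have h1 : A v = Ab v := by
      have h2 : A v - Ab v = 0 := by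
        apply hnd
        intro u
        rw [map_sub, ← hna, hadj1, sub_self]
      exact sub_eq_zero.1 h2
    rw [pow_two, Module.End.mul_apply, h1, hAAb]
    rfl
  · right
    have hy : a + a⁻¹ ∈ K₀ := by
      rw [hmemK₀]
      intro u v
      rw [map_add, hψa, hψainv, LinearMap.add_apply, LinearMap.add_apply, map_add, map_add,
        LinearMap.add_apply, hadj1, hadj2, add_comm]
    have hgen : ∀ r : (ZMod p)[X] ⧸ I, ∃ f : (ZMod p)[X], r = aeval a f := by
      intro r
      obtain ⟨f, rfl⟩ := Ideal.Quotient.mk_surjective r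
      refine ⟨f, ?_⟩
      have h1 : aeval (Ideal.Quotient.mkₐ (ZMod p) I X) f = Ideal.Quotient.mkₐ (ZMod p) I (aeval X f) :=
        aeval_algHom_apply _ _ _
      rw [aeval_X_left_apply] at h1
      exact h1.symm
    obtain ⟨e, he1, he2⟩ := field_step K₀ a ha0 hy hna hgen
    refine ⟨e, ?_, ?_⟩
    · -- the order of the module
      obtain ⟨v, hv⟩ := exists_ne (0 : W)
      let F : ((ZMod p)[X] ⧸ I) → W := fun r => ψ r v
      have hFinj : Function.Injective F := by
        intro r s hrs
        by_contra hne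
        have h0 : r - s ≠ 0 := sub_ne_zero.2 hne
        have h1 : ψ (r - s) v = 0 := by
          rw [map_sub, LinearMap.sub_apply]
          exact sub_eq_zero.2 hrs
        have h2 : ψ (r - s)⁻¹ (ψ (r - s) v) = v := by
          rw [← Module.End.mul_apply, ← map_mul, inv_mul_cancel₀ h0, map_one]
          rfl
        rw [h1, map_zero] at h2
        exact hv h2.symm
      have hFsurj : Function.Surjective F := by
        let L : (ZMod p)[X] →ₗ[ZMod p] W := (LinearMap.applyₗ v) ∘ₗ φ.toLinearMap
        have hL : LinearMap.range L = ⊤ := by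
          apply hirr
          · intro h0
            have : v ∈ LinearMap.range L := ⟨1, by simp [L]⟩
            rw [h0] at this
            exact hv (by simpa using this)
          · rintro _ ⟨f, rfl⟩
            refine ⟨X * f, ?_⟩
            simp only [L, LinearMap.comp_apply, AlgHom.toLinearMap_apply, LinearMap.applyₗ_apply_apply,
              map_mul, Module.End.mul_apply]
            rw [hφX]
        intro w
        have hw : w ∈ LinearMap.range L := by rw [hL]; trivial
        obtain ⟨f, rfl⟩ := hw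
        exact ⟨Ideal.Quotient.mk I f, rfl⟩
      rw [← he1]
      exact (Nat.card_congr (Equiv.ofBijective F ⟨hFinj, hFsurj⟩)).symm
    · have : ψ (a ^ (p ^ e + 1)) = 1 := by
        rw [he2, map_one]
      rwa [map_pow, hψa] at this

end key

/-- The numerical conclusion. -/
def Good (p h n : ℕ) : Prop := h ∣ p ^ n + 1 ∨ h ∣ p ^ n - 1

theorem good_zero (p h : ℕ) : Good p h 0 := Or.inr (by simp)

section arith

variable {p h : ℕ}

theorem good_iff (hp : 0 < p) (n : ℕ) : Good p h n ↔ ((h : ℤ) ∣ (p : ℤ) ^ n + 1 ∨ (h : ℤ) ∣ (p : ℤ) ^ n - 1) := by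
  have h1 : 1 ≤ p ^ n := Nat.one_le_pow _ _ hp
  unfold Good
  rw [← Int.natCast_dvd_natCast (m := h) (n := p ^ n + 1), ← Int.natCast_dvd_natCast (m := h) (n := p ^ n - 1)]
  push_cast [h1]
  rfl

theorem good_add_minus (hp : 0 < p) {m d : ℕ} (hm : Good p h m) (hd : h ∣ p ^ d - 1) : Good p h (m + d) := by
  rw [good_iff hp] at hm ⊢
  have h1 : 1 ≤ p ^ d := Nat.one_le_pow _ _ hp
  have hd' : (h : ℤ) ∣ (p : ℤ) ^ d - 1 := by
    rw [← Int.natCast_dvd_natCast] at hd
    push_cast [h1] at hd
    exact hd
  obtain ⟨k, hk⟩ := hd'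
  rcases hm with ⟨l, hl⟩ | ⟨l, hl⟩
  · left
    refine ⟨(p : ℤ) ^ d * l - k, ?_⟩
    rw [pow_add]
    linear_combination (p : ℤ) ^ d * hl - hk
  · right
    refine ⟨(p : ℤ) ^ d * l + k, ?_⟩
    rw [pow_add]
    linear_combination (p : ℤ) ^ d * hl + hk

theorem good_add_plus (hp : 0 < p) {m d : ℕ} (hm : Good p h m) (hd : h ∣ p ^ d + 1) : Good p h (m + d) := by
  rw [good_iff hp] at hm ⊢
  have hd' : (h : ℤ) ∣ (p : ℤ) ^ d + 1 := by
    rw [← Int.natCast_dvd_natCast] at hd
    push_cast at hd
    exact hd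
  obtain ⟨k, hk⟩ := hd'
  rcases hm with ⟨l, hl⟩ | ⟨l, hl⟩
  · right
    refine ⟨(p : ℤ) ^ d * l - k, ?_⟩
    rw [pow_add]
    linear_combination (p : ℤ) ^ d * hl - hk
  · left
    refine ⟨(p : ℤ) ^ d * l + k, ?_⟩
    rw [pow_add]
    linear_combination (p : ℤ) ^ d * hl + hk

end arith

section reduce

universe u
variable {p : ℕ} [hp : Fact p.Prime] {V : Type u} [AddCommGroup V] [Module (ZMod p) V] [Finite V]

theorem reduce (B : LinearMap.BilinForm (ZMod p) V) (hAlt : B.IsAlt) (hnd : B.Nondegenerate)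
    (a : Module.End (ZMod p) V) {h : ℕ} (hh : 0 < h) (ha : a ^ h = 1)
    (hiso : ∀ u v, B (a u) (a v) = B u v)
    (hfree : ∀ i, 0 < i → i < h → ∀ v, (a ^ i) v = v → v = 0)
    (U : Submodule (ZMod p) V) (hU : ∀ v ∈ U, a v ∈ U) :
    ∃ (Q : Type u) (_ : AddCommGroup Q) (_ : Module (ZMod p) Q) (_ : Finite Q)
      (B' : LinearMap.BilinForm (ZMod p) Q) (a' : Module.End (ZMod p) Q),
      B'.IsAlt ∧ B'.Nondegenerate ∧ a' ^ h = 1 ∧ (∀ u v, B' (a' u) (a' v) = B' u v) ∧
      (∀ i, 0 < i → i < h → ∀ v, (a' ^ i) v = v → v = 0) ∧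
      Module.finrank (ZMod p) Q + Module.finrank (ZMod p) U +
        Module.finrank (ZMod p) ↥(U ⊓ B.orthogonal U) = Module.finrank (ZMod p) V := by
  classical
  haveI : Module.Finite (ZMod p) V := Module.Finite.of_finite
  set T := B.orthogonal U with hT
  have hmemT : ∀ t, t ∈ T ↔ ∀ u ∈ U, B u t = 0 := fun t => LinearMap.BilinForm.mem_orthogonal_iff
  have hrefl := hAlt.isRefl
  have hTU : ∀ t ∈ T, ∀ u ∈ U, B t u = 0 := fun t ht u hu => hrefl _ _ ((hmemT t).1 ht u hu)
  have hapow : ∀ u, a ((a ^ (h - 1)) u) = u := by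
    intro u
    have : a * a ^ (h - 1) = 1 := by rw [← pow_succ', Nat.sub_add_cancel hh, ha]
    simpa using LinearMap.congr_fun this u
  have hUpow : ∀ (k : ℕ), ∀ u ∈ U, (a ^ k) u ∈ U := by
    intro k
    induction k with
    | zero => intro u hu; simpa using hu
    | succ k ih => intro u hu; rw [pow_succ', Module.End.mul_apply]; exact hU _ (ih u hu)
  have hTa : ∀ t ∈ T, a t ∈ T := by
    intro t ht
    rw [hmemT] at ht ⊢
    intro u hu
    have := hiso ((a ^ (h - 1)) u) t
    rw [hapow] at this
    rw [this]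
    exact ht _ (hUpow _ u hu)
  let K : Submodule (ZMod p) T := (U ⊓ T).comap T.subtype
  have hmemK : ∀ t : T, t ∈ K ↔ (t : V) ∈ U := by
    intro t
    show (t : V) ∈ U ⊓ T ↔ _
    rw [Submodule.mem_inf]
    exact ⟨fun h => h.1, fun h => ⟨h, t.2⟩⟩
  let B₀ : T →ₗ[ZMod p] T →ₗ[ZMod p] ZMod p := B.domRestrict₁₂ T T
  have hB₀ : ∀ s t : T, B₀ s t = B s t := fun s t => rfl
  have h1 : K ≤ LinearMap.ker B₀ := by
    intro k hk
    rw [LinearMap.mem_ker]
    ext t
    exact (hmemT _).1 t.2 _ ((hmemK k).1 hk)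
  let B₁ : (T ⧸ K) →ₗ[ZMod p] T →ₗ[ZMod p] ZMod p := K.liftQ B₀ h1
  have hB₁ : ∀ s t : T, B₁ (Submodule.Quotient.mk s) t = B s t := fun s t => rfl
  have h2 : K ≤ LinearMap.ker B₁.flip := by
    intro k hk
    rw [LinearMap.mem_ker]
    refine LinearMap.ext fun x => ?_
    obtain ⟨s, rfl⟩ := Submodule.Quotient.mk_surjective _ x
    show B₁ (Submodule.Quotient.mk s) k = (0 : ZMod p)
    rw [hB₁]
    exact hTU _ s.2 _ ((hmemK k).1 hk)
  let B₂ : (T ⧸ K) →ₗ[ZMod p] (T ⧸ K) →ₗ[ZMod p] ZMod p := (K.liftQ B₁.flip h2).flip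
  have hB₂ : ∀ s t : T, B₂ (Submodule.Quotient.mk s) (Submodule.Quotient.mk t) = B s t := fun s t => rfl
  have hKa : K ≤ K.comap (a.restrict hTa) := by
    intro k hk
    rw [Submodule.mem_comap, hmemK]
    exact hU _ ((hmemK k).1 hk)
  let a' : Module.End (ZMod p) (T ⧸ K) := K.mapQ K (a.restrict hTa) hKa
  have ha' : ∀ t : T, a' (Submodule.Quotient.mk t) = Submodule.Quotient.mk ⟨a t, hTa t t.2⟩ := fun t => rfl
  have hTpow : ∀ (k : ℕ), ∀ t ∈ T, (a ^ k) t ∈ T := by
    intro k
    induction k with
    | zero => intro u hu; simpa using hu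
    | succ k ih => intro u hu; rw [pow_succ', Module.End.mul_apply]; exact hTa _ (ih u hu)
  have ha'pow : ∀ (k : ℕ) (t : T), (a' ^ k) (Submodule.Quotient.mk t) =
      Submodule.Quotient.mk ⟨(a ^ k) t, hTpow k t t.2⟩ := by
    intro k
    induction k with
    | zero =>
      intro t
      simp
    | succ k ih =>
      intro t
      rw [pow_succ', Module.End.mul_apply, ih, ha']
      congr 1
      apply Subtype.ext
      show a ((a ^ k) t) = (a ^ (k + 1)) t
      rw [pow_succ', Module.End.mul_apply]
  haveI : Finite (T ⧸ K) := Finite.of_surjective K.mkQ K.mkQ_surjective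
  refine ⟨T ⧸ K, inferInstance, inferInstance, inferInstance, B₂, a', ?_, ?_, ?_, ?_, ?_, ?_⟩
  · intro x
    obtain ⟨s, rfl⟩ := Submodule.Quotient.mk_surjective _ x
    rw [hB₂]
    exact hAlt _
  · have hrefl2 : (B₂ : LinearMap.BilinForm (ZMod p) (T ⧸ K)).IsRefl := by
      intro x y hxy
      obtain ⟨s, rfl⟩ := Submodule.Quotient.mk_surjective _ x
      obtain ⟨t, rfl⟩ := Submodule.Quotient.mk_surjective _ y
      rw [hB₂] at hxy ⊢
      exact hrefl _ _ hxy
    apply (LinearMap.IsRefl.nondegenerate_iff_separatingLeft hrefl2).2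
    intro x hx
    obtain ⟨s, rfl⟩ := Submodule.Quotient.mk_surjective _ x
    rw [Submodule.Quotient.mk_eq_zero, hmemK]
    have hs : (s : V) ∈ B.orthogonal T := by
      rw [LinearMap.BilinForm.mem_orthogonal_iff]
      intro t ht
      have := hx (Submodule.Quotient.mk ⟨t, ht⟩)
      rw [hB₂] at this
      exact hrefl _ _ this
    have e := LinearMap.BilinForm.orthogonal_orthogonal hnd hrefl U
    have hs' : (s : V) ∈ B.orthogonal (B.orthogonal U) := hs
    rwa [e] at hs'
  · refine LinearMap.ext fun x => ?_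
    obtain ⟨s, rfl⟩ := Submodule.Quotient.mk_surjective _ x
    rw [ha'pow]
    congr 1
    apply Subtype.ext
    show (a ^ h) s = s
    rw [ha]
    rfl
  · intro x y
    obtain ⟨s, rfl⟩ := Submodule.Quotient.mk_surjective _ x
    obtain ⟨t, rfl⟩ := Submodule.Quotient.mk_surjective _ y
    rw [ha', ha', hB₂, hB₂]
    exact hiso _ _
  · intro i hi hih x hx
    obtain ⟨t, rfl⟩ := Submodule.Quotient.mk_surjective _ x
    rw [ha'pow, Submodule.Quotient.eq] at hx
    rw [Submodule.Quotient.mk_eq_zero, hmemK]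
    -- `a ^ i - 1` is injective, and preserves `U ⊓ T`
    let D : Submodule (ZMod p) V := U ⊓ T
    have hD : ∀ v ∈ D, (a ^ i) v - v ∈ D := by
      intro v hv
      refine D.sub_mem ?_ hv
      exact ⟨hUpow _ _ hv.1, hTpow _ _ hv.2⟩
    let f : D → D := fun v => ⟨(a ^ i) v - v, hD v v.2⟩
    have hinj0 : ∀ v w : V, (a ^ i) v - v = (a ^ i) w - w → v = w := by
      intro v w hvw
      have : (a ^ i) (v - w) = v - w := by
        rw [map_sub]
        exact sub_eq_sub_iff_sub_eq_sub.1 hvw
      exact sub_eq_zero.1 (hfree i hi hih _ this)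
    have hfinj : Function.Injective f := by
      intro v w hvw
      exact Subtype.ext (hinj0 _ _ (congrArg Subtype.val hvw))
    have hfsurj : Function.Surjective f := Finite.surjective_of_injective hfinj
    have hx' : (a ^ i) t - t ∈ D := by
      refine ⟨?_, ?_⟩
      · exact (hmemK _).1 hx
      · exact T.sub_mem (hTpow _ _ t.2) t.2
    obtain ⟨k, hk⟩ := hfsurj ⟨_, hx'⟩
    have := hinj0 _ _ (congrArg Subtype.val hk)
    rw [← this]
    exact k.2.1
  · have h3 := Submodule.finrank_quotient_add_finrank K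
    have h4 : Module.finrank (ZMod p) K = Module.finrank (ZMod p) ↥(U ⊓ T) :=
      (Submodule.comapSubtypeEquivOfLe (p := U ⊓ T) (q := T) inf_le_right).finrank_eq
    have h5 := LinearMap.BilinForm.finrank_orthogonal hnd U
    have h6 : Module.finrank (ZMod p) U ≤ Module.finrank (ZMod p) V := Submodule.finrank_le U
    rw [← hT] at h5
    omega

end reduce

section free

universe u v
variable {p : ℕ} [hp : Fact p.Prime] {W : Type v} [AddCommGroup W] [Module (ZMod p) W] [Finite W]

/-- The free action on the non-zero vectors. -/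
theorem dvd_card_sub_one (A : Module.End (ZMod p) W) {h : ℕ} (hh : 0 < h) (hA : A ^ h = 1)
    (hfree : ∀ i, 0 < i → i < h → ∀ v, (A ^ i) v = v → v = 0) : h ∣ Nat.card W - 1 := by
  classical
  have hinv : ∀ v, (A ^ (h - 1)) (A v) = v := by
    intro v
    have : A ^ (h - 1) * A = 1 := by rw [← pow_succ, Nat.sub_add_cancel hh, hA]
    simpa using LinearMap.congr_fun this v
  have hinv' : ∀ v, A ((A ^ (h - 1)) v) = v := by
    intro v
    have : A * A ^ (h - 1) = 1 := by rw [← pow_succ', Nat.sub_add_cancel hh, hA]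
    simpa using LinearMap.congr_fun this v
  let X := {v : W // v ≠ 0}
  let α : Equiv.Perm X :=
    { toFun := fun v => ⟨A v, fun h0 => v.2 (by have := hinv v.1; rw [h0, map_zero] at this; exact this.symm)⟩
      invFun := fun v => ⟨(A ^ (h - 1)) v, fun h0 => v.2 (by have := hinv' v.1; rw [h0, map_zero] at this; exact this.symm)⟩
      left_inv := fun v => Subtype.ext (hinv v)
      right_inv := fun v => Subtype.ext (hinv' v) }
  have hαpow : ∀ (k : ℕ) (v : X), (((α ^ k) v : X) : W) = (A ^ k) v := by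
    intro k
    induction k with
    | zero => intro v; simp
    | succ k ih =>
      intro v
      rw [pow_succ', Equiv.Perm.mul_apply, pow_succ', Module.End.mul_apply, ← ih]
      rfl
  have hcardX : Nat.card X = Nat.card W - 1 := by
    haveI : Fintype W := Fintype.ofFinite W
    rw [Nat.card_eq_fintype_card, Nat.card_eq_fintype_card]
    simp [X, Fintype.card_subtype_compl]
  by_cases hne : Nonempty X
  · have hord : orderOf α = h := by
      rw [orderOf_eq_iff hh]
      refine ⟨?_, ?_⟩
      · refine Equiv.ext fun v => Subtype.ext ?_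
        rw [hαpow, hA]
        rfl
      · intro m hm hm0 heq
        obtain ⟨v⟩ := hne
        have := hαpow m v
        rw [heq] at this
        exact v.2 (hfree m hm0 hm v this.symm)
    have hfr : ∀ (x : X) (s : Subgroup.zpowers α), s • x = x → s = 1 := by
      rintro x ⟨s, hs⟩ hsx
      obtain ⟨k, rfl⟩ := (mem_powers_iff_mem_zpowers.2 hs)
      have hkx : (α ^ k) x = x := hsx
      have e : α ^ (k % h) = α ^ k := by
        rw [← hord]
        exact pow_mod_orderOf α k
      by_cases h0 : k % h = 0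
      · apply Subtype.ext
        show α ^ k = 1
        rw [← e, h0, pow_zero]
      · exfalso
        have h1 : (α ^ (k % h)) x = x := by rw [e, hkx]
        have h2 := hαpow (k % h) x
        rw [h1] at h2
        exact x.2 (hfree _ (Nat.pos_of_ne_zero h0) (Nat.mod_lt _ hh) x h2.symm)
    have := SelfCent.card_dvd_of_free hfr
    rw [Nat.card_zpowers, hord, hcardX] at this
    exact this
  · rw [← hcardX]
    haveI : IsEmpty X := not_nonempty_iff.1 hne
    simp

omit [Finite W] in
/-- The order of the action. -/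
theorem dvd_of_pow_eq_one [Nontrivial W] (A : Module.End (ZMod p) W) {h : ℕ} (hh : 0 < h) (hA : A ^ h = 1)
    (hfree : ∀ i, 0 < i → i < h → ∀ v, (A ^ i) v = v → v = 0) {m : ℕ} (hm : A ^ m = 1) : h ∣ m := by
  obtain ⟨v, hv⟩ := exists_ne (0 : W)
  by_contra hnd
  have hr : 0 < m % h := Nat.pos_of_ne_zero (fun h0 => hnd (Nat.dvd_of_mod_eq_zero h0))
  have h2 : A ^ (m % h) = 1 := by
    have h1 : A ^ m = (A ^ h) ^ (m / h) * A ^ (m % h) := by
      rw [← pow_mul, ← pow_add, Nat.div_add_mod]
    rw [hm, hA, one_pow, one_mul] at h1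
    exact h1.symm
  exact hv (hfree _ hr (Nat.mod_lt _ hh) v (by rw [h2]; rfl))

end free

section main

universe u
variable {p : ℕ} [hp : Fact p.Prime]

theorem main {h : ℕ} (h3 : 3 ≤ h) : ∀ (n : ℕ) (V : Type u) [AddCommGroup V] [Module (ZMod p) V] [Finite V]
    (B : LinearMap.BilinForm (ZMod p) V) (_ : B.IsAlt) (_ : B.Nondegenerate) (a : Module.End (ZMod p) V)
    (_ : a ^ h = 1) (_ : ∀ u v, B (a u) (a v) = B u v) (_ : ∀ i, 0 < i → i < h → ∀ v, (a ^ i) v = v → v = 0),
    Module.finrank (ZMod p) V = 2 * n → Good p h n := by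
  intro n
  induction n using Nat.strong_induction_on with
  | _ n ih =>
    intro V _ _ _ B hAlt hnd a ha hiso hfree hn
    rcases Nat.eq_zero_or_pos n with rfl | hnpos
    · exact good_zero p h
    have hh : 0 < h := by omega
    haveI : Nontrivial V := Module.nontrivial_of_finrank_pos (R := ZMod p) (by omega)
    haveI : Finite (Submodule (ZMod p) V) :=
      Finite.of_injective (fun U : Submodule (ZMod p) V => (U : Set V)) SetLike.coe_injective
    let S : Set (Submodule (ZMod p) V) := {U | U ≠ ⊥ ∧ ∀ v ∈ U, a v ∈ U}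
    have hSfin : S.Finite := Set.toFinite S
    have hSne : S.Nonempty := ⟨⊤, top_ne_bot, fun _ _ => trivial⟩
    obtain ⟨U, hUmin⟩ := hSfin.exists_minimal hSne
    obtain ⟨hUne, hU⟩ : U ≠ ⊥ ∧ ∀ v ∈ U, a v ∈ U := hUmin.prop
    have hmin : ∀ U' : Submodule (ZMod p) V, U' ≠ ⊥ → (∀ v ∈ U', a v ∈ U') → U' ≤ U → U ≤ U' :=
      fun U' h1 h2 h4 => hUmin.le_of_le ⟨h1, h2⟩ h4
    obtain ⟨Q, i1, i2, i3, B', a', hAlt', hnd', ha', hiso', hfree', hdim⟩ :=
      reduce B hAlt hnd a hh ha hiso hfree U hU
    set T := B.orthogonal U with hT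
    have hpcard : ∀ (X : Type u) [AddCommGroup X] [Module (ZMod p) X] [Finite X],
        Nat.card X = p ^ Module.finrank (ZMod p) X := by
      intro X _ _ _
      have := Module.natCard_eq_pow_finrank (K := ZMod p) (V := X)
      rwa [Nat.card_zmod] at this
    haveI : Nontrivial U := Submodule.nontrivial_iff_ne_bot.2 hUne
    have hdpos : 0 < Module.finrank (ZMod p) U := Module.finrank_pos
    -- the restriction to `U`
    let A : Module.End (ZMod p) U := a.restrict hU
    have hA1 : ∀ v : U, ((A v : U) : V) = a v := fun v => rfl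
    have hApow : ∀ (k : ℕ) (v : U), (((A ^ k) v : U) : V) = (a ^ k) v := by
      intro k
      induction k with
      | zero => intro v; simp
      | succ k ih =>
        intro v
        rw [pow_succ', Module.End.mul_apply, pow_succ', Module.End.mul_apply, hA1, ih]
    have hAh : A ^ h = 1 := by
      refine LinearMap.ext fun v => Subtype.ext ?_
      rw [hApow, ha]
      rfl
    have hfreeU : ∀ i, 0 < i → i < h → ∀ v : U, (A ^ i) v = v → v = 0 := by
      intro i hi hih v hv
      apply Subtype.ext
      apply hfree i hi hih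
      rw [← hApow, hv]
    have hDinv : ∀ v ∈ U ⊓ T, a v ∈ U ⊓ T := by
      intro v hv
      refine ⟨hU _ hv.1, ?_⟩
      refine LinearMap.BilinForm.mem_orthogonal_iff.2 ?_
      intro u hu
      have hapow : a ((a ^ (h - 1)) u) = u := by
        have : a * a ^ (h - 1) = 1 := by rw [← pow_succ', Nat.sub_add_cancel hh, ha]
        simpa using LinearMap.congr_fun this u
      have hUpow : ∀ (k : ℕ), ∀ u ∈ U, (a ^ k) u ∈ U := by
        intro k
        induction k with
        | zero => intro u hu; simpa using hu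
        | succ k ih => intro u hu; rw [pow_succ', Module.End.mul_apply]; exact hU _ (ih u hu)
      have := hiso ((a ^ (h - 1)) u) v
      rw [hapow] at this
      rw [this]
      exact (LinearMap.BilinForm.mem_orthogonal_iff.1 hv.2) _ (hUpow _ u hu)
    by_cases hD : U ⊓ T = ⊥
    · -- the anisotropic case
      rw [hD, finrank_bot, add_zero] at hdim
      let Bu : U →ₗ[ZMod p] U →ₗ[ZMod p] ZMod p := B.domRestrict₁₂ U U
      have hndu : ∀ v : U, (∀ u : U, Bu u v = 0) → v = 0 := by
        intro v hv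
        have hvT : (v : V) ∈ U ⊓ T := by
          refine ⟨v.2, ?_⟩
          refine LinearMap.BilinForm.mem_orthogonal_iff.2 ?_
          intro u hu
          exact hv ⟨u, hu⟩
        rw [hD] at hvT
        exact Subtype.ext ((Submodule.mem_bot _).1 hvT)
      have hirr : ∀ S' : Submodule (ZMod p) U, S' ≠ ⊥ → (∀ v ∈ S', A v ∈ S') → S' = ⊤ := by
        intro S' hS' hinv
        have hle := hmin (S'.map U.subtype)
          (fun h0 => hS' (Submodule.map_injective_of_injective U.injective_subtype
            (h0.trans (Submodule.map_bot _).symm)))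
          (by
            rintro _ ⟨w, hw, rfl⟩
            exact ⟨A w, hinv w hw, rfl⟩)
          (Submodule.map_subtype_le U S')
        rw [Submodule.eq_top_iff']
        intro v
        obtain ⟨w, hw, hwv⟩ := hle v.2
        have : w = v := Subtype.ext hwv
        rwa [← this]
      rcases key Bu hndu A hh hAh (fun u v => hiso u v) hirr with h2 | ⟨e, he1, he2⟩
      · exfalso
        obtain ⟨v, hv⟩ := exists_ne (0 : U)
        exact hv (hfreeU 2 (by omega) (by omega) v (by rw [h2]; rfl))
      · have hd2e : Module.finrank (ZMod p) U = 2 * e := by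
          have h4 := hpcard U
          rw [he1, ← pow_mul] at h4
          have := Nat.pow_right_injective hp.out.two_le h4
          omega
        have hQ : Module.finrank (ZMod p) Q = 2 * (n - e) := by omega
        have hGood : Good p h (n - e) :=
          ih (n - e) (by omega) Q B' hAlt' hnd' a' ha' hiso' hfree' hQ
        have hdvd : h ∣ p ^ e + 1 := dvd_of_pow_eq_one A hh hAh hfreeU he2
        have := good_add_plus hp.out.pos hGood hdvd
        rwa [Nat.sub_add_cancel (by omega)] at this
    · -- the totally isotropic case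
      have hle : U ≤ U ⊓ T := hmin _ hD hDinv inf_le_left
      have hD' : U ⊓ T = U := le_antisymm inf_le_left hle
      rw [hD'] at hdim
      have hQ : Module.finrank (ZMod p) Q = 2 * (n - Module.finrank (ZMod p) U) := by omega
      have hGood : Good p h (n - Module.finrank (ZMod p) U) :=
        ih _ (by omega) Q B' hAlt' hnd' a' ha' hiso' hfree' hQ
      have hdvd := dvd_card_sub_one A hh hAh hfreeU
      rw [hpcard U] at hdvd
      have := good_add_minus hp.out.pos hGood hdvd
      rwa [Nat.sub_add_cancel (by omega)] at this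

end main

section group

open scoped commutatorElement
open Cfsg.Agent.Lib.ExtraES

universe u
variable {p : ℕ} [hp : Fact p.Prime] {E : Type u} [Group E] [Finite E]

theorem finrank_of_card {X : Type u} [AddCommGroup X] [Module (ZMod p) X] [Finite X] {m : ℕ}
    (h : Nat.card X = p ^ m) : Module.finrank (ZMod p) X = m := by
  have h9 := Module.natCard_eq_pow_finrank (K := ZMod p) (V := X)
  rw [Nat.card_zmod, h] at h9
  exact (Nat.pow_right_injective hp.out.two_le h9).symm

omit [Finite E] in
/-- The linear translation, for an abstract copy `V` of `E / Z(E)`. -/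
theorem extraspecial_aux {V : Type u} [AddCommGroup V] [Module (ZMod p) V] [Finite V] {z : E} (hES : ES p E z)
    {n : ℕ} (hdim : Module.finrank (ZMod p) V = 2 * n)
    {h : ℕ} (h3 : 3 ≤ h) (hcop : h.Coprime p) (α : E →* E) (hαh : ∀ g, α^[h] g = g)
    (hz : ∀ g ∈ Subgroup.center E, α g = g)
    (hfree : ∀ i, 0 < i → i < h → ∀ g, α^[i] g = g → g ∈ Subgroup.center E)
    (π : E → V) (hπmul : ∀ g k, π (g * k) = π g + π k) (hπsurj : Function.Surjective π)
    (hπ0 : ∀ g, π g = 0 ↔ g ∈ Subgroup.center E) (a₀ : V →+ V) (ha₀ : ∀ g, a₀ (π g) = π (α g)) :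
    Good p h n := by
  classical
  have hzcen : z ∈ Subgroup.center E := by
    rw [Subgroup.mem_center_iff]
    exact hES.central
  have hcenter : ∀ g, g ∈ Subgroup.center E → ∃ k : ℕ, g = z ^ k := by
    intro g hg
    exact hES.center_le g (Subgroup.mem_center_iff.1 hg)
  have hcenpow : ∀ k : ℕ, z ^ k ∈ Subgroup.center E := fun k => pow_mem hzcen k
  have hπeq : ∀ g k, π g = π k → ∃ ζ ∈ Subgroup.center E, k = g * ζ := by
    intro g k hgk
    refine ⟨g⁻¹ * k, (hπ0 _).1 ?_, by group⟩
    have h1 : π g + π (g⁻¹ * k) = π g + 0 := by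
      rw [← hπmul, add_zero, hgk]
      congr 1
      group
    exact add_left_cancel h1
  -- discrete logarithm
  have hzpow : ∀ m m' : ℕ, z ^ m = z ^ m' ↔ (m : ZMod p) = (m' : ZMod p) := by
    intro m m'
    rw [ZMod.natCast_eq_natCast_iff, pow_eq_pow_iff_modEq, hES.order]
  let c : E → E → ZMod p := fun g k => ((Classical.choose (hES.comm_le g k) : ℕ) : ZMod p)
  have hc : ∀ g k (m : ℕ), ⁅g, k⁆ = z ^ m ↔ c g k = (m : ZMod p) := by
    intro g k m
    have h1 := Classical.choose_spec (hES.comm_le g k)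
    rw [h1, hzpow]
  have hcz : ∀ g k, ⁅g, k⁆ = z ^ (c g k).val := by
    intro g k
    rw [hc]
    exact (ZMod.natCast_zmod_val _).symm
  have hccongr : ∀ g k g' k', ⁅g, k⁆ = ⁅g', k'⁆ → c g k = c g' k' := by
    intro g k g' k' e
    have h1 := hcz g' k'
    rw [← e, hc] at h1
    rw [h1, ZMod.natCast_zmod_val]
  have hcmulr : ∀ g k k', c g (k * k') = c g k + c g k' := by
    intro g k k'
    have h1 : ⁅g, k * k'⁆ = z ^ ((c g k).val + (c g k').val) := by
      rw [hES.comm_mul_right, pow_add, ← hcz, ← hcz]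
    rw [hc] at h1
    rw [h1]
    push_cast
    simp
  have hcmull : ∀ g g' k, c (g * g') k = c g k + c g' k := by
    intro g g' k
    have h1 : ⁅g * g', k⁆ = z ^ ((c g k).val + (c g' k).val) := by
      rw [pow_add, ← hcz, ← hcz, ← commutatorElement_inv, hES.comm_mul_right, mul_inv_rev,
        commutatorElement_inv, commutatorElement_inv, hES.comm_central]
    rw [hc] at h1
    rw [h1]
    push_cast
    simp
  have hc0r : ∀ g ξ, ξ ∈ Subgroup.center E → c g ξ = 0 := by
    intro g ξ hξ
    have h1 : ⁅g, ξ⁆ = z ^ 0 := by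
      rw [pow_zero, commutatorElement_eq_one_iff_mul_comm]
      exact (Subgroup.mem_center_iff.1 hξ g)
    rw [hc] at h1
    simpa using h1
  have hc0l : ∀ ξ g, ξ ∈ Subgroup.center E → c ξ g = 0 := by
    intro ξ g hξ
    have h1 : ⁅ξ, g⁆ = z ^ 0 := by
      rw [pow_zero, commutatorElement_eq_one_iff_mul_comm]
      exact (Subgroup.mem_center_iff.1 hξ g).symm
    rw [hc] at h1
    simpa using h1
  let s : V → E := Function.surjInv hπsurj
  have hs : ∀ v, π (s v) = v := Function.surjInv_eq hπsurj
  let f : V → V → ZMod p := fun v w => c (s v) (s w)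
  have hfπ : ∀ g k, f (π g) (π k) = c g k := by
    intro g k
    obtain ⟨ζ, hζ, e1⟩ := hπeq (s (π g)) g (hs _)
    obtain ⟨ξ, hξ, e2⟩ := hπeq (s (π k)) k (hs _)
    show c (s (π g)) (s (π k)) = c g k
    conv_rhs => rw [e1, e2]
    rw [hcmull, hcmulr, hcmulr]
    simp only [hc0r _ _ hξ, hc0l _ _ hζ, add_zero]
  have hf1 : ∀ v v' w, f (v + v') w = f v w + f v' w := by
    intro v v' w
    obtain ⟨g, rfl⟩ := hπsurj v
    obtain ⟨g', rfl⟩ := hπsurj v'
    obtain ⟨k, rfl⟩ := hπsurj w
    rw [← hπmul, hfπ, hfπ, hfπ, hcmull]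
  have hf2 : ∀ v w w', f v (w + w') = f v w + f v w' := by
    intro v w w'
    obtain ⟨g, rfl⟩ := hπsurj v
    obtain ⟨k, rfl⟩ := hπsurj w
    obtain ⟨k', rfl⟩ := hπsurj w'
    rw [← hπmul, hfπ, hfπ, hfπ, hcmulr]
  let B : LinearMap.BilinForm (ZMod p) V :=
    LinearMap.mk₂ (ZMod p) f hf1
      (fun r v w => ZMod.map_smul (AddMonoidHom.mk' (fun v => f v w) (fun v v' => hf1 v v' w)) r v) hf2
      (fun r v w => ZMod.map_smul (AddMonoidHom.mk' (f v) (hf2 v)) r w)
  have hB : ∀ g k, B (π g) (π k) = c g k := hfπ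
  let a : Module.End (ZMod p) V := a₀.toZModLinearMap p
  have ha1 : ∀ g, a (π g) = π (α g) := ha₀
  have hapow : ∀ (i : ℕ) (g : E), (a ^ i) (π g) = π (α^[i] g) := by
    intro i
    induction i with
    | zero => intro g; simp
    | succ i ih =>
      intro g
      rw [pow_succ', Module.End.mul_apply, ih, ha1, Function.iterate_succ_apply']
  have hAlt : B.IsAlt := by
    intro v
    obtain ⟨g, rfl⟩ := hπsurj v
    rw [hB]
    have h1 : ⁅g, g⁆ = z ^ 0 := by rw [commutatorElement_self, pow_zero]
    rw [hc] at h1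
    simpa using h1
  have hnd : B.Nondegenerate := by
    refine (LinearMap.IsRefl.nondegenerate_iff_separatingLeft hAlt.isRefl).2 ?_
    intro v hv
    obtain ⟨g, rfl⟩ := hπsurj v
    rw [hπ0, Subgroup.mem_center_iff]
    intro k
    have h1 := hv (π k)
    rw [hB] at h1
    have h2 := hcz g k
    rw [h1] at h2
    simp only [ZMod.val_zero, pow_zero] at h2
    rw [commutatorElement_eq_one_iff_mul_comm] at h2
    exact h2.symm
  have ha : a ^ h = 1 := by
    refine LinearMap.ext fun v => ?_
    obtain ⟨g, rfl⟩ := hπsurj v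
    rw [hapow, hαh]
    rfl
  have hiso : ∀ u v, B (a u) (a v) = B u v := by
    intro u v
    obtain ⟨g, rfl⟩ := hπsurj u
    obtain ⟨k, rfl⟩ := hπsurj v
    rw [ha1, ha1, hB, hB]
    apply hccongr
    rw [← map_commutatorElement, hz]
    rw [hcz]
    exact hcenpow _
  have hit0 : ∀ (j : ℕ) ζ, ζ ∈ Subgroup.center E → α^[j] ζ = ζ := by
    intro j
    induction j with
    | zero => intro ζ _; rfl
    | succ j ih =>
      intro ζ hζ
      rw [Function.iterate_succ_apply', ih ζ hζ, hz ζ hζ]
  have hfree' : ∀ i, 0 < i → i < h → ∀ v, (a ^ i) v = v → v = 0 := by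
    intro i hi hih v hv
    obtain ⟨g, rfl⟩ := hπsurj v
    rw [hapow] at hv
    obtain ⟨ζ, hζ, e⟩ := hπeq _ _ hv.symm
    have hmul : ∀ m : ℕ, α^[i * m] g = g * ζ ^ m := by
      intro m
      induction m with
      | zero => simp
      | succ m ih =>
        rw [mul_add, mul_one, add_comm, Function.iterate_add_apply, ih, iterate_map_mul, e, hit0 _ _ (pow_mem hζ m),
          pow_succ']
        group
    have hid : α^[i * h] g = g := by
      rw [mul_comm, Function.iterate_mul]
      have hidf : α^[h] = id := funext hαh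
      rw [hidf, Function.iterate_id]
      rfl
    have hζh : ζ ^ h = 1 := by
      have := hmul h
      rw [hid] at this
      exact (mul_eq_left.1 this.symm)
    obtain ⟨k, hk⟩ := hcenter ζ hζ
    have hζp : ζ ^ p = 1 := by
      rw [hk, ← pow_mul, mul_comm, pow_mul, ← hES.order, pow_orderOf_eq_one, one_pow]
    have hζ1 : ζ = 1 := by
      have := pow_gcd_eq_one.2 ⟨hζh, hζp⟩
      rw [Nat.Coprime.gcd_eq_one hcop, pow_one] at this
      exact this
    rw [hζ1, mul_one] at e
    rw [hπ0]
    exact hfree i hi hih g e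
  exact main h3 n _ B hAlt hnd a ha hiso hfree' hdim

/-- An extraspecial group with an automorphism of order `h` acting freely modulo the centre. -/
theorem extraspecial_main (hP : Cfsg.IsExtraspecial p E) {n : ℕ} (hn : Nat.card E = p ^ (2 * n + 1))
    {h : ℕ} (h3 : 3 ≤ h) (hcop : h.Coprime p) (α : E →* E) (hαh : ∀ g, α^[h] g = g)
    (hz : ∀ g ∈ Subgroup.center E, α g = g)
    (hfree : ∀ i, 0 < i → i < h → ∀ g, α^[i] g = g → g ∈ Subgroup.center E) : Good p h n := by
  classical
  obtain ⟨z, hES⟩ := ExtraES2.exists_ES hP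
  obtain ⟨⟨hpg, hfr, hcomm⟩, hZ⟩ := hP
  have hzcen : z ∈ Subgroup.center E := by
    rw [Subgroup.mem_center_iff]
    exact hES.central
  have hcenter : ∀ g, g ∈ Subgroup.center E → ∃ k : ℕ, g = z ^ k := by
    intro g hg
    exact hES.center_le g (Subgroup.mem_center_iff.1 hg)
  have hcenpow : ∀ k : ℕ, z ^ k ∈ Subgroup.center E := fun k => pow_mem hzcen k
  -- the vector space
  let π : E → Additive (Abelianization E) := fun g => Additive.ofMul (Abelianization.of g)
  have hπmul : ∀ g k, π (g * k) = π g + π k := fun g k => by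
    show Additive.ofMul (Abelianization.of (g * k)) = _
    rw [map_mul]
    rfl
  have hπsurj : Function.Surjective π := by
    intro v
    obtain ⟨g, hg⟩ := QuotientGroup.mk_surjective (Additive.toMul v)
    exact ⟨g, hg⟩
  have hπ0 : ∀ g, π g = 0 ↔ g ∈ Subgroup.center E := by
    intro g
    rw [← hcomm, ← Abelianization.ker_of, MonoidHom.mem_ker]
    rfl
  have hπeq : ∀ g k, π g = π k → ∃ ζ ∈ Subgroup.center E, k = g * ζ := by
    intro g k hgk
    refine ⟨g⁻¹ * k, (hπ0 _).1 ?_, by group⟩
    have h1 : π g + π (g⁻¹ * k) = π g + 0 := by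
      rw [← hπmul, add_zero, hgk]
      congr 1
      group
    exact add_left_cancel h1
  have hptor : ∀ x : Additive (Abelianization E), p • x = 0 := by
    intro x
    obtain ⟨g, rfl⟩ := hπsurj x
    have h1 : ∀ k : ℕ, k • π g = π (g ^ k) := by
      intro k
      induction k with
      | zero =>
        rw [zero_nsmul, pow_zero]
        exact ((hπ0 1).2 (one_mem _)).symm
      | succ k ih => rw [succ_nsmul, ih, pow_succ, hπmul]
    rw [h1, hπ0]
    obtain ⟨k, hk⟩ := hES.pow_le g
    rw [hk]
    exact hcenpow k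
  letI : Module (ZMod p) (Additive (Abelianization E)) := AddCommGroup.zmodModule hptor
  haveI : Finite (Additive (Abelianization E)) := Finite.of_surjective π hπsurj
  have hdim : Module.finrank (ZMod p) (Additive (Abelianization E)) = 2 * n := by
    have h5 : Nat.card E = Nat.card (Additive (Abelianization E)) * p := by
      have h6 := Subgroup.card_eq_card_quotient_mul_card_subgroup (commutator E)
      have h7 : Nat.card (commutator E) = p := by rw [hcomm, hZ]
      rw [h7] at h6
      exact h6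
    have h8 : Nat.card (Additive (Abelianization E)) = p ^ (2 * n) := by
      rw [hn, pow_succ] at h5
      exact (Nat.eq_of_mul_eq_mul_right hp.out.pos h5).symm
    exact finrank_of_card h8
  exact extraspecial_aux hES hdim h3 hcop α hαh hz hfree π hπmul hπsurj hπ0
    (MonoidHom.toAdditive (Abelianization.map α)) (fun g => rfl)


end group

end Cfsg.Agent.Lib.SympFree
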