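import Mathlib
import Cfsg.Agent.Lib.LargeExtra
import Cfsg.Agent.Lib.ExtraDual

/-!
# The centre-of-`Q` lemma for 2-groups of symplectic type and exponent 4

`Symp Q z` records: `Q` has commutators and squares in `{1, z}`, `z` is the only central involution,
`C(Q) ≤ Q` and `C(z)` normalizes `Q`. If `g z g⁻¹ ∈ Q` differs from `z`, then `z ∈ g Q g⁻¹`.
This generalizes `LargeExtra.Setting.mem_conj`, with no lower bound on `|Q|`.
-/

set_option autoImplicit false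

namespace Cfsg.Agent.Lib.SympPair

open Cfsg.Agent.Lib.LargeExtra Cfsg.Agent.Lib.ExtraDual

variable {G : Type*} [Group G]

/-- Elementwise data of a 2-group of symplectic type and exponent 4 which is `F*(C(z))`. -/
structure Symp (Q : Subgroup G) (z : G) : Prop where
  mem : z ∈ Q
  order : orderOf z = 2
  cen : ∀ x ∈ Q, x * z = z * x
  comm : ∀ x ∈ Q, ∀ y ∈ Q, x * y * x⁻¹ * y⁻¹ = 1 ∨ x * y * x⁻¹ * y⁻¹ = z
  sq : ∀ x ∈ Q, x ^ 2 = 1 ∨ x ^ 2 = z
  inv : ∀ x ∈ Q, (∀ y ∈ Q, x * y = y * x) → x * x = 1 → x = 1 ∨ x = z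
  cQ : ∀ x, (∀ y ∈ Q, y * x = x * y) → x ∈ Q
  nQ : ∀ x, x * z = z * x → ∀ y ∈ Q, x * y * x⁻¹ ∈ Q

namespace Symp

variable {Q : Subgroup G} {z : G}

theorem ne_one (h : Symp Q z) : z ≠ 1 := by
  intro h1
  have := h.order
  rw [h1, orderOf_one] at this
  omega

theorem sq_eq (h : Symp Q z) : z * z = 1 := by
  have := pow_orderOf_eq_one z
  rw [h.order, pow_two] at this
  exact this

theorem inv_eq (h : Symp Q z) : z⁻¹ = z := inv_eq_of_mul_eq_one_left h.sq_eq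

theorem conj (h : Symp Q z) (g : G) :
    Symp (Q.map (MulAut.conj g).toMonoidHom) (g * z * g⁻¹) where
  mem := ⟨z, h.mem, by simp [MulAut.conj_apply]⟩
  order := by
    rw [← h.order]
    have := MulEquiv.orderOf_eq (MulAut.conj g) z
    simpa [MulAut.conj_apply] using this
  cen := by
    rintro x ⟨a, ha, rfl⟩
    have h1 := h.cen a ha
    simp only [MulEquiv.coe_toMonoidHom, MulAut.conj_apply]
    calc g * a * g⁻¹ * (g * z * g⁻¹) = g * (a * z) * g⁻¹ := by group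
      _ = g * (z * a) * g⁻¹ := by rw [h1]
      _ = g * z * g⁻¹ * (g * a * g⁻¹) := by group
  comm := by
    rintro x ⟨a, ha, rfl⟩ y ⟨b, hb, rfl⟩
    simp only [MulEquiv.coe_toMonoidHom, MulAut.conj_apply]
    have e : g * a * g⁻¹ * (g * b * g⁻¹) * (g * a * g⁻¹)⁻¹ * (g * b * g⁻¹)⁻¹
        = g * (a * b * a⁻¹ * b⁻¹) * g⁻¹ := by group
    rw [e]
    rcases h.comm a ha b hb with h1 | h1
    · left; rw [h1]; group
    · right; rw [h1]
  sq := by
    rintro x ⟨a, ha, rfl⟩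
    simp only [MulEquiv.coe_toMonoidHom, MulAut.conj_apply]
    have e : (g * a * g⁻¹) ^ 2 = g * a ^ 2 * g⁻¹ := by
      rw [pow_two, pow_two]; group
    rw [e]
    rcases h.sq a ha with h1 | h1
    · left; rw [h1]; group
    · right; rw [h1]
  inv := by
    rintro x ⟨a, ha, rfl⟩ hx hxx
    simp only [MulEquiv.coe_toMonoidHom, MulAut.conj_apply] at hx hxx ⊢
    have h1 : ∀ y ∈ Q, a * y = y * a := by
      intro y hy
      have h2 := hx (g * y * g⁻¹) ⟨y, hy, by simp [MulAut.conj_apply]⟩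
      have h3 : g * (a * y) * g⁻¹ = g * (y * a) * g⁻¹ := by
        calc g * (a * y) * g⁻¹ = g * a * g⁻¹ * (g * y * g⁻¹) := by group
          _ = g * y * g⁻¹ * (g * a * g⁻¹) := h2
          _ = g * (y * a) * g⁻¹ := by group
      simpa using h3
    have h2 : a * a = 1 := by
      have h3 : g * (a * a) * g⁻¹ = 1 := by
        rw [← hxx]; group
      have h4 : a * a = g⁻¹ * (g * (a * a) * g⁻¹) * g := by group
      rw [h4, h3]; simp
    rcases h.inv a ha h1 h2 with h3 | h3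
    · left; rw [h3]; group
    · right; rw [h3]
  cQ := by
    intro x hx
    have h1 : ∀ y ∈ Q, y * (g⁻¹ * x * g) = (g⁻¹ * x * g) * y := by
      intro y hy
      have h2 := hx (g * y * g⁻¹) ⟨y, hy, by simp [MulAut.conj_apply]⟩
      have h3 : g⁻¹ * (g * y * g⁻¹ * x) * g = g⁻¹ * (x * (g * y * g⁻¹)) * g := by rw [h2]
      calc y * (g⁻¹ * x * g) = g⁻¹ * (g * y * g⁻¹ * x) * g := by group
        _ = g⁻¹ * (x * (g * y * g⁻¹)) * g := h3
        _ = (g⁻¹ * x * g) * y := by group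
    exact mem_conj_iff.mpr (h.cQ _ h1)
  nQ := by
    intro x hx y hy
    rw [mem_conj_iff] at hy ⊢
    have h1 : (g⁻¹ * x * g) * z = z * (g⁻¹ * x * g) := by
      have h3 : g⁻¹ * (x * (g * z * g⁻¹)) * g = g⁻¹ * ((g * z * g⁻¹) * x) * g := by rw [hx]
      calc (g⁻¹ * x * g) * z = g⁻¹ * (x * (g * z * g⁻¹)) * g := by group
        _ = g⁻¹ * ((g * z * g⁻¹) * x) * g := h3
        _ = z * (g⁻¹ * x * g) := by group
    have := h.nQ _ h1 _ hy
    have e : g⁻¹ * (x * y * x⁻¹) * g = g⁻¹ * x * g * (g⁻¹ * y * g) * (g⁻¹ * x * g)⁻¹ := by group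
    rw [e]; exact this

theorem comm_central (h : Symp Q z) {a b c : G}
    (ha : a ∈ Q) (hb : b ∈ Q) (hc : c ∈ Q) :
    (a * b * a⁻¹ * b⁻¹) * c = c * (a * b * a⁻¹ * b⁻¹) := by
  rcases h.comm a ha b hb with h1 | h1
  · rw [h1]; simp
  · rw [h1]; exact (h.cen c hc).symm

theorem comm_mul_left (h : Symp Q z) {a b c : G}
    (ha : a ∈ Q) (hb : b ∈ Q) (hc : c ∈ Q) :
    (a * b) * c * (a * b)⁻¹ * c⁻¹ = (a * c * a⁻¹ * c⁻¹) * (b * c * b⁻¹ * c⁻¹) := by
  have h1 := h.comm_central hb hc ha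
  have e : b * c * b⁻¹ = (b * c * b⁻¹ * c⁻¹) * c := by group
  calc (a * b) * c * (a * b)⁻¹ * c⁻¹ = a * (b * c * b⁻¹) * a⁻¹ * c⁻¹ := by group
    _ = a * ((b * c * b⁻¹ * c⁻¹) * c) * a⁻¹ * c⁻¹ := by rw [← e]
    _ = (a * (b * c * b⁻¹ * c⁻¹)) * c * a⁻¹ * c⁻¹ := by group
    _ = ((b * c * b⁻¹ * c⁻¹) * a) * c * a⁻¹ * c⁻¹ := by rw [h1]
    _ = (b * c * b⁻¹ * c⁻¹) * (a * c * a⁻¹ * c⁻¹) := by group
    _ = (a * c * a⁻¹ * c⁻¹) * (b * c * b⁻¹ * c⁻¹) :=
      h.comm_central hb hc (Q.mul_mem (Q.mul_mem (Q.mul_mem ha hc) (Q.inv_mem ha)) (Q.inv_mem hc))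

theorem comm_mul_right (h : Symp Q z) {a b c : G}
    (ha : a ∈ Q) (hb : b ∈ Q) (hc : c ∈ Q) :
    a * (b * c) * a⁻¹ * (b * c)⁻¹ = (a * b * a⁻¹ * b⁻¹) * (a * c * a⁻¹ * c⁻¹) := by
  have h1 := h.comm_central ha hc hb
  calc a * (b * c) * a⁻¹ * (b * c)⁻¹ = a * b * a⁻¹ * (a * c * a⁻¹ * c⁻¹) * b⁻¹ := by group
    _ = (a * b * a⁻¹) * ((a * c * a⁻¹ * c⁻¹) * b⁻¹) := by group
    _ = (a * b * a⁻¹) * (b⁻¹ * (a * c * a⁻¹ * c⁻¹)) := by
      rw [h.comm_central ha hc (Q.inv_mem hb)]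
    _ = (a * b * a⁻¹ * b⁻¹) * (a * c * a⁻¹ * c⁻¹) := by group

theorem comm_inv_right (h : Symp Q z) {a c : G}
    (ha : a ∈ Q) (hc : c ∈ Q) :
    (a * c * a⁻¹ * c⁻¹) * (a * c⁻¹ * a⁻¹ * c⁻¹⁻¹) = 1 := by
  have := h.comm_mul_right ha hc (Q.inv_mem hc)
  rw [← this]; group

theorem comm_inv_left (h : Symp Q z) {a c : G}
    (ha : a ∈ Q) (hc : c ∈ Q) :
    (a * c * a⁻¹ * c⁻¹) * (a⁻¹ * c * a⁻¹⁻¹ * c⁻¹) = 1 := by
  have := h.comm_mul_left ha (Q.inv_mem ha) hc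
  rw [← this]; group

/-- A noncentral element has a commutator `z` with something. -/
theorem exists_not_comm (h : Symp Q z) {x : G}
    (hx : x ∈ Q) (h3 : ¬ ∀ y ∈ Q, x * y = y * x) : ∃ t ∈ Q, t * x * t⁻¹ = x * z := by
  push Not at h3
  obtain ⟨t, ht, h3⟩ := h3
  refine ⟨t, ht, ?_⟩
  rcases h.comm t ht x hx with h4 | h4
  · exfalso
    apply h3
    have := mul_inv_eq_one.mp h4
    exact (comm_of_conj_eq this).symm
  · have h5 : t * x * t⁻¹ = z * x := by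
      calc t * x * t⁻¹ = (t * x * t⁻¹ * x⁻¹) * x := by group
        _ = z * x := by rw [h4]
    rw [h5, (h.cen x hx).symm]

variable {s t : G}

/-- `t⁻¹ s t = s z` from `t s t⁻¹ = s z`. -/
theorem conj_inv (h : Symp Q z) (ht : t ∈ Q) (hts : t * s * t⁻¹ = s * z) :
    t⁻¹ * s * t = s * z := by
  have hz2 := h.sq_eq
  have h1 : t⁻¹ * (s * z) * t = s := by rw [← hts]; group
  have h2 : t⁻¹ * (s * z) * t = (t⁻¹ * s * t) * z := by
    have : z * t = t * z := (h.cen t ht).symm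
    calc t⁻¹ * (s * z) * t = t⁻¹ * s * (z * t) := by group
      _ = t⁻¹ * s * (t * z) := by rw [this]
      _ = (t⁻¹ * s * t) * z := by group
  rw [h2] at h1
  calc t⁻¹ * s * t = (t⁻¹ * s * t) * (z * z) := by rw [hz2, mul_one]
    _ = ((t⁻¹ * s * t) * z) * z := by group
    _ = s * z := by rw [h1]

/-- Every element of `Q` is in `C_Q(s)` or `t C_Q(s)`. -/
theorem split (h : Symp Q z) (hs : s ∈ Q) (ht : t ∈ Q) (hts : t * s * t⁻¹ = s * z) :
    ∀ q ∈ Q, q * s = s * q ∨ (t⁻¹ * q) * s = s * (t⁻¹ * q) := by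
  have hz2 := h.sq_eq
  have hts' := h.conj_inv ht hts
  intro q hq
  rcases h.comm q hq s hs with h1 | h1
  · left
    exact comm_of_conj_eq (mul_inv_eq_one.mp h1)
  · right
    have h2 : q * s * q⁻¹ = s * z := by
      calc q * s * q⁻¹ = (q * s * q⁻¹ * s⁻¹) * s := by group
        _ = z * s := by rw [h1]
        _ = s * z := (h.cen s hs).symm
    apply comm_of_conj_eq
    calc t⁻¹ * q * s * (t⁻¹ * q)⁻¹ = t⁻¹ * (q * s * q⁻¹) * t := by group
      _ = t⁻¹ * (s * z) * t := by rw [h2]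
      _ = (t⁻¹ * s * t) * (t⁻¹ * z * t) := by group
      _ = (s * z) * z := by
        rw [hts']
        have : t⁻¹ * z * t = z := by
          have : z * t = t * z := (h.cen t ht).symm
          calc t⁻¹ * z * t = t⁻¹ * (z * t) := by group
            _ = t⁻¹ * (t * z) := by rw [this]
            _ = z := by group
        rw [this]
      _ = s := by rw [mul_assoc, hz2, mul_one]

/-- A member of `Q` commuting with `C_Q(s)`: it or its product with `s` is central. -/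
theorem central_of_comm_centralizer (h : Symp Q z) (hs : s ∈ Q)
    (ht : t ∈ Q) (hts : t * s * t⁻¹ = s * z) {a : G} (ha : a ∈ Q)
    (hR : ∀ r ∈ Q, r * s = s * r → a * r = r * a) :
    (∀ y ∈ Q, a * y = y * a) ∨ (∀ y ∈ Q, (a * s) * y = y * (a * s)) := by
  have hz2 := h.sq_eq
  have hsplit := h.split hs ht hts
  have key : ∀ b ∈ Q, (∀ r ∈ Q, r * s = s * r → b * r = r * b) → b * t = t * b →
      ∀ y ∈ Q, b * y = y * b := by
    intro b hb hbR hbt q hq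
    rcases hsplit q hq with h1 | h1
    · exact hbR q hq h1
    · have h2 := hbR _ (Q.mul_mem (Q.inv_mem ht) hq) h1
      have h3 : q = t * (t⁻¹ * q) := by group
      rw [h3]
      calc b * (t * (t⁻¹ * q)) = (b * t) * (t⁻¹ * q) := by group
        _ = (t * b) * (t⁻¹ * q) := by rw [hbt]
        _ = t * (b * (t⁻¹ * q)) := by group
        _ = t * ((t⁻¹ * q) * b) := by rw [h2]
        _ = t * (t⁻¹ * q) * b := by group
  rcases h.comm a ha t ht with h1 | h1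
  · left
    exact key a ha hR (comm_of_conj_eq (mul_inv_eq_one.mp h1))
  · right
    have h2 : (a * s) * t * (a * s)⁻¹ * t⁻¹ = 1 := by
      rw [h.comm_mul_left ha hs ht, h1]
      have h3 : s * t * s⁻¹ * t⁻¹ = z := by
        have h4 : t * s * t⁻¹ * s⁻¹ = z := by
          rw [hts]
          have : z * s⁻¹ = s⁻¹ * z := (h.cen _ (Q.inv_mem hs)).symm
          calc s * z * s⁻¹ = s * (z * s⁻¹) := by group
            _ = s * (s⁻¹ * z) := by rw [this]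
            _ = z := by group
        have h5 : s * t * s⁻¹ * t⁻¹ = (t * s * t⁻¹ * s⁻¹)⁻¹ := by group
        rw [h5, h4, h.inv_eq]
      rw [h3, hz2]
    have h3 := comm_of_conj_eq (mul_inv_eq_one.mp h2)
    have h4 : ∀ r ∈ Q, r * s = s * r → (a * s) * r = r * (a * s) := by
      intro r hr hrs
      calc (a * s) * r = a * (s * r) := by group
        _ = a * (r * s) := by rw [hrs]
        _ = (a * r) * s := by group
        _ = (r * a) * s := by rw [hR r hr hrs]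
        _ = r * (a * s) := by group
    exact key _ (Q.mul_mem ha hs) h4 h3

/-- When `C_Q(s)` is abelian, `Q / Z(Q)` has order four: normal form of elements of `Q`. -/
theorem rep_small (h : Symp Q z) (hs : s ∈ Q) (hss : s * s = 1)
    (ht : t ∈ Q) (hts : t * s * t⁻¹ = s * z)
    (hab : ∀ a ∈ Q, ∀ b ∈ Q, a * s = s * a → b * s = s * b → a * b = b * a) :
    ∀ x ∈ Q, ∃ c ∈ Q, (∀ y ∈ Q, c * y = y * c) ∧
      (x = c ∨ x = c * s ∨ x = c * t ∨ x = c * (s * t)) := by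
  -- elements of `C_Q(s)`
  have hR : ∀ x ∈ Q, x * s = s * x → ∃ c ∈ Q, (∀ y ∈ Q, c * y = y * c) ∧ (x = c ∨ x = c * s) := by
    intro x hx hxs
    rcases h.central_of_comm_centralizer hs ht hts hx
      (fun r hr hrs => hab x hx r hr hxs hrs) with h1 | h1
    · exact ⟨x, hx, h1, Or.inl rfl⟩
    · refine ⟨x * s, Q.mul_mem hx hs, h1, Or.inr ?_⟩
      rw [mul_assoc, hss, mul_one]
  intro x hx
  rcases h.split hs ht hts x hx with h1 | h1
  · obtain ⟨c, hc, hcen, h2⟩ := hR x hx h1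
    rcases h2 with h2 | h2
    · exact ⟨c, hc, hcen, Or.inl h2⟩
    · exact ⟨c, hc, hcen, Or.inr (Or.inl h2)⟩
  · obtain ⟨c, hc, hcen, h2⟩ := hR _ (Q.mul_mem (Q.inv_mem ht) hx) h1
    have hx' : x = t * (t⁻¹ * x) := by group
    have htc : t * c = c * t := (hcen t ht).symm
    rcases h2 with h2 | h2
    · refine ⟨c, hc, hcen, Or.inr (Or.inr (Or.inl ?_))⟩
      rw [hx', h2, htc]
    · -- `t c s = c t s = c z s t`
      have hts2 : t * s = z * (s * t) := by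
        have h3 : t * s = (t * s * t⁻¹) * t := by group
        rw [h3, hts, h.cen s hs]; group
      have hzc : ∀ y ∈ Q, (c * z) * y = y * (c * z) := by
        intro y hy
        calc (c * z) * y = c * (z * y) := by group
          _ = c * (y * z) := by rw [h.cen y hy]
          _ = (c * y) * z := by group
          _ = (y * c) * z := by rw [hcen y hy]
          _ = y * (c * z) := by group
      refine ⟨c * z, Q.mul_mem hc h.mem, hzc, Or.inr (Or.inr (Or.inr ?_))⟩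
      rw [hx', h2]
      calc t * (c * s) = (t * c) * s := by group
        _ = (c * t) * s := by rw [htc]
        _ = c * (t * s) := by group
        _ = c * (z * (s * t)) := by rw [hts2]
        _ = c * z * (s * t) := by group

/-- When `C_Q(s)` is abelian: two commuting elements are dependent modulo the centre. -/
theorem small_comm (h : Symp Q z) (hs : s ∈ Q) (hss : s * s = 1)
    (ht : t ∈ Q) (hts : t * s * t⁻¹ = s * z)
    (hab : ∀ a ∈ Q, ∀ b ∈ Q, a * s = s * a → b * s = s * b → a * b = b * a)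
    {y v : G} (hy : y ∈ Q) (hv : v ∈ Q) (hyv : y * v = v * y) :
    (∀ x ∈ Q, y * x = x * y) ∨ (∀ x ∈ Q, v * x = x * v) ∨ (∀ x ∈ Q, (v⁻¹ * y) * x = x * (v⁻¹ * y)) := by
  have hz1 := h.ne_one
  -- the three non-commuting pairs
  have h_st : ¬ s * t = t * s := by
    intro h1
    apply hz1
    have h2 : t * s * t⁻¹ = s := by rw [← h1]; group
    rw [hts] at h2
    exact mul_eq_left.mp h2
  have h_s_st : ¬ s * (s * t) = (s * t) * s := by
    intro h1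
    apply h_st
    have h2 : s * (s * t) = s * (t * s) := by rw [h1]; group
    exact mul_left_cancel h2
  have h_t_st : ¬ t * (s * t) = (s * t) * t := by
    intro h1
    apply h_st
    have h2 : (t * s) * t = (s * t) * t := by rw [← h1]; group
    exact (mul_right_cancel h2).symm
  -- cancellation of central factors
  have hcan : ∀ {c₁ c₂ a b : G}, c₁ ∈ Q → (∀ x ∈ Q, c₁ * x = x * c₁) →
      (∀ x ∈ Q, c₂ * x = x * c₂) → a ∈ Q → b ∈ Q →
      (c₁ * a) * (c₂ * b) = (c₂ * b) * (c₁ * a) → a * b = b * a := by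
    intro c₁ c₂ a b hc₁ h1 h2 ha hb h3
    have e1 : (c₁ * a) * (c₂ * b) = (c₁ * c₂) * (a * b) := by
      calc (c₁ * a) * (c₂ * b) = c₁ * (a * c₂) * b := by group
        _ = c₁ * (c₂ * a) * b := by rw [h2 a ha]
        _ = (c₁ * c₂) * (a * b) := by group
    have e2 : (c₂ * b) * (c₁ * a) = (c₁ * c₂) * (b * a) := by
      calc (c₂ * b) * (c₁ * a) = c₂ * (b * c₁) * a := by group
        _ = c₂ * (c₁ * b) * a := by rw [h1 b hb]
        _ = (c₂ * c₁) * (b * a) := by group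
        _ = (c₁ * c₂) * (b * a) := by rw [← h2 c₁ hc₁]
    rw [e1, e2] at h3
    exact mul_left_cancel h3
  obtain ⟨c₁, hc₁, hc₁c, hy1⟩ := h.rep_small hs hss ht hts hab y hy
  obtain ⟨c₂, hc₂, hc₂c, hv1⟩ := h.rep_small hs hss ht hts hab v hv
  have hst : s * t ∈ Q := Q.mul_mem hs ht
  -- `v⁻¹ y` is central when the representatives agree
  have hsame : ∀ r ∈ Q, v = c₂ * r → y = c₁ * r → (∀ x ∈ Q, (v⁻¹ * y) * x = x * (v⁻¹ * y)) := by
    intro r hr h1 h2 x hx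
    have e : v⁻¹ * y = c₂⁻¹ * c₁ := by
      rw [h1, h2]
      calc (c₂ * r)⁻¹ * (c₁ * r) = r⁻¹ * c₂⁻¹ * (c₁ * r) := by group
        _ = r⁻¹ * (c₂⁻¹ * c₁) * r := by group
        _ = (r⁻¹ * r) * (c₂⁻¹ * c₁) := by
          have : (c₂⁻¹ * c₁) * r = r * (c₂⁻¹ * c₁) := by
            have h3 : c₂⁻¹ * r = r * c₂⁻¹ := by
              have := hc₂c r hr
              calc c₂⁻¹ * r = c₂⁻¹ * (r * c₂) * c₂⁻¹ := by group
                _ = c₂⁻¹ * (c₂ * r) * c₂⁻¹ := by rw [this]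
                _ = r * c₂⁻¹ := by group
            calc (c₂⁻¹ * c₁) * r = c₂⁻¹ * (c₁ * r) := by group
              _ = c₂⁻¹ * (r * c₁) := by rw [hc₁c r hr]
              _ = (c₂⁻¹ * r) * c₁ := by group
              _ = (r * c₂⁻¹) * c₁ := by rw [h3]
              _ = r * (c₂⁻¹ * c₁) := by group
          rw [mul_assoc (r⁻¹), this]; group
        _ = c₂⁻¹ * c₁ := by group
    rw [e]
    have h3 : c₂⁻¹ * x = x * c₂⁻¹ := by
      have := hc₂c x hx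
      calc c₂⁻¹ * x = c₂⁻¹ * (x * c₂) * c₂⁻¹ := by group
        _ = c₂⁻¹ * (c₂ * x) * c₂⁻¹ := by rw [this]
        _ = x * c₂⁻¹ := by group
    calc c₂⁻¹ * c₁ * x = c₂⁻¹ * (c₁ * x) := by group
      _ = c₂⁻¹ * (x * c₁) := by rw [hc₁c x hx]
      _ = (c₂⁻¹ * x) * c₁ := by group
      _ = (x * c₂⁻¹) * c₁ := by rw [h3]
      _ = x * (c₂⁻¹ * c₁) := by group
  have hcen_y : ∀ (hy2 : y = c₁), (∀ x ∈ Q, y * x = x * y) := by
    rintro rfl; exact hc₁c
  have hcen_v : ∀ (hv2 : v = c₂), (∀ x ∈ Q, v * x = x * v) := by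
    rintro rfl; exact hc₂c
  rcases hy1 with hy1 | hy1 | hy1 | hy1
  · exact Or.inl (hcen_y hy1)
  · rcases hv1 with hv1 | hv1 | hv1 | hv1
    · exact Or.inr (Or.inl (hcen_v hv1))
    · exact Or.inr (Or.inr (hsame s hs hv1 hy1))
    · exfalso; rw [hy1, hv1] at hyv; exact h_st (hcan hc₁ hc₁c hc₂c hs ht hyv)
    · exfalso; rw [hy1, hv1] at hyv; exact h_s_st (hcan hc₁ hc₁c hc₂c hs hst hyv)
  · rcases hv1 with hv1 | hv1 | hv1 | hv1
    · exact Or.inr (Or.inl (hcen_v hv1))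
    · exfalso; rw [hy1, hv1] at hyv
      exact h_st (hcan hc₁ hc₁c hc₂c ht hs hyv).symm
    · exact Or.inr (Or.inr (hsame t ht hv1 hy1))
    · exfalso; rw [hy1, hv1] at hyv; exact h_t_st (hcan hc₁ hc₁c hc₂c ht hst hyv)
  · rcases hv1 with hv1 | hv1 | hv1 | hv1
    · exact Or.inr (Or.inl (hcen_v hv1))
    · exfalso; rw [hy1, hv1] at hyv
      exact h_s_st (hcan hc₁ hc₁c hc₂c hst hs hyv).symm
    · exfalso; rw [hy1, hv1] at hyv
      exact h_t_st (hcan hc₁ hc₁c hc₂c hst ht hyv).symm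
    · exact Or.inr (Or.inr (hsame _ hst hv1 hy1))

end Symp

section Key

variable {Q : Subgroup G} {z g : G}

/-- Working hypotheses for the proof by contradiction that `z ∈ Q'`. -/
structure Pair (Q Q' : Subgroup G) (z s t : G) : Prop where
  hS : Symp Q z
  hS' : Symp Q' s
  hsQ : s ∈ Q
  hne : s ≠ z
  hzQ' : z ∉ Q'
  ht : t ∈ Q
  hts : t * s * t⁻¹ = s * z
  hno : ∀ y ∈ Q', y * z * y⁻¹ ≠ z * s
  hcenter : ∀ c ∈ Q', (∀ y ∈ Q', c * y = y * c) → z * c = c * z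

namespace Pair

variable {Q' : Subgroup G} {s t : G}

theorem zs (P : Pair Q Q' z s t) : z * s = s * z := (P.hS.cen s P.hsQ).symm

theorem ss (P : Pair Q Q' z s t) : s * s = 1 := P.hS'.sq_eq

theorem zz (P : Pair Q Q' z s t) : z * z = 1 := P.hS.sq_eq

theorem inter (P : Pair Q Q' z s t) {e : G} (heQ : e ∈ Q) (heQ' : e ∈ Q') : e = 1 ∨ e = s := by
  have hR : ∀ r ∈ Q, r * s = s * r → e * r = r * e := by
    intro r hr hrs
    have hc1 : r * e * r⁻¹ ∈ Q' := P.hS'.nQ r hrs e heQ'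
    have hc2 : r * e * r⁻¹ * e⁻¹ ∈ Q' := Q'.mul_mem hc1 (Q'.inv_mem heQ')
    rcases P.hS.comm r hr e heQ with h1 | h1
    · exact (comm_of_conj_eq (mul_inv_eq_one.mp h1)).symm
    · rw [h1] at hc2; exact absurd hc2 P.hzQ'
  have hcentral1 : ∀ c, c ∈ Q → c ∈ Q' → (∀ y ∈ Q, c * y = y * c) → c = 1 := by
    intro c hc hc' hcen
    have h2 : c * c = 1 := by
      rcases P.hS.sq c hc with h | h
      · rwa [pow_two] at h
      · exfalso
        apply P.hzQ'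
        rw [← h]
        exact Q'.pow_mem hc' 2
    rcases P.hS.inv c hc hcen h2 with h | h
    · exact h
    · exact absurd (h ▸ hc') P.hzQ'
  rcases P.hS.central_of_comm_centralizer P.hsQ P.ht P.hts heQ hR with h | h
  · exact Or.inl (hcentral1 e heQ heQ' h)
  · right
    have h1 := hcentral1 _ (Q.mul_mem heQ P.hsQ) (Q'.mul_mem heQ' P.hS'.mem) h
    have h2 : e = s⁻¹ := eq_inv_of_mul_eq_one_left h1
    rw [h2, P.hS'.inv_eq]

theorem comm_RR' (P : Pair Q Q' z s t) {r y : G} (hr : r ∈ Q) (hrs : r * s = s * r)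
    (hy : y ∈ Q') (hyz : y * z = z * y) : r * y * r⁻¹ * y⁻¹ = 1 ∨ r * y * r⁻¹ * y⁻¹ = s := by
  apply P.inter
  · have h1 : y * r⁻¹ * y⁻¹ ∈ Q := P.hS.nQ y hyz _ (Q.inv_mem hr)
    have e : r * y * r⁻¹ * y⁻¹ = r * (y * r⁻¹ * y⁻¹) := by group
    rw [e]; exact Q.mul_mem hr h1
  · exact Q'.mul_mem (P.hS'.nQ r hrs y hy) (Q'.inv_mem hy)

theorem comm_of_mod (P : Pair Q Q' z s t) {y : G} (hy : y ∈ Q')
    (h : z * y * z⁻¹ * y⁻¹ = 1 ∨ z * y * z⁻¹ * y⁻¹ = s) : y * z = z * y := by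
  rcases h with h | h
  · exact (comm_of_conj_eq (mul_inv_eq_one.mp h)).symm
  · exfalso
    have hys : y * s = s * y := P.hS'.cen y hy
    have h1 : y⁻¹ * z * y * z⁻¹ = s := by
      calc y⁻¹ * z * y * z⁻¹ = y⁻¹ * (z * y * z⁻¹ * y⁻¹) * y := by group
        _ = y⁻¹ * s * y := by rw [h]
        _ = y⁻¹ * (s * y) := by group
        _ = y⁻¹ * (y * s) := by rw [hys]
        _ = s := by group
    have h2 : y⁻¹ * z * y = s * z := by
      calc y⁻¹ * z * y = (y⁻¹ * z * y * z⁻¹) * z := by group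
        _ = s * z := by rw [h1]
    apply P.hno y⁻¹ (Q'.inv_mem hy)
    rw [inv_inv, h2]
    exact P.zs.symm

theorem d_comm (P : Pair Q Q' z s t) {y : G} (hy : y ∈ Q') :
    y⁻¹ * z * y * z⁻¹ ∈ Q' ∧ (y⁻¹ * z * y * z⁻¹) * z = z * (y⁻¹ * z * y * z⁻¹) := by
  have hzy : z * y * z⁻¹ ∈ Q' := P.hS'.nQ z P.zs y hy
  have hd : y⁻¹ * z * y * z⁻¹ ∈ Q' := by
    have e : y⁻¹ * z * y * z⁻¹ = y⁻¹ * (z * y * z⁻¹) := by group
    rw [e]; exact Q'.mul_mem (Q'.inv_mem hy) hzy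
  refine ⟨hd, P.comm_of_mod hd ?_⟩
  have hzi : z⁻¹ = z := P.hS.inv_eq
  have hsi : s⁻¹ = s := P.hS'.inv_eq
  rw [hzi] at hd ⊢
  have hi : (y⁻¹ * z * y * z)⁻¹ = z * y⁻¹ * z * y := by
    simp [mul_inv_rev, hzi, mul_assoc]
  have h1 : z * (y⁻¹ * z * y * z) * z = (y⁻¹ * z * y * z)⁻¹ := by
    rw [hi]
    calc z * (y⁻¹ * z * y * z) * z = z * y⁻¹ * z * y * (z * z) := by group
      _ = z * y⁻¹ * z * y := by rw [P.zz, mul_one]
  have e : z * (y⁻¹ * z * y * z) * z * (y⁻¹ * z * y * z)⁻¹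
      = ((y⁻¹ * z * y * z) ^ 2)⁻¹ := by
    rw [h1]
    exact (fun d : G => by rw [pow_two]; group : ∀ d : G, d⁻¹ * d⁻¹ = (d ^ 2)⁻¹) _
  rw [e]
  rcases P.hS'.sq _ hd with h1 | h1
  · left; rw [h1]; simp
  · right; rw [h1, hsi]

/-- The commutator `[z, y]` for `y ∈ Q'` is in `Q'`, commutes with `z` and squares to one. -/
theorem v_props (P : Pair Q Q' z s t) {y : G} (hy : y ∈ Q') :
    z * y * z⁻¹ * y⁻¹ ∈ Q' ∧ (z * y * z⁻¹ * y⁻¹) * z = z * (z * y * z⁻¹ * y⁻¹) ∧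
      (z * y * z⁻¹ * y⁻¹) * (z * y * z⁻¹ * y⁻¹) = 1 := by
  have hzi : z⁻¹ = z := P.hS.inv_eq
  obtain ⟨h1, h2⟩ := P.d_comm (Q'.inv_mem hy)
  have e : z * y * z⁻¹ * y⁻¹ = (y⁻¹⁻¹ * z * y⁻¹ * z⁻¹)⁻¹ := by group
  have hmem : z * y * z⁻¹ * y⁻¹ ∈ Q' := by rw [e]; exact Q'.inv_mem h1
  have hcomm : (z * y * z⁻¹ * y⁻¹) * z = z * (z * y * z⁻¹ * y⁻¹) := by
    rw [e]
    obtain ⟨d, hd⟩ : ∃ d, d = y⁻¹⁻¹ * z * y⁻¹ * z⁻¹ := ⟨_, rfl⟩
    rw [← hd] at h2 ⊢
    calc d⁻¹ * z = d⁻¹ * (z * d) * d⁻¹ := by group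
      _ = d⁻¹ * (d * z) * d⁻¹ := by rw [h2]
      _ = z * d⁻¹ := by group
  refine ⟨hmem, hcomm, ?_⟩
  -- `z` inverts this commutator
  have h3 : z * (z * y * z⁻¹ * y⁻¹) * z⁻¹ = (z * y * z⁻¹ * y⁻¹)⁻¹ := by
    calc z * (z * y * z⁻¹ * y⁻¹) * z⁻¹ = (z * z) * y * z⁻¹ * y⁻¹ * z⁻¹ := by group
      _ = y * z⁻¹ * y⁻¹ * z⁻¹ := by rw [P.zz]; group
      _ = y * z * y⁻¹ * z⁻¹ := by rw [hzi]
      _ = (z * y * z⁻¹ * y⁻¹)⁻¹ := by
        simp only [mul_inv_rev, inv_inv, hzi, mul_assoc]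
  have h4 : z * (z * y * z⁻¹ * y⁻¹) * z⁻¹ = z * y * z⁻¹ * y⁻¹ := by
    rw [← hcomm]; group
  rw [h4] at h3
  have h5 : (z * y * z⁻¹ * y⁻¹) * (z * y * z⁻¹ * y⁻¹)⁻¹ = 1 := mul_inv_cancel _
  rw [← h3] at h5
  exact h5

theorem comm_centralizer (P : Pair Q Q' z s t) {p : G} (hp : p ∈ Q')
    (hpR : ∀ x ∈ Q', x * z = z * x → p * x = x * p) : p * z = z * p := by
  have E := P.hS'
  have hzi : z⁻¹ = z := P.hS.inv_eq
  have hzp : z * p * z⁻¹ ∈ Q' := P.hS'.nQ z P.zs p hp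
  have hw : z * p * z⁻¹ * p⁻¹ ∈ Q' := Q'.mul_mem hzp (Q'.inv_mem hp)
  apply P.comm_of_mod hp
  have hcen : ∀ y ∈ Q', (z * p * z⁻¹ * p⁻¹) * y = y * (z * p * z⁻¹ * p⁻¹) := by
    intro y hy
    -- [zpz⁻¹, y] = [p, y]
    have hy1 : z * y * z⁻¹ ∈ Q' := P.hS'.nQ z P.zs y hy
    obtain ⟨hd, hdz⟩ := P.d_comm hy
    have hpd := hpR _ hd hdz
    have e1 : p * (z * y * z⁻¹) * p⁻¹ * (z * y * z⁻¹)⁻¹ = p * y * p⁻¹ * y⁻¹ := by
      have e2 : z * y * z⁻¹ = y * (y⁻¹ * z * y * z⁻¹) := by group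
      rw [e2, E.comm_mul_right hp hy hd]
      have : p * (y⁻¹ * z * y * z⁻¹) * p⁻¹ * (y⁻¹ * z * y * z⁻¹)⁻¹ = 1 := by
        rw [mul_inv_eq_one, mul_inv_eq_iff_eq_mul, hpd]
      rw [this, mul_one]
    have hcomm_z : (p * (z * y * z⁻¹) * p⁻¹ * (z * y * z⁻¹)⁻¹) * z = z * (p * (z * y * z⁻¹) * p⁻¹ * (z * y * z⁻¹)⁻¹) := by
      rcases E.comm p hp _ hy1 with h1 | h1
      · rw [h1]; simp
      · rw [h1]; exact P.zs.symm
    have e3 : (z * p * z⁻¹) * y * (z * p * z⁻¹)⁻¹ * y⁻¹ = p * y * p⁻¹ * y⁻¹ := by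
      have e4 : (z * p * z⁻¹) * y * (z * p * z⁻¹)⁻¹ * y⁻¹
          = z * (p * (z⁻¹ * y * z) * p⁻¹ * (z⁻¹ * y * z)⁻¹) * z⁻¹ := by group
      have e5 : z⁻¹ * y * z = z * y * z⁻¹ := by rw [hzi]
      rw [e4, e5, conj_eq_of_comm hcomm_z.symm, e1]
    have e6 := E.comm_mul_left hzp (Q'.inv_mem hp) hy
    rw [e3, E.comm_inv_left hp hy] at e6
    exact comm_of_conj_eq (mul_inv_eq_one.mp e6)
  obtain ⟨-, -, hdd⟩ := P.v_props hp
  exact P.hS'.inv _ hw hcen hdd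

theorem comm_yr (P : Pair Q Q' z s t) {y r : G} (hy : y ∈ Q') (hr : r ∈ Q)
    (hrs : r * s = s * r) :
    y * r * y⁻¹ * r⁻¹ ∈ Q' ∧ (y * r * y⁻¹ * r⁻¹) * z = z * (y * r * y⁻¹ * r⁻¹) := by
  have E := P.hS'
  have hri : r⁻¹ * s = s * r⁻¹ := by
    have h1 : r⁻¹ * (r * s) * r⁻¹ = r⁻¹ * (s * r) * r⁻¹ := by rw [hrs]
    simpa [mul_assoc] using h1.symm
  have hy2 : r * y⁻¹ * r⁻¹ ∈ Q' := P.hS'.nQ r hrs _ (Q'.inv_mem hy)
  have hc : y * r * y⁻¹ * r⁻¹ ∈ Q' := by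
    have e : y * r * y⁻¹ * r⁻¹ = y * (r * y⁻¹ * r⁻¹) := by group
    rw [e]; exact Q'.mul_mem hy hy2
  refine ⟨hc, P.comm_centralizer hc ?_⟩
  intro x hx hxz
  -- [x, y₂] = [x, y⁻¹]
  have hx1 : r⁻¹ * x * r ∈ Q' := by
    have := P.hS'.nQ r⁻¹ hri x hx
    simpa using this
  have hrx : r⁻¹ * x * r * x⁻¹ = 1 ∨ r⁻¹ * x * r * x⁻¹ = s := by
    have := P.comm_RR' (Q.inv_mem hr) hri hx hxz
    simpa using this
  have e1 : x * (r * y⁻¹ * r⁻¹) * x⁻¹ * (r * y⁻¹ * r⁻¹)⁻¹ = x * y⁻¹ * x⁻¹ * y⁻¹⁻¹ := by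
    have e2 : x * (r * y⁻¹ * r⁻¹) * x⁻¹ * (r * y⁻¹ * r⁻¹)⁻¹
        = r * ((r⁻¹ * x * r) * y⁻¹ * (r⁻¹ * x * r)⁻¹ * y⁻¹⁻¹) * r⁻¹ := by group
    have e3 : (r⁻¹ * x * r) * y⁻¹ * (r⁻¹ * x * r)⁻¹ * y⁻¹⁻¹ = x * y⁻¹ * x⁻¹ * y⁻¹⁻¹ := by
      rcases hrx with h1 | h1
      · rw [mul_inv_eq_one.mp h1]
      · have e4 : r⁻¹ * x * r = s * x := by
          calc r⁻¹ * x * r = (r⁻¹ * x * r * x⁻¹) * x := by group
            _ = s * x := by rw [h1]
        rw [e4]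
        have hsy : s * y⁻¹ = y⁻¹ * s := (E.cen _ (Q'.inv_mem hy)).symm
        have hsx : s * x⁻¹ = x⁻¹ * s := (E.cen _ (Q'.inv_mem hx)).symm
        calc (s * x) * y⁻¹ * (s * x)⁻¹ * y⁻¹⁻¹ = s * (x * y⁻¹ * x⁻¹) * s⁻¹ * y⁻¹⁻¹ := by group
          _ = x * y⁻¹ * x⁻¹ * y⁻¹⁻¹ := by
            have h2 : s * (x * y⁻¹ * x⁻¹) = (x * y⁻¹ * x⁻¹) * s := by
              exact (E.cen _ (Q'.mul_mem (Q'.mul_mem hx (Q'.inv_mem hy)) (Q'.inv_mem hx))).symm
            rw [h2]; group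
    rw [e2, e3]
    -- [x, y⁻¹] ∈ {1, s} commutes with r
    apply conj_eq_of_comm
    rcases E.comm x hx _ (Q'.inv_mem hy) with h1 | h1
    · rw [h1]; simp
    · rw [h1]; exact hrs
  have e5 : x * (y * r * y⁻¹ * r⁻¹) * x⁻¹ * (y * r * y⁻¹ * r⁻¹)⁻¹ = 1 := by
    have e6 : y * r * y⁻¹ * r⁻¹ = y * (r * y⁻¹ * r⁻¹) := by group
    rw [e6, E.comm_mul_right hx hy hy2, e1]
    exact E.comm_inv_right hx hy
  exact (comm_of_conj_eq (mul_inv_eq_one.mp e5)).symm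

/-- Final contradiction when `z` is a commutator of two members of `C_Q(s)`. -/
theorem false_of_comm (P : Pair Q Q' z s t) {r₁ r₂ : G} (h1 : r₁ ∈ Q) (h2 : r₂ ∈ Q)
    (h1s : r₁ * s = s * r₁) (h2s : r₂ * s = s * r₂) (hz : r₁ * r₂ * r₁⁻¹ * r₂⁻¹ = z) : False := by
  have E := P.hS'
  have hmod : ∀ y₀ ∈ Q', z * y₀ * z⁻¹ * y₀⁻¹ = 1 ∨ z * y₀ * z⁻¹ * y₀⁻¹ = s := by
    intro y₀ hy₀
    have hinv : ∀ r ∈ Q, r * s = s * r → r⁻¹ * s = s * r⁻¹ := by
      intro r _ hrs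
      have h3 : r⁻¹ * (r * s) * r⁻¹ = r⁻¹ * (s * r) * r⁻¹ := by rw [hrs]
      simpa [mul_assoc] using h3.symm
    have hms : (r₂ * r₁) * s = s * (r₂ * r₁) := by
      calc (r₂ * r₁) * s = r₂ * (r₁ * s) := by group
        _ = r₂ * (s * r₁) := by rw [h1s]
        _ = (r₂ * s) * r₁ := by group
        _ = (s * r₂) * r₁ := by rw [h2s]
        _ = s * (r₂ * r₁) := by group
    -- y := s⁻¹ y₀ s
    have hy : (r₂ * r₁)⁻¹ * y₀ * (r₂ * r₁) ∈ Q' := by
      have := P.hS'.nQ (r₂ * r₁)⁻¹ (hinv _ (Q.mul_mem h2 h1) hms) y₀ hy₀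
      simpa using this
    set y := (r₂ * r₁)⁻¹ * y₀ * (r₂ * r₁) with hydef
    -- e₁ e₂
    obtain ⟨he1, he1z⟩ := P.comm_yr (Q'.inv_mem hy) h1 h1s
    obtain ⟨he2, he2z⟩ := P.comm_yr (Q'.inv_mem hy) h2 h2s
    set e₁ := y⁻¹ * r₁ * y⁻¹⁻¹ * r₁⁻¹ with he₁
    set e₂ := y⁻¹ * r₂ * y⁻¹⁻¹ * r₂⁻¹ with he₂
    have hr1y : r₁ * y * r₁⁻¹ = y * e₁ := by rw [he₁]; group
    have hr2y : r₂ * y * r₂⁻¹ = y * e₂ := by rw [he₂]; group
    have hr1e : r₁ * e₂ * r₁⁻¹ = e₂ ∨ r₁ * e₂ * r₁⁻¹ = s * e₂ := by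
      rcases P.comm_RR' h1 h1s he2 he2z with h3 | h3
      · left; exact mul_inv_eq_one.mp h3
      · right
        calc r₁ * e₂ * r₁⁻¹ = (r₁ * e₂ * r₁⁻¹ * e₂⁻¹) * e₂ := by group
          _ = s * e₂ := by rw [h3]
    have hr2e : r₂ * e₁ * r₂⁻¹ = e₁ ∨ r₂ * e₁ * r₂⁻¹ = s * e₁ := by
      rcases P.comm_RR' h2 h2s he1 he1z with h3 | h3
      · left; exact mul_inv_eq_one.mp h3
      · right
        calc r₂ * e₁ * r₂⁻¹ = (r₂ * e₁ * r₂⁻¹ * e₁⁻¹) * e₁ := by group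
          _ = s * e₁ := by rw [h3]
    -- images
    have hA : (r₂ * r₁) * y * (r₂ * r₁)⁻¹ = y₀ := by rw [hydef]; group
    have hzr : r₁ * r₂ = z * (r₂ * r₁) := by
      rw [← hz]; group
    have hB : z * y₀ * z⁻¹ = (r₁ * r₂) * y * (r₁ * r₂)⁻¹ := by
      rw [hzr, ← hA]
      group
    have hC : y₀ = r₂ * (r₁ * y * r₁⁻¹) * r₂⁻¹ := by rw [← hA]; group
    have hD : (r₁ * r₂) * y * (r₁ * r₂)⁻¹ = r₁ * (r₂ * y * r₂⁻¹) * r₁⁻¹ := by group
    rw [hB, hD, hr2y]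
    have hE : r₁ * (y * e₂) * r₁⁻¹ = (r₁ * y * r₁⁻¹) * (r₁ * e₂ * r₁⁻¹) := by group
    have hF : y₀ = (r₂ * y * r₂⁻¹) * (r₂ * e₁ * r₂⁻¹) := by
      rw [hC, hr1y]; group
    rw [hE, hr1y, hF, hr2y]
    have hcm : (y * e₁ * e₂) * (y * e₂ * e₁)⁻¹ = 1 ∨ (y * e₁ * e₂) * (y * e₂ * e₁)⁻¹ = s := by
      have e : (y * e₁ * e₂) * (y * e₂ * e₁)⁻¹ = y * (e₁ * e₂ * e₁⁻¹ * e₂⁻¹) * y⁻¹ := by group
      rw [e]
      rcases E.comm e₁ he1 e₂ he2 with h3 | h3
      · left; rw [h3]; group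
      · right; rw [h3]
        exact conj_eq_of_comm (E.cen y hy)
    have hssq : s * s = 1 := P.ss
    have hsi : s⁻¹ = s := E.inv_eq
    have hm1 : y * e₂ * (s * e₁) = s * (y * e₂ * e₁) := by
      have h5 : y * e₂ * s = s * (y * e₂) := E.cen _ (Q'.mul_mem hy he2)
      calc y * e₂ * (s * e₁) = (y * e₂ * s) * e₁ := by group
        _ = s * (y * e₂) * e₁ := by rw [h5]
        _ = s * (y * e₂ * e₁) := by group
    have hm2 : y * e₁ * (s * e₂) = s * (y * e₁ * e₂) := by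
      have h5 : y * e₁ * s = s * (y * e₁) := E.cen _ (Q'.mul_mem hy he1)
      calc y * e₁ * (s * e₂) = (y * e₁ * s) * e₂ := by group
        _ = s * (y * e₁) * e₂ := by rw [h5]
        _ = s * (y * e₁ * e₂) := by group
    rcases hr1e with h3 | h3 <;> rcases hr2e with h4 | h4 <;> rw [h3, h4]
    · exact hcm
    · rw [hm1, mul_inv_rev, ← mul_assoc, hsi]
      rcases hcm with h5 | h5
      · right; rw [h5, one_mul]
      · left; rw [h5, hssq]
    · rw [hm2, mul_assoc]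
      rcases hcm with h5 | h5
      · right; rw [h5, mul_one]
      · left; rw [h5, hssq]
    · rw [hm1, hm2, mul_inv_rev, hsi]
      have h6 : s * (y * e₁ * e₂) * ((y * e₂ * e₁)⁻¹ * s) = s * ((y * e₁ * e₂) * (y * e₂ * e₁)⁻¹) * s := by
        group
      rw [h6]
      rcases hcm with h5 | h5
      · left; rw [h5, mul_one, hssq]
      · right; rw [h5, hssq, one_mul]
  apply P.hzQ'
  have hzall : ∀ y ∈ Q', y * z = z * y := fun y hy => P.comm_of_mod hy (hmod y hy)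
  exact P.hS'.cQ z hzall

/-- The final contradiction in the remaining small case: `C_Q'(s')`-type data gives that commuting
elements of `Q'` are dependent modulo the centre. -/
theorem false_of_small (P : Pair Q Q' z s t)
    (hsmall : ∀ y ∈ Q', ∀ v ∈ Q', y * v = v * y → (∀ x ∈ Q', y * x = x * y) ∨
      (∀ x ∈ Q', v * x = x * v) ∨ (∀ x ∈ Q', (v⁻¹ * y) * x = x * (v⁻¹ * y))) : False := by
  have hzi : z⁻¹ = z := P.hS.inv_eq
  apply P.hzQ'
  apply P.hS'.cQ z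
  intro y hy
  obtain ⟨hv, hvz, hvv⟩ := P.v_props hy
  obtain ⟨v, hvdef⟩ : ∃ v, v = z * y * z⁻¹ * y⁻¹ := ⟨_, rfl⟩
  rw [← hvdef] at hv hvz hvv
  have hzy : z * y * z⁻¹ = v * y := by rw [hvdef]; group
  -- `y²` is fixed by `z`
  have hy2 : z * (y * y) * z⁻¹ = y * y := by
    rcases P.hS'.sq y hy with h | h <;> rw [pow_two] at h <;> rw [h]
    · group
    · rw [P.zs]; group
  -- `v` commutes with `y`
  have hvy : y * v = v * y := by
    have h1 : (v * y) * (v * y) = y * y := by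
      rw [← hzy, ← hy2]; group
    rcases P.hS'.comm y hy v hv with h2 | h2
    · exact comm_of_conj_eq (mul_inv_eq_one.mp h2)
    · exfalso
      have h3 : y * v * y⁻¹ = s * v := by
        calc y * v * y⁻¹ = (y * v * y⁻¹ * v⁻¹) * v := by group
          _ = s * v := by rw [h2]
      have h4 : (v * y) * (v * y) = s * (y * y) := by
        calc (v * y) * (v * y) = v * (y * v * y⁻¹) * (y * y) := by group
          _ = v * (s * v) * (y * y) := by rw [h3]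
          _ = (v * s) * v * (y * y) := by group
          _ = (s * v) * v * (y * y) := by rw [P.hS'.cen v hv]
          _ = s * (v * v) * (y * y) := by group
          _ = s * (y * y) := by rw [hvv]; group
      rw [h4] at h1
      exact P.hS'.ne_one (mul_eq_right.mp h1)
  have hzinv : ∀ c : G, z * (z * c * z⁻¹) * z⁻¹ = c := by
    intro c
    calc z * (z * c * z⁻¹) * z⁻¹ = (z * z) * c * (z * z)⁻¹ := by group
      _ = c := by rw [P.zz]; group
  -- three cases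
  have hcomm_yz : z * y * z⁻¹ = y := by
    rcases hsmall y hy v hv hvy with h | h | h
    · -- `y` is central in `Q'`
      have := P.hcenter y hy h
      exact conj_eq_of_comm this
    · -- `v` is central in `Q'`
      rcases P.hS'.inv v hv h hvv with h1 | h1
      · rw [hzy, h1, one_mul]
      · have h2 : z * y * z⁻¹ * y⁻¹ = s := by rw [← hvdef]; exact h1
        have := P.comm_of_mod hy (Or.inr h2)
        exact conj_eq_of_comm this.symm
    · -- `v⁻¹ y` is central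
      have hvi : v⁻¹ = v := inv_eq_of_mul_eq_one_left hvv
      have hc : v⁻¹ * y ∈ Q' := Q'.mul_mem (Q'.inv_mem hv) hy
      have h1 := P.hcenter _ hc h
      -- `z y z⁻¹ = v y = v⁻¹ y`
      have h2 : z * y * z⁻¹ = v⁻¹ * y := by rw [hzy, hvi]
      have h3 : z * (z * y * z⁻¹) * z⁻¹ = z * y * z⁻¹ := by
        rw [h2]
        exact conj_eq_of_comm h1
      rw [hzinv] at h3
      exact h3.symm
  exact (comm_of_conj_eq hcomm_yz).symm

end Pair

/-- The key lemma: if `g z g⁻¹` lies in `Q` (and differs from `z`), then `z` lies in `g Q g⁻¹`. -/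
theorem mem_conj (hS : Symp Q z)
    (hgQ : g * z * g⁻¹ ∈ Q) (hne : g * z * g⁻¹ ≠ z) : z ∈ Q.map (MulAut.conj g).toMonoidHom := by
  by_contra hz
  have hS' := hS.conj g
  set s := g * z * g⁻¹ with hs
  set Q' := Q.map (MulAut.conj g).toMonoidHom with hQ'
  have hs1 : s ≠ 1 := hS'.ne_one
  have hss : s * s = 1 := hS'.sq_eq
  have hnc : ¬ ∀ y ∈ Q, s * y = y * s := by
    intro h1
    rcases hS.inv s hgQ h1 hss with h2 | h2
    · exact hs1 h2
    · exact hne h2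
  obtain ⟨t, ht, hts⟩ := hS.exists_not_comm hgQ hnc
  have hzs : z * s = s * z := (hS.cen s hgQ).symm
  -- `t⁻¹ s t = s z`
  have hts' : t⁻¹ * s * t = s * z := hS.conj_inv ht hts
  have hno : ∀ y ∈ Q', y * z * y⁻¹ ≠ z * s := by
    intro y hy h1
    have hys : y * s = s * y := hS'.cen y hy
    -- w = y⁻¹ t g centralizes z
    have hw : (y⁻¹ * t * g) * z = z * (y⁻¹ * t * g) := by
      apply comm_of_conj_eq
      calc (y⁻¹ * t * g) * z * (y⁻¹ * t * g)⁻¹ = y⁻¹ * (t * (g * z * g⁻¹) * t⁻¹) * y := by group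
        _ = y⁻¹ * (s * z) * y := by rw [← hs, hts]
        _ = y⁻¹ * (z * s) * y := by rw [hzs]
        _ = y⁻¹ * (y * z * y⁻¹) * y := by rw [h1]
        _ = z := by group
    have hwi : (y⁻¹ * t * g)⁻¹ * z = z * (y⁻¹ * t * g)⁻¹ := by
      have h3 : (y⁻¹ * t * g)⁻¹ * ((y⁻¹ * t * g) * z) * (y⁻¹ * t * g)⁻¹
          = (y⁻¹ * t * g)⁻¹ * (z * (y⁻¹ * t * g)) * (y⁻¹ * t * g)⁻¹ := by rw [hw]
      simpa [mul_assoc] using h3.symm
    have h4 := hS.nQ _ hwi s hgQ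
    have h5 : (y⁻¹ * t * g)⁻¹ * s * (y⁻¹ * t * g)⁻¹⁻¹ = g⁻¹ * (s * z) * g := by
      rw [inv_inv]
      calc (y⁻¹ * t * g)⁻¹ * s * (y⁻¹ * t * g)
          = g⁻¹ * t⁻¹ * (y * s * y⁻¹) * t * g := by group
        _ = g⁻¹ * (t⁻¹ * s * t) * g := by rw [conj_eq_of_comm hys]; group
        _ = g⁻¹ * (s * z) * g := by rw [hts']
    rw [h5] at h4
    have h6 : s * z ∈ Q' := mem_conj_iff.mpr h4
    apply hz
    have h7 : z = s⁻¹ * (s * z) := by group
    rw [h7]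
    exact Q'.mul_mem (Q'.inv_mem hS'.mem) h6
  -- `z` centralizes the centre of `Q'`
  have hcenter : ∀ c ∈ Q', (∀ y ∈ Q', c * y = y * c) → z * c = c * z := by
    intro c hc hcen
    rcases hS'.sq c hc with h2 | h2
    · rw [pow_two] at h2
      rcases hS'.inv c hc hcen h2 with h3 | h3
      · rw [h3]; simp
      · rw [h3]; exact hzs
    · rw [pow_two] at h2
      -- `w := g⁻¹ c g` is central in `Q` with square `z`
      have hw : g⁻¹ * c * g ∈ Q := mem_conj_iff.mp hc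
      obtain ⟨w, hwdef⟩ : ∃ w, w = g⁻¹ * c * g := ⟨_, rfl⟩
      rw [← hwdef] at hw
      have hwcen : ∀ y ∈ Q, w * y = y * w := by
        intro y hy
        have h3 := hcen (g * y * g⁻¹) ⟨y, hy, by simp [MulAut.conj_apply]⟩
        rw [hwdef]
        calc g⁻¹ * c * g * y = g⁻¹ * (c * (g * y * g⁻¹)) * g := by group
          _ = g⁻¹ * ((g * y * g⁻¹) * c) * g := by rw [h3]
          _ = y * (g⁻¹ * c * g) := by group
      have hww : w * w = z := by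
        rw [hwdef]
        calc g⁻¹ * c * g * (g⁻¹ * c * g) = g⁻¹ * (c * c) * g := by group
          _ = g⁻¹ * s * g := by rw [h2]
          _ = z := by rw [hs]; group
      have hws : w * s = s * w := hwcen s hgQ
      have hwsi : w⁻¹ * s = s * w⁻¹ := by
        calc w⁻¹ * s = w⁻¹ * (s * w) * w⁻¹ := by group
          _ = w⁻¹ * (w * s) * w⁻¹ := by rw [hws]
          _ = s * w⁻¹ := by group
      have hwc : w * c * w⁻¹ ∈ Q' := hS'.nQ w hws c hc
      have hwccen : ∀ y ∈ Q', (w * c * w⁻¹) * y = y * (w * c * w⁻¹) := by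
        intro y hy
        have h3 : w⁻¹ * y * w ∈ Q' := by
          have := hS'.nQ w⁻¹ hwsi y hy
          simpa using this
        have h4 := hcen _ h3
        calc (w * c * w⁻¹) * y = w * (c * (w⁻¹ * y * w)) * w⁻¹ := by group
          _ = w * ((w⁻¹ * y * w) * c) * w⁻¹ := by rw [h4]
          _ = y * (w * c * w⁻¹) := by group
      have hci : c⁻¹ ∈ Q' := Q'.inv_mem hc
      have hcicen : ∀ y ∈ Q', c⁻¹ * y = y * c⁻¹ := by
        intro y hy
        calc c⁻¹ * y = c⁻¹ * (y * c) * c⁻¹ := by group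
          _ = c⁻¹ * (c * y) * c⁻¹ := by rw [hcen y hy]
          _ = y * c⁻¹ := by group
      have he : (w * c * w⁻¹) * c⁻¹ ∈ Q' := Q'.mul_mem hwc hci
      have hecen : ∀ y ∈ Q', ((w * c * w⁻¹) * c⁻¹) * y = y * ((w * c * w⁻¹) * c⁻¹) := by
        intro y hy
        calc ((w * c * w⁻¹) * c⁻¹) * y = (w * c * w⁻¹) * (c⁻¹ * y) := by group
          _ = (w * c * w⁻¹) * (y * c⁻¹) := by rw [hcicen y hy]
          _ = ((w * c * w⁻¹) * y) * c⁻¹ := by group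
          _ = (y * (w * c * w⁻¹)) * c⁻¹ := by rw [hwccen y hy]
          _ = y * ((w * c * w⁻¹) * c⁻¹) := by group
      have hee : ((w * c * w⁻¹) * c⁻¹) * ((w * c * w⁻¹) * c⁻¹) = 1 := by
        have h3 := hcicen _ hwc
        calc ((w * c * w⁻¹) * c⁻¹) * ((w * c * w⁻¹) * c⁻¹)
            = (w * c * w⁻¹) * (c⁻¹ * (w * c * w⁻¹)) * c⁻¹ := by group
          _ = (w * c * w⁻¹) * ((w * c * w⁻¹) * c⁻¹) * c⁻¹ := by rw [h3]
          _ = w * (c * c) * w⁻¹ * (c * c)⁻¹ := by group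
          _ = w * s * w⁻¹ * s⁻¹ := by rw [h2]
          _ = 1 := by rw [hws]; group
      have hwwz : ∀ a : G, z * a * z⁻¹ = w * (w * a * w⁻¹) * w⁻¹ := by
        intro a
        rw [← hww]; group
      apply comm_of_conj_eq
      rw [hwwz]
      rcases hS'.inv _ he hecen hee with h3 | h3
      · have h4 : w * c * w⁻¹ = c := mul_inv_eq_one.mp h3
        rw [h4, h4]
      · have h4 : w * c * w⁻¹ = s * c := by
          calc w * c * w⁻¹ = ((w * c * w⁻¹) * c⁻¹) * c := by group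
            _ = s * c := by rw [h3]
        rw [h4]
        calc w * (s * c) * w⁻¹ = (w * s * w⁻¹) * (w * c * w⁻¹) := by group
          _ = s * (s * c) := by rw [h4, hws]; group
          _ = c := by rw [← mul_assoc, hss, one_mul]
  have P : Pair Q Q' z s t := ⟨hS, hS', hgQ, hne, hz, ht, hts, hno, hcenter⟩
  by_cases hab : ∀ a ∈ Q, ∀ b ∈ Q, a * s = s * a → b * s = s * b → a * b = b * a
  · -- the small case; transport `hab` to `Q'`
    apply P.false_of_small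
    have hS'' := hS'.conj g
    have hab' : ∀ a ∈ Q', ∀ b ∈ Q', a * (g * s * g⁻¹) = (g * s * g⁻¹) * a →
        b * (g * s * g⁻¹) = (g * s * g⁻¹) * b → a * b = b * a := by
      rintro a ⟨a₀, ha₀, rfl⟩ b ⟨b₀, hb₀, rfl⟩ h1 h2
      simp only [MulEquiv.coe_toMonoidHom, MulAut.conj_apply] at h1 h2 ⊢
      have h3 : a₀ * s = s * a₀ := by
        have e1 : g * a₀ * g⁻¹ * (g * s * g⁻¹) = g * (a₀ * s) * g⁻¹ := by group
        have e2 : g * s * g⁻¹ * (g * a₀ * g⁻¹) = g * (s * a₀) * g⁻¹ := by group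
        rw [e1, e2] at h1
        simpa using h1
      have h4 : b₀ * s = s * b₀ := by
        have e1 : g * b₀ * g⁻¹ * (g * s * g⁻¹) = g * (b₀ * s) * g⁻¹ := by group
        have e2 : g * s * g⁻¹ * (g * b₀ * g⁻¹) = g * (s * b₀) * g⁻¹ := by group
        rw [e1, e2] at h2
        simpa using h2
      have h5 := hab a₀ ha₀ b₀ hb₀ h3 h4
      calc g * a₀ * g⁻¹ * (g * b₀ * g⁻¹) = g * (a₀ * b₀) * g⁻¹ := by group
        _ = g * (b₀ * a₀) * g⁻¹ := by rw [h5]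
        _ = g * b₀ * g⁻¹ * (g * a₀ * g⁻¹) := by group
    have hgs : g * s * g⁻¹ ∈ Q' := ⟨s, hgQ, by simp [MulAut.conj_apply]⟩
    have hgss : (g * s * g⁻¹) * (g * s * g⁻¹) = 1 := by
      calc (g * s * g⁻¹) * (g * s * g⁻¹) = g * (s * s) * g⁻¹ := by group
        _ = 1 := by rw [hss]; group
    have hgt : g * t * g⁻¹ ∈ Q' := ⟨t, ht, by simp [MulAut.conj_apply]⟩
    have hgts : (g * t * g⁻¹) * (g * s * g⁻¹) * (g * t * g⁻¹)⁻¹ = (g * s * g⁻¹) * s := by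
      calc (g * t * g⁻¹) * (g * s * g⁻¹) * (g * t * g⁻¹)⁻¹ = g * (t * s * t⁻¹) * g⁻¹ := by group
        _ = g * (s * z) * g⁻¹ := by rw [hts]
        _ = (g * s * g⁻¹) * (g * z * g⁻¹) := by group
        _ = (g * s * g⁻¹) * s := by rw [hs]
    intro y hy v hv hyv
    exact hS'.small_comm hgs hgss hgt hgts hab' hy hv hyv
  · push Not at hab
    obtain ⟨r₁, h1, r₂, h2, h1s, h2s, hne12⟩ := hab
    rcases hS.comm r₁ h1 r₂ h2 with h3 | h3
    · exact hne12 (comm_of_conj_eq (mul_inv_eq_one.mp h3))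
    · exact P.false_of_comm h1 h2 h1s h2s h3

end Key

end Cfsg.Agent.Lib.SympPair
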