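import Mathlib
import Cfsg.Agent.Lib.BlockPerm

/-!
An isometry with scalar square of a non-degenerate alternating form permutes the planes of a suitable
orthogonal decomposition into non-degenerate planes.
-/

set_option autoImplicit false

namespace Cfsg.Agent.Lib.SympPlanes

open Finset Module

variable {F V : Type*} [Field F] [AddCommGroup V] [Module F V] [FiniteDimensional F V]
variable (B : LinearMap.BilinForm F V)

/-- Non-degeneracy on a subspace. -/
def NondegOn (W : Submodule F V) : Prop := ∀ u ∈ W, u ≠ 0 → ∃ v ∈ W, B u v ≠ 0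

/-- The right orthogonal complement. -/
def perp (T : Submodule F V) : Submodule F V where
  carrier := {m | ∀ t ∈ T, B t m = 0}
  add_mem' := by
    intro a b ha hb t ht
    rw [map_add, ha t ht, hb t ht, add_zero]
  zero_mem' := by
    intro t _
    rw [map_zero]
  smul_mem' := by
    intro c a ha t ht
    rw [map_smul, ha t ht, smul_zero]

theorem mem_perp {T : Submodule F V} {m : V} : m ∈ perp B T ↔ ∀ t ∈ T, B t m = 0 := Iff.rfl

variable {B}
variable (hB : ∀ v, B v v = 0)
include hB

theorem antisymm (u v : V) : B u v = - B v u := by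
  have h := hB (u + v)
  simp only [map_add, LinearMap.add_apply, hB, zero_add, add_zero] at h
  rw [add_comm] at h
  exact eq_neg_of_add_eq_zero_left h

/-- Decomposition of `W` along a non-degenerate subspace. -/
theorem orth_decomp {W T : Submodule F V} (hTW : T ≤ W) (hW : NondegOn B W) (hT : NondegOn B T) :
    Disjoint T (W ⊓ perp B T) ∧ T ⊔ (W ⊓ perp B T) = W ∧ NondegOn B (W ⊓ perp B T) := by
  have hdisj : Disjoint T (W ⊓ perp B T) := by
    rw [Submodule.disjoint_def]
    intro w hwT hw2
    by_contra hne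
    obtain ⟨v, hv, hv'⟩ := hT w hwT hne
    apply hv'
    rw [antisymm hB, hw2.2 v hv, neg_zero]
  -- the map to the dual is bijective
  let φ : T →ₗ[F] Dual F T :=
    { toFun := fun t => (B t.1).comp T.subtype
      map_add' := by
        intro a b
        ext s
        simp
      map_smul' := by
        intro c a
        ext s
        simp }
  have hφinj : Function.Injective φ := by
    rw [injective_iff_map_eq_zero]
    intro t ht
    by_contra hne
    have hne' : t.1 ≠ 0 := fun h => hne (Subtype.ext h)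
    obtain ⟨v, hv, hv'⟩ := hT t.1 t.2 hne'
    apply hv'
    have := congrArg (fun f : Dual F T => f ⟨v, hv⟩) ht
    simpa [φ] using this
  have hφsurj : Function.Surjective φ := by
    have hdim : finrank F T = finrank F (Dual F T) := (Subspace.dual_finrank_eq).symm
    exact (LinearMap.injective_iff_surjective_of_finrank_eq_finrank hdim).1 hφinj
  have hsup : T ⊔ (W ⊓ perp B T) = W := by
    apply le_antisymm
    · exact sup_le hTW inf_le_left
    · intro w hw
      -- choose the orthogonal projection of `w`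
      obtain ⟨t, ht⟩ := hφsurj ((B w).comp T.subtype)
      have ht' : ∀ s ∈ T, B t.1 s = B w s := by
        intro s hs
        have := congrArg (fun f : Dual F T => f ⟨s, hs⟩) ht
        simpa [φ] using this
      have hw' : w = t.1 + (w - t.1) := by abel
      rw [hw']
      refine Submodule.add_mem_sup t.2 ⟨W.sub_mem hw (hTW t.2), ?_⟩
      intro s hs
      rw [antisymm hB, map_sub, LinearMap.sub_apply, ht' s hs, sub_self, neg_zero]
  refine ⟨hdisj, hsup, ?_⟩
  intro u hu hu0
  obtain ⟨v, hv, hv'⟩ := hW u hu.1 hu0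
  rw [← hsup] at hv
  obtain ⟨a, ha, b, hb, rfl⟩ := Submodule.mem_sup.1 hv
  refine ⟨b, hb, fun h => hv' ?_⟩
  rw [map_add, h, add_zero, antisymm hB, hu.2 a ha, neg_zero]

/-- The plane spanned by a hyperbolic pair. -/
theorem plane_facts {u v : V} (h : B u v ≠ 0) :
    finrank F (Submodule.span F {u, v}) = 2 ∧ NondegOn B (Submodule.span F {u, v}) := by
  have hind : LinearIndependent F ![u, v] := by
    rw [LinearIndependent.pair_iff]
    intro a b hab
    have h1 := congrArg (fun w => B w v) hab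
    have h2 := congrArg (fun w => B w u) hab
    simp only [map_add, map_smul, LinearMap.add_apply, LinearMap.smul_apply, hB, smul_zero, add_zero,
      zero_add, smul_eq_mul, map_zero, LinearMap.zero_apply, mul_zero] at h1 h2
    rw [antisymm hB v u] at h2
    have ha : a = 0 := (mul_eq_zero.1 h1).resolve_right h
    have hb : b = 0 := by
      rcases mul_eq_zero.1 h2 with h3 | h3
      · exact h3
      · exact absurd (neg_eq_zero.1 h3) h
    exact ⟨ha, hb⟩
  refine ⟨?_, ?_⟩
  · have := finrank_span_eq_card hind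
    rw [show Set.range ![u, v] = {u, v} by
      ext y
      simp [eq_comm]
      exact or_comm] at this
    simpa using this
  · intro w hw hw0
    obtain ⟨a, b, rfl⟩ := Submodule.mem_span_pair.1 hw
    by_cases ha : a = 0
    · have hb : b ≠ 0 := by
        rintro rfl
        simp [ha] at hw0
      refine ⟨u, Submodule.mem_span_pair.2 ⟨1, 0, by simp⟩, ?_⟩
      subst ha
      simp only [zero_smul, zero_add, map_smul, LinearMap.smul_apply, smul_eq_mul]
      rw [antisymm hB v u]
      exact mul_ne_zero hb (neg_ne_zero.2 h)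
    · refine ⟨v, Submodule.mem_span_pair.2 ⟨0, 1, by simp⟩, ?_⟩
      simp only [map_add, map_smul, LinearMap.add_apply, LinearMap.smul_apply, hB, smul_eq_mul,
        mul_zero, add_zero]
      exact mul_ne_zero ha h

omit hB in
theorem sup_orth {ι : Type*} [DecidableEq ι] (L : ι → Submodule F V) (s s' : Finset ι)
    (h : ∀ i ∈ s, ∀ j ∈ s', ∀ u ∈ L i, ∀ v ∈ L j, B u v = 0) :
    ∀ u ∈ s.sup L, ∀ v ∈ s'.sup L, B u v = 0 := by
  intro u hu v hv
  have h1 : s'.sup L ≤ perp B (s.sup L) := by
    refine Finset.sup_le fun j hj v hv t ht => ?_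
    have h2 : s.sup L ≤ LinearMap.ker (B.flip v) := by
      refine Finset.sup_le fun i hi t ht => ?_
      exact h i hi j hj t ht v hv
    exact h2 ht
  exact (h1 hv) u hu

theorem sup_nondeg {ι : Type*} [DecidableEq ι] (L : ι → Submodule F V) (s : Finset ι)
    (h1 : ∀ i ∈ s, NondegOn B (L i))
    (h2 : ∀ i ∈ s, ∀ j ∈ s, i ≠ j → ∀ u ∈ L i, ∀ v ∈ L j, B u v = 0) :
    NondegOn B (s.sup L) := by
  induction s using Finset.induction_on with
  | empty =>
    intro u hu hu0
    simp only [Finset.sup_empty, Submodule.mem_bot] at hu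
    exact absurd hu hu0
  | insert i s hi ih =>
    have hih := ih (fun j hj => h1 j (mem_insert_of_mem hj))
      (fun a ha b hb => h2 a (mem_insert_of_mem ha) b (mem_insert_of_mem hb))
    have horth : ∀ u ∈ L i, ∀ v ∈ s.sup L, B u v = 0 := by
      have := sup_orth (B := B) L {i} s (by
        intro a ha b hb u hu v hv
        rw [mem_singleton] at ha
        subst ha
        exact h2 a (mem_insert_self _ _) b (mem_insert_of_mem hb)
          (fun h => hi (h ▸ hb)) u hu v hv)
      simpa using this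
    rw [Finset.sup_insert]
    intro w hw hw0
    obtain ⟨a, ha, b, hb, rfl⟩ := Submodule.mem_sup.1 hw
    by_cases ha0 : a = 0
    · subst ha0
      rw [zero_add] at hw0 ⊢
      obtain ⟨r, hr, hr'⟩ := hih b hb hw0
      exact ⟨r, Submodule.mem_sup_right hr, hr'⟩
    · obtain ⟨r, hr, hr'⟩ := h1 i (mem_insert_self _ _) a ha ha0
      refine ⟨r, Submodule.mem_sup_left hr, ?_⟩
      rw [map_add, LinearMap.add_apply, antisymm hB b r, horth r hr b hb, neg_zero, add_zero]
      exact hr'

variable {x : V →ₗ[F] V} {z : F} (hz : z ≠ 0)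
  (hx : ∀ v, x (x v) = z • v) (hiso : ∀ u v, B (x u) (x v) = B u v)
include hz hx hiso

/-- The key inductive statement. -/
theorem planes_normal_form [DecidableEq (Submodule F V)] (d : ℕ) :
    ∀ W : Submodule F V, finrank F W = d → (∀ v ∈ W, x v ∈ W) → NondegOn B W →
    ∃ PP : Finset (Submodule F V), (∀ P ∈ PP, finrank F P = 2 ∧ P ≤ W ∧ NondegOn B P) ∧
      PP.SupIndep id ∧ PP.sup id = W ∧ (∀ P ∈ PP, P.map x ∈ PP) ∧
      (∀ P ∈ PP, ∀ Q ∈ PP, P ≠ Q → ∀ u ∈ P, ∀ v ∈ Q, B u v = 0) := by
  have hxinj : Function.Injective x := by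
    rw [injective_iff_map_eq_zero]
    intro v hv
    have := hx v
    rw [hv, map_zero] at this
    exact (smul_eq_zero.1 this.symm).resolve_left hz
  -- the step: from an invariant non-degenerate subspace and planes inside to the whole of `W`
  induction d using Nat.strong_induction_on with
  | _ d ih =>
  intro W hd hW hWn
  by_cases hbot : W = ⊥
  · exact ⟨∅, by simp, by simp, by simp [hbot], by simp, by simp⟩
  -- a general step
  have hstep : ∀ (T : Submodule F V) (QQ : Finset (Submodule F V)), T ≠ ⊥ → T ≤ W → NondegOn B T →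
      (∀ v ∈ T, x v ∈ T) → (∀ P ∈ QQ, finrank F P = 2 ∧ NondegOn B P) → QQ.SupIndep id → QQ.sup id = T →
      (∀ P ∈ QQ, P.map x ∈ QQ) → (∀ P ∈ QQ, ∀ Q ∈ QQ, P ≠ Q → ∀ u ∈ P, ∀ v ∈ Q, B u v = 0) →
      ∃ PP : Finset (Submodule F V), (∀ P ∈ PP, finrank F P = 2 ∧ P ≤ W ∧ NondegOn B P) ∧
        PP.SupIndep id ∧ PP.sup id = W ∧ (∀ P ∈ PP, P.map x ∈ PP) ∧
        (∀ P ∈ PP, ∀ Q ∈ PP, P ≠ Q → ∀ u ∈ P, ∀ v ∈ Q, B u v = 0) := by
    intro T QQ hT0 hTW hTn hTx hQ1 hQ2 hQ3 hQ4 hQ5
    obtain ⟨hdisj, hsup, hUn⟩ := orth_decomp hB hTW hWn hTn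
    set U := W ⊓ perp B T with hU
    have hUlt : U < W := by
      refine lt_of_le_of_ne inf_le_left (fun he => hT0 ?_)
      rw [he] at hdisj
      have := disjoint_iff.1 hdisj
      rwa [inf_eq_left.2 hTW] at this
    have hUd : finrank F U < d := by
      rw [← hd]
      exact Submodule.finrank_lt_finrank_of_lt hUlt
    have hUx : ∀ u ∈ U, x u ∈ U := by
      intro u hu
      refine ⟨hW u hu.1, ?_⟩
      intro t ht
      have h1 : t = z⁻¹ • x (x t) := by
        rw [hx, smul_smul, inv_mul_cancel₀ hz, one_smul]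
      rw [h1, map_smul, LinearMap.smul_apply, hiso, hu.2 _ (hTx t ht), smul_zero]
    obtain ⟨PP, h1, h2, h3, h4, h5⟩ := ih _ hUd U rfl hUx hUn
    have hPT : ∀ P ∈ QQ, P ≤ T := by
      intro P hP
      rw [← hQ3]
      exact Finset.le_sup (f := id) hP
    refine ⟨QQ ∪ PP, ?_, ?_, ?_, ?_, ?_⟩
    · intro P hP
      rcases mem_union.1 hP with hP | hP
      · exact ⟨(hQ1 P hP).1, (hPT P hP).trans hTW, (hQ1 P hP).2⟩
      · exact ⟨(h1 P hP).1, (h1 P hP).2.1.trans inf_le_left, (h1 P hP).2.2⟩
    · refine hQ2.union h2 ?_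
      simp only [hQ3, h3]
      exact hdisj
    · rw [Finset.sup_union, hQ3, h3]
      exact hsup
    · intro P hP
      rcases mem_union.1 hP with hP | hP
      · exact mem_union_left _ (hQ4 P hP)
      · exact mem_union_right _ (h4 P hP)
    · intro P hP Q hQ hne u hu v hv
      rcases mem_union.1 hP with hP | hP
      · rcases mem_union.1 hQ with hQ | hQ
        · exact hQ5 P hP Q hQ hne u hu v hv
        · exact ((h1 Q hQ).2.1 hv).2 u (hPT P hP hu)
      · rcases mem_union.1 hQ with hQ | hQ
        · rw [antisymm hB]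
          rw [((h1 P hP).2.1 hu).2 v (hPT Q hQ hv), neg_zero]
        · exact h5 P hP Q hQ hne u hu v hv
  -- the three cases
  by_cases hA : ∃ u ∈ W, B u (x u) ≠ 0
  · obtain ⟨u, huW, hu⟩ := hA
    obtain ⟨hf, hn⟩ := plane_facts hB hu
    have hxuW := hW u huW
    have hTx : ∀ v ∈ Submodule.span F {u, x u}, x v ∈ Submodule.span F {u, x u} := by
      intro v hv
      obtain ⟨a, b, rfl⟩ := Submodule.mem_span_pair.1 hv
      rw [map_add, map_smul, map_smul, hx]
      exact Submodule.mem_span_pair.2 ⟨b * z, a, by rw [mul_smul]; abel⟩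
    have hT0 : Submodule.span F {u, x u} ≠ ⊥ := by
      intro h
      rw [h] at hf
      simp at hf
    have hTW : Submodule.span F {u, x u} ≤ W := by
      rw [Submodule.span_le]
      rintro w (rfl | rfl)
      · exact huW
      · exact hxuW
    have hmap : (Submodule.span F {u, x u}).map x = Submodule.span F {u, x u} := by
      apply Submodule.eq_of_le_of_finrank_eq
      · rintro _ ⟨v, hv, rfl⟩
        exact hTx v hv
      · exact (Submodule.equivMapOfInjective x hxinj _).finrank_eq.symm
    exact hstep _ {Submodule.span F {u, x u}} hT0 hTW hn hTx (by simp [hf, hn]) (by simp) (by simp)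
      (by simp [hmap]) (by simp)
  push Not at hA
  obtain ⟨u₀, hu₀W, hu₀⟩ := (Submodule.ne_bot_iff W).1 hbot
  by_cases hscal : ∀ v ∈ W, x v ∈ Submodule.span F {v}
  · -- every vector of `W` is an eigenvector of `x`
    obtain ⟨v, hvW, hv⟩ := hWn u₀ hu₀W hu₀
    obtain ⟨hf, hn⟩ := plane_facts hB hv
    have hTx : ∀ w ∈ Submodule.span F {u₀, v}, x w ∈ Submodule.span F {u₀, v} := by
      intro w hw
      obtain ⟨a, b, rfl⟩ := Submodule.mem_span_pair.1 hw
      rw [map_add, map_smul, map_smul]
      obtain ⟨c, hc⟩ := Submodule.mem_span_singleton.1 (hscal u₀ hu₀W)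
      obtain ⟨e, he⟩ := Submodule.mem_span_singleton.1 (hscal v hvW)
      rw [← hc, ← he]
      exact Submodule.mem_span_pair.2 ⟨a * c, b * e, by rw [mul_smul, mul_smul]⟩
    have hT0 : Submodule.span F {u₀, v} ≠ ⊥ := by
      intro h
      rw [h] at hf
      simp at hf
    have hTW : Submodule.span F {u₀, v} ≤ W := by
      rw [Submodule.span_le]
      rintro w (rfl | rfl)
      · exact hu₀W
      · exact hvW
    have hmap : (Submodule.span F {u₀, v}).map x = Submodule.span F {u₀, v} := by
      apply Submodule.eq_of_le_of_finrank_eq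
      · rintro _ ⟨w, hw, rfl⟩
        exact hTx w hw
      · exact (Submodule.equivMapOfInjective x hxinj _).finrank_eq.symm
    exact hstep _ {Submodule.span F {u₀, v}} hT0 hTW hn hTx (by simp [hf, hn]) (by simp) (by simp)
      (by simp [hmap]) (by simp)
  -- otherwise `x` swaps two orthogonal planes
  push Not at hscal
  obtain ⟨u, huW, hu⟩ := hscal
  have hu0 : u ≠ 0 := by
    rintro rfl
    simp at hu
  have hxuW := hW u huW
  have hxu0 : x u ≠ 0 := fun h => hu0 (hxinj (by rw [h, map_zero]))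
  -- polarisation: `z = 1`
  have hpol : ∀ a ∈ W, ∀ b ∈ W, B a (x b) = - B b (x a) := by
    intro a ha b hb
    have h1 := hA (a + b) (W.add_mem ha hb)
    simp only [map_add, LinearMap.add_apply] at h1
    linear_combination h1 - hA a ha - hA b hb
  have hz1 : z = 1 := by
    obtain ⟨b, hb, hb'⟩ := hWn (x u) hxuW hxu0
    have h1 : B b (x u) ≠ 0 := by
      rw [antisymm hB]
      exact neg_ne_zero.2 hb'
    have h2 := hpol u huW b hb
    -- `B u (x b) = B (x u) (x (x b)) = z * B (x u) b`
    have h3 : B u (x b) = z * B (x u) b := by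
      rw [← hiso u (x b), hx, map_smul, smul_eq_mul]
    rw [h3, antisymm hB (x u) b] at h2
    have h4 : (z - 1) * B b (x u) = 0 := by
      linear_combination (-1 : F) * h2
    rcases mul_eq_zero.1 h4 with h5 | h5
    · exact sub_eq_zero.1 h5
    · exact absurd h5 h1
  subst hz1
  -- a vector orthogonal to `x u`, not to `u`
  obtain ⟨v, hvW, hv1, hv2⟩ : ∃ v ∈ W, B (x u) v = 0 ∧ B u v ≠ 0 := by
    by_contra hcon
    push Not at hcon
    obtain ⟨w₀, hw₀, hw₀'⟩ := hWn (x u) hxuW hxu0
    set c := B u w₀ / B (x u) w₀ with hc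
    have hall : ∀ w ∈ W, B (u - c • x u) w = 0 := by
      intro w hw
      have h1 := hcon (w - (B (x u) w / B (x u) w₀) • w₀) (W.sub_mem hw (W.smul_mem _ hw₀)) (by
        rw [map_sub, map_smul, smul_eq_mul, div_mul_cancel₀ _ hw₀', sub_self])
      rw [map_sub, map_smul, smul_eq_mul, sub_eq_zero] at h1
      rw [map_sub, LinearMap.sub_apply, map_smul, LinearMap.smul_apply, smul_eq_mul, h1, hc]
      field_simp
      ring
    have h0 : u - c • x u = 0 := by
      by_contra hne
      obtain ⟨w, hw, hw'⟩ := hWn _ (W.sub_mem huW (W.smul_mem _ hxuW)) hne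
      exact hw' (hall w hw)
    have hc0 : c ≠ 0 := by
      intro h
      rw [h, zero_smul, sub_zero] at h0
      exact hu0 h0
    apply hu
    have h2 : x u = c⁻¹ • u := by
      rw [sub_eq_zero] at h0
      rw [h0, smul_smul, inv_mul_cancel₀ hc0, one_smul, ← h0]
    rw [h2]
    exact Submodule.smul_mem _ _ (Submodule.mem_span_singleton_self u)
  obtain ⟨hf, hn⟩ := plane_facts hB hv2
  set P := Submodule.span F {u, v} with hP
  have hPW : P ≤ W := by
    rw [hP, Submodule.span_le]
    rintro w (rfl | rfl)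
    · exact huW
    · exact hvW
  have hxvW := hW v hvW
  have horth : ∀ a ∈ P, ∀ b ∈ P, B a (x b) = 0 := by
    intro a ha b hb
    obtain ⟨a₁, a₂, rfl⟩ := Submodule.mem_span_pair.1 ha
    obtain ⟨b₁, b₂, rfl⟩ := Submodule.mem_span_pair.1 hb
    have e1 : B u (x v) = 0 := by
      rw [← hiso u (x v), hx, one_smul]
      exact hv1
    have e2 : B v (x u) = 0 := by
      rw [antisymm hB v (x u)]
      simp [hv1]
    simp only [map_add, map_smul, LinearMap.add_apply, LinearMap.smul_apply, smul_eq_mul,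
      hA u huW, hA v hvW, e1, e2, mul_zero, add_zero]
  let Q := P.map x
  have hQf : finrank F Q = 2 := by
    rw [← hf]
    exact (Submodule.equivMapOfInjective x hxinj _).finrank_eq.symm
  have hQn : NondegOn B Q := by
    rintro _ ⟨w, hw, rfl⟩ hne
    have hw0 : w ≠ 0 := by
      rintro rfl
      simp at hne
    obtain ⟨r, hr, hr'⟩ := hn w hw hw0
    exact ⟨x r, Submodule.mem_map_of_mem hr, by rwa [hiso]⟩
  have hQP : Q.map x = P := by
    ext w
    simp only [Q, Submodule.mem_map, exists_exists_and_eq_and, hx, one_smul]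
    constructor
    · rintro ⟨a, ha, rfl⟩
      exact ha
    · intro hw
      exact ⟨w, hw, rfl⟩
  have hPQ : ∀ a ∈ P, ∀ b ∈ Q, B a b = 0 := by
    rintro a ha _ ⟨b, hb, rfl⟩
    exact horth a ha b hb
  have hQP' : ∀ a ∈ Q, ∀ b ∈ P, B a b = 0 := by
    intro a ha b hb
    rw [antisymm hB, hPQ b hb a ha, neg_zero]
  have hdPQ : Disjoint P Q := by
    rw [Submodule.disjoint_def]
    intro w hwP hwQ
    by_contra hne
    obtain ⟨r, hr, hr'⟩ := hn w hwP hne
    exact hr' (hQP' w hwQ r hr)
  have hPneQ : P ≠ Q := by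
    intro h
    have h1 := disjoint_iff.1 hdPQ
    rw [← h, inf_idem] at h1
    rw [h1] at hf
    simp at hf
  have hTn : NondegOn B (P ⊔ Q) := by
    intro w hw hw0
    obtain ⟨a, ha, b, hb, rfl⟩ := Submodule.mem_sup.1 hw
    by_cases ha0 : a = 0
    · subst ha0
      rw [zero_add] at hw0 ⊢
      obtain ⟨r, hr, hr'⟩ := hQn b hb hw0
      exact ⟨r, Submodule.mem_sup_right hr, hr'⟩
    · obtain ⟨r, hr, hr'⟩ := hn a ha ha0
      refine ⟨r, Submodule.mem_sup_left hr, ?_⟩
      rw [map_add, LinearMap.add_apply, hQP' b hb r hr, add_zero]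
      exact hr'
  have hTW : P ⊔ Q ≤ W := by
    refine sup_le hPW ?_
    rintro _ ⟨a, ha, rfl⟩
    exact hW a (hPW ha)
  have hTx : ∀ w ∈ P ⊔ Q, x w ∈ P ⊔ Q := by
    intro w hw
    obtain ⟨a, ha, b, hb, rfl⟩ := Submodule.mem_sup.1 hw
    rw [map_add]
    refine Submodule.add_mem _ (Submodule.mem_sup_right (Submodule.mem_map_of_mem ha))
      (Submodule.mem_sup_left ?_)
    rw [← hQP]
    exact Submodule.mem_map_of_mem hb
  have hT0 : P ⊔ Q ≠ ⊥ := by
    intro h
    have h1 : P = ⊥ := le_bot_iff.1 (h ▸ le_sup_left)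
    rw [h1] at hf
    simp at hf
  refine hstep (P ⊔ Q) {P, Q} hT0 hTW hTn hTx ?_ ?_ ?_ ?_ ?_
  · intro R hR
    rw [mem_insert, mem_singleton] at hR
    rcases hR with rfl | rfl
    · exact ⟨hf, hn⟩
    · exact ⟨hQf, hQn⟩
  · rw [Finset.supIndep_pair hPneQ]
    exact hdPQ
  · rw [Finset.sup_insert, Finset.sup_singleton]
    rfl
  · intro R hR
    rw [mem_insert, mem_singleton] at hR
    rcases hR with rfl | rfl
    · simp [Q]
    · rw [hQP]
      simp
  · intro R hR S hS hne a ha b hb
    rw [mem_insert, mem_singleton] at hR hS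
    rcases hR with rfl | rfl
    · rcases hS with rfl | rfl
      · exact absurd rfl hne
      · exact hPQ a ha b hb
    · rcases hS with rfl | rfl
      · exact hQP' a ha b hb
      · exact absurd rfl hne

/-- The final form: orthogonal decompositions permuted by `x`. -/
theorem exists_orth_decomp (hV : NondegOn B (⊤ : Submodule F V)) (a t : ℕ) (ha : 1 ≤ a)
    (hdim : finrank F V = 2 * (a * t)) :
    ∃ (D : Fin t → Submodule F V) (σ : Equiv.Perm (Fin t)), (∀ j, finrank F (D j) = a * 2) ∧
      iSupIndep D ∧ iSup D = ⊤ ∧ (∀ j, (D j).map x = D (σ j)) ∧ (∀ j, NondegOn B (D j)) ∧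
      (∀ j j', j ≠ j' → ∀ u ∈ D j, ∀ v ∈ D j', B u v = 0) := by
  classical
  obtain ⟨PP, h1, h2, h3, h4, h5⟩ := planes_normal_form hB hz hx hiso _ (⊤ : Submodule F V) rfl
    (fun _ _ => trivial) hV
  let L : PP → Submodule F V := fun i => i.1
  have hLind : iSupIndep L := h2.independent
  have hLtop : ⨆ i, L i = ⊤ := by
    rw [eq_top_iff, ← h3]
    refine Finset.sup_le fun M hM => ?_
    exact le_iSup L ⟨M, hM⟩
  have hcard : Fintype.card PP = a * t := by
    have h6 := Cfsg.Agent.Lib.BlockPerm.finrank_finset_sup L hLind Finset.univ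
    rw [Finset.sup_univ_eq_iSup, hLtop, finrank_top, hdim,
      Finset.sum_congr rfl (fun i _ => (h1 i.1 i.2).1), Finset.sum_const,
      Finset.card_univ, smul_eq_mul] at h6
    omega
  let π : PP → PP := fun i => ⟨i.1.map x, h4 i.1 i.2⟩
  have hπ : ∀ i, π (π i) = i := by
    intro i
    apply Subtype.ext
    change (i.1.map x).map x = i.1
    ext w
    simp only [Submodule.mem_map, exists_exists_and_eq_and]
    constructor
    · rintro ⟨y, hy, rfl⟩
      rw [hx]
      exact i.1.smul_mem _ hy
    · intro hw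
      refine ⟨z⁻¹ • w, i.1.smul_mem _ hw, ?_⟩
      rw [hx, smul_smul, mul_inv_cancel₀ hz, one_smul]
  obtain ⟨f, σ, D, hD0, hD1, hD2, hD3, hD4⟩ := Cfsg.Agent.Lib.BlockPerm.exists_decomp L hLind hLtop 2
    (fun i => (h1 i.1 i.2).1) x hπ (fun _ => rfl) a ha t hcard
  have hLorth : ∀ i j : PP, i ≠ j → ∀ u ∈ L i, ∀ v ∈ L j, B u v = 0 := by
    intro i j hij u hu v hv
    exact h5 i.1 i.2 j.1 j.2 (fun h => hij (Subtype.ext h)) u hu v hv
  refine ⟨D, σ, hD1, hD2, hD3, hD4, ?_, ?_⟩
  · intro j
    rw [hD0]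
    exact sup_nondeg hB L _ (fun i _ => (h1 i.1 i.2).2.2) (fun i _ i' _ hne => hLorth i i' hne)
  · intro j j' hne u hu v hv
    rw [hD0] at hu hv
    refine sup_orth L _ _ ?_ u hu v hv
    intro i hi i' hi'
    refine hLorth i i' ?_
    rintro rfl
    simp only [mem_filter, mem_univ, true_and] at hi hi'
    exact hne (hi.symm.trans hi')

end Cfsg.Agent.Lib.SympPlanes
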