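import Mathlib
import Cfsg.Agent.Lib.SympWitt

/-!
# The symplectic group is primitive on points
-/

set_option autoImplicit false
set_option linter.unusedSectionVars false
set_option linter.unusedSimpArgs false

namespace Cfsg.Agent.Lib.SympPrim

open Matrix Cfsg Cfsg.Agent.Lib.SympForm Cfsg.Agent.Lib.WittForms Cfsg.Agent.Lib.SympWitt
open scoped LinearAlgebra.Projectivization Pointwise

variable {F : Type*} [Field F] {m : ℕ}


/-- From the symplectic group of Mathlib to `spGL`. -/
def toSpGL (A : symplecticGroup (Fin m) F) : ↥(spGL m F) :=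
  ⟨⟨A.1, (A⁻¹ : symplecticGroup (Fin m) F).1, by
      have := congrArg Subtype.val (mul_inv_cancel A)
      exact this, by
      have := congrArg Subtype.val (inv_mul_cancel A)
      exact this⟩, fun u v => (mem_symplecticGroup_iff_preserves _).1 A.2 u v⟩

theorem toSpGL_smul (A : symplecticGroup (Fin m) F) (v : Fin m ⊕ Fin m → F) :
    toSpGL A • v = (A : Matrix (Fin m ⊕ Fin m) (Fin m ⊕ Fin m) F) *ᵥ v := rfl

theorem smul_mk' (A : symplecticGroup (Fin m) F) {v w : Fin m ⊕ Fin m → F} (hv : v ≠ 0) (hw : w ≠ 0)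
    (h : (A : Matrix (Fin m ⊕ Fin m) (Fin m ⊕ Fin m) F) *ᵥ v = w) :
    toSpGL A • Projectivization.mk F v hv = Projectivization.mk F w hw := by
  subst h
  rfl

theorem mk_eq_of_smul {v w : Fin m ⊕ Fin m → F} (hv : v ≠ 0) {c : F} (hc : c ≠ 0) (hw : w = c • v) (hw0 : w ≠ 0) :
    Projectivization.mk F w hw0 = Projectivization.mk F v hv := by
  rw [Projectivization.mk_eq_mk_iff']
  exact ⟨c, hw.symm⟩

theorem indep_pair {x y : Fin m ⊕ Fin m → F} (hx : x ≠ 0) (h : y ∉ Submodule.span F {x}) : LinearIndependent F ![x, y] := by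
  rw [LinearIndependent.pair_iff]
  intro s t hst
  have ht : t = 0 := by
    by_contra ht
    apply h
    rw [Submodule.mem_span_singleton]
    refine ⟨-(t⁻¹ * s), ?_⟩
    have : t • y = - (s • x) := by
      rw [eq_neg_iff_add_eq_zero, add_comm]
      exact hst
    calc -(t⁻¹ * s) • x = t⁻¹ • (-(s • x)) := by rw [neg_smul, mul_smul, smul_neg]
      _ = t⁻¹ • (t • y) := by rw [this]
      _ = y := by rw [smul_smul, inv_mul_cancel₀ ht, one_smul]
  subst ht
  rw [zero_smul, add_zero] at hst
  exact ⟨(smul_eq_zero.1 hst).resolve_right hx, rfl⟩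

/-- Two vectors with `ω(x, y) ≠ 0` are independent. -/
theorem notMem_span_of_form {x y : Fin m ⊕ Fin m → F} (h : sympForm m F x y ≠ 0) : y ∉ Submodule.span F {x} := by
  intro hy
  obtain ⟨c, rfl⟩ := Submodule.mem_span_singleton.1 hy
  rw [sympForm_smul_right, sympForm_self, mul_zero] at h
  exact h rfl

theorem ne_zero_of_form {x y : Fin m ⊕ Fin m → F} (h : sympForm m F x y ≠ 0) : y ≠ 0 := by
  rintro rfl
  rw [sympForm_zero_right] at h
  exact h rfl

theorem ne_zero_of_form' {x y : Fin m ⊕ Fin m → F} (h : sympForm m F x y ≠ 0) : x ≠ 0 := by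
  rintro rfl
  rw [sympForm_zero_left] at h
  exact h rfl

/-- Existence of an element fixing `x` and sending `y` to `z`, when the forms agree. -/
theorem exists_fix_map {x y z : Fin m ⊕ Fin m → F} (hx : x ≠ 0) (hy : y ∉ Submodule.span F {x}) (hz : z ∉ Submodule.span F {x})
    (h : sympForm m F x y = sympForm m F x z) :
    ∃ A : symplecticGroup (Fin m) F, (A : Matrix (Fin m ⊕ Fin m) (Fin m ⊕ Fin m) F) *ᵥ x = x ∧
      (A : Matrix (Fin m ⊕ Fin m) (Fin m ⊕ Fin m) F) *ᵥ y = z := by
  obtain ⟨A, hA⟩ := exists_sp_tuple (m := m) (F := F) ![x, y] ![x, z] (indep_pair hx hy) (indep_pair hx hz) (by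
    intro i j
    fin_cases i <;> fin_cases j
    · rfl
    · exact h
    · change sympForm m F y x = sympForm m F z x
      rw [sympForm_antisymm y, sympForm_antisymm z, h]
    · change sympForm m F y y = sympForm m F z z
      rw [sympForm_self, sympForm_self])
  exact ⟨A, hA 0, hA 1⟩

/-- A vector with prescribed form values on two independent vectors. -/
theorem exists_partner {x y : Fin m ⊕ Fin m → F} (h : y ∉ Submodule.span F {x}) (a : F) :
    ∃ z : Fin m ⊕ Fin m → F, sympForm m F y z = a ∧ sympForm m F x z = 0 := by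
  obtain ⟨z, h1, h2⟩ := bilin_exists_partner (B := sympB m F) sympB_nondeg h a
  exact ⟨z, h1, h2 x (Submodule.mem_span_singleton_self x)⟩

section block

theorem block_step {B : Set (ℙ F (Fin m ⊕ Fin m → F))} (hB : MulAction.IsBlock (↥(spGL m F)) B) {x y z : Fin m ⊕ Fin m → F} {hx : x ≠ 0} {hy : y ≠ 0} {hz : z ≠ 0}
    (hxB : Projectivization.mk F x hx ∈ B) (hyB : Projectivization.mk F y hy ∈ B)
    (A : symplecticGroup (Fin m) F) (h1 : (A : Matrix (Fin m ⊕ Fin m) (Fin m ⊕ Fin m) F) *ᵥ x = x)
    (h2 : (A : Matrix (Fin m ⊕ Fin m) (Fin m ⊕ Fin m) F) *ᵥ y = z) :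
    Projectivization.mk F z hz ∈ B := by
  have h3 : toSpGL A • Projectivization.mk F x hx = Projectivization.mk F x hx := smul_mk' A hx hx h1
  have h4 : toSpGL A • Projectivization.mk F y hy = Projectivization.mk F z hz := smul_mk' A hy hz h2
  have h5 : toSpGL A • B = B := MulAction.isBlock_iff_smul_eq_of_mem.1 hB hxB (by rw [h3]; exact hxB)
  rw [← h5, ← h4]
  exact Set.smul_mem_smul_set hyB

/-- Non-orthogonal points. -/
theorem block_nonorth {B : Set (ℙ F (Fin m ⊕ Fin m → F))} (hB : MulAction.IsBlock (↥(spGL m F)) B) {x y : Fin m ⊕ Fin m → F} (hxy : sympForm m F x y ≠ 0) (hxB : Projectivization.mk F x (ne_zero_of_form' hxy) ∈ B)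
    (hyB : Projectivization.mk F y (ne_zero_of_form hxy) ∈ B) {z : Fin m ⊕ Fin m → F} (hxz : sympForm m F x z ≠ 0) :
    Projectivization.mk F z (ne_zero_of_form hxz) ∈ B := by
  set a := sympForm m F x y
  set b := sympForm m F x z
  have ha : a ≠ 0 := hxy
  have hb : b ≠ 0 := hxz
  have hx := ne_zero_of_form' hxy
  -- rescale
  have h1 : sympForm m F x (a⁻¹ • y) = 1 := by
    rw [sympForm_smul_right]
    exact inv_mul_cancel₀ ha
  have h2 : sympForm m F x (b⁻¹ • z) = 1 := by
    rw [sympForm_smul_right]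
    exact inv_mul_cancel₀ hb
  have hy' : a⁻¹ • y ≠ 0 := ne_zero_of_form (x := x) (by rw [h1]; exact one_ne_zero)
  have hz' : b⁻¹ • z ≠ 0 := ne_zero_of_form (x := x) (by rw [h2]; exact one_ne_zero)
  obtain ⟨A, hA1, hA2⟩ := exists_fix_map hx (notMem_span_of_form (x := x) (by rw [h1]; exact one_ne_zero))
    (notMem_span_of_form (x := x) (by rw [h2]; exact one_ne_zero)) (h1.trans h2.symm)
  have hyB' : Projectivization.mk F (a⁻¹ • y) hy' ∈ B := by
    rw [mk_eq_of_smul (ne_zero_of_form hxy) (inv_ne_zero ha) rfl hy']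
    exact hyB
  have h3 := block_step hB (hz := hz') hxB hyB' A hA1 hA2
  rw [mk_eq_of_smul (ne_zero_of_form hxz) (inv_ne_zero hb) rfl hz'] at h3
  exact h3

/-- Orthogonal points. -/
theorem block_orth {B : Set (ℙ F (Fin m ⊕ Fin m → F))} (hB : MulAction.IsBlock (↥(spGL m F)) B) {x y z : Fin m ⊕ Fin m → F} (hx : x ≠ 0) (hy0 : y ≠ 0) (hz0 : z ≠ 0) (hy : y ∉ Submodule.span F {x})
    (hz : z ∉ Submodule.span F {x}) (hxy : sympForm m F x y = 0) (hxz : sympForm m F x z = 0)
    (hxB : Projectivization.mk F x hx ∈ B) (hyB : Projectivization.mk F y hy0 ∈ B) :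
    Projectivization.mk F z hz0 ∈ B := by
  obtain ⟨A, hA1, hA2⟩ := exists_fix_map hx hy hz (hxy.trans hxz.symm)
  exact block_step hB hxB hyB A hA1 hA2

/-- A block containing two distinct points is everything. -/
theorem block_eq_univ {B : Set (ℙ F (Fin m ⊕ Fin m → F))} (hB : MulAction.IsBlock (↥(spGL m F)) B) {x y : Fin m ⊕ Fin m → F} (hx : x ≠ 0) (hy0 : y ≠ 0) (hy : y ∉ Submodule.span F {x})
    (hxB : Projectivization.mk F x hx ∈ B) (hyB : Projectivization.mk F y hy0 ∈ B) : B = Set.univ := by
  -- a non-orthogonal pair in `B`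
  obtain ⟨x', y', hxy', hx'B, hy'B⟩ : ∃ x' y' : Fin m ⊕ Fin m → F, ∃ hxy' : sympForm m F x' y' ≠ 0,
      Projectivization.mk F x' (ne_zero_of_form' hxy') ∈ B ∧ Projectivization.mk F y' (ne_zero_of_form hxy') ∈ B := by
    by_cases hxy : sympForm m F x y = 0
    · obtain ⟨z, hz1, hz2⟩ := exists_partner hy (1 : F)
      have hyz : sympForm m F y z ≠ 0 := by rw [hz1]; exact one_ne_zero
      have hzx : z ∉ Submodule.span F {x} := by
        intro hzs
        obtain ⟨c, rfl⟩ := Submodule.mem_span_singleton.1 hzs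
        rw [sympForm_smul_right, sympForm_antisymm, hxy, neg_zero, mul_zero] at hz1
        exact zero_ne_one hz1
      exact ⟨y, z, hyz, hyB, block_orth hB hx hy0 _ hy hzx hxy hz2 hxB hyB⟩
    · exact ⟨x, y, hxy, hxB, hyB⟩
  rw [Set.eq_univ_iff_forall]
  intro p
  induction p using Projectivization.ind with
  | h w hw =>
    by_cases hx'w : sympForm m F x' w = 0
    · by_cases hws : w ∈ Submodule.span F {x'}
      · obtain ⟨c, hc⟩ := Submodule.mem_span_singleton.1 hws
        have hc0 : c ≠ 0 := by
          rintro rfl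
          rw [zero_smul] at hc
          exact hw hc.symm
        rw [mk_eq_of_smul (ne_zero_of_form' hxy') hc0 hc.symm hw]
        exact hx'B
      · -- `t` with `ω(x', t) ≠ 0`, `ω(w, t) ≠ 0`
        have hx'ws : x' ∉ Submodule.span F {w} := by
          intro hxs
          obtain ⟨c, hc⟩ := Submodule.mem_span_singleton.1 hxs
          have hc0 : c ≠ 0 := by
            rintro rfl
            rw [zero_smul] at hc
            exact (ne_zero_of_form' hxy') hc.symm
          apply hws
          rw [Submodule.mem_span_singleton]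
          exact ⟨c⁻¹, by rw [← hc, smul_smul, inv_mul_cancel₀ hc0, one_smul]⟩
        obtain ⟨t₁, h1, h2⟩ := exists_partner hws (1 : F)
        obtain ⟨t₂, h3, h4⟩ := exists_partner hx'ws (1 : F)
        -- h1 : ω(w, t₁) = 1, h2 : ω(x', t₁) = 0, h3 : ω(x', t₂) = 1, h4 : ω(w, t₂) = 0
        have hx't : sympForm m F x' (t₁ + t₂) ≠ 0 := by
          rw [sympForm_add_right, h2, h3, zero_add]
          exact one_ne_zero
        have hwt : sympForm m F w (t₁ + t₂) ≠ 0 := by
          rw [sympForm_add_right, h1, h4, add_zero]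
          exact one_ne_zero
        have htB := block_nonorth hB hxy' hx'B hy'B hx't
        have htx' : sympForm m F (t₁ + t₂) x' ≠ 0 := by
          rw [sympForm_antisymm]
          exact neg_ne_zero.2 hx't
        have htw : sympForm m F (t₁ + t₂) w ≠ 0 := by
          rw [sympForm_antisymm]
          exact neg_ne_zero.2 hwt
        exact block_nonorth hB htx' htB hx'B htw
    · exact block_nonorth hB hxy' hx'B hy'B hx'w

end block

/-- Primitivity. -/
theorem preprimitive (hm : 1 ≤ m) : MulAction.IsPreprimitive ↥(spGL m F) (ℙ F (Fin m ⊕ Fin m → F)) := by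
  classical
  have hne : (Pi.single (Sum.inl ⟨0, hm⟩) 1 : Fin m ⊕ Fin m → F) ≠ 0 := by
    intro h
    have := congrFun h (Sum.inl ⟨0, hm⟩)
    simp at this
  have htrans : MulAction.IsPretransitive ↥(spGL m F) (ℙ F (Fin m ⊕ Fin m → F)) := by
    constructor
    intro p p'
    induction p using Projectivization.ind with
    | h u hu =>
      induction p' using Projectivization.ind with
      | h w hw =>
        obtain ⟨A, hA⟩ := exists_sp_tuple (m := m) (F := F) ![u] ![w]
          (LinearIndependent.of_subsingleton 0 (by simpa using hu))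
          (LinearIndependent.of_subsingleton 0 (by simpa using hw)) (by
            intro i j
            fin_cases i
            fin_cases j
            change sympForm m F u u = sympForm m F w w
            rw [sympForm_self, sympForm_self])
        exact ⟨toSpGL A, smul_mk' A hu hw (hA 0)⟩
  refine MulAction.IsPreprimitive.of_isTrivialBlock_base (Projectivization.mk F _ hne) ?_
  intro B ha hB
  by_cases hsub : B.Subsingleton
  · exact Or.inl hsub
  · right
    rw [Set.not_subsingleton_iff] at hsub
    obtain ⟨p, hp, q, hq, hpq⟩ := hsub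
    induction p using Projectivization.ind with
    | h u hu =>
      induction q using Projectivization.ind with
      | h w hw =>
        refine block_eq_univ hB hu hw ?_ hp hq
        intro hws
        obtain ⟨c, hc⟩ := Submodule.mem_span_singleton.1 hws
        have hc0 : c ≠ 0 := by
          rintro rfl
          rw [zero_smul] at hc
          exact hw hc.symm
        exact hpq (mk_eq_of_smul hu hc0 hc.symm hw).symm

end Cfsg.Agent.Lib.SympPrim
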