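-- Shared library: the Suzuki groups of the definitions over isomorphic fields are isomorphic.
import Mathlib
import Cfsg.Prelude.Def_Sz

set_option autoImplicit false

namespace Cfsg.Agent.Lib.SzFieldTransfer

open Cfsg Matrix

variable {F K : Type*} [Field F] [Field K]

/-- The isomorphism of the general linear groups. -/
noncomputable def glE (φ : F ≃+* K) : GL (Fin 4) F ≃* GL (Fin 4) K :=
  Units.mapEquiv (RingEquiv.mapMatrix φ).toMulEquiv

theorem glE_val (φ : F ≃+* K) (g : GL (Fin 4) F) :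
    ((glE φ g : GL (Fin 4) K) : Matrix (Fin 4) (Fin 4) K) = (g : Matrix (Fin 4) (Fin 4) F).map φ := rfl

theorem glE_symm_apply (φ : F ≃+* K) (h : GL (Fin 4) K) : glE φ (glE φ.symm h) = h := by
  apply Units.ext
  rw [glE_val, glE_val]
  ext i j
  simp

theorem star_map (φ : F ≃+* K) (X : Matrix (Fin 4) (Fin 4) F) : Lie.star4 (X.map φ) = (Lie.star4 X).map φ := by
  ext i j
  simp [Lie.star4, map_sub, map_mul]

theorem altForm_map (φ : F ≃+* K) (a b : Fin 4 → F) :
    Lie.altForm4 (fun i => φ (a i)) (fun i => φ (b i)) = φ (Lie.altForm4 a b) := by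
  simp [Lie.altForm4, map_add, map_mul]

theorem mulVec_map (φ : F ≃+* K) (X : Matrix (Fin 4) (Fin 4) F) (u : Fin 4 → K) :
    (X.map φ).mulVec u = fun i => φ ((X.mulVec (fun j => φ.symm (u j))) i) := by
  funext i
  simp [Matrix.mulVec, dotProduct, Fin.sum_univ_four, map_add, map_mul]

theorem Sp_map (φ : F ≃+* K) {g : GL (Fin 4) F} (h : g ∈ Lie.Sp4 F) : glE φ g ∈ Lie.Sp4 K := by
  intro u v
  have h1 := h (fun j => φ.symm (u j)) (fun j => φ.symm (v j))
  have h2 : Lie.altForm4 ((g : Matrix (Fin 4) (Fin 4) F).mulVec (fun j => φ.symm (u j)))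
      ((g : Matrix (Fin 4) (Fin 4) F).mulVec (fun j => φ.symm (v j))) =
      Lie.altForm4 (fun j => φ.symm (u j)) (fun j => φ.symm (v j)) := h1
  show Lie.altForm4 (((g : Matrix (Fin 4) (Fin 4) F).map φ).mulVec u) (((g : Matrix (Fin 4) (Fin 4) F).map φ).mulVec v) = _
  rw [mulVec_map, mulVec_map, altForm_map, h2, ← altForm_map]
  simp

/-- The generating set. -/
def szS (F : Type*) [Field F] (e : ℕ) : Set (GL (Fin 4) F) :=
  {g | g ∈ Lie.Sp4 F ∧ Lie.star4 (g : Matrix (Fin 4) (Fin 4) F) = (g : Matrix (Fin 4) (Fin 4) F).map (fun x => x ^ e)}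

theorem szS_map (φ : F ≃+* K) (e : ℕ) {g : GL (Fin 4) F} (h : g ∈ szS F e) : glE φ g ∈ szS K e := by
  refine ⟨Sp_map φ h.1, ?_⟩
  rw [glE_val, star_map, h.2]
  ext i j
  simp [map_pow]

theorem Sz_map (φ : F ≃+* K) (e : ℕ) : (Lie.Sz F e).map (glE φ).toMonoidHom = Lie.Sz K e := by
  show (Subgroup.closure (szS F e)).map (glE φ).toMonoidHom = Subgroup.closure (szS K e)
  rw [MonoidHom.map_closure]
  congr 1
  ext h
  constructor
  · rintro ⟨g, hg, rfl⟩
    exact szS_map φ e hg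
  · intro hh
    exact ⟨glE φ.symm h, szS_map φ.symm e hh, glE_symm_apply φ h⟩

/-- The isomorphism of the Suzuki groups. -/
noncomputable def szE (φ : F ≃+* K) (e : ℕ) : ↥(Lie.Sz F e) ≃* ↥(Lie.Sz K e) :=
  ((glE φ).subgroupMap (Lie.Sz F e)).trans (MulEquiv.subgroupCongr (Sz_map φ e))

end Cfsg.Agent.Lib.SzFieldTransfer
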