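-- Shared library: the Schur multiplier of Sz(8): existence of the cover and the bound on kernels.
import Mathlib
import Cfsg.Agent.Lib.Sz8PackData
import Cfsg.Agent.Lib.Sz8LoopData
import Cfsg.Agent.Lib.Sz8TcData
import Cfsg.Agent.Lib.Sz8RepData
import Cfsg.Agent.Lib.SchurPackC
import Cfsg.Agent.Lib.SchurFib
import Cfsg.Agent.Lib.SchurAsm
import Cfsg.Agent.Lib.SchurLoop
import Cfsg.Agent.Lib.SchurRep
import Cfsg.Agent.Lib.SuzukiIso2
import Cfsg.Agent.Lib.SzFieldTransfer

set_option autoImplicit false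
set_option maxRecDepth 100000
set_option linter.unusedVariables false
set_option linter.unusedSectionVars false

namespace Cfsg.Agent.Lib.Sz8Mult

open Cfsg Matrix Cfsg.Agent.Lib.Sz8 Cfsg.Agent.Lib.Sz8Rep Cfsg.Agent.Lib.Sz8RepData
  Cfsg.Agent.Lib.SchurCoset46 Cfsg.Agent.Lib.SchurPack Cfsg.Agent.Lib.SchurPackC Cfsg.Agent.Lib.SchurRep

abbrev G0 := ↥(Lie.Sz K8 4)

instance hypK8 : Cfsg.Agent.Lib.Suzuki.SzHyp K8 1 := ⟨le_rfl, by rw [K8.card_K8]; norm_num⟩

instance charK8 : CharP K8 2 := Cfsg.Agent.Lib.Suzuki.charP_two K8 1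

theorem finite_G0 : Finite G0 := by
  have e := Cfsg.Agent.Lib.SuzukiIso.szEquiv (F := K8) (m := 1)
  exact Finite.of_equiv _ e.toEquiv

instance : Finite G0 := finite_G0

theorem card_G0 : Nat.card G0 = 29120 := by
  have h := (Cfsg.Agent.Lib.SuzukiIso2.main (F := K8) (m := 1)).1
  have h1 : Nat.card ↥(Lie.Sz K8 (2 ^ (1 + 1))) = Nat.card G0 := rfl
  rw [h1, K8.card_K8] at h
  rw [h]
  norm_num

/-- The representation relation. -/
def Rp (g : G0) (x : M4) : Prop := (((g : GL (Fin 4) K8) : Matrix (Fin 4) (Fin 4) K8)) = toMat4 x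

theorem Rp_mul {g h : G0} {x y : M4} (h1 : Rp g x) (h2 : Rp h y) : Rp (g * h) (mul4 x y) := by
  unfold Rp at *
  rw [toMat4_mul, ← h1, ← h2]
  rfl

theorem Rp_inj {g h : G0} {x : M4} (h1 : Rp g x) (h2 : Rp h x) : g = h := by
  apply Subtype.ext
  apply Units.ext
  rw [h1, h2]

theorem Rp_fun {g : G0} {x y : M4} (h1 : Rp g x) (h2 : Rp g y) : x = y :=
  toMat4_inj (h1.symm.trans h2)

theorem Rp_one : Rp 1 one4 := by
  unfold Rp
  rw [toMat4_one]
  rfl

/-- The inverse of a represented element. -/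
theorem Rp_inv {g : G0} {x y : M4} (h1 : Rp g x) (h2 : mul4 x y = one4) : Rp g⁻¹ y := by
  have h3 : Rp (g⁻¹ * g) one4 := by rw [inv_mul_cancel]; exact Rp_one
  unfold Rp at *
  have h4 : (((g⁻¹ : G0) : GL (Fin 4) K8) : Matrix (Fin 4) (Fin 4) K8) * toMat4 x = 1 := by
    rw [← h1]
    have := h3
    rw [toMat4_one] at this
    exact this
  calc (((g⁻¹ : G0) : GL (Fin 4) K8) : Matrix (Fin 4) (Fin 4) K8)
      = (((g⁻¹ : G0) : GL (Fin 4) K8) : Matrix (Fin 4) (Fin 4) K8) * toMat4 one4 := by rw [toMat4_one, Matrix.mul_one]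
    _ = (((g⁻¹ : G0) : GL (Fin 4) K8) : Matrix (Fin 4) (Fin 4) K8) * (toMat4 x * toMat4 y) := by rw [← toMat4_mul, h2]
    _ = _ := by rw [← Matrix.mul_assoc, h4, Matrix.one_mul]

/-- An element of the group from its matrix. -/
def mkU (x y : M4) (h1 : mul4 x y = one4) (h2 : mul4 y x = one4) : GL (Fin 4) K8 :=
  ⟨toMat4 x, toMat4 y, by rw [← toMat4_mul, h1, toMat4_one], by rw [← toMat4_mul, h2, toMat4_one]⟩

theorem l0_inv : mul4 (lM 0) (lM 1) = one4 := by decide +kernel
theorem l1_inv : mul4 (lM 1) (lM 0) = one4 := by decide +kernel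
theorem l2_inv : mul4 (lM 2) (lM 3) = one4 := by decide +kernel
theorem l3_inv : mul4 (lM 3) (lM 2) = one4 := by decide +kernel

theorem form0 : (toMat4 (lM 0)).transpose * suzukiForm K8 * toMat4 (lM 0) = suzukiForm K8 := by decide +kernel
theorem form2 : (toMat4 (lM 2)).transpose * suzukiForm K8 * toMat4 (lM 2) = suzukiForm K8 := by decide +kernel
theorem star0 : Lie.star4 (toMat4 (lM 0)) = (toMat4 (lM 0)).map (fun x => x ^ 4) := by decide +kernel
theorem star2 : Lie.star4 (toMat4 (lM 2)) = (toMat4 (lM 2)).map (fun x => x ^ 4) := by decide +kernel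

/-- The first generator. -/
def s₀ : G0 := ⟨mkU (lM 0) (lM 1) l0_inv l1_inv, Subgroup.subset_closure
  ⟨Cfsg.Agent.Lib.SuzukiIso.mem_Sp4_of_form _ form0, star0⟩⟩

/-- The second generator. -/
def s₁ : G0 := ⟨mkU (lM 2) (lM 3) l2_inv l3_inv, Subgroup.subset_closure
  ⟨Cfsg.Agent.Lib.SuzukiIso.mem_Sp4_of_form _ form2, star2⟩⟩

/-- The generators. -/
def sG : ℕ → G0
  | 0 => s₀
  | _ => s₁

theorem Rp_s₀ : Rp s₀ (lM 0) := rfl
theorem Rp_s₁ : Rp s₁ (lM 2) := rfl

theorem Rp_lett : ∀ l, l < 4 → Rp (lett sG l) (lM l) := by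
  intro l hl
  interval_cases l
  · exact Rp_s₀
  · exact Rp_inv Rp_s₀ l0_inv
  · exact Rp_s₁
  · exact Rp_inv Rp_s₁ l2_inv

/-- The value of a word. -/
def evM (w : List ℕ) : M4 := w.foldr (fun l y => mul4 (lM l) y) one4

/-- The test for a relator. -/
def relChk (w : List ℕ) : Bool := w.all (fun l => Nat.blt l 4) && decide (evM w = one4)

theorem rel_of_chk {w : List ℕ} (h : relChk w = true) : evW sG w = 1 := by
  simp only [relChk, Bool.and_eq_true, List.all_eq_true, decide_eq_true_eq] at h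
  obtain ⟨h1, h2⟩ := h
  have h3 := evW_rep (Rp := Rp) (mulX := mul4) (oneX := one4) (lM := lM) (s := sG) Rp_mul Rp_one (L := 4) Rp_lett w
    (fun l hl => by simpa using h1 l hl)
  have h4 : evM w = one4 := h2
  unfold evM at h4
  rw [h4] at h3
  exact Rp_inj h3 Rp_one

theorem relsL_chk : Sz8LoopData.relsL.all relChk = true := by decide +kernel

theorem relsP_chk : Sz8PackData.relsL.all relChk = true := by decide +kernel

theorem all_getD {α : Type*} {L : List (List α)} {p : List α → Bool} (h : L.all p = true) {j : ℕ} (hj : j < L.length) :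
    p (L.getD j []) = true := by
  rw [List.getD_eq_getElem _ _ hj]
  exact List.all_eq_true.mp h _ (List.getElem_mem hj)

theorem s₀_pow : s₀ ^ 13 = 1 := by
  have h := rel_of_chk (w := List.replicate 13 0) (by decide +kernel)
  have e : evW sG (List.replicate 13 0) = s₀ ^ 13 := by
    have h0 : lett sG 0 = s₀ := lett_even sG 0
    simp only [List.replicate_succ, List.replicate_zero, evW, h0, mul_one]
    simp [pow_succ, mul_assoc]
  rwa [e] at h

theorem s₀_ne : s₀ ≠ 1 := by
  intro h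
  have h1 : Rp s₀ one4 := by rw [h]; exact Rp_one
  have h2 := Rp_fun Rp_s₀ h1
  revert h2
  decide +kernel

theorem order_s₀ : orderOf s₀ = 13 := by
  haveI : Fact (Nat.Prime 13) := ⟨by norm_num⟩
  exact orderOf_eq_prime s₀_pow s₀_ne

/-- The subgroup of order thirteen. -/
abbrev H13 : Subgroup G0 := Subgroup.zpowers s₀

theorem card_H13 : Nat.card H13 = 13 := by
  rw [Nat.card_zpowers, order_s₀]

/-- The powers. -/
theorem hM_pow : ∀ k, k < 13 → Rp (s₀ ^ k) (hM k) := by
  have h : (List.range 12).all (fun k => decide (hM (k + 1) = mul4 (hM k) (lM 0))) = true := by decide +kernel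
  simp only [List.all_eq_true, List.mem_range, decide_eq_true_eq] at h
  have h0 : hM 0 = one4 := by decide +kernel
  intro k
  induction k with
  | zero =>
    intro _
    rw [pow_zero, h0]
    exact Rp_one
  | succ k ih =>
    intro hk
    rw [pow_succ, h k (by omega)]
    exact Rp_mul (ih (by omega)) Rp_s₀

theorem tab : Tab Sz8PackData.cert.n Sz8PackData.cert.m Sz8PackData.cert.T Sz8PackData.cert.par :=
  CertP.tab_of_chk _ (by
    have h := Sz8PackData.cert_ok
    simp only [CertP.check, Bool.and_eq_true] at h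
    exact h.1.1.1.1.1.2)

/-- The representatives. -/
noncomputable def tG : ℕ → G0 := tOf sG Sz8PackData.cert.par

theorem chk_at : ∀ c, c < 2240 → chk c = true := by
  have h := chk_all
  simp only [List.all_eq_true, List.mem_range] at h
  exact h

theorem hM0 : tM 0 = one4 := by decide +kernel

theorem Rp_t : ∀ c, c < 2240 → Rp (tG c) (tM c) := by
  refine tOf_rep (Rp := Rp) (mulX := mul4) (lM := lM) tab Rp_mul ?_ Rp_lett ?_
  · rw [hM0]
    exact Rp_one
  · intro c hc hpos
    have h := chk_at c hc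
    simp only [chk, Bool.and_eq_true, Bool.or_eq_true, decide_eq_true_eq] at h
    rcases h.2 with h1 | h1
    · have := Nat.eq_of_beq_eq_true h1
      omega
    · exact h1.1

theorem t0 : tG 0 = 1 := tOf_zero _ _

theorem H_t : ∀ c, c < 2240 → tG c ∈ H13 → c = 0 := by
  intro c hc hm
  rcases Nat.eq_zero_or_pos c with h0 | hpos
  · exact h0
  exfalso
  obtain ⟨k, hk1, hk2⟩ := Finset.mem_image.mp ((mem_zpowers_iff_mem_range_orderOf (x := s₀) (y := tG c)).mp hm)
  have hk3 : k < 13 := by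
    rw [← order_s₀]
    simpa using hk1
  have h1 : Rp (tG c) (hM k) := by
    rw [← hk2]
    exact hM_pow k hk3
  have h2 := Rp_fun (Rp_t c hc) h1
  have h := chk_at c hc
  simp only [chk, Bool.and_eq_true, Bool.or_eq_true, decide_eq_true_eq, List.all_eq_true, List.mem_range,
    Bool.not_eq_true', decide_eq_false_iff_not] at h
  rcases h.2 with h3 | h3
  · have := Nat.eq_of_beq_eq_true h3
    omega
  · exact h3.2 k hk3 h2

theorem step_t : ∀ c, c < 2240 → ∀ i, i < 2 → tG c * sG i * (tG (Sz8PackData.cert.T c (2 * i)))⁻¹ ∈ H13 := by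
  intro c hc i hi
  have h := chk_at c hc
  simp only [chk, Bool.and_eq_true, Bool.or_eq_true, decide_eq_true_eq, Nat.blt_eq] at h
  obtain ⟨⟨⟨⟨h1, h2⟩, h3⟩, h4⟩, -⟩ := h
  have hT := fun l (hl : l < 2 * 2) => tab.T_lt c hc l hl
  have key : ∀ (l k : ℕ), l < 4 → k < 13 → mul4 (tM c) (lM l) = mul4 (hM k) (tM (Sz8PackData.cert.T c l)) →
      tG c * lett sG l * (tG (Sz8PackData.cert.T c l))⁻¹ ∈ H13 := by
    intro l k hl hk he
    have hd : Sz8PackData.cert.T c l < 2240 := hT l hl
    have h5 : Rp (tG c * lett sG l) (mul4 (tM c) (lM l)) := Rp_mul (Rp_t c hc) (Rp_lett l hl)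
    have h6 : Rp (s₀ ^ k * tG (Sz8PackData.cert.T c l)) (mul4 (hM k) (tM (Sz8PackData.cert.T c l))) :=
      Rp_mul (hM_pow k hk) (Rp_t _ hd)
    rw [he] at h5
    have h7 := Rp_inj h5 h6
    rw [h7]
    simpa using Subgroup.pow_mem _ (Subgroup.mem_zpowers s₀) k
  interval_cases i
  · exact key 0 _ (by norm_num) h1 h3
  · exact key 2 _ (by norm_num) h2 h4

theorem closure_sG : Subgroup.closure (sG '' Set.Iio 2) = ⊤ := by
  set L := Subgroup.closure (sG '' Set.Iio 2) with hL
  have hs : ∀ i, i < 2 → sG i ∈ L := fun i hi => Subgroup.subset_closure ⟨i, hi, rfl⟩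
  have hm : ∀ c, c < 2240 → tG c ∈ L := tOf_mem tab hs
  have hH : H13 ≤ L := by
    rw [Subgroup.zpowers_le]
    exact hs 0 (by norm_num)
  refine top_of_table (n := 2240) (t := tG) (H := H13) (by rw [card_G0, card_H13]) hH hm ?_
  exact coset_inj tab t0 H_t step_t

/-! ### The presentation -/

theorem relsEq : Sz8TcData.relsL = Sz8LoopData.relsL := by decide +kernel

/-- Any group generated by elements satisfying the relators has at most the order of the group. -/
theorem hcard (W : Type) [Group W] [Finite W] (x : ℕ → W) (hgen : Subgroup.closure (x '' Set.Iio Sz8LoopData.lcert.m) = ⊤)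
    (hrel : ∀ j, j < Sz8LoopData.lcert.R → evW x (Sz8LoopData.lcert.rels j) = 1) : Nat.card W ≤ Nat.card G0 := by
  have hrel' : ∀ r ∈ Sz8TcData.relsL, evW x r = 1 := by
    intro r hr
    rw [relsEq] at hr
    obtain ⟨j, hj, rfl⟩ := List.mem_iff_getElem.mp hr
    have h1 := hrel j hj
    have h2 : Sz8LoopData.lcert.rels j = Sz8LoopData.relsL[j] := List.getD_eq_getElem _ _ hj
    rwa [h2] at h1
  have hb : x 0 ^ 13 = 1 := by
    have h1 := hrel' (List.replicate 13 0) (by decide +kernel)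
    have h0 : lett x 0 = x 0 := lett_even x 0
    simp only [List.replicate_succ, List.replicate_zero, evW, h0, mul_one] at h1
    rw [← h1]
    simp [pow_succ, mul_assoc]
  set H := Subgroup.zpowers (x 0) with hH
  obtain ⟨h2, h3⟩ := Sz8TcData.index_le x hgen hrel' H (by
    intro a ha
    have : a = 0 := by simpa [Sz8TcData.baseL] using ha
    subst this
    rw [show lett x 0 = x 0 from lett_even x 0]
    exact Subgroup.mem_zpowers _)
  have h4 : Nat.card H ≤ 13 := by
    rw [hH, Nat.card_zpowers]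
    exact Nat.le_of_dvd (by norm_num) (orderOf_dvd_of_pow_eq_one hb)
  have h5 := Subgroup.card_mul_index H
  rw [card_G0, ← h5]
  calc Nat.card H * H.index ≤ 13 * 2240 := Nat.mul_le_mul h4 h3
    _ = 29120 := by norm_num

/-! ### Existence -/

/-- The target. -/
abbrev AT := Multiplicative (ZMod 2 × ZMod 2)

/-- The labels. -/
def τL : ℕ → AT
  | 0 => Multiplicative.ofAdd (1, 0)
  | _ => Multiplicative.ofAdd (0, 1)

theorem τL_pow (j : ℕ) : τL j ^ Sz8LoopData.lcert.M = 1 := by
  show τL j ^ 2 = 1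
  match j with
  | 0 => decide
  | n + 1 => exact (by decide : (Multiplicative.ofAdd ((0 : ZMod 2), (1 : ZMod 2)) : AT) ^ 2 = 1)

theorem τL_top : Subgroup.closure (τL '' Set.Iio Sz8LoopData.lcert.g) = ⊤ := by
  have h0 : τL 0 ∈ Subgroup.closure (τL '' Set.Iio Sz8LoopData.lcert.g) :=
    Subgroup.subset_closure ⟨0, by show 0 < 2; norm_num, rfl⟩
  have h1 : τL 1 ∈ Subgroup.closure (τL '' Set.Iio Sz8LoopData.lcert.g) :=
    Subgroup.subset_closure ⟨1, by show 1 < 2; norm_num, rfl⟩
  have key : ∀ x : AT, x = τL 0 ^ (Multiplicative.toAdd x).1.val * τL 1 ^ (Multiplicative.toAdd x).2.val := by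
    decide
  rw [eq_top_iff]
  intro x _
  rw [key x]
  exact mul_mem (pow_mem h0 _) (pow_mem h1 _)

theorem exists_AT : ∃ (Γ : Type) (_ : Group Γ) (_ : Finite Γ) (σ : Γ →* G0),
    IsStemExtension σ ∧ Nonempty (σ.ker ≃* AT) := by
  have hN : Nat.Coprime 91 (Nat.card AT) := by
    rw [Nat.card_eq_fintype_card]
    decide +kernel
  refine Cfsg.Agent.Lib.SchurLoop.LoopC.exists_cover Sz8LoopData.lcert Sz8LoopData.lcert_ok τL_pow τL_top
    (s := sG) closure_sG (fun j hj => rel_of_chk (all_getD relsL_chk hj)) hcard (N := 91) hN ?_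
  intro i hi
  have hi' : i < 2 := hi
  interval_cases i
  · exact ⟨0, by show 0 < 10; norm_num, 13, by norm_num, by decide +kernel, by decide +kernel⟩
  · exact ⟨1, by show 1 < 10; norm_num, 7, by norm_num, by decide +kernel, by decide +kernel⟩

/-! ### The bound -/

theorem primes_of_sq {p : ℕ} (hp : p.Prime) (h : p ^ 2 ∣ 29120) : p = 2 := by
  have h1 : p ∣ 2 ^ 6 * 5 * 7 * 13 := by
    refine Dvd.dvd.trans (dvd_pow_self p two_ne_zero) ?_
    exact h.trans (by norm_num)
  rcases (Nat.Prime.dvd_mul hp).mp h1 with h2 | h2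
  · rcases (Nat.Prime.dvd_mul hp).mp h2 with h3 | h3
    · rcases (Nat.Prime.dvd_mul hp).mp h3 with h4 | h4
      · exact (Nat.prime_dvd_prime_iff_eq hp Nat.prime_two).mp (hp.dvd_of_dvd_pow h4)
      · have := (Nat.prime_dvd_prime_iff_eq hp Nat.prime_five).mp h4
        subst this
        norm_num at h
    · have := (Nat.prime_dvd_prime_iff_eq hp (by norm_num : Nat.Prime 7)).mp h3
      subst this
      norm_num at h
  · have := (Nat.prime_dvd_prime_iff_eq hp (by norm_num : Nat.Prime 13)).mp h2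
    subst this
    norm_num at h

/-- The kernel of every finite stem extension is an image of the target. -/
theorem upper {Γ : Type*} [Group Γ] [Finite Γ] (σ : Γ →* G0) (hσ : IsStemExtension σ) :
    ∃ π : AT →* σ.ker, Function.Surjective π := by
  have hH : Nat.Coprime (Nat.card H13) 2 := by
    rw [card_H13]
    norm_num
  have hN : Norm Sz8PackData.cert 13 7 := by
    refine ⟨rfl, by decide +kernel, by decide +kernel, ?_, by show 2 ≤ 10; norm_num⟩
    intro j hj
    have h1 : Nat.ble (j + 1) 2 = true := hj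
    have h2 := Nat.le_of_ble_eq_true h1
    omega
  obtain ⟨e, g, he, hg, ho, hcl⟩ := bound_coprime hσ Nat.prime_two hH Sz8PackData.cert Sz8PackData.cert_ok
    (E := 3) rfl (by rw [card_G0]; norm_num) hN (by norm_num) (by norm_num) t0
    (fun c hc hm => H_t c hc hm)
    (s := sG) (fun c hc i hi => step_t c hc i hi)
    closure_sG
    (fun j hj l hl => by
      have h1 := all_getD relsP_chk hj
      simp only [relChk, Bool.and_eq_true, List.all_eq_true] at h1
      exact Nat.le_of_ble_eq_true (h1.1 l hl))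
    (fun j hj => rel_of_chk (all_getD relsP_chk hj))
  have h0 : g 0 ^ 2 = 1 := ho (0, 2, _) List.mem_cons_self
  have h1 : g 1 ^ 2 = 1 := ho (1, 2, _) (List.mem_cons_of_mem _ List.mem_cons_self)
  have hGlen : Sz8PackData.cert.G.length = 2 := rfl
  rw [hGlen] at hcl
  haveI : Fact (1 < 2) := ⟨by norm_num⟩
  refine Cfsg.Agent.Lib.SchurAsm.exists_surj2 hσ (hg 0) (hg 1) h0 h1 ?_
  refine le_of_primes (fun a ha b => (Subgroup.mem_center_iff.mp (hσ.2.1 ha) b).symm) ?_
  intro p hp hd
  have : Fact p.Prime := ⟨hp⟩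
  obtain ⟨x, hx⟩ := exists_prime_orderOf_dvd_card' p hd
  have hs : orderOf (x : Γ) ^ 2 ∣ Nat.card G0 := sq_orderOf_dvd hσ x.2
  rw [Subgroup.orderOf_coe, hx, card_G0] at hs
  have hp2 := primes_of_sq hp hs
  subst hp2
  refine ⟨e, he, fun k hk => ?_⟩
  refine Subgroup.closure_mono ?_ (hcl k hk)
  rintro _ ⟨i, hi, rfl⟩
  have hi' : i < 2 := hi
  interval_cases i
  · exact Or.inl rfl
  · exact Or.inr rfl

end Cfsg.Agent.Lib.Sz8Mult
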