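-- Shared library: four by four matrices over the field with eight elements, with a kernel-friendly product.
import Mathlib
import Cfsg.Agent.Lib.Sz8Field

set_option autoImplicit false

namespace Cfsg.Agent.Lib.Sz8Rep

open Cfsg.Agent.Lib.Sz8 Cfsg.Agent.Lib.Sz8.K8

/-- Matrices as structures. -/
structure M4 where
  a00 : K8
  a01 : K8
  a02 : K8
  a03 : K8
  a10 : K8
  a11 : K8
  a12 : K8
  a13 : K8
  a20 : K8
  a21 : K8
  a22 : K8
  a23 : K8
  a30 : K8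
  a31 : K8
  a32 : K8
  a33 : K8
  deriving DecidableEq

/-- A field element by its code. -/
def ofN (c : ℕ) : K8 := (⟨Nat.mod c 8, Nat.mod_lt _ (by decide)⟩ : Fin 8)

/-- Decoding. -/
def dec4 (c : ℕ) : M4 :=
  ⟨ofN c, ofN (Nat.shiftRight c 3), ofN (Nat.shiftRight c 6), ofN (Nat.shiftRight c 9),
   ofN (Nat.shiftRight c 12), ofN (Nat.shiftRight c 15), ofN (Nat.shiftRight c 18), ofN (Nat.shiftRight c 21),
   ofN (Nat.shiftRight c 24), ofN (Nat.shiftRight c 27), ofN (Nat.shiftRight c 30), ofN (Nat.shiftRight c 33),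
   ofN (Nat.shiftRight c 36), ofN (Nat.shiftRight c 39), ofN (Nat.shiftRight c 42), ofN (Nat.shiftRight c 45)⟩

/-- A sum of four products. -/
def s4 (a b c d e f g h : K8) : K8 := add (add (add (mul a b) (mul c d)) (mul e f)) (mul g h)

/-- The product. -/
def mul4 (x y : M4) : M4 :=
  ⟨s4 x.a00 y.a00 x.a01 y.a10 x.a02 y.a20 x.a03 y.a30, s4 x.a00 y.a01 x.a01 y.a11 x.a02 y.a21 x.a03 y.a31,
   s4 x.a00 y.a02 x.a01 y.a12 x.a02 y.a22 x.a03 y.a32, s4 x.a00 y.a03 x.a01 y.a13 x.a02 y.a23 x.a03 y.a33,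
   s4 x.a10 y.a00 x.a11 y.a10 x.a12 y.a20 x.a13 y.a30, s4 x.a10 y.a01 x.a11 y.a11 x.a12 y.a21 x.a13 y.a31,
   s4 x.a10 y.a02 x.a11 y.a12 x.a12 y.a22 x.a13 y.a32, s4 x.a10 y.a03 x.a11 y.a13 x.a12 y.a23 x.a13 y.a33,
   s4 x.a20 y.a00 x.a21 y.a10 x.a22 y.a20 x.a23 y.a30, s4 x.a20 y.a01 x.a21 y.a11 x.a22 y.a21 x.a23 y.a31,
   s4 x.a20 y.a02 x.a21 y.a12 x.a22 y.a22 x.a23 y.a32, s4 x.a20 y.a03 x.a21 y.a13 x.a22 y.a23 x.a23 y.a33,
   s4 x.a30 y.a00 x.a31 y.a10 x.a32 y.a20 x.a33 y.a30, s4 x.a30 y.a01 x.a31 y.a11 x.a32 y.a21 x.a33 y.a31,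
   s4 x.a30 y.a02 x.a31 y.a12 x.a32 y.a22 x.a33 y.a32, s4 x.a30 y.a03 x.a31 y.a13 x.a32 y.a23 x.a33 y.a33⟩

/-- The matrix. -/
def toMat4 (x : M4) : Matrix (Fin 4) (Fin 4) K8 :=
  !![x.a00, x.a01, x.a02, x.a03; x.a10, x.a11, x.a12, x.a13; x.a20, x.a21, x.a22, x.a23; x.a30, x.a31, x.a32, x.a33]

theorem s4_eq (a b c d e f g h : K8) : s4 a b c d e f g h = a * b + c * d + e * f + g * h := rfl

theorem toMat4_mul (x y : M4) : toMat4 (mul4 x y) = toMat4 x * toMat4 y := by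
  ext i j
  fin_cases i <;> fin_cases j <;>
    simp [toMat4, mul4, s4_eq, Matrix.mul_apply, Fin.sum_univ_four]

theorem toMat4_inj {x y : M4} (h : toMat4 x = toMat4 y) : x = y := by
  have h00 := congrFun (congrFun h 0) 0
  have h01 := congrFun (congrFun h 0) 1
  have h02 := congrFun (congrFun h 0) 2
  have h03 := congrFun (congrFun h 0) 3
  have h10 := congrFun (congrFun h 1) 0
  have h11 := congrFun (congrFun h 1) 1
  have h12 := congrFun (congrFun h 1) 2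
  have h13 := congrFun (congrFun h 1) 3
  have h20 := congrFun (congrFun h 2) 0
  have h21 := congrFun (congrFun h 2) 1
  have h22 := congrFun (congrFun h 2) 2
  have h23 := congrFun (congrFun h 2) 3
  have h30 := congrFun (congrFun h 3) 0
  have h31 := congrFun (congrFun h 3) 1
  have h32 := congrFun (congrFun h 3) 2
  have h33 := congrFun (congrFun h 3) 3
  simp [toMat4] at h00 h01 h02 h03 h10 h11 h12 h13 h20 h21 h22 h23 h30 h31 h32 h33
  cases x
  cases y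
  simp_all

/-- The identity. -/
def one4 : M4 := dec4 (1 + 2 ^ 15 + 2 ^ 30 + 2 ^ 45)

theorem toMat4_one : toMat4 one4 = 1 := by
  ext i j
  fin_cases i <;> fin_cases j <;> rfl

end Cfsg.Agent.Lib.Sz8Rep
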