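/-
The Suzuki group: its automorphisms.
-/
import Mathlib
import Cfsg.Prelude.Def_KGroupFacts
import Cfsg.Agent.Lib.SzSolB
import Cfsg.Agent.Lib.AutPSL.Faithful

set_option autoImplicit false
set_option linter.unusedSectionVars false
set_option linter.unusedVariables false
set_option linter.unnecessarySimpa false
set_option linter.style.haveILetI false

namespace Cfsg.Agent.Lib.SzTorus

open Cfsg Cfsg.Agent.Lib.SuzukiBasic Cfsg.Agent.Lib.Suzuki Cfsg.Agent.Lib.Suzuki2
  Cfsg.Agent.Lib.Suzuki3 Cfsg.Agent.Lib.Suzuki4 Cfsg.Agent.Lib.SuzukiMax Cfsg.Agent.Lib.SzSub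
open Subgroup
open scoped Pointwise

variable {F : Type*} [Field F] [Fintype F] {m : ℕ} [CharP F 2] [SzHyp F m]

/-- The field automorphism as an endomorphism of the group. -/
noncomputable def fieldHom (m : ℕ) [SzHyp F m] (σ : F ≃+* F) : Sz F m →* Sz F m :=
  emb (σ : F →+* F) (dvd_refl (2 * m + 1))

theorem fieldHom_tt (σ : F ≃+* F) (a b : F) : fieldHom m σ (tt a b) = tt (σ a) (σ b) :=
  emb_tt (σ : F →+* F) _ a b

theorem fieldHom_hh (σ : F ≃+* F) (α : Fˣ) :
    fieldHom m σ (hh α) = hh (Units.map ((σ : F →+* F) : F →* F) α) :=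
  emb_hh (σ : F →+* F) _ α

theorem fieldHom_ww (σ : F ≃+* F) : fieldHom m σ ww = ww := emb_ww (σ : F →+* F) _

theorem fieldHom_symm (σ : F ≃+* F) (x : Sz F m) : fieldHom m σ (fieldHom m σ.symm x) = x := by
  apply Subtype.ext
  apply Subtype.ext
  ext r c
  change σ (σ.symm (x.1.1 r c)) = x.1.1 r c
  simp

theorem fieldHom_symm' (σ : F ≃+* F) (x : Sz F m) : fieldHom m σ.symm (fieldHom m σ x) = x := by
  apply Subtype.ext
  apply Subtype.ext
  ext r c
  change σ.symm (σ (x.1.1 r c)) = x.1.1 r c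
  simp

/-- The field automorphism as an automorphism of the group. -/
noncomputable def fieldAut (m : ℕ) [SzHyp F m] (σ : F ≃+* F) : MulAut (Sz F m) where
  toFun := fieldHom m σ
  invFun := fieldHom m σ.symm
  left_inv := fieldHom_symm' σ
  right_inv := fieldHom_symm σ
  map_mul' := map_mul _

theorem fieldAut_apply (σ : F ≃+* F) (x : Sz F m) : fieldAut m σ x = fieldHom m σ x := rfl

theorem fieldAut_symm_apply (σ : F ≃+* F) (x : Sz F m) :
    (fieldAut m σ).symm x = fieldHom m σ.symm x := rfl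

/-- Endomorphisms fixing the two base points. -/
def Normd (A : Sz F m →* Sz F m) : Prop :=
  (∀ g : Sz F m, g • oInf F m = oInf F m → A g • oInf F m = oInf F m) ∧
    (∀ g : Sz F m, g • oZero F m = oZero F m → A g • oZero F m = oZero F m)

theorem smul_zero_of_ww {g : Sz F m} (h : (ww * g * ww : Sz F m) • oInf F m = oInf F m) :
    g • oZero F m = oZero F m := by
  rw [mul_smul, mul_smul, ww_smul_inf] at h
  have h2 : (ww : Sz F m) • ((ww : Sz F m) • g • oZero F m) = (ww : Sz F m) • oInf F m :=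
    congrArg (fun z => (ww : Sz F m) • z) h
  rw [← mul_smul, ww_mul_self, one_smul, ww_smul_inf] at h2
  exact h2

theorem ww_of_smul_zero {g : Sz F m} (h : g • oZero F m = oZero F m) :
    (ww * g * ww : Sz F m) • oInf F m = oInf F m := by
  rw [mul_smul, mul_smul, ww_smul_inf, h, ww_smul_zero]

theorem fieldHom_normd (σ : F ≃+* F) : Normd (fieldHom m σ) := by
  have h1 : ∀ g : Sz F m, g • oInf F m = oInf F m → fieldHom m σ g • oInf F m = oInf F m := by
    intro g hg
    obtain ⟨a, b, α, rfl⟩ := stab_inf hg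
    rw [map_mul, fieldHom_tt, fieldHom_hh, mul_smul, hh_smul_inf, tt_smul_inf]
  refine ⟨h1, ?_⟩
  intro g hg
  apply smul_zero_of_ww
  have h2 := h1 _ (ww_of_smul_zero hg)
  rwa [map_mul, map_mul, fieldHom_ww] at h2

/-- The coordinates of a normalized endomorphism. -/
structure NF (A : Sz F m →* Sz F m) (k c g : F → F) (f : Fˣ → Fˣ) : Prop where
  ht : ∀ a, A (tt a 0) = tt (k a) (c a)
  hz : ∀ b, A (tt 0 b) = tt 0 (g b)
  hf : ∀ β, A (hh β) = hh (f β)

theorem exists_NF {A : Sz F m →* Sz F m} (hA : Normd A) :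
    ∃ (k c g : F → F) (f : Fˣ → Fˣ), NF A k c g f := by
  have h1 : ∀ a : F, ∃ a' b' : F, A (tt a 0) = tt a' b' := by
    intro a
    apply mem_Tsub.1
    apply mem_Tsub_of_two_elt (hA.1 _ (tt_smul_inf a 0)) (e := 2)
    have e : (2 : ℕ) ^ 2 = 4 := rfl
    rw [e, ← map_pow, tt_pow_four, map_one]
  have h2 : ∀ b : F, ∃ b' : F, A (tt 0 b) = tt 0 b' := by
    intro b
    apply invol_inf (hA.1 _ (tt_smul_inf 0 b))
    rw [← map_mul, tt_zero_mul_self, map_one]
  have h3 : ∀ β : Fˣ, ∃ β' : Fˣ, A (hh β) = hh β' := by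
    intro β
    exact stab_inf_zero (hA.1 _ (hh_smul_inf β)) (hA.2 _ (hh_smul_zero β))
  choose k c hkc using h1
  choose g hg using h2
  choose f hf using h3
  exact ⟨k, c, g, f, hkc, hg, hf⟩

namespace NF

variable {A : Sz F m →* Sz F m} {k c g : F → F} {f : Fˣ → Fˣ}

theorem add (h : NF A k c g f) (a a' : F) :
    k (a + a') = k a + k a' ∧
      c a + c a' + phi m (k a) * k a' = c (a + a') + g (phi m a * a') := by
  have e : (tt a 0 * tt a' 0 : Sz F m) = tt (a + a') 0 * tt 0 (phi m a * a') := by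
    rw [tt_mul, tt_mul]
    simp
  have e2 := congrArg A e
  rw [map_mul, map_mul, h.ht, h.ht, h.ht, h.hz, tt_mul, tt_mul] at e2
  obtain ⟨e3, e4⟩ := tt_inj e2
  constructor
  · rw [add_zero] at e3
    exact e3.symm
  · rw [mul_zero, add_zero] at e4
    exact e4

theorem scale (h : NF A k c g f) (β : Fˣ) (a : F) :
    k ((β : F) * a) = (f β : F) * k a ∧
      c ((β : F) * a) = phi m (f β : F) * (f β : F) * c a := by
  have e : (hh β * tt a 0 * (hh β)⁻¹ : Sz F m) = tt ((β : F) * a) 0 := by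
    rw [hh_conj_tt, mul_zero]
  have e2 := congrArg A e
  rw [map_mul, map_mul, map_inv, h.hf, h.ht, h.ht, hh_conj_tt] at e2
  obtain ⟨e3, e4⟩ := tt_inj e2
  exact ⟨e3.symm, e4.symm⟩

theorem sq (h : NF A k c g f) (a : F) : g (phi m a * a) = phi m (k a) * k a := by
  have e := congrArg A (tt_sq (m := m) a 0)
  rw [map_mul, h.ht, h.hz, tt_sq] at e
  exact (tt_inj e).2.symm

theorem k_ne (h : NF A k c g f) (hinj : Function.Injective A) {a : F} (ha : a ≠ 0) : k a ≠ 0 := by
  intro h0
  have e := congrArg A (tt_sq (m := m) a 0)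
  rw [map_mul, h.ht, h0, tt_zero_mul_self] at e
  have e2 : (tt 0 (phi m a * a) : Sz F m) = 1 := by
    apply hinj
    rw [← e, map_one]
  have e3 := (tt_eq_one e2).2
  exact mul_ne_zero (phi_ne_zero ha) ha e3

theorem k_zero (h : NF A k c g f) : k 0 = 0 := by
  have e := (h.add 0 0).1
  rw [add_zero] at e
  exact left_eq_add.1 e

/-- With the normalization `k 1 = 1`, the coordinates are a field automorphism. -/
theorem exists_ringEquiv (h : NF A k c g f) (hinj : Function.Injective A) (h1 : k 1 = 1) :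
    ∃ σ : F ≃+* F, (∀ a, σ a = k a) ∧ (∀ b, σ b = g b) ∧ (∀ β : Fˣ, σ β = f β) := by
  have hfk : ∀ β : Fˣ, k β = f β := by
    intro β
    have e := (h.scale β 1).1
    rwa [mul_one, h1, mul_one] at e
  have hmul : ∀ a a' : F, k (a * a') = k a * k a' := by
    intro a a'
    by_cases ha : a = 0
    · subst ha
      rw [zero_mul, h.k_zero, zero_mul]
    · have e := (h.scale (Units.mk0 a ha) a').1
      have e2 := hfk (Units.mk0 a ha)
      simp only [Units.val_mk0] at e e2
      rw [e, e2]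
  let r : F →+* F :=
    { toFun := k
      map_one' := h1
      map_mul' := hmul
      map_zero' := h.k_zero
      map_add' := fun a a' => (h.add a a').1 }
  have hb : Function.Bijective r := Finite.injective_iff_bijective.1 r.injective
  let σ : F ≃+* F := RingEquiv.ofBijective r hb
  have hσ : ∀ a, σ a = k a := fun a => rfl
  refine ⟨σ, hσ, ?_, ?_⟩
  · intro b
    obtain ⟨a, rfl⟩ := lam_surj (m := m) b
    rw [h.sq, map_mul, ← hσ a]
    congr 1
    unfold phi
    rw [map_pow]
  · intro β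
    rw [hσ, hfk]

/-- A normalized endomorphism acting trivially on the rest has no cocycle. -/
theorem c_eq_zero (h : NF A (fun a => a) c (fun b => b) (fun β => β)) (a : F) : c a = 0 := by
  have hadd : ∀ a a' : F, c (a + a') = c a + c a' := by
    intro a a'
    have e := (h.add a a').2
    exact (add_right_cancel e).symm
  have h0 : c 0 = 0 := by
    have e := hadd 0 0
    rw [add_zero] at e
    exact left_eq_add.1 e
  have hsc : ∀ β : Fˣ, c β = phi m (β : F) * β * c 1 := by
    intro β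
    have e := (h.scale β 1).2
    rwa [mul_one] at e
  obtain ⟨β₀, hβ₀⟩ := phi_add_ne (F := F) (m := m)
  have hβ0 : β₀ ≠ 0 := by
    rintro rfl
    rw [phi_zero, add_zero] at hβ₀
    exact hβ₀ rfl
  have hβ1 : β₀ + 1 ≠ 0 := by
    intro h2
    have h3 : β₀ = 1 := by
      have := add_self_F (1 : F)
      exact add_right_cancel (h2.trans this.symm)
    subst h3
    rw [phi_one, add_self_F] at hβ₀
    exact hβ₀ rfl
  have hc1 : c 1 = 0 := by
    have e1 := hsc (Units.mk0 β₀ hβ0)
    have e2 := hsc (Units.mk0 (β₀ + 1) hβ1)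
    simp only [Units.val_mk0] at e1 e2
    have e3 := hadd β₀ 1
    rw [e2, e1, phi_add, phi_one] at e3
    have e4 : (phi m β₀ + β₀) * c 1 = 0 := by
      have e5 : (phi m β₀ + 1) * (β₀ + 1) * c 1 =
          phi m β₀ * β₀ * c 1 + (phi m β₀ + β₀) * c 1 + c 1 := by ring
      rw [e5] at e3
      have e6 : phi m β₀ * β₀ * c 1 + (phi m β₀ + β₀) * c 1 + c 1 =
          (phi m β₀ * β₀ * c 1 + c 1) + (phi m β₀ + β₀) * c 1 := by ring
      rw [e6] at e3
      exact left_eq_add.1 e3.symm
    exact (mul_eq_zero.1 e4).resolve_left hβ₀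
  by_cases ha : a = 0
  · rw [ha, h0]
  · have e1 := hsc (Units.mk0 a ha)
    simp only [Units.val_mk0] at e1
    rw [e1, hc1, mul_zero]

end NF

theorem tt_eq_mul (a b : F) : (tt a b : Sz F m) = tt a 0 * tt 0 b := by
  rw [tt_mul]
  simp

theorem oPt_one_ne_zero : oPt m (0 : F) 1 ≠ oZero F m := by
  intro h
  rw [← oPt_zero] at h
  exact one_ne_zero (oPt_inj h).2

/-- An injective normalized endomorphism trivial on `T` is the identity. -/
theorem aut_eq_id {A : Sz F m →* Sz F m} (hinj : Function.Injective A) (hN : Normd A)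
    (hT : ∀ a b, A (tt a b) = tt a b) (x : Sz F m) : A x = x := by
  have hfix : ∀ (p : Om F m) (g : Sz F m), g • p = p → A g • p = p := by
    intro p g hg
    rcases om_cases p with rfl | ⟨a, b, rfl⟩
    · exact hN.1 g hg
    · have h1 : (tt a b : Sz F m) • oZero F m = oPt m a b := tt_smul_zero a b
      have h2 : ((tt a b : Sz F m)⁻¹ * g * tt a b) • oZero F m = oZero F m := by
        rw [mul_smul, mul_smul, h1, hg, ← h1, inv_smul_smul]
      have h3 := hN.2 _ h2
      rw [map_mul, map_mul, map_inv, hT, mul_smul, mul_smul, h1] at h3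
      rw [inv_smul_eq_iff, h1] at h3
      exact h3
  have hact : ∀ (g : Sz F m) (p : Om F m), A g • p = g • p := by
    intro g p
    obtain ⟨k, hk⟩ := exists_conj_one p
    let z : Sz F m := k * tt 0 1 * k⁻¹
    have hz1 : z ≠ 1 := conj_ne_one (fun h => one_ne_zero (tt_eq_one h).2)
    have hz2 : z * z = 1 := by
      calc z * z = k * (tt 0 1 * tt 0 1) * k⁻¹ := by
            change k * tt 0 1 * k⁻¹ * (k * tt 0 1 * k⁻¹) = _
            group
        _ = 1 := by
            rw [tt_zero_mul_self]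
            group
    have hzp : z • p = p := by
      rw [← hk]
      exact conj_tt_fix k 0 1
    let y : Sz F m := g * z * g⁻¹
    have hyfix : y • (g • p) = g • p := by
      change (g * z * g⁻¹) • (g • p) = g • p
      rw [mul_smul, mul_smul, inv_smul_smul, hzp]
    have h1 : A y • (g • p) = g • p := hfix _ _ hyfix
    have h2 : A y • (A g • p) = A g • p := by
      have e : A y = A g * A z * (A g)⁻¹ := by
        change A (g * z * g⁻¹) = _
        rw [map_mul, map_mul, map_inv]
      rw [e, mul_smul, mul_smul, inv_smul_smul, hfix p z hzp]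
    have hy0 : y ≠ 1 := conj_ne_one hz1
    have hy1 : A y ≠ 1 := fun h => hy0 (hinj (h.trans (map_one A).symm))
    have hy2 : A y * A y = 1 := by
      rw [← map_mul]
      have e : y * y = 1 := by
        change g * z * g⁻¹ * (g * z * g⁻¹) = 1
        calc g * z * g⁻¹ * (g * z * g⁻¹) = g * (z * z) * g⁻¹ := by group
          _ = 1 := by
            rw [hz2]
            group
      rw [e, map_one]
    exact invol_unique hy2 hy1 h2 h1
  have hone : x⁻¹ * A x = 1 := by
    have hf : ∀ p : Om F m, (x⁻¹ * A x) • p = p := by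
      intro p
      rw [mul_smul, hact, inv_smul_smul]
    exact eq_one_of_three oZero_ne_inf.symm oPt_one_ne_zero.symm
      (by
        intro h
        exact oPt_ne_inf _ _ h.symm) (hf _) (hf _) (hf (oPt m (0 : F) 1))
  exact (inv_mul_eq_one.1 hone).symm

/-- Every automorphism is, up to an inner one, normalized. -/
theorem exists_normalizing (α : Sz F m ≃* Sz F m) :
    ∃ k₀ : Sz F m, Normd ((MulAut.conj k₀).toMonoidHom.comp α.toMonoidHom) := by
  haveI : Fact (Nat.Prime 2) := ⟨Nat.prime_two⟩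
  have hT2 : IsPGroup 2 (Tsub F m) := isPGroup_Tsub
  obtain ⟨r₁, hr₁⟩ := two_group_fix _ (hT2.map α.toMonoidHom)
  have hr₁' : ∀ t ∈ Tsub F m, α t • r₁ = r₁ := fun t ht => hr₁ _ ⟨t, ht, rfl⟩
  let z₁ : Sz F m := α (tt 0 1)
  have hz1 : z₁ ≠ 1 := by
    intro h
    have : (tt 0 1 : Sz F m) = 1 := α.injective (h.trans (map_one α).symm)
    exact one_ne_zero (tt_eq_one this).2
  have hz2 : z₁ * z₁ = 1 := by
    change α (tt 0 1) * α (tt 0 1) = 1
    rw [← map_mul, tt_zero_mul_self, map_one]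
  have hz₁r : z₁ • r₁ = r₁ := hr₁' _ ⟨0, 1, rfl⟩
  -- the stabilizer of infinity
  have hB : ∀ g : Sz F m, g • oInf F m = oInf F m → α g • r₁ = r₁ := by
    intro g hg
    obtain ⟨a, b, β, rfl⟩ := stab_inf hg
    have h1 : (tt a b * hh β : Sz F m)⁻¹ • oInf F m = oInf F m := by
      rw [inv_smul_eq_iff]
      exact hg.symm
    obtain ⟨a', b', β', he⟩ := stab_inf h1
    set u : Sz F m := (tt a b * hh β : Sz F m) with hu
    have h2 : (u * tt 0 1 * u⁻¹ : Sz F m) ∈ Tsub F m := by
      rw [hu, conj_stab_tt]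
      exact ⟨_, _, rfl⟩
    have h3 := hr₁' _ h2
    rw [map_mul, map_mul, map_inv, mul_smul, mul_smul] at h3
    have h4 : z₁ • ((α u)⁻¹ • r₁) = (α u)⁻¹ • r₁ := by
      have h5 := congrArg (fun w => (α u)⁻¹ • w) h3
      simp only [inv_smul_smul] at h5
      exact h5
    have h6 : (α u)⁻¹ • r₁ = r₁ := invol_unique hz2 hz1 h4 hz₁r
    rw [inv_smul_eq_iff] at h6
    exact h6.symm
  let r₂ : Om F m := α ww • r₁
  have hww : α ww * α ww = 1 := by
    rw [← map_mul, ww_mul_self, map_one]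
  have hwinv : (α ww)⁻¹ = α ww := inv_eq_of_mul_eq_one_left hww
  have hZ : ∀ g : Sz F m, g • oZero F m = oZero F m → α g • r₂ = r₂ := by
    intro g hg
    have h1 := hB _ (ww_of_smul_zero hg)
    rw [map_mul, map_mul, mul_smul, mul_smul] at h1
    have h2 : α g • (α ww • r₁) = (α ww)⁻¹ • r₁ := by
      rw [eq_comm, inv_smul_eq_iff]
      exact h1.symm
    rw [hwinv] at h2
    exact h2
  have hne : r₁ ≠ r₂ := by
    intro he
    have hw : α ww • r₁ = r₁ := he.symm
    let S : Subgroup (Sz F m) := (MulAction.stabilizer (Sz F m) r₁).comap α.toMonoidHom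
    have hS : Binf F m ≤ S := fun g hg => hB g (mem_Binf'.1 hg)
    have hwS : (ww : Sz F m) ∈ S := hw
    have hlt : Binf F m < S := by
      refine lt_of_le_of_ne hS ?_
      intro h
      apply ww_not_mem_Binf (F := F) (m := m)
      rw [h]
      exact hwS
    have htop : S = ⊤ := (isCoatom_Binf (F := F) (m := m)).2 S hlt
    have hall : ∀ g : Sz F m, g • r₁ = r₁ := by
      intro g
      have h1 : α.symm g ∈ S := by
        rw [htop]
        exact Subgroup.mem_top _
      have h2 : α (α.symm g) • r₁ = r₁ := h1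
      rwa [MulEquiv.apply_symm_apply] at h2
    obtain ⟨k, hk⟩ := exists_conj_one r₁
    have h3 := hall (k * ww * k⁻¹)
    rw [mul_smul, mul_smul, ← hk, inv_smul_smul, ww_smul_inf] at h3
    have h4 : oZero F m = oInf F m := smul_left_cancel k h3
    exact oZero_ne_inf h4
  obtain ⟨k₁, h1, h2⟩ := exists_conj_two hne
  refine ⟨k₁⁻¹, ?_, ?_⟩
  · intro g hg
    change (k₁⁻¹ * α g * k₁⁻¹⁻¹) • oInf F m = oInf F m
    rw [inv_inv, mul_smul, mul_smul, h1, hB g hg, ← h1, inv_smul_smul]
  · intro g hg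
    change (k₁⁻¹ * α g * k₁⁻¹⁻¹) • oZero F m = oZero F m
    rw [inv_inv, mul_smul, mul_smul, h2, hZ g hg, ← h2, inv_smul_smul]

/-- Every automorphism is a field automorphism up to an inner one. -/
theorem exists_field_rep (α : Sz F m ≃* Sz F m) :
    ∃ (σ : F ≃+* F) (k₀ : Sz F m), ∀ x, α x = k₀ * fieldHom m σ x * k₀⁻¹ := by
  obtain ⟨k₁, hN₁⟩ := exists_normalizing α
  set A₁ : Sz F m →* Sz F m := (MulAut.conj k₁).toMonoidHom.comp α.toMonoidHom with hA₁
  have hinj₁ : Function.Injective A₁ := fun a b h =>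
    α.injective ((MulAut.conj k₁).injective h)
  obtain ⟨k, c, g, f, hNF₁⟩ := exists_NF hN₁
  have hk1 : k 1 ≠ 0 := hNF₁.k_ne hinj₁ one_ne_zero
  let γ : Fˣ := Units.mk0 (k 1)⁻¹ (inv_ne_zero hk1)
  set A₂ : Sz F m →* Sz F m := (MulAut.conj (hh γ)).toMonoidHom.comp A₁ with hA₂
  have hinj₂ : Function.Injective A₂ := fun a b h =>
    hinj₁ ((MulAut.conj (hh γ)).injective h)
  have hN₂ : Normd A₂ := by
    constructor
    · intro g hg
      change (hh γ * A₁ g * (hh γ)⁻¹) • oInf F m = oInf F m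
      have e : (hh γ : Sz F m)⁻¹ • oInf F m = oInf F m := by
        rw [inv_smul_eq_iff, hh_smul_inf]
      rw [mul_smul, mul_smul, e, hN₁.1 g hg, hh_smul_inf]
    · intro g hg
      change (hh γ * A₁ g * (hh γ)⁻¹) • oZero F m = oZero F m
      have e : (hh γ : Sz F m)⁻¹ • oZero F m = oZero F m := by
        rw [inv_smul_eq_iff, hh_smul_zero]
      rw [mul_smul, mul_smul, e, hN₁.2 g hg, hh_smul_zero]
  obtain ⟨k₂, c₂, g₂, f₂, hNF₂⟩ := exists_NF hN₂
  have hk₂1 : k₂ 1 = 1 := by
    have e := hNF₂.ht 1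
    have e2 : A₂ (tt 1 0) = hh γ * A₁ (tt 1 0) * (hh γ)⁻¹ := rfl
    rw [e2, hNF₁.ht, hh_conj_tt] at e
    have e3 := (tt_inj e).1
    rw [← e3]
    change ((k 1)⁻¹) * k 1 = 1
    exact inv_mul_cancel₀ hk1
  obtain ⟨σ, hσk, hσg, hσf⟩ := hNF₂.exists_ringEquiv hinj₂ hk₂1
  -- remove the field automorphism
  set A₃ : Sz F m →* Sz F m := (fieldHom m σ.symm).comp A₂ with hA₃
  have hinj₃ : Function.Injective A₃ := fun a b h =>
    hinj₂ ((fieldAut m σ).symm.injective h)
  have hN₃ : Normd A₃ :=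
    ⟨fun g hg => (fieldHom_normd σ.symm).1 _ (hN₂.1 g hg),
      fun g hg => (fieldHom_normd σ.symm).2 _ (hN₂.2 g hg)⟩
  have hNF₃ : NF A₃ (fun a => a) (fun a => σ.symm (c₂ a)) (fun b => b) (fun β => β) := by
    constructor
    · intro a
      change fieldHom m σ.symm (A₂ (tt a 0)) = _
      rw [hNF₂.ht, fieldHom_tt, ← hσk, RingEquiv.symm_apply_apply]
    · intro b
      change fieldHom m σ.symm (A₂ (tt 0 b)) = _
      rw [hNF₂.hz, fieldHom_tt, ← hσg, RingEquiv.symm_apply_apply, map_zero]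
    · intro β
      change fieldHom m σ.symm (A₂ (hh β)) = _
      rw [hNF₂.hf, fieldHom_hh]
      congr 1
      apply Units.ext
      change σ.symm (f₂ β : F) = β
      rw [← hσf, RingEquiv.symm_apply_apply]
  have hc := hNF₃.c_eq_zero
  have hT₃ : ∀ a b, A₃ (tt a b) = tt a b := by
    intro a b
    rw [tt_eq_mul, map_mul, hNF₃.ht, hNF₃.hz, hc a]
  have hid := aut_eq_id hinj₃ hN₃ hT₃
  refine ⟨σ, (hh γ * k₁)⁻¹, fun x => ?_⟩
  have h1 : fieldHom m σ (A₃ x) = A₂ x := fieldHom_symm σ _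
  rw [hid] at h1
  rw [h1]
  change α x = (hh γ * k₁)⁻¹ * (hh γ * (k₁ * α x * k₁⁻¹) * (hh γ)⁻¹) * ((hh γ * k₁)⁻¹)⁻¹
  group

/-- Different field automorphisms are not conjugate. -/
theorem field_inj {σ τ : F ≃+* F} {g : Sz F m}
    (h : ∀ x, g * fieldHom m σ x * g⁻¹ = fieldHom m τ x) : σ = τ := by
  have h1 : g • oInf F m = oInf F m := by
    have e := h (tt 0 1)
    rw [fieldHom_tt, fieldHom_tt, map_zero, map_zero, map_one, map_one] at e
    exact conj_fix_of_Zsub one_ne_zero one_ne_zero e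
  have h2 : g * ww * g⁻¹ = ww := by
    have e := h ww
    rwa [fieldHom_ww, fieldHom_ww] at e
  have h0 : g • oZero F m = oZero F m := by
    have e : g * ww = ww * g := by
      calc g * ww = (g * ww * g⁻¹) * g := by group
        _ = ww * g := by rw [h2]
    have e2 : (g * ww) • oInf F m = (ww * g) • oInf F m := by rw [e]
    rw [mul_smul, mul_smul, ww_smul_inf, h1, ww_smul_inf] at e2
    exact e2
  obtain ⟨γ, rfl⟩ := stab_inf_zero h1 h0
  have hγ : γ = 1 := by
    have e := h (tt 1 0)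
    rw [fieldHom_tt, fieldHom_tt, map_zero, map_zero, map_one, map_one, hh_conj_tt, mul_one] at e
    have e2 := (tt_inj e).1
    exact Units.ext e2
  subst hγ
  ext a
  have e := h (tt a 0)
  rw [hh_one, one_mul, inv_one, mul_one, fieldHom_tt, fieldHom_tt] at e
  exact (tt_inj e).1

theorem card_ringAut_F (F : Type*) [Field F] [Fintype F] (m : ℕ) [SzHyp F m] :
    Nat.card (F ≃+* F) = 2 * m + 1 := by
  haveI : Fact (Nat.Prime 2) := ⟨Nat.prime_two⟩
  exact Cfsg.Agent.Lib.AutPSL.card_ringAut (SzHyp.hF (F := F) (m := m)) (by omega)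

/-- The outer automorphism group of the Suzuki group. -/
theorem card_out : Nat.card (Out (Sz F m)) = 2 * m + 1 := by
  rw [← card_ringAut_F F m]
  symm
  refine Nat.card_congr (Equiv.ofBijective
    (fun σ : F ≃+* F => (QuotientGroup.mk (fieldAut m σ) : Out (Sz F m))) ⟨?_, ?_⟩)
  · intro σ τ hst
    have h1 := QuotientGroup.eq.1 hst
    obtain ⟨g, hg⟩ := h1
    apply field_inj (m := m) (g := fieldHom m σ g)
    intro x
    have h2 := DFunLike.congr_fun hg x
    change g * x * g⁻¹ = fieldHom m σ.symm (fieldHom m τ x) at h2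
    rw [← map_inv, ← map_mul, ← map_mul, h2, fieldHom_symm]
  · intro q
    obtain ⟨α, rfl⟩ := QuotientGroup.mk_surjective q
    obtain ⟨σ, k₀, h⟩ := exists_field_rep α
    refine ⟨σ, ?_⟩
    apply QuotientGroup.eq.2
    refine ⟨fieldHom m σ.symm k₀, ?_⟩
    refine MulEquiv.ext (fun x => ?_)
    change fieldHom m σ.symm k₀ * x * (fieldHom m σ.symm k₀)⁻¹ = fieldHom m σ.symm (α x)
    rw [h x, map_mul, map_mul, map_inv, fieldHom_symm']

end Cfsg.Agent.Lib.SzTorus
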