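import Mathlib
import Cfsg.Agent.Lib.LargeExtra
import Cfsg.Agent.Lib.SympExp4
import Cfsg.Statements.S1757
import Cfsg.Agent.S1757

/-!
# Elementary abelian TI subgroups which are maximal abelian normal in their normalizers

Elementwise data `Data V Q`, for `V` elementary abelian, TI, `Q = O₂(N(V)) = F*(N(V))`, `V` maximal
abelian normal in `N(V)`. We derive: `P = C_Q(V)` has `P' ≤ V`, `P/V` elementary abelian,
`Z(P) = V`, `C_{N(V)}(P) = V`.
-/

set_option autoImplicit false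
open scoped commutatorElement

namespace Cfsg.Agent.Lib.TIMax

open Cfsg.Agent.Lib.LargeExtra

variable {G : Type*} [Group G]

theorem mem_norm_of_conj [Finite G] {V : Subgroup G} {m : G} (h : ∀ v ∈ V, m * v * m⁻¹ ∈ V) :
    m ∈ Subgroup.normalizer (V : Set G) := by
  have hle : Subgroup.map (MulAut.conj m).toMonoidHom V ≤ V := by
    rintro _ ⟨v, hv, rfl⟩
    exact h v hv
  have heq : Subgroup.map (MulAut.conj m).toMonoidHom V = V := by
    apply Subgroup.eq_of_le_of_card_ge hle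
    exact (Nat.card_congr (Subgroup.equivMapOfInjective _ _ (MulAut.conj m).injective).toEquiv).le
  rw [Subgroup.mem_normalizer_iff]
  intro y
  constructor
  · exact fun hy => h y hy
  · intro hy
    rw [← heq] at hy
    obtain ⟨w, hw, e⟩ := hy
    have : w = y := (MulAut.conj m).injective e
    rwa [← this]

theorem conj_mem_of_norm {V : Subgroup G} {m v : G} (hm : m ∈ Subgroup.normalizer (V : Set G))
    (hv : v ∈ V) : m * v * m⁻¹ ∈ V :=
  (Subgroup.mem_normalizer_iff.mp hm v).mp hv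

theorem mem_of_conj_mem_of_norm {V : Subgroup G} {m v : G} (hm : m ∈ Subgroup.normalizer (V : Set G))
    (hv : m * v * m⁻¹ ∈ V) : v ∈ V :=
  (Subgroup.mem_normalizer_iff.mp hm v).mpr hv

/-- The elementwise data. -/
structure Data (V Q : Subgroup G) : Prop where
  comm : ∀ x ∈ V, ∀ y ∈ V, x * y = y * x
  sq : ∀ x ∈ V, x * x = 1
  ti : ∀ x, ∀ v ∈ V, v ≠ 1 → x * v * x⁻¹ ∈ V → x ∈ Subgroup.normalizer (V : Set G)
  two : IsPGroup 2 Q
  QN : Q ≤ Subgroup.normalizer (V : Set G)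
  Qn : ∀ m ∈ Subgroup.normalizer (V : Set G), ∀ q ∈ Q, m * q * m⁻¹ ∈ Q
  Qmax : ∀ T : Subgroup G, IsPGroup 2 T → T ≤ Subgroup.normalizer (V : Set G) →
    (∀ m ∈ Subgroup.normalizer (V : Set G), ∀ t ∈ T, m * t * m⁻¹ ∈ T) → T ≤ Q
  cent : ∀ c ∈ Subgroup.normalizer (V : Set G), (∀ q ∈ Q, c * q = q * c) → c ∈ Q
  maxab : ∀ A : Subgroup G, V ≤ A → A ≤ Subgroup.normalizer (V : Set G) →
    (∀ x ∈ A, ∀ y ∈ A, x * y = y * x) →
    (∀ m ∈ Subgroup.normalizer (V : Set G), ∀ a ∈ A, m * a * m⁻¹ ∈ A) → A = V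

/-- Conjugate of a subgroup. -/
abbrev cj (g : G) (V : Subgroup G) : Subgroup G := V.map (MulAut.conj g).toMonoidHom

theorem mem_cj {g x : G} {V : Subgroup G} : x ∈ cj g V ↔ g⁻¹ * x * g ∈ V := mem_conj_iff

theorem conj_mem_cj {g x : G} {V : Subgroup G} (h : x ∈ V) : g * x * g⁻¹ ∈ cj g V :=
  ⟨x, h, rfl⟩

theorem mem_norm_cj {g m : G} {V : Subgroup G} :
    m ∈ Subgroup.normalizer ((cj g V : Subgroup G) : Set G) ↔
      g⁻¹ * m * g ∈ Subgroup.normalizer (V : Set G) := by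
  simp only [Subgroup.mem_normalizer_iff, mem_cj]
  constructor
  · intro h y
    have h1 := h (g * y * g⁻¹)
    have e1 : g⁻¹ * (g * y * g⁻¹) * g = y := by group
    have e2 : g⁻¹ * (m * (g * y * g⁻¹) * m⁻¹) * g = g⁻¹ * m * g * y * (g⁻¹ * m * g)⁻¹ := by group
    rwa [e1, e2] at h1
  · intro h y
    have h1 := h (g⁻¹ * y * g)
    have e2 : g⁻¹ * m * g * (g⁻¹ * y * g) * (g⁻¹ * m * g)⁻¹ = g⁻¹ * (m * y * m⁻¹) * g := by group
    rwa [e2] at h1

theorem conj_mul_conj (g a b : G) : g * a * g⁻¹ * (g * b * g⁻¹) = g * (a * b) * g⁻¹ := by group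

theorem conj_inj {g a b : G} (h : g * a * g⁻¹ = g * b * g⁻¹) : a = b := by
  simpa [mul_assoc] using h

/-- The data is conjugation invariant. -/
theorem Data.conj {V Q : Subgroup G} (D : Data V Q) (g : G) : Data (cj g V) (cj g Q) where
  comm := by
    rintro _ ⟨x, hx, rfl⟩ _ ⟨y, hy, rfl⟩
    simp only [MulEquiv.coe_toMonoidHom, MulAut.conj_apply]
    rw [conj_mul_conj, conj_mul_conj, D.comm x hx y hy]
  sq := by
    rintro _ ⟨x, hx, rfl⟩
    simp only [MulEquiv.coe_toMonoidHom, MulAut.conj_apply]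
    rw [conj_mul_conj, D.sq x hx]
    group
  ti := by
    rintro x _ ⟨v, hv, rfl⟩ hv1 hxv
    simp only [MulEquiv.coe_toMonoidHom, MulAut.conj_apply] at hv1 hxv
    rw [mem_norm_cj]
    rw [mem_cj] at hxv
    apply D.ti _ v hv
    · rintro rfl
      apply hv1
      group
    · have e : g⁻¹ * x * g * v * (g⁻¹ * x * g)⁻¹ = g⁻¹ * (x * (g * v * g⁻¹) * x⁻¹) * g := by group
      rw [e]
      exact hxv
  two := by
    have := D.two
    exact IsPGroup.of_equiv this (Subgroup.equivMapOfInjective _ _ (MulAut.conj g).injective)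
  QN := by
    rintro _ ⟨q, hq, rfl⟩
    rw [mem_norm_cj]
    simp only [MulEquiv.coe_toMonoidHom, MulAut.conj_apply]
    have e : g⁻¹ * (g * q * g⁻¹) * g = q := by group
    rw [e]
    exact D.QN hq
  Qn := by
    intro m hm q hq
    rw [mem_norm_cj] at hm
    rw [mem_cj] at hq ⊢
    have e : g⁻¹ * (m * q * m⁻¹) * g = g⁻¹ * m * g * (g⁻¹ * q * g) * (g⁻¹ * m * g)⁻¹ := by group
    rw [e]
    exact D.Qn _ hm _ hq
  Qmax := by
    intro T hT hTN hTn t ht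
    rw [mem_cj]
    have h1 : cj g⁻¹ T ≤ Q := by
      apply D.Qmax
      · exact IsPGroup.of_equiv hT (Subgroup.equivMapOfInjective _ _ (MulAut.conj g⁻¹).injective)
      · rintro _ ⟨u, hu, rfl⟩
        have := hTN hu
        rw [mem_norm_cj] at this
        simpa using this
      · intro m hm u hu
        rw [mem_cj] at hu ⊢
        rw [inv_inv] at hu ⊢
        have hm2 : g * m * g⁻¹ ∈ Subgroup.normalizer ((cj g V : Subgroup G) : Set G) := by
          rw [mem_norm_cj]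
          have e : g⁻¹ * (g * m * g⁻¹) * g = m := by group
          rw [e]; exact hm
        have := hTn _ hm2 _ hu
        have e : g * (m * u * m⁻¹) * g⁻¹ = g * m * g⁻¹ * (g * u * g⁻¹) * (g * m * g⁻¹)⁻¹ := by group
        rw [e]
        exact this
    apply h1
    have := conj_mem_cj (g := g⁻¹) ht
    simpa using this
  cent := by
    intro c hc hcq
    rw [mem_norm_cj] at hc
    rw [mem_cj]
    apply D.cent _ hc
    intro q hq
    have h1 := hcq (g * q * g⁻¹) (conj_mem_cj hq)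
    have e1 : g⁻¹ * c * g * q = g⁻¹ * (c * (g * q * g⁻¹)) * g := by group
    have e2 : q * (g⁻¹ * c * g) = g⁻¹ * ((g * q * g⁻¹) * c) * g := by group
    rw [e1, e2, h1]
  maxab := by
    intro A hVA hAN hAc hAn
    have hmain : cj g⁻¹ A = V := by
      apply D.maxab
      · intro v hv
        rw [mem_cj, inv_inv]
        exact hVA (conj_mem_cj hv)
      · rintro _ ⟨u, hu, rfl⟩
        have := hAN hu
        rw [mem_norm_cj] at this
        simpa using this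
      · rintro _ ⟨x, hx, rfl⟩ _ ⟨y, hy, rfl⟩
        simp only [MulEquiv.coe_toMonoidHom, MulAut.conj_apply]
        rw [conj_mul_conj, conj_mul_conj, hAc x hx y hy]
      · intro m hm u hu
        rw [mem_cj, inv_inv] at hu ⊢
        have hm2 : g * m * g⁻¹ ∈ Subgroup.normalizer ((cj g V : Subgroup G) : Set G) := by
          rw [mem_norm_cj]
          have e : g⁻¹ * (g * m * g⁻¹) * g = m := by group
          rw [e]; exact hm
        have := hAn _ hm2 _ hu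
        have e : g * (m * u * m⁻¹) * g⁻¹ = g * m * g⁻¹ * (g * u * g⁻¹) * (g * m * g⁻¹)⁻¹ := by group
        rw [e]
        exact this
    ext x
    constructor
    · intro hx
      have : g⁻¹ * x * g⁻¹⁻¹ ∈ cj g⁻¹ A := conj_mem_cj hx
      rw [hmain] at this
      rw [mem_cj]
      simpa using this
    · intro hx
      rw [mem_cj] at hx
      rw [← hmain, mem_cj, inv_inv] at hx
      have e : g * (g⁻¹ * x * g) * g⁻¹ = x := by group
      rwa [e] at hx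

/-- Conjugating by an element of the normalizer does nothing. -/
theorem cj_eq_self {V : Subgroup G} {t : G}
    (ht : t ∈ Subgroup.normalizer (V : Set G)) : cj t V = V := by
  ext x
  rw [mem_cj]
  constructor
  · intro h
    have := conj_mem_of_norm ht h
    have e : t * (t⁻¹ * x * t) * t⁻¹ = x := by group
    rwa [e] at this
  · intro h
    have := conj_mem_of_norm (Subgroup.inv_mem _ ht) h
    simpa using this

theorem card_cj (t : G) (V : Subgroup G) : Nat.card (cj t V) = Nat.card V :=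
  (Nat.card_congr (Subgroup.equivMapOfInjective _ _ (MulAut.conj t).injective).toEquiv).symm

theorem cj_cj (a b : G) (V : Subgroup G) : cj a (cj b V) = cj (a * b) V := by
  ext x
  simp only [mem_cj, mul_inv_rev]
  have e : b⁻¹ * (a⁻¹ * x * a) * b = b⁻¹ * a⁻¹ * x * (a * b) := by group
  rw [e]

/-- `P = C_Q(V)`. -/
def PP (V Q : Subgroup G) : Subgroup G := Q ⊓ Subgroup.centralizer (V : Set G)

theorem mem_PP {V Q : Subgroup G} {y : G} : y ∈ PP V Q ↔ y ∈ Q ∧ ∀ v ∈ V, y * v = v * y := by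
  constructor
  · rintro ⟨h1, h2⟩
    exact ⟨h1, fun v hv => (Subgroup.mem_centralizer_iff.mp h2 v hv).symm⟩
  · rintro ⟨h1, h2⟩
    exact ⟨h1, Subgroup.mem_centralizer_iff.mpr fun v hv => (h2 v hv).symm⟩

theorem cj_PP (g : G) (V Q : Subgroup G) : cj g (PP V Q) = PP (cj g V) (cj g Q) := by
  ext y
  rw [mem_cj, mem_PP, mem_PP, mem_cj]
  constructor
  · rintro ⟨h1, h2⟩
    refine ⟨h1, ?_⟩
    rintro _ ⟨v, hv, rfl⟩
    simp only [MulEquiv.coe_toMonoidHom, MulAut.conj_apply]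
    have h3 := h2 v hv
    calc y * (g * v * g⁻¹) = g * ((g⁻¹ * y * g) * v) * g⁻¹ := by group
      _ = g * (v * (g⁻¹ * y * g)) * g⁻¹ := by rw [h3]
      _ = (g * v * g⁻¹) * y := by group
  · rintro ⟨h1, h2⟩
    refine ⟨h1, ?_⟩
    intro v hv
    have h3 := h2 _ (conj_mem_cj (g := g) hv)
    calc (g⁻¹ * y * g) * v = g⁻¹ * (y * (g * v * g⁻¹)) * g := by group
      _ = g⁻¹ * ((g * v * g⁻¹) * y) * g := by rw [h3]
      _ = v * (g⁻¹ * y * g) := by group

namespace Data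

variable {V Q : Subgroup G} (D : Data V Q)
include D

theorem sq_pow {x : G} (hx : x ∈ V) : x ^ 2 = 1 := by
  rw [pow_two]; exact D.sq x hx

theorem inv_eq {x : G} (hx : x ∈ V) : x⁻¹ = x := inv_eq_of_mul_eq_one_left (D.sq x hx)

theorem isPGroup_V : IsPGroup 2 V := by
  intro x
  refine ⟨1, ?_⟩
  apply Subtype.ext
  simpa using D.sq_pow x.2

theorem V_le_norm : V ≤ Subgroup.normalizer (V : Set G) := Subgroup.le_normalizer

theorem V_le_Q : V ≤ Q :=
  D.Qmax V D.isPGroup_V D.V_le_norm fun _ hm _ ht => conj_mem_of_norm hm ht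

theorem V_le_P : V ≤ PP V Q := fun v hv =>
  mem_PP.mpr ⟨D.V_le_Q hv, fun u hu => D.comm v hv u hu⟩

theorem P_le_Q : PP V Q ≤ Q := inf_le_left

theorem P_le_norm : PP V Q ≤ Subgroup.normalizer (V : Set G) := fun _ hx => D.QN (D.P_le_Q hx)

theorem P_comm_V {y v : G} (hy : y ∈ PP V Q) (hv : v ∈ V) : y * v = v * y :=
  (mem_PP.mp hy).2 v hv

/-- `P` is normalized by `M`. -/
theorem P_conj {m y : G} (hm : m ∈ Subgroup.normalizer (V : Set G)) (hy : y ∈ PP V Q) :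
    m * y * m⁻¹ ∈ PP V Q := by
  rw [mem_PP] at hy ⊢
  refine ⟨D.Qn m hm y hy.1, ?_⟩
  intro v hv
  have hm' : m⁻¹ ∈ Subgroup.normalizer (V : Set G) := Subgroup.inv_mem _ hm
  have h1 : m⁻¹ * v * m ∈ V := by
    have := conj_mem_of_norm hm' hv
    simpa using this
  have h2 := hy.2 _ h1
  calc m * y * m⁻¹ * v = m * (y * (m⁻¹ * v * m)) * m⁻¹ := by group
    _ = m * ((m⁻¹ * v * m) * y) * m⁻¹ := by rw [h2]
    _ = v * (m * y * m⁻¹) := by group

/-- `Z(P) = V`. -/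
theorem Zcen {x : G} (hx : x ∈ PP V Q) (hc : ∀ y ∈ PP V Q, x * y = y * x) : x ∈ V := by
  let A : Subgroup G := PP V Q ⊓ Subgroup.centralizer ((PP V Q : Subgroup G) : Set G)
  have hmem : ∀ z, z ∈ A ↔ z ∈ PP V Q ∧ ∀ y ∈ PP V Q, z * y = y * z := by
    intro z
    constructor
    · rintro ⟨h1, h2⟩
      exact ⟨h1, fun y hy => (Subgroup.mem_centralizer_iff.mp h2 y hy).symm⟩
    · rintro ⟨h1, h2⟩
      exact ⟨h1, Subgroup.mem_centralizer_iff.mpr fun y hy => (h2 y hy).symm⟩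
  have hA : A = V := by
    apply D.maxab
    · intro v hv
      rw [hmem]
      exact ⟨D.V_le_P hv, fun y hy => (D.P_comm_V hy hv).symm⟩
    · exact fun z hz => D.P_le_norm ((hmem z).mp hz).1
    · intro a ha b hb
      exact ((hmem a).mp ha).2 b ((hmem b).mp hb).1
    · intro m hm a ha
      rw [hmem] at ha ⊢
      refine ⟨D.P_conj hm ha.1, ?_⟩
      intro y hy
      have hm' : m⁻¹ ∈ Subgroup.normalizer (V : Set G) := Subgroup.inv_mem _ hm
      have h1 : m⁻¹ * y * m ∈ PP V Q := by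
        have := D.P_conj hm' hy
        simpa using this
      have h2 := ha.2 _ h1
      calc m * a * m⁻¹ * y = m * (a * (m⁻¹ * y * m)) * m⁻¹ := by group
        _ = m * ((m⁻¹ * y * m) * a) * m⁻¹ := by rw [h2]
        _ = y * (m * a * m⁻¹) := by group
  rw [← hA, hmem]
  exact ⟨hx, hc⟩

end Data

/-- The subgroup `{y ∈ P : y² ∈ V, [P, y] ≤ V}`. -/
def YY {V Q : Subgroup G} (D : Data V Q) : Subgroup G where
  carrier := {y | y ∈ PP V Q ∧ y * y ∈ V ∧ ∀ p ∈ PP V Q, p * y * p⁻¹ * y⁻¹ ∈ V}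
  one_mem' := by
    refine ⟨Subgroup.one_mem _, by simp [V.one_mem], ?_⟩
    intro p _
    simp [V.one_mem]
  mul_mem' := by
    rintro y₁ y₂ ⟨h1, h2, h3⟩ ⟨h4, h5, h6⟩
    refine ⟨Subgroup.mul_mem _ h1 h4, ?_, ?_⟩
    · have hc := h3 y₂ h4
      have e : y₁ * y₂ * (y₁ * y₂) = y₁ * (y₂ * y₁ * y₂⁻¹ * y₁⁻¹) * y₁⁻¹ * (y₁ * y₁ * (y₂ * y₂)) := by
        group
      rw [e]
      refine V.mul_mem ?_ (V.mul_mem h2 h5)
      exact conj_mem_of_norm (D.P_le_norm h1) hc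
    · intro p hp
      have e : p * (y₁ * y₂) * p⁻¹ * (y₁ * y₂)⁻¹ =
          (p * y₁ * p⁻¹ * y₁⁻¹) * (y₁ * (p * y₂ * p⁻¹ * y₂⁻¹) * y₁⁻¹) := by group
      rw [e]
      exact V.mul_mem (h3 p hp) (conj_mem_of_norm (D.P_le_norm h1) (h6 p hp))
  inv_mem' := by
    rintro y ⟨h1, h2, h3⟩
    refine ⟨Subgroup.inv_mem _ h1, ?_, ?_⟩
    · have e : y⁻¹ * y⁻¹ = (y * y)⁻¹ := by group
      rw [e]
      exact V.inv_mem h2
    · intro p hp
      have e : p * y⁻¹ * p⁻¹ * y⁻¹⁻¹ = y⁻¹ * (p * y * p⁻¹ * y⁻¹)⁻¹ * y⁻¹⁻¹ := by group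
      rw [e]
      exact conj_mem_of_norm (D.P_le_norm (Subgroup.inv_mem _ h1)) (V.inv_mem (h3 p hp))

namespace Data

variable {V Q : Subgroup G} (D : Data V Q)
include D

theorem mem_YY {y : G} :
    y ∈ YY D ↔ y ∈ PP V Q ∧ y * y ∈ V ∧ ∀ p ∈ PP V Q, p * y * p⁻¹ * y⁻¹ ∈ V := Iff.rfl

theorem YY_conj {m y : G} (hm : m ∈ Subgroup.normalizer (V : Set G)) (hy : y ∈ YY D) :
    m * y * m⁻¹ ∈ YY D := by
  rw [mem_YY] at hy ⊢
  obtain ⟨h1, h2, h3⟩ := hy
  have hm' : m⁻¹ ∈ Subgroup.normalizer (V : Set G) := Subgroup.inv_mem _ hm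
  refine ⟨D.P_conj hm h1, ?_, ?_⟩
  · have e : m * y * m⁻¹ * (m * y * m⁻¹) = m * (y * y) * m⁻¹ := by group
    rw [e]
    exact conj_mem_of_norm hm h2
  · intro p hp
    have hp' : m⁻¹ * p * m ∈ PP V Q := by
      have := D.P_conj hm' hp
      simpa using this
    have e : p * (m * y * m⁻¹) * p⁻¹ * (m * y * m⁻¹)⁻¹ =
        m * ((m⁻¹ * p * m) * y * (m⁻¹ * p * m)⁻¹ * y⁻¹) * m⁻¹ := by group
    rw [e]
    exact conj_mem_of_norm hm (h3 _ hp')

/-- `Z(Y) = V`. -/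
theorem Y_cen {c : G} (hc : c ∈ YY D) (hcc : ∀ y ∈ YY D, c * y = y * c) : c ∈ V := by
  let A : Subgroup G := YY D ⊓ Subgroup.centralizer ((YY D : Subgroup G) : Set G)
  have hmem : ∀ z, z ∈ A ↔ z ∈ YY D ∧ ∀ y ∈ YY D, z * y = y * z := by
    intro z
    constructor
    · rintro ⟨h1, h2⟩
      exact ⟨h1, fun y hy => (Subgroup.mem_centralizer_iff.mp h2 y hy).symm⟩
    · rintro ⟨h1, h2⟩
      exact ⟨h1, Subgroup.mem_centralizer_iff.mpr fun y hy => (h2 y hy).symm⟩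
  have hVY : V ≤ YY D := by
    intro v hv
    rw [mem_YY]
    refine ⟨D.V_le_P hv, by rw [D.sq v hv]; exact V.one_mem, ?_⟩
    intro p hp
    rw [D.P_comm_V hp hv]
    simp [V.one_mem]
  have hA : A = V := by
    apply D.maxab
    · intro v hv
      rw [hmem]
      refine ⟨hVY hv, fun y hy => (D.P_comm_V ((D.mem_YY).mp hy).1 hv).symm⟩
    · exact fun z hz => D.P_le_norm ((D.mem_YY).mp ((hmem z).mp hz).1).1
    · intro a ha b hb
      exact ((hmem a).mp ha).2 b ((hmem b).mp hb).1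
    · intro m hm a ha
      rw [hmem] at ha ⊢
      refine ⟨D.YY_conj hm ha.1, ?_⟩
      intro y hy
      have hm' : m⁻¹ ∈ Subgroup.normalizer (V : Set G) := Subgroup.inv_mem _ hm
      have h1 : m⁻¹ * y * m ∈ YY D := by
        have := D.YY_conj hm' hy
        simpa using this
      have h2 := ha.2 _ h1
      calc m * a * m⁻¹ * y = m * (a * (m⁻¹ * y * m)) * m⁻¹ := by group
        _ = m * ((m⁻¹ * y * m) * a) * m⁻¹ := by rw [h2]
        _ = y * (m * a * m⁻¹) := by group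
  rw [← hA, hmem]
  exact ⟨hc, hcc⟩

/-- Commutators in `P` centralize `Y`. -/
theorem comm_comm_Y {p₁ p₂ y : G} (h1 : p₁ ∈ PP V Q) (h2 : p₂ ∈ PP V Q) (hy : y ∈ YY D) :
    (p₁ * p₂ * p₁⁻¹ * p₂⁻¹) * y = y * (p₁ * p₂ * p₁⁻¹ * p₂⁻¹) := by
  have hm : p₂ * p₁ ∈ Subgroup.normalizer (V : Set G) :=
    D.P_le_norm (Subgroup.mul_mem _ h2 h1)
  have hy0 : (p₂ * p₁)⁻¹ * y * (p₂ * p₁) ∈ YY D := by
    have := D.YY_conj (Subgroup.inv_mem _ hm) hy
    simpa using this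
  set y0 := (p₂ * p₁)⁻¹ * y * (p₂ * p₁) with hy0def
  have hyy : y = (p₂ * p₁) * y0 * (p₂ * p₁)⁻¹ := by rw [hy0def]; group
  obtain ⟨hy1, -, hy3⟩ := (D.mem_YY).mp hy0
  have hl : ∀ p ∈ PP V Q, p * y0 * p⁻¹ = (p * y0 * p⁻¹ * y0⁻¹) * y0 := fun p _ => by group
  have hconj : ∀ p ∈ PP V Q, ∀ v ∈ V, p * v * p⁻¹ = v := by
    intro p hp v hv
    rw [D.P_comm_V hp hv]; group
  have e1 : (p₁ * p₂) * y0 * (p₁ * p₂)⁻¹ =
      (p₂ * y0 * p₂⁻¹ * y0⁻¹) * ((p₁ * y0 * p₁⁻¹ * y0⁻¹) * y0) := by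
    calc (p₁ * p₂) * y0 * (p₁ * p₂)⁻¹
        = p₁ * ((p₂ * y0 * p₂⁻¹ * y0⁻¹) * y0) * p₁⁻¹ := by group
      _ = (p₁ * (p₂ * y0 * p₂⁻¹ * y0⁻¹) * p₁⁻¹) * (p₁ * y0 * p₁⁻¹) := by group
      _ = _ := by
        rw [hconj p₁ h1 _ (hy3 p₂ h2)]
        group
  have e2 : (p₂ * p₁) * y0 * (p₂ * p₁)⁻¹ =
      (p₁ * y0 * p₁⁻¹ * y0⁻¹) * ((p₂ * y0 * p₂⁻¹ * y0⁻¹) * y0) := by
    calc (p₂ * p₁) * y0 * (p₂ * p₁)⁻¹
        = p₂ * ((p₁ * y0 * p₁⁻¹ * y0⁻¹) * y0) * p₂⁻¹ := by group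
      _ = (p₂ * (p₁ * y0 * p₁⁻¹ * y0⁻¹) * p₂⁻¹) * (p₂ * y0 * p₂⁻¹) := by group
      _ = _ := by
        rw [hconj p₂ h2 _ (hy3 p₁ h1)]
        group
  have e3 : (p₁ * p₂) * y0 * (p₁ * p₂)⁻¹ = (p₂ * p₁) * y0 * (p₂ * p₁)⁻¹ := by
    rw [e1, e2]
    have hcomm := D.comm _ (hy3 p₂ h2) _ (hy3 p₁ h1)
    rw [← mul_assoc, hcomm, mul_assoc]
  have hc : p₁ * p₂ * p₁⁻¹ * p₂⁻¹ = (p₁ * p₂) * (p₂ * p₁)⁻¹ := by group
  rw [hc, hyy]
  calc (p₁ * p₂) * (p₂ * p₁)⁻¹ * ((p₂ * p₁) * y0 * (p₂ * p₁)⁻¹)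
      = (p₁ * p₂) * y0 * (p₁ * p₂)⁻¹ * ((p₁ * p₂) * (p₂ * p₁)⁻¹) := by group
    _ = (p₂ * p₁) * y0 * (p₂ * p₁)⁻¹ * ((p₁ * p₂) * (p₂ * p₁)⁻¹) := by rw [e3]

/-- `P' ≤ V`. -/
theorem comm_mem [Finite G] {x y : G} (hx : x ∈ PP V Q) (hy : y ∈ PP V Q) :
    x * y * x⁻¹ * y⁻¹ ∈ V := by
  classical
  have h2 : IsPGroup 2 ↥(PP V Q) := D.two.to_le D.P_le_Q
  let N : Subgroup ↥(PP V Q) := V.subgroupOf (PP V Q)
  have hN : N.Normal := by
    constructor
    intro n hn g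
    have h1 : (n : G) ∈ V := hn
    change (g : G) * n * (g : G)⁻¹ ∈ V
    exact conj_mem_of_norm (D.P_le_norm g.2) h1
  let C : Subgroup ↥(PP V Q) := commutator ↥(PP V Q)
  have hCcen : ∀ c ∈ C, ∀ y ∈ YY D, (c : G) * y = y * c := by
    intro c hc y hy
    have hle : C ≤ (Subgroup.centralizer ({y} : Set G)).comap (PP V Q).subtype := by
      change commutator ↥(PP V Q) ≤ _
      rw [_root_.commutator_def, Subgroup.commutator_le]
      rintro p₁ - p₂ -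
      rw [Subgroup.mem_comap, Subgroup.mem_centralizer_singleton_iff]
      have := D.comm_comm_Y p₁.2 p₂.2 hy
      simpa [commutatorElement_def] using this
    have h3 := hle hc
    rw [Subgroup.mem_comap, Subgroup.mem_centralizer_singleton_iff] at h3
    exact h3
  have hle : C ≤ N := by
    by_contra hnot
    let H : Subgroup ↥(PP V Q) := C ⊔ N
    have hHn : H.Normal := Subgroup.sup_normal C N
    have hNH : N ≤ H := le_sup_right
    have hne : N ≠ H := by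
      intro h
      apply hnot
      rw [h]
      exact le_sup_left
    obtain ⟨t, htH, htN, ht2, htc⟩ :=
      Cfsg.Agent.Lib.SympExp4.exists_between_normal h2 hN hHn hNH hne
    -- `t` lies in `Y`
    have htY : (t : G) ∈ YY D := by
      rw [mem_YY]
      refine ⟨t.2, ?_, ?_⟩
      · have : ((t ^ 2 : ↥(PP V Q)) : G) ∈ V := ht2
        rw [pow_two] at this
        exact this
      · intro p hp
        have := htc ⟨p, hp⟩
        exact this
    obtain ⟨c, hc, n, hn, e⟩ := Subgroup.mem_sup_of_normal_right.mp htH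
    have hnV : (n : G) ∈ V := hn
    have hVY : (n : G) ∈ YY D := by
      rw [mem_YY]
      refine ⟨n.2, by rw [D.sq _ hnV]; exact V.one_mem, ?_⟩
      intro p hp
      rw [D.P_comm_V hp hnV]
      simp [V.one_mem]
    have hcG : (c : G) = t * (n : G)⁻¹ := by
      rw [← e]
      simp
    have hcY : (c : G) ∈ YY D := by
      rw [hcG]
      exact Subgroup.mul_mem _ htY (Subgroup.inv_mem _ hVY)
    have hcV : (c : G) ∈ V := D.Y_cen hcY (hCcen c hc)
    apply htN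
    change (t : G) ∈ V
    rw [← e]
    exact V.mul_mem hcV hnV
  have h3 : ⁅(⟨x, hx⟩ : ↥(PP V Q)), (⟨y, hy⟩ : ↥(PP V Q))⁆ ∈ C :=
    Subgroup.commutator_mem_commutator (Subgroup.mem_top _) (Subgroup.mem_top _)
  have h4 : ((⁅(⟨x, hx⟩ : ↥(PP V Q)), (⟨y, hy⟩ : ↥(PP V Q))⁆ : ↥(PP V Q)) : G) ∈ V := hle h3
  simpa [commutatorElement_def] using h4

/-- Elements of `V` are central in `P`: conjugation form. -/
theorem conj_V {p v : G} (hp : p ∈ PP V Q) (hv : v ∈ V) : p * v * p⁻¹ = v := by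
  rw [D.P_comm_V hp hv]; group

/-- Additivity of the commutator on the left. -/
theorem comm_mul_left [Finite G] {a b c : G} (ha : a ∈ PP V Q) (hb : b ∈ PP V Q) (hc : c ∈ PP V Q) :
    (a * b) * c * (a * b)⁻¹ * c⁻¹ = (a * c * a⁻¹ * c⁻¹) * (b * c * b⁻¹ * c⁻¹) := by
  have h1 := D.conj_V ha (D.comm_mem hb hc)
  calc (a * b) * c * (a * b)⁻¹ * c⁻¹
      = (a * (b * c * b⁻¹ * c⁻¹) * a⁻¹) * (a * c * a⁻¹ * c⁻¹) := by group
    _ = (b * c * b⁻¹ * c⁻¹) * (a * c * a⁻¹ * c⁻¹) := by rw [h1]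
    _ = _ := D.comm _ (D.comm_mem hb hc) _ (D.comm_mem ha hc)

/-- Additivity of the commutator on the right. -/
theorem comm_mul_right [Finite G] {a b c : G} (ha : a ∈ PP V Q) (hb : b ∈ PP V Q) (hc : c ∈ PP V Q) :
    a * (b * c) * a⁻¹ * (b * c)⁻¹ = (a * b * a⁻¹ * b⁻¹) * (a * c * a⁻¹ * c⁻¹) := by
  have h1 := D.conj_V hb (D.comm_mem ha hc)
  calc a * (b * c) * a⁻¹ * (b * c)⁻¹
      = (a * b * a⁻¹ * b⁻¹) * (b * (a * c * a⁻¹ * c⁻¹) * b⁻¹) := by group
    _ = _ := by rw [h1]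

/-- `P/V` has exponent two. -/
theorem sq_mem [Finite G] {x : G} (hx : x ∈ PP V Q) : x * x ∈ V := by
  apply D.Zcen (Subgroup.mul_mem _ hx hx)
  intro y hy
  have h1 := D.comm_mul_left hx hx hy
  have h2 : (x * y * x⁻¹ * y⁻¹) * (x * y * x⁻¹ * y⁻¹) = 1 := D.sq _ (D.comm_mem hx hy)
  rw [h2] at h1
  rw [mul_inv_eq_one, mul_inv_eq_iff_eq_mul] at h1
  exact h1

/-- `C_M(P) = V`. -/
theorem CMP [Finite G] {c : G} (hc : c ∈ Subgroup.normalizer (V : Set G))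
    (hcP : ∀ y ∈ PP V Q, c * y = y * c) : c ∈ V := by
  classical
  let C : Subgroup G := Subgroup.normalizer (V : Set G) ⊓ Subgroup.centralizer ((PP V Q : Subgroup G) : Set G)
  have hmem : ∀ z, z ∈ C ↔ z ∈ Subgroup.normalizer (V : Set G) ∧ ∀ y ∈ PP V Q, z * y = y * z := by
    intro z
    constructor
    · rintro ⟨h1, h2⟩
      exact ⟨h1, fun y hy => (Subgroup.mem_centralizer_iff.mp h2 y hy).symm⟩
    · rintro ⟨h1, h2⟩
      exact ⟨h1, Subgroup.mem_centralizer_iff.mpr fun y hy => (h2 y hy).symm⟩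
  have hCn : ∀ m ∈ Subgroup.normalizer (V : Set G), ∀ z ∈ C, m * z * m⁻¹ ∈ C := by
    intro m hm z hz
    rw [hmem] at hz ⊢
    refine ⟨Subgroup.mul_mem _ (Subgroup.mul_mem _ hm hz.1) (Subgroup.inv_mem _ hm), ?_⟩
    intro y hy
    have hm' : m⁻¹ ∈ Subgroup.normalizer (V : Set G) := Subgroup.inv_mem _ hm
    have h1 : m⁻¹ * y * m ∈ PP V Q := by
      have := D.P_conj hm' hy
      simpa using this
    have h2 := hz.2 _ h1
    calc m * z * m⁻¹ * y = m * (z * (m⁻¹ * y * m)) * m⁻¹ := by group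
      _ = m * ((m⁻¹ * y * m) * z) * m⁻¹ := by rw [h2]
      _ = y * (m * z * m⁻¹) := by group
  -- elements of `Q ∩ C` lie in `V`
  have hQC : ∀ z ∈ C, z ∈ Q → z ∈ V := by
    intro z hz hzQ
    rw [hmem] at hz
    have hzP : z ∈ PP V Q := by
      rw [mem_PP]
      exact ⟨hzQ, fun v hv => hz.2 v (D.V_le_P hv)⟩
    exact D.Zcen hzP hz.2
  -- odd order elements of `C` are trivial
  have hodd : ∀ z ∈ C, Odd (orderOf z) → z = 1 := by
    intro z hz hzo
    have hz' := (hmem z).mp hz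
    have hzQc : ∀ q ∈ Q, z * q = q * z := by
      intro q hq
      have hqM : q ∈ Subgroup.normalizer (V : Set G) := D.QN hq
      have hw : z * q * z⁻¹ * q⁻¹ ∈ V := by
        apply hQC
        · have h1 : q * z⁻¹ * q⁻¹ ∈ C := hCn q hqM _ (Subgroup.inv_mem _ hz)
          have e : z * q * z⁻¹ * q⁻¹ = z * (q * z⁻¹ * q⁻¹) := by group
          rw [e]
          exact Subgroup.mul_mem _ hz h1
        · exact Q.mul_mem (D.Qn z hz'.1 q hq) (Q.inv_mem hq)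
      set w := z * q * z⁻¹ * q⁻¹ with hwdef
      have hzw : z * w * z⁻¹ = w := by
        rw [hz'.2 w (D.V_le_P hw)]; group
      have e1 : z * q * z⁻¹ = w * q := by rw [hwdef]; group
      have e2 : Commute (z ^ 2) q := by
        change z ^ 2 * q = q * z ^ 2
        rw [pow_two]
        calc z * z * q = z * (z * q * z⁻¹) * z := by group
          _ = z * (w * q) * z := by rw [e1]
          _ = (z * w * z⁻¹) * (z * q * z⁻¹) * z * z := by group
          _ = w * (w * q) * z * z := by rw [hzw, e1]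
          _ = (w * w) * q * (z * z) := by group
          _ = q * (z * z) := by rw [D.sq w hw, one_mul]
      obtain ⟨k, hk⟩ := hzo
      have hzeq : z = (z ^ 2) ^ (k + 1) := by
        rw [← pow_mul]
        have e3 : 2 * (k + 1) = orderOf z + 1 := by omega
        rw [e3, pow_succ, pow_orderOf_eq_one, one_mul]
      rw [hzeq]
      exact e2.pow_left (k + 1)
    have hzQ : z ∈ Q := D.cent z hz'.1 hzQc
    obtain ⟨k, hk⟩ := D.two ⟨z, hzQ⟩
    have hk' : z ^ 2 ^ k = 1 := by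
      have := congrArg Subtype.val hk
      simpa using this
    have hdvd : orderOf z ∣ 2 ^ k := orderOf_dvd_of_pow_eq_one hk'
    obtain ⟨j, _, hj⟩ := (Nat.dvd_prime_pow Nat.prime_two).mp hdvd
    have hj0 : j = 0 := by
      by_contra hne
      rw [hj] at hzo
      have : Even (2 ^ j) := (Nat.even_pow.mpr ⟨even_two, hne⟩)
      exact (Nat.not_even_iff_odd.mpr hzo) this
    rw [hj0, pow_zero] at hj
    exact orderOf_eq_one_iff.mp hj
  have h2C : IsPGroup 2 C := by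
    rintro ⟨z, hz⟩
    have hne : orderOf z ≠ 0 := (orderOf_pos z).ne'
    obtain ⟨a, b, hb, hab⟩ := Nat.exists_eq_two_pow_mul_odd hne
    have hy : z ^ 2 ^ a ∈ C := Subgroup.pow_mem _ hz _
    have hyb : (z ^ 2 ^ a) ^ b = 1 := by
      rw [← pow_mul, ← hab, pow_orderOf_eq_one]
    have hoddy : Odd (orderOf (z ^ 2 ^ a)) := Odd.of_dvd_nat hb (orderOf_dvd_of_pow_eq_one hyb)
    have h1 := hodd _ hy hoddy
    refine ⟨a, ?_⟩
    apply Subtype.ext
    simpa using h1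
  have hCQ : C ≤ Q := D.Qmax C h2C (fun z hz => ((hmem z).mp hz).1) hCn
  have hcC : c ∈ C := (hmem c).mpr ⟨hc, hcP⟩
  exact hQC c hcC (hCQ hcC)

/-- Two distinct conjugates meet trivially: `V` and `tVt⁻¹`. -/
theorem inter {t x : G} (hne : cj t V ≠ V) (hx : x ∈ cj t V) (hxV : x ∈ V) : x = 1 := by
  by_contra h1
  apply hne
  apply cj_eq_self
  rw [mem_cj] at hx
  apply D.ti t _ hx
  · intro h2
    apply h1
    have e : x = t * (t⁻¹ * x * t) * t⁻¹ := by group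
    rw [e, h2]; group
  · have e : t * (t⁻¹ * x * t) * t⁻¹ = x := by group
    rw [e]; exact hxV

theorem ti_form (x : G) : cj x V = V ∨ cj x V ⊓ V = ⊥ := by
  by_cases h : cj x V = V
  · exact Or.inl h
  · right
    rw [eq_bot_iff]
    rintro y ⟨h1, h2⟩
    exact Subgroup.mem_bot.mpr (D.inter h h1 h2)

/-- A conjugate of `V` contained in `Q` centralizes `V`. -/
theorem comm_of_le [Finite G] {t u v : G} (hU : cj t V ≤ Q) (hu : u ∈ cj t V) (hv : v ∈ V) :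
    u * v = v * u := by
  by_cases hne : cj t V = V
  · rw [hne] at hu
    exact D.comm u hu v hv
  have hp : Fact (Nat.Prime 2) := ⟨Nat.prime_two⟩
  have hinf : V ⊓ cj t V = ⊥ := by
    rw [eq_bot_iff]
    rintro y ⟨h1, h2⟩
    exact Subgroup.mem_bot.mpr (D.inter hne h2 h1)
  have h := Cfsg.Agent.S1757.result 2 V (cj t V) D.isPGroup_V (D.conj t).isPGroup_V
    (fun g => D.ti_form g) (fun g => (D.conj t).ti_form g) (card_cj t V).ge hinf
    (fun x hx => D.QN (hU hx))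
  have h1 : ⁅v, u⁆ ∈ (⊥ : Subgroup G) := by
    rw [← h]
    exact Subgroup.commutator_mem_commutator hv hu
  rw [Subgroup.mem_bot, commutatorElement_eq_one_iff_mul_comm] at h1
  exact h1.symm

theorem cj_le_P [Finite G] {t : G} (hU : cj t V ≤ Q) : cj t V ≤ PP V Q := fun _ hu =>
  mem_PP.mpr ⟨hU hu, fun _ hv => D.comm_of_le hU hu hv⟩

/-- A conjugate of `tVt⁻¹` by an element of `M` inside `Q`. -/
theorem cj_le_Q_of_norm {m t : G} (hm : m ∈ Subgroup.normalizer (V : Set G)) (hU : cj t V ≤ Q) :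
    cj (m * t) V ≤ Q := by
  rw [← cj_cj]
  rintro _ ⟨u, hu, rfl⟩
  exact D.Qn m hm u (hU hu)

/-- Some `M`-conjugates of `A` do not commute. -/
theorem exists_noncomm [Finite G] {g : G} (hAQ : cj g V ≤ Q) (hne : cj g V ≠ V) :
    ∃ m ∈ Subgroup.normalizer (V : Set G), ∃ a ∈ cj g V, ∃ b ∈ cj (m * g) V, a * b ≠ b * a := by
  by_contra hall
  push Not at hall
  let S : Set G := (V : Set G) ∪ {x | ∃ m ∈ Subgroup.normalizer (V : Set G), x ∈ cj (m * g) V}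
  have hS : ∀ x ∈ S, ∀ y ∈ S, x * y = y * x := by
    have hcc : ∀ x ∈ V, ∀ m ∈ Subgroup.normalizer (V : Set G), ∀ y ∈ cj (m * g) V, x * y = y * x := by
      intro x hx m hm y hy
      exact (D.comm_of_le (D.cj_le_Q_of_norm hm hAQ) hy hx).symm
    rintro x (hx | ⟨m, hm, hx⟩) y (hy | ⟨m', hm', hy⟩)
    · exact D.comm x hx y hy
    · exact hcc x hx m' hm' y hy
    · exact (hcc y hy m hm x hx).symm
    · have hx' : m⁻¹ * x * m ∈ cj g V := by
        rw [mem_cj] at hx ⊢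
        have e : g⁻¹ * (m⁻¹ * x * m) * g = (m * g)⁻¹ * x * (m * g) := by group
        rwa [e]
      have hy' : m⁻¹ * y * m ∈ cj (m⁻¹ * m' * g) V := by
        rw [mem_cj] at hy ⊢
        have e : (m⁻¹ * m' * g)⁻¹ * (m⁻¹ * y * m) * (m⁻¹ * m' * g) = (m' * g)⁻¹ * y * (m' * g) := by
          group
        rwa [e]
      have h1 := hall (m⁻¹ * m') (Subgroup.mul_mem _ (Subgroup.inv_mem _ hm) hm') _ hx' _ hy'
      calc x * y = m * ((m⁻¹ * x * m) * (m⁻¹ * y * m)) * m⁻¹ := by group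
        _ = m * ((m⁻¹ * y * m) * (m⁻¹ * x * m)) * m⁻¹ := by rw [h1]
        _ = y * x := by group
  let X : Subgroup G := Subgroup.closure S
  have hXc : ∀ x ∈ X, ∀ y ∈ X, x * y = y * x := by
    intro x hx y hy
    have := (Subgroup.isMulCommutative_closure hS).is_comm.comm ⟨x, hx⟩ ⟨y, hy⟩
    exact congrArg Subtype.val this
  have hVX : V ≤ X := fun v hv => Subgroup.subset_closure (Or.inl hv)
  have hXM : X ≤ Subgroup.normalizer (V : Set G) := by
    rw [Subgroup.closure_le]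
    rintro x (hx | ⟨m, hm, hx⟩)
    · exact D.V_le_norm hx
    · exact D.QN (D.cj_le_Q_of_norm hm hAQ hx)
  have hXn : ∀ m ∈ Subgroup.normalizer (V : Set G), ∀ a ∈ X, m * a * m⁻¹ ∈ X := by
    intro m hm a ha
    have hle : X ≤ X.comap (MulAut.conj m).toMonoidHom := by
      rw [Subgroup.closure_le]
      rintro x (hx | ⟨m', hm', hx⟩)
      · exact Subgroup.subset_closure (Or.inl (conj_mem_of_norm hm hx))
      · refine Subgroup.subset_closure (Or.inr ⟨m * m', Subgroup.mul_mem _ hm hm', ?_⟩)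
        rw [mem_cj] at hx ⊢
        have e : (m * m' * g)⁻¹ * (m * x * m⁻¹) * (m * m' * g) = (m' * g)⁻¹ * x * (m' * g) := by
          group
        change (m * m' * g)⁻¹ * (m * x * m⁻¹) * (m * m' * g) ∈ V
        rwa [e]
    exact hle ha
  have hXV : X = V := D.maxab X hVX hXM hXc hXn
  apply hne
  apply Subgroup.eq_of_le_of_card_ge _ (card_cj g V).ge
  intro a ha
  rw [← hXV]
  apply Subgroup.subset_closure
  refine Or.inr ⟨1, Subgroup.one_mem _, ?_⟩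
  rwa [one_mul]

end Data

/-- The full anisotropic pairing. -/
structure Full (V A B P : Subgroup G) : Prop where
  hA : A ≤ P
  hB : B ≤ P
  hAV : ∀ x ∈ A, x ∈ V → x = 1
  hBV : ∀ x ∈ B, x ∈ V → x = 1
  aniso : ∀ a ∈ A, ∀ b ∈ B, a * b = b * a → a = 1 ∨ b = 1
  trans_A : ∀ a ∈ A, a ≠ 1 → ∀ x ∈ V, ∃ b ∈ B, b * a * b⁻¹ = x * a
  trans_B : ∀ b ∈ B, b ≠ 1 → ∀ x ∈ V, ∃ a ∈ A, a * b * a⁻¹ = x * b
  cA : ∀ y ∈ P, ∀ a ∈ A, a ≠ 1 → y * a = a * y → ∀ a' ∈ A, y * a' = a' * y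
  cB : ∀ y ∈ P, ∀ b ∈ B, b ≠ 1 → y * b = b * y → ∀ b' ∈ B, y * b' = b' * y
  neA : ∃ a ∈ A, a ≠ 1
  neB : ∃ b ∈ B, b ≠ 1
  commA : ∀ x ∈ A, ∀ y ∈ A, x * y = y * x
  commB : ∀ x ∈ B, ∀ y ∈ B, x * y = y * x
  sqA : ∀ x ∈ A, x * x = 1
  sqB : ∀ x ∈ B, x * x = 1

namespace Data

variable {V Q : Subgroup G} (D : Data V Q)
include D

/-- Existence of the full pairing. -/
theorem exists_full [Finite G] {g : G} (hAQ : cj g V ≤ Q) (hne : cj g V ≠ V) :
    ∃ m ∈ Subgroup.normalizer (V : Set G), Full V (cj g V) (cj (m * g) V) (PP V Q) := by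
  obtain ⟨m, hm, a₀, ha₀, b₀, hb₀, h0⟩ := D.exists_noncomm hAQ hne
  refine ⟨m, hm, ?_⟩
  have hBQ : cj (m * g) V ≤ Q := D.cj_le_Q_of_norm hm hAQ
  have hneB : cj (m * g) V ≠ V := by
    intro h
    apply hne
    rw [← cj_cj] at h
    have e : cj m⁻¹ (cj m (cj g V)) = cj g V := by
      ext x
      simp only [mem_cj]
      have e2 : g⁻¹ * (m⁻¹ * (m⁻¹⁻¹ * x * m⁻¹) * m) * g = g⁻¹ * x * g := by group
      rw [e2]
    rw [h, cj_eq_self (Subgroup.inv_mem _ hm)] at e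
    exact e.symm
  -- the generic statement for a conjugate
  have key : ∀ t : G, cj t V ≤ Q → cj t V ≠ V → ∀ y ∈ PP V Q, ∀ a ∈ cj t V, a ≠ 1 → y * a = a * y →
      ∀ a' ∈ cj t V, y * a' = a' * y := by
    intro t hQ hn y hy a ha ha1 hya a' ha'
    have h1 : y ∈ Subgroup.normalizer ((cj t V : Subgroup G) : Set G) := by
      apply (D.conj t).ti y a ha ha1
      have : y * a * y⁻¹ = a := by rw [hya]; group
      rw [this]; exact ha
    have h2 : y * a' * y⁻¹ * a'⁻¹ ∈ cj t V :=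
      Subgroup.mul_mem _ (conj_mem_of_norm h1 ha') (Subgroup.inv_mem _ ha')
    have h3 : y * a' * y⁻¹ * a'⁻¹ ∈ V := D.comm_mem hy (D.cj_le_P hQ ha')
    have h4 := D.inter hn h2 h3
    rw [mul_inv_eq_one, mul_inv_eq_iff_eq_mul] at h4
    exact h4
  have hcA := key g hAQ hne
  have hcB := key (m * g) hBQ hneB
  have hAP := D.cj_le_P hAQ
  have hBP := D.cj_le_P hBQ
  have ha₀1 : a₀ ≠ 1 := by
    rintro rfl
    simp at h0
  have hb₀1 : b₀ ≠ 1 := by
    rintro rfl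
    simp at h0
  have haniso : ∀ a ∈ cj g V, ∀ b ∈ cj (m * g) V, a * b = b * a → a = 1 ∨ b = 1 := by
    intro a ha b hb hab
    by_contra hcon
    push Not at hcon
    -- `a` centralizes `B`
    have h1 := hcB a (hAP ha) b hb hcon.2 hab b₀ hb₀
    -- so `b₀` centralizes `A`
    have h2 := hcA b₀ (hBP hb₀) a ha hcon.1 h1.symm a₀ ha₀
    exact h0 h2.symm
  have hcard : Nat.card (cj (m * g) V) = Nat.card V := card_cj _ _
  have hcard' : Nat.card (cj g V) = Nat.card V := card_cj _ _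
  refine ⟨hAP, hBP, fun x hx hxV => D.inter hne hx hxV, fun x hx hxV => D.inter hneB hx hxV, haniso,
    ?_, ?_, hcA, hcB, ⟨a₀, ha₀, ha₀1⟩, ⟨b₀, hb₀, hb₀1⟩, (D.conj g).comm, (D.conj _).comm,
    (D.conj g).sq, (D.conj _).sq⟩
  · intro a ha ha1 x hx
    let f : ↥(cj (m * g) V) → ↥V := fun b =>
      ⟨b * a * (b : G)⁻¹ * a⁻¹, D.comm_mem (hBP b.2) (hAP ha)⟩
    have hinj : Function.Injective f := by
      intro b₁ b₂ h12
      have h1 : (b₁ : G) * a * (b₁ : G)⁻¹ * a⁻¹ = b₂ * a * (b₂ : G)⁻¹ * a⁻¹ :=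
        congrArg Subtype.val h12
      have h2 : (b₁ : G) * a * (b₁ : G)⁻¹ = b₂ * a * (b₂ : G)⁻¹ := mul_right_cancel h1
      have h3 : a * ((b₂ : G)⁻¹ * b₁) = ((b₂ : G)⁻¹ * b₁) * a := by
        calc a * ((b₂ : G)⁻¹ * b₁) = (b₂ : G)⁻¹ * (b₂ * a * (b₂ : G)⁻¹) * b₁ := by group
          _ = (b₂ : G)⁻¹ * (b₁ * a * (b₁ : G)⁻¹) * b₁ := by rw [h2]
          _ = _ := by group
      have hmem : (b₂ : G)⁻¹ * b₁ ∈ cj (m * g) V := Subgroup.mul_mem _ (Subgroup.inv_mem _ b₂.2) b₁.2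
      rcases haniso a ha _ hmem h3 with h4 | h4
      · exact absurd h4 ha1
      · apply Subtype.ext
        have : (b₂ : G)⁻¹ * b₁ = 1 := h4
        rw [inv_mul_eq_one] at this
        exact this.symm
    have hbij := hinj.bijective_of_nat_card_le hcard.ge
    obtain ⟨b, hb⟩ := hbij.2 ⟨x, hx⟩
    refine ⟨b, b.2, ?_⟩
    have h1 : (b : G) * a * (b : G)⁻¹ * a⁻¹ = x := congrArg Subtype.val hb
    rw [← h1]; group
  · intro b hb hb1 x hx
    let f : ↥(cj g V) → ↥V := fun a =>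
      ⟨a * b * (a : G)⁻¹ * b⁻¹, D.comm_mem (hAP a.2) (hBP hb)⟩
    have hinj : Function.Injective f := by
      intro b₁ b₂ h12
      have h1 : (b₁ : G) * b * (b₁ : G)⁻¹ * b⁻¹ = b₂ * b * (b₂ : G)⁻¹ * b⁻¹ :=
        congrArg Subtype.val h12
      have h2 : (b₁ : G) * b * (b₁ : G)⁻¹ = b₂ * b * (b₂ : G)⁻¹ := mul_right_cancel h1
      have h3 : ((b₂ : G)⁻¹ * b₁) * b = b * ((b₂ : G)⁻¹ * b₁) := by
        calc ((b₂ : G)⁻¹ * b₁) * b = (b₂ : G)⁻¹ * (b₁ * b * (b₁ : G)⁻¹) * b₁ := by group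
          _ = (b₂ : G)⁻¹ * (b₂ * b * (b₂ : G)⁻¹) * b₁ := by rw [h2]
          _ = _ := by group
      have hmem : (b₂ : G)⁻¹ * b₁ ∈ cj g V := Subgroup.mul_mem _ (Subgroup.inv_mem _ b₂.2) b₁.2
      rcases haniso _ hmem b hb h3 with h4 | h4
      · apply Subtype.ext
        rw [inv_mul_eq_one] at h4
        exact h4.symm
      · exact absurd h4 hb1
    have hbij := hinj.bijective_of_nat_card_le hcard'.ge
    obtain ⟨a, ha⟩ := hbij.2 ⟨x, hx⟩
    refine ⟨a, a.2, ?_⟩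
    have h1 : (a : G) * b * (a : G)⁻¹ * b⁻¹ = x := congrArg Subtype.val ha
    rw [← h1]; group

end Data

/-- The pairing is symmetric. -/
theorem Full.swap {V A B P : Subgroup G} (F : Full V A B P) : Full V B A P where
  hA := F.hB
  hB := F.hA
  hAV := F.hBV
  hBV := F.hAV
  aniso := fun a ha b hb h => (F.aniso b hb a ha h.symm).symm
  trans_A := F.trans_B
  trans_B := F.trans_A
  cA := F.cB
  cB := F.cA
  neA := F.neB
  neB := F.neA
  commA := F.commB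
  commB := F.commA
  sqA := F.sqB
  sqB := F.sqA

/-- The pairing is conjugation invariant. -/
theorem Full.conj {V A B P : Subgroup G} (F : Full V A B P) (g : G) :
    Full (cj g V) (cj g A) (cj g B) (cj g P) where
  hA := by
    rintro _ ⟨a, ha, rfl⟩
    exact ⟨a, F.hA ha, rfl⟩
  hB := by
    rintro _ ⟨a, ha, rfl⟩
    exact ⟨a, F.hB ha, rfl⟩
  hAV := by
    rintro _ ⟨a, ha, rfl⟩ hx
    rw [mem_cj] at hx
    simp only [MulEquiv.coe_toMonoidHom, MulAut.conj_apply] at hx ⊢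
    have e : g⁻¹ * (g * a * g⁻¹) * g = a := by group
    rw [e] at hx
    rw [F.hAV a ha hx]
    group
  hBV := by
    rintro _ ⟨a, ha, rfl⟩ hx
    rw [mem_cj] at hx
    simp only [MulEquiv.coe_toMonoidHom, MulAut.conj_apply] at hx ⊢
    have e : g⁻¹ * (g * a * g⁻¹) * g = a := by group
    rw [e] at hx
    rw [F.hBV a ha hx]
    group
  aniso := by
    rintro _ ⟨a, ha, rfl⟩ _ ⟨b, hb, rfl⟩ h
    simp only [MulEquiv.coe_toMonoidHom, MulAut.conj_apply] at h ⊢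
    rw [conj_mul_conj, conj_mul_conj] at h
    rcases F.aniso a ha b hb (conj_inj h) with h1 | h1
    · left; rw [h1]; group
    · right; rw [h1]; group
  trans_A := by
    rintro _ ⟨a, ha, rfl⟩ ha1 _ ⟨x, hx, rfl⟩
    simp only [MulEquiv.coe_toMonoidHom, MulAut.conj_apply] at ha1 ⊢
    have ha1' : a ≠ 1 := by
      rintro rfl
      apply ha1
      group
    obtain ⟨b, hb, h⟩ := F.trans_A a ha ha1' x hx
    refine ⟨g * b * g⁻¹, ⟨b, hb, rfl⟩, ?_⟩
    have e : g * b * g⁻¹ * (g * a * g⁻¹) * (g * b * g⁻¹)⁻¹ = g * (b * a * b⁻¹) * g⁻¹ := by group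
    rw [e, h]
    group
  trans_B := by
    rintro _ ⟨a, ha, rfl⟩ ha1 _ ⟨x, hx, rfl⟩
    simp only [MulEquiv.coe_toMonoidHom, MulAut.conj_apply] at ha1 ⊢
    have ha1' : a ≠ 1 := by
      rintro rfl
      apply ha1
      group
    obtain ⟨b, hb, h⟩ := F.trans_B a ha ha1' x hx
    refine ⟨g * b * g⁻¹, ⟨b, hb, rfl⟩, ?_⟩
    have e : g * b * g⁻¹ * (g * a * g⁻¹) * (g * b * g⁻¹)⁻¹ = g * (b * a * b⁻¹) * g⁻¹ := by group
    rw [e, h]
    group
  cA := by
    rintro _ ⟨y, hy, rfl⟩ _ ⟨a, ha, rfl⟩ ha1 hya _ ⟨a', ha', rfl⟩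
    simp only [MulEquiv.coe_toMonoidHom, MulAut.conj_apply] at ha1 hya ⊢
    have ha1' : a ≠ 1 := by
      rintro rfl
      apply ha1
      group
    rw [conj_mul_conj, conj_mul_conj] at hya ⊢
    rw [F.cA y hy a ha ha1' (conj_inj hya) a' ha']
  cB := by
    rintro _ ⟨y, hy, rfl⟩ _ ⟨a, ha, rfl⟩ ha1 hya _ ⟨a', ha', rfl⟩
    simp only [MulEquiv.coe_toMonoidHom, MulAut.conj_apply] at ha1 hya ⊢
    have ha1' : a ≠ 1 := by
      rintro rfl
      apply ha1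
      group
    rw [conj_mul_conj, conj_mul_conj] at hya ⊢
    rw [F.cB y hy a ha ha1' (conj_inj hya) a' ha']
  neA := by
    obtain ⟨a, ha, ha1⟩ := F.neA
    refine ⟨g * a * g⁻¹, ⟨a, ha, rfl⟩, ?_⟩
    intro h
    apply ha1
    have e : a = g⁻¹ * (g * a * g⁻¹) * g := by group
    rw [e, h]; group
  neB := by
    obtain ⟨a, ha, ha1⟩ := F.neB
    refine ⟨g * a * g⁻¹, ⟨a, ha, rfl⟩, ?_⟩
    intro h
    apply ha1
    have e : a = g⁻¹ * (g * a * g⁻¹) * g := by group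
    rw [e, h]; group
  commA := by
    rintro _ ⟨x, hx, rfl⟩ _ ⟨y, hy, rfl⟩
    simp only [MulEquiv.coe_toMonoidHom, MulAut.conj_apply]
    rw [conj_mul_conj, conj_mul_conj, F.commA x hx y hy]
  commB := by
    rintro _ ⟨x, hx, rfl⟩ _ ⟨y, hy, rfl⟩
    simp only [MulEquiv.coe_toMonoidHom, MulAut.conj_apply]
    rw [conj_mul_conj, conj_mul_conj, F.commB x hx y hy]
  sqA := by
    rintro _ ⟨x, hx, rfl⟩
    simp only [MulEquiv.coe_toMonoidHom, MulAut.conj_apply]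
    rw [conj_mul_conj, F.sqA x hx]
    group
  sqB := by
    rintro _ ⟨x, hx, rfl⟩
    simp only [MulEquiv.coe_toMonoidHom, MulAut.conj_apply]
    rw [conj_mul_conj, F.sqB x hx]
    group

section FullFacts

variable [Finite G] {V Q A B : Subgroup G} (D : Data V Q) (F : Full V A B (PP V Q))
include D F

/-- Elements of `P` split along `B` and `C_P(A)`. -/
theorem split {y : G} (hy : y ∈ PP V Q) :
    ∃ b ∈ B, (b⁻¹ * y) ∈ PP V Q ∧ ∀ a ∈ A, (b⁻¹ * y) * a = a * (b⁻¹ * y) := by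
  obtain ⟨a₀, ha₀, ha₀1⟩ := F.neA
  obtain ⟨b, hb, h⟩ := F.trans_A a₀ ha₀ ha₀1 _ (D.comm_mem hy (F.hA ha₀))
  have hP : b⁻¹ * y ∈ PP V Q := Subgroup.mul_mem _ (Subgroup.inv_mem _ (F.hB hb)) hy
  refine ⟨b, hb, hP, ?_⟩
  apply F.cA _ hP a₀ ha₀ ha₀1
  have e : y * a₀ * y⁻¹ * a₀⁻¹ * a₀ = y * a₀ * y⁻¹ := by group
  rw [e] at h
  calc b⁻¹ * y * a₀ = b⁻¹ * (y * a₀ * y⁻¹) * y := by group
    _ = b⁻¹ * (b * a₀ * b⁻¹) * y := by rw [h]
    _ = a₀ * (b⁻¹ * y) := by group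

/-- `C_P(C_P(A)) = VA`. -/
theorem cen_L1 {u : G} (hu : u ∈ PP V Q)
    (hc : ∀ l ∈ PP V Q, (∀ a ∈ A, l * a = a * l) → u * l = l * u) :
    ∃ v ∈ V, ∃ a ∈ A, u = v * a := by
  obtain ⟨b₀, hb₀, hb₀1⟩ := F.neB
  obtain ⟨a, ha, h⟩ := F.trans_B b₀ hb₀ hb₀1 _ (D.comm_mem hu (F.hB hb₀))
  have e : u * b₀ * u⁻¹ * b₀⁻¹ * b₀ = u * b₀ * u⁻¹ := by group
  rw [e] at h
  have hP : a⁻¹ * u ∈ PP V Q := Subgroup.mul_mem _ (Subgroup.inv_mem _ (F.hA ha)) hu
  have hzb : ∀ b ∈ B, (a⁻¹ * u) * b = b * (a⁻¹ * u) := by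
    apply F.cB _ hP b₀ hb₀ hb₀1
    calc a⁻¹ * u * b₀ = a⁻¹ * (u * b₀ * u⁻¹) * u := by group
      _ = a⁻¹ * (a * b₀ * a⁻¹) * u := by rw [h]
      _ = b₀ * (a⁻¹ * u) := by group
  have hzl : ∀ l ∈ PP V Q, (∀ a ∈ A, l * a = a * l) → (a⁻¹ * u) * l = l * (a⁻¹ * u) := by
    intro l hl hla
    have h1 : a⁻¹ * l = l * a⁻¹ := by
      have := hla a ha
      calc a⁻¹ * l = a⁻¹ * (l * a) * a⁻¹ := by group
        _ = a⁻¹ * (a * l) * a⁻¹ := by rw [this]
        _ = l * a⁻¹ := by group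
    calc a⁻¹ * u * l = a⁻¹ * (u * l) := by group
      _ = a⁻¹ * (l * u) := by rw [hc l hl hla]
      _ = (a⁻¹ * l) * u := by group
      _ = (l * a⁻¹) * u := by rw [h1]
      _ = l * (a⁻¹ * u) := by group
  have hz : a⁻¹ * u ∈ V := by
    apply D.Zcen hP
    intro y hy
    obtain ⟨b, hb, hl, hla⟩ := split D F hy
    have h3 := hzl _ hl hla
    have h4 := hzb b hb
    calc a⁻¹ * u * y = (a⁻¹ * u * b) * (b⁻¹ * y) := by group
      _ = (b * (a⁻¹ * u)) * (b⁻¹ * y) := by rw [h4]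
      _ = b * ((a⁻¹ * u) * (b⁻¹ * y)) := by group
      _ = b * ((b⁻¹ * y) * (a⁻¹ * u)) := by rw [h3]
      _ = y * (a⁻¹ * u) := by group
  refine ⟨a⁻¹ * u, hz, a, ha, ?_⟩
  have h2 := D.P_comm_V (F.hA ha) hz
  rw [← h2]
  group

end FullFacts

/-- Membership in the subgroup generated by two commuting subgroups. -/
theorem mem_sup_of_comm {V A : Subgroup G} (hc : ∀ v ∈ V, ∀ a ∈ A, v * a = a * v) {x : G} :
    x ∈ V ⊔ A ↔ ∃ v ∈ V, ∃ a ∈ A, x = v * a := by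
  constructor
  · intro hx
    rw [Subgroup.sup_eq_closure] at hx
    induction hx using Subgroup.closure_induction with
    | mem x hx =>
      rcases hx with hx | hx
      · exact ⟨x, hx, 1, A.one_mem, by simp⟩
      · exact ⟨1, V.one_mem, x, hx, by simp⟩
    | one => exact ⟨1, V.one_mem, 1, A.one_mem, by simp⟩
    | mul x y _ _ hx hy =>
      obtain ⟨v, hv, a, ha, rfl⟩ := hx
      obtain ⟨v', hv', a', ha', rfl⟩ := hy
      refine ⟨v * v', V.mul_mem hv hv', a * a', A.mul_mem ha ha', ?_⟩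
      calc v * a * (v' * a') = v * (a * v') * a' := by group
        _ = v * (v' * a) * a' := by rw [hc v' hv' a ha]
        _ = _ := by group
    | inv x _ hx =>
      obtain ⟨v, hv, a, ha, rfl⟩ := hx
      refine ⟨v⁻¹, V.inv_mem hv, a⁻¹, A.inv_mem ha, ?_⟩
      rw [mul_inv_rev]
      have h1 : a⁻¹ * v⁻¹ = v⁻¹ * a⁻¹ := by
        rw [← mul_inv_rev, ← mul_inv_rev, hc v hv a ha]
      exact h1
  · rintro ⟨v, hv, a, ha, rfl⟩
    exact Subgroup.mul_mem_sup hv ha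

end Cfsg.Agent.Lib.TIMax
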