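import Mathlib
import Cfsg.Agent.Lib.TIMax1

/-!
# `V ≤ gQg⁻¹`

Proof by contradiction of part (a), a generalization of the commutator calculus of the symplectic
pair argument with `A` in place of the central involution.
-/

set_option autoImplicit false

namespace Cfsg.Agent.Lib.TIMax

variable {G : Type*} [Group G]

/-- Working hypotheses for the contradiction. -/
structure Ctx (V Q A R B : Subgroup G) (g : G) : Prop where
  D : Data V Q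
  DA : Data A R
  eA : A = cj g V
  eR : R = cj g Q
  hAQ : A ≤ Q
  hne : A ≠ V
  F : Full V A B (PP V Q)
  hVR : ¬ V ≤ R

namespace Ctx

variable [Finite G] {V Q A R B : Subgroup G} {g : G} (C : Ctx V Q A R B g)
include C

theorem A_le_R : A ≤ R := C.DA.V_le_Q

theorem inter_VA {x : G} (hx : x ∈ V) (hxA : x ∈ A) : x = 1 := C.F.hAV x hxA hx

theorem comm_VA {x a : G} (hx : x ∈ V) (ha : a ∈ A) : x * a = a * x :=
  (C.D.P_comm_V (C.F.hA ha) hx).symm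

theorem norm_of_comm {y : G} (hy : ∀ a ∈ A, y * a = a * y) :
    y ∈ Subgroup.normalizer (A : Set G) := by
  apply mem_norm_of_conj
  intro a ha
  rw [hy a ha]
  simpa using ha

theorem V_norm_A {x : G} (hx : x ∈ V) : x ∈ Subgroup.normalizer (A : Set G) :=
  C.norm_of_comm fun _ ha => C.comm_VA hx ha

/-- The key lemma (H'). -/
theorem H {r x b : G} (hr : r ∈ R) (hx : x ∈ V) (hx1 : x ≠ 1) (hb : b ∈ A)
    (e : r * x * r⁻¹ * x⁻¹ = b) : b = 1 := by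
  by_contra hb1
  apply C.hVR
  obtain ⟨t, ht, h⟩ := C.F.trans_A b hb hb1 x hx
  have e1 : r * x * r⁻¹ = b * x := by rw [← e]; group
  have hbx : b * x = x * b := (C.comm_VA hx hb).symm
  -- the element `u`
  have hbg : g⁻¹ * b * g ∈ V := by
    have := hb
    rw [C.eA, mem_cj] at this
    exact this
  have hu : g⁻¹ * t⁻¹ * r ∈ Subgroup.normalizer (V : Set G) := by
    apply C.D.ti _ x hx hx1
    have e2 : g⁻¹ * t⁻¹ * r * x * (g⁻¹ * t⁻¹ * r)⁻¹ = g⁻¹ * b * g := by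
      calc g⁻¹ * t⁻¹ * r * x * (g⁻¹ * t⁻¹ * r)⁻¹ = g⁻¹ * t⁻¹ * (r * x * r⁻¹) * t * g := by group
        _ = g⁻¹ * t⁻¹ * (x * b) * t * g := by rw [e1, hbx]
        _ = g⁻¹ * t⁻¹ * (t * b * t⁻¹) * t * g := by rw [h]
        _ = g⁻¹ * b * g := by group
    rw [e2]
    exact hbg
  have hrN : r ∈ Subgroup.normalizer (A : Set G) := C.DA.QN hr
  have hconj : ∀ a ∈ A, t⁻¹ * a * t ∈ R := by
    intro a ha
    have h1 : r⁻¹ * a * r ∈ A := by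
      have := conj_mem_of_norm (Subgroup.inv_mem _ hrN) ha
      simpa using this
    have h2 := C.D.Qn _ hu _ (C.hAQ h1)
    have e3 : g⁻¹ * t⁻¹ * r * (r⁻¹ * a * r) * (g⁻¹ * t⁻¹ * r)⁻¹ = g⁻¹ * (t⁻¹ * a * t) * g := by group
    rw [e3] at h2
    rw [C.eR, mem_cj]
    exact h2
  have ht1 : t ≠ 1 := by
    rintro rfl
    apply hx1
    have h3 : b = x * b := by simpa using h
    exact mul_eq_right.mp h3.symm
  intro x' hx'
  have htinv : t⁻¹ ∈ B := Subgroup.inv_mem _ ht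
  obtain ⟨a, ha, h4⟩ := C.F.trans_B t⁻¹ htinv (inv_ne_one.mpr ht1) x' hx'
  have e4 : x' = a * (t⁻¹ * a⁻¹ * t) := by
    have : x' = a * t⁻¹ * a⁻¹ * t⁻¹⁻¹ := by rw [h4]; group
    rw [this]; group
  rw [e4]
  exact R.mul_mem (C.A_le_R ha) (hconj _ (Subgroup.inv_mem _ ha))

/-- `V ∩ R = 1`. -/
theorem V_inter_R {i : G} (hi : i ∈ V) (hiR : i ∈ R) : i = 1 := by
  by_contra hi1
  have hiL : i ∈ PP A R := mem_PP.mpr ⟨hiR, fun a ha => C.comm_VA hi ha⟩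
  have h1 : ∀ y ∈ PP A R, i * y = y * i := by
    intro y hy
    have h2 := C.H (C.DA.P_le_Q hy) hi hi1 (C.DA.comm_mem hy hiL) rfl
    rw [mul_inv_eq_one, mul_inv_eq_iff_eq_mul] at h2
    exact h2.symm
  exact hi1 (C.inter_VA hi (C.DA.Zcen hiL h1))

section dprops

variable {x y : G}

theorem d_mem (hx : x ∈ V) (hy : y ∈ PP A R) : x * y * x⁻¹ * y⁻¹ ∈ PP A R :=
  Subgroup.mul_mem _ (C.DA.P_conj (C.V_norm_A hx) hy) (Subgroup.inv_mem _ hy)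

/-- The properties of `D = [x, y]`. -/
theorem d_props (hx : x ∈ V) (hy : y ∈ PP A R) :
    (x * y * x⁻¹ * y⁻¹) * x = x * (x * y * x⁻¹ * y⁻¹) ∧
      (x * y * x⁻¹ * y⁻¹) * (x * y * x⁻¹ * y⁻¹) = 1 ∧
      (x * y * x⁻¹ * y⁻¹) * y = y * (x * y * x⁻¹ * y⁻¹) := by
  have hxx : x * x = 1 := C.D.sq x hx
  have hxi : x⁻¹ = x := C.D.inv_eq hx
  have hdm := C.d_mem hx hy
  set d := x * y * x⁻¹ * y⁻¹ with hd
  have hxd : x * d * x⁻¹ = d⁻¹ := by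
    rw [hd, hxi]
    calc x * (x * y * x * y⁻¹) * x = (x * x) * y * x * y⁻¹ * x := by group
      _ = y * x * y⁻¹ * x := by rw [hxx, one_mul]
      _ = (x * y * x * y⁻¹)⁻¹ := by rw [mul_inv_rev, mul_inv_rev, mul_inv_rev, inv_inv, hxi]; group
  have hd2 : d * d = 1 := by
    by_cases hx1 : x = 1
    · rw [hd, hx1]; group
    · have h1 := C.DA.sq_mem hdm
      have e : d * x * d⁻¹ * x⁻¹ = d * d := by
        calc d * x * d⁻¹ * x⁻¹ = d * (x * d * x⁻¹)⁻¹ := by group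
          _ = d * d := by rw [hxd, inv_inv]
      exact C.H (C.DA.P_le_Q hdm) hx hx1 h1 e
  have hdi : d⁻¹ = d := inv_eq_of_mul_eq_one_left hd2
  have h1 : d * x = x * d := by
    have := hxd
    rw [hdi, mul_inv_eq_iff_eq_mul] at this
    exact this.symm
  refine ⟨h1, hd2, ?_⟩
  -- `y` commutes with `d`
  have hyy : y * y ∈ A := C.DA.sq_mem hy
  have e1 : x * y * x⁻¹ = d * y := by rw [hd]; group
  have e2 : (d * y) * (d * y) = y * y := by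
    rw [← e1]
    calc (x * y * x⁻¹) * (x * y * x⁻¹) = x * (y * y) * x⁻¹ := by group
      _ = y * y := by rw [C.comm_VA hx hyy]; group
  have e3 : d * y * d = y := by
    have : (d * y * d) * y = y * y := by rw [← e2]; group
    exact mul_right_cancel this
  calc d * y = d * y * d * d⁻¹ := by group
    _ = y * d := by rw [e3, hdi]

end dprops

/-- `P ∩ P_A = A`. -/
theorem e_mem {e : G} (heP : e ∈ PP V Q) (heL : e ∈ PP A R) : e ∈ A := by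
  have h1 : ∀ l ∈ PP V Q, (∀ a ∈ A, l * a = a * l) → e * l = l * e := by
    intro l hl hla
    have hlN := C.norm_of_comm hla
    have h2 : l * e * l⁻¹ * e⁻¹ ∈ PP A R :=
      Subgroup.mul_mem _ (C.DA.P_conj hlN heL) (Subgroup.inv_mem _ heL)
    have h3 : l * e * l⁻¹ * e⁻¹ ∈ V := C.D.comm_mem hl heP
    have h4 := C.V_inter_R h3 (C.DA.P_le_Q h2)
    rw [mul_inv_eq_one, mul_inv_eq_iff_eq_mul] at h4
    exact h4.symm
  obtain ⟨v, hv, a, ha, rfl⟩ := cen_L1 C.D C.F heP h1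
  have hvL : v ∈ PP A R := by
    have : v = v * a * a⁻¹ := by group
    rw [this]
    exact Subgroup.mul_mem _ heL (Subgroup.inv_mem _ (C.DA.V_le_P ha))
  rw [C.V_inter_R hv (C.DA.P_le_Q hvL), one_mul]
  exact ha

/-- (2') `[l, f] ∈ A`. -/
theorem comm_lf {l f x : G} (hl : l ∈ PP V Q) (hla : ∀ a ∈ A, l * a = a * l) (hf : f ∈ PP A R)
    (hx : x ∈ V) (hx1 : x ≠ 1) (hfx : f * x = x * f) : l * f * l⁻¹ * f⁻¹ ∈ A := by
  have hfM : f ∈ Subgroup.normalizer (V : Set G) := by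
    apply C.D.ti f x hx hx1
    rw [hfx]
    simpa using hx
  apply C.e_mem
  · have h1 : f * l⁻¹ * f⁻¹ ∈ PP V Q := C.D.P_conj hfM (Subgroup.inv_mem _ hl)
    have e : l * f * l⁻¹ * f⁻¹ = l * (f * l⁻¹ * f⁻¹) := by group
    rw [e]
    exact Subgroup.mul_mem _ hl h1
  · exact Subgroup.mul_mem _ (C.DA.P_conj (C.norm_of_comm hla) hf) (Subgroup.inv_mem _ hf)

/-- (4') -/
theorem comm_centralizer {x p : G} (hx : x ∈ V) (hx1 : x ≠ 1) (hp : p ∈ PP A R)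
    (hR : ∀ f ∈ PP A R, f * x = x * f → p * f = f * p) : p * x = x * p := by
  have hxi : x⁻¹ = x := C.D.inv_eq hx
  have hN := C.V_norm_A hx
  have hdp := C.d_mem hx hp
  set dp := x * p * x⁻¹ * p⁻¹ with hdpdef
  -- `dp` is central in `L`
  have hcen : ∀ y ∈ PP A R, dp * y = y * dp := by
    intro y' hy'
    have hy : x * y' * x⁻¹ ∈ PP A R := C.DA.P_conj hN hy'
    set y := x * y' * x⁻¹ with hydef
    have hdy := C.d_mem hx hy
    have hdyx := (C.d_props hx hy).1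
    set dy := x * y * x⁻¹ * y⁻¹ with hdydef
    have h1 : p * dy = dy * p := hR dy hdy hdyx
    have hy'eq : y' = dy * y := by
      rw [hdydef, hydef]
      calc y' = (x * x) * y' * (x * x) := by rw [C.D.sq x hx]; group
        _ = _ := by rw [hxi]; group
    -- invariance of `[p, y]`
    have hc : p * y * p⁻¹ * y⁻¹ ∈ A := C.DA.comm_mem hp hy
    have h2 : x * (p * y * p⁻¹ * y⁻¹) * x⁻¹ = p * y * p⁻¹ * y⁻¹ := by
      rw [C.comm_VA hx hc]; group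
    have e1 : x * p * x⁻¹ = dp * p := by rw [hdpdef]; group
    have e2 : x * y * x⁻¹ = dy * y := by rw [hdydef]; group
    have e3 : x * (p * y * p⁻¹ * y⁻¹) * x⁻¹ =
        (dp * p) * (dy * y) * (dp * p)⁻¹ * (dy * y)⁻¹ := by
      rw [← e1, ← e2]; group
    rw [e3, C.DA.comm_mul_left hdp hp (Subgroup.mul_mem _ hdy hy),
      C.DA.comm_mul_right hp hdy hy] at h2
    have h3 : p * dy * p⁻¹ * dy⁻¹ = 1 := by rw [h1]; group
    rw [h3, one_mul] at h2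
    have h4 : dp * (dy * y) * dp⁻¹ * (dy * y)⁻¹ = 1 := mul_eq_right.mp h2
    rw [mul_inv_eq_one, mul_inv_eq_iff_eq_mul] at h4
    rw [hy'eq]
    exact h4
  have hdpA : dp ∈ A := C.DA.Zcen hdp hcen
  have e : p * x * p⁻¹ * x⁻¹ = dp⁻¹ := by rw [hdpdef]; group
  have h5 := C.H (C.DA.P_le_Q hp) hx hx1 (A.inv_mem hdpA) e
  rw [← e, mul_inv_eq_one, mul_inv_eq_iff_eq_mul] at h5
  exact h5

/-- (5') -/
theorem comm_yl {y l x : G} (hy : y ∈ PP A R) (hl : l ∈ PP V Q) (hla : ∀ a ∈ A, l * a = a * l)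
    (hx : x ∈ V) (hx1 : x ≠ 1) : (l * y * l⁻¹ * y⁻¹) * x = x * (l * y * l⁻¹ * y⁻¹) := by
  have hlN := C.norm_of_comm hla
  have hc : l * y * l⁻¹ * y⁻¹ ∈ PP A R :=
    Subgroup.mul_mem _ (C.DA.P_conj hlN hy) (Subgroup.inv_mem _ hy)
  apply C.comm_centralizer hx hx1 hc
  intro f hf hfx
  set c := l * y * l⁻¹ * y⁻¹ with hcdef
  have hα := C.comm_lf hl hla hf hx hx1 hfx
  set α := l * f * l⁻¹ * f⁻¹ with hαdef
  have hβ : y * f * y⁻¹ * f⁻¹ ∈ A := C.DA.comm_mem hy hf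
  set β := y * f * y⁻¹ * f⁻¹ with hβdef
  have h1 : l * β * l⁻¹ = β := by rw [hla β hβ]; group
  have e1 : l * y * l⁻¹ = c * y := by rw [hcdef]; group
  have e2 : l * f * l⁻¹ = α * f := by rw [hαdef]; group
  have hαc : ∀ w ∈ PP A R, α * w = w * α := fun w hw => (C.DA.P_comm_V hw hα).symm
  have e3 : l * β * l⁻¹ = (c * y) * (α * f) * (c * y)⁻¹ * (α * f)⁻¹ := by
    rw [← e1, ← e2, hβdef]; group
  have hcyL : c * y ∈ PP A R := Subgroup.mul_mem _ hc hy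
  have e4 : (c * y) * (α * f) * (c * y)⁻¹ * (α * f)⁻¹ = (c * y) * f * (c * y)⁻¹ * f⁻¹ := by
    have h2 := hαc (c * y) hcyL
    calc (c * y) * (α * f) * (c * y)⁻¹ * (α * f)⁻¹
        = ((c * y) * α) * f * (c * y)⁻¹ * f⁻¹ * α⁻¹ := by group
      _ = (α * (c * y)) * f * (c * y)⁻¹ * f⁻¹ * α⁻¹ := by rw [h2]
      _ = α * ((c * y) * f * (c * y)⁻¹ * f⁻¹) * α⁻¹ := by group
      _ = _ := by
        have h3 := hαc _ (Subgroup.mul_mem _ (Subgroup.mul_mem _ (Subgroup.mul_mem _ hcyL hf)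
          (Subgroup.inv_mem _ hcyL)) (Subgroup.inv_mem _ hf))
        rw [h3]; group
  rw [e3, e4, C.DA.comm_mul_left hc hy hf] at h1
  have h5 : c * f * c⁻¹ * f⁻¹ = 1 := mul_eq_right.mp h1
  rw [mul_inv_eq_one, mul_inv_eq_iff_eq_mul] at h5
  exact h5

/-- (6') `C_P(A)` is abelian. -/
theorem L1_comm {l₁ l₂ : G} (h1 : l₁ ∈ PP V Q) (h1a : ∀ a ∈ A, l₁ * a = a * l₁) (h2 : l₂ ∈ PP V Q)
    (h2a : ∀ a ∈ A, l₂ * a = a * l₂) : l₁ * l₂ = l₂ * l₁ := by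
  by_contra hne
  have hx₀ : l₁ * l₂ * l₁⁻¹ * l₂⁻¹ ∈ V := C.D.comm_mem h1 h2
  set x₀ := l₁ * l₂ * l₁⁻¹ * l₂⁻¹ with hx₀def
  have hx₀1 : x₀ ≠ 1 := by
    intro h
    apply hne
    rw [hx₀def, mul_inv_eq_one, mul_inv_eq_iff_eq_mul] at h
    exact h
  have hN1 := C.norm_of_comm h1a
  have hN2 := C.norm_of_comm h2a
  have hmain : ∀ y₁ ∈ PP A R, x₀ * y₁ * x₀⁻¹ * y₁⁻¹ ∈ A := by
    intro y₁ hy₁
    have hN : (l₂ * l₁)⁻¹ ∈ Subgroup.normalizer (A : Set G) :=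
      Subgroup.inv_mem _ (Subgroup.mul_mem _ hN2 hN1)
    have hy : (l₂ * l₁)⁻¹ * y₁ * (l₂ * l₁) ∈ PP A R := by
      have := C.DA.P_conj hN hy₁
      simpa using this
    set y := (l₂ * l₁)⁻¹ * y₁ * (l₂ * l₁) with hydef
    have hy₁eq : y₁ = (l₂ * l₁) * y * (l₂ * l₁)⁻¹ := by rw [hydef]; group
    have hc₁ : l₁ * y * l₁⁻¹ * y⁻¹ ∈ PP A R :=
      Subgroup.mul_mem _ (C.DA.P_conj hN1 hy) (Subgroup.inv_mem _ hy)
    have hc₂ : l₂ * y * l₂⁻¹ * y⁻¹ ∈ PP A R :=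
      Subgroup.mul_mem _ (C.DA.P_conj hN2 hy) (Subgroup.inv_mem _ hy)
    have hc₁x := C.comm_yl hy h1 h1a hx₀ hx₀1
    have hc₂x := C.comm_yl hy h2 h2a hx₀ hx₀1
    set c₁ := l₁ * y * l₁⁻¹ * y⁻¹ with hc₁def
    set c₂ := l₂ * y * l₂⁻¹ * y⁻¹ with hc₂def
    have hα := C.comm_lf h1 h1a hc₂ hx₀ hx₀1 hc₂x
    have hβ := C.comm_lf h2 h2a hc₁ hx₀ hx₀1 hc₁x
    set α := l₁ * c₂ * l₁⁻¹ * c₂⁻¹ with hαdef
    set β := l₂ * c₁ * l₂⁻¹ * c₁⁻¹ with hβdef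
    have e1 : l₁ * y * l₁⁻¹ = c₁ * y := by rw [hc₁def]; group
    have e2 : l₂ * y * l₂⁻¹ = c₂ * y := by rw [hc₂def]; group
    have e3 : l₁ * c₂ * l₁⁻¹ = α * c₂ := by rw [hαdef]; group
    have e4 : l₂ * c₁ * l₂⁻¹ = β * c₁ := by rw [hβdef]; group
    have e5 : (l₁ * l₂) * y * (l₁ * l₂)⁻¹ = α * c₂ * (c₁ * y) := by
      calc (l₁ * l₂) * y * (l₁ * l₂)⁻¹ = l₁ * (l₂ * y * l₂⁻¹) * l₁⁻¹ := by group
        _ = l₁ * (c₂ * y) * l₁⁻¹ := by rw [e2]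
        _ = (l₁ * c₂ * l₁⁻¹) * (l₁ * y * l₁⁻¹) := by group
        _ = _ := by rw [e1, e3]
    have e6 : (l₂ * l₁) * y * (l₂ * l₁)⁻¹ = β * c₁ * (c₂ * y) := by
      calc (l₂ * l₁) * y * (l₂ * l₁)⁻¹ = l₂ * (l₁ * y * l₁⁻¹) * l₂⁻¹ := by group
        _ = l₂ * (c₁ * y) * l₂⁻¹ := by rw [e1]
        _ = (l₂ * c₁ * l₂⁻¹) * (l₂ * y * l₂⁻¹) := by group
        _ = _ := by rw [e2, e4]
    have e7 : x₀ * y₁ * x₀⁻¹ = (l₁ * l₂) * y * (l₁ * l₂)⁻¹ := by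
      rw [hy₁eq, hx₀def]; group
    have e8 : x₀ * y₁ * x₀⁻¹ * y₁⁻¹ = α * (c₂ * c₁ * c₂⁻¹ * c₁⁻¹) * β⁻¹ := by
      rw [e7, e5]
      have : y₁⁻¹ = (β * c₁ * (c₂ * y))⁻¹ := by
        rw [← e6, ← hy₁eq]
      rw [this]
      group
    rw [e8]
    exact A.mul_mem (A.mul_mem hα (C.DA.comm_mem hc₂ hc₁)) (A.inv_mem hβ)
  have hcen : ∀ y ∈ PP A R, x₀ * y = y * x₀ := by
    intro y hy
    have h3 := hmain y hy
    have e : y * x₀ * y⁻¹ * x₀⁻¹ = (x₀ * y * x₀⁻¹ * y⁻¹)⁻¹ := by group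
    have h4 := inv_eq_one.mp (C.H (C.DA.P_le_Q hy) hx₀ hx₀1 (A.inv_mem h3) e)
    rw [mul_inv_eq_one, mul_inv_eq_iff_eq_mul] at h4
    exact h4
  exact hx₀1 (C.inter_VA hx₀ (C.DA.CMP (C.V_norm_A hx₀) hcen))

/-- Normal form of elements of `P`. -/
theorem normal_form {y : G} (hy : y ∈ PP V Q) : ∃ v ∈ V, ∃ a ∈ A, ∃ b ∈ B, y = v * a * b := by
  obtain ⟨b, hb, hl, hla⟩ := split C.D C.F hy
  obtain ⟨v, hv, a, ha, e⟩ := cen_L1 C.D C.F hl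
    (fun l hl' hla' => C.L1_comm hl hla hl' hla')
  have hc : b * a * b⁻¹ * a⁻¹ ∈ V := C.D.comm_mem (C.F.hB hb) (C.F.hA ha)
  refine ⟨(b * a * b⁻¹ * a⁻¹)⁻¹ ⁻¹ * v, V.mul_mem (V.inv_mem (V.inv_mem hc)) hv, a, ha, b, hb, ?_⟩
  have e1 : y = b * (v * a) := by rw [← e]; group
  have e2 : b * v = v * b := C.D.P_comm_V (C.F.hB hb) hv
  have e3 : (b * a * b⁻¹ * a⁻¹) * v = v * (b * a * b⁻¹ * a⁻¹) := C.D.comm _ hc _ hv
  rw [e1, inv_inv]
  calc b * (v * a) = (b * v) * a := by group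
    _ = v * b * a := by rw [e2]
    _ = v * (b * a * b⁻¹ * a⁻¹) * a * b := by group
    _ = (b * a * b⁻¹ * a⁻¹) * v * a * b := by rw [e3]

end Ctx

section small

variable [Finite G] {A R B₁ B₂ V Q : Subgroup G}

/-- The final contradiction: the action of `x` on `P_A = A B₁ B₂`. -/
theorem false_small {B : Subgroup G} {g : G} (C : Ctx V Q A R B g)
    (F' : Full A B₁ B₂ (PP A R))
    (hform : ∀ y ∈ PP A R, ∃ a ∈ A, ∃ b₁ ∈ B₁, ∃ b₂ ∈ B₂, y = a * b₁ * b₂) : False := by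
  obtain ⟨x, hx, hx1⟩ : ∃ x ∈ V, x ≠ 1 := by
    by_contra hall
    push Not at hall
    obtain ⟨a, ha, ha1⟩ := C.F.neA
    have hle : V ≤ ⊥ := fun v hv => Subgroup.mem_bot.mpr (hall v hv)
    apply ha1
    have hVbot : V = ⊥ := le_bot_iff.mp hle
    have hQ := C.eA
    rw [hVbot] at hQ
    have : a ∈ cj g (⊥ : Subgroup G) := hQ ▸ ha
    rw [mem_cj, Subgroup.mem_bot] at this
    have e : a = g * (g⁻¹ * a * g) * g⁻¹ := by group
    rw [e, this]; group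
  have hAcen : ∀ a ∈ A, ∀ y ∈ PP A R, a * y = y * a := fun a ha y hy =>
    (C.DA.P_comm_V hy ha).symm
  have hB1 : ∀ {b}, b ∈ B₁ → b ∈ PP A R := fun h => F'.hA h
  have hB2 : ∀ {b}, b ∈ B₂ → b ∈ PP A R := fun h => F'.hB h
  have hsqA : ∀ a ∈ A, a * a = 1 := C.DA.sq
  -- `D² = 1` forces a trivial component
  have hsq : ∀ {a c₁ c₂ : G}, a ∈ A → c₁ ∈ B₁ → c₂ ∈ B₂ → (a * c₁ * c₂) * (a * c₁ * c₂) = 1 →
      c₁ = 1 ∨ c₂ = 1 := by
    intro a c₁ c₂ ha h1 h2 h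
    apply F'.aniso c₁ h1 c₂ h2
    have e : (a * c₁ * c₂) * (a * c₁ * c₂) = (a * a) * (c₁ * c₂ * c₁ * c₂) := by
      have hc := hAcen a ha (c₁ * c₂) (Subgroup.mul_mem _ (hB1 h1) (hB2 h2))
      calc (a * c₁ * c₂) * (a * c₁ * c₂) = a * (c₁ * c₂ * a) * (c₁ * c₂) := by group
        _ = a * (a * (c₁ * c₂)) * (c₁ * c₂) := by rw [hc]
        _ = _ := by group
    rw [e, hsqA a ha, one_mul] at h
    have hs1 := F'.sqB c₂ h2
    have hs2 := F'.sqA c₁ h1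
    have i1 : c₁⁻¹ = c₁ := inv_eq_of_mul_eq_one_left hs2
    have i2 : c₂⁻¹ = c₂ := inv_eq_of_mul_eq_one_left hs1
    have h' : (c₁ * c₂) * (c₁ * c₂) = 1 := by rw [← h]; group
    have h'' := eq_inv_of_mul_eq_one_left h'
    rw [mul_inv_rev, i1, i2] at h''
    exact h''
  -- `D = [x, y] ∈ A` is trivial
  have hDA : ∀ {y}, y ∈ PP A R → x * y * x⁻¹ * y⁻¹ ∈ A → x * y = y * x := by
    intro y hy hd
    have e : y * x * y⁻¹ * x⁻¹ = (x * y * x⁻¹ * y⁻¹)⁻¹ := by group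
    have h4 := inv_eq_one.mp (C.H (C.DA.P_le_Q hy) hx hx1 (A.inv_mem hd) e)
    rw [mul_inv_eq_one, mul_inv_eq_iff_eq_mul] at h4
    exact h4
  -- the two single cases
  have hone1 : ∀ b₁ ∈ B₁, b₁ ≠ 1 → ∃ a ∈ A, ∃ c₁ ∈ B₁, x * b₁ * x⁻¹ * b₁⁻¹ = a * c₁ := by
    intro b₁ hb₁ hb₁1
    obtain ⟨h1, h2, h3⟩ := C.d_props hx (hB1 hb₁)
    obtain ⟨a, ha, c₁, hc₁, c₂, hc₂, e⟩ := hform _ (C.d_mem hx (hB1 hb₁))
    rw [e] at h2 h3
    have hc₂1 : c₂ = 1 := by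
      rcases hsq ha hc₁ hc₂ h2 with h4 | h4
      · -- `c₁ = 1`: `c₂` commutes with `b₁`
        rw [h4, mul_one] at h3
        have h5 := hAcen a ha b₁ (hB1 hb₁)
        have h6 : c₂ * b₁ = b₁ * c₂ := by
          have : a * (c₂ * b₁) = a * (b₁ * c₂) := by
            calc a * (c₂ * b₁) = a * c₂ * b₁ := by group
              _ = b₁ * (a * c₂) := h3
              _ = (b₁ * a) * c₂ := by group
              _ = (a * b₁) * c₂ := by rw [h5]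
              _ = a * (b₁ * c₂) := by group
          exact mul_left_cancel this
        rcases F'.aniso b₁ hb₁ c₂ hc₂ h6.symm with h7 | h7
        · exact absurd h7 hb₁1
        · exact h7
      · exact h4
    exact ⟨a, ha, c₁, hc₁, by rw [e, hc₂1, mul_one]⟩
  have hone2 : ∀ b₂ ∈ B₂, b₂ ≠ 1 → ∃ a ∈ A, ∃ c₂ ∈ B₂, x * b₂ * x⁻¹ * b₂⁻¹ = a * c₂ := by
    intro b₂ hb₂ hb₂1
    obtain ⟨h1, h2, h3⟩ := C.d_props hx (hB2 hb₂)
    obtain ⟨a, ha, c₁, hc₁, c₂, hc₂, e⟩ := hform _ (C.d_mem hx (hB2 hb₂))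
    rw [e] at h2 h3
    have hc₁1 : c₁ = 1 := by
      rcases hsq ha hc₁ hc₂ h2 with h4 | h4
      · exact h4
      · rw [h4, mul_one] at h3
        have h5 := hAcen a ha b₂ (hB2 hb₂)
        have h6 : c₁ * b₂ = b₂ * c₁ := by
          have : a * (c₁ * b₂) = a * (b₂ * c₁) := by
            calc a * (c₁ * b₂) = a * c₁ * b₂ := by group
              _ = b₂ * (a * c₁) := h3
              _ = (b₂ * a) * c₁ := by group
              _ = (a * b₂) * c₁ := by rw [h5]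
              _ = a * (b₂ * c₁) := by group
          exact mul_left_cancel this
        rcases F'.aniso c₁ hc₁ b₂ hb₂ h6 with h7 | h7
        · exact h7
        · exact absurd h7 hb₂1
    exact ⟨a, ha, c₂, hc₂, by rw [e, hc₁1, mul_one]⟩
  -- the product case
  have hprod : ∀ b₁ ∈ B₁, ∀ b₂ ∈ B₂, b₁ ≠ 1 → b₂ ≠ 1 → x * (b₁ * b₂) = (b₁ * b₂) * x := by
    intro b₁ hb₁ b₂ hb₂ hb₁1 hb₂1
    have hy : b₁ * b₂ ∈ PP A R := Subgroup.mul_mem _ (hB1 hb₁) (hB2 hb₂)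
    obtain ⟨h1, h2, h3⟩ := C.d_props hx hy
    obtain ⟨a, ha, c₁, hc₁, c₂, hc₂, e⟩ := hform _ (C.d_mem hx hy)
    rw [e] at h2 h3
    apply hDA hy
    rw [e]
    have hcab : ∀ c, c ∈ PP A R → (a * c) * (b₁ * b₂) = (b₁ * b₂) * (a * c) →
        c * (b₁ * b₂) = (b₁ * b₂) * c := by
      intro c _ h
      have h5 := hAcen a ha _ hy
      have : a * (c * (b₁ * b₂)) = a * ((b₁ * b₂) * c) := by
        calc a * (c * (b₁ * b₂)) = (a * c) * (b₁ * b₂) := by group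
          _ = (b₁ * b₂) * (a * c) := h
          _ = ((b₁ * b₂) * a) * c := by group
          _ = (a * (b₁ * b₂)) * c := by rw [h5]
          _ = _ := by group
      exact mul_left_cancel this
    rcases hsq ha hc₁ hc₂ h2 with h4 | h4
    · -- `c₁ = 1`
      rw [h4, mul_one] at h3 ⊢
      have h5 := hcab c₂ (hB2 hc₂) h3
      have h6 : c₂ * b₁ = b₁ * c₂ := by
        have hcc := F'.commB c₂ hc₂ b₂ hb₂
        have : (c₂ * b₁) * b₂ = (b₁ * c₂) * b₂ := by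
          calc (c₂ * b₁) * b₂ = c₂ * (b₁ * b₂) := by group
            _ = (b₁ * b₂) * c₂ := h5
            _ = b₁ * (b₂ * c₂) := by group
            _ = b₁ * (c₂ * b₂) := by rw [hcc]
            _ = _ := by group
        exact mul_right_cancel this
      rcases F'.aniso b₁ hb₁ c₂ hc₂ h6.symm with h7 | h7
      · exact absurd h7 hb₁1
      · rw [h7, mul_one]; exact ha
    · rw [h4, mul_one] at h3 ⊢
      have h5 := hcab c₁ (hB1 hc₁) h3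
      have h6 : c₁ * b₂ = b₂ * c₁ := by
        have hcc := F'.commA c₁ hc₁ b₁ hb₁
        have : b₁ * (c₁ * b₂) = b₁ * (b₂ * c₁) := by
          calc b₁ * (c₁ * b₂) = (b₁ * c₁) * b₂ := by group
            _ = (c₁ * b₁) * b₂ := by rw [hcc]
            _ = c₁ * (b₁ * b₂) := by group
            _ = (b₁ * b₂) * c₁ := h5
            _ = _ := by group
        exact mul_left_cancel this
      rcases F'.aniso c₁ hc₁ b₂ hb₂ h6 with h7 | h7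
      · rw [h7, mul_one]; exact ha
      · exact absurd h7 hb₂1
  -- all of `B₁` and `B₂` commute with `x`
  have hboth : ∀ b₁ ∈ B₁, ∀ b₂ ∈ B₂, b₁ ≠ 1 → b₂ ≠ 1 → x * b₁ = b₁ * x ∧ x * b₂ = b₂ * x := by
    intro b₁ hb₁ b₂ hb₂ hb₁1 hb₂1
    have hp := hprod b₁ hb₁ b₂ hb₂ hb₁1 hb₂1
    obtain ⟨a₁, ha₁, c₁, hc₁, e₁⟩ := hone1 b₁ hb₁ hb₁1
    obtain ⟨a₂, ha₂, c₂, hc₂, e₂⟩ := hone2 b₂ hb₂ hb₂1
    have e1' : x * b₁ * x⁻¹ = a₁ * c₁ * b₁ := by rw [← e₁]; group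
    have e2' : x * b₂ * x⁻¹ = a₂ * c₂ * b₂ := by rw [← e₂]; group
    have hp' : (a₁ * c₁ * b₁) * (a₂ * c₂ * b₂) = b₁ * b₂ := by
      rw [← e1', ← e2']
      calc x * b₁ * x⁻¹ * (x * b₂ * x⁻¹) = x * (b₁ * b₂) * x⁻¹ := by group
        _ = b₁ * b₂ := by rw [hp]; group
    -- `c₁ c₂ ∈ A`
    have hα : b₁ * c₂ * b₁⁻¹ * c₂⁻¹ ∈ A := C.DA.comm_mem (hB1 hb₁) (hB2 hc₂)
    set α := b₁ * c₂ * b₁⁻¹ * c₂⁻¹ with hαdef
    have e3 : b₁ * c₂ = α * c₂ * b₁ := by rw [hαdef]; group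
    have hcc1 : a₂ * c₁ = c₁ * a₂ := hAcen a₂ ha₂ c₁ (hB1 hc₁)
    have hcc2 : a₂ * b₁ = b₁ * a₂ := hAcen a₂ ha₂ b₁ (hB1 hb₁)
    have hcc3 : α * c₁ = c₁ * α := hAcen α hα c₁ (hB1 hc₁)
    have e4 : (a₁ * c₁ * b₁) * (a₂ * c₂ * b₂) = a₁ * a₂ * α * (c₁ * c₂) * b₁ * b₂ := by
      calc (a₁ * c₁ * b₁) * (a₂ * c₂ * b₂) = a₁ * c₁ * (b₁ * a₂) * c₂ * b₂ := by group
        _ = a₁ * c₁ * (a₂ * b₁) * c₂ * b₂ := by rw [hcc2]
        _ = a₁ * (c₁ * a₂) * (b₁ * c₂) * b₂ := by group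
        _ = a₁ * (a₂ * c₁) * (α * c₂ * b₁) * b₂ := by rw [hcc1, e3]
        _ = a₁ * a₂ * (c₁ * α) * c₂ * b₁ * b₂ := by group
        _ = a₁ * a₂ * (α * c₁) * c₂ * b₁ * b₂ := by rw [hcc3]
        _ = _ := by group
    rw [e4] at hp'
    have e5 : a₁ * a₂ * α * (c₁ * c₂) = 1 := by
      have : a₁ * a₂ * α * (c₁ * c₂) * (b₁ * b₂) = 1 * (b₁ * b₂) := by
        calc a₁ * a₂ * α * (c₁ * c₂) * (b₁ * b₂) = a₁ * a₂ * α * (c₁ * c₂) * b₁ * b₂ := by group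
          _ = b₁ * b₂ := hp'
          _ = _ := (one_mul _).symm
      exact mul_right_cancel this
    have hA' : a₁ * a₂ * α ∈ A := A.mul_mem (A.mul_mem ha₁ ha₂) hα
    set a' := a₁ * a₂ * α with ha'
    have e6 : c₁ * c₂ = a'⁻¹ := eq_inv_of_mul_eq_one_right e5
    have e7 : c₂ = c₁⁻¹ * a'⁻¹ := by rw [← e6]; group
    have hcomm12 : c₁ * c₂ = c₂ * c₁ := by
      have hh := hAcen _ (A.inv_mem hA') c₁ (hB1 hc₁)
      rw [e7]
      calc c₁ * (c₁⁻¹ * a'⁻¹) = a'⁻¹ := by group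
        _ = c₁⁻¹ * (c₁ * a'⁻¹) := by group
        _ = c₁⁻¹ * (a'⁻¹ * c₁) := by rw [hh]
        _ = (c₁⁻¹ * a'⁻¹) * c₁ := by group
    have hboth1 : c₁ = 1 ∧ c₂ = 1 := by
      rcases F'.aniso c₁ hc₁ c₂ hc₂ hcomm12 with h | h
      · refine ⟨h, ?_⟩
        rw [h, one_mul] at e6
        apply F'.hBV c₂ hc₂
        rw [e6]; exact A.inv_mem hA'
      · refine ⟨?_, h⟩
        rw [h, mul_one] at e6
        apply F'.hAV c₁ hc₁
        rw [e6]; exact A.inv_mem hA'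
    constructor
    · apply hDA (hB1 hb₁)
      rw [e₁, hboth1.1, mul_one]; exact ha₁
    · apply hDA (hB2 hb₂)
      rw [e₂, hboth1.2, mul_one]; exact ha₂
  obtain ⟨u₁, hu₁, hu₁1⟩ := F'.neA
  obtain ⟨u₂, hu₂, hu₂1⟩ := F'.neB
  have hc1 : ∀ b₁ ∈ B₁, x * b₁ = b₁ * x := by
    intro b₁ hb₁
    by_cases h : b₁ = 1
    · rw [h]; group
    · exact (hboth b₁ hb₁ u₂ hu₂ h hu₂1).1
  have hc2 : ∀ b₂ ∈ B₂, x * b₂ = b₂ * x := by
    intro b₂ hb₂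
    by_cases h : b₂ = 1
    · rw [h]; group
    · exact (hboth u₁ hu₁ b₂ hb₂ hu₁1 h).2
  have hcen : ∀ y ∈ PP A R, x * y = y * x := by
    intro y hy
    obtain ⟨a, ha, b₁, hb₁, b₂, hb₂, rfl⟩ := hform y hy
    have h1 := C.comm_VA hx ha
    calc x * (a * b₁ * b₂) = (x * a) * b₁ * b₂ := by group
      _ = a * (x * b₁) * b₂ := by rw [h1]; group
      _ = a * b₁ * (x * b₂) := by rw [hc1 b₁ hb₁]; group
      _ = _ := by rw [hc2 b₂ hb₂]; group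
  exact hx1 (C.inter_VA hx (C.DA.CMP (C.V_norm_A hx) hcen))

/-- Part (a): `V ≤ gQg⁻¹`. -/
theorem Data.V_le_R {V Q : Subgroup G} (D : Data V Q) {g : G} (hAQ : cj g V ≤ Q) (hne : cj g V ≠ V) :
    V ≤ cj g Q := by
  by_contra hVR
  obtain ⟨m, _, F⟩ := D.exists_full hAQ hne
  have C : Ctx V Q (cj g V) (cj g Q) (cj (m * g) V) g :=
    ⟨D, D.conj g, rfl, rfl, hAQ, hne, F, hVR⟩
  have F' : Full (cj g V) (cj g (cj g V)) (cj g (cj (m * g) V)) (PP (cj g V) (cj g Q)) := by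
    have := F.conj g
    rwa [cj_PP] at this
  refine false_small C F' ?_
  intro y hy
  rw [← cj_PP, mem_cj] at hy
  obtain ⟨v, hv, a, ha, b, hb, e⟩ := C.normal_form hy
  refine ⟨g * v * g⁻¹, conj_mem_cj hv, g * a * g⁻¹, conj_mem_cj ha, g * b * g⁻¹, conj_mem_cj hb, ?_⟩
  have e1 : y = g * (g⁻¹ * y * g) * g⁻¹ := by group
  rw [e1, e]
  group

end small

end Cfsg.Agent.Lib.TIMax
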