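import Mathlib
import Cfsg.Agent.Lib.SpreadField

/-!
# From shears to a field

A group `Y` acting additively on an elementary abelian 2-group `T₀` through a spread set closed under
inverses: this spread set is a field, and `T₀` is one-dimensional over it.
-/

set_option autoImplicit false

namespace Cfsg.Agent.Lib.TIMax

universe u v

theorem exists_small_field (R : Type u) [Field R] [Finite R] :
    ∃ (F : Type) (_ : Field F) (_ : Fintype F), Nonempty (F ≃+* R) := by
  let e : Fin (Nat.card R) ≃ R := (Finite.equivFin R).symm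
  letI : Field (Fin (Nat.card R)) := e.field
  exact ⟨Fin (Nat.card R), inferInstance, inferInstance, ⟨e.ringEquiv⟩⟩

theorem exists_field {T₀ : Type u} [CommGroup T₀] [Finite T₀] (hsq : ∀ t : T₀, t * t = 1)
    {t₀ : T₀} (ht₀ : t₀ ≠ 1) {Y : Type v} [Group Y] (s : Y → T₀ → T₀)
    (hs1 : ∀ y t t', s y (t * t') = s y t * s y t')
    (hs2 : ∀ y y' t, s (y * y') t = s y t * s y' t)
    (y₀ : Y) (hid : ∀ t, s y₀ t = t)
    (hinv : ∀ y, (∃ t, s y t ≠ 1) → ∃ y', (∀ t, s y (s y' t) = t) ∧ (∀ t, s y' (s y t) = t))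
    (htrans : ∀ t₂, ∃ y, s y t₀ = t₂) :
    ∃ (F : Type) (_ : Field F) (_ : Fintype F) (e : F ≃ T₀) (c : Y → F),
      Fintype.card F = Nat.card T₀ ∧ (∀ a b, e (a + b) = e a * e b) ∧
      (∀ y a, s y (e a) = e (c y * a)) ∧ Function.Surjective c ∧
      (∀ y y', c (y * y') = c y + c y') ∧ c y₀ = 1 := by
  classical
  have hs0 : ∀ y, s y 1 = 1 := by
    intro y
    have h := hs1 y 1 1
    rw [mul_one] at h
    exact mul_eq_left.mp h.symm
  have hs3 : ∀ t, s 1 t = 1 := by
    intro t
    have h := hs2 1 1 t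
    rw [mul_one] at h
    exact mul_eq_left.mp h.symm
  letI hM : Module (ZMod 2) (Additive T₀) := AddCommGroup.zmodModule (n := 2) (by
    intro x
    rw [two_smul]
    exact hsq x.toMul)
  let sA : Y → (Additive T₀ →+ Additive T₀) := fun y =>
    { toFun := fun t => Additive.ofMul (s y t.toMul)
      map_zero' := hs0 y
      map_add' := fun a b => hs1 y a.toMul b.toMul }
  let sE : Y → Module.End (ZMod 2) (Additive T₀) := fun y => (sA y).toZModLinearMap 2
  have hsE : ∀ y t, sE y t = Additive.ofMul (s y t.toMul) := fun _ _ => rfl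
  let S : Submodule (ZMod 2) (Module.End (ZMod 2) (Additive T₀)) :=
    { carrier := Set.range sE
      add_mem' := by
        rintro _ _ ⟨y, rfl⟩ ⟨y', rfl⟩
        refine ⟨y * y', ?_⟩
        ext t
        exact hs2 y y' t.toMul
      zero_mem' := by
        refine ⟨1, ?_⟩
        ext t
        exact hs3 t.toMul
      smul_mem' := by
        rintro c _ ⟨y, rfl⟩
        have hc : c = 0 ∨ c = 1 := by
          revert c
          decide
        rcases hc with rfl | rfl
        · refine ⟨1, ?_⟩
          rw [zero_smul]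
          ext t
          exact hs3 t.toMul
        · rw [one_smul]
          exact ⟨y, rfl⟩ }
  have hSmem : ∀ y, sE y ∈ S := fun y => ⟨y, rfl⟩
  have hSex : ∀ f ∈ S, ∃ y, f = sE y := fun f hf => by
    obtain ⟨y, rfl⟩ := hf
    exact ⟨y, rfl⟩
  have h1 : (1 : Module.End (ZMod 2) (Additive T₀)) ∈ S := by
    refine ⟨y₀, ?_⟩
    ext t
    exact hid t.toMul
  have hinv' : ∀ f ∈ S, f ≠ 0 → ∃ t ∈ S, f * t = 1 ∧ t * f = 1 := by
    intro f hf hf0
    obtain ⟨y, rfl⟩ := hSex f hf
    have hex : ∃ t, s y t ≠ 1 := by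
      by_contra hall
      push Not at hall
      apply hf0
      ext t
      exact hall t.toMul
    obtain ⟨y', h2, h3⟩ := hinv y hex
    refine ⟨sE y', hSmem y', ?_, ?_⟩
    · ext t
      exact h2 t.toMul
    · ext t
      exact h3 t.toMul
  -- the evaluation map
  let v₀ : Additive T₀ := Additive.ofMul t₀
  have hv₀ : v₀ ≠ 0 := fun h => ht₀ h
  have hevinj : ∀ f ∈ S, ∀ f' ∈ S, f v₀ = f' v₀ → f = f' := by
    intro f hf f' hf' h
    by_contra hne
    have h0 : f - f' ≠ 0 := sub_ne_zero.mpr hne
    obtain ⟨t, _, h2, h3⟩ := hinv' _ (S.sub_mem hf hf') h0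
    apply hv₀
    have e1 : (f - f') v₀ = 0 := by
      rw [LinearMap.sub_apply, h, sub_self]
    have e2 : (t * (f - f')) v₀ = v₀ := by rw [h3]; rfl
    rw [Module.End.mul_apply, e1, map_zero] at e2
    exact e2.symm
  have hev : Function.Bijective (fun f : S => (f : Module.End (ZMod 2) (Additive T₀)) v₀) := by
    constructor
    · intro f f' h
      exact Subtype.ext (hevinj f f.2 f' f'.2 h)
    · intro t
      obtain ⟨y, hy⟩ := htrans t.toMul
      exact ⟨⟨sE y, hSmem y⟩, hy⟩
  have : Finite S := by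
    have : Finite (Module.End (ZMod 2) (Additive T₀)) := Module.finite_of_finite (ZMod 2)
    infer_instance
  have hdim : Module.finrank (ZMod 2) S = Module.finrank (ZMod 2) (Additive T₀) := by
    let lin : S →ₗ[ZMod 2] Additive T₀ :=
      { toFun := fun f => (f : Module.End (ZMod 2) (Additive T₀)) v₀
        map_add' := fun _ _ => rfl
        map_smul' := fun _ _ => rfl }
    exact (LinearEquiv.ofBijective lin hev).finrank_eq
  obtain ⟨hcomm, hmul⟩ := Cfsg.Agent.Lib.SpreadField.spread_main S h1 hinv' hdim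
  let R : Subring (Module.End (ZMod 2) (Additive T₀)) :=
    { carrier := S
      mul_mem' := fun {a b} ha hb => hmul a ha b hb
      one_mem' := h1
      add_mem' := fun {a b} ha hb => S.add_mem ha hb
      zero_mem' := S.zero_mem
      neg_mem' := fun {a} ha => S.neg_mem ha }
  letI hCR : CommRing R := { R.toRing with mul_comm := fun a b => Subtype.ext (hcomm a a.2 b b.2) }
  have hne01 : (1 : Module.End (ZMod 2) (Additive T₀)) ≠ 0 := by
    intro h
    apply hv₀
    have : (1 : Module.End (ZMod 2) (Additive T₀)) v₀ = v₀ := rfl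
    rw [← this, h]
    rfl
  have hfield : IsField R := by
    refine ⟨⟨0, 1, ?_⟩, fun a b => mul_comm a b, ?_⟩
    · intro h
      exact hne01 (congrArg Subtype.val h).symm
    · intro a ha
      have ha' : (a : Module.End (ZMod 2) (Additive T₀)) ≠ 0 := fun h => ha (Subtype.ext h)
      obtain ⟨t, ht, h2, _⟩ := hinv' a a.2 ha'
      exact ⟨⟨t, ht⟩, Subtype.ext h2⟩
  letI hFR : Field R := hfield.toField
  have hfinR : Finite R := by
    have : Finite S := inferInstance
    exact this
  obtain ⟨F, hF, hFt, ⟨ι⟩⟩ := exists_small_field R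
  have hsE_mul : ∀ y y', sE (y * y') = sE y + sE y' := by
    intro y y'
    ext t
    exact hs2 y y' t.toMul
  let toR : Y → R := fun y => ⟨sE y, hSmem y⟩
  have htoR_add : ∀ y y', toR (y * y') = toR y + toR y' := fun y y' => Subtype.ext (hsE_mul y y')
  have htoR_one : toR y₀ = 1 := by
    apply Subtype.ext
    ext t
    exact hid t.toMul
  have hbij : Function.Bijective
      (fun a : F => (((ι a : R) : Module.End (ZMod 2) (Additive T₀)) v₀).toMul) := by
    constructor
    · intro a b h
      apply ι.injective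
      apply Subtype.ext
      exact hevinj _ (ι a).2 _ (ι b).2 h
    · intro t
      obtain ⟨y, hy⟩ := htrans t
      refine ⟨ι.symm (toR y), ?_⟩
      change (((ι (ι.symm (toR y)) : R) : Module.End (ZMod 2) (Additive T₀)) v₀).toMul = t
      rw [RingEquiv.apply_symm_apply]
      exact hy
  let e : F ≃ T₀ := Equiv.ofBijective _ hbij
  have he : ∀ a, e a = (((ι a : R) : Module.End (ZMod 2) (Additive T₀)) v₀).toMul := fun _ => rfl
  refine ⟨F, hF, hFt, e, fun y => ι.symm (toR y), ?_, ?_, ?_, ?_, ?_, ?_⟩
  · rw [← Nat.card_eq_fintype_card]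
    exact Nat.card_congr e
  · intro a b
    rw [he, he, he, map_add]
    rfl
  · intro y a
    rw [he, he, map_mul, RingEquiv.apply_symm_apply]
    rfl
  · intro a
    obtain ⟨y, hy⟩ := hSex _ (ι a).2
    refine ⟨y, ?_⟩
    apply ι.injective
    rw [RingEquiv.apply_symm_apply]
    exact Subtype.ext hy.symm
  · intro y y'
    change ι.symm (toR (y * y')) = _
    rw [htoR_add, map_add]
  · change ι.symm (toR y₀) = 1
    rw [htoR_one, map_one]

end Cfsg.Agent.Lib.TIMax
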