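import Mathlib
import Cfsg.Agent.Lib.TIMax2
import Cfsg.Agent.Lib.TIMax3a

/-!
# The pair of conjugates: swapping elements and the field
-/

set_option autoImplicit false

namespace Cfsg.Agent.Lib.TIMax

variable {G : Type*} [Group G] [Finite G]

/-- Commutator as a product. -/
abbrev cm (x y : G) : G := x * y * x⁻¹ * y⁻¹

omit [Finite G] in
theorem conj_cm (y a : G) : y * a * y⁻¹ = cm y a * a := by
  simp [cm]

/-- Two opposite conjugates. -/
structure Pair (V Q A R B B' : Subgroup G) (g : G) : Prop where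
  D : Data V Q
  DA : Data A R
  hA : A = cj g V
  hR : R = cj g Q
  hne : A ≠ V
  F : Full V A B (PP V Q)
  F' : Full A V B' (PP A R)

namespace Pair

variable {V Q A R B B' : Subgroup G} {g : G} (T : Pair V Q A R B B' g)
include T

theorem com {v a : G} (hv : v ∈ V) (ha : a ∈ A) : v * a = a * v :=
  (T.D.P_comm_V (T.F.hA ha) hv).symm

theorem VA_one {x : G} (hV : x ∈ V) (hA : x ∈ A) : x = 1 := T.F.hAV x hA hV

theorem cm_V {y a : G} (hy : y ∈ PP V Q) (ha : a ∈ A) : cm y a ∈ V :=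
  T.D.comm_mem hy (T.F.hA ha)

theorem cm_A {r x : G} (hr : r ∈ PP A R) (hx : x ∈ V) : cm r x ∈ A :=
  T.DA.comm_mem hr (T.F'.hA hx)

theorem exists_inv {y a₀ : G} (hy : y ∈ PP V Q) (ha₀ : a₀ ∈ A) (hne : y * a₀ ≠ a₀ * y) :
    ∃ r ∈ PP A R, (∀ a ∈ A, cm r (cm y a) = a) ∧ (∀ x ∈ V, cm y (cm r x) = x) := by
  have hx₀ : cm y a₀ ∈ V := T.cm_V hy ha₀
  have hx₀1 : cm y a₀ ≠ 1 := by
    intro h
    apply hne
    unfold cm at h
    rw [mul_inv_eq_one, mul_inv_eq_iff_eq_mul] at h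
    exact h
  obtain ⟨r, hr, hr1⟩ := T.F'.trans_A _ hx₀ hx₀1 a₀ ha₀
  have hrL : r ∈ PP A R := T.F'.hB hr
  have hx₀c : a₀ * cm y a₀ = y * a₀ * y⁻¹ := by
    rw [← T.com hx₀ ha₀]
    simp [cm]
  rw [hx₀c] at hr1
  -- `t = r⁻¹ y`
  have ht : (r⁻¹ * y) * a₀ * (r⁻¹ * y)⁻¹ = cm y a₀ := by
    have e : (r⁻¹ * y) * a₀ * (r⁻¹ * y)⁻¹ = r⁻¹ * (y * a₀ * y⁻¹) * r := by group
    rw [e, ← hr1]
    simp only [cm]
    group
  have hA' : ∀ a ∈ A, g⁻¹ * a * g ∈ V := by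
    intro a ha
    rw [T.hA, mem_cj] at ha
    exact ha
  have hA'' : ∀ x ∈ V, g * x * g⁻¹ ∈ A := by
    intro x hx
    rw [T.hA]
    exact conj_mem_cj hx
  have hm : (r⁻¹ * y) * g ∈ Subgroup.normalizer (V : Set G) := by
    apply T.D.ti _ (g⁻¹ * a₀ * g) (hA' a₀ ha₀)
    · intro h
      apply hx₀1
      have h0 : a₀ = 1 := by
        have e : a₀ = g * (g⁻¹ * a₀ * g) * g⁻¹ := by group
        rw [e, h]; group
      rw [← ht, h0]
      group
    · have e : (r⁻¹ * y) * g * (g⁻¹ * a₀ * g) * ((r⁻¹ * y) * g)⁻¹ = (r⁻¹ * y) * a₀ * (r⁻¹ * y)⁻¹ := by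
        group
      rw [e, ht]
      exact hx₀
  have ht1 : ∀ a ∈ A, (r⁻¹ * y) * a * (r⁻¹ * y)⁻¹ ∈ V := by
    intro a ha
    have e : (r⁻¹ * y) * a * (r⁻¹ * y)⁻¹ = (r⁻¹ * y) * g * (g⁻¹ * a * g) * ((r⁻¹ * y) * g)⁻¹ := by
      group
    rw [e]
    exact conj_mem_of_norm hm (hA' a ha)
  have ht2 : ∀ x ∈ V, (r⁻¹ * y)⁻¹ * x * (r⁻¹ * y) ∈ A := by
    intro x hx
    have e : (r⁻¹ * y)⁻¹ * x * (r⁻¹ * y) = g * (((r⁻¹ * y) * g)⁻¹ * x * (((r⁻¹ * y) * g)⁻¹)⁻¹) * g⁻¹ := by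
      group
    rw [e]
    exact hA'' _ (conj_mem_of_norm (Subgroup.inv_mem _ hm) hx)
  have hmain : ∀ a ∈ A, cm y a = (r⁻¹ * y) * a * (r⁻¹ * y)⁻¹ ∧
      cm r ((r⁻¹ * y) * a * (r⁻¹ * y)⁻¹) = a := by
    intro a ha
    have hx := ht1 a ha
    set x := (r⁻¹ * y) * a * (r⁻¹ * y)⁻¹ with hxdef
    have hu := T.cm_V hy ha
    have hw := T.cm_A hrL hx
    have h1 : y * a * y⁻¹ = r * x * r⁻¹ := by
      rw [hxdef]; group
    rw [conj_cm y a, conj_cm r x] at h1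
    have hwx := T.com hx hw
    -- `x⁻¹ u = w a⁻¹`
    have h2 : x⁻¹ * cm y a = cm r x * a⁻¹ := by
      have h3 : cm y a * a = x * cm r x := by rw [h1, hwx]
      calc x⁻¹ * cm y a = x⁻¹ * (cm y a * a) * a⁻¹ := by group
        _ = x⁻¹ * (x * cm r x) * a⁻¹ := by rw [h3]
        _ = _ := by simp only [cm]; group
    have hl : x⁻¹ * cm y a ∈ V := V.mul_mem (V.inv_mem hx) hu
    have hrr : cm r x * a⁻¹ ∈ A := A.mul_mem hw (A.inv_mem ha)
    rw [← h2] at hrr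
    have h4 := T.VA_one hl hrr
    have h5 : cm y a = x := by
      rw [inv_mul_eq_one] at h4
      exact h4.symm
    refine ⟨h5, ?_⟩
    rw [h5, inv_mul_cancel] at h2
    exact (mul_inv_eq_one.mp h2.symm)
  refine ⟨r, hrL, ?_, ?_⟩
  · intro a ha
    obtain ⟨h1, h2⟩ := hmain a ha
    rw [h1, h2]
  · intro x hx
    have ha := ht2 x hx
    obtain ⟨h1, h2⟩ := hmain _ ha
    have e : (r⁻¹ * y) * ((r⁻¹ * y)⁻¹ * x * (r⁻¹ * y)) * (r⁻¹ * y)⁻¹ = x := by group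
    rw [e] at h1 h2
    rw [h2, h1]

theorem n_V {y r x : G} (hy : y ∈ PP V Q) (hr : r ∈ PP A R)
    (hinv : ∀ x ∈ V, cm y (cm r x) = x) (hx : x ∈ V) :
    (y * r * y) * x * (y * r * y)⁻¹ = cm r x := by
  have ha := T.cm_A hr hx
  have h1 := hinv x hx
  have hyx : y * x * y⁻¹ = x := T.D.conj_V hy hx
  have e1 : (y * r * y) * x * (y * r * y)⁻¹ = y * (r * (y * x * y⁻¹) * r⁻¹) * y⁻¹ := by group
  rw [e1, hyx, conj_cm r x]
  have e2 : y * (cm r x * x) * y⁻¹ = (y * cm r x * y⁻¹) * (y * x * y⁻¹) := by group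
  rw [e2, hyx, conj_cm y, h1, T.com hx ha]
  have hsq := T.D.sq x hx
  calc cm r x * x * x = cm r x * (x * x) := by group
    _ = cm r x := by rw [hsq, mul_one]

theorem n_A {y r a : G} (hy : y ∈ PP V Q) (hr : r ∈ PP A R)
    (hinv : ∀ a ∈ A, cm r (cm y a) = a) (ha : a ∈ A) :
    (y * r * y) * a * (y * r * y)⁻¹ = cm y a := by
  have hx := T.cm_V hy ha
  have h1 := hinv a ha
  have hra : r * a * r⁻¹ = a := T.DA.conj_V hr ha
  have e1 : (y * r * y) * a * (y * r * y)⁻¹ = y * (r * (y * a * y⁻¹) * r⁻¹) * y⁻¹ := by group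
  rw [e1, conj_cm y a]
  have e2 : r * (cm y a * a) * r⁻¹ = (r * cm y a * r⁻¹) * (r * a * r⁻¹) := by group
  rw [e2, hra, conj_cm r, h1, ← T.com hx ha]
  have hsq := T.DA.sq a ha
  have e3 : cm y a * a * a = cm y a := by
    rw [mul_assoc, hsq, mul_one]
  rw [e3]
  exact T.D.conj_V hy hx

end Pair

/-- An element swapping `V` and `A`, with square centralizing both. -/
structure Swap (V A : Subgroup G) (n : G) : Prop where
  nV : ∀ x ∈ V, n * x * n⁻¹ ∈ A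
  nA : ∀ a ∈ A, n * a * n⁻¹ ∈ V
  n2V : ∀ x ∈ V, n * (n * x * n⁻¹) * n⁻¹ = x
  n2A : ∀ a ∈ A, n * (n * a * n⁻¹) * n⁻¹ = a

namespace Swap

variable {V A : Subgroup G} {n : G} (S : Swap V A n)
include S

omit [Finite G] in
theorem inv_V {x : G} (hx : x ∈ V) : n⁻¹ * x * n = n * x * n⁻¹ := by
  have h := S.n2V x hx
  calc n⁻¹ * x * n = n⁻¹ * (n * (n * x * n⁻¹) * n⁻¹) * n := by rw [h]
    _ = _ := by group

omit [Finite G] in
theorem inv_A {x : G} (hx : x ∈ A) : n⁻¹ * x * n = n * x * n⁻¹ := by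
  have h := S.n2A x hx
  calc n⁻¹ * x * n = n⁻¹ * (n * (n * x * n⁻¹) * n⁻¹) * n := by rw [h]
    _ = _ := by group

omit [Finite G] in
theorem inv : Swap V A n⁻¹ where
  nV := by
    intro x hx
    rw [inv_inv, S.inv_V hx]
    exact S.nV x hx
  nA := by
    intro x hx
    rw [inv_inv, S.inv_A hx]
    exact S.nA x hx
  n2V := by
    intro x hx
    simp only [inv_inv]
    have e : n⁻¹ * (n⁻¹ * x * n) * n = n⁻¹ * (n * x * n⁻¹) * n := by rw [S.inv_V hx]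
    rw [e]
    group
  n2A := by
    intro x hx
    simp only [inv_inv]
    have e : n⁻¹ * (n⁻¹ * x * n) * n = n⁻¹ * (n * x * n⁻¹) * n := by rw [S.inv_A hx]
    rw [e]
    group

end Swap

namespace Pair

variable {V Q A R B B' : Subgroup G} {g : G} (T : Pair V Q A R B B' g)
include T

theorem swap_of {y r : G} (hy : y ∈ PP V Q) (hr : r ∈ PP A R)
    (h1 : ∀ a ∈ A, cm r (cm y a) = a) (h2 : ∀ x ∈ V, cm y (cm r x) = x) :
    Swap V A (y * r * y) where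
  nV := by
    intro x hx
    rw [T.n_V hy hr h2 hx]
    exact T.cm_A hr hx
  nA := by
    intro a ha
    rw [T.n_A hy hr h1 ha]
    exact T.cm_V hy ha
  n2V := by
    intro x hx
    rw [T.n_V hy hr h2 hx, T.n_A hy hr h1 (T.cm_A hr hx), h2 x hx]
  n2A := by
    intro a ha
    rw [T.n_A hy hr h1 ha, T.n_V hy hr h2 (T.cm_V hy ha), h1 a ha]

theorem exists_nontriv : ∃ x ∈ V, x ≠ 1 := T.F'.neA

theorem norm_of_swap {n : G} (S : Swap V A n) : g⁻¹ * n ∈ Subgroup.normalizer (V : Set G) := by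
  obtain ⟨x, hx, hx1⟩ := T.exists_nontriv
  apply T.D.ti _ x hx hx1
  have h := S.nV x hx
  rw [T.hA, mem_cj] at h
  have e : g⁻¹ * n * x * (g⁻¹ * n)⁻¹ = g⁻¹ * (n * x * n⁻¹) * g := by group
  rw [e]
  exact h

theorem conj_P {n y : G} (S : Swap V A n) (hy : y ∈ PP V Q) : n * y * n⁻¹ ∈ PP A R := by
  rw [mem_PP] at hy ⊢
  refine ⟨?_, ?_⟩
  · rw [T.hR, mem_cj]
    have e : g⁻¹ * (n * y * n⁻¹) * g = (g⁻¹ * n) * y * (g⁻¹ * n)⁻¹ := by group
    rw [e]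
    exact T.D.Qn _ (T.norm_of_swap S) _ hy.1
  · intro a ha
    have h1 : n⁻¹ * a * n ∈ V := by
      rw [S.inv_A ha]
      exact S.nA a ha
    have h2 := hy.2 _ h1
    calc n * y * n⁻¹ * a = n * (y * (n⁻¹ * a * n)) * n⁻¹ := by group
      _ = n * ((n⁻¹ * a * n) * y) * n⁻¹ := by rw [h2]
      _ = _ := by group

theorem conj_L {n r : G} (S : Swap V A n) (hr : r ∈ PP A R) : n⁻¹ * r * n ∈ PP V Q := by
  rw [mem_PP] at hr ⊢
  refine ⟨?_, ?_⟩
  · have h1 := hr.1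
    rw [T.hR, mem_cj] at h1
    have e : n⁻¹ * r * n = (g⁻¹ * n)⁻¹ * (g⁻¹ * r * g) * ((g⁻¹ * n)⁻¹)⁻¹ := by group
    rw [e]
    exact T.D.Qn _ (Subgroup.inv_mem _ (T.norm_of_swap S)) _ h1
  · intro v hv
    have h1 := S.nV v hv
    have h2 := hr.2 _ h1
    calc n⁻¹ * r * n * v = n⁻¹ * (r * (n * v * n⁻¹)) * n := by group
      _ = n⁻¹ * ((n * v * n⁻¹) * r) * n := by rw [h2]
      _ = _ := by group

/-- The field attached to the pair. -/
theorem exists_field_data {n y₀ : G} (S : Swap V A n) (hy₀ : y₀ ∈ PP V Q)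
    (hid : ∀ x ∈ V, cm y₀ (n * x * n⁻¹) = x) :
    ∃ (F : Type) (_ : Field F) (_ : Fintype F) (e : F → G) (c : ↥(PP V Q) → F),
      Fintype.card F = Nat.card V ∧ (∀ a, e a ∈ V) ∧ (∀ x ∈ V, ∃ a, e a = x) ∧
      Function.Injective e ∧ (∀ a b, e (a + b) = e a * e b) ∧
      (∀ (y : ↥(PP V Q)) a, cm (y : G) (n * e a * n⁻¹) = e (c y * a)) ∧ Function.Surjective c ∧
      (∀ y y', c (y * y') = c y + c y') := by
  let hCG : CommGroup ↥V :=
    { (inferInstance : Group ↥V) with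
      mul_comm := fun a b => Subtype.ext (T.D.comm a a.2 b b.2) }
  obtain ⟨x₀, hx₀, hx₀1⟩ := T.exists_nontriv
  have hn1 : ∀ x ∈ V, x ≠ 1 → n * x * n⁻¹ ≠ 1 := by
    intro x _ hx1 h
    apply hx1
    have e : x = n⁻¹ * (n * x * n⁻¹) * n := by group
    rw [e, h]; group
  let s : ↥(PP V Q) → ↥V → ↥V := fun y x =>
    ⟨cm (y : G) (n * (x : G) * n⁻¹), T.cm_V y.2 (S.nV x x.2)⟩
  have hs : ∀ y x, ((s y x : ↥V) : G) = cm (y : G) (n * (x : G) * n⁻¹) := fun _ _ => rfl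
  have hMul : ∀ a b : ↥V, ((a * b : ↥V) : G) = (a : G) * (b : G) := fun _ _ => rfl
  obtain ⟨F, hF, hFt, e, c, hcard, hadd, hsc, hsurj, hcadd, _⟩ :=
    exists_field (T₀ := ↥V) (Y := ↥(PP V Q))
    (fun t => Subtype.ext (T.D.sq t t.2))
    (t₀ := ⟨x₀, hx₀⟩)
    (fun h => hx₀1 (congrArg Subtype.val h))
    s
    (by
      intro y t t'
      apply Subtype.ext
      rw [hMul, hs, hs, hs, hMul]
      have e1 : n * ((t : G) * (t' : G)) * n⁻¹ = (n * t * n⁻¹) * (n * t' * n⁻¹) := by group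
      rw [e1]
      exact T.D.comm_mul_right y.2 (T.F.hA (S.nV t t.2)) (T.F.hA (S.nV t' t'.2)))
    (by
      intro y y' t
      apply Subtype.ext
      rw [hMul, hs, hs, hs]
      exact T.D.comm_mul_left y.2 y'.2 (T.F.hA (S.nV t t.2)))
    ⟨y₀, hy₀⟩
    (by
      intro t
      apply Subtype.ext
      rw [hs]
      exact hid t t.2)
    (by
      rintro y ⟨t₁, ht₁⟩
      have hne : (y : G) * (n * (t₁ : G) * n⁻¹) ≠ (n * (t₁ : G) * n⁻¹) * (y : G) := by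
        intro h
        apply ht₁
        apply Subtype.ext
        rw [hs]
        change cm (y : G) (n * (t₁ : G) * n⁻¹) = 1
        unfold cm
        rw [h]
        group
      obtain ⟨r, hr, h1, h2⟩ := T.exists_inv y.2 (S.nV t₁ t₁.2) hne
      refine ⟨⟨n⁻¹ * r * n, T.conj_L S hr⟩, ?_, ?_⟩
      · intro t
        apply Subtype.ext
        rw [hs, hs]
        have e1 : n * cm (n⁻¹ * r * n) (n * (t : G) * n⁻¹) * n⁻¹ = cm r t := by
          have e2 : n * cm (n⁻¹ * r * n) (n * (t : G) * n⁻¹) * n⁻¹ =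
              cm r (n * (n * (t : G) * n⁻¹) * n⁻¹) := by
            simp only [cm, mul_inv_rev, inv_inv, mul_assoc, inv_mul_cancel_left, mul_inv_cancel_left]
          rw [e2, S.n2V t t.2]
        change cm (y : G) (n * cm (n⁻¹ * r * n) (n * (t : G) * n⁻¹) * n⁻¹) = t
        rw [e1]
        exact h2 t t.2
      · intro t
        apply Subtype.ext
        rw [hs, hs]
        have hx₁ := T.cm_V y.2 (S.nV t t.2)
        have e2 : cm (n⁻¹ * r * n) (n * cm (y : G) (n * (t : G) * n⁻¹) * n⁻¹) =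
            n⁻¹ * cm r (n * (n * cm (y : G) (n * (t : G) * n⁻¹) * n⁻¹) * n⁻¹) * n := by
          simp only [cm]
          group
        change cm (n⁻¹ * r * n) (n * cm (y : G) (n * (t : G) * n⁻¹) * n⁻¹) = t
        rw [e2, S.n2V _ hx₁, h1 _ (S.nV t t.2)]
        group)
    (by
      intro t₂
      have ha := S.nV x₀ hx₀
      obtain ⟨b, hb, h⟩ := T.F.trans_A _ ha (hn1 x₀ hx₀ hx₀1) t₂ t₂.2
      refine ⟨⟨b, T.F.hB hb⟩, ?_⟩
      apply Subtype.ext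
      rw [hs]
      change cm b (n * x₀ * n⁻¹) = t₂
      rw [conj_cm] at h
      exact mul_right_cancel h)
  refine ⟨F, hF, hFt, fun a => (e a : G), c, hcard, fun a => (e a).2, ?_, ?_, ?_, ?_, hsurj, hcadd⟩
  · intro x hx
    obtain ⟨a, ha⟩ := e.surjective ⟨x, hx⟩
    exact ⟨a, by simp [ha]⟩
  · intro a b h
    exact e.injective (Subtype.ext h)
  · intro a b
    have := congrArg Subtype.val (hadd a b)
    exact this
  · intro y a
    have := congrArg Subtype.val (hsc y a)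
    exact this

end Pair

end Cfsg.Agent.Lib.TIMax
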