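import Mathlib
import Cfsg.Agent.Lib.TIMax3
import Cfsg.Agent.Lib.OrthoFourPlus
import Cfsg.Agent.Lib.Frat
import Cfsg.Agent.Lib.KleinTools

/-!
# The group generated by the two centralizers acts as `SL₂` on `VA`; the structure of `Q`.
-/

set_option autoImplicit false

namespace Cfsg.Agent.Lib.TIMax

open Cfsg.Agent.Lib.OrthoFourPlus
open scoped commutatorElement

variable {G : Type*} [Group G] [Finite G]

namespace Data

variable {V Q : Subgroup G} (D : Data V Q)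
include D

omit [Finite G] in
theorem unique_conj {w x₁ x₂ : G} (hw : w ≠ 1) (h1 : w ∈ cj x₁ V) (h2 : w ∈ cj x₂ V) :
    cj x₁ V = cj x₂ V := by
  rw [mem_cj] at h1 h2
  have hm : x₂⁻¹ * x₁ ∈ Subgroup.normalizer (V : Set G) := by
    apply D.ti _ (x₁⁻¹ * w * x₁) h1
    · intro h
      apply hw
      have e : w = x₁ * (x₁⁻¹ * w * x₁) * x₁⁻¹ := by group
      rw [e, h]; group
    · have e : x₂⁻¹ * x₁ * (x₁⁻¹ * w * x₁) * (x₂⁻¹ * x₁)⁻¹ = x₂⁻¹ * w * x₂ := by group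
      rw [e]
      exact h2
  have h3 : cj x₁ V = cj x₂ (cj (x₂⁻¹ * x₁) V) := by
    rw [cj_cj]
    congr 1
    group
  rw [h3, cj_eq_self hm]

end Data

namespace Pair

variable {V Q A R B B' : Subgroup G} {g : G} (T : Pair V Q A R B B' g)
include T

theorem mem_W {w : G} : w ∈ V ⊔ A ↔ ∃ v ∈ V, ∃ a ∈ A, w = v * a :=
  mem_sup_of_comm (fun _ hv _ ha => T.com hv ha)

theorem P_conj_W {y w : G} (hy : y ∈ PP V Q) (hw : w ∈ V ⊔ A) : y * w * y⁻¹ ∈ V ⊔ A := by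
  obtain ⟨v, hv, a, ha, rfl⟩ := T.mem_W.mp hw
  have e : y * (v * a) * y⁻¹ = (y * v * y⁻¹) * (y * a * y⁻¹) := by group
  rw [e, T.D.conj_V hy hv, conj_cm]
  exact Subgroup.mul_mem _ (Subgroup.mem_sup_left hv)
    (Subgroup.mul_mem _ (Subgroup.mem_sup_left (T.cm_V hy ha)) (Subgroup.mem_sup_right ha))

theorem L_conj_W {y w : G} (hy : y ∈ PP A R) (hw : w ∈ V ⊔ A) : y * w * y⁻¹ ∈ V ⊔ A := by
  obtain ⟨v, hv, a, ha, rfl⟩ := T.mem_W.mp hw
  have e : y * (v * a) * y⁻¹ = (y * v * y⁻¹) * (y * a * y⁻¹) := by group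
  rw [e, T.DA.conj_V hy ha, conj_cm]
  exact Subgroup.mul_mem _ (Subgroup.mul_mem _ (Subgroup.mem_sup_right (T.cm_A hy hv))
    (Subgroup.mem_sup_left hv)) (Subgroup.mem_sup_right ha)

theorem H_le_norm : PP V Q ⊔ PP A R ≤ Subgroup.normalizer ((V ⊔ A : Subgroup G) : Set G) := by
  apply sup_le
  · intro y hy
    exact mem_norm_of_conj (fun _ hw => T.P_conj_W hy hw)
  · intro y hy
    exact mem_norm_of_conj (fun _ hw => T.L_conj_W hy hw)

theorem cover {w : G} (hw : w ∈ V ⊔ A) (hw1 : w ≠ 1) :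
    ∃! U : Subgroup G, (∃ x : G, U = cj x V) ∧ U ≤ V ⊔ A ∧ w ∈ U := by
  have hex : ∃ U : Subgroup G, (∃ x : G, U = cj x V) ∧ U ≤ V ⊔ A ∧ w ∈ U := by
    obtain ⟨v, hv, a, ha, rfl⟩ := T.mem_W.mp hw
    by_cases ha1 : a = 1
    · subst ha1
      refine ⟨V, ⟨1, ?_⟩, le_sup_left, by simpa using hv⟩
      ext x
      simp
    · obtain ⟨b, hb, h⟩ := T.F.trans_A a ha ha1 v hv
      refine ⟨cj b A, ⟨b * g, ?_⟩, ?_, ?_⟩
      · rw [← cj_cj, T.hA]
      · rintro _ ⟨a', ha', rfl⟩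
        exact T.P_conj_W (T.F.hB hb) (Subgroup.mem_sup_right ha')
      · rw [← h]
        exact conj_mem_cj ha
  obtain ⟨U, hU, hUW, hwU⟩ := hex
  refine ⟨U, ⟨hU, hUW, hwU⟩, ?_⟩
  rintro U' ⟨⟨x', rfl⟩, _, hw'⟩
  obtain ⟨x, rfl⟩ := hU
  exact T.D.unique_conj hw1 hw' hwU

end Pair

/-- The field action data. -/
structure FD {V Q A : Subgroup G} (n : G) (F : Type) [Field F] (e : F → G) (c : ↥(PP V Q) → F) :
    Prop where
  he : ∀ a, e a ∈ V
  hes : ∀ x ∈ V, ∃ a, e a = x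
  hei : Function.Injective e
  hea : ∀ a b, e (a + b) = e a * e b
  hsc : ∀ (y : ↥(PP V Q)) a, cm (y : G) (n * e a * n⁻¹) = e (c y * a)
  hcs : Function.Surjective c
  hca : ∀ y y', c (y * y') = c y + c y'

section act

variable {V Q A R B B' : Subgroup G} {g : G} (T : Pair V Q A R B B' g) {n : G} (S : Swap V A n)
  {F : Type} [Field F] {e : F → G} {c : ↥(PP V Q) → F} (FF : FD (V := V) (Q := Q) (A := A) n F e c)

/-- The parametrization of `VA`. -/
def kap (n : G) (e : F → G) (α β : F) : G := e α * (n * e β * n⁻¹)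

include T S FF

theorem kap_mem (α β : F) : kap n e α β ∈ V ⊔ A :=
  Subgroup.mul_mem _ (Subgroup.mem_sup_left (FF.he α)) (Subgroup.mem_sup_right (S.nV _ (FF.he β)))

theorem kap_surj {w : G} (hw : w ∈ V ⊔ A) : ∃ α β, kap n e α β = w := by
  obtain ⟨v, hv, a, ha, rfl⟩ := T.mem_W.mp hw
  obtain ⟨α, rfl⟩ := FF.hes v hv
  obtain ⟨β, hβ⟩ := FF.hes _ (S.nA a ha)
  refine ⟨α, β, ?_⟩
  unfold kap
  rw [hβ, S.n2A a ha]

theorem kap_inj {α β α' β' : F} (h : kap n e α β = kap n e α' β') : α = α' ∧ β = β' := by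
  unfold kap at h
  have h1 : (e α')⁻¹ * e α = (n * e β' * n⁻¹) * (n * e β * n⁻¹)⁻¹ := by
    calc (e α')⁻¹ * e α = (e α')⁻¹ * (e α * (n * e β * n⁻¹)) * (n * e β * n⁻¹)⁻¹ := by group
      _ = (e α')⁻¹ * (e α' * (n * e β' * n⁻¹)) * (n * e β * n⁻¹)⁻¹ := by rw [h]
      _ = _ := by group
  have hl : (e α')⁻¹ * e α ∈ V := V.mul_mem (V.inv_mem (FF.he _)) (FF.he _)
  have hr : (e α')⁻¹ * e α ∈ A := by
    rw [h1]
    exact A.mul_mem (S.nV _ (FF.he _)) (A.inv_mem (S.nV _ (FF.he _)))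
  have h2 := T.VA_one hl hr
  have h3 : e α' = e α := by
    rw [inv_mul_eq_one] at h2
    exact h2
  have h4 : α = α' := (FF.hei h3).symm
  refine ⟨h4, ?_⟩
  rw [h4] at h
  have h5 := mul_left_cancel h
  exact FF.hei (conj_inj h5)

theorem kap_P (y : ↥(PP V Q)) (α β : F) :
    (y : G) * kap n e α β * (y : G)⁻¹ = kap n e (α + c y * β) β := by
  unfold kap
  have e1 : (y : G) * (e α * (n * e β * n⁻¹)) * (y : G)⁻¹ =
      ((y : G) * e α * (y : G)⁻¹) * ((y : G) * (n * e β * n⁻¹) * (y : G)⁻¹) := by group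
  rw [e1, T.D.conj_V y.2 (FF.he α), conj_cm, FF.hsc, FF.hea]
  simp only [mul_assoc]

theorem kap_n (α β : F) : n * kap n e α β * n⁻¹ = kap n e β α := by
  unfold kap
  have e1 : n * (e α * (n * e β * n⁻¹)) * n⁻¹ = (n * e α * n⁻¹) * (n * (n * e β * n⁻¹) * n⁻¹) := by
    group
  rw [e1, S.n2V _ (FF.he β)]
  exact (T.com (FF.he β) (S.nV _ (FF.he α))).symm

theorem kap_n' (α β : F) : n⁻¹ * kap n e α β * n = kap n e β α := by
  have := kap_n T S FF β α
  rw [← this]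
  group

theorem kap_L (y : ↥(PP V Q)) (α β : F) :
    (n * (y : G) * n⁻¹) * kap n e α β * (n * (y : G) * n⁻¹)⁻¹ = kap n e α (β + c y * α) := by
  have e1 : (n * (y : G) * n⁻¹) * kap n e α β * (n * (y : G) * n⁻¹)⁻¹ =
      n * ((y : G) * (n⁻¹ * kap n e α β * n) * (y : G)⁻¹) * n⁻¹ := by group
  rw [e1, kap_n' T S FF, kap_P T S FF, kap_n T S FF]

/-- Action by a matrix. -/
def Act (n : G) (e : F → G) (h : G) (M : Matrix.SpecialLinearGroup (Fin 2) F) : Prop :=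
  ∀ α β, h * kap n e α β * h⁻¹ = kap n e (M.1 0 0 * α + M.1 0 1 * β) (M.1 1 0 * α + M.1 1 1 * β)

omit T S FF [Finite G] in
theorem Act.one : Act n e 1 (1 : Matrix.SpecialLinearGroup (Fin 2) F) := by
  intro α β
  simp

omit T S FF [Finite G] in
theorem Act.mul {h₁ h₂ : G} {M₁ M₂ : Matrix.SpecialLinearGroup (Fin 2) F} (H₁ : Act n e h₁ M₁)
    (H₂ : Act n e h₂ M₂) : Act n e (h₁ * h₂) (M₁ * M₂) := by
  intro α β
  have e1 : h₁ * h₂ * kap n e α β * (h₁ * h₂)⁻¹ = h₁ * (h₂ * kap n e α β * h₂⁻¹) * h₁⁻¹ := by group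
  rw [e1, H₂, H₁]
  congr 1 <;>
  · simp only [Matrix.SpecialLinearGroup.coe_mul, Matrix.mul_apply, Fin.sum_univ_two]
    ring

omit T S FF [Finite G] in
theorem Act.inv {h : G} {M : Matrix.SpecialLinearGroup (Fin 2) F} (H : Act n e h M) :
    Act n e h⁻¹ M⁻¹ := by
  intro α β
  have hdet := M.2
  rw [Matrix.det_fin_two] at hdet
  have h00 : (M⁻¹).1 0 0 = M.1 1 1 := by
    simp [Matrix.SpecialLinearGroup.coe_inv, Matrix.adjugate_fin_two]
  have h01 : (M⁻¹).1 0 1 = - M.1 0 1 := by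
    simp [Matrix.SpecialLinearGroup.coe_inv, Matrix.adjugate_fin_two]
  have h10 : (M⁻¹).1 1 0 = - M.1 1 0 := by
    simp [Matrix.SpecialLinearGroup.coe_inv, Matrix.adjugate_fin_two]
  have h11 : (M⁻¹).1 1 1 = M.1 0 0 := by
    simp [Matrix.SpecialLinearGroup.coe_inv, Matrix.adjugate_fin_two]
  rw [h00, h01, h10, h11]
  have h2 := H (M.1 1 1 * α + -M.1 0 1 * β) (-M.1 1 0 * α + M.1 0 0 * β)
  have e1 : M.1 0 0 * (M.1 1 1 * α + -M.1 0 1 * β) + M.1 0 1 * (-M.1 1 0 * α + M.1 0 0 * β) = α := by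
    linear_combination α * hdet
  have e2 : M.1 1 0 * (M.1 1 1 * α + -M.1 0 1 * β) + M.1 1 1 * (-M.1 1 0 * α + M.1 0 0 * β) = β := by
    linear_combination β * hdet
  rw [e1, e2] at h2
  rw [← h2]
  group

include T S FF in
/-- Uniqueness of the matrix. -/
theorem Act.unique {h : G} {M M' : Matrix.SpecialLinearGroup (Fin 2) F} (H : Act n e h M)
    (H' : Act n e h M') : M = M' := by
  have key : ∀ α β, M.1 0 0 * α + M.1 0 1 * β = M'.1 0 0 * α + M'.1 0 1 * β ∧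
      M.1 1 0 * α + M.1 1 1 * β = M'.1 1 0 * α + M'.1 1 1 * β := by
    intro α β
    exact kap_inj T S FF ((H α β).symm.trans (H' α β))
  apply Subtype.ext
  ext i j
  fin_cases i <;> fin_cases j
  · simpa using (key 1 0).1
  · simpa using (key 0 1).1
  · simpa using (key 1 0).2
  · simpa using (key 0 1).2

include T S FF in
theorem act_P (y : ↥(PP V Q)) : Act n e (y : G) (Tu (c y)) := by
  intro α β
  rw [kap_P T S FF]
  simp [Tu]

include T S FF in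
theorem act_L (y : ↥(PP V Q)) : Act n e (n * (y : G) * n⁻¹) (Tl (c y)) := by
  intro α β
  rw [kap_L T S FF]
  simp [Tl, add_comm]

include T S FF in
theorem exists_act {h : G} (hh : h ∈ PP V Q ⊔ PP A R) :
    ∃ M : Matrix.SpecialLinearGroup (Fin 2) F, Act n e h M := by
  rw [Subgroup.sup_eq_closure] at hh
  induction hh using Subgroup.closure_induction with
  | mem x hx =>
    rcases hx with hx | hx
    · exact ⟨_, act_P T S FF ⟨x, hx⟩⟩
    · refine ⟨Tl (c ⟨n⁻¹ * x * n, T.conj_L S hx⟩), ?_⟩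
      have h1 := act_L T S FF ⟨n⁻¹ * x * n, T.conj_L S hx⟩
      have e1 : n * ((⟨n⁻¹ * x * n, T.conj_L S hx⟩ : ↥(PP V Q)) : G) * n⁻¹ = x := by
        change n * (n⁻¹ * x * n) * n⁻¹ = x
        group
      rw [e1] at h1
      exact h1
  | one => exact ⟨1, Act.one⟩
  | mul x y _ _ hx hy =>
    obtain ⟨M, hM⟩ := hx
    obtain ⟨M', hM'⟩ := hy
    exact ⟨_, Act.mul hM hM'⟩
  | inv x _ hx =>
    obtain ⟨M, hM⟩ := hx
    exact ⟨_, Act.inv hM⟩

include T S FF in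
/-- The homomorphism onto `SL₂`. -/
theorem exists_tau [Fintype F] : ∃ τ : ↥(PP V Q ⊔ PP A R) →* Matrix.SpecialLinearGroup (Fin 2) F,
    Function.Surjective τ ∧
    ∀ h, τ h = 1 ↔ (h : G) ∈ Subgroup.centralizer ((V ⊔ A : Subgroup G) : Set G) := by
  classical
  let M : ↥(PP V Q ⊔ PP A R) → Matrix.SpecialLinearGroup (Fin 2) F := fun h =>
    Classical.choose (exists_act T S FF h.2)
  have hM : ∀ h : ↥(PP V Q ⊔ PP A R), Act n e (h : G) (M h) :=
    fun h => Classical.choose_spec (exists_act T S FF h.2)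
  let τ : ↥(PP V Q ⊔ PP A R) →* Matrix.SpecialLinearGroup (Fin 2) F :=
    MonoidHom.mk' M (by
      intro a b
      exact Act.unique T S FF (hM (a * b)) (Act.mul (hM a) (hM b)))
  have hτ : ∀ h, τ h = M h := fun _ => rfl
  refine ⟨τ, ?_, ?_⟩
  · rw [← MonoidHom.range_eq_top]
    apply sl2_generated
    · intro t
      obtain ⟨y, rfl⟩ := FF.hcs t
      refine ⟨⟨(y : G), Subgroup.mem_sup_left y.2⟩, ?_⟩
      rw [hτ]
      exact Act.unique T S FF (hM _) (act_P T S FF y)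
    · intro t
      obtain ⟨y, rfl⟩ := FF.hcs t
      refine ⟨⟨n * (y : G) * n⁻¹, Subgroup.mem_sup_right (T.conj_P S y.2)⟩, ?_⟩
      rw [hτ]
      exact Act.unique T S FF (hM _) (act_L T S FF y)
  · intro h
    rw [hτ]
    constructor
    · intro h1
      rw [Subgroup.mem_centralizer_iff]
      intro w hw
      obtain ⟨α, β, rfl⟩ := kap_surj T S FF hw
      have h2 := hM h α β
      rw [h1] at h2
      simp only [Matrix.SpecialLinearGroup.coe_one, Matrix.one_apply] at h2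
      simp only [Fin.isValue, ↓reduceIte, one_mul, zero_ne_one, zero_mul, add_zero, one_ne_zero,
        zero_add] at h2
      rw [mul_inv_eq_iff_eq_mul] at h2
      exact h2.symm
    · intro h1
      rw [Subgroup.mem_centralizer_iff] at h1
      apply Act.unique T S FF (hM h)
      intro α β
      have h2 := h1 _ (kap_mem T S FF α β)
      rw [← h2]
      simp


end act

namespace Pair

variable {V Q A R B B' : Subgroup G} {g : G} (T : Pair V Q A R B B' g)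
include T

theorem transitive {n x₁ x₂ : G} (S : Swap V A n) (hx₁ : x₁ ∈ V) (hx₁1 : x₁ ≠ 1) (hx₂ : x₂ ∈ V)
    (hx₂1 : x₂ ≠ 1) : ∃ h ∈ Subgroup.normalizer (V : Set G), h * x₁ * h⁻¹ = x₂ := by
  have ha := S.nV x₁ hx₁
  have ha1 : n * x₁ * n⁻¹ ≠ 1 := by
    intro h
    apply hx₁1
    have e : x₁ = n⁻¹ * (n * x₁ * n⁻¹) * n := by group
    rw [e, h]; group
  obtain ⟨b, hb, h⟩ := T.F.trans_A _ ha ha1 x₂ hx₂
  rw [conj_cm] at h
  have hcm := mul_right_cancel h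
  have hbP := T.F.hB hb
  have hne : b * (n * x₁ * n⁻¹) ≠ (n * x₁ * n⁻¹) * b := by
    intro h2
    apply hx₂1
    rw [← hcm]
    unfold cm
    rw [h2]
    group
  obtain ⟨r, hr, h1, h2⟩ := T.exists_inv hbP ha hne
  have hconj : (b * r * b * n) * x₁ * (b * r * b * n)⁻¹ = x₂ := by
    have e : (b * r * b * n) * x₁ * (b * r * b * n)⁻¹ =
        (b * r * b) * (n * x₁ * n⁻¹) * (b * r * b)⁻¹ := by group
    rw [e, T.n_A hbP hr h1 ha, hcm]
  refine ⟨b * r * b * n, ?_, hconj⟩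
  apply T.D.ti _ x₁ hx₁ hx₁1
  rw [hconj]
  exact hx₂

theorem central {n : G} (S : Swap V A n) {x q : G} (hx : x ∈ V) (hq : q ∈ Q) : q * x = x * q := by
  haveI : Fact (Nat.Prime 2) := ⟨Nat.prime_two⟩
  have hQ : IsPGroup 2 ↥Q := T.D.two
  haveI hEn : (V.subgroupOf Q).Normal := by
    refine ⟨fun a ha b => ?_⟩
    rw [Subgroup.mem_subgroupOf] at ha ⊢
    exact conj_mem_of_norm (T.D.QN b.2) ha
  obtain ⟨x₀, hx₀, hx₀1⟩ := T.exists_nontriv
  have hE : V.subgroupOf Q ≠ ⊥ := by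
    intro h
    have h1 : (⟨x₀, T.D.V_le_Q hx₀⟩ : ↥Q) ∈ V.subgroupOf Q := by
      rw [Subgroup.mem_subgroupOf]
      exact hx₀
    rw [h, Subgroup.mem_bot] at h1
    exact hx₀1 (congrArg Subtype.val h1)
  obtain ⟨z, hz, hz1, hzc⟩ := Cfsg.Agent.Lib.KleinTools.exists_central_of_normal hQ (V.subgroupOf Q) hE
  rw [Subgroup.mem_subgroupOf] at hz
  have hz1' : (z : G) ≠ 1 := fun h => hz1 (Subtype.ext h)
  by_cases hx1 : x = 1
  · subst hx1
    simp
  obtain ⟨h, hh, hc⟩ := T.transitive S hz hz1' hx hx1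
  have hq' : h⁻¹ * q * h ∈ Q := by
    have := T.D.Qn _ (Subgroup.inv_mem _ hh) q hq
    simpa using this
  have h2 : (⟨h⁻¹ * q * h, hq'⟩ * z : ↥Q) = z * ⟨h⁻¹ * q * h, hq'⟩ := hzc _
  have h3 : (h⁻¹ * q * h) * (z : G) = z * (h⁻¹ * q * h) := congrArg Subtype.val h2
  rw [← hc]
  calc q * (h * z * h⁻¹) = h * ((h⁻¹ * q * h) * (z : G)) * h⁻¹ := by group
    _ = h * ((z : G) * (h⁻¹ * q * h)) * h⁻¹ := by rw [h3]
    _ = _ := by group

theorem P_eq {n : G} (S : Swap V A n) : PP V Q = Q := by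
  apply le_antisymm T.D.P_le_Q
  intro q hq
  exact mem_PP.mpr ⟨hq, fun v hv => T.central S hv hq⟩

theorem center_eq (hPQ : PP V Q = Q) : (Subgroup.center ↥Q).map Q.subtype = V := by
  ext x
  constructor
  · rintro ⟨q, hq, rfl⟩
    rw [SetLike.mem_coe, Subgroup.mem_center_iff] at hq
    apply T.D.Zcen (by rw [hPQ]; exact q.2)
    intro y hy
    rw [hPQ] at hy
    have := hq ⟨y, hy⟩
    exact (congrArg Subtype.val this).symm
  · intro hx
    refine ⟨⟨x, T.D.V_le_Q hx⟩, ?_, rfl⟩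
    rw [SetLike.mem_coe, Subgroup.mem_center_iff]
    intro q
    apply Subtype.ext
    have h1 := T.D.P_comm_V (y := (q : G)) (by rw [hPQ]; exact q.2) hx
    exact h1

theorem comm_eq (hPQ : PP V Q = Q) : (commutator ↥Q).map Q.subtype = V := by
  apply le_antisymm
  · rw [Subgroup.map_le_iff_le_comap, commutator_def, Subgroup.commutator_le]
    intro a _ b _
    rw [Subgroup.mem_comap]
    exact T.D.comm_mem (by rw [hPQ]; exact a.2) (by rw [hPQ]; exact b.2)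
  · intro x hx
    obtain ⟨a, ha, ha1⟩ := T.F.neA
    obtain ⟨b, hb, h⟩ := T.F.trans_A a ha ha1 x hx
    rw [conj_cm] at h
    have hcm := mul_right_cancel h
    have hbQ : b ∈ Q := T.D.P_le_Q (T.F.hB hb)
    have haQ : a ∈ Q := T.D.P_le_Q (T.F.hA ha)
    refine ⟨⁅(⟨b, hbQ⟩ : ↥Q), (⟨a, haQ⟩ : ↥Q)⁆, ?_, hcm⟩
    exact Subgroup.commutator_mem_commutator (Subgroup.mem_top _) (Subgroup.mem_top _)

theorem frat_eq (hPQ : PP V Q = Q) : (frattini ↥Q).map Q.subtype = V := by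
  haveI : Fact (Nat.Prime 2) := ⟨Nat.prime_two⟩
  have hQ : IsPGroup 2 ↥Q := T.D.two
  have hc := T.comm_eq hPQ
  apply le_antisymm
  · rw [Subgroup.map_le_iff_le_comap]
    apply Cfsg.Agent.Lib.Frat.frattini_le_of_commutator_pow (p := 2)
    · rw [← Subgroup.map_le_iff_le_comap, hc]
    · intro x
      rw [Subgroup.mem_comap, pow_two]
      exact T.D.sq_mem (by rw [hPQ]; exact x.2)
  · rw [← hc]
    exact Subgroup.map_mono (Cfsg.Agent.Lib.Frat.commutator_le_frattini hQ)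

end Pair

theorem cj_inv_cj (g : G) (V : Subgroup G) : cj g⁻¹ (cj g V) = V := by
  rw [cj_cj, inv_mul_cancel]
  ext x
  simp

/-- The main theorem in terms of `Data`. -/
theorem Data.main {V Q : Subgroup G} (D : Data V Q) {g : G} (hAQ : cj g V ≤ Q) (hne : cj g V ≠ V) :
    V ≤ cj g Q ∧
    (∀ w ∈ V ⊔ cj g V, w ≠ 1 → ∃! U : Subgroup G, (∃ x : G, U = cj x V) ∧ U ≤ V ⊔ cj g V ∧ w ∈ U) ∧
    PP V Q ⊔ cj g (PP V Q) ≤ Subgroup.normalizer ((V ⊔ cj g V : Subgroup G) : Set G) ∧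
    (∃ (F : Type) (_ : Field F) (_ : Fintype F), Fintype.card F = Nat.card ↥V ∧
      ∃ τ : ↥(PP V Q ⊔ cj g (PP V Q)) →* Matrix.SpecialLinearGroup (Fin 2) F,
        Function.Surjective τ ∧
        ∀ h, τ h = 1 ↔ (h : G) ∈ Subgroup.centralizer ((V ⊔ cj g V : Subgroup G) : Set G)) ∧
    PP V Q = Q ∧ (frattini ↥Q).map Q.subtype = V ∧ (Subgroup.center ↥Q).map Q.subtype = V ∧
    (commutator ↥Q).map Q.subtype = V := by
  have hVR := D.V_le_R hAQ hne
  obtain ⟨m, _, F⟩ := D.exists_full hAQ hne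
  have hc : cj g⁻¹ (cj g V) = V := cj_inv_cj g V
  obtain ⟨m', _, F'⟩ := (D.conj g).exists_full (g := g⁻¹) (by rw [hc]; exact hVR)
    (by rw [hc]; exact hne.symm)
  rw [hc] at F'
  have T : Pair V Q (cj g V) (cj g Q) _ _ g := ⟨D, D.conj g, rfl, rfl, hne, F, F'⟩
  -- a first element
  obtain ⟨a₀, ha₀, ha₀1⟩ := F.neA
  obtain ⟨x₀, hx₀, hx₀1⟩ := T.exists_nontriv
  obtain ⟨y₀, hy₀, h₀⟩ := F.trans_A a₀ ha₀ ha₀1 x₀ hx₀
  rw [conj_cm] at h₀
  have hcm₀ := mul_right_cancel h₀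
  have hy₀P := F.hB hy₀
  have hne₀ : y₀ * a₀ ≠ a₀ * y₀ := by
    intro h2
    apply hx₀1
    rw [← hcm₀]
    unfold cm
    rw [h2]
    group
  obtain ⟨r₀, hr₀, h1, h2⟩ := T.exists_inv hy₀P ha₀ hne₀
  have S := T.swap_of hy₀P hr₀ h1 h2
  have hPQ := T.P_eq S
  refine ⟨hVR, fun w hw hw1 => T.cover hw hw1, ?_, ?_, hPQ, T.frat_eq hPQ, T.center_eq hPQ,
    T.comm_eq hPQ⟩
  · rw [cj_PP]
    exact T.H_le_norm
  · obtain ⟨Fl, hF, hFt, e, c, hcard, he, hes, hei, hea, hsc, hcs, hca⟩ :=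
      T.exists_field_data S hy₀P (by
        intro x hx
        rw [T.n_V hy₀P hr₀ h2 hx]
        exact h2 x hx)
    refine ⟨Fl, hF, hFt, hcard, ?_⟩
    have FF : FD (V := V) (Q := Q) (A := cj g V) (y₀ * r₀ * y₀) Fl e c :=
      ⟨he, hes, hei, hea, hsc, hcs, hca⟩
    rw [cj_PP]
    exact exists_tau T S FF

end Cfsg.Agent.Lib.TIMax
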