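import Mathlib
import Cfsg.Agent.S1780
import Cfsg.Agent.S1757

set_option autoImplicit false

namespace Cfsg.Agent.Lib.TISubgroups

/-- A subgroup form of `S1780`: an abelian 2-subgroup `A` normalized by a 2-element `y` such that
the fixed points of `y²` on `A` are fixed by `y` is centralized by `y`. -/
theorem conj_fixed_of_sq {G : Type*} [Group G] (A : Subgroup G) [Finite A]
    (hA2 : IsPGroup 2 ↥A) (hAa : IsMulCommutative ↥A) (y : G)
    (hy : y ∈ Subgroup.normalizer (A : Set G)) (k : ℕ) (hk : orderOf y = 2 ^ k)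
    (hC : ∀ a ∈ A, y ^ 2 * a * (y ^ 2)⁻¹ = a → y * a * y⁻¹ = a) :
    ∀ a ∈ A, y * a * y⁻¹ = a := by
  intro a ha
  let Y : Subgroup.normalizer (A : Set G) := ⟨y, hy⟩
  let t : MulAut ↥A := A.normalizerMonoidHom Y
  have ht : ∀ b : ↥A, ((t b : ↥A) : G) = y * b * y⁻¹ := fun _ => rfl
  letI inst : CommGroup ↥A := { (inferInstance : Group ↥A) with mul_comm := hAa.is_comm.comm }
  have hord : ∃ j : ℕ, orderOf t = 2 ^ j := by
    have h1 : orderOf t ∣ orderOf Y := by
      apply orderOf_map_dvd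
    have h2 : orderOf Y = 2 ^ k := by
      rw [← hk]
      exact Subgroup.orderOf_mk y hy
    rw [h2] at h1
    obtain ⟨j, _, hj⟩ := (Nat.dvd_prime_pow Nat.prime_two).1 h1
    exact ⟨j, hj⟩
  have hfix : ∀ b : ↥A, t (t b) = b → t b = b := by
    intro b hb
    apply Subtype.ext
    rw [ht]
    apply hC b b.2
    have := congrArg (Subtype.val) hb
    rw [ht, ht] at this
    calc y ^ 2 * (b : G) * (y ^ 2)⁻¹ = y * (y * (b : G) * y⁻¹) * y⁻¹ := by
          simp only [pow_two, mul_inv_rev, mul_assoc]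
      _ = b := this
  have := Cfsg.Agent.S1780.result hA2 t hord hfix ⟨a, ha⟩
  have h3 := congrArg (Subtype.val) this
  rw [ht] at h3
  exact h3

/-- Conjugates of a trivially-intersecting subgroup are trivially intersecting. -/
theorem ti_map_conj {G : Type*} [Group G] (A : Subgroup G)
    (hti : ∀ h : G, A.map (MulAut.conj h).toMonoidHom = A ∨ A.map (MulAut.conj h).toMonoidHom ⊓ A = ⊥)
    (g h : G) :
    (A.map (MulAut.conj g).toMonoidHom).map (MulAut.conj h).toMonoidHom = A.map (MulAut.conj g).toMonoidHom ∨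
      (A.map (MulAut.conj g).toMonoidHom).map (MulAut.conj h).toMonoidHom ⊓ A.map (MulAut.conj g).toMonoidHom = ⊥ := by
  rcases hti (g⁻¹ * h * g) with h1 | h1
  · left
    rw [Subgroup.map_map]
    have : ((MulAut.conj h).toMonoidHom).comp ((MulAut.conj g).toMonoidHom) =
        ((MulAut.conj g).toMonoidHom).comp ((MulAut.conj (g⁻¹ * h * g)).toMonoidHom) := by
      ext x
      simp [MulAut.conj_apply]
      group
    rw [this, ← Subgroup.map_map, h1]
  · right
    rw [eq_bot_iff]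
    rintro x ⟨⟨y, ⟨a, ha, rfl⟩, rfl⟩, ⟨b, hb, hbx⟩⟩
    simp only [MulAut.conj_apply, MulEquiv.coe_toMonoidHom] at hbx ⊢
    have hba : b = (g⁻¹ * h * g) * a * (g⁻¹ * h * g)⁻¹ := by
      have : g * b * g⁻¹ = h * (g * a * g⁻¹) * h⁻¹ := hbx
      calc b = g⁻¹ * (g * b * g⁻¹) * g := by group
        _ = (g⁻¹ * h * g) * a * (g⁻¹ * h * g)⁻¹ := by rw [this]; group
    have hmem : b ∈ A.map (MulAut.conj (g⁻¹ * h * g)).toMonoidHom ⊓ A := ⟨⟨a, ha, hba.symm⟩, hb⟩
    rw [h1, Subgroup.mem_bot] at hmem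
    rw [Subgroup.mem_bot]
    rw [hmem] at hba
    have : a = 1 := conj_eq_one_iff.mp hba.symm
    rw [this]; simp

end Cfsg.Agent.Lib.TISubgroups
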