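import Mathlib
import Cfsg.Agent.S1782
import Cfsg.Agent.Lib.Frat

/-!
Subgroup form of `S1782` and the two-conjugates form of the TI condition.
-/

set_option autoImplicit false

namespace Cfsg.Agent.Lib.TISubgroups2

open Cfsg.Agent.S1782 (mem_map_conj_iff)

/-- Subgroup form of `S1782`: a set `Δ` of subgroups of a 2-subgroup `P`, closed under conjugation
by `P`, of equal order, not elementary (some element with nontrivial square), and pairwise trivially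
intersecting, consists of pairwise commuting subgroups. -/
theorem ti_commute_of_subgroup {X : Type*} [Group X] [Finite X] (P : Subgroup X)
    (hP : IsPGroup 2 ↥P) (Δ : Set (Subgroup X)) (hΔP : ∀ R ∈ Δ, R ≤ P)
    (hinv : ∀ s ∈ P, ∀ R ∈ Δ, R.map (MulAut.conj s).toMonoidHom ∈ Δ)
    (hΦ : ∀ R ∈ Δ, ∃ r ∈ R, r ^ 2 ≠ 1)
    (hord : ∀ R ∈ Δ, ∀ T ∈ Δ, Nat.card ↥R = Nat.card ↥T)
    (hti : ∀ R ∈ Δ, ∀ T ∈ Δ, R = T ∨ R ⊓ T = ⊥) :
    ∀ R ∈ Δ, ∀ T ∈ Δ, R ≠ T → ∀ x ∈ R, ∀ y ∈ T, x * y = y * x := by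
  have hfact : Fact (Nat.Prime 2) := ⟨Nat.prime_two⟩
  let Δ' : Set (Subgroup ↥P) := {R' | ∃ R ∈ Δ, R' = R.subgroupOf P}
  have hsub : ∀ R ∈ Δ, Nat.card ↥(R.subgroupOf P) = Nat.card ↥R := fun R hR =>
    Nat.card_congr (Subgroup.subgroupOfEquivOfLe (hΔP R hR)).toEquiv
  have key := Cfsg.Agent.S1782.result (S := ↥P) hP Δ' ?_ ?_ ?_ ?_
  · intro R hR T hT hne x hx y hy
    have hne' : R.subgroupOf P ≠ T.subgroupOf P := by
      intro h
      apply hne
      apply le_antisymm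
      · intro a ha
        have : (⟨a, hΔP R hR ha⟩ : ↥P) ∈ T.subgroupOf P := by
          rw [← h]
          exact ha
        exact this
      · intro a ha
        have : (⟨a, hΔP T hT ha⟩ : ↥P) ∈ R.subgroupOf P := by
          rw [h]
          exact ha
        exact this
    have hc := key _ ⟨R, hR, rfl⟩ _ ⟨T, hT, rfl⟩ hne'
    rw [Subgroup.commutator_eq_bot_iff_le_centralizer] at hc
    have hxy := Subgroup.mem_centralizer_iff.mp
      (hc (show (⟨x, hΔP R hR hx⟩ : ↥P) ∈ R.subgroupOf P from hx)) ⟨y, hΔP T hT hy⟩ hy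
    exact (congrArg Subtype.val hxy).symm
  · rintro s _ ⟨R, hR, rfl⟩
    refine ⟨_, hinv s s.2 R hR, ?_⟩
    ext a
    constructor
    · rintro ⟨b, hb, rfl⟩
      exact ⟨b.1, hb, rfl⟩
    · rintro ⟨b, hb, hba⟩
      refine ⟨⟨b, hΔP R hR hb⟩, hb, ?_⟩
      exact Subtype.ext hba
  · rintro _ ⟨R, hR, rfl⟩ hbot
    obtain ⟨r, hr, hr2⟩ := hΦ R hR
    have hPgroup : IsPGroup 2 ↥(R.subgroupOf P) := hP.to_subgroup _
    have := Cfsg.Agent.Lib.Frat.pow_mem_frattini (p := 2) hPgroup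
      (⟨⟨r, hΔP R hR hr⟩, hr⟩ : ↥(R.subgroupOf P))
    rw [hbot, Subgroup.mem_bot] at this
    apply hr2
    exact congrArg (fun z : ↥(R.subgroupOf P) => ((z : ↥P) : X)) this
  · rintro _ ⟨R, hR, rfl⟩ _ ⟨T, hT, rfl⟩
    rw [hsub R hR, hsub T hT]
    exact hord R hR T hT
  · rintro _ ⟨R, hR, rfl⟩ _ ⟨T, hT, rfl⟩
    rcases hti R hR T hT with h | h
    · left
      rw [h]
    · right
      rw [eq_bot_iff]
      rintro a ⟨ha1, ha2⟩
      have : (a : X) ∈ R ⊓ T := ⟨ha1, ha2⟩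
      rw [h, Subgroup.mem_bot] at this
      rw [Subgroup.mem_bot]
      exact Subtype.ext this

/-- The TI condition for two conjugates. -/
theorem ti_two {G : Type*} [Group G] (A : Subgroup G)
    (hti : ∀ h : G, A.map (MulAut.conj h).toMonoidHom = A ∨ A.map (MulAut.conj h).toMonoidHom ⊓ A = ⊥)
    (g h : G) :
    A.map (MulAut.conj g).toMonoidHom = A.map (MulAut.conj h).toMonoidHom ∨
      A.map (MulAut.conj g).toMonoidHom ⊓ A.map (MulAut.conj h).toMonoidHom = ⊥ := by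
  rcases hti (h⁻¹ * g) with h1 | h1
  · left
    ext x
    rw [mem_map_conj_iff, mem_map_conj_iff]
    have h2 : ∀ y, y ∈ A ↔ (h⁻¹ * g)⁻¹ * y * (h⁻¹ * g) ∈ A := by
      intro y
      rw [← mem_map_conj_iff, h1]
    rw [h2 (h⁻¹ * x * h)]
    have : (h⁻¹ * g)⁻¹ * (h⁻¹ * x * h) * (h⁻¹ * g) = g⁻¹ * x * g := by group
    rw [this]
  · right
    rw [eq_bot_iff]
    rintro x ⟨hx1', hx2'⟩
    have hx1 : g⁻¹ * x * g ∈ A := mem_map_conj_iff.mp hx1'
    have hx2 : h⁻¹ * x * h ∈ A := mem_map_conj_iff.mp hx2'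
    have hmem : h⁻¹ * x * h ∈ A.map (MulAut.conj (h⁻¹ * g)).toMonoidHom ⊓ A := by
      refine ⟨mem_map_conj_iff.mpr ?_, hx2⟩
      have : (h⁻¹ * g)⁻¹ * (h⁻¹ * x * h) * (h⁻¹ * g) = g⁻¹ * x * g := by group
      rw [this]
      exact hx1
    rw [h1, Subgroup.mem_bot] at hmem
    rw [Subgroup.mem_bot]
    calc x = h * (h⁻¹ * x * h) * h⁻¹ := by group
      _ = 1 := by rw [hmem]; group

end Cfsg.Agent.Lib.TISubgroups2
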