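import Mathlib

/-!
# Characteristic polynomials along an invariant subspace
-/

set_option autoImplicit false

namespace Cfsg.Agent.Lib.TIU

open Module Polynomial

variable {F : Type*} [Field F] {V U : Type*} [AddCommGroup V] [Module F V] [FiniteDimensional F V]
  [AddCommGroup U] [Module F U] [FiniteDimensional F U]

/-- Multiplicativity of the characteristic polynomial along a surjection intertwining two maps. -/
theorem charpoly_of_ext (T : V →ₗ[F] V) (S : Submodule F V) (hS : ∀ v ∈ S, T v ∈ S) (φ : V →ₗ[F] U)
    (hφ : Function.Surjective φ) (hker : LinearMap.ker φ = S) (B : U →ₗ[F] U)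
    (h : ∀ v, φ (T v) = B (φ v)) :
    T.charpoly = (T.restrict hS).charpoly * B.charpoly := by
  classical
  obtain ⟨ψ, hψ⟩ := φ.exists_rightInverse_of_surjective (LinearMap.range_eq_top.2 hφ)
  have hψ' : ∀ u, φ (ψ u) = u := fun u => LinearMap.congr_fun hψ u
  have hmem : ∀ v, v - ψ (φ v) ∈ S := by
    intro v
    rw [← hker, LinearMap.mem_ker, map_sub, hψ', sub_self]
  have hSφ : ∀ s ∈ S, φ s = 0 := by
    intro s hs
    rw [← hker] at hs
    exact hs
  let π : V →ₗ[F] S := LinearMap.codRestrict S (LinearMap.id - ψ ∘ₗ φ) (by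
    intro v
    exact hmem v)
  have hπ : ∀ v, ((π v : S) : V) = v - ψ (φ v) := fun v => rfl
  let e : V ≃ₗ[F] S × U := LinearEquiv.ofLinear (π.prod φ) (S.subtype.coprod ψ)
    (by
      apply LinearMap.ext
      rintro ⟨s, u⟩
      have h1 : φ ((s : V) + ψ u) = u := by
        rw [map_add, hSφ s s.2, hψ', zero_add]
      apply Prod.ext
      · apply Subtype.ext
        show ((π ((s : V) + ψ u) : S) : V) = s
        rw [hπ, h1]
        abel
      · exact h1)
    (by
      apply LinearMap.ext
      intro v
      show ((π v : S) : V) + ψ (φ v) = v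
      rw [hπ]
      abel)
  have he : ∀ v, e v = (π v, φ v) := fun v => rfl
  have hesymm : ∀ s u, e.symm (s, u) = (s : V) + ψ u := fun s u => rfl
  let b₁ := Module.finBasis F S
  let b₃ := Module.finBasis F U
  let b := b₁.prod b₃
  have h1 : T.charpoly = (e.conj T).charpoly := by
    have := LinearEquiv.charpoly_conj e T
    exact this.symm
  rw [h1, ← LinearMap.charpoly_toMatrix (e.conj T) b]
  have h2 : LinearMap.toMatrix b b (e.conj T) = Matrix.fromBlocks
      (LinearMap.toMatrix b₁ b₁ (T.restrict hS))
      (Matrix.of fun i j => b₁.repr (π (T (ψ (b₃ j)))) i) 0 (LinearMap.toMatrix b₃ b₃ B) := by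
    have hconj : ∀ x, (e.conj T) x = e (T (e.symm x)) := fun x => rfl
    have hres : ∀ s : S, π (T s) = T.restrict hS s := by
      intro s
      apply Subtype.ext
      rw [hπ, h s, hSφ s s.2, map_zero, map_zero, sub_zero]
      rfl
    ext i j
    rcases i with i | i <;> rcases j with j | j
    · simp only [LinearMap.toMatrix_apply, Matrix.fromBlocks_apply₁₁, b, Basis.prod_apply, Sum.elim_inl,
        Function.comp_apply, LinearMap.inl_apply, Basis.prod_repr_inl]
      rw [hconj, hesymm, map_zero, add_zero, he]
      show (b₁.repr (π (T (b₁ j)))) i = _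
      rw [hres]
    · simp only [LinearMap.toMatrix_apply, Matrix.fromBlocks_apply₁₂, b, Basis.prod_apply, Sum.elim_inr,
        Function.comp_apply, LinearMap.inr_apply, Basis.prod_repr_inl, Matrix.of_apply]
      rw [hconj, hesymm]
      simp [he]
    · simp only [LinearMap.toMatrix_apply, Matrix.fromBlocks_apply₂₁, b, Basis.prod_apply, Sum.elim_inl,
        Function.comp_apply, LinearMap.inl_apply, Basis.prod_repr_inr, Matrix.zero_apply]
      rw [hconj, hesymm, map_zero, add_zero, he]
      show b₃.repr (φ (T (b₁ j))) i = 0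
      rw [h, hSφ _ (b₁ j).2, map_zero, map_zero]
      rfl
    · simp only [LinearMap.toMatrix_apply, Matrix.fromBlocks_apply₂₂, b, Basis.prod_apply, Sum.elim_inr,
        Function.comp_apply, LinearMap.inr_apply, Basis.prod_repr_inr]
      rw [hconj, hesymm, he]
      show b₃.repr (φ (T (((0 : S) : V) + ψ (b₃ j)))) i = _
      rw [Submodule.coe_zero, zero_add, h, hψ']
  rw [h2, Matrix.charpoly_fromBlocks_zero₂₁, LinearMap.charpoly_toMatrix, LinearMap.charpoly_toMatrix]

end Cfsg.Agent.Lib.TIU
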