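import Mathlib
import Cfsg.Agent.Lib.TIUCP
import Cfsg.Agent.Lib.SelfDual
import Cfsg.Agent.Lib.DualFactors
import Cfsg.Agent.Lib.GUParab

/-!
# A fixed totally isotropic subspace factors the characteristic polynomial
-/

set_option autoImplicit false
set_option linter.unusedSectionVars false
set_option linter.unusedSimpArgs false
set_option linter.unusedVariables false

namespace Cfsg.Agent.Lib.TIU

open Module Polynomial Matrix Cfsg
open Cfsg.Agent.Lib.HermForm Cfsg.Agent.Lib.HermCount Cfsg.Agent.Lib.UnitaryConjGU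
  Cfsg.Agent.Lib.SelfDual Cfsg.Agent.Lib.DualFactors Cfsg.Agent.Lib.GUParab Cfsg.Agent.Lib.UnitaryE

universe u

variable {F : Type u} [Field F] [Fintype F] {q n m : ℕ}

/-- The dual of a characteristic polynomial. -/
theorem Dl_charpoly (hF : Fintype.card F = q ^ 2) {A A' : Matrix (Fin m) (Fin m) F} (h : A * A' = 1) :
    Dl (Cfsg.Agent.Lib.UnitaryBasic.sigma hF) A.charpoly = (st q A').charpoly := by
  have hdet : A.det ≠ 0 := by
    intro h0
    have := congrArg Matrix.det h
    rw [Matrix.det_mul, h0, zero_mul, Matrix.det_one] at this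
    exact zero_ne_one this
  have h1 := reverse_charpoly_of_inv h
  have hc0 : A.charpoly.coeff 0 ≠ 0 := by
    have h3 := Matrix.det_eq_sign_charpoly_coeff A
    intro h4
    rw [h4, mul_zero] at h3
    exact hdet h3
  unfold Dl
  rw [reverse_map_eq, h1, Polynomial.map_mul, map_C, ← mul_assoc, ← C_mul,
    inv_mul_cancel₀ ((_root_.map_ne_zero _).2 hc0), C_1, one_mul, charpoly_st hF]

/-- A fixed totally isotropic subspace gives a factorisation. -/
theorem exists_factor_of_inv (hF : Fintype.card F = q ^ 2) (X : Matrix (Fin n) (Fin n) F)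
    (hX : ∀ u v, hermForm n F q (X *ᵥ u) (X *ᵥ v) = hermForm n F q u v)
    (W : Submodule F (Fin n → F)) (hWm : finrank F W = m)
    (hW : ∀ u ∈ W, ∀ v ∈ W, hermForm n F q u v = 0)
    (hinv : W.map (Matrix.toLin' X) ≤ W) :
    ∃ g : F[X], g.Monic ∧ g.natDegree = m ∧ g.coeff 0 ≠ 0 ∧
      g * Dl (Cfsg.Agent.Lib.UnitaryBasic.sigma hF) g ∣ X.charpoly := by
  classical
  have hq0 : q ≠ 0 := by
    have := two_le_q hF
    omega
  set T : (Fin n → F) →ₗ[F] (Fin n → F) := Matrix.toLin' X with hT
  have hTv : ∀ v, T v = X *ᵥ v := fun v => Matrix.toLin'_apply X v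
  have hres : ∀ v ∈ W, T v ∈ W := fun v hv => hinv (Submodule.mem_map_of_mem hv)
  set TW : W →ₗ[F] W := T.restrict hres with hTW
  have hTWv : ∀ v : W, ((TW v : W) : Fin n → F) = X *ᵥ (v : Fin n → F) := fun v => hTv _
  have hTinj : Function.Injective T := by
    rw [← LinearMap.ker_eq_bot, LinearMap.ker_eq_bot']
    intro v hv
    by_contra hne
    obtain ⟨z, hz⟩ := exists_hermForm_ne_zero hF hne
    apply hz
    rw [← hX, ← hTv, hv, hermForm_zero_left]
  have hTWinj : Function.Injective TW := by
    intro a b hab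
    apply Subtype.ext
    apply hTinj
    have := congrArg Subtype.val hab
    exact this
  let b : Basis (Fin m) F W := Module.finBasisOfFinrankEq F W hWm
  set A : Matrix (Fin m) (Fin m) F := LinearMap.toMatrix b b TW with hA
  have hAc : A.charpoly = TW.charpoly := LinearMap.charpoly_toMatrix TW b
  -- invertibility
  obtain ⟨TWi, hTWi⟩ : ∃ S : W →ₗ[F] W, TW ∘ₗ S = LinearMap.id := by
    have hsurj : Function.Surjective TW := LinearMap.injective_iff_surjective.1 hTWinj
    exact TW.exists_rightInverse_of_surjective (LinearMap.range_eq_top.2 hsurj)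
  set A' : Matrix (Fin m) (Fin m) F := LinearMap.toMatrix b b TWi with hA'
  have hAA' : A * A' = 1 := by
    rw [hA, hA', ← LinearMap.toMatrix_comp, hTWi, LinearMap.toMatrix_id]
  have hA'A : A' * A = 1 := mul_eq_one_comm.mp hAA'
  have hdet : A.det ≠ 0 := by
    intro h0
    have := congrArg Matrix.det hAA'
    rw [Matrix.det_mul, h0, zero_mul, Matrix.det_one] at this
    exact zero_ne_one this
  have hcoeff : A.charpoly.coeff 0 ≠ 0 := by
    have h3 := Matrix.det_eq_sign_charpoly_coeff A
    intro h4
    rw [h4, mul_zero] at h3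
    exact hdet h3
  -- the basis vectors
  let w : Fin m → Fin n → F := fun i => (b i : Fin n → F)
  have hwli : LinearIndependent F w := by
    have h1 := b.linearIndependent
    exact h1.map' W.subtype (Submodule.ker_subtype W)
  have hXw : ∀ k, X *ᵥ w k = ∑ i, A i k • w i := by
    intro k
    have h1 : TW (b k) = ∑ i, A i k • b i := by
      have h2 := b.sum_repr (TW (b k))
      rw [← h2]
      refine Finset.sum_congr rfl fun i _ => ?_
      rw [hA, LinearMap.toMatrix_apply]
    have h3 := congrArg Subtype.val h1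
    rw [hTWv] at h3
    rw [h3]
    simp [w]
  -- the functional
  let φ : (Fin n → F) →ₗ[F] (Fin m → F) := LinearMap.pi fun i => hL n F q (w i)
  have hφ : ∀ v i, φ v i = hermForm n F q v (w i) := fun v i => rfl
  have hker : LinearMap.ker φ = perpT q w := by
    ext v
    rw [LinearMap.mem_ker, mem_perpT]
    constructor
    · intro h i
      rw [← hφ, h]
      rfl
    · intro h
      funext i
      rw [hφ, h]
      rfl
  have hφsurj : Function.Surjective φ := by
    rw [← LinearMap.range_eq_top]
    apply Submodule.eq_top_of_finrank_eq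
    have h1 := LinearMap.finrank_range_add_finrank_ker φ
    rw [hker] at h1
    have h2 := finrank_perpT hF hwli
    simp only [finrank_fin_fun] at h1 ⊢
    omega
  have hWle : W ≤ LinearMap.ker φ := by
    intro v hv
    rw [LinearMap.mem_ker]
    funext i
    rw [hφ]
    exact hW v hv _ (b i).2
  -- the dual action
  set B : Matrix (Fin m) (Fin m) F := st q A' with hB
  have hφT : ∀ v, φ (T v) = B *ᵥ φ v := by
    intro v
    have h1 : φ v = st q A *ᵥ φ (T v) := by
      funext k
      rw [hφ, ← hX v (w k), hXw k, ← hTv, Matrix.mulVec, dotProduct,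
        Cfsg.Agent.Lib.HermOrtho.herm_sum_right hF]
      refine Finset.sum_congr rfl fun i _ => ?_
      rw [hermForm_smul_right, st_apply, hφ]
    have h2 : st q A' * st q A = 1 := by
      rw [← st_mul hF, hAA', st_one hF]
    rw [h1, hB, Matrix.mulVec_mulVec, h2, Matrix.one_mulVec]
  -- first step: the quotient by `W`
  have hmap : W ≤ W.comap T := fun v hv => hres v hv
  let Tq : (Fin n → F) ⧸ W →ₗ[F] (Fin n → F) ⧸ W := W.mapQ W T hmap
  have h1 : T.charpoly = (T.restrict hres).charpoly * Tq.charpoly :=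
    charpoly_of_ext T W hres W.mkQ (Submodule.mkQ_surjective W) (Submodule.ker_mkQ W) Tq (fun v => rfl)
  -- second step: the quotient map to the dual
  let φq : (Fin n → F) ⧸ W →ₗ[F] (Fin m → F) := W.liftQ φ hWle
  have hφqmk : ∀ v, φq (W.mkQ v) = φ v := fun v => rfl
  have hφqsurj : Function.Surjective φq := by
    intro y
    obtain ⟨v, hv⟩ := hφsurj y
    exact ⟨W.mkQ v, hv⟩
  have hint : ∀ v, φq (Tq v) = (Matrix.toLin' B) (φq v) := by
    intro v
    obtain ⟨u, rfl⟩ := W.mkQ_surjective v
    show φ (T u) = (Matrix.toLin' B) (φ u)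
    rw [hφT, Matrix.toLin'_apply]
  have hS : ∀ v ∈ LinearMap.ker φq, Tq v ∈ LinearMap.ker φq := by
    intro v hv
    rw [LinearMap.mem_ker] at hv ⊢
    rw [hint, hv, map_zero]
  have h2 := charpoly_of_ext Tq (LinearMap.ker φq) hS φq hφqsurj rfl (Matrix.toLin' B) hint
  have hBc : (Matrix.toLin' B).charpoly = Dl (Cfsg.Agent.Lib.UnitaryBasic.sigma hF) A.charpoly := by
    rw [Matrix.charpoly_toLin', Dl_charpoly hF hAA']
  refine ⟨A.charpoly, Matrix.charpoly_monic A, ?_, hcoeff, ?_⟩
  · rw [Matrix.charpoly_natDegree_eq_dim, Fintype.card_fin]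
  · have h3 : X.charpoly = A.charpoly * ((Tq.restrict hS).charpoly *
        Dl (Cfsg.Agent.Lib.UnitaryBasic.sigma hF) A.charpoly) := by
      rw [← Matrix.charpoly_toLin' X, ← hT, h1, h2, hBc, hAc]
    rw [h3]
    exact ⟨(Tq.restrict hS).charpoly, by ring⟩

end Cfsg.Agent.Lib.TIU
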