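import Mathlib
import Cfsg.Agent.Lib.TIUFwd
import Cfsg.Agent.Lib.PGUOrd.Exist

/-!
# A factorisation of the characteristic polynomial gives a fixed totally isotropic subspace
-/

set_option autoImplicit false
set_option linter.unusedSectionVars false
set_option linter.unusedSimpArgs false
set_option linter.unusedVariables false

namespace Cfsg.Agent.Lib.TIU

open Module Polynomial Matrix Cfsg
open Cfsg.Agent.Lib.HermForm Cfsg.Agent.Lib.HermCount Cfsg.Agent.Lib.UnitaryConjGU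
  Cfsg.Agent.Lib.SelfDual Cfsg.Agent.Lib.DualFactors Cfsg.Agent.Lib.GUParab Cfsg.Agent.Lib.HermFrame

universe u

variable {F : Type u} [Field F] [Fintype F] {q n m d : ℕ}

theorem isHerm_std (hF : Fintype.card F = q ^ 2) (n : ℕ) : IsHerm q (hermForm n F q) where
  add_left := hermForm_add_left
  smul_left := fun c u v => hermForm_smul_left c u v
  conj := hermForm_conj hF
  nondeg := fun x hx => by
    by_contra hne
    obtain ⟨z, hz⟩ := exists_hermForm_ne_zero hF hne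
    exact hz (hx z)

theorem isHerm_hyp (hF : Fintype.card F = q ^ 2) (m : ℕ) :
    IsHerm q (fun x y : (Fin m → F) × (Fin m → F) => hermForm m F q x.1 y.2 + hermForm m F q x.2 y.1) where
  add_left u u' v := by
    simp only [Prod.fst_add, Prod.snd_add, hermForm_add_left]
    ring
  smul_left c u v := by
    simp only [Prod.smul_fst, Prod.smul_snd, hermForm_smul_left]
    ring
  conj u v := by
    rw [HermCount.add_pow_q hF, hermForm_conj hF, hermForm_conj hF]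
    ring
  nondeg x hx := by
    apply Prod.ext
    · by_contra hne
      obtain ⟨z, hz⟩ := exists_hermForm_ne_zero hF hne
      apply hz
      have := hx (0, z)
      simpa [hermForm_zero_right hF] using this
    · by_contra hne
      obtain ⟨z, hz⟩ := exists_hermForm_ne_zero hF hne
      apply hz
      have := hx (z, 0)
      simpa [hermForm_zero_right hF] using this

/-- The Levi model. -/
theorem exists_inv_of_factor (p : ℕ) [Fact p.Prime] [CharP F p] (hF : Fintype.card F = q ^ 2) (hn : n = 2 * m + d)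
    (X : ↥(GU n F q)) (hord : (orderOf X).Coprime p) {g f₀ : F[X]} (hg : g.Monic) (hgd : g.natDegree = m)
    (hg0 : g.coeff 0 ≠ 0) (hf₀ : f₀.Monic) (hf₀d : f₀.natDegree = d) (hf₀0 : f₀.coeff 0 ≠ 0) (hsd : SD hF f₀)
    (hc : ((X : GL (Fin n) F) : Matrix (Fin n) (Fin n) F).charpoly =
      g * Dl (Cfsg.Agent.Lib.UnitaryBasic.sigma hF) g * f₀) :
    ∃ W : Submodule F (Fin n → F), finrank F W = m ∧ (∀ u ∈ W, ∀ v ∈ W, hermForm n F q u v = 0) ∧
      W.map (Matrix.toLin' ((X : GL (Fin n) F) : Matrix (Fin n) (Fin n) F)) ≤ W := by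
  classical
  have hp : p.Prime := Fact.out
  obtain ⟨A, a, hAa, hac, hAc⟩ := Cfsg.Agent.Lib.SemisimpleGL.mat_exists p g hg hgd hg0
  have ha0 : a ≠ 0 := by
    rintro rfl
    exact hp.one_lt.ne' (Nat.coprime_zero_left p |>.mp hac)
  obtain ⟨A', hA'⟩ : ∃ A', A' = A ^ (a - 1) := ⟨_, rfl⟩
  have hAA' : A * A' = 1 := by rw [hA', ← pow_succ', Nat.sub_add_cancel (by omega), hAa]
  have hA'A : A' * A = 1 := mul_eq_one_comm.mp hAA'
  obtain ⟨B, hB⟩ : ∃ B, B = st q A' := ⟨_, rfl⟩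
  have hBa : B ^ a = 1 := by
    rw [hB, ← Cfsg.Agent.Lib.GUOrderP.st_pow hF, hA', ← pow_mul, mul_comm, pow_mul, hAa, one_pow, st_one hF]
  have hBc : B.charpoly = Dl (Cfsg.Agent.Lib.UnitaryBasic.sigma hF) g := by
    rw [hB, ← Dl_charpoly hF hAA', hAc]
  obtain ⟨Y, hYo, hYc⟩ := exists_GU_of_sd p hF hf₀ hf₀d hf₀0 hsd
  obtain ⟨YM, hYM⟩ : ∃ YM : Matrix (Fin d) (Fin d) F, YM = ((Y : GL (Fin d) F) : Matrix (Fin d) (Fin d) F) := ⟨_, rfl⟩
  rw [← hYM] at hYc
  have hYiso : ∀ u v, hermForm d F q (YM *ᵥ u) (YM *ᵥ v) = hermForm d F q u v := by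
    rw [hYM]
    exact Y.2
  have hYpow : YM ^ orderOf Y = 1 := by
    rw [hYM, ← Units.val_pow_eq_pow_val, ← Subgroup.coe_pow, pow_orderOf_eq_one]
    rfl
  -- the model space
  obtain ⟨H, hHdef⟩ : ∃ H : ((Fin m → F) × (Fin m → F)) × (Fin d → F) → ((Fin m → F) × (Fin m → F)) × (Fin d → F) → F,
      H = fun u v => (hermForm m F q u.1.1 v.1.2 + hermForm m F q u.1.2 v.1.1) + hermForm d F q u.2 v.2 := ⟨_, rfl⟩
  have hH : IsHerm q H := by
    rw [hHdef]
    exact Cfsg.Agent.Lib.PGUOrd.isHerm_prod hF (isHerm_hyp hF m) (isHerm_std hF d)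
  have hdim : finrank F (((Fin m → F) × (Fin m → F)) × (Fin d → F)) = n := by
    simp [hn]
    omega
  obtain ⟨e, he⟩ := exists_equiv hF hdim hH
  obtain ⟨T', hT'⟩ : ∃ T' : ((Fin m → F) × (Fin m → F)) × (Fin d → F) →ₗ[F] ((Fin m → F) × (Fin m → F)) × (Fin d → F),
      T' = ((Matrix.toLin' A).prodMap (Matrix.toLin' B)).prodMap (Matrix.toLin' YM) := ⟨_, rfl⟩
  have hT'v : ∀ x, T' x = ((A *ᵥ x.1.1, B *ᵥ x.1.2), YM *ᵥ x.2) := by
    intro x
    rw [hT']
    rfl
  have hAB : ∀ u v, hermForm m F q (A *ᵥ u) (B *ᵥ v) = hermForm m F q u v := by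
    intro u v
    rw [Cfsg.Agent.Lib.SUSemi.herm_adj hF, Matrix.mulVec_mulVec, hB, ← st_mul hF, hA'A, st_one hF, Matrix.one_mulVec]
  have hBA : ∀ u v, hermForm m F q (B *ᵥ u) (A *ᵥ v) = hermForm m F q u v := by
    intro u v
    rw [← hermForm_conj hF (A *ᵥ v), hAB, hermForm_conj hF]
  have hTiso : ∀ u v, H (T' u) (T' v) = H u v := by
    intro u v
    rw [hT'v, hT'v, hHdef]
    simp only
    rw [hAB, hBA, hYiso]
  obtain ⟨M, hM⟩ : ∃ M : Matrix (Fin n) (Fin n) F, M = LinearMap.toMatrix' (e.toLinearMap ∘ₗ T' ∘ₗ e.symm.toLinearMap) := ⟨_, rfl⟩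
  have hMv : ∀ v, M *ᵥ v = e (T' (e.symm v)) := by
    intro v
    rw [hM, LinearMap.toMatrix'_mulVec]
    rfl
  have hMiso : ∀ u v, hermForm n F q (M *ᵥ u) (M *ᵥ v) = hermForm n F q u v := by
    intro u v
    rw [hMv, hMv, ← he, hTiso, he]
    simp
  -- powers
  have hTpow : ∀ (k : ℕ) (x : ((Fin m → F) × (Fin m → F)) × (Fin d → F)),
      (T' ^ k) x = ((A ^ k *ᵥ x.1.1, B ^ k *ᵥ x.1.2), YM ^ k *ᵥ x.2) := by
    intro k
    induction k with
    | zero =>
      intro x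
      simp
    | succ k ih =>
      intro x
      rw [pow_succ', Module.End.mul_apply, ih, hT'v]
      simp only [pow_succ', Matrix.mulVec_mulVec]
  have hMpow : ∀ (k : ℕ) (v : Fin n → F), M ^ k *ᵥ v = e ((T' ^ k) (e.symm v)) := by
    intro k
    induction k with
    | zero =>
      intro v
      simp
    | succ k ih =>
      intro v
      rw [pow_succ', ← Matrix.mulVec_mulVec, ih, hMv, LinearEquiv.symm_apply_apply, pow_succ', Module.End.mul_apply]
  obtain ⟨N, hN⟩ : ∃ N, N = a * orderOf Y := ⟨_, rfl⟩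
  have hMN : M ^ N = 1 := by
    apply Matrix.mulVec_injective
    funext v
    have h1 : (T' ^ N) (e.symm v) = e.symm v := by
      rw [hTpow, hN, pow_mul, hAa, pow_mul, hBa, mul_comm, pow_mul, hYpow]
      simp
    rw [hMpow, h1]
    simp
  have hNco : N.Coprime p := by
    rw [hN]
    exact Nat.Coprime.mul_left hac hYo
  -- charpolys agree
  have hMc : M.charpoly = ((X : GL (Fin n) F) : Matrix (Fin n) (Fin n) F).charpoly := by
    rw [hc, ← Matrix.charpoly_toLin' M]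
    have h1 : Matrix.toLin' M = e.conj T' := by
      apply LinearMap.ext
      intro v
      rw [Matrix.toLin'_apply, hMv]
      rfl
    rw [h1, LinearEquiv.charpoly_conj, hT', LinearMap.charpoly_prodMap, LinearMap.charpoly_prodMap,
      Matrix.charpoly_toLin', Matrix.charpoly_toLin', Matrix.charpoly_toLin', hAc, hBc, hYc]
  -- conjugacy
  obtain ⟨XM, hXM⟩ : ∃ XM : Matrix (Fin n) (Fin n) F, XM = ((X : GL (Fin n) F) : Matrix (Fin n) (Fin n) F) := ⟨_, rfl⟩
  rw [← hXM] at hMc ⊢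
  have hXpow : XM ^ orderOf X = 1 := by
    rw [hXM, ← Units.val_pow_eq_pow_val, ← Subgroup.coe_pow, pow_orderOf_eq_one]
    rfl
  obtain ⟨Z, hZ, hZX⟩ := Cfsg.Agent.Lib.SemisimpleGL.mat_conj
    (Cfsg.Agent.Lib.SemisimpleGL.cast_ne_of_coprime (F := F) p hord)
    (Cfsg.Agent.Lib.SemisimpleGL.cast_ne_of_coprime (F := F) p hNco) hXpow hMN hMc.symm
  -- the element of `GU`
  obtain ⟨MU, hMU⟩ : ∃ MU : ↥(GU n F q), MU = Cfsg.Agent.Lib.UnitarySU.GUofMatrix hF M hMiso := ⟨_, rfl⟩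
  have hMUv : ((MU : GL (Fin n) F) : Matrix (Fin n) (Fin n) F) = M := by
    rw [hMU]
    exact Cfsg.Agent.Lib.UnitarySU.GUofMatrix_val hF M hMiso
  have hconjGL : IsConj (X : GL (Fin n) F) (MU : GL (Fin n) F) := by
    rw [isConj_iff]
    refine ⟨Matrix.GeneralLinearGroup.mkOfDetNeZero Z hZ, ?_⟩
    apply Units.ext
    have h1 : ((Matrix.GeneralLinearGroup.mkOfDetNeZero Z hZ : GL (Fin n) F) : Matrix (Fin n) (Fin n) F) = Z := rfl
    rw [Units.val_mul, Units.val_mul, h1, ← hXM, hZX, hMUv, mul_assoc]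
    have h2 : Z * ((Matrix.GeneralLinearGroup.mkOfDetNeZero Z hZ : GL (Fin n) F)⁻¹ : GL (Fin n) F).val = 1 := by
      exact Units.mul_inv (Matrix.GeneralLinearGroup.mkOfDetNeZero Z hZ)
    rw [h2, mul_one]
  obtain ⟨c, hc'⟩ := isConj_iff.1 ((isConj_GU_iff hF X MU).2 hconjGL)
  -- the matrices
  obtain ⟨Cm, hCm⟩ : ∃ Cm : Matrix (Fin n) (Fin n) F, Cm = ((c : GL (Fin n) F) : Matrix (Fin n) (Fin n) F) := ⟨_, rfl⟩
  obtain ⟨Ci, hCi⟩ : ∃ Ci : Matrix (Fin n) (Fin n) F, Ci = ((c⁻¹ : ↥(GU n F q)) : GL (Fin n) F).val := ⟨_, rfl⟩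
  have hCiiso : ∀ u v, hermForm n F q (Ci *ᵥ u) (Ci *ᵥ v) = hermForm n F q u v := by
    rw [hCi]
    exact (c⁻¹).2
  have hCiinj : Function.Injective (fun v => Ci *ᵥ v) := by
    intro u v huv
    have h1 : ((c : GL (Fin n) F) : Matrix (Fin n) (Fin n) F) * Ci = 1 := by
      rw [hCi]
      have := Units.mul_inv (c : GL (Fin n) F)
      exact this
    have h2 := congrArg (fun z => ((c : GL (Fin n) F) : Matrix (Fin n) (Fin n) F) *ᵥ z) huv
    simp only [Matrix.mulVec_mulVec, h1, Matrix.one_mulVec] at h2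
    exact h2
  have hXCi : XM * Ci = Ci * M := by
    have h1 := congrArg (fun z : ↥(GU n F q) => ((z : GL (Fin n) F) : Matrix (Fin n) (Fin n) F)) hc'
    simp only [Subgroup.coe_mul, Units.val_mul, hMUv] at h1
    rw [← hXM] at h1
    rw [← h1, hCi]
    have h2 : ((c⁻¹ : ↥(GU n F q)) : GL (Fin n) F).val * ((c : GL (Fin n) F) : Matrix (Fin n) (Fin n) F) = 1 := by
      have := Units.inv_mul (c : GL (Fin n) F)
      exact this
    calc XM * ((c⁻¹ : ↥(GU n F q)) : GL (Fin n) F).val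
        = (((c⁻¹ : ↥(GU n F q)) : GL (Fin n) F).val * ((c : GL (Fin n) F) : Matrix (Fin n) (Fin n) F)) * XM *
            ((c⁻¹ : ↥(GU n F q)) : GL (Fin n) F).val := by rw [h2, one_mul]
      _ = _ := by noncomm_ring
  -- the subspace
  obtain ⟨L, hL⟩ : ∃ L : (Fin m → F) →ₗ[F] (Fin n → F), L =
      (Matrix.toLin' Ci) ∘ₗ e.toLinearMap ∘ₗ (LinearMap.inl F ((Fin m → F) × (Fin m → F)) (Fin d → F)) ∘ₗ
        (LinearMap.inl F (Fin m → F) (Fin m → F)) := ⟨_, rfl⟩
  have hLv : ∀ a, L a = Ci *ᵥ e (((a, 0), 0)) := by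
    intro a
    rw [hL]
    rfl
  have hLinj : Function.Injective L := by
    intro a b hab
    rw [hLv, hLv] at hab
    have h1 := e.injective (hCiinj hab)
    have h2 := congrArg (fun z => z.1.1) h1
    exact h2
  refine ⟨LinearMap.range L, ?_, ?_, ?_⟩
  · rw [LinearMap.finrank_range_of_inj hLinj]
    simp
  · rintro _ ⟨a, rfl⟩ _ ⟨b, rfl⟩
    rw [hLv, hLv, hCiiso, ← he, hHdef]
    simp [hermForm_zero_right hF, hermForm_zero_left]
  · rintro _ ⟨_, ⟨a, rfl⟩, rfl⟩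
    refine ⟨A *ᵥ a, ?_⟩
    rw [hLv, hLv, Matrix.toLin'_apply, Matrix.mulVec_mulVec, hXCi, ← Matrix.mulVec_mulVec, hMv,
      LinearEquiv.symm_apply_apply, hT'v]
    simp

end Cfsg.Agent.Lib.TIU
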