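import Mathlib
import Cfsg.Agent.Lib.TIUBack

/-!
# Fixed totally isotropic subspaces of elements of prime order: multiplicities
-/

set_option autoImplicit false
set_option linter.unusedSectionVars false
set_option linter.unusedSimpArgs false
set_option linter.unusedVariables false

namespace Cfsg.Agent.Lib.TIU

open Module Polynomial Matrix Cfsg
open Cfsg.Agent.Lib.HermForm Cfsg.Agent.Lib.HermCount Cfsg.Agent.Lib.UnitaryConjGU
  Cfsg.Agent.Lib.SelfDual Cfsg.Agent.Lib.DualFactors Cfsg.Agent.Lib.GUParab Cfsg.Agent.Lib.HermFrame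
  Cfsg.Agent.Lib.PrimeFactors

open scoped Classical

universe u

section comb

variable {ι : Type*} [Fintype ι]

/-- Distribution of a total among the classes of an involution. -/
theorem exists_split (δ : ι → ι) (hδ : ∀ j, δ (δ j) = j) (a : ι → ℕ) (ha : ∀ j, a (δ j) = a j) (T : ℕ)
    [DecidablePred fun j => δ j = j ∧ Odd (a j)]
    (hT : 2 * T + (Finset.univ.filter fun j => δ j = j ∧ Odd (a j)).card ≤ ∑ j, a j) :
    ∃ t : ι → ℕ, ∑ j, t j = T ∧ ∀ j, t j + t (δ j) ≤ a j := by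
  have hsw : ∀ t : ι → ℕ, ∑ j, t (δ j) = ∑ j, t j := fun t =>
    Equiv.sum_comp (Function.Involutive.toPerm δ hδ) t
  induction T with
  | zero =>
    refine ⟨0, by simp, by simp⟩
  | succ T ih =>
    obtain ⟨t, ht, hta⟩ := ih (by omega)
    -- a position where one can still increase
    have hex : ∃ j, if δ j = j then 2 * t j + 2 ≤ a j else t j + t (δ j) + 1 ≤ a j := by
      by_contra hno
      push Not at hno
      have h1 : ∀ j, a j - t j - t (δ j) = if δ j = j ∧ Odd (a j) then 1 else 0 := by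
        intro j
        have h2 := hno j
        have h3 := hta j
        by_cases hj : δ j = j
        · rw [if_pos hj] at h2
          have e : t (δ j) = t j := by rw [hj]
          rw [e] at h3
          rw [e]
          by_cases ho : Odd (a j)
          · rw [if_pos ⟨hj, ho⟩]
            obtain ⟨c, hc⟩ := ho
            omega
          · rw [if_neg (fun h => ho h.2)]
            rw [Nat.not_odd_iff_even] at ho
            obtain ⟨c, hc⟩ := ho
            omega
        · rw [if_neg hj] at h2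
          rw [if_neg (fun h => hj h.1)]
          omega
      have h2 : ∑ j, (a j - t j - t (δ j)) = (Finset.univ.filter fun j => δ j = j ∧ Odd (a j)).card := by
        simp only [h1]
        rw [Finset.card_filter]
      have h3 : ∑ j, (a j - t j - t (δ j)) + (∑ j, t j + ∑ j, t (δ j)) = ∑ j, a j := by
        rw [← Finset.sum_add_distrib, ← Finset.sum_add_distrib]
        refine Finset.sum_congr rfl fun j _ => ?_
        have := hta j
        omega
      rw [h2, hsw, ht] at h3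
      omega
    obtain ⟨j₀, hj₀⟩ := hex
    refine ⟨Function.update t j₀ (t j₀ + 1), ?_, ?_⟩
    · rw [Finset.sum_update_of_mem (Finset.mem_univ j₀)]
      have h1 := Finset.sum_erase_add (Finset.univ) t (Finset.mem_univ j₀)
      have h2 : Finset.univ \ {j₀} = Finset.univ.erase j₀ := by
        ext x
        simp
      rw [h2]
      omega
    · intro j
      by_cases hj : j = j₀
      · subst hj
        by_cases hd : δ j = j
        · rw [if_pos hd] at hj₀
          rw [hd, Function.update_self]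
          omega
        · rw [if_neg hd] at hj₀
          rw [Function.update_self, Function.update_of_ne hd]
          omega
      · by_cases hd : δ j = j₀
        · have h1 : j = δ j₀ := by rw [← hd, hδ]
          have h2 : δ j₀ ≠ j₀ := by
            rw [← h1]
            exact hj
          rw [if_neg h2] at hj₀
          rw [Function.update_of_ne hj, hd, Function.update_self, h1, ha]
          omega
        · rw [Function.update_of_ne hj, Function.update_of_ne hd]
          exact hta j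

/-- Parity of the number of odd values. -/
theorem even_sum_sub_card (δ : ι → ι) (a : ι → ℕ) (hfix : ∀ j, δ j = j)
    [DecidablePred fun j => δ j = j ∧ Odd (a j)] :
    Even (∑ j, a j - (Finset.univ.filter fun j => δ j = j ∧ Odd (a j)).card) := by
  have h1 : (Finset.univ.filter fun j => δ j = j ∧ Odd (a j)) = Finset.univ.filter fun j => Odd (a j) := by
    ext j
    simp [hfix]
  rw [h1]
  have h2 : (Finset.univ.filter fun j => Odd (a j)).card ≤ ∑ j, a j := by
    rw [Finset.card_filter]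
    refine Finset.sum_le_sum fun j _ => ?_
    split_ifs with h
    · exact h.pos
    · exact Nat.zero_le _
  rw [Nat.even_sub h2]
  have h3 := Finset.odd_sum_iff_odd_card_odd (s := (Finset.univ : Finset ι)) a
  constructor
  · intro h
    by_contra hn
    rw [Nat.not_even_iff_odd] at hn
    rw [← Nat.not_odd_iff_even] at h
    exact absurd (h3.2 (by simpa using hn)) h
  · intro h
    by_contra hn
    rw [Nat.not_even_iff_odd] at hn
    have := h3.1 hn
    rw [← Nat.not_odd_iff_even] at h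
    exact h (by simpa using this)

/-- Fixed point free involutions have even symmetric sums. -/
theorem even_sum_of_fpf (δ : ι → ι) (hδ : ∀ j, δ (δ j) = j) (hfp : ∀ j, δ j ≠ j) (a : ι → ℕ)
    (ha : ∀ j, a (δ j) = a j) : Even (∑ j, a j) := by
  have h1 : ((∑ j, a j : ℕ) : ZMod 2) = 0 := by
    rw [Nat.cast_sum]
    refine Finset.sum_involution (fun j _ => δ j) ?_ ?_ ?_ ?_
    · intro j _
      rw [ha]
      exact CharTwo.add_self_eq_zero _
    · intro j _ _
      exact hfp j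
    · intro j _
      exact Finset.mem_univ _
    · intro j _
      exact hδ j
  rw [ZMod.natCast_eq_zero_iff] at h1
  exact even_iff_two_dvd.2 h1

end comb

section Pa

variable {F : Type u} [Field F] [Fintype F] {r n m : ℕ}

/-- The multiplicity of `X - 1`. -/
theorem emult_one_Pa (hr : (r : F) ≠ 0) (hr0 : r ≠ 0) (a : ↥(Idx F r) → ℕ) :
    emultiplicity (X - 1 : F[X]) (Pa F r n a) = ((n - orderOf ((Fintype.card F : ℕ) : ZMod r) * ∑ j, a j : ℕ) : ℕ∞) := by
  have hp : Prime (X - 1 : F[X]) := irr_X_sub_one.prime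
  rw [Pa, emultiplicity_mul hp, emultiplicity_pow hp, Finset.emultiplicity_prod hp,
    FiniteMultiplicity.emultiplicity_self (FiniteMultiplicity.of_not_isUnit irr_X_sub_one.not_isUnit irr_X_sub_one.ne_zero), mul_one]
  have h1 : ∑ j : ↥(Idx F r), emultiplicity (X - 1 : F[X]) ((j : F[X]) ^ a j) = 0 := by
    refine Finset.sum_eq_zero fun j _ => ?_
    rw [emultiplicity_pow hp]
    have h2 : emultiplicity (X - 1 : F[X]) (j : F[X]) = 0 := by
      rw [emultiplicity_eq_zero]
      intro h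
      obtain ⟨hi, hm, -⟩ := (mem_Idx hr0).1 j.2
      have h3 : Associated (X - 1 : F[X]) (j : F[X]) := irr_X_sub_one.associated_of_dvd hi h
      have h4 := eq_of_monic_of_associated monic_X_sub_one hm h3
      have h5 := j.2
      rw [← h4] at h5
      exact one_not_mem hr hr0 h5
    rw [h2, mul_zero]
  rw [h1, add_zero]

/-- Multiplying. -/
theorem Pa_mul (a₁ a₂ : ↥(Idx F r) → ℕ) {n₁ n₂ : ℕ}
    (h₁ : orderOf ((Fintype.card F : ℕ) : ZMod r) * ∑ j, a₁ j ≤ n₁)
    (h₂ : orderOf ((Fintype.card F : ℕ) : ZMod r) * ∑ j, a₂ j ≤ n₂) :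
    Pa F r n₁ a₁ * Pa F r n₂ a₂ = Pa F r (n₁ + n₂) (fun j => a₁ j + a₂ j) := by
  unfold Pa
  have h3 : orderOf ((Fintype.card F : ℕ) : ZMod r) * ∑ j, (a₁ j + a₂ j) =
      orderOf ((Fintype.card F : ℕ) : ZMod r) * ∑ j, a₁ j + orderOf ((Fintype.card F : ℕ) : ZMod r) * ∑ j, a₂ j := by
    rw [Finset.sum_add_distrib, mul_add]
  rw [h3]
  have h4 : n₁ + n₂ - (orderOf ((Fintype.card F : ℕ) : ZMod r) * ∑ j, a₁ j + orderOf ((Fintype.card F : ℕ) : ZMod r) * ∑ j, a₂ j) =
      (n₁ - orderOf ((Fintype.card F : ℕ) : ZMod r) * ∑ j, a₁ j) + (n₂ - orderOf ((Fintype.card F : ℕ) : ZMod r) * ∑ j, a₂ j) := by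
    omega
  rw [h4, pow_add]
  have h5 : ∏ j : ↥(Idx F r), (j : F[X]) ^ (a₁ j + a₂ j) =
      (∏ j : ↥(Idx F r), (j : F[X]) ^ a₁ j) * ∏ j : ↥(Idx F r), (j : F[X]) ^ a₂ j := by
    rw [← Finset.prod_mul_distrib]
    refine Finset.prod_congr rfl fun j _ => ?_
    rw [pow_add]
  rw [h5]
  ring

variable {q : ℕ}

theorem sigma_invol (hF : Fintype.card F = q ^ 2) :
    ∀ x, Cfsg.Agent.Lib.UnitaryBasic.sigma hF (Cfsg.Agent.Lib.UnitaryBasic.sigma hF x) = x :=
  Cfsg.Agent.Lib.UnitaryBasic.sigma_sigma hF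

theorem sigma_neg_one (hF : Fintype.card F = q ^ 2) :
    Cfsg.Agent.Lib.UnitaryBasic.sigma hF (-1) = -1 := by
  rw [map_neg, map_one]

/-- Short names for the involution on factors. -/
noncomputable abbrev dlU (hF : Fintype.card F = q ^ 2) (hr : (r : F) ≠ 0) (hr0 : r ≠ 0) (j : ↥(Idx F r)) : ↥(Idx F r) :=
  dl (sigma_invol hF) (sigma_neg_one hF) hr hr0 j

theorem dlU_dlU (hF : Fintype.card F = q ^ 2) (hr : (r : F) ≠ 0) (hr0 : r ≠ 0) (j : ↥(Idx F r)) :
    dlU hF hr hr0 (dlU hF hr hr0 j) = j := dl_dl _ _ hr hr0 j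

theorem sum_comp_dlU (hF : Fintype.card F = q ^ 2) (hr : (r : F) ≠ 0) (hr0 : r ≠ 0) (t : ↥(Idx F r) → ℕ) :
    ∑ j, t (dlU hF hr hr0 j) = ∑ j, t j :=
  Equiv.sum_comp (Function.Involutive.toPerm _ (dlU_dlU hF hr hr0)) t

theorem sd_iff_Dl (hF : Fintype.card F = q ^ 2) {f : F[X]} (h0 : f.coeff 0 ≠ 0) :
    SD hF f ↔ Dl (Cfsg.Agent.Lib.UnitaryBasic.sigma hF) f = f := by
  have hne : Cfsg.Agent.Lib.UnitaryBasic.sigma hF (f.coeff 0) ≠ 0 := (_root_.map_ne_zero _).2 h0
  unfold SD Dl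
  rw [Cfsg.Agent.Lib.UnitaryBasic.sigma_apply]
  rw [Cfsg.Agent.Lib.UnitaryBasic.sigma_apply] at hne
  constructor
  · intro h
    rw [h, ← mul_assoc, ← C_mul, inv_mul_cancel₀ hne, C_1, one_mul]
  · intro h
    have h2 : (C (f.coeff 0 ^ q) : F[X]) * (C (f.coeff 0 ^ q)⁻¹ * (f.map (Cfsg.Agent.Lib.UnitaryBasic.sigma hF)).reverse) =
        (f.map (Cfsg.Agent.Lib.UnitaryBasic.sigma hF)).reverse := by
      rw [← mul_assoc, ← C_mul, mul_inv_cancel₀ hne, C_1, one_mul]
    rw [← h2, h]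

theorem Pa_coeff_zero (hr0 : r ≠ 0) (n : ℕ) (a : ↥(Idx F r) → ℕ) : (Pa F r n a).coeff 0 ≠ 0 :=
  coeff_zero_of_supp hr0 (Pa_monic hr0) fun g hi hd => Pa_dvd hr0 hi hd

/-- The multiplicities of a unitary element are symmetric. -/
theorem symm_of_unitary (hF : Fintype.card F = q ^ 2) (hr : (r : F) ≠ 0) (hr0 : r ≠ 0) {X : Matrix (Fin n) (Fin n) F}
    (hX : st q X * X = 1) {a : ↥(Idx F r) → ℕ} (hc : X.charpoly = Pa F r n a) :
    ∀ j, a (dlU hF hr hr0 j) = a j := by
  have h1 := sd_of_unitary hF hX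
  rw [hc, sd_iff_Dl hF (Pa_coeff_zero hr0 n a), Dl_Pa (sigma_invol hF) (sigma_neg_one hF) hr hr0] at h1
  have h2 := Pa_inj hr hr0 h1
  intro j
  exact congrFun h2 j

/-- Forward direction in terms of multiplicities. -/
theorem key_forward [Fact r.Prime] (hF : Fintype.card F = q ^ 2) (hr : (r : F) ≠ 0) (M : Matrix (Fin n) (Fin n) F)
    (hM : ∀ u v, hermForm n F q (M *ᵥ u) (M *ᵥ v) = hermForm n F q u v)
    (W : Submodule F (Fin n → F)) (hWm : finrank F W = m)
    (hW : ∀ u ∈ W, ∀ v ∈ W, hermForm n F q u v = 0)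
    (hinv : W.map (Matrix.toLin' M) ≤ W) {a : ↥(Idx F r) → ℕ} (hc : M.charpoly = Pa F r n a) :
    ∃ t : ↥(Idx F r) → ℕ, (∀ j, t j + t (dlU hF hr (Fact.out : r.Prime).ne_zero j) ≤ a j) ∧
      orderOf ((Fintype.card F : ℕ) : ZMod r) * ∑ j, t j ≤ m ∧
      2 * (m - orderOf ((Fintype.card F : ℕ) : ZMod r) * ∑ j, t j) ≤
        n - orderOf ((Fintype.card F : ℕ) : ZMod r) * ∑ j, a j := by
  have hprime : r.Prime := Fact.out
  have hr0 := hprime.ne_zero
  obtain ⟨g, hgm, hgd, hg0, hdvd⟩ := exists_factor_of_inv hF M hM W hWm hW hinv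
  rw [hc] at hdvd
  have hs : ∀ π : F[X], Irreducible π → π ∣ g → π ∣ X ^ r - 1 := by
    intro π hi hd
    exact Pa_dvd hr0 hi ((hd.trans (Dvd.intro _ rfl)).trans hdvd)
  obtain ⟨t, ht, rfl⟩ := exists_Pa hr hgm hgd hs
  rw [Dl_Pa (sigma_invol hF) (sigma_neg_one hF) hr hr0] at hdvd
  have hle := emultiplicity_le_emultiplicity_of_dvd_right (a := (X - 1 : F[X])) hdvd
  rw [emult_one_Pa hr hr0, emultiplicity_mul irr_X_sub_one.prime, emult_one_Pa hr hr0, emult_one_Pa hr hr0] at hle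
  have hsum : ∑ j, (t ∘ dl (sigma_invol hF) (sigma_neg_one hF) hr hr0) j = ∑ j, t j :=
    sum_comp_dlU hF hr hr0 t
  rw [hsum] at hle
  refine ⟨t, ?_, ht, ?_⟩
  · intro j
    obtain ⟨hi, -, -⟩ := (mem_Idx hr0).1 j.2
    have hle2 := emultiplicity_le_emultiplicity_of_dvd_right (a := (j : F[X])) hdvd
    rw [emult_Pa hr hr0, emultiplicity_mul hi.prime, emult_Pa hr hr0, emult_Pa hr hr0] at hle2
    exact_mod_cast hle2
  · have h2 : ((m - orderOf ((Fintype.card F : ℕ) : ZMod r) * ∑ j, t j : ℕ) : ℕ∞) +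
        ((m - orderOf ((Fintype.card F : ℕ) : ZMod r) * ∑ j, t j : ℕ) : ℕ∞) =
        ((2 * (m - orderOf ((Fintype.card F : ℕ) : ZMod r) * ∑ j, t j) : ℕ) : ℕ∞) := by
      push_cast
      ring
    rw [h2] at hle
    exact_mod_cast hle

/-- Backward direction in terms of multiplicities. -/
theorem key_backward (p : ℕ) [Fact p.Prime] [CharP F p] [Fact r.Prime] (hF : Fintype.card F = q ^ 2) (hr : (r : F) ≠ 0)
    (X : ↥(GU n F q)) (hord : (orderOf X).Coprime p) {a : ↥(Idx F r) → ℕ}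
    (hc : ((X : GL (Fin n) F) : Matrix (Fin n) (Fin n) F).charpoly = Pa F r n a)
    (ha : orderOf ((Fintype.card F : ℕ) : ZMod r) * ∑ j, a j ≤ n) (hmn : 2 * m ≤ n)
    (t : ↥(Idx F r) → ℕ) (ht : ∀ j, t j + t (dlU hF hr (Fact.out : r.Prime).ne_zero j) ≤ a j)
    (htm : orderOf ((Fintype.card F : ℕ) : ZMod r) * ∑ j, t j ≤ m)
    (hu : 2 * (m - orderOf ((Fintype.card F : ℕ) : ZMod r) * ∑ j, t j) ≤
        n - orderOf ((Fintype.card F : ℕ) : ZMod r) * ∑ j, a j) :
    ∃ W : Submodule F (Fin n → F), finrank F W = m ∧ (∀ u ∈ W, ∀ v ∈ W, hermForm n F q u v = 0) ∧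
      W.map (Matrix.toLin' ((X : GL (Fin n) F) : Matrix (Fin n) (Fin n) F)) ≤ W := by
  have hprime : r.Prime := Fact.out
  have hr0 := hprime.ne_zero
  obtain ⟨b, hb⟩ : ∃ b, b = orderOf ((Fintype.card F : ℕ) : ZMod r) := ⟨_, rfl⟩
  rw [← hb] at ha htm hu
  have hsym := symm_of_unitary hF hr hr0 (st_mul_self_of_mem hF X.2) hc
  set δ := dlU hF hr hr0 with hδ
  have hδδ : ∀ j, δ (δ j) = j := dlU_dlU hF hr hr0
  obtain ⟨c, hcdef⟩ : ∃ c : ↥(Idx F r) → ℕ, c = fun j => a j - t j - t (δ j) := ⟨_, rfl⟩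
  have hcv : ∀ j, c j + t j + t (δ j) = a j := by
    intro j
    have := ht j
    rw [hcdef]
    show a j - t j - t (δ j) + t j + t (δ j) = a j
    omega
  have hsumt : ∑ j, t (δ j) = ∑ j, t j := sum_comp_dlU hF hr hr0 t
  have hsum : ∑ j, c j + ∑ j, t j + ∑ j, t j = ∑ j, a j := by
    nth_rw 2 [← hsumt]
    rw [← Finset.sum_add_distrib, ← Finset.sum_add_distrib]
    exact Finset.sum_congr rfl fun j _ => hcv j
  have hbs : b * ∑ j, c j + b * ∑ j, t j + b * ∑ j, t j = b * ∑ j, a j := by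
    rw [← hsum]
    ring
  have hcb : b * ∑ j, c j ≤ n - 2 * m := by omega
  have htdl : b * ∑ j, (t ∘ δ) j ≤ m := by
    show b * ∑ j, t (δ j) ≤ m
    rw [hsumt]
    exact htm
  have hcsym : ∀ j, c (δ j) = c j := by
    intro j
    have h1 := hcv j
    have h2 := hcv (δ j)
    rw [hδδ, hsym j] at h2
    omega
  have h0 : (Pa F r (n - 2 * m) c).coeff 0 ≠ 0 := Pa_coeff_zero hr0 _ _
  have hsd : SD hF (Pa F r (n - 2 * m) c) := by
    rw [sd_iff_Dl hF h0, Dl_Pa (sigma_invol hF) (sigma_neg_one hF) hr hr0]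
    congr 1
    funext j
    exact hcsym j
  have hfac : ((X : GL (Fin n) F) : Matrix (Fin n) (Fin n) F).charpoly =
      Pa F r m t * Dl (Cfsg.Agent.Lib.UnitaryBasic.sigma hF) (Pa F r m t) * Pa F r (n - 2 * m) c := by
    rw [Dl_Pa (sigma_invol hF) (sigma_neg_one hF) hr hr0, hc]
    have hb' := hb
    rw [Pa_mul t (t ∘ δ) (by rw [← hb]; exact htm) (by rw [← hb]; exact htdl)]
    rw [Pa_mul _ c (by
      rw [← hb, Finset.sum_add_distrib, mul_add]
      have : b * ∑ j, (t ∘ δ) j = b * ∑ j, t j := by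
        show b * ∑ j, t (δ j) = _
        rw [hsumt]
      omega) (by rw [← hb]; exact hcb)]
    have e : m + m + (n - 2 * m) = n := by omega
    rw [e]
    congr 1
    funext j
    have := hcv j
    show a j = t j + t (δ j) + c j
    omega
  have hgd : (Pa F r m t).natDegree = m := Pa_natDegree hr (by rw [← hb]; exact htm)
  have hf₀d : (Pa F r (n - 2 * m) c).natDegree = n - 2 * m := Pa_natDegree hr (by rw [← hb]; exact hcb)
  exact exists_inv_of_factor p hF (by omega : n = 2 * m + (n - 2 * m)) X hord (Pa_monic hr0) hgd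
    (Pa_coeff_zero hr0 _ _) (Pa_monic hr0) hf₀d h0 hsd hfac

end Pa

end Cfsg.Agent.Lib.TIU
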