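import Mathlib
import Cfsg.Agent.Lib.TIUPa

/-!
# Elements of prime order modulo scalars in the unitary group
-/

set_option autoImplicit false
set_option linter.unusedSectionVars false
set_option linter.unusedSimpArgs false
set_option linter.unusedVariables false

namespace Cfsg.Agent.Lib.TIU

open Module Polynomial Matrix Cfsg
open Cfsg.Agent.Lib.HermForm Cfsg.Agent.Lib.HermCount Cfsg.Agent.Lib.UnitaryConjGU
  Cfsg.Agent.Lib.SelfDual Cfsg.Agent.Lib.DualFactors Cfsg.Agent.Lib.GUParab Cfsg.Agent.Lib.HermFrame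
  Cfsg.Agent.Lib.PrimeFactors Cfsg.Agent.Lib.SemisimpleGL

open scoped Classical

universe u

variable {F : Type u} [Field F] [Fintype F] {q r n m : ℕ}

theorem exists_tau {p : ℕ} [Fact p.Prime] [CharP F p] (hF : Fintype.card F = q ^ 2) (j : F[X]) [Fact (Irreducible j)] :
    ∃ τ : AdjoinRoot j →+* AdjoinRoot j,
      (∀ x, τ (algebraMap F (AdjoinRoot j) x) = algebraMap F (AdjoinRoot j) ((Cfsg.Agent.Lib.UnitaryBasic.sigma hF) x)) ∧
      τ (AdjoinRoot.root j) = AdjoinRoot.root j ^ q := by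
  have hp : p.Prime := Fact.out
  obtain ⟨f, -, hf⟩ := FiniteField.card F p
  have hd : q ∣ p ^ (f : ℕ) := by
    rw [← hf, hF]
    exact dvd_pow_self q two_ne_zero
  obtain ⟨e, -, rfl⟩ := (Nat.dvd_prime_pow hp).1 hd
  haveI : CharP (AdjoinRoot j) p := charP_of_injective_algebraMap (algebraMap F (AdjoinRoot j)).injective p
  refine ⟨iterateFrobenius (AdjoinRoot j) p e, ?_, ?_⟩
  · intro x
    rw [iterateFrobenius_def]
    exact (map_pow _ x _).symm
  · rw [iterateFrobenius_def]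

/-- When the factors are self-dual. -/
theorem dlU_fix_iff {p : ℕ} [Fact p.Prime] [CharP F p] [Fact r.Prime] (hF : Fintype.card F = q ^ 2) (hr : (r : F) ≠ 0)
    (hr0 : r ≠ 0) (hr2 : r ≠ 2) (hi0 : orderOf (q : ZMod r) ≠ 0) (j : ↥(Idx F r)) :
    dlU hF hr hr0 j = j ↔ orderOf (q : ZMod r) % 4 = 2 := by
  obtain ⟨hirr, -, -⟩ := (mem_Idx hr0).1 j.2
  haveI : Fact (Irreducible (j : F[X])) := ⟨hirr⟩
  obtain ⟨τ, hτ1, hτ2⟩ := exists_tau (p := p) hF (j : F[X])
  have h1 := dual_fixed_iff (sigma_invol hF) hr j.2 q τ hτ1 hτ2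
  have hQ : ((Fintype.card F : ℕ) : ZMod r) = (q : ZMod r) ^ 2 := by
    rw [hF]
    push_cast
    rfl
  rw [hQ, exists_sq_pow_eq_neg_iff hr2 hi0] at h1
  rw [← h1]
  exact Subtype.ext_iff

theorem gu_pow_order (g : ↥(GU n F q)) : ((g : GL (Fin n) F) : Matrix (Fin n) (Fin n) F) ^ orderOf g = 1 := by
  have h1 : ((g ^ orderOf g : ↥(GU n F q)) : GL (Fin n) F) = 1 := by
    rw [pow_orderOf_eq_one]
    rfl
  have h2 := congrArg Units.val h1
  rw [Subgroup.coe_pow, Units.val_pow_eq_pow_val] at h2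
  exact h2

/-- Realising multiplicities. -/
theorem exists_elt (p : ℕ) [Fact p.Prime] [CharP F p] [Fact r.Prime] (hF : Fintype.card F = q ^ 2) (hr : (r : F) ≠ 0)
    (hr0 : r ≠ 0) {a : ↥(Idx F r) → ℕ} (hs : orderOf ((Fintype.card F : ℕ) : ZMod r) * ∑ j, a j ≤ n)
    (hinv : ∀ j, a (dlU hF hr hr0 j) = a j) :
    ∃ B : ↥(GU n F q), ((B : GL (Fin n) F) : Matrix (Fin n) (Fin n) F).charpoly = Pa F r n a ∧
      ((B : GL (Fin n) F) : Matrix (Fin n) (Fin n) F) ^ r = 1 := by
  have hm : (Pa F r n a).Monic := Pa_monic hr0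
  have hd := Pa_natDegree (n := n) (a := a) hr hs
  have h0 := Pa_coeff_zero hr0 n a
  have hsd : SD hF (Pa F r n a) := by
    rw [sd_iff_Dl hF h0, Dl_Pa (sigma_invol hF) (sigma_neg_one hF) hr hr0]
    congr 1
    funext j
    exact hinv j
  obtain ⟨B, hB1, hB2⟩ := exists_GU_of_sd p hF hm hd h0 hsd
  refine ⟨B, hB2, ?_⟩
  exact pow_eq_one_of_dvd (cast_ne_of_coprime (F := F) p hB1) (gu_pow_order B) r
    (fun g _ hg hgd => Pa_dvd hr0 hg (hB2 ▸ hgd))

/-- A unitary matrix of order dividing `r`, as an element of `GU`. -/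
theorem order_coprime (p : ℕ) [Fact p.Prime] [CharP F p] (hrp : r ≠ p) [Fact r.Prime] (y : ↥(GU n F q))
    (hy : ((y : GL (Fin n) F) : Matrix (Fin n) (Fin n) F) ^ r = 1) : (orderOf y).Coprime p := by
  have h1 : y ^ r = 1 := by
    apply Subtype.ext
    apply Units.ext
    rw [Subgroup.coe_pow, Units.val_pow_eq_pow_val]
    exact hy
  have h2 := orderOf_dvd_of_pow_eq_one h1
  have h3 : r.Coprime p := (Nat.coprime_primes Fact.out Fact.out).2 hrp
  exact Nat.Coprime.coprime_dvd_left h2 h3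

/-- Sufficient numerics. -/
theorem suff_y (p : ℕ) [Fact p.Prime] [CharP F p] [Fact r.Prime] (hF : Fintype.card F = q ^ 2) (hr : (r : F) ≠ 0)
    (hrp : r ≠ p) (hr0 : r ≠ 0) (hbpos : 0 < orderOf ((Fintype.card F : ℕ) : ZMod r))
    (y : ↥(GU n F q)) (hy : ((y : GL (Fin n) F) : Matrix (Fin n) (Fin n) F) ^ r = 1) (hmn : 2 * m ≤ n)
    (hdich : (∀ j, dlU hF hr hr0 j = j) ∨ (∀ j, dlU hF hr hr0 j ≠ j)) {a : ↥(Idx F r) → ℕ}
    (hc : ((y : GL (Fin n) F) : Matrix (Fin n) (Fin n) F).charpoly = Pa F r n a)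
    (hs : orderOf ((Fintype.card F : ℕ) : ZMod r) * ∑ j, a j ≤ n)
    (H1 : 2 * (m % orderOf ((Fintype.card F : ℕ) : ZMod r)) ≤
      n - orderOf ((Fintype.card F : ℕ) : ZMod r) * ∑ j, a j)
    (H2 : 2 * m + orderOf ((Fintype.card F : ℕ) : ZMod r) *
      (Finset.univ.filter fun j => dlU hF hr hr0 j = j ∧ Odd (a j)).card ≤ n) :
    ∃ W : Submodule F (Fin n → F), finrank F W = m ∧ (∀ u ∈ W, ∀ v ∈ W, hermForm n F q u v = 0) ∧
      W.map (Matrix.toLin' ((y : GL (Fin n) F) : Matrix (Fin n) (Fin n) F)) ≤ W := by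
  obtain ⟨b, hb⟩ : ∃ b, b = orderOf ((Fintype.card F : ℕ) : ZMod r) := ⟨_, rfl⟩
  rw [← hb] at hbpos hs H1 H2
  set δ := dlU hF hr hr0 with hδ
  have hδδ : ∀ j, δ (δ j) = j := dlU_dlU hF hr hr0
  have hsym := symm_of_unitary hF hr hr0 (st_mul_self_of_mem hF y.2) hc
  obtain ⟨o, ho⟩ : ∃ o, o = (Finset.univ.filter fun j => δ j = j ∧ Odd (a j)).card := ⟨_, rfl⟩
  rw [← ho] at H2
  obtain ⟨A, hA⟩ : ∃ A, A = ∑ j, a j := ⟨_, rfl⟩
  rw [← hA] at hs H1
  have hoA : o ≤ A := by
    rw [ho, hA, Finset.card_filter]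
    refine Finset.sum_le_sum fun j _ => ?_
    split_ifs with h
    · exact h.2.pos
    · exact Nat.zero_le _
  have heven : Even (A - o) := by
    rcases hdich with hd | hd
    · rw [ho, hA]
      exact even_sum_sub_card δ a hd
    · have h0 : o = 0 := by
        rw [ho, Finset.card_eq_zero, Finset.filter_eq_empty_iff]
        intro j _ h
        exact hd j h.1
      rw [h0, hA]
      exact even_sum_of_fpf δ hδδ hd a hsym
  obtain ⟨T, hT⟩ : ∃ T, T = min (m / b) ((A - o) / 2) := ⟨_, rfl⟩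
  have hT2 : 2 * T + o ≤ A := by
    have : T ≤ (A - o) / 2 := by
      rw [hT]
      exact min_le_right _ _
    omega
  obtain ⟨t, ht, htle⟩ := exists_split δ hδδ a hsym T (by rw [← ho, ← hA]; exact hT2)
  have hTm : T ≤ m / b := by
    rw [hT]
    exact min_le_left _ _
  have hbT : b * T ≤ m := by
    calc b * T ≤ b * (m / b) := Nat.mul_le_mul_left _ hTm
      _ ≤ m := Nat.mul_div_le m b
  have hu : 2 * (m - b * T) ≤ n - b * A := by
    have hdm := Nat.div_add_mod m b
    rcases le_total (m / b) ((A - o) / 2) with hle | hle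
    · have : T = m / b := by
        rw [hT]
        exact min_eq_left hle
      rw [this]
      have e : m - b * (m / b) = m % b := by omega
      rw [e]
      exact H1
    · have hT' : T = (A - o) / 2 := by
        rw [hT]
        exact min_eq_right hle
      obtain ⟨c, hc'⟩ := heven
      have hAeq : A = 2 * T + o := by
        rw [hT']
        omega
      have e1 : b * A = 2 * (b * T) + b * o := by
        rw [hAeq]
        ring
      omega
  have key := key_backward (q := q) p hF hr y (order_coprime p hrp y hy) hc (by rw [← hb, ← hA]; exact hs) hmn t htle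
    (by rw [← hb, ht]; exact hbT) (by rw [← hb, ← hA, ht]; exact hu)
  exact key

section direct

/-- The dual of a linear factor. -/
theorem Dl_X_sub_C (hF : Fintype.card F = q ^ 2) {w : F} (hw : w ^ (q + 1) = 1) :
    Dl (Cfsg.Agent.Lib.UnitaryBasic.sigma hF) (X - C w) = X - C w := by
  have hw0 : w ≠ 0 := by
    rintro rfl
    rw [zero_pow (by omega)] at hw
    exact zero_ne_one hw
  have hwq : w ^ q ≠ 0 := pow_ne_zero _ hw0
  have h1 : w ^ q * w = 1 := by
    rw [← pow_succ]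
    exact hw
  have hinv : (w ^ q)⁻¹ = w := inv_eq_of_mul_eq_one_right h1
  have h2 : ((X - C w : F[X]).map (Cfsg.Agent.Lib.UnitaryBasic.sigma hF)) = X - C (w ^ q) := by
    simp
  have h3 : (X - C (w ^ q) : F[X]).reverse = 1 - C (w ^ q) * X := by
    have e1 : reflect 1 (X : F[X]) = 1 := by
      simpa using reflect_monomial (R := F) 1 1
    rw [reverse, natDegree_X_sub_C, reflect_sub, e1, reflect_C, pow_one]
  unfold Dl
  rw [h2, h3]
  have h4 : (X - C w : F[X]).coeff 0 = -w := by simp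
  rw [h4, map_neg, Cfsg.Agent.Lib.UnitaryBasic.sigma_apply, inv_neg, C_neg, mul_sub, mul_one]
  have h5 : (C (w ^ q)⁻¹ : F[X]) * (C (w ^ q) * X) = X := by
    rw [← mul_assoc, ← C_mul, inv_mul_cancel₀ hwq, C_1, one_mul]
  rw [neg_mul, h5, hinv]
  ring

/-- All roots on the unit circle: self-dual. -/
theorem Dl_eq_of_splits (hF : Fintype.card F = q ^ 2) {g : F[X]} (hg : g.Monic) (hs : g.Splits)
    (hr : ∀ w ∈ g.roots, w ^ (q + 1) = 1) : Dl (Cfsg.Agent.Lib.UnitaryBasic.sigma hF) g = g := by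
  have h1 := hs.eq_prod_roots_of_monic hg
  calc Dl (Cfsg.Agent.Lib.UnitaryBasic.sigma hF) g
      = DlHom (Cfsg.Agent.Lib.UnitaryBasic.sigma hF) (g.roots.map (fun a => X - C a)).prod := by
        rw [DlHom_apply, ← h1]
    _ = ((g.roots.map (fun a => X - C a)).map (DlHom (Cfsg.Agent.Lib.UnitaryBasic.sigma hF))).prod :=
        map_multiset_prod _ _
    _ = (g.roots.map fun a => X - C a).prod := by
        rw [Multiset.map_map]
        congr 1
        refine Multiset.map_congr rfl fun w hw => ?_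
        exact Dl_X_sub_C hF (hr w hw)
    _ = g := h1.symm

/-- Square divisors. -/
theorem dvd_of_sq_dvd {π S : F[X]} (hπ : Irreducible π) (hS : Squarefree S) (k : ℕ) {g : F[X]}
    (hg : g * g ∣ π ^ (2 * k) * S) : g ∣ π ^ k := by
  induction k generalizing g with
  | zero =>
    simp only [mul_zero, pow_zero, one_mul] at hg
    exact (hS g hg).dvd
  | succ k ih =>
    by_cases hd : π ∣ g
    · obtain ⟨g₁, rfl⟩ := hd
      have e1 : (π * g₁) * (π * g₁) = (π * π) * (g₁ * g₁) := by ring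
      have e2 : π ^ (2 * (k + 1)) * S = (π * π) * (π ^ (2 * k) * S) := by ring
      rw [e1, e2] at hg
      have h1 := ih ((mul_dvd_mul_iff_left (mul_ne_zero hπ.ne_zero hπ.ne_zero)).1 hg)
      rw [pow_succ']
      exact mul_dvd_mul_left π h1
    · have hco : IsCoprime (π ^ (2 * (k + 1))) (g * g) := by
        apply IsCoprime.pow_left
        exact IsCoprime.mul_right ((hπ.coprime_iff_not_dvd).2 hd) ((hπ.coprime_iff_not_dvd).2 hd)
      have h2 : g * g ∣ S := hco.symm.dvd_of_dvd_mul_left hg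
      exact (hS g h2).dvd

/-- The direct obstruction. -/
theorem le_of_direct (hF : Fintype.card F = q ^ 2) (M : Matrix (Fin n) (Fin n) F)
    (hM : ∀ u v, hermForm n F q (M *ᵥ u) (M *ᵥ v) = hermForm n F q u v)
    (W : Submodule F (Fin n → F)) (hWm : finrank F W = m)
    (hW : ∀ u ∈ W, ∀ v ∈ W, hermForm n F q u v = 0)
    (hinv : W.map (Matrix.toLin' M) ≤ W) {w₀ : F} (hw₀ : w₀ ^ (q + 1) = 1) {S : F[X]} (hS : Squarefree S)
    (hSs : S.Splits) (hSr : ∀ w, S.IsRoot w → w ^ (q + 1) = 1) (k : ℕ)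
    (hc : M.charpoly = (X - C w₀) ^ (2 * k) * S) : m ≤ k := by
  obtain ⟨g, hgm, hgd, hg0, hdvd⟩ := exists_factor_of_inv hF M hM W hWm hW hinv
  have hne : M.charpoly ≠ 0 := (Matrix.charpoly_monic M).ne_zero
  have hsp : M.charpoly.Splits := by
    rw [hc]
    exact ((Splits.X_sub_C w₀).pow _).mul hSs
  have hgdvd : g ∣ M.charpoly := (Dvd.intro _ rfl).trans hdvd
  have hgs : g.Splits := hsp.of_dvd hne hgdvd
  have hroots : ∀ w ∈ g.roots, w ^ (q + 1) = 1 := by
    intro w hw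
    have h1 : g.IsRoot w := (mem_roots'.1 hw).2
    have h2 : M.charpoly.IsRoot w := by
      obtain ⟨c, hc'⟩ := hgdvd
      rw [hc']
      simp [IsRoot, h1.eq_zero]
    rw [hc, IsRoot, eval_mul, eval_pow, eval_sub, eval_X, eval_C, mul_eq_zero] at h2
    rcases h2 with h2 | h2
    · have h3 : w - w₀ = 0 := by
        by_contra hne
        exact (pow_ne_zero _ hne) h2
      rw [sub_eq_zero.1 h3]
      exact hw₀
    · exact hSr w h2
  rw [Dl_eq_of_splits hF hgm hgs hroots, hc] at hdvd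
  have h2 := dvd_of_sq_dvd (irreducible_X_sub_C w₀) hS k hdvd
  have h3 := natDegree_le_of_dvd h2 (pow_ne_zero _ (X_sub_C_ne_zero w₀))
  rw [natDegree_pow, natDegree_X_sub_C, mul_one, hgd] at h3
  exact h3

end direct

end Cfsg.Agent.Lib.TIU
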