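import Mathlib
import Cfsg.Agent.Lib.TIUElt

/-!
# Semisimple matrices with scalar power
-/

set_option autoImplicit false
set_option linter.unusedSectionVars false
set_option linter.unusedSimpArgs false
set_option linter.unusedVariables false

namespace Cfsg.Agent.Lib.TIU

open Module Polynomial Matrix
open Cfsg.Agent.Lib.PrimeFactors Cfsg.Agent.Lib.SemisimpleGL

universe u

variable {F : Type u} [Field F] [Fintype F] {n : ℕ}

theorem pow_eq_smul_of_dvd {A : Matrix (Fin n) (Fin n) F} {m : ℕ} (hm : (m : F) ≠ 0) (hA : A ^ m = 1) (r : ℕ) (z : F)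
    (h : ∀ g : F[X], g.Monic → Irreducible g → g ∣ A.charpoly → g ∣ X ^ r - C z) :
    A ^ r = z • (1 : Matrix (Fin n) (Fin n) F) := by
  classical
  have hpow : (Matrix.toLin' A : End F (Fin n → F)) ^ m = 1 := by
    have := congrArg (Matrix.toLinAlgEquiv' (R := F) (n := Fin n)) hA
    rw [map_pow, map_one] at this
    exact this
  obtain ⟨ι, _, f, hfm, hfi, hS⟩ := exists_ss_model (Matrix.toLin' A) hm hpow
  haveI := fun i => (hfm i).finite_adjoinRoot
  have hc : A.charpoly = ∏ i, f i := by
    have e1 := sim_charpoly_eq hS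
    rw [Matrix.charpoly_toLin', charpoly_TT hfm] at e1
    exact e1
  have hroot : ∀ i, AdjoinRoot.root (f i) ^ r = algebraMap F (AdjoinRoot (f i)) z := by
    intro i
    have h1 : f i ∣ X ^ r - C z := h _ (hfm i) (hfi i) (by
      rw [hc]
      exact Finset.dvd_prod_of_mem _ (Finset.mem_univ i))
    have h2 : AdjoinRoot.mk (f i) (X ^ r - C z) = 0 := AdjoinRoot.mk_eq_zero.2 h1
    rw [map_sub, map_pow, AdjoinRoot.mk_X, AdjoinRoot.mk_C, sub_eq_zero] at h2
    exact h2
  obtain ⟨g, hg⟩ := hS
  have hgr : ∀ (j : ℕ) (v : Fin n → F), g ((Matrix.toLin' A ^ j) v) = (TT f ^ j) (g v) := by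
    intro j
    induction j with
    | zero => intro v; simp
    | succ j ih =>
      intro v
      rw [pow_succ, pow_succ, Module.End.mul_apply, Module.End.mul_apply, ih, hg]
  have hTT : ∀ v, (TT f ^ r) v = z • v := by
    intro v
    funext i
    rw [TT_pow_apply, hroot, Pi.smul_apply, Algebra.smul_def]
  have h1 : (Matrix.toLin' A : End F (Fin n → F)) ^ r = z • 1 := by
    refine LinearMap.ext fun v => ?_
    apply g.injective
    rw [hgr, hTT]
    simp
  have h2 : Matrix.toLinAlgEquiv' (R := F) (n := Fin n) (A ^ r) =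
      Matrix.toLinAlgEquiv' (R := F) (n := Fin n) (z • 1) := by
    rw [map_pow, map_smul, map_one]
    exact h1
  exact (Matrix.toLinAlgEquiv' (R := F) (n := Fin n)).injective h2

theorem charpoly_eq_pow {A : Matrix (Fin n) (Fin n) F} {m : ℕ} (hm : (m : F) ≠ 0) (hA : A ^ m = 1) {r : ℕ} {z : F}
    (hr0 : r ≠ 0) (hP : Irreducible (X ^ r - C z : F[X])) (hAr : A ^ r = z • (1 : Matrix (Fin n) (Fin n) F)) :
    ∃ k, A.charpoly = (X ^ r - C z) ^ k := by
  classical
  have hpow : (Matrix.toLin' A : End F (Fin n → F)) ^ m = 1 := by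
    have := congrArg (Matrix.toLinAlgEquiv' (R := F) (n := Fin n)) hA
    rw [map_pow, map_one] at this
    exact this
  have hpowr : (Matrix.toLin' A : End F (Fin n → F)) ^ r = z • 1 := by
    have := congrArg (Matrix.toLinAlgEquiv' (R := F) (n := Fin n)) hAr
    rw [map_pow, map_smul, map_one] at this
    exact this
  obtain ⟨ι, _, f, hfm, hfi, hS⟩ := exists_ss_model (Matrix.toLin' A) hm hpow
  haveI := fun i => (hfm i).finite_adjoinRoot
  have hc : A.charpoly = ∏ i, f i := by
    have e1 := sim_charpoly_eq hS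
    rw [Matrix.charpoly_toLin', charpoly_TT hfm] at e1
    exact e1
  obtain ⟨g', hg'⟩ := hS
  have hgr : ∀ (j : ℕ) (v : Fin n → F), g' ((Matrix.toLin' A ^ j) v) = (TT f ^ j) (g' v) := by
    intro j
    induction j with
    | zero => intro v; simp
    | succ j ih =>
      intro v
      rw [pow_succ, pow_succ, Module.End.mul_apply, Module.End.mul_apply, ih, hg']
  have hPm : (X ^ r - C z : F[X]).Monic := monic_X_pow_sub_C z hr0
  have heq : ∀ i, f i = X ^ r - C z := by
    intro i
    haveI : Fact (Irreducible (f i)) := ⟨hfi i⟩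
    have hroot : AdjoinRoot.root (f i) ^ r = algebraMap F (AdjoinRoot (f i)) z := by
      have h1 := hgr r (g'.symm (Pi.mulSingle i 1))
      rw [hpowr] at h1
      have h2 : g' ((z • (1 : End F (Fin n → F))) (g'.symm (Pi.mulSingle i 1))) = z • Pi.mulSingle i 1 := by
        simp
      rw [h2, LinearEquiv.apply_symm_apply] at h1
      have h3 := congrFun h1 i
      rw [TT_pow_apply] at h3
      simp only [Pi.smul_apply, Pi.mulSingle_eq_same, mul_one, Algebra.smul_def] at h3
      exact h3.symm
    have h4 : f i ∣ X ^ r - C z := by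
      rw [← AdjoinRoot.mk_eq_zero, map_sub, map_pow, AdjoinRoot.mk_X, AdjoinRoot.mk_C, hroot]
      exact sub_self _
    exact eq_of_monic_of_associated (hfm i) hPm ((hfi i).associated_of_dvd hP h4)
  refine ⟨Fintype.card ι, ?_⟩
  rw [hc, Finset.prod_congr rfl (fun i _ => heq i), Finset.prod_const, Finset.card_univ]

end Cfsg.Agent.Lib.TIU
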