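import Mathlib
import Cfsg.Agent.Lib.TIUSemis
import Cfsg.Agent.Lib.ElusiveBuild

/-!
# Elements without fixed totally isotropic subspaces
-/

set_option autoImplicit false
set_option linter.unusedSectionVars false
set_option linter.unusedSimpArgs false
set_option linter.unusedVariables false

namespace Cfsg.Agent.Lib.TIU

open Module Polynomial Matrix Cfsg
open Cfsg.Agent.Lib.HermForm Cfsg.Agent.Lib.HermCount Cfsg.Agent.Lib.UnitaryConjGU
  Cfsg.Agent.Lib.SelfDual Cfsg.Agent.Lib.DualFactors Cfsg.Agent.Lib.GUParab Cfsg.Agent.Lib.HermFrame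
  Cfsg.Agent.Lib.PrimeFactors Cfsg.Agent.Lib.SemisimpleGL

open scoped Classical

universe u

variable {F : Type u} [Field F] [Fintype F] {q r n m : ℕ}

/-- The matrix form of the hypothesis. -/
def LHSP (F : Type u) [Field F] (q r n m : ℕ) : Prop :=
  ∀ M : Matrix (Fin n) (Fin n) F, M.det = 1 →
    (∀ u v, hermForm n F q (M *ᵥ u) (M *ᵥ v) = hermForm n F q u v) →
    (∃ z : F, M ^ r = z • (1 : Matrix (Fin n) (Fin n) F)) →
    ∃ W : Submodule F (Fin n → F), finrank F W = m ∧ (∀ u ∈ W, ∀ v ∈ W, hermForm n F q u v = 0) ∧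
      W.map (Matrix.toLin' M) ≤ W

/-- An element of order dividing `r` has determinant one if `r` is prime to `q + 1`. -/
theorem det_eq_one_of_pow (hF : Fintype.card F = q ^ 2) [hrp : Fact r.Prime] (hrq : ¬ r ∣ q + 1)
    {M : Matrix (Fin n) (Fin n) F} (hM : ∀ u v, hermForm n F q (M *ᵥ u) (M *ᵥ v) = hermForm n F q u v)
    (hMr : M ^ r = 1) : M.det = 1 := by
  have h1 : M.det ^ r = 1 := by
    rw [← Matrix.det_pow, hMr, Matrix.det_one]
  have h2 : M.det ^ (q + 1) = 1 := by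
    have := Cfsg.Agent.Lib.UnitarySU.nrm_det hF hM
    rwa [nrm_eq_pow] at this
  have h3 : orderOf M.det ∣ Nat.gcd r (q + 1) :=
    Nat.dvd_gcd (orderOf_dvd_of_pow_eq_one h1) (orderOf_dvd_of_pow_eq_one h2)
  have h4 : Nat.Coprime r (q + 1) := (Nat.Prime.coprime_iff_not_dvd hrp.out).2 hrq
  rw [h4, Nat.dvd_one, orderOf_eq_one_iff] at h3
  exact h3

/-- Multiplicities realised by elements of `SU`. -/
theorem bad_mult (p : ℕ) [Fact p.Prime] [CharP F p] [hrp : Fact r.Prime] (hF : Fintype.card F = q ^ 2)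
    (h : LHSP F q r n m) (hr : (r : F) ≠ 0) (hrq : ¬ r ∣ q + 1) {a : ↥(Idx F r) → ℕ}
    (hs : orderOf ((Fintype.card F : ℕ) : ZMod r) * ∑ j, a j ≤ n)
    (hinv : ∀ j, a (dlU hF hr hrp.out.ne_zero j) = a j) :
    ∃ t : ↥(Idx F r) → ℕ, (∀ j, t j + t (dlU hF hr hrp.out.ne_zero j) ≤ a j) ∧
      orderOf ((Fintype.card F : ℕ) : ZMod r) * ∑ j, t j ≤ m ∧
      2 * (m - orderOf ((Fintype.card F : ℕ) : ZMod r) * ∑ j, t j) ≤
        n - orderOf ((Fintype.card F : ℕ) : ZMod r) * ∑ j, a j := by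
  obtain ⟨B, hB1, hB2⟩ := exists_elt (n := n) p hF hr hrp.out.ne_zero hs hinv
  have hiso : ∀ u v, hermForm n F q (((B : GL (Fin n) F) : Matrix (Fin n) (Fin n) F) *ᵥ u)
      (((B : GL (Fin n) F) : Matrix (Fin n) (Fin n) F) *ᵥ v) = hermForm n F q u v := B.2
  obtain ⟨W, hWm, hW, hinvW⟩ := h _ (det_eq_one_of_pow hF hrq hiso hB2) hiso ⟨1, by rw [hB2, one_smul]⟩
  exact key_forward hF hr _ hiso W hWm hW hinvW hB1

theorem mod_le_of_sub {b m S D : ℕ} (hS : b * S ≤ m) (h : 2 * (m - b * S) ≤ D) : 2 * (m % b) ≤ D := by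
  have h1 : m % b ≤ m - b * S := by
    obtain ⟨u, hu⟩ : ∃ u, m = u + b * S := ⟨m - b * S, by omega⟩
    rw [hu, Nat.add_mul_mod_self_left]
    have : u + b * S - b * S = u := by omega
    rw [this]
    exact Nat.mod_le _ _
  omega

theorem exists_j₀ [hrp : Fact r.Prime] (hr : (r : F) ≠ 0) : Nonempty ↥(Idx F r) := by
  have h := card_Idx (F := F) (r := r) hr
  have h2 := hrp.out.two_le
  by_contra hne
  rw [not_nonempty_iff] at hne
  rw [Fintype.card_eq_zero, zero_mul] at h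
  omega

theorem b_pos [hrp : Fact r.Prime] (hr : (r : F) ≠ 0) : 0 < orderOf ((Fintype.card F : ℕ) : ZMod r) := by
  have h := card_Idx (F := F) (r := r) hr
  have h2 := hrp.out.two_le
  rcases Nat.eq_zero_or_pos (orderOf ((Fintype.card F : ℕ) : ZMod r)) with h3 | h3
  · rw [h3, mul_zero] at h
    omega
  · exact h3

/-- The pair case. -/
theorem pair_numeric (p : ℕ) [Fact p.Prime] [CharP F p] [hrp : Fact r.Prime] (hF : Fintype.card F = q ^ 2)
    (h : LHSP F q r n m) (hr : (r : F) ≠ 0) (hrq : ¬ r ∣ q + 1)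
    (hfp : ∀ j, dlU hF hr hrp.out.ne_zero j ≠ j) :
    2 * (m % orderOf ((Fintype.card F : ℕ) : ZMod r)) ≤ n % (2 * orderOf ((Fintype.card F : ℕ) : ZMod r)) := by
  obtain ⟨b, hb⟩ : ∃ b, b = orderOf ((Fintype.card F : ℕ) : ZMod r) := ⟨_, rfl⟩
  have hbpos : 0 < b := hb ▸ b_pos hr
  obtain ⟨j₀⟩ := exists_j₀ (F := F) (r := r) hr
  set δ := dlU hF hr hrp.out.ne_zero with hδ
  have hδδ : ∀ j, δ (δ j) = j := dlU_dlU hF hr hrp.out.ne_zero
  obtain ⟨A', hA'⟩ : ∃ A', A' = n / (2 * b) := ⟨_, rfl⟩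
  obtain ⟨a, ha⟩ : ∃ a : ↥(Idx F r) → ℕ, a = fun j => (if j = j₀ then A' else 0) + (if j = δ j₀ then A' else 0) := ⟨_, rfl⟩
  have hsum : ∑ j, a j = 2 * A' := by
    rw [ha, Finset.sum_add_distrib, Finset.sum_ite_eq', Finset.sum_ite_eq']
    simp only [Finset.mem_univ, if_true]
    ring
  have hsym : ∀ j, a (δ j) = a j := by
    intro j
    rw [ha]
    have e1 : (δ j = j₀) ↔ (j = δ j₀) := ⟨fun e => by rw [← e, hδδ], fun e => by rw [e, hδδ]⟩
    have e2 : (δ j = δ j₀) ↔ (j = j₀) := ⟨fun e => by rw [← hδδ j, e, hδδ], fun e => by rw [e]⟩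
    simp only [e1, e2]
    ring
  have hdm := Nat.div_add_mod n (2 * b)
  have hbA : b * ∑ j, a j = 2 * b * A' := by
    rw [hsum]
    ring
  have hs : orderOf ((Fintype.card F : ℕ) : ZMod r) * ∑ j, a j ≤ n := by
    rw [← hb, hbA, hA']
    exact Nat.mul_div_le n (2 * b)
  obtain ⟨t, -, ht, hu⟩ := bad_mult p hF h hr hrq hs hsym
  rw [← hb] at ht hu ⊢
  rw [hbA] at hu
  have e : n - 2 * b * A' = n % (2 * b) := by
    rw [hA']
    omega
  rw [e] at hu
  exact mod_le_of_sub ht hu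

/-- The self-dual case, first condition. -/
theorem sd_numeric (p : ℕ) [Fact p.Prime] [CharP F p] [hrp : Fact r.Prime] (hF : Fintype.card F = q ^ 2)
    (h : LHSP F q r n m) (hr : (r : F) ≠ 0) (hrq : ¬ r ∣ q + 1)
    (hfix : ∀ j, dlU hF hr hrp.out.ne_zero j = j) :
    2 * (m % orderOf ((Fintype.card F : ℕ) : ZMod r)) ≤ n % orderOf ((Fintype.card F : ℕ) : ZMod r) := by
  obtain ⟨b, hb⟩ : ∃ b, b = orderOf ((Fintype.card F : ℕ) : ZMod r) := ⟨_, rfl⟩
  have hbpos : 0 < b := hb ▸ b_pos hr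
  obtain ⟨j₀⟩ := exists_j₀ (F := F) (r := r) hr
  obtain ⟨a, ha⟩ : ∃ a : ↥(Idx F r) → ℕ, a = fun j => if j = j₀ then n / b else 0 := ⟨_, rfl⟩
  have hsum : ∑ j, a j = n / b := by
    rw [ha, Finset.sum_ite_eq']
    simp
  have hsym : ∀ j, a (dlU hF hr hrp.out.ne_zero j) = a j := by
    intro j
    rw [hfix]
  have hdm := Nat.div_add_mod n b
  have hs : orderOf ((Fintype.card F : ℕ) : ZMod r) * ∑ j, a j ≤ n := by
    rw [← hb, hsum]
    exact Nat.mul_div_le n b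
  obtain ⟨t, -, ht, hu⟩ := bad_mult p hF h hr hrq hs hsym
  rw [← hb] at ht hu ⊢
  rw [hsum] at hu
  have e : n - b * (n / b) = n % b := by omega
  rw [e] at hu
  exact mod_le_of_sub ht hu

/-- The self-dual case, second condition. -/
theorem sd_numeric2 (p : ℕ) [Fact p.Prime] [CharP F p] [hrp : Fact r.Prime] (hF : Fintype.card F = q ^ 2)
    (h : LHSP F q r n m) (hr : (r : F) ≠ 0) (hrq : ¬ r ∣ q + 1)
    (hfix : ∀ j, dlU hF hr hrp.out.ne_zero j = j) (hmn : 2 * m ≤ n)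
    (hbm : orderOf ((Fintype.card F : ℕ) : ZMod r) ≤ m) :
    Fintype.card ↥(Idx F r) + 2 * (m / orderOf ((Fintype.card F : ℕ) : ZMod r)) ≤
      n / orderOf ((Fintype.card F : ℕ) : ZMod r) := by
  obtain ⟨b, hb⟩ : ∃ b, b = orderOf ((Fintype.card F : ℕ) : ZMod r) := ⟨_, rfl⟩
  rw [← hb] at hbm ⊢
  have hbpos : 0 < b := hb ▸ b_pos hr
  by_contra hcon
  push Not at hcon
  obtain ⟨m', hm'⟩ : ∃ m', m' = m / b := ⟨_, rfl⟩
  obtain ⟨n', hn'⟩ : ∃ n', n' = n / b := ⟨_, rfl⟩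
  rw [← hm', ← hn'] at hcon
  have hm1 : 1 ≤ m' := by
    rw [hm']
    exact Nat.div_pos hbm hbpos
  have hmul : b * m' ≤ m := by
    rw [hm']
    exact Nat.mul_div_le m b
  have h2m : 2 * m' ≤ n' := by
    rw [hn', Nat.le_div_iff_mul_le hbpos]
    have : 2 * m' * b = 2 * (b * m') := by ring
    omega
  have hnlt : n < b * (n' + 1) := by
    rw [hn']
    exact Nat.lt_mul_div_succ n hbpos
  have hnle : b * n' ≤ n := by
    rw [hn']
    exact Nat.mul_div_le n b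
  obtain ⟨o, ho⟩ : ∃ o, o = min (Fintype.card ↥(Idx F r)) (n' - 2 * m' + 2) := ⟨_, rfl⟩
  have ho1 : o ≤ Fintype.card ↥(Idx F r) := by
    rw [ho]
    exact min_le_left _ _
  have ho2 : o ≤ n' - 2 * m' + 2 := by
    rw [ho]
    exact min_le_right _ _
  have ho3 : n' + 1 ≤ o + 2 * m' := by
    rw [ho]
    rcases le_total (Fintype.card ↥(Idx F r)) (n' - 2 * m' + 2) with hle | hle
    · rw [min_eq_left hle]
      omega
    · rw [min_eq_right hle]
      omega
  obtain ⟨O, -, hO⟩ := Finset.exists_subset_card_eq (s := (Finset.univ : Finset ↥(Idx F r))) (n := o) (by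
    rw [Finset.card_univ]
    exact ho1)
  obtain ⟨j₀⟩ := exists_j₀ (F := F) (r := r) hr
  obtain ⟨a, ha⟩ : ∃ a : ↥(Idx F r) → ℕ, a = fun j => (if j ∈ O then 1 else 0) + (if j = j₀ then 2 * (m' - 1) else 0) := ⟨_, rfl⟩
  have hsum : ∑ j, a j = o + 2 * (m' - 1) := by
    rw [ha, Finset.sum_add_distrib, Finset.sum_ite_eq']
    simp only [Finset.mem_univ, if_true]
    rw [Finset.sum_boole, Finset.filter_mem_eq_inter, Finset.univ_inter, hO]
    simp
  have hsym : ∀ j, a (dlU hF hr hrp.out.ne_zero j) = a j := by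
    intro j
    rw [hfix]
  have hs : orderOf ((Fintype.card F : ℕ) : ZMod r) * ∑ j, a j ≤ n := by
    rw [← hb, hsum]
    refine le_trans (Nat.mul_le_mul_left b ?_) hnle
    omega
  obtain ⟨t, htle, ht, hu⟩ := bad_mult p hF h hr hrq hs hsym
  rw [← hb] at ht hu
  -- the bound on `t`
  have ht0 : ∀ j, j ≠ j₀ → t j = 0 := by
    intro j hj
    have h1 := htle j
    rw [hfix, ha] at h1
    simp only [if_neg hj, add_zero] at h1
    split_ifs at h1 <;> omega
  have hsumt : ∑ j, t j = t j₀ := by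
    apply Finset.sum_eq_single
    · intro j _ hj
      exact ht0 j hj
    · intro hj
      exact absurd (Finset.mem_univ _) hj
  have htj : t j₀ ≤ m' - 1 := by
    have h1 := htle j₀
    rw [hfix, ha] at h1
    simp only [if_true] at h1
    split_ifs at h1 <;> omega
  rw [hsumt] at ht hu
  rw [hsum] at hu
  -- contradiction
  have h3 : b * t j₀ ≤ b * (m' - 1) := Nat.mul_le_mul_left b htj
  have h4 : b * (m' - 1) + b = b * m' := by
    obtain ⟨c, rfl⟩ : ∃ c, m' = c + 1 := ⟨m' - 1, by omega⟩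
    simp only [Nat.add_sub_cancel]
    ring
  have h5 : b * (n' + 1) ≤ b * (o + 2 * m') := Nat.mul_le_mul_left b ho3
  have h6 : b * (o + 2 * m') = b * (o + 2 * (m' - 1)) + 2 * b := by
    obtain ⟨c, rfl⟩ : ∃ c, m' = c + 1 := ⟨m' - 1, by omega⟩
    simp only [Nat.add_sub_cancel]
    ring
  omega

end Cfsg.Agent.Lib.TIU
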