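import Mathlib
import Cfsg.Agent.Lib.TIUBad

/-!
# Elements without fixed totally isotropic subspaces: the case `r ∣ q + 1`
-/

set_option autoImplicit false
set_option linter.unusedSectionVars false
set_option linter.unusedSimpArgs false
set_option linter.unusedVariables false

namespace Cfsg.Agent.Lib.TIU

open Module Polynomial Matrix Cfsg
open Cfsg.Agent.Lib.HermForm Cfsg.Agent.Lib.HermCount Cfsg.Agent.Lib.UnitaryConjGU
  Cfsg.Agent.Lib.SelfDual Cfsg.Agent.Lib.DualFactors Cfsg.Agent.Lib.GUParab Cfsg.Agent.Lib.HermFrame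
  Cfsg.Agent.Lib.PrimeFactors Cfsg.Agent.Lib.SemisimpleGL

open scoped Classical

universe u

variable {F : Type u} [Field F] [Fintype F] {q r n m : ℕ}

/-- Multiples by scalars of isometries. -/
theorem iso_smul (hF : Fintype.card F = q ^ 2) {y : Matrix (Fin n) (Fin n) F}
    (hy : ∀ u v, hermForm n F q (y *ᵥ u) (y *ᵥ v) = hermForm n F q u v) {w : F} (hw : w ^ (q + 1) = 1) :
    ∀ u v, hermForm n F q ((w • y) *ᵥ u) ((w • y) *ᵥ v) = hermForm n F q u v := by
  intro u v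
  rw [Matrix.smul_mulVec, Matrix.smul_mulVec, hermForm_smul_left, hermForm_smul_right, hy, ← mul_assoc, ← pow_succ']
  rw [hw, one_mul]

/-- Invariance under scalar multiples. -/
theorem inv_of_smul {y : Matrix (Fin n) (Fin n) F} {w : F} (hw0 : w ≠ 0) {W : Submodule F (Fin n → F)}
    (h : W.map (Matrix.toLin' (w • y)) ≤ W) : W.map (Matrix.toLin' y) ≤ W := by
  rintro _ ⟨v, hv, rfl⟩
  have h1 : (Matrix.toLin' (w • y)) v ∈ W := h (Submodule.mem_map_of_mem hv)
  have h2 : (Matrix.toLin' y) v = w⁻¹ • (Matrix.toLin' (w • y)) v := by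
    simp only [Matrix.toLin'_apply, Matrix.smul_mulVec, smul_smul, inv_mul_cancel₀ hw0, one_smul]
  rw [h2]
  exact W.smul_mem _ h1

/-- Invariance under scalar multiples, converse. -/
theorem inv_smul {y : Matrix (Fin n) (Fin n) F} (w : F) {W : Submodule F (Fin n → F)}
    (h : W.map (Matrix.toLin' y) ≤ W) : W.map (Matrix.toLin' (w • y)) ≤ W := by
  rintro _ ⟨v, hv, rfl⟩
  have h1 : (Matrix.toLin' y) v ∈ W := h (Submodule.mem_map_of_mem hv)
  have h2 : (Matrix.toLin' (w • y)) v = w • (Matrix.toLin' y) v := by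
    simp only [Matrix.toLin'_apply, Matrix.smul_mulVec]
  rw [h2]
  exact W.smul_mem _ h1

/-- Existence of elements of given order on the norm one group. -/
theorem exists_order_of_dvd (hF : Fintype.card F = q ^ 2) {d : ℕ} (hd : d ∣ q + 1) :
    ∃ ζ : F, orderOf ζ = d ∧ ζ ^ (q + 1) = 1 := by
  obtain ⟨g, hg⟩ := IsCyclic.exists_generator (α := Fˣ)
  have h1 : orderOf g = q ^ 2 - 1 := by
    rw [orderOf_eq_card_of_forall_mem_zpowers hg, Nat.card_eq_fintype_card, Fintype.card_units, hF]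
  have hq : 2 ≤ q := two_le_q hF
  have h2 : q ^ 2 - 1 = (q + 1) * (q - 1) := by
    obtain ⟨c, rfl⟩ : ∃ c, q = c + 1 := ⟨q - 1, by omega⟩
    simp only [Nat.add_sub_cancel]
    have : (c + 1) ^ 2 = (c + 1 + 1) * c + 1 := by ring
    omega
  have h3 : d ∣ orderOf g := by
    rw [h1, h2]
    exact Dvd.dvd.mul_right hd _
  have h0 : orderOf g ≠ 0 := by
    rw [h1, h2]
    exact mul_ne_zero (by omega) (by omega)
  have h4 := orderOf_pow_orderOf_div h0 h3
  refine ⟨((g ^ (orderOf g / d) : Fˣ) : F), ?_, ?_⟩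
  · rw [orderOf_units, h4]
  · have h5 : orderOf ((g ^ (orderOf g / d) : Fˣ) : F) ∣ q + 1 := by
      rw [orderOf_units, h4]
      exact hd
    exact orderOf_dvd_iff_pow_eq_one.1 h5

/-- The split model. -/
theorem bad_split (p : ℕ) [Fact p.Prime] [CharP F p] [hrp : Fact r.Prime] (hF : Fintype.card F = q ^ 2) {k : ℕ}
    (h : LHSP F q r n (k + 1)) (hr : (r : F) ≠ 0) {ζ : F} (hζ : orderOf ζ = r) (hζq : ζ ^ (q + 1) = 1) {o : ℕ}
    (hor : o ≤ r) (hn : n = o + 2 * k) (e₀ : ℕ) {w : F} (hw : w ^ (q + 1) = 1)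
    (hdet : w ^ n * ((ζ ^ e₀) ^ (2 * k) * ∏ e : Fin o, ζ ^ (e : ℕ)) = 1) : False := by
  have hrpos : 0 < r := hrp.out.pos
  have hw0 : w ≠ 0 := by
    rintro rfl
    rw [zero_pow (by omega)] at hw
    exact zero_ne_one hw
  have hζr : ζ ^ r = 1 := by
    rw [← hζ]
    exact pow_orderOf_eq_one ζ
  have hpq : ∀ e : ℕ, (ζ ^ e) ^ (q + 1) = 1 := by
    intro e
    rw [← pow_mul, mul_comm, pow_mul, hζq, one_pow]
  have hpr : ∀ e : ℕ, (ζ ^ e) ^ r = 1 := by
    intro e
    rw [← pow_mul, mul_comm, pow_mul, hζr, one_pow]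
  obtain ⟨w₀, hw₀⟩ : ∃ w₀, w₀ = ζ ^ e₀ := ⟨_, rfl⟩
  rw [← hw₀] at hdet
  have hw₀q : w₀ ^ (q + 1) = 1 := by
    rw [hw₀]
    exact hpq e₀
  have hw₀r : w₀ ^ r = 1 := by
    rw [hw₀]
    exact hpr e₀
  obtain ⟨S, hS⟩ : ∃ S : F[X], S = ∏ e : Fin o, (X - C (ζ ^ (e : ℕ))) := ⟨_, rfl⟩
  have hinj : Function.Injective fun e : Fin o => ζ ^ (e : ℕ) := by
    intro a b hab
    apply Fin.ext
    have h1 : (a : ℕ) < orderOf ζ := by
      rw [hζ]
      exact lt_of_lt_of_le a.2 hor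
    have h2 : (b : ℕ) < orderOf ζ := by
      rw [hζ]
      exact lt_of_lt_of_le b.2 hor
    exact pow_injOn_Iio_orderOf h1 h2 hab
  have hSsq : Squarefree S := by
    rw [hS]
    exact ((Polynomial.separable_prod_X_sub_C_iff).2 hinj).squarefree
  have hSs : S.Splits := by
    rw [hS]
    exact Splits.prod fun e _ => Splits.X_sub_C _
  have hSroot : ∀ a, S.IsRoot a → ∃ e : ℕ, a = ζ ^ e := by
    intro a ha
    rw [hS, IsRoot, eval_prod, Finset.prod_eq_zero_iff] at ha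
    obtain ⟨e, -, he⟩ := ha
    rw [eval_sub, eval_X, eval_C, sub_eq_zero] at he
    exact ⟨e, he⟩
  have hSm : S.Monic := by
    rw [hS]
    exact monic_prod_of_monic _ _ fun e _ => monic_X_sub_C _
  have hSd : S.natDegree = o := by
    rw [hS, natDegree_prod_of_monic _ _ fun e _ => monic_X_sub_C _]
    have h7 : ∀ e : Fin o, (X - C (ζ ^ (e : ℕ)) : F[X]).natDegree = 1 := fun e => natDegree_X_sub_C _
    simp only [h7]
    simp
  obtain ⟨f, hf⟩ : ∃ f : F[X], f = (X - C w₀) ^ (2 * k) * S := ⟨_, rfl⟩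
  have hfm : f.Monic := by
    rw [hf]
    exact ((monic_X_sub_C _).pow _).mul hSm
  have hfd : f.natDegree = n := by
    rw [hf, Monic.natDegree_mul ((monic_X_sub_C _).pow _) hSm, natDegree_pow, natDegree_X_sub_C, hSd, hn]
    ring
  have hfs : f.Splits := by
    rw [hf]
    exact ((Splits.X_sub_C _).pow _).mul hSs
  have hfroot : ∀ a, f.IsRoot a → a ^ (q + 1) = 1 ∧ a ^ r = 1 := by
    intro a ha
    rw [hf, IsRoot, eval_mul, eval_pow, eval_sub, eval_X, eval_C, mul_eq_zero] at ha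
    rcases ha with ha | ha
    · have h3 : a - w₀ = 0 := by
        by_contra hne
        exact (pow_ne_zero _ hne) ha
      rw [sub_eq_zero.1 h3]
      exact ⟨hw₀q, hw₀r⟩
    · obtain ⟨e, rfl⟩ := hSroot a ha
      exact ⟨hpq e, hpr e⟩
  have hf0 : f.coeff 0 ≠ 0 := by
    rw [coeff_zero_eq_eval_zero]
    intro h0
    have := (hfroot 0 h0).1
    rw [zero_pow (by omega)] at this
    exact zero_ne_one this
  have hsd : SD hF f := by
    rw [sd_iff_Dl hF hf0]
    exact Dl_eq_of_splits hF hfm hfs fun a ha => (hfroot a (mem_roots'.1 ha).2).1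
  obtain ⟨B, hB1, hB2⟩ := exists_GU_of_sd p hF hfm hfd hf0 hsd
  obtain ⟨y, hy⟩ : ∃ y : Matrix (Fin n) (Fin n) F, y = ((B : GL (Fin n) F) : Matrix (Fin n) (Fin n) F) := ⟨_, rfl⟩
  rw [← hy] at hB2
  have hyiso : ∀ u v, hermForm n F q (y *ᵥ u) (y *ᵥ v) = hermForm n F q u v := by
    rw [hy]
    exact B.2
  have hyr : y ^ r = 1 := by
    rw [hy]
    refine pow_eq_one_of_dvd (cast_ne_of_coprime (F := F) p hB1) (gu_pow_order B) r (fun g hgm hg hgd => ?_)
    rw [← hy, hB2] at hgd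
    have hgs : g.Splits := hfs.of_dvd hfm.ne_zero hgd
    obtain ⟨a, ha⟩ := hgs.exists_eval_eq_zero (by
      intro h0
      have h8 := hg.natDegree_pos
      have h9 : g.natDegree = 0 := natDegree_eq_zero_iff_degree_le_zero.2 h0.le
      omega)
    have h1 : g = X - C a := by
      have h2 : (X - C a : F[X]) ∣ g := dvd_iff_isRoot.2 ha
      exact (eq_of_monic_of_associated (monic_X_sub_C a) hgm ((irreducible_X_sub_C a).associated_of_dvd hg h2)).symm
    rw [h1]
    have h3 : f.IsRoot a := by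
      rw [h1] at hgd
      exact dvd_iff_isRoot.1 hgd
    apply dvd_iff_isRoot.2
    simp [IsRoot, (hfroot a h3).2]
  -- the determinant
  have hdety : y.det = w₀ ^ (2 * k) * ∏ e : Fin o, ζ ^ (e : ℕ) := by
    have h1 := Matrix.det_eq_sign_charpoly_coeff y
    rw [hB2, hf, coeff_zero_eq_eval_zero, eval_mul, eval_pow, eval_sub, eval_X, eval_C, hS, eval_prod, Fintype.card_fin] at h1
    have h2 : ∏ e : Fin o, eval 0 (X - C (ζ ^ (e : ℕ))) = (-1) ^ o * ∏ e : Fin o, ζ ^ (e : ℕ) := by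
      have h3 : ∀ e : Fin o, eval 0 (X - C (ζ ^ (e : ℕ))) = -(ζ ^ (e : ℕ)) := by
        intro e
        simp
      simp only [h3]
      rw [Finset.prod_neg]
      simp
    rw [h2] at h1
    rw [h1, hn]
    have h4 : (0 - w₀) ^ (2 * k) = w₀ ^ (2 * k) := by
      rw [zero_sub, neg_pow, pow_mul, pow_mul]
      simp
    rw [h4]
    have h5 : ((-1 : F) ^ (o + 2 * k)) * (-1) ^ o = 1 := by
      rw [← pow_add]
      exact Even.neg_one_pow ⟨o + k, by ring⟩
    calc (-1 : F) ^ (o + 2 * k) * (w₀ ^ (2 * k) * ((-1) ^ o * ∏ e : Fin o, ζ ^ (e : ℕ)))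
        = ((-1) ^ (o + 2 * k) * (-1) ^ o) * (w₀ ^ (2 * k) * ∏ e : Fin o, ζ ^ (e : ℕ)) := by ring
      _ = _ := by rw [h5, one_mul]
  have hdetM : (w • y).det = 1 := by
    rw [Matrix.det_smul, Fintype.card_fin, hdety]
    exact hdet
  obtain ⟨W, hWm, hW, hWinv⟩ := h (w • y) hdetM (iso_smul hF hyiso hw) ⟨w ^ r, by rw [_root_.smul_pow, hyr]⟩
  have h9 := le_of_direct hF y hyiso W hWm hW (inv_of_smul hw0 hWinv) hw₀q hSsq hSs
    (fun a ha => by
      obtain ⟨e, rfl⟩ := hSroot a ha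
      exact hpq e) k (by rw [hB2, hf])
  omega

/-- A number theoretic choice. -/
theorem exists_exponents [hrp : Fact r.Prime] (hr2 : r ≠ 2) {n o k : ℕ} (hn : n = o + 2 * k) (ho : 2 ≤ o) (hor : o ≤ r) :
    ∃ τ e₀ : ℕ, r ∣ τ * n + (2 * k * e₀ + ∑ e ∈ Finset.range o, e) := by
  have h2 : (2 : ZMod r) ≠ 0 := by
    intro h
    have h3 : ((2 : ℕ) : ZMod r) = 0 := by exact_mod_cast h
    rw [ZMod.natCast_eq_zero_iff] at h3
    exact hr2 ((Nat.prime_dvd_prime_iff_eq hrp.out Nat.prime_two).1 h3)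
  obtain ⟨E, hE⟩ : ∃ E, E = ∑ e ∈ Finset.range o, e := ⟨_, rfl⟩
  rw [← hE]
  by_cases hn0 : (n : ZMod r) = 0
  · by_cases hk0 : (k : ZMod r) = 0
    · -- then `r ∣ o`, so `o = r`
      have ho0 : (o : ZMod r) = 0 := by
        have := congrArg (Nat.cast : ℕ → ZMod r) hn
        push_cast at this
        rw [hn0, hk0] at this
        simpa using this.symm
      rw [ZMod.natCast_eq_zero_iff] at ho0
      have hor' : o = r := by
        have h3 := Nat.le_of_dvd (by omega) ho0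
        omega
      refine ⟨0, 0, ?_⟩
      rw [hE, hor', Finset.sum_range_id]
      simp only [zero_mul, mul_zero, zero_add]
      obtain ⟨c, hc⟩ : Even (r - 1) := by
        have h5 : Odd r := hrp.out.odd_of_ne_two hr2
        obtain ⟨c, hc⟩ := h5
        exact ⟨c, by omega⟩
      have e1 : r * (r - 1) / 2 = r * c := by
        rw [hc]
        have : r * (c + c) = 2 * (r * c) := by ring
        rw [this]
        exact Nat.mul_div_cancel_left _ (by norm_num)
      rw [e1]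
      exact Dvd.intro _ rfl
    · have hinv : ((2 * k : ℕ) : ZMod r) ≠ 0 := by
        push_cast
        exact mul_ne_zero h2 hk0
      refine ⟨0, (-(E : ZMod r) * ((2 * k : ℕ) : ZMod r)⁻¹).val, ?_⟩
      rw [← ZMod.natCast_eq_zero_iff]
      push_cast
      rw [ZMod.natCast_val, ZMod.cast_id', id]
      have : ((2 : ZMod r) * k) ≠ 0 := by
        push_cast at hinv
        exact hinv
      field_simp
      ring
  · refine ⟨(-(E : ZMod r) * (n : ZMod r)⁻¹).val, 0, ?_⟩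
    rw [← ZMod.natCast_eq_zero_iff]
    push_cast
    rw [ZMod.natCast_val, ZMod.cast_id', id]
    field_simp
    ring

/-- The condition `r - 1 + 2 m ≤ n` when `r ∣ q + 1`, `r` odd. -/
theorem i2_numeric (p : ℕ) [Fact p.Prime] [CharP F p] [hrp : Fact r.Prime] (hF : Fintype.card F = q ^ 2)
    (h : LHSP F q r n m) (hr : (r : F) ≠ 0) (hr2 : r ≠ 2) (hrq : r ∣ q + 1) (hm : 1 ≤ m) (hmn : 2 * m ≤ n) :
    r - 1 + 2 * m ≤ n := by
  by_contra hcon
  push Not at hcon
  have hr2' := hrp.out.two_le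
  obtain ⟨k, rfl⟩ : ∃ k, m = k + 1 := ⟨m - 1, by omega⟩
  obtain ⟨o, ho⟩ : ∃ o, o = n - 2 * (k + 1) + 2 := ⟨_, rfl⟩
  have hor : o ≤ r := by omega
  have hn : n = o + 2 * k := by omega
  obtain ⟨ζ, hζ, hζq⟩ := exists_order_of_dvd hF hrq
  obtain ⟨τ, e₀, hdvd⟩ := exists_exponents hr2 hn (by omega : 2 ≤ o) hor
  have hζr : ∀ e : ℕ, r ∣ e → ζ ^ e = 1 := fun e he => orderOf_dvd_iff_pow_eq_one.1 (hζ ▸ he)
  refine bad_split p hF h hr hζ hζq hor hn e₀ (w := ζ ^ τ) ?_ ?_
  · rw [← pow_mul, mul_comm, pow_mul, hζq, one_pow]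
  · have h1 : ∏ e : Fin o, ζ ^ (e : ℕ) = ζ ^ ∑ e ∈ Finset.range o, e := by
      rw [Finset.prod_pow_eq_pow_sum, Fin.sum_univ_eq_sum_range (fun e => e) o]
    rw [h1, ← pow_mul, ← pow_mul, ← pow_add, ← pow_add]
    apply hζr
    convert hdvd using 2
    ring

/-- The condition on `2`-parts. -/
theorem two_numeric (p : ℕ) [Fact p.Prime] [CharP F p] [hrp : Fact r.Prime] (hF : Fintype.card F = q ^ 2) (hr2' : r = 2)
    (hp2 : p ≠ 2) (h : LHSP F q r n m) (hr : (r : F) ≠ 0) (hm : 1 ≤ m) (hn : n = 2 * m)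
    (hv : padicValNat 2 n < padicValNat 2 (q + 1)) : False := by
  subst hr2'
  haveI : Fact (Nat.Prime 2) := hrp
  have hq : 2 ≤ q := two_le_q hF
  obtain ⟨k, rfl⟩ : ∃ k, m = k + 1 := ⟨m - 1, by omega⟩
  have hF2 : (2 : F) ≠ 0 := by
    intro h2
    have h3 : ((2 : ℕ) : F) = 0 := by exact_mod_cast h2
    rw [CharP.cast_eq_zero_iff F p] at h3
    exact hp2 ((Nat.prime_dvd_prime_iff_eq (Fact.out : p.Prime) Nat.prime_two).1 h3)
  have hm1 : (-1 : F) ≠ 1 := by
    intro h1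
    apply hF2
    linear_combination -h1
  have hqq : Even (q + 1) := by
    by_contra hne
    rw [Nat.not_even_iff_odd] at hne
    have h5 : padicValNat 2 (q + 1) = 0 := padicValNat.eq_zero_of_not_dvd (fun hd => by
      obtain ⟨c, hc⟩ := hne
      obtain ⟨e, he⟩ := hd
      omega)
    omega
  have hζ : orderOf (-1 : F) = 2 := by
    refine orderOf_eq_prime (by ring) hm1
  have hζq : (-1 : F) ^ (q + 1) = 1 := hqq.neg_one_pow
  -- the element `w`
  obtain ⟨a, n', hn', hodd⟩ : ∃ a n', n = 2 ^ a * n' ∧ Odd n' := by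
    obtain ⟨a, n', ho, he⟩ := Nat.exists_eq_two_pow_mul_odd (n := n) (by omega)
    exact ⟨a, n', he, ho⟩
  have hva : padicValNat 2 n = a := by
    rw [hn', padicValNat.mul (by positivity) (by
      rintro rfl
      simp at hodd), padicValNat.prime_pow, padicValNat.eq_zero_of_not_dvd (fun hd => by
        obtain ⟨c, hc⟩ := hodd
        obtain ⟨e, he⟩ := hd
        omega), add_zero]
  rw [hva] at hv
  have hdvd : 2 ^ (a + 1) ∣ q + 1 := by
    rw [padicValNat_dvd_iff_le (by omega)]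
    omega
  obtain ⟨w, hw, hwq⟩ := exists_order_of_dvd hF hdvd
  have hw2 : w ^ 2 ^ a = -1 := by
    have h1 : (w ^ 2 ^ a) ^ 2 = 1 := by
      rw [← pow_mul, ← pow_succ, ← hw]
      exact pow_orderOf_eq_one w
    have h2 : w ^ 2 ^ a ≠ 1 := by
      intro h3
      have h4 := orderOf_dvd_of_pow_eq_one h3
      rw [hw] at h4
      have h5 := Nat.le_of_dvd (by positivity) h4
      have h6 : 2 ^ a < 2 ^ (a + 1) := Nat.pow_lt_pow_right (by norm_num) (by omega)
      omega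
    have h3 : (w ^ 2 ^ a - 1) * (w ^ 2 ^ a + 1) = 0 := by
      ring_nf
      rw [← pow_mul] at h1
      ring_nf at h1
      rw [h1]
      ring
    rcases mul_eq_zero.1 h3 with h4 | h4
    · exact absurd (sub_eq_zero.1 h4) h2
    · exact eq_neg_of_add_eq_zero_left h4
  have hwn : w ^ n = -1 := by
    rw [hn', pow_mul, hw2, hodd.neg_one_pow]
  refine bad_split p hF h hr hζ hζq (le_refl 2) (by omega : n = 2 + 2 * k) 0 hwq ?_
  rw [hwn, pow_zero, one_pow, Fin.prod_univ_two]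
  simp

/-- The non-power element. -/
theorem nonpower_numeric (p : ℕ) [Fact p.Prime] [CharP F p] [hrp : Fact r.Prime] (hF : Fintype.card F = q ^ 2)
    (h : LHSP F q r n m) (hr2 : r ≠ 2) (hrq : r ∣ q + 1) (hv : padicValNat r (q + 1) < padicValNat r n)
    (hW0 : m = m) : r ∣ m := by
  have hprime : r.Prime := hrp.out
  have hq : 2 ≤ q := two_le_q hF
  have hn0 : n ≠ 0 := by
    rintro rfl
    simp at hv
  have hrn : r ∣ n := by
    by_contra hnd
    rw [padicValNat.eq_zero_of_not_dvd hnd] at hv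
    omega
  obtain ⟨k, rfl⟩ := hrn
  have hk0 : k ≠ 0 := by
    rintro rfl
    simp at hn0
  rw [padicValNat.mul hprime.ne_zero hk0, padicValNat_self] at hv
  obtain ⟨a, ha⟩ : ∃ a, a = padicValNat r (q + 1) := ⟨_, rfl⟩
  rw [← ha] at hv
  have hdk : r ^ a ∣ k := (padicValNat_dvd_iff_le hk0).2 (by omega)
  have hdq : r ^ a ∣ q + 1 := (padicValNat_dvd_iff_le (by omega)).2 ha.le
  have hq1 : (Fintype.card F - 1) = (q + 1) * (q - 1) := by
    rw [hF]
    obtain ⟨c, rfl⟩ : ∃ c, q = c + 1 := ⟨q - 1, by omega⟩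
    simp only [Nat.add_sub_cancel]
    have : (c + 1) ^ 2 = (c + 1 + 1) * c + 1 := by ring
    omega
  have hrq1 : r ∣ Fintype.card F - 1 := by
    rw [hq1]
    exact Dvd.dvd.mul_right hrq _
  have hrnq : ¬ r ∣ q - 1 := by
    intro hd
    have h2 : r ∣ 2 := by
      have h3 : q + 1 = (q - 1) + 2 := by omega
      rw [h3] at hrq
      exact (Nat.dvd_add_right hd).1 hrq
    exact hr2 ((Nat.prime_dvd_prime_iff_eq hprime Nat.prime_two).1 h2)
  have hvq : padicValNat r (Fintype.card F - 1) ≤ padicValNat r (r ^ a) := by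
    rw [hq1, padicValNat.mul (by omega) (by omega), padicValNat.eq_zero_of_not_dvd hrnq, padicValNat.prime_pow, ← ha]
    omega
  obtain ⟨z, hz, hzr⟩ := Cfsg.Agent.Lib.ElusiveBuild.exists_nonpower (F := F) hrq1 (pow_ne_zero _ hprime.ne_zero) hvq
  have hzk : z ^ k = 1 := by
    obtain ⟨c, rfl⟩ := hdk
    rw [pow_mul, hzr, one_pow]
  have hzq : z ^ (q + 1) = 1 := by
    obtain ⟨c, hc⟩ := hdq
    rw [hc, pow_mul, hzr, one_pow]
  have hz0 : z ≠ 0 := by
    rintro rfl
    rw [zero_pow (by omega)] at hzq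
    exact zero_ne_one hzq
  have hirr := X_pow_sub_C_irreducible_of_prime hprime hz
  obtain ⟨P, hP⟩ : ∃ P : F[X], P = X ^ r - C z := ⟨_, rfl⟩
  rw [← hP] at hirr
  have hPm : P.Monic := by
    rw [hP]
    exact monic_X_pow_sub_C z hprime.ne_zero
  have hPd : P.natDegree = r := by
    rw [hP]
    exact natDegree_X_pow_sub_C
  have hP0 : P.coeff 0 = -z := by
    rw [hP, coeff_sub, coeff_C_zero, coeff_X_pow, if_neg (Ne.symm hprime.ne_zero), zero_sub]
  have hDP : Dl (Cfsg.Agent.Lib.UnitaryBasic.sigma hF) P = P := by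
    have hzq0 : z ^ q ≠ 0 := pow_ne_zero _ hz0
    have h1 : z ^ q * z = 1 := by
      rw [← pow_succ]
      exact hzq
    have hinv : (z ^ q)⁻¹ = z := inv_eq_of_mul_eq_one_right h1
    have h2 : P.map (Cfsg.Agent.Lib.UnitaryBasic.sigma hF) = X ^ r - C (z ^ q) := by
      rw [hP]
      simp
    have h3 : (X ^ r - C (z ^ q) : F[X]).reverse = 1 - C (z ^ q) * X ^ r := by
      have e1 : reflect r (X ^ r : F[X]) = 1 := by
        simpa using reflect_monomial (R := F) r r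
      rw [reverse, natDegree_X_pow_sub_C, reflect_sub, e1, reflect_C]
    unfold Dl
    rw [h2, h3, hP0, map_neg, Cfsg.Agent.Lib.UnitaryBasic.sigma_apply, inv_neg, C_neg, mul_sub, mul_one]
    have h5 : (C (z ^ q)⁻¹ : F[X]) * (C (z ^ q) * X ^ r) = X ^ r := by
      rw [← mul_assoc, ← C_mul, inv_mul_cancel₀ hzq0, C_1, one_mul]
    rw [neg_mul, h5, hinv, hP]
    ring
  obtain ⟨f, hf⟩ : ∃ f : F[X], f = P ^ k := ⟨_, rfl⟩
  have hfm : f.Monic := by
    rw [hf]
    exact hPm.pow k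
  have hfd : f.natDegree = r * k := by
    rw [hf, natDegree_pow, hPd, mul_comm]
  have hf0 : f.coeff 0 = (-z) ^ k := by
    rw [hf, coeff_zero_eq_eval_zero, eval_pow, ← coeff_zero_eq_eval_zero, hP0]
  have hf00 : f.coeff 0 ≠ 0 := by
    rw [hf0]
    exact pow_ne_zero _ (neg_ne_zero.2 hz0)
  have hsd : SD hF f := by
    rw [sd_iff_Dl hF hf00, hf, ← DlHom_apply, map_pow, DlHom_apply, hDP]
  obtain ⟨B, hB1, hB2⟩ := exists_GU_of_sd p hF hfm hfd hf00 hsd
  obtain ⟨y, hy⟩ : ∃ y : Matrix (Fin (r * k)) (Fin (r * k)) F, y = ((B : GL (Fin (r * k)) F) : Matrix (Fin (r * k)) (Fin (r * k)) F) := ⟨_, rfl⟩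
  rw [← hy] at hB2
  have hyiso : ∀ u v, hermForm (r * k) F q (y *ᵥ u) (y *ᵥ v) = hermForm (r * k) F q u v := by
    rw [hy]
    exact B.2
  have hyr : y ^ r = z • (1 : Matrix (Fin (r * k)) (Fin (r * k)) F) := by
    rw [hy]
    refine pow_eq_smul_of_dvd (cast_ne_of_coprime (F := F) p hB1) (gu_pow_order B) r z (fun g hgm hg hgd => ?_)
    rw [← hy, hB2, hf] at hgd
    rw [← hP]
    exact hg.prime.dvd_of_dvd_pow hgd
  have hdet : y.det = 1 := by
    have h1 := Matrix.det_eq_sign_charpoly_coeff y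
    rw [hB2, hf0, Fintype.card_fin] at h1
    rw [h1, neg_pow z k, hzk, mul_one, ← pow_add]
    have hodd : Odd r := hprime.odd_of_ne_two hr2
    have he : Even (r * k + k) := by
      obtain ⟨c, rfl⟩ := hodd
      exact ⟨(c + 1) * k, by ring⟩
    exact he.neg_one_pow
  obtain ⟨W, hWm, hW, hWinv⟩ := h y hdet hyiso ⟨z, hyr⟩
  rw [← hWm]
  refine Cfsg.Agent.Lib.ElusiveCore.dvd_finrank_of_inv hprime (x := Matrix.toLin' y) (c := z) ?_ hz hWinv
  have := congrArg (Matrix.toLinAlgEquiv' (R := F) (n := Fin (r * k))) hyr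
  rw [map_pow, map_smul, map_one] at this
  exact this

end Cfsg.Agent.Lib.TIU
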