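import Mathlib
import Cfsg.Agent.Lib.GUParab
import Cfsg.Agent.Lib.ElusiveCount
import Cfsg.Agent.Lib.DualFactors

/-!
# The number of totally isotropic subspaces of a unitary space
-/

set_option autoImplicit false
set_option linter.unusedSectionVars false
set_option linter.unusedSimpArgs false
set_option linter.unusedVariables false

namespace Cfsg.Agent.Lib.TIU

open Module Matrix Cfsg
open Cfsg.Agent.Lib.GUParab Cfsg.Agent.Lib.ElusiveCount

variable {F : Type*} [Field F] [Fintype F] {q n m : ℕ}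

/-- The count of totally isotropic subspaces. -/
theorem card_TI_mul (hF : Fintype.card F = q ^ 2) (hmn : 2 * m ≤ n) :
    Nat.card {W : Submodule F (Fin n → F) // finrank F W = m ∧ ∀ u ∈ W, ∀ v ∈ W, hermForm n F q u v = 0} *
      BB (q ^ 2) m m = ∏ i ∈ Finset.range m, cc q (n - 2 * i) := by
  classical
  haveI : Finite (Submodule F (Fin n → F)) := Finite.of_injective _ SetLike.coe_injective
  haveI : Finite ↥(Frame n m F q) := inferInstance
  have hq1 : 1 ≤ q ^ 2 := by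
    rw [← hF]
    exact Fintype.card_pos
  have h1 := card_fiberwise (α := ↥(Frame n m F q)) (β := Submodule F (Fin n → F))
    (fun f => Submodule.span F (Set.range f.1))
    (fun W => finrank F W = m ∧ ∀ u ∈ W, ∀ v ∈ W, hermForm n F q u v = 0) (∏ i : Fin m, ((q ^ 2) ^ m - (q ^ 2) ^ (i : ℕ))) (by
      rintro W ⟨hWm, hWt⟩
      rw [← hF, ← card_WFrame W hWm]
      refine Nat.card_congr ⟨fun a => ⟨a.1.1, a.1.2.1, fun i => ?_⟩, fun f => ⟨⟨f.1, f.2.1, fun i j => hWt _ (f.2.2 i) _ (f.2.2 j)⟩, ?_⟩, ?_, ?_⟩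
      · have h : a.1.1 i ∈ Submodule.span F (Set.range a.1.1) := Submodule.subset_span ⟨i, rfl⟩
        rw [a.2] at h
        exact h
      · exact span_eq_of_WFrame hWm f.2
      · intro a
        rfl
      · intro f
        rfl)
  have h2 : Nat.card {a : ↥(Frame n m F q) // finrank F (Submodule.span F (Set.range a.1)) = m ∧
      ∀ u ∈ Submodule.span F (Set.range a.1), ∀ v ∈ Submodule.span F (Set.range a.1), hermForm n F q u v = 0} =
      Nat.card ↥(Frame n m F q) := by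
    refine Nat.card_congr (Equiv.subtypeUnivEquiv fun a => ⟨?_, ?_⟩)
    · rw [finrank_span_eq_card a.2.1]
      simp
    · have h3 := span_le_perpT (q := q) hF a.2
      intro u hu v hv
      exact (mem_perpT.1 (h3 hu) |> fun hh => by
        -- orthogonal to all of the span
        have h4 : ∀ w ∈ Submodule.span F (Set.range a.1), hermForm n F q u w = 0 := by
          intro w hw
          exact herm_span_right hF (fun i => hh i) hw
        exact h4 v hv)
  rw [h2, card_Frame hF m (n - 2 * m) (by omega), prod_sub_pow (q ^ 2) m m hq1 le_rfl,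
    Finset.prod_mul_distrib] at h1
  have hpos : 0 < ∏ j ∈ Finset.range m, (q ^ 2) ^ j := by
    have hq0 : 0 < q ^ 2 := by omega
    exact Finset.prod_pos fun j _ => pow_pos hq0 j
  have h3 : ∏ i ∈ Finset.range m, cc q (n - 2 * i) =
      Nat.card {W : Submodule F (Fin n → F) // finrank F W = m ∧ ∀ u ∈ W, ∀ v ∈ W, hermForm n F q u v = 0} *
      BB (q ^ 2) m m := by
    apply Nat.eq_of_mul_eq_mul_left hpos
    have e : (∏ i ∈ Finset.range m, if Even (n - 2 * i) then (q ^ (n - 2 * i) - 1) * (q ^ (n - 2 * i - 1) + 1) else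
        (q ^ (n - 2 * i) + 1) * (q ^ (n - 2 * i - 1) - 1)) = ∏ i ∈ Finset.range m, cc q (n - 2 * i) := rfl
    rw [e] at h1
    rw [h1]
    ring
  exact h3.symm

/-- A prime dividing the count. -/
theorem exists_k_of_dvd (hF : Fintype.card F = q ^ 2) (hmn : 2 * m ≤ n) {r : ℕ} [hr : Fact r.Prime]
    (hrN : r ∣ Nat.card {W : Submodule F (Fin n → F) // finrank F W = m ∧ ∀ u ∈ W, ∀ v ∈ W, hermForm n F q u v = 0}) :
    ∃ k, n - 2 * m < k ∧ k ≤ n ∧ 1 ≤ k ∧ (q : ZMod r) ^ k = (-1) ^ k := by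
  have hq1 : 1 ≤ q := by
    have := Cfsg.Agent.Lib.HermCount.two_le_q hF
    omega
  have h1 : r ∣ ∏ i ∈ Finset.range m, cc q (n - 2 * i) := by
    rw [← card_TI_mul hF hmn]
    exact Dvd.dvd.mul_right hrN _
  obtain ⟨i, hi, hd⟩ := (Prime.dvd_finset_prod_iff hr.out.prime _).1 h1
  rw [Finset.mem_range] at hi
  obtain ⟨d, hd'⟩ : ∃ d, d = n - 2 * i := ⟨_, rfl⟩
  rw [← hd'] at hd
  have hd2 : 2 ≤ d := by omega
  have hcast1 : ∀ e, r ∣ q ^ e - 1 → (q : ZMod r) ^ e = 1 := by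
    intro e h
    have h2 := (ZMod.natCast_eq_zero_iff _ _).2 h
    rw [Nat.cast_sub (Nat.one_le_pow _ _ hq1)] at h2
    push_cast at h2
    exact sub_eq_zero.1 h2
  have hcast2 : ∀ e, r ∣ q ^ e + 1 → (q : ZMod r) ^ e = -1 := by
    intro e h
    have h2 := (ZMod.natCast_eq_zero_iff _ _).2 h
    push_cast at h2
    exact eq_neg_of_add_eq_zero_left h2
  have hbd : ∀ k, (k = d ∨ k = d - 1) → n - 2 * m < k ∧ k ≤ n ∧ 1 ≤ k := by
    intro k hk
    omega
  unfold cc at hd
  split_ifs at hd with he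
  · rcases (Nat.Prime.dvd_mul hr.out).1 hd with h2 | h2
    · refine ⟨d, (hbd d (Or.inl rfl)).1, (hbd d (Or.inl rfl)).2.1, (hbd d (Or.inl rfl)).2.2, ?_⟩
      rw [hcast1 d h2, he.neg_one_pow]
    · refine ⟨d - 1, (hbd _ (Or.inr rfl)).1, (hbd _ (Or.inr rfl)).2.1, (hbd _ (Or.inr rfl)).2.2, ?_⟩
      have ho : Odd (d - 1) := by
        obtain ⟨c, hc⟩ := he
        exact ⟨c - 1, by omega⟩
      rw [hcast2 _ h2, ho.neg_one_pow]
  · rw [Nat.not_even_iff_odd] at he
    rcases (Nat.Prime.dvd_mul hr.out).1 hd with h2 | h2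
    · refine ⟨d, (hbd d (Or.inl rfl)).1, (hbd d (Or.inl rfl)).2.1, (hbd d (Or.inl rfl)).2.2, ?_⟩
      rw [hcast2 d h2, he.neg_one_pow]
    · refine ⟨d - 1, (hbd _ (Or.inr rfl)).1, (hbd _ (Or.inr rfl)).2.1, (hbd _ (Or.inr rfl)).2.2, ?_⟩
      have ho : Even (d - 1) := by
        obtain ⟨c, hc⟩ := he
        exact ⟨c, by omega⟩
      rw [hcast1 _ h2, ho.neg_one_pow]

/-- The characteristic does not divide the count. -/
theorem ne_char_of_k {p r k : ℕ} [hr : Fact r.Prime] (hp : p.Prime) (hq : p ∣ q) (hk : 1 ≤ k)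
    (h : (q : ZMod r) ^ k = (-1) ^ k) : r ≠ p := by
  rintro rfl
  have h0 : (q : ZMod r) = 0 := (ZMod.natCast_eq_zero_iff _ _).2 hq
  rw [h0, zero_pow (by omega)] at h
  have h1 : ((-1 : ZMod r) ^ k) ≠ 0 := pow_ne_zero _ (neg_ne_zero.2 one_ne_zero)
  exact h1 h.symm

/-- Divisibility by `c`. -/
theorem c_dvd_of_k {r k i c : ℕ} [hr : Fact r.Prime] (hr2 : r ≠ 2) {x : ZMod r} (hi : i = orderOf x)
    (hc : c = if i % 4 = 0 then i else if i % 4 = 2 then i / 2 else 2 * i) (h : x ^ k = (-1) ^ k) : c ∣ k := by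
  have hne : (-1 : ZMod r) ≠ 1 := Cfsg.Agent.Lib.DualFactors.neg_one_ne hr2
  rcases Nat.even_or_odd k with he | ho
  · rw [he.neg_one_pow] at h
    have h1 : i ∣ k := hi ▸ orderOf_dvd_of_pow_eq_one h
    rw [hc]
    split_ifs with h4 h2
    · exact h1
    · exact (Nat.div_dvd_of_dvd (by omega)).trans h1
    · have h5 : Nat.Coprime 2 i := by
        rw [Nat.coprime_two_left]
        rw [Nat.odd_iff]
        omega
      exact Nat.Coprime.mul_dvd_of_dvd_of_dvd h5 he.two_dvd h1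
  · rw [ho.neg_one_pow] at h
    have h1 : x ^ (2 * k) = 1 := by
      rw [mul_comm, pow_mul, h]
      ring
    have h2 : i ∣ 2 * k := hi ▸ orderOf_dvd_of_pow_eq_one h1
    rw [hc]
    split_ifs with h4 h5
    · exfalso
      obtain ⟨j, hj⟩ : 4 ∣ i := Nat.dvd_of_mod_eq_zero h4
      have h6 : 4 ∣ 2 * k := (Dvd.intro _ hj.symm).trans h2
      obtain ⟨c', hc'⟩ := ho
      omega
    · obtain ⟨c', hc'⟩ : ∃ c', i = 2 * c' := ⟨i / 2, by omega⟩
      have e : i / 2 = c' := by omega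
      rw [e]
      rw [hc'] at h2
      exact Nat.dvd_of_mul_dvd_mul_left (by norm_num) h2
    · exfalso
      have h6 : Nat.Coprime i 2 := by
        rw [Nat.coprime_two_right]
        rw [Nat.odd_iff]
        omega
      have h7 : i ∣ k := h6.dvd_of_dvd_mul_left h2
      have h8 : x ^ k = 1 := orderOf_dvd_iff_pow_eq_one.1 (hi ▸ h7)
      rw [h] at h8
      exact hne h8

/-- The arithmetic consequence. -/
theorem mod_lt_of_dvd {n m k c : ℕ} (hc : c ∣ k) (hk : n - 2 * m < k) (hkn : k ≤ n) (hk1 : 1 ≤ k) (hmn : 2 * m ≤ n) :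
    n % c < 2 * m := by
  obtain ⟨l, rfl⟩ := hc
  have hc0 : 0 < c := by
    rcases Nat.eq_zero_or_pos c with h | h
    · subst h
      simp at hk1
    · exact h
  have h1 : l ≤ n / c := by
    rw [Nat.le_div_iff_mul_le hc0, mul_comm]
    exact hkn
  have h2 : c * l ≤ c * (n / c) := Nat.mul_le_mul_left _ h1
  have h3 := Nat.div_add_mod n c
  omega

end Cfsg.Agent.Lib.TIU
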