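import Mathlib
import Cfsg.Agent.Lib.TIUBad2

/-!
# Existence of fixed totally isotropic subspaces
-/

set_option autoImplicit false
set_option linter.unusedSectionVars false
set_option linter.unusedSimpArgs false
set_option linter.unusedVariables false

namespace Cfsg.Agent.Lib.TIU

open Module Polynomial Matrix Cfsg
open Cfsg.Agent.Lib.HermForm Cfsg.Agent.Lib.HermCount Cfsg.Agent.Lib.UnitaryConjGU
  Cfsg.Agent.Lib.SelfDual Cfsg.Agent.Lib.DualFactors Cfsg.Agent.Lib.GUParab Cfsg.Agent.Lib.HermFrame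
  Cfsg.Agent.Lib.PrimeFactors Cfsg.Agent.Lib.SemisimpleGL

open scoped Classical

universe u

variable {F : Type u} [Field F] [Fintype F] {q r n m : ℕ}

theorem iso_pow {M : Matrix (Fin n) (Fin n) F}
    (hM : ∀ u v, hermForm n F q (M *ᵥ u) (M *ᵥ v) = hermForm n F q u v) (k : ℕ) :
    ∀ u v, hermForm n F q ((M ^ k) *ᵥ u) ((M ^ k) *ᵥ v) = hermForm n F q u v := by
  induction k with
  | zero =>
    intro u v
    simp
  | succ k ih =>
    intro u v
    rw [pow_succ', ← Matrix.mulVec_mulVec, ← Matrix.mulVec_mulVec, hM, ih]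

/-- A scalar power is on the unit circle. -/
theorem scalar_norm (hF : Fintype.card F = q ^ 2) (hn : 1 ≤ n) {M : Matrix (Fin n) (Fin n) F}
    (hM : ∀ u v, hermForm n F q (M *ᵥ u) (M *ᵥ v) = hermForm n F q u v) {z : F}
    (hz : M ^ r = z • (1 : Matrix (Fin n) (Fin n) F)) : z ^ (q + 1) = 1 := by
  have hq0 : q ≠ 0 := by
    have := two_le_q hF
    omega
  obtain ⟨i⟩ : Nonempty (Fin n) := ⟨⟨0, by omega⟩⟩
  have h1 := iso_pow hM r (Pi.single i 1) (Pi.single i 1)
  rw [hz, Matrix.smul_mulVec, Matrix.one_mulVec, hermForm_smul_left, hermForm_smul_right] at h1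
  have h2 : hermForm n F q (Pi.single i 1) (Pi.single i 1) = 1 := by
    simp [hermForm, Pi.single_apply, hq0]
  rw [h2, mul_one] at h1
  rw [pow_succ']
  exact h1

/-- Dichotomy for a scalar on the unit circle. -/
theorem dichotomy_z (hF : Fintype.card F = q ^ 2) [hrp : Fact r.Prime] (hr2 : r ≠ 2) {z : F} (hz : z ^ (q + 1) = 1) :
    (∃ w : F, w ^ (q + 1) = 1 ∧ w ^ r = z) ∨ (r ∣ q + 1 ∧ ∀ b : F, b ^ r ≠ z) := by
  have hprime : r.Prime := hrp.out
  have hq : 2 ≤ q := two_le_q hF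
  have hz0 : z ≠ 0 := by
    rintro rfl
    rw [zero_pow (by omega)] at hz
    exact zero_ne_one hz
  by_cases hrq : r ∣ q + 1
  · obtain ⟨θ, hθ⟩ := IsCyclic.exists_monoid_generator (α := Fˣ)
    have hord : orderOf θ = (q + 1) * (q - 1) := by
      have h1 : orderOf θ = Nat.card Fˣ := by
        apply orderOf_eq_card_of_forall_mem_zpowers
        intro y
        exact Submonoid.powers_le_zpowers θ (hθ y)
      rw [h1, Nat.card_eq_fintype_card, Fintype.card_units, hF]
      obtain ⟨c, rfl⟩ : ∃ c, q = c + 1 := ⟨q - 1, by omega⟩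
      simp only [Nat.add_sub_cancel]
      have : (c + 1) ^ 2 = (c + 1 + 1) * c + 1 := by ring
      omega
    have hexp : ∀ y : F, y ≠ 0 → ∃ f : ℕ, (θ : F) ^ f = y := by
      intro y hy
      obtain ⟨f, hf⟩ := Submonoid.mem_powers_iff _ _ |>.1 (hθ (Units.mk0 y hy))
      refine ⟨f, ?_⟩
      have := congrArg Units.val hf
      simpa using this
    have hrnq : ¬ r ∣ q - 1 := by
      intro hd
      have h2 : r ∣ 2 := by
        have h3 : q + 1 = (q - 1) + 2 := by omega
        rw [h3] at hrq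
        exact (Nat.dvd_add_right hd).1 hrq
      exact hr2 ((Nat.prime_dvd_prime_iff_eq hprime Nat.prime_two).1 h2)
    obtain ⟨f, hf⟩ := hexp z hz0
    have hd : (q + 1) * (q - 1) ∣ f * (q + 1) := by
      rw [← hord, orderOf_dvd_iff_pow_eq_one]
      apply Units.ext
      rw [pow_mul]
      push_cast
      rw [hf, hz]
    have hd2 : q - 1 ∣ f := by
      rw [mul_comm f] at hd
      exact Nat.dvd_of_mul_dvd_mul_left (by omega) hd
    obtain ⟨e, rfl⟩ := hd2
    by_cases hre : r ∣ e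
    · left
      obtain ⟨e', rfl⟩ := hre
      refine ⟨(θ : F) ^ ((q - 1) * e'), ?_, ?_⟩
      · rw [← pow_mul]
        have h1 : (θ : F) ^ ((q + 1) * (q - 1)) = 1 := by
          have := pow_orderOf_eq_one θ
          rw [hord] at this
          have h3 := congrArg Units.val this
          simpa using h3
        have e2 : (q - 1) * e' * (q + 1) = (q + 1) * (q - 1) * e' := by ring
        rw [e2, pow_mul, h1, one_pow]
      · rw [← pow_mul, ← hf]
        congr 1
        ring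
    · right
      refine ⟨hrq, ?_⟩
      intro b hb
      have hb0 : b ≠ 0 := by
        rintro rfl
        rw [zero_pow hprime.ne_zero] at hb
        exact hz0 hb.symm
      obtain ⟨g, hg⟩ := hexp b hb0
      have h1 : θ ^ (g * r) = θ ^ ((q - 1) * e) := by
        apply Units.ext
        push_cast
        rw [pow_mul, hg, hb, hf]
      have hfin : IsOfFinOrder θ := isOfFinOrder_of_finite θ
      rw [hfin.pow_eq_pow_iff_modEq, hord] at h1
      have h2 : g * r ≡ (q - 1) * e [MOD r] := h1.of_dvd (Dvd.dvd.mul_right hrq _)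
      have h3 : r ∣ (q - 1) * e := by
        have h4 : g * r ≡ 0 [MOD r] := (Nat.modEq_zero_iff_dvd).2 (Dvd.intro_left g rfl)
        exact (Nat.modEq_zero_iff_dvd).1 (h2.symm.trans h4)
      rcases (Nat.Prime.dvd_mul hprime).1 h3 with h5 | h5
      · exact hrnq h5
      · exact hre h5
  · left
    have hco : Nat.Coprime r (q + 1) := (Nat.Prime.coprime_iff_not_dvd hprime).2 hrq
    obtain ⟨u, -, hu⟩ := Nat.exists_mul_mod_eq_one_of_coprime hco (by omega)
    refine ⟨z ^ u, ?_, ?_⟩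
    · rw [← pow_mul, mul_comm, pow_mul, hz, one_pow]
    · rw [← pow_mul, mul_comm]
      have h1 := Nat.div_add_mod (r * u) (q + 1)
      rw [hu] at h1
      rw [← h1, pow_add, pow_mul, hz, one_pow, one_mul, pow_one]

/-- The reduction to elements of order dividing `r`. -/
theorem suff_M (p : ℕ) [Fact p.Prime] [CharP F p] [hrp : Fact r.Prime] (hF : Fintype.card F = q ^ 2) (hr : (r : F) ≠ 0)
    (hrp' : r ≠ p) (hmn : 2 * m ≤ n) (hdich : (∀ j, dlU hF hr hrp.out.ne_zero j = j) ∨ (∀ j, dlU hF hr hrp.out.ne_zero j ≠ j))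
    {M : Matrix (Fin n) (Fin n) F} {w : F}
    (Hyp : ∀ a : ↥(Idx F r) → ℕ, orderOf ((Fintype.card F : ℕ) : ZMod r) * ∑ j, a j ≤ n →
      (∀ j, a (dlU hF hr hrp.out.ne_zero j) = a j) → (w⁻¹ • M).charpoly = Pa F r n a →
      2 * (m % orderOf ((Fintype.card F : ℕ) : ZMod r)) ≤ n - orderOf ((Fintype.card F : ℕ) : ZMod r) * ∑ j, a j ∧
      2 * m + orderOf ((Fintype.card F : ℕ) : ZMod r) *
        (Finset.univ.filter fun j => dlU hF hr hrp.out.ne_zero j = j ∧ Odd (a j)).card ≤ n)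
    (hM : ∀ u v, hermForm n F q (M *ᵥ u) (M *ᵥ v) = hermForm n F q u v) {z : F}
    (hz : M ^ r = z • (1 : Matrix (Fin n) (Fin n) F)) (hw : w ^ (q + 1) = 1) (hwz : w ^ r = z) :
    ∃ W : Submodule F (Fin n → F), finrank F W = m ∧ (∀ u ∈ W, ∀ v ∈ W, hermForm n F q u v = 0) ∧
      W.map (Matrix.toLin' M) ≤ W := by
  have hprime : r.Prime := hrp.out
  have hr0 := hprime.ne_zero
  have hw0 : w ≠ 0 := by
    rintro rfl
    rw [zero_pow (by omega)] at hw
    exact zero_ne_one hw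
  have hwi : (w⁻¹) ^ (q + 1) = 1 := by
    rw [inv_pow, hw, inv_one]
  obtain ⟨y, hy⟩ : ∃ y : Matrix (Fin n) (Fin n) F, y = w⁻¹ • M := ⟨_, rfl⟩
  have hyiso : ∀ u v, hermForm n F q (y *ᵥ u) (y *ᵥ v) = hermForm n F q u v := by
    rw [hy]
    exact iso_smul hF hM hwi
  have hyr : y ^ r = 1 := by
    rw [hy, _root_.smul_pow, hz, inv_pow, hwz, smul_smul]
    have hz0 : z ≠ 0 := by
      rw [← hwz]
      exact pow_ne_zero _ hw0
    rw [inv_mul_cancel₀ hz0, one_smul]
  have hMy : M = w • y := by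
    rw [hy, smul_smul, mul_inv_cancel₀ hw0, one_smul]
  obtain ⟨Y, hY⟩ : ∃ Y : ↥(GU n F q), Y = Cfsg.Agent.Lib.UnitarySU.GUofMatrix hF y hyiso := ⟨_, rfl⟩
  have hYv : ((Y : GL (Fin n) F) : Matrix (Fin n) (Fin n) F) = y := by
    rw [hY]
    exact Cfsg.Agent.Lib.UnitarySU.GUofMatrix_val hF y hyiso
  have hmonic := Matrix.charpoly_monic y
  have hdeg : y.charpoly.natDegree = n := by
    rw [Matrix.charpoly_natDegree_eq_dim, Fintype.card_fin]
  obtain ⟨a, ha, hc⟩ := exists_Pa (n := n) hr hmonic hdeg (fun f hf hfd => dvd_of_pow_eq_one hr hyr hf hfd)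
  have hst : st q y * y = 1 := by
    have h5 := st_mul_self_of_mem hF Y.2
    rwa [hYv] at h5
  have hsym := symm_of_unitary hF hr hr0 hst hc
  obtain ⟨H1, H2⟩ := Hyp a ha hsym (by rw [← hy]; exact hc)
  obtain ⟨W, hWm, hW, hWinv⟩ := suff_y (q := q) p hF hr hrp' hr0 (b_pos hr) Y (by rw [hYv]; exact hyr) hmn hdich
    (by rw [hYv]; exact hc) ha H1 H2
  rw [hYv] at hWinv
  refine ⟨W, hWm, hW, ?_⟩
  rw [hMy]
  exact inv_smul w hWinv

end Cfsg.Agent.Lib.TIU
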