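import Mathlib
import Cfsg.Agent.Lib.TIUSuff

/-!
# Existence of fixed totally isotropic subspaces: non-powers and involutions
-/

set_option autoImplicit false
set_option linter.unusedSectionVars false
set_option linter.unusedSimpArgs false
set_option linter.unusedVariables false

namespace Cfsg.Agent.Lib.TIU

open Module Polynomial Matrix Cfsg
open Cfsg.Agent.Lib.HermForm Cfsg.Agent.Lib.HermCount Cfsg.Agent.Lib.UnitaryConjGU
  Cfsg.Agent.Lib.SelfDual Cfsg.Agent.Lib.DualFactors Cfsg.Agent.Lib.GUParab Cfsg.Agent.Lib.HermFrame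
  Cfsg.Agent.Lib.PrimeFactors Cfsg.Agent.Lib.SemisimpleGL

open scoped Classical

universe u

variable {F : Type u} [Field F] [Fintype F] {q r n m : ℕ}

theorem Dl_X_pow_sub_C (hF : Fintype.card F = q ^ 2) (hr0 : r ≠ 0) {z : F} (hzq : z ^ (q + 1) = 1) :
    Dl (Cfsg.Agent.Lib.UnitaryBasic.sigma hF) (X ^ r - C z) = X ^ r - C z := by
  have hz0 : z ≠ 0 := by
    rintro rfl
    rw [zero_pow (by omega)] at hzq
    exact zero_ne_one hzq
  have hP0 : (X ^ r - C z : F[X]).coeff 0 = -z := by
    rw [coeff_sub, coeff_C_zero, coeff_X_pow, if_neg (Ne.symm hr0), zero_sub]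
  have hzq0 : z ^ q ≠ 0 := pow_ne_zero _ hz0
  have h1 : z ^ q * z = 1 := by
    rw [← pow_succ]
    exact hzq
  have hinv : (z ^ q)⁻¹ = z := inv_eq_of_mul_eq_one_right h1
  have h2 : (X ^ r - C z : F[X]).map (Cfsg.Agent.Lib.UnitaryBasic.sigma hF) = X ^ r - C (z ^ q) := by
    simp
  have h3 : (X ^ r - C (z ^ q) : F[X]).reverse = 1 - C (z ^ q) * X ^ r := by
    have e1 : reflect r (X ^ r : F[X]) = 1 := by
      simpa using reflect_monomial (R := F) r r
    rw [reverse, natDegree_X_pow_sub_C, reflect_sub, e1, reflect_C]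
  unfold Dl
  rw [h2, h3, hP0, map_neg, Cfsg.Agent.Lib.UnitaryBasic.sigma_apply, inv_neg, C_neg, mul_sub, mul_one]
  have h5 : (C (z ^ q)⁻¹ : F[X]) * (C (z ^ q) * X ^ r) = X ^ r := by
    rw [← mul_assoc, ← C_mul, inv_mul_cancel₀ hzq0, C_1, one_mul]
  rw [neg_mul, h5, hinv]
  ring

/-- Non-power scalars. -/
theorem suff_nonpower (p : ℕ) [hpp : Fact p.Prime] [CharP F p] [hrp : Fact r.Prime] (hF : Fintype.card F = q ^ 2)
    (hrp' : r ≠ p) (hr2 : r ≠ 2) (hrq : r ∣ q + 1) (hmn : 2 * m ≤ n) (hn1 : 1 ≤ n) {M : Matrix (Fin n) (Fin n) F}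
    (hdet : M.det = 1) (hM : ∀ u v, hermForm n F q (M *ᵥ u) (M *ᵥ v) = hermForm n F q u v) {z : F}
    (hz : M ^ r = z • (1 : Matrix (Fin n) (Fin n) F)) (hc : ∀ b : F, b ^ r ≠ z)
    (hm : r ∣ m ∨ padicValNat r n ≤ padicValNat r (q + 1)) :
    ∃ W : Submodule F (Fin n → F), finrank F W = m ∧ (∀ u ∈ W, ∀ v ∈ W, hermForm n F q u v = 0) ∧
      W.map (Matrix.toLin' M) ≤ W := by
  have hprime : r.Prime := hrp.out
  have hq : 2 ≤ q := two_le_q hF
  have hzq := scalar_norm hF hn1 hM hz
  have hz0 : z ≠ 0 := by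
    rintro rfl
    rw [zero_pow (by omega)] at hzq
    exact zero_ne_one hzq
  have hx : (Matrix.toLin' M : (Fin n → F) →ₗ[F] (Fin n → F)) ^ r = z • 1 := by
    have := congrArg (Matrix.toLinAlgEquiv' (R := F) (n := Fin n)) hz
    rw [map_pow, map_smul, map_one] at this
    exact this
  obtain ⟨k, hk, hdetk⟩ := Cfsg.Agent.Lib.ElusiveCore.det_of_pow_eq hprime hx hc
  rw [finrank_fin_fun] at hk
  rw [LinearMap.det_toLin', hdet] at hdetk
  have hodd : Odd r := hprime.odd_of_ne_two hr2
  have he : Even (r + 1) := hodd.add_one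
  rw [he.neg_one_pow, one_mul] at hdetk
  have hzk : z ^ k = 1 := hdetk.symm
  have hk0 : k ≠ 0 := by
    rintro rfl
    omega
  have hq1 : (Fintype.card F - 1) = (q + 1) * (q - 1) := by
    rw [hF]
    obtain ⟨c, rfl⟩ : ∃ c, q = c + 1 := ⟨q - 1, by omega⟩
    simp only [Nat.add_sub_cancel]
    have : (c + 1) ^ 2 = (c + 1 + 1) * c + 1 := by ring
    omega
  rcases hm with hm | hv
  · obtain ⟨m', rfl⟩ := hm
    have hP := X_pow_sub_C_irreducible_of_prime hprime hc
    have hPm : (X ^ r - C z : F[X]).Monic := monic_X_pow_sub_C z hprime.ne_zero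
    have hPd : (X ^ r - C z : F[X]).natDegree = r := natDegree_X_pow_sub_C
    have hP00 : (X ^ r - C z : F[X]).coeff 0 ≠ 0 := by
      rw [coeff_sub, coeff_C_zero, coeff_X_pow, if_neg (Ne.symm hprime.ne_zero), zero_sub]
      exact neg_ne_zero.2 hz0
    -- the order
    obtain ⟨N, hN⟩ : ∃ N, N = r * (Fintype.card F - 1) := ⟨_, rfl⟩
    have hMN : M ^ N = 1 := by
      rw [hN, pow_mul, hz, _root_.smul_pow, one_pow, FiniteField.pow_card_sub_one_eq_one z hz0, one_smul]
    have hNco : N.Coprime p := by
      rw [hN]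
      apply Nat.Coprime.mul_left ((Nat.coprime_primes hprime hpp.out).2 hrp')
      rw [Nat.coprime_comm, Nat.Prime.coprime_iff_not_dvd hpp.out]
      intro hd
      obtain ⟨f, -, hf⟩ := FiniteField.card F p
      have h1 : p ∣ Fintype.card F := by
        rw [hf]
        exact dvd_pow_self p f.ne_zero
      have h2 : 1 ≤ Fintype.card F := Fintype.card_pos
      have h3 : p ∣ 1 := by
        have h4 : Fintype.card F = (Fintype.card F - 1) + 1 := by omega
        rw [h4] at h1
        exact (Nat.dvd_add_right hd).1 h1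
      exact hpp.out.one_lt.ne' (Nat.dvd_one.1 h3)
    obtain ⟨k', hk'⟩ := charpoly_eq_pow (cast_ne_of_coprime (F := F) p hNco) hMN hprime.ne_zero hP hz
    have hkk : k' = k := by
      have h1 := congrArg natDegree hk'
      rw [Matrix.charpoly_natDegree_eq_dim, Fintype.card_fin, natDegree_pow, hPd] at h1
      have h2 : r * k' = r * k := by
        rw [← hk, h1]
        ring
      exact Nat.eq_of_mul_eq_mul_left hprime.pos h2
    rw [hkk] at hk'
    have h2m : 2 * m' ≤ k := by
      have h1 : r * (2 * m') ≤ r * k := by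
        rw [← hk]
        calc r * (2 * m') = 2 * (r * m') := by ring
          _ ≤ n := hmn
      exact Nat.le_of_mul_le_mul_left h1 hprime.pos
    obtain ⟨Y, hY⟩ : ∃ Y : ↥(GU n F q), Y = Cfsg.Agent.Lib.UnitarySU.GUofMatrix hF M hM := ⟨_, rfl⟩
    have hYv : ((Y : GL (Fin n) F) : Matrix (Fin n) (Fin n) F) = M := by
      rw [hY]
      exact Cfsg.Agent.Lib.UnitarySU.GUofMatrix_val hF M hM
    have hord : (orderOf Y).Coprime p := by
      have h1 : Y ^ N = 1 := by
        apply Subtype.ext
        apply Units.ext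
        rw [Subgroup.coe_pow, Units.val_pow_eq_pow_val, hYv]
        exact hMN
      exact Nat.Coprime.coprime_dvd_left (orderOf_dvd_of_pow_eq_one h1) hNco
    have hDP := Dl_X_pow_sub_C (r := r) hF hprime.ne_zero hzq
    obtain ⟨P, hPdef⟩ : ∃ P : F[X], P = X ^ r - C z := ⟨_, rfl⟩
    rw [← hPdef] at hP hPm hPd hP00 hk' hDP
    have hDg : Dl (Cfsg.Agent.Lib.UnitaryBasic.sigma hF) (P ^ m') = P ^ m' := by
      rw [← DlHom_apply, map_pow, DlHom_apply, hDP]
    have hcoeff : ∀ j, (P ^ j).coeff 0 ≠ 0 := by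
      intro j
      rw [coeff_zero_eq_eval_zero, eval_pow, ← coeff_zero_eq_eval_zero]
      exact pow_ne_zero _ hP00
    have hsd : SD hF (P ^ (k - 2 * m')) := by
      rw [sd_iff_Dl hF (hcoeff _), ← DlHom_apply, map_pow, DlHom_apply, hDP]
    have hW := exists_inv_of_factor (m := r * m') (d := r * (k - 2 * m')) p hF (by
        rw [hk]
        have : k = 2 * m' + (k - 2 * m') := by omega
        calc r * k = r * (2 * m' + (k - 2 * m')) := by rw [← this]
          _ = _ := by ring) Y hord (g := P ^ m') (f₀ := P ^ (k - 2 * m')) (hPm.pow _)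
      (by rw [natDegree_pow, hPd, mul_comm]) (hcoeff _) (hPm.pow _) (by rw [natDegree_pow, hPd, mul_comm]) (hcoeff _) hsd
      (by
        rw [hYv, hk', hDg, ← pow_add, ← pow_add]
        congr 1
        omega)
    rw [hYv] at hW
    exact hW
  · exfalso
    have h1 := Cfsg.Agent.Lib.ElusiveBuild.val_le_of_nonpower hc hk0 hzk
    have hne : Fintype.card F - 1 ≠ 0 := by
      rw [hq1]
      exact mul_ne_zero (by omega) (by omega)
    have h2 : padicValNat r (q + 1) ≤ padicValNat r (Fintype.card F - 1) := by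
      rw [← padicValNat_dvd_iff_le hne, hq1]
      exact Dvd.dvd.mul_right pow_padicValNat_dvd _
    have h3 : padicValNat r n = 1 + padicValNat r k := by
      rw [hk, padicValNat.mul hprime.ne_zero hk0, padicValNat_self]
    omega

/-- `2`-parts and roots of `-1`. -/
theorem two_val_false {w : F} {q n : ℕ} (hw : w ^ (q + 1) = 1) (hn0 : n ≠ 0) (hwn : w ^ n = -1) (hm1 : (-1 : F) ≠ 1)
    (hv : padicValNat 2 (q + 1) ≤ padicValNat 2 n) : False := by
  obtain ⟨a, s, hs, hqs⟩ := Nat.exists_eq_two_pow_mul_odd (n := q + 1) (by omega)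
  have hs0 : s ≠ 0 := by
    rintro rfl
    simp at hs
  have hva : padicValNat 2 (q + 1) = a := by
    rw [hqs, padicValNat.mul (by positivity) hs0, padicValNat.prime_pow, padicValNat.eq_zero_of_not_dvd (fun hd => by
        obtain ⟨c, hc⟩ := hs
        obtain ⟨e, he⟩ := hd
        omega), add_zero]
  rw [hva] at hv
  obtain ⟨c, hc⟩ : 2 ^ a ∣ n := (padicValNat_dvd_iff_le hn0).2 hv
  have h1 : w ^ (n * s) = 1 := by
    have e : n * s = (q + 1) * c := by
      rw [hqs, hc]
      ring
    rw [e, pow_mul, hw, one_pow]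
  rw [pow_mul, hwn, hs.neg_one_pow] at h1
  exact hm1 h1

/-- Totally isotropic subspaces have at most half the dimension. -/
theorem two_finrank_le (hF : Fintype.card F = q ^ 2) {W : Submodule F (Fin n → F)}
    (hW : ∀ u ∈ W, ∀ v ∈ W, hermForm n F q u v = 0) : 2 * finrank F W ≤ n := by
  classical
  let b := Module.finBasis F W
  let f : Fin (finrank F W) → Fin n → F := fun i => (b i : Fin n → F)
  have hf : LinearIndependent F f := b.linearIndependent.map' W.subtype (Submodule.ker_subtype W)
  have h1 := finrank_perpT (q := q) hF hf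
  have h2 : W ≤ perpT q f := by
    intro u hu
    rw [mem_perpT]
    intro i
    exact hW u hu _ (b i).2
  have h3 := Submodule.finrank_mono h2
  omega

/-- Involutions modulo scalars. -/
theorem suff_two (p : ℕ) [hpp : Fact p.Prime] [CharP F p] (hF : Fintype.card F = q ^ 2) (hp2 : p ≠ 2)
    (hmn : 2 * m ≤ n) (hn1 : 1 ≤ n) (hnum : 2 * m < n ∨ padicValNat 2 n ≥ padicValNat 2 (q + 1)) {M : Matrix (Fin n) (Fin n) F}
    (hdet : M.det = 1) (hM : ∀ u v, hermForm n F q (M *ᵥ u) (M *ᵥ v) = hermForm n F q u v) {z : F}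
    (hz : M ^ 2 = z • (1 : Matrix (Fin n) (Fin n) F)) :
    ∃ W : Submodule F (Fin n → F), finrank F W = m ∧ (∀ u ∈ W, ∀ v ∈ W, hermForm n F q u v = 0) ∧
      W.map (Matrix.toLin' M) ≤ W := by
  have hq : 2 ≤ q := two_le_q hF
  have hF2 : (2 : F) ≠ 0 := by
    intro h2
    have h3 : ((2 : ℕ) : F) = 0 := by exact_mod_cast h2
    rw [CharP.cast_eq_zero_iff F p] at h3
    exact hp2 ((Nat.prime_dvd_prime_iff_eq hpp.out Nat.prime_two).1 h3)
  have hr : ((2 : ℕ) : F) ≠ 0 := by exact_mod_cast hF2
  have hm1 : (-1 : F) ≠ 1 := by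
    intro h1
    apply hF2
    linear_combination -h1
  have hzq := scalar_norm hF hn1 hM hz
  have hz0 : z ≠ 0 := by
    rintro rfl
    rw [zero_pow (by omega)] at hzq
    exact zero_ne_one hzq
  -- `q` is odd
  have hqodd : Odd q := by
    by_contra hne
    rw [Nat.not_odd_iff_even] at hne
    have h1 : ((q : ℕ) : F) = 0 := by
      obtain ⟨f, -, hf⟩ := FiniteField.card F p
      have h2 : p ∣ q := by
        have h3 : p ∣ q ^ 2 := by
          rw [← hF, hf]
          exact dvd_pow_self p f.ne_zero
        exact hpp.out.dvd_of_dvd_pow h3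
      exact (CharP.cast_eq_zero_iff F p q).2 h2
    obtain ⟨f, -, hf⟩ := FiniteField.card F p
    have h2 : 2 ∣ p ^ (f : ℕ) := by
      rw [← hf, hF]
      exact Dvd.dvd.pow hne.two_dvd two_ne_zero
    have h3 := Nat.prime_two.dvd_of_dvd_pow h2
    exact hp2 ((Nat.prime_dvd_prime_iff_eq Nat.prime_two hpp.out).1 h3).symm
  have hsq : IsSquare z := by
    have hchar : ringChar F ≠ 2 := by
      rw [ringChar.eq F p]
      exact hp2
    rw [FiniteField.isSquare_iff hchar hz0, hF]
    obtain ⟨c, rfl⟩ := hqodd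
    have e : (2 * c + 1) ^ 2 / 2 = (2 * c + 1 + 1) * c := by
      have : (2 * c + 1) ^ 2 = 2 * ((2 * c + 1 + 1) * c) + 1 := by ring
      rw [this]
      omega
    rw [e, pow_mul, hzq, one_pow]
  obtain ⟨w, hw⟩ := hsq
  have hw2 : w ^ 2 = z := by
    rw [hw]
    ring
  have hw0 : w ≠ 0 := by
    rintro rfl
    apply hz0
    rw [hw]
    ring
  have hlam : (w ^ (q + 1) - 1) * (w ^ (q + 1) + 1) = 0 := by
    have h1 : (w ^ (q + 1)) ^ 2 = 1 := by
      rw [← pow_mul, mul_comm, pow_mul, hw2, hzq]
    linear_combination h1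
  haveI : Fact (Nat.Prime 2) := ⟨Nat.prime_two⟩
  rcases mul_eq_zero.1 hlam with hl | hl
  · -- the case of norm one
    have hl1 : w ^ (q + 1) = 1 := sub_eq_zero.1 hl
    have hcard := card_Idx (F := F) (r := 2) hr
    have hb1 : orderOf ((Fintype.card F : ℕ) : ZMod 2) = 1 := by
      have h1 : Fintype.card ↥(Idx F 2) * orderOf ((Fintype.card F : ℕ) : ZMod 2) = 1 := hcard
      exact Nat.eq_one_of_mul_eq_one_left h1
    have hcard1 : Fintype.card ↥(Idx F 2) = 1 := by
      have h1 : Fintype.card ↥(Idx F 2) * orderOf ((Fintype.card F : ℕ) : ZMod 2) = 1 := hcard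
      exact Nat.eq_one_of_mul_eq_one_right h1
    have hsub : Subsingleton ↥(Idx F 2) := (Fintype.card_le_one_iff_subsingleton).1 hcard1.le
    refine suff_M (r := 2) (z := z) (w := w) p hF hr (Ne.symm hp2) hmn (Or.inl fun j => Subsingleton.elim _ _) ?_ hM hz hl1 hw2
    intro a _ _ hc
    rw [hb1, one_mul, one_mul]
    refine ⟨?_, ?_⟩
    · rw [Nat.mod_one]
      simp
    · -- the parity argument
      rcases hnum with hlt | hv
      · have h1 : (Finset.univ.filter fun j => dlU hF hr (Fact.out : Nat.Prime 2).ne_zero j = j ∧ Odd (a j)).card ≤ 1 := by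
          refine le_trans (Finset.card_le_univ _) hcard1.le
        omega
      · -- every multiplicity is even
        have hmul : ∀ j, ¬ Odd (a j) := by
          intro j hodd
          -- the unique factor
          have hj : ∀ j' : ↥(Idx F 2), (j' : F[X]) = X + 1 := by
            intro j'
            obtain ⟨hi, hmon, hd⟩ := (mem_Idx (by norm_num)).1 j'.2
            have hPsi : Psi F 2 = X + 1 := by
              simp [Psi, Finset.sum_range_succ, add_comm]
            rw [hPsi] at hd
            have hirr : Irreducible (X + 1 : F[X]) := by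
              have := irreducible_X_sub_C (-1 : F)
              simpa using this
            exact eq_of_monic_of_associated hmon (by
              have := monic_X_sub_C (-1 : F)
              simpa using this) (hi.associated_of_dvd hirr hd)
          have hsum : ∑ j', a j' = a j := by
            apply Finset.sum_eq_single
            · intro j' _ hne
              exact absurd (Subsingleton.elim _ _) hne
            · intro h
              exact absurd (Finset.mem_univ _) h
          -- the determinant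
          have hdety : (w⁻¹ • M).det = -1 := by
            have h1 := Matrix.det_eq_sign_charpoly_coeff (w⁻¹ • M)
            rw [hc, coeff_zero_eq_eval_zero, Fintype.card_fin, Pa, hb1, one_mul, hsum, eval_mul, eval_pow, eval_sub,
              eval_X, eval_one, eval_prod] at h1
            have h2 : ∏ j' : ↥(Idx F 2), eval 0 ((j' : F[X]) ^ a j') = 1 := by
              refine Finset.prod_eq_one fun j' _ => ?_
              rw [eval_pow, hj]
              simp
            rw [h2, mul_one, zero_sub] at h1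
            rw [h1, ← pow_add]
            have hsub' : a j ≤ n := by
              have := ‹orderOf ((Fintype.card F : ℕ) : ZMod 2) * ∑ j, a j ≤ n›
              rw [hb1, one_mul, hsum] at this
              exact this
            have hodd2 : Odd (n + (n - a j)) := by
              obtain ⟨c, hc'⟩ := hodd
              exact ⟨n - c - 1, by omega⟩
            exact hodd2.neg_one_pow
          have hdetM : M = w • (w⁻¹ • M) := by
            rw [smul_smul, mul_inv_cancel₀ hw0, one_smul]
          have hwn : w ^ n = -1 := by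
            have h3 : (w • (w⁻¹ • M)).det = 1 := by
              rw [← hdetM]
              exact hdet
            rw [Matrix.det_smul, Fintype.card_fin, hdety] at h3
            linear_combination -h3
          exact two_val_false hl1 (by omega) hwn hm1 hv
        have h1 : (Finset.univ.filter fun j => dlU hF hr (Fact.out : Nat.Prime 2).ne_zero j = j ∧ Odd (a j)).card = 0 := by
          rw [Finset.card_eq_zero, Finset.filter_eq_empty_iff]
          intro j _ h
          exact hmul j h.2
        rw [h1]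
        omega
  · -- the case of norm `-1`
    have hl1 : w ^ (q + 1) = -1 := eq_neg_of_add_eq_zero_left hl
    obtain ⟨y, hy⟩ : ∃ y : Matrix (Fin n) (Fin n) F, y = w⁻¹ • M := ⟨_, rfl⟩
    have hMy : M = w • y := by
      rw [hy, smul_smul, mul_inv_cancel₀ hw0, one_smul]
    have hy2 : y ^ 2 = 1 := by
      rw [hy, _root_.smul_pow, hz, inv_pow, hw2, smul_smul, inv_mul_cancel₀ hz0, one_smul]
    have hyscale : ∀ u v, hermForm n F q (y *ᵥ u) (y *ᵥ v) = - hermForm n F q u v := by
      intro u v
      rw [hy, Matrix.smul_mulVec, Matrix.smul_mulVec, hermForm_smul_left, hermForm_smul_right, hM, ← mul_assoc, ← pow_succ',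
        inv_pow, hl1]
      simp
    obtain ⟨T, hT⟩ : ∃ T : (Fin n → F) →ₗ[F] (Fin n → F), T = Matrix.toLin' y := ⟨_, rfl⟩
    have hTv : ∀ v, T v = y *ᵥ v := by
      intro v
      rw [hT, Matrix.toLin'_apply]
    have hT2 : ∀ v, T (T v) = v := by
      intro v
      rw [hTv, hTv, Matrix.mulVec_mulVec, ← pow_two, hy2, Matrix.one_mulVec]
    have hcop : IsCoprime (X - 1 : F[X]) (X + 1) := by
      have h1 := Polynomial.isCoprime_X_sub_C_of_isUnit_sub (R := F) (a := 1) (b := -1) (by
        rw [sub_neg_eq_add, one_add_one_eq_two]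
        exact hF2.isUnit)
      simpa using h1
    have hdec := Cfsg.Agent.Lib.ElusiveCore.finrank_inf_decomp T (W := ⊤) le_top hcop (by
      intro v _
      have e : (X - 1 : F[X]) * (X + 1) = X ^ 2 - 1 := by ring
      rw [e]
      simp only [map_sub, map_pow, aeval_X, map_one, LinearMap.sub_apply, Module.End.one_apply]
      rw [pow_two, Module.End.mul_apply, hT2, sub_self])
    rw [finrank_top, Module.finrank_fin_fun, top_inf_eq, top_inf_eq] at hdec
    have hmem1 : ∀ v, v ∈ LinearMap.ker (aeval T (X - 1 : F[X])) ↔ T v = v := by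
      intro v
      rw [LinearMap.mem_ker]
      simp [sub_eq_zero]
    have hmem2 : ∀ v, v ∈ LinearMap.ker (aeval T (X + 1 : F[X])) ↔ T v = -v := by
      intro v
      rw [LinearMap.mem_ker]
      simp [eq_neg_iff_add_eq_zero]
    have hdouble : ∀ c : F, c = - c → c = 0 := by
      intro c hc
      have h2 : (2 : F) * c = 0 := by linear_combination hc
      exact (mul_eq_zero.1 h2).resolve_left hF2
    have hTI1 : ∀ u ∈ LinearMap.ker (aeval T (X - 1 : F[X])), ∀ v ∈ LinearMap.ker (aeval T (X - 1 : F[X])),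
        hermForm n F q u v = 0 := by
      intro u hu v hv
      apply hdouble
      have h1 := hyscale u v
      rw [← hTv, ← hTv, (hmem1 u).1 hu, (hmem1 v).1 hv] at h1
      exact h1
    have hTI2 : ∀ u ∈ LinearMap.ker (aeval T (X + 1 : F[X])), ∀ v ∈ LinearMap.ker (aeval T (X + 1 : F[X])),
        hermForm n F q u v = 0 := by
      intro u hu v hv
      apply hdouble
      have h1 := hyscale u v
      rw [← hTv, ← hTv, (hmem2 u).1 hu, (hmem2 v).1 hv] at h1
      have h2 : hermForm n F q (-u) (-v) = hermForm n F q u v := by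
        have e1 : -u = (-1 : F) • u := by simp
        have e2 : -v = (-1 : F) • v := by simp
        rw [e1, e2, hermForm_smul_left, hermForm_smul_right, hqodd.neg_one_pow]
        ring
      rw [h2] at h1
      exact h1
    have hb1 := two_finrank_le (q := q) hF hTI1
    have hb2 := two_finrank_le (q := q) hF hTI2
    obtain ⟨W, -, hWle, hWinv, hWm⟩ := Cfsg.Agent.Lib.ElusiveCore.chain_exists (f := T) (g := (X - 1 : F[X])) (i := 1)
      (by
        have := X_sub_C_ne_zero (1 : F)
        simpa using this)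
      (fun π hπ hd => Cfsg.Agent.Lib.ElusiveCore.natDegree_of_dvd_X_sub_one hπ hd) le_rfl
      (W₀ := ⊥) (W₁ := LinearMap.ker (aeval T (X - 1 : F[X]))) (by simp)
      (Cfsg.Agent.Lib.ElusiveCore.ker_aeval_inv T _) bot_le (fun v hv => hv) m (by
        rw [finrank_bot]
        omega)
    refine ⟨W, by rw [hWm, finrank_bot]; omega, fun u hu v hv => hTI1 u (hWle hu) v (hWle hv), ?_⟩
    rw [hMy]
    apply inv_smul
    rw [← hT]
    exact hWinv

end Cfsg.Agent.Lib.TIU
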