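import Mathlib
import Cfsg.Agent.Lib.TIUSuff2
import Cfsg.Agent.Lib.TIUCount

/-!
# The elusive criterion for totally isotropic subspaces of a unitary space
-/

set_option autoImplicit false
set_option linter.unusedSectionVars false
set_option linter.unusedSimpArgs false
set_option linter.unusedVariables false

namespace Cfsg.Agent.Lib.TIU

open Module Polynomial Matrix Cfsg
open Cfsg.Agent.Lib.HermForm Cfsg.Agent.Lib.HermCount Cfsg.Agent.Lib.UnitaryConjGU
  Cfsg.Agent.Lib.SelfDual Cfsg.Agent.Lib.DualFactors Cfsg.Agent.Lib.GUParab Cfsg.Agent.Lib.HermFrame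
  Cfsg.Agent.Lib.PrimeFactors Cfsg.Agent.Lib.SemisimpleGL

open scoped Classical

universe u

variable {F : Type u} [Field F] [Fintype F] {q r n m : ℕ}

/-- A totally isotropic subspace of the right dimension exists. -/
theorem exists_TI (p : ℕ) [Fact p.Prime] [CharP F p] [hrp : Fact r.Prime] (hF : Fintype.card F = q ^ 2) (hr : (r : F) ≠ 0)
    (hmn : 2 * m ≤ n) :
    ∃ W : Submodule F (Fin n → F), finrank F W = m ∧ ∀ u ∈ W, ∀ v ∈ W, hermForm n F q u v = 0 := by
  obtain ⟨W, h1, h2, -⟩ := key_backward (n := n) (m := m) (r := r) p hF hr 1 (by simp) (a := 0)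
    (by
      have h0 : (1 : Matrix (Fin n) (Fin n) F).charpoly = (X - 1) ^ n := by
        rw [Matrix.charpoly_one, Fintype.card_fin]
      simp only [Pa, Pi.zero_apply, Finset.sum_const_zero, mul_zero, Nat.sub_zero, pow_zero, Finset.prod_const_one, mul_one]
      simpa using h0)
    (by simp) hmn 0 (by simp) (by simp) (by simpa using hmn)
  exact ⟨W, h1, h2⟩

/-- Translation of the hypothesis. -/
theorem lhs_iff_LHSP (p : ℕ) [Fact p.Prime] [CharP F p] [hrp : Fact r.Prime] (hF : Fintype.card F = q ^ 2) (hr : (r : F) ≠ 0)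
    (hmn : 2 * m ≤ n) :
    (∀ x : Matrix.SpecialLinearGroup (Fin n) F, x ∈ Cfsg.SU n F q →
      (∃ z : F, ((x ^ r : Matrix.SpecialLinearGroup (Fin n) F) : Matrix (Fin n) (Fin n) F) = z • (1 : Matrix (Fin n) (Fin n) F)) →
      (∀ z : F, (x : Matrix (Fin n) (Fin n) F) ≠ z • (1 : Matrix (Fin n) (Fin n) F)) →
      ∃ W : Submodule F (Fin n → F), Module.finrank F ↥W = m ∧ (∀ u ∈ W, ∀ v ∈ W, Cfsg.hermForm n F q u v = 0) ∧
        W.map (Matrix.toLin' (x : Matrix (Fin n) (Fin n) F)) ≤ W) ↔ LHSP F q r n m := by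
  constructor
  · rintro hL M hdet hiso ⟨z, hz⟩
    by_cases hsc : ∃ c : F, M = c • (1 : Matrix (Fin n) (Fin n) F)
    · obtain ⟨c, rfl⟩ := hsc
      obtain ⟨W, h1, h2⟩ := exists_TI (n := n) (m := m) p hF hr hmn
      refine ⟨W, h1, h2, inv_smul c ?_⟩
      rw [Matrix.toLin'_one, Submodule.map_id]
    · let x : Matrix.SpecialLinearGroup (Fin n) F := ⟨M, hdet⟩
      have hx : x ∈ Cfsg.SU n F q := fun u v => hiso u v
      refine hL x hx ⟨z, ?_⟩ (fun c hc => hsc ⟨c, hc⟩)
      rw [Matrix.SpecialLinearGroup.coe_pow]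
      exact hz
  · rintro hP x hx ⟨z, hz⟩ -
    refine hP x.1 x.2 (fun u v => hx u v) ⟨z, ?_⟩
    rw [← hz, Matrix.SpecialLinearGroup.coe_pow]

/-- The involution case. -/
theorem main_two (p : ℕ) [Fact p.Prime] [CharP F p] [hrp : Fact r.Prime] (hF : Fintype.card F = q ^ 2) (hr2 : r = 2) (hr : (r : F) ≠ 0)
    (hrpne : r ≠ p) (hm : 1 ≤ m) (hmn : 2 * m ≤ n) :
    LHSP F q r n m ↔ (2 * m < n ∨ padicValNat 2 (q + 1) ≤ padicValNat 2 n) := by
  have hp2 : p ≠ 2 := fun h => hrpne (hr2.trans h.symm)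
  subst hr2
  constructor
  · intro h
    by_contra hcon
    push Not at hcon
    exact two_numeric p hF rfl hp2 h hr hm (by omega) hcon.2
  · rintro hnum M hdet hM ⟨z, hz⟩
    exact suff_two p hF hp2 hmn (by omega) (by omega) hdet hM hz

/-- From the arithmetic to divisibility of `q+1`. -/
theorem dvd_q_add_one_of_order_two [hrp : Fact r.Prime] (hr2 : r ≠ 2) (h : orderOf (q : ZMod r) = 2) : r ∣ q + 1 := by
  have h1 : (q : ZMod r) ^ 2 = 1 := by
    rw [← h]
    exact pow_orderOf_eq_one _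
  have h2 : ((q : ZMod r) - 1) * ((q : ZMod r) + 1) = 0 := by
    linear_combination h1
  rcases mul_eq_zero.1 h2 with h3 | h3
  · exfalso
    have h4 : (q : ZMod r) = 1 := sub_eq_zero.1 h3
    rw [h4, orderOf_one] at h
    omega
  · rw [← ZMod.natCast_eq_zero_iff]
    push_cast
    exact h3

/-- The converse. -/
theorem order_two_of_dvd [hrp : Fact r.Prime] (hr2 : r ≠ 2) (h : r ∣ q + 1) : orderOf (q : ZMod r) = 2 := by
  have h1 : (q : ZMod r) = -1 := by
    rw [← ZMod.natCast_eq_zero_iff] at h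
    push_cast at h
    exact eq_neg_of_add_eq_zero_left h
  rw [h1]
  exact orderOf_eq_prime (by ring) (Cfsg.Agent.Lib.DualFactors.neg_one_ne hr2)

/-- The numerical core of the sufficient direction. -/
theorem sd_hyp_arith {b n m s o A : ℕ} (hb : 0 < b) (hs : s + 2 * (m / b) ≤ n / b) (hmod : 2 * (m % b) ≤ n % b)
    (ho : o ≤ s) (hA : b * A ≤ n) :
    2 * (m % b) ≤ n - b * A ∧ 2 * m + b * o ≤ n := by
  constructor
  · have h1 : (n - b * A) % b = n % b := by
      rw [Nat.sub_mul_mod hA]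
    have h2 : (n - b * A) % b ≤ n - b * A := Nat.mod_le _ _
    omega
  · have hm := Nat.div_add_mod m b
    have hn := Nat.div_add_mod n b
    have h1 : b * o + b * (2 * (m / b)) ≤ b * (n / b) := by
      rw [← mul_add]
      exact Nat.mul_le_mul_left _ (by omega)
    have h2 : b * (2 * (m / b)) = 2 * (b * (m / b)) := by ring
    omega

theorem pair_hyp_arith {b n m A : ℕ} (hmod : 2 * (m % b) ≤ n % (2 * b)) (hA : b * A ≤ n) (hEven : Even A) :
    2 * (m % b) ≤ n - b * A := by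
  obtain ⟨A', rfl⟩ := hEven
  have e : b * (A' + A') = (2 * b) * A' := by ring
  rw [e] at hA ⊢
  have h1 : (n - (2 * b) * A') % (2 * b) = n % (2 * b) := by
    rw [Nat.sub_mul_mod hA]
  have h2 : (n - (2 * b) * A') % (2 * b) ≤ n - (2 * b) * A' := Nat.mod_le _ _
  omega

end Cfsg.Agent.Lib.TIU
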