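import Mathlib
import Cfsg.Agent.Lib.CoxOrder

/-!
# Coset enumeration certificates for groups given by generators and relators

Let `s : ℕ → G` be elements of a group such that the list of generator indices `J` is closed under
inverses, and let `rels` be a list of relators holding in `G`. A coset table `T` on `N` points
with a spanning tree (`par`, `gen`) is checked in the kernel by running deductions; the result is
that every element of `⟨s j : j ∈ J⟩` has the form `h * rep c` with `h ∈ ⟨s j : j ∈ J'⟩` and `c < N`.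
For `J' = []` this bounds the order of the group by `N`.

The same data give an isomorphism between two groups with the same table (`iso_of_tables`).
-/

set_option autoImplicit false

namespace Cfsg.Agent.Lib.TableCert

open Cfsg.Agent.Lib.CoxOrder

/-- All relators at all points, repeated for a number of rounds. -/
def relPolys (N : ℕ) (rels : List (List ℕ)) (rounds : ℕ) : List (ℕ × List ℕ) :=
  (List.replicate rounds ((List.range N).flatMap fun c => rels.map fun r => (c, r))).flatten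

/-- The bitmask after running all deductions. -/
def finalMaskR (N K : ℕ) (J' : List ℕ) (rels : List (List ℕ)) (rounds : ℕ) (T : ℕ → ℕ → ℕ)
    (par gen : ℕ → ℕ) : ℕ :=
  (relPolys N rels rounds).foldl (step T (baseEdge T par gen J') K) 0

theorem mem_relPolys {N : ℕ} {rels : List (List ℕ)} {rounds : ℕ} {p : ℕ × List ℕ}
    (hp : p ∈ relPolys N rels rounds) : p.2 ∈ rels := by
  unfold relPolys at hp
  rw [List.mem_flatten] at hp
  obtain ⟨l, hl, hp⟩ := hp
  have hl' := List.eq_of_mem_replicate hl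
  subst hl'
  rw [List.mem_flatMap] at hp
  obtain ⟨c, _, hp⟩ := hp
  rw [List.mem_map] at hp
  obtain ⟨r, hr, rfl⟩ := hp
  exact hr

section Group

variable {G : Type*} [Group G]

/-- The consequence of the certificate. -/
theorem cover (s : ℕ → G) (J J' : List ℕ) (hinv : ∀ i ∈ J, ∃ j ∈ J, (s i)⁻¹ = s j)
    (rels : List (List ℕ)) (hrels : ∀ r ∈ rels, wd s r = 1) (N K rounds : ℕ) (T : ℕ → ℕ → ℕ)
    (par gen : ℕ → ℕ)
    (hcheck : upperCheck N K J J' T par gen (finalMaskR N K J' rels rounds T par gen) = true) :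
    ∀ g ∈ para s J, ∃ c < N, g * (rep s par gen c)⁻¹ ∈ para s J' := by
  set W := rep s par gen with hW
  set isBase := baseEdge T par gen J' with hbase
  have hS : Sound s W T (para s J') isBase K 0 := by
    intro e he
    have : isBase e = true := by
      simpa [isKnown] using he
    exact base_sound s T par gen J' e this
  have hF : Sound s W T (para s J') isBase K (finalMaskR N K J' rels rounds T par gen) := by
    apply foldl_sound _ _ _ _ _ _ _ _ _ hS
    intro p hp
    exact hrels _ (mem_relPolys hp)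
  simp only [upperCheck, Bool.and_eq_true, decide_eq_true_eq, List.all_eq_true, List.mem_range]
    at hcheck
  obtain ⟨hN, hall⟩ := hcheck
  intro g hg
  unfold para at hg
  induction hg using Subgroup.closure_induction_right with
  | one => exact ⟨0, hN, by simp [hW, rep_zero]⟩
  | mul_right x y hx hy ih =>
    obtain ⟨c, hc, hmem⟩ := ih
    obtain ⟨i, hi, rfl⟩ := hy
    have h1 := hall c hc i hi
    refine ⟨T c i, h1.1, ?_⟩
    have h2 := hF (c, i) h1.2
    have h3 := (para s J').mul_mem hmem h2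
    simp only [edgeVal] at h3
    simpa [mul_assoc] using h3
  | mul_inv_cancel x y hx hy ih =>
    obtain ⟨c, hc, hmem⟩ := ih
    obtain ⟨i, hi, rfl⟩ := hy
    obtain ⟨j, hj, hij⟩ := hinv i hi
    have h1 := hall c hc j hj
    refine ⟨T c j, h1.1, ?_⟩
    have h2 := hF (c, j) h1.2
    have h3 := (para s J').mul_mem hmem h2
    simp only [edgeVal] at h3
    rw [hij]
    simpa [mul_assoc] using h3

/-- With trivial base subgroup: every element is a coset representative. -/
theorem cover_bot (s : ℕ → G) (J : List ℕ) (hinv : ∀ i ∈ J, ∃ j ∈ J, (s i)⁻¹ = s j)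
    (rels : List (List ℕ)) (hrels : ∀ r ∈ rels, wd s r = 1) (N K rounds : ℕ) (T : ℕ → ℕ → ℕ)
    (par gen : ℕ → ℕ)
    (hcheck : upperCheck N K J [] T par gen (finalMaskR N K [] rels rounds T par gen) = true) :
    ∀ g ∈ para s J, ∃ c < N, g = rep s par gen c := by
  intro g hg
  obtain ⟨c, hc, h⟩ := cover s J [] hinv rels hrels N K rounds T par gen hcheck g hg
  refine ⟨c, hc, ?_⟩
  rw [para_nil, Subgroup.mem_bot] at h
  exact mul_inv_eq_one.1 h

theorem para_mono (s : ℕ → G) {J J' : List ℕ} (h : ∀ j ∈ J', j ∈ J) : para s J' ≤ para s J := by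
  unfold para
  apply Subgroup.closure_mono
  rintro _ ⟨j, hj, rfl⟩
  exact ⟨j, h j hj, rfl⟩

theorem rep_mem_para (s : ℕ → G) (par gen : ℕ → ℕ) (N : ℕ) (J : List ℕ)
    (h : ∀ d, 0 < d → d < N → par d < d ∧ gen d ∈ J) :
    ∀ c, c < N → rep s par gen c ∈ para s J :=
  rep_mem s par gen N J h

end Group

section Two

variable {G₁ G₂ : Type*} [Group G₁] [Group G₂]

theorem rep_of_not_lt {G : Type*} [Group G] (s : ℕ → G) (par gen : ℕ → ℕ) (c : ℕ) (h0 : c ≠ 0)
    (h : ¬ par c < c) : rep s par gen c = 1 := by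
  rw [rep, if_neg h0, dif_neg h]

theorem rep_prod (s₁ : ℕ → G₁) (s₂ : ℕ → G₂) (par gen : ℕ → ℕ) (c : ℕ) :
    rep (fun i => (s₁ i, s₂ i)) par gen c = (rep s₁ par gen c, rep s₂ par gen c) := by
  induction c using Nat.strong_induction_on with
  | _ c ih =>
    rcases Nat.eq_zero_or_pos c with rfl | hpos
    · rw [rep_zero, rep_zero, rep_zero]; rfl
    · by_cases h : par c < c
      · rw [rep_succ _ par gen c (by omega) h, rep_succ s₁ par gen c (by omega) h,
          rep_succ s₂ par gen c (by omega) h, ih _ h]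
        rfl
      · have h0 : c ≠ 0 := by omega
        rw [rep_of_not_lt _ _ _ _ h0 h, rep_of_not_lt _ _ _ _ h0 h, rep_of_not_lt _ _ _ _ h0 h]
        rfl

theorem wd_prod (s₁ : ℕ → G₁) (s₂ : ℕ → G₂) (l : List ℕ) :
    wd (fun i => (s₁ i, s₂ i)) l = (wd s₁ l, wd s₂ l) := by
  induction l with
  | nil => rfl
  | cons a l ih =>
    simp only [wd, List.map_cons, List.prod_cons] at ih ⊢
    rw [ih]
    rfl

/-- Two groups generated by elements with the same coset table, each with distinct representatives,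
are isomorphic by an isomorphism matching generators. -/
theorem iso_of_tables (s₁ : ℕ → G₁) (s₂ : ℕ → G₂) (J : List ℕ)
    (hinv₁ : ∀ i ∈ J, ∃ j ∈ J, (s₁ i)⁻¹ = s₁ j ∧ (s₂ i)⁻¹ = s₂ j)
    (rels : List (List ℕ)) (hrels₁ : ∀ r ∈ rels, wd s₁ r = 1) (hrels₂ : ∀ r ∈ rels, wd s₂ r = 1)
    (N K rounds : ℕ) (T : ℕ → ℕ → ℕ) (par gen : ℕ → ℕ)
    (hcheck : upperCheck N K J [] T par gen (finalMaskR N K [] rels rounds T par gen) = true)
    (hgen : ∀ d, 0 < d → d < N → par d < d ∧ gen d ∈ J)
    (hinj₁ : ∀ c d, c < N → d < N → rep s₁ par gen c = rep s₁ par gen d → c = d)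
    (hinj₂ : ∀ c d, c < N → d < N → rep s₂ par gen c = rep s₂ par gen d → c = d) :
    ∃ e : para s₁ J ≃* para s₂ J, (∀ c (hc : c < N),
      ((e ⟨rep s₁ par gen c, rep_mem s₁ par gen N J hgen c hc⟩ : para s₂ J) : G₂)
        = rep s₂ par gen c) ∧ Nat.card (para s₁ J) = N := by
  classical
  set s : ℕ → G₁ × G₂ := fun i => (s₁ i, s₂ i) with hs
  have hcov := cover_bot s J
    (fun i hi => by
      obtain ⟨j, hj, h1, h2⟩ := hinv₁ i hi
      exact ⟨j, hj, by simp [hs, h1, h2]⟩)
    rels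
    (fun r hr => by rw [hs, wd_prod, hrels₁ r hr, hrels₂ r hr]; rfl)
    N K rounds T par gen hcheck
  have hcov₁ : ∀ g ∈ para s₁ J, ∃ c < N, g = rep s₁ par gen c := by
    have hmap : para s₁ J = (para s J).map (MonoidHom.fst G₁ G₂) := by
      unfold para
      rw [MonoidHom.map_closure]
      congr 1
      ext g
      constructor
      · rintro ⟨i, hi, rfl⟩
        exact ⟨s i, ⟨i, hi, rfl⟩, rfl⟩
      · rintro ⟨_, ⟨i, hi, rfl⟩, rfl⟩
        exact ⟨i, hi, rfl⟩
    intro g hg
    rw [hmap] at hg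
    obtain ⟨y, hy, rfl⟩ := hg
    obtain ⟨c, hc, rfl⟩ := hcov y hy
    refine ⟨c, hc, ?_⟩
    rw [hs, rep_prod]
    rfl
  have hcov₂ : ∀ g ∈ para s₂ J, ∃ c < N, g = rep s₂ par gen c := by
    have hmap : para s₂ J = (para s J).map (MonoidHom.snd G₁ G₂) := by
      unfold para
      rw [MonoidHom.map_closure]
      congr 1
      ext g
      constructor
      · rintro ⟨i, hi, rfl⟩
        exact ⟨s i, ⟨i, hi, rfl⟩, rfl⟩
      · rintro ⟨_, ⟨i, hi, rfl⟩, rfl⟩
        exact ⟨i, hi, rfl⟩
    intro g hg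
    rw [hmap] at hg
    obtain ⟨y, hy, rfl⟩ := hg
    obtain ⟨c, hc, rfl⟩ := hcov y hy
    refine ⟨c, hc, ?_⟩
    rw [hs, rep_prod]
    rfl
  have hrepmem : ∀ c, c < N → rep s par gen c ∈ para s J := rep_mem s par gen N J hgen
  have hmem₁ := rep_mem s₁ par gen N J hgen
  have hmem₂ := rep_mem s₂ par gen N J hgen
  -- the bijections with Fin N
  let f₁ : Fin N → para s₁ J := fun c => ⟨rep s₁ par gen c, hmem₁ c c.2⟩
  let f₂ : Fin N → para s₂ J := fun c => ⟨rep s₂ par gen c, hmem₂ c c.2⟩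
  have hf₁ : Function.Bijective f₁ := by
    constructor
    · intro a b hab
      exact Fin.ext (hinj₁ a b a.2 b.2 (congrArg Subtype.val hab))
    · rintro ⟨g, hg⟩
      obtain ⟨c, hc, rfl⟩ := hcov₁ g hg
      exact ⟨⟨c, hc⟩, rfl⟩
  have hf₂ : Function.Bijective f₂ := by
    constructor
    · intro a b hab
      exact Fin.ext (hinj₂ a b a.2 b.2 (congrArg Subtype.val hab))
    · rintro ⟨g, hg⟩
      obtain ⟨c, hc, rfl⟩ := hcov₂ g hg
      exact ⟨⟨c, hc⟩, rfl⟩
  let e₁ : Fin N ≃ para s₁ J := Equiv.ofBijective f₁ hf₁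
  let e₂ : Fin N ≃ para s₂ J := Equiv.ofBijective f₂ hf₂
  -- elements of the diagonal
  have hpairs : ∀ y ∈ para s J, ∃ c, ∃ hc : c < N, y = (rep s₁ par gen c, rep s₂ par gen c) := by
    intro y hy
    obtain ⟨c, hc, rfl⟩ := hcov y hy
    exact ⟨c, hc, by rw [hs, rep_prod]⟩
  have hmul : ∀ (a b : Fin N), (e₂ a * e₂ b) = e₂ (e₁.symm (e₁ a * e₁ b)) := by
    intro a b
    have ha := hrepmem a a.2
    have hb := hrepmem b b.2
    obtain ⟨c, hc, hcc⟩ := hpairs _ ((para s J).mul_mem ha hb)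
    rw [hs, rep_prod, rep_prod] at hcc
    have h1 : rep s₁ par gen a * rep s₁ par gen b = rep s₁ par gen c := congrArg Prod.fst hcc
    have h2 : rep s₂ par gen a * rep s₂ par gen b = rep s₂ par gen c := congrArg Prod.snd hcc
    have h3 : e₁ a * e₁ b = e₁ ⟨c, hc⟩ := Subtype.ext h1
    rw [h3, Equiv.symm_apply_apply]
    exact Subtype.ext h2
  let e : para s₁ J ≃* para s₂ J :=
    { toEquiv := e₁.symm.trans e₂
      map_mul' := by
        intro x y
        obtain ⟨a, rfl⟩ := e₁.surjective x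
        obtain ⟨b, rfl⟩ := e₁.surjective y
        simp only [Equiv.toFun_as_coe, Equiv.trans_apply, Equiv.symm_apply_apply]
        rw [hmul] }
  refine ⟨e, ?_, ?_⟩
  · intro c hc
    have : (⟨rep s₁ par gen c, rep_mem s₁ par gen N J hgen c hc⟩ : para s₁ J) = e₁ ⟨c, hc⟩ := rfl
    rw [this]
    show ((e₂ (e₁.symm (e₁ ⟨c, hc⟩)) : para s₂ J) : G₂) = _
    rw [Equiv.symm_apply_apply]
    rfl
  · rw [← Nat.card_congr e₁]
    simp

/-- The order of a group with a coset table and distinct representatives. -/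
theorem card_para_of_tables (s : ℕ → G₁) (J : List ℕ) (hinv : ∀ i ∈ J, ∃ j ∈ J, (s i)⁻¹ = s j)
    (rels : List (List ℕ)) (hrels : ∀ r ∈ rels, wd s r = 1)
    (N K rounds : ℕ) (T : ℕ → ℕ → ℕ) (par gen : ℕ → ℕ)
    (hcheck : upperCheck N K J [] T par gen (finalMaskR N K [] rels rounds T par gen) = true)
    (hgen : ∀ d, 0 < d → d < N → par d < d ∧ gen d ∈ J)
    (hinj : ∀ c d, c < N → d < N → rep s par gen c = rep s par gen d → c = d) :
    Nat.card (para s J) = N := by
  have hcov := cover_bot s J hinv rels hrels N K rounds T par gen hcheck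
  have hmem := rep_mem s par gen N J hgen
  let f : Fin N → para s J := fun c => ⟨rep s par gen c, hmem c c.2⟩
  have hf : Function.Bijective f := by
    constructor
    · intro a b hab
      exact Fin.ext (hinj a b a.2 b.2 (congrArg Subtype.val hab))
    · rintro ⟨g, hg⟩
      obtain ⟨c, hc, rfl⟩ := hcov g hg
      exact ⟨⟨c, hc⟩, rfl⟩
  rw [← Nat.card_congr (Equiv.ofBijective f hf)]
  simp

/-- Let `s₁`, `s₂` satisfy the same relators and suppose a coset table proves that the group generated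
by `s₂` has its representatives distinct. Then there is a homomorphism from the group generated
by `s₂` to the ambient group of `s₁` with image the group generated by `s₁`. -/
theorem hom_of_tables (s₁ : ℕ → G₁) (s₂ : ℕ → G₂) (J : List ℕ)
    (hinv₁ : ∀ i ∈ J, ∃ j ∈ J, (s₁ i)⁻¹ = s₁ j ∧ (s₂ i)⁻¹ = s₂ j)
    (rels : List (List ℕ)) (hrels₁ : ∀ r ∈ rels, wd s₁ r = 1) (hrels₂ : ∀ r ∈ rels, wd s₂ r = 1)
    (N K rounds : ℕ) (T : ℕ → ℕ → ℕ) (par gen : ℕ → ℕ)
    (hcheck : upperCheck N K J [] T par gen (finalMaskR N K [] rels rounds T par gen) = true)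
    (hgen : ∀ d, 0 < d → d < N → par d < d ∧ gen d ∈ J)
    (hinj₂ : ∀ c d, c < N → d < N → rep s₂ par gen c = rep s₂ par gen d → c = d) :
    ∃ φ : para s₂ J →* G₁, φ.range = para s₁ J := by
  classical
  set s : ℕ → G₁ × G₂ := fun i => (s₁ i, s₂ i) with hs
  have hcov := cover_bot s J
    (fun i hi => by
      obtain ⟨j, hj, h1, h2⟩ := hinv₁ i hi
      exact ⟨j, hj, by simp [hs, h1, h2]⟩)
    rels
    (fun r hr => by rw [hs, wd_prod, hrels₁ r hr, hrels₂ r hr]; rfl)
    N K rounds T par gen hcheck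
  have hmap₁ : (para s J).map (MonoidHom.fst G₁ G₂) = para s₁ J := by
    unfold para
    rw [MonoidHom.map_closure]
    congr 1
    ext g
    constructor
    · rintro ⟨_, ⟨i, hi, rfl⟩, rfl⟩
      exact ⟨i, hi, rfl⟩
    · rintro ⟨i, hi, rfl⟩
      exact ⟨s i, ⟨i, hi, rfl⟩, rfl⟩
  have hmap₂ : (para s J).map (MonoidHom.snd G₁ G₂) = para s₂ J := by
    unfold para
    rw [MonoidHom.map_closure]
    congr 1
    ext g
    constructor
    · rintro ⟨_, ⟨i, hi, rfl⟩, rfl⟩
      exact ⟨i, hi, rfl⟩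
    · rintro ⟨i, hi, rfl⟩
      exact ⟨s i, ⟨i, hi, rfl⟩, rfl⟩
  -- the projection to the second factor is injective on the diagonal subgroup
  let π₂ : para s J →* G₂ := (MonoidHom.snd G₁ G₂).comp (para s J).subtype
  let π₁ : para s J →* G₁ := (MonoidHom.fst G₁ G₂).comp (para s J).subtype
  have hinj : Function.Injective π₂ := by
    rintro ⟨a, ha⟩ ⟨b, hb⟩ hab
    obtain ⟨c, hc, rfl⟩ := hcov a ha
    obtain ⟨d, hd, rfl⟩ := hcov b hb
    have h : rep s₂ par gen c = rep s₂ par gen d := by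
      have h0 : (rep s par gen c).2 = (rep s par gen d).2 := hab
      rwa [hs, rep_prod, rep_prod] at h0
    have hcd := hinj₂ c d hc hd h
    subst hcd
    rfl
  have hrange : π₂.range = para s₂ J := by
    rw [← hmap₂]
    ext g
    constructor
    · rintro ⟨y, rfl⟩
      exact ⟨y.1, y.2, rfl⟩
    · rintro ⟨y, hy, rfl⟩
      exact ⟨⟨y, hy⟩, rfl⟩
  let e : para s J ≃* para s₂ J :=
    (MonoidHom.ofInjective hinj).trans (MulEquiv.subgroupCongr hrange)
  refine ⟨π₁.comp e.symm.toMonoidHom, ?_⟩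
  rw [← hmap₁]
  ext g
  constructor
  · rintro ⟨y, rfl⟩
    exact ⟨(e.symm y).1, (e.symm y).2, rfl⟩
  · rintro ⟨y, hy, rfl⟩
    refine ⟨e ⟨y, hy⟩, ?_⟩
    simp only [MonoidHom.comp_apply, MulEquiv.coe_toMonoidHom, MulEquiv.symm_apply_apply]
    rfl

end Two

end Cfsg.Agent.Lib.TableCert
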