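import Mathlib
import Cfsg.Agent.Lib.TableCert

/-!
# Coset table certificates with an explicit script of deductions

Instead of running all relators at all points, the certificate lists the pairs (point, relator)
which give a new deduction, in order.
-/

set_option autoImplicit false

namespace Cfsg.Agent.Lib.TableScript

open Cfsg.Agent.Lib.CoxOrder Cfsg.Agent.Lib.TableCert

section Group

variable {G : Type*} [Group G]

/-- The consequence of the certificate. -/
theorem cover_script (s : ℕ → G) (J : List ℕ) (hinv : ∀ i ∈ J, ∃ j ∈ J, (s i)⁻¹ = s j)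
    (N K : ℕ) (script : List (ℕ × List ℕ)) (hrels : ∀ p ∈ script, wd s p.2 = 1) (T : ℕ → ℕ → ℕ)
    (par gen : ℕ → ℕ)
    (hcheck : upperCheck N K J [] T par gen (script.foldl (step T (baseEdge T par gen []) K) 0) = true) :
    ∀ g ∈ para s J, ∃ c < N, g = rep s par gen c := by
  set W := rep s par gen with hW
  set isBase := baseEdge T par gen [] with hbase
  have hS : Sound s W T (para s []) isBase K 0 := by
    intro e he
    have : isBase e = true := by
      simpa [isKnown] using he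
    exact base_sound s T par gen [] e this
  have hF : Sound s W T (para s []) isBase K (script.foldl (step T isBase K) 0) :=
    foldl_sound _ _ _ _ _ _ _ _ hrels hS
  simp only [upperCheck, Bool.and_eq_true, decide_eq_true_eq, List.all_eq_true, List.mem_range]
    at hcheck
  obtain ⟨hN, hall⟩ := hcheck
  have key : ∀ g ∈ para s J, ∃ c < N, g * (W c)⁻¹ ∈ para s [] := by
    intro g hg
    unfold para at hg
    induction hg using Subgroup.closure_induction_right with
    | one => exact ⟨0, hN, by simp [hW, rep_zero]⟩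
    | mul_right x y hx hy ih =>
      obtain ⟨c, hc, hmem⟩ := ih
      obtain ⟨i, hi, rfl⟩ := hy
      have h1 := hall c hc i hi
      refine ⟨T c i, h1.1, ?_⟩
      have h2 := hF (c, i) h1.2
      have h3 := (para s []).mul_mem hmem h2
      simp only [edgeVal] at h3
      simpa [mul_assoc] using h3
    | mul_inv_cancel x y hx hy ih =>
      obtain ⟨c, hc, hmem⟩ := ih
      obtain ⟨i, hi, rfl⟩ := hy
      obtain ⟨j, hj, hij⟩ := hinv i hi
      have h1 := hall c hc j hj
      refine ⟨T c j, h1.1, ?_⟩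
      have h2 := hF (c, j) h1.2
      have h3 := (para s []).mul_mem hmem h2
      simp only [edgeVal] at h3
      rw [hij]
      simpa [mul_assoc] using h3
  intro g hg
  obtain ⟨c, hc, h⟩ := key g hg
  refine ⟨c, hc, ?_⟩
  rw [para_nil, Subgroup.mem_bot] at h
  exact mul_inv_eq_one.1 h

end Group

section Two

variable {G₁ G₂ : Type*} [Group G₁] [Group G₂]

/-- Two groups generated by elements with a common coset table (with a script of deductions),
each with distinct representatives, are isomorphic. -/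
theorem iso_of_script (s₁ : ℕ → G₁) (s₂ : ℕ → G₂) (J : List ℕ)
    (hinv₁ : ∀ i ∈ J, ∃ j ∈ J, (s₁ i)⁻¹ = s₁ j ∧ (s₂ i)⁻¹ = s₂ j)
    (N K : ℕ) (script : List (ℕ × List ℕ))
    (hrels₁ : ∀ p ∈ script, wd s₁ p.2 = 1) (hrels₂ : ∀ p ∈ script, wd s₂ p.2 = 1)
    (T : ℕ → ℕ → ℕ) (par gen : ℕ → ℕ)
    (hcheck : upperCheck N K J [] T par gen (script.foldl (step T (baseEdge T par gen []) K) 0) = true)
    (hgen : ∀ d, 0 < d → d < N → par d < d ∧ gen d ∈ J)
    (hinj₁ : ∀ c d, c < N → d < N → rep s₁ par gen c = rep s₁ par gen d → c = d)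
    (hinj₂ : ∀ c d, c < N → d < N → rep s₂ par gen c = rep s₂ par gen d → c = d) :
    (∀ g ∈ para s₁ J, ∃ c < N, g = rep s₁ par gen c) ∧
    (∀ g ∈ para s₂ J, ∃ c < N, g = rep s₂ par gen c) ∧
    ∃ e : para s₁ J ≃* para s₂ J, (∀ c (hc : c < N),
      ((e ⟨rep s₁ par gen c, rep_mem s₁ par gen N J hgen c hc⟩ : para s₂ J) : G₂)
        = rep s₂ par gen c) ∧ Nat.card (para s₁ J) = N := by
  classical
  set s : ℕ → G₁ × G₂ := fun i => (s₁ i, s₂ i) with hs
  have hcov := cover_script s J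
    (fun i hi => by
      obtain ⟨j, hj, h1, h2⟩ := hinv₁ i hi
      exact ⟨j, hj, by simp [hs, h1, h2]⟩)
    N K script
    (fun r hr => by rw [hs, wd_prod, hrels₁ r hr, hrels₂ r hr]; rfl)
    T par gen hcheck
  have hcov₁ : ∀ g ∈ para s₁ J, ∃ c < N, g = rep s₁ par gen c := by
    have hmap : para s₁ J = (para s J).map (MonoidHom.fst G₁ G₂) := by
      unfold para
      rw [MonoidHom.map_closure]
      congr 1
      ext g
      constructor
      · rintro ⟨i, hi, rfl⟩
        exact ⟨s i, ⟨i, hi, rfl⟩, rfl⟩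
      · rintro ⟨_, ⟨i, hi, rfl⟩, rfl⟩
        exact ⟨i, hi, rfl⟩
    intro g hg
    rw [hmap] at hg
    obtain ⟨y, hy, rfl⟩ := hg
    obtain ⟨c, hc, rfl⟩ := hcov y hy
    refine ⟨c, hc, ?_⟩
    rw [hs, rep_prod]
    rfl
  have hcov₂ : ∀ g ∈ para s₂ J, ∃ c < N, g = rep s₂ par gen c := by
    have hmap : para s₂ J = (para s J).map (MonoidHom.snd G₁ G₂) := by
      unfold para
      rw [MonoidHom.map_closure]
      congr 1
      ext g
      constructor
      · rintro ⟨i, hi, rfl⟩
        exact ⟨s i, ⟨i, hi, rfl⟩, rfl⟩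
      · rintro ⟨_, ⟨i, hi, rfl⟩, rfl⟩
        exact ⟨i, hi, rfl⟩
    intro g hg
    rw [hmap] at hg
    obtain ⟨y, hy, rfl⟩ := hg
    obtain ⟨c, hc, rfl⟩ := hcov y hy
    refine ⟨c, hc, ?_⟩
    rw [hs, rep_prod]
    rfl
  refine ⟨hcov₁, hcov₂, ?_⟩
  have hrepmem : ∀ c, c < N → rep s par gen c ∈ para s J := rep_mem s par gen N J hgen
  have hmem₁ := rep_mem s₁ par gen N J hgen
  have hmem₂ := rep_mem s₂ par gen N J hgen
  -- the bijections with Fin N
  let f₁ : Fin N → para s₁ J := fun c => ⟨rep s₁ par gen c, hmem₁ c c.2⟩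
  let f₂ : Fin N → para s₂ J := fun c => ⟨rep s₂ par gen c, hmem₂ c c.2⟩
  have hf₁ : Function.Bijective f₁ := by
    constructor
    · intro a b hab
      exact Fin.ext (hinj₁ a b a.2 b.2 (congrArg Subtype.val hab))
    · rintro ⟨g, hg⟩
      obtain ⟨c, hc, rfl⟩ := hcov₁ g hg
      exact ⟨⟨c, hc⟩, rfl⟩
  have hf₂ : Function.Bijective f₂ := by
    constructor
    · intro a b hab
      exact Fin.ext (hinj₂ a b a.2 b.2 (congrArg Subtype.val hab))
    · rintro ⟨g, hg⟩
      obtain ⟨c, hc, rfl⟩ := hcov₂ g hg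
      exact ⟨⟨c, hc⟩, rfl⟩
  let e₁ : Fin N ≃ para s₁ J := Equiv.ofBijective f₁ hf₁
  let e₂ : Fin N ≃ para s₂ J := Equiv.ofBijective f₂ hf₂
  -- elements of the diagonal
  have hpairs : ∀ y ∈ para s J, ∃ c, ∃ hc : c < N, y = (rep s₁ par gen c, rep s₂ par gen c) := by
    intro y hy
    obtain ⟨c, hc, rfl⟩ := hcov y hy
    exact ⟨c, hc, by rw [hs, rep_prod]⟩
  have hmul : ∀ (a b : Fin N), (e₂ a * e₂ b) = e₂ (e₁.symm (e₁ a * e₁ b)) := by
    intro a b
    have ha := hrepmem a a.2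
    have hb := hrepmem b b.2
    obtain ⟨c, hc, hcc⟩ := hpairs _ ((para s J).mul_mem ha hb)
    rw [hs, rep_prod, rep_prod] at hcc
    have h1 : rep s₁ par gen a * rep s₁ par gen b = rep s₁ par gen c := congrArg Prod.fst hcc
    have h2 : rep s₂ par gen a * rep s₂ par gen b = rep s₂ par gen c := congrArg Prod.snd hcc
    have h3 : e₁ a * e₁ b = e₁ ⟨c, hc⟩ := Subtype.ext h1
    rw [h3, Equiv.symm_apply_apply]
    exact Subtype.ext h2
  let e : para s₁ J ≃* para s₂ J :=
    { toEquiv := e₁.symm.trans e₂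
      map_mul' := by
        intro x y
        obtain ⟨a, rfl⟩ := e₁.surjective x
        obtain ⟨b, rfl⟩ := e₁.surjective y
        simp only [Equiv.toFun_as_coe, Equiv.trans_apply, Equiv.symm_apply_apply]
        rw [hmul] }
  refine ⟨e, ?_, ?_⟩
  · intro c hc
    have : (⟨rep s₁ par gen c, rep_mem s₁ par gen N J hgen c hc⟩ : para s₁ J) = e₁ ⟨c, hc⟩ := rfl
    rw [this]
    show ((e₂ (e₁.symm (e₁ ⟨c, hc⟩)) : para s₂ J) : G₂) = _
    rw [Equiv.symm_apply_apply]
    rfl
  · rw [← Nat.card_congr e₁]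
    simp

/-- The part of the conclusion used most often. -/
theorem iso_of_script' (s₁ : ℕ → G₁) (s₂ : ℕ → G₂) (J : List ℕ)
    (hinv₁ : ∀ i ∈ J, ∃ j ∈ J, (s₁ i)⁻¹ = s₁ j ∧ (s₂ i)⁻¹ = s₂ j)
    (N K : ℕ) (script : List (ℕ × List ℕ))
    (hrels₁ : ∀ p ∈ script, wd s₁ p.2 = 1) (hrels₂ : ∀ p ∈ script, wd s₂ p.2 = 1)
    (T : ℕ → ℕ → ℕ) (par gen : ℕ → ℕ)
    (hcheck : upperCheck N K J [] T par gen (script.foldl (step T (baseEdge T par gen []) K) 0) = true)
    (hgen : ∀ d, 0 < d → d < N → par d < d ∧ gen d ∈ J)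
    (hinj₁ : ∀ c d, c < N → d < N → rep s₁ par gen c = rep s₁ par gen d → c = d)
    (hinj₂ : ∀ c d, c < N → d < N → rep s₂ par gen c = rep s₂ par gen d → c = d) :
    (∀ g ∈ para s₂ J, ∃ c < N, g = rep s₂ par gen c) ∧ Nonempty (para s₁ J ≃* para s₂ J) := by
  obtain ⟨-, h2, e, -, -⟩ := iso_of_script s₁ s₂ J hinv₁ N K script hrels₁ hrels₂ T par gen hcheck hgen hinj₁ hinj₂
  exact ⟨h2, ⟨e⟩⟩

end Two

/-- Distinct keys from a sorted order. -/
theorem inj_of_sorted (key ord pos : ℕ → ℕ) (N : ℕ) (h1 : ∀ c < N, pos c < N ∧ ord (pos c) = c)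
    (h2 : ∀ k, k + 1 < N → key (ord k) < key (ord (k + 1))) :
    ∀ c d, c < N → d < N → key c = key d → c = d := by
  have hmono : ∀ a b, a < b → b < N → key (ord a) < key (ord b) := by
    intro a b hab hb
    induction b with
    | zero => omega
    | succ b ih =>
      have h3 := h2 b hb
      rcases Nat.lt_succ_iff_lt_or_eq.1 hab with h | rfl
      · exact lt_trans (ih h (by omega)) h3
      · exact h3
  intro c d hc hd hk
  obtain ⟨h3, h4⟩ := h1 c hc
  obtain ⟨h5, h6⟩ := h1 d hd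
  rcases lt_trichotomy (pos c) (pos d) with h | h | h
  · have := hmono _ _ h h5
    rw [h4, h6] at this
    omega
  · rw [← h4, ← h6, h]
  · have := hmono _ _ h h3
    rw [h4, h6] at this
    omega

end Cfsg.Agent.Lib.TableScript
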