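import Mathlib

/-!
# A simple group acting on the cosets of a subgroup, as a permutation group on `Fin N`
-/

set_option autoImplicit false
set_option linter.all false

namespace Cfsg.Agent.Lib.TcCosetAct

variable {G : Type*} [Group G]

/-- The action on the cosets of a subgroup, on the numbers below the index. -/
theorem exists_perm_of_subgroup [IsSimpleGroup G] (S : Subgroup G) {N : ℕ} [NeZero N] (hN : 1 < N)
    (hS : S.index = N) :
    ∃ f : G →* Equiv.Perm (Fin N), Function.Injective f ∧ (∀ a b : Fin N, ∃ g, f g a = b) ∧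
      ∀ g, f g 0 = 0 ↔ g ∈ S := by
  classical
  have hcard : Nat.card (G ⧸ S) = N := hS
  have hfin : Finite (G ⧸ S) := Nat.finite_of_card_ne_zero (by omega)
  let e0 : (G ⧸ S) ≃ Fin N := Finite.equivFinOfCardEq hcard
  let base : G ⧸ S := ((1 : G) : G ⧸ S)
  let e : (G ⧸ S) ≃ Fin N := e0.trans (Equiv.swap (e0 base) 0)
  have he0 : e base = 0 := by
    show Equiv.swap (e0 base) 0 (e0 base) = 0
    simp
  let f : G →* Equiv.Perm (Fin N) :=
    (Equiv.permCongrHom e).toMonoidHom.comp (MulAction.toPermHom G (G ⧸ S))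
  have hf : ∀ g x, f g x = e (g • e.symm x) := fun g x => rfl
  have hsymm : e.symm 0 = base := by rw [← he0]; simp
  have hmem : ∀ g, f g 0 = 0 ↔ g ∈ S := by
    intro g
    rw [hf, hsymm]
    constructor
    · intro h
      have h1 : g • base = base := e.injective (h.trans he0.symm)
      have h2 : ((g : G) : G ⧸ S) = ((1 : G) : G ⧸ S) := by
        have : g • base = ((g * 1 : G) : G ⧸ S) := rfl
        rw [this, mul_one] at h1
        exact h1
      have h3 := QuotientGroup.eq.mp h2
      simpa using S.inv_mem h3 |> fun h => by simpa using h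
    · intro h
      have h1 : g • base = base := by
        have : g • base = ((g * 1 : G) : G ⧸ S) := rfl
        rw [this, mul_one]
        apply QuotientGroup.eq.mpr
        simpa using S.inv_mem h
      rw [h1, he0]
  have hinj : Function.Injective f := by
    rw [injective_iff_map_eq_one]
    intro g hg
    have hker : f.ker = ⊥ ∨ f.ker = ⊤ := IsSimpleGroup.eq_bot_or_eq_top_of_normal _ f.normal_ker
    rcases hker with h | h
    · exact (Subgroup.mem_bot.mp (h ▸ (MonoidHom.mem_ker.mpr hg)))
    · exfalso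
      have hS1 : S = ⊤ := by
        rw [eq_top_iff]
        intro y _
        have hy : y ∈ f.ker := by rw [h]; trivial
        rw [MonoidHom.mem_ker] at hy
        apply (hmem y).1
        rw [hy]
        rfl
      rw [hS1, Subgroup.index_top] at hS
      omega
  refine ⟨f, hinj, ?_, hmem⟩
  intro a b
  obtain ⟨g1, hg1⟩ := QuotientGroup.mk_surjective (e.symm a)
  obtain ⟨g2, hg2⟩ := QuotientGroup.mk_surjective (e.symm b)
  refine ⟨g2 * g1⁻¹, ?_⟩
  rw [hf, ← hg1]
  have : (g2 * g1⁻¹) • ((g1 : G) : G ⧸ S) = ((g2 * g1⁻¹ * g1 : G) : G ⧸ S) := rfl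
  rw [this, inv_mul_cancel_right, hg2]
  simp

/-- The permutation group on `Fin N` of a simple group with a subgroup of index `N`. -/
theorem exists_perm_group [IsSimpleGroup G] {T : Type*} [Group T] (S : Subgroup G) {N : ℕ} [NeZero N]
    (hN : 1 < N) (hS : S.index = N) (eT : T ≃* S) :
    ∃ H : Subgroup (Equiv.Perm (Fin N)), Nonempty (H ≃* G) ∧ MulAction.IsPretransitive H (Fin N) ∧
      Nonempty (MulAction.stabilizer H (0 : Fin N) ≃* T) := by
  classical
  obtain ⟨f, hinj, htr, hmem⟩ := exists_perm_of_subgroup S hN hS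
  refine ⟨f.range, ⟨(MonoidHom.ofInjective hinj).symm⟩, ?_, ?_⟩
  · refine ⟨fun a b => ?_⟩
    obtain ⟨g, hg⟩ := htr a b
    exact ⟨⟨f g, ⟨g, rfl⟩⟩, hg⟩
  · let φ : S →* MulAction.stabilizer f.range (0 : Fin N) :=
      { toFun := fun s => ⟨⟨f s.1, ⟨s.1, rfl⟩⟩, (hmem s.1).2 s.2⟩
        map_one' := by
          apply Subtype.ext; apply Subtype.ext
          exact map_one f
        map_mul' := fun a b => by
          apply Subtype.ext; apply Subtype.ext
          exact map_mul f a.1 b.1 }
    have hφ : Function.Bijective φ := by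
      constructor
      · intro a b hab
        have h1 : f a.1 = f b.1 := congrArg (fun t : MulAction.stabilizer f.range (0 : Fin N) => t.1.1) hab
        exact Subtype.ext (hinj h1)
      · rintro ⟨⟨h, ⟨g, rfl⟩⟩, hh⟩
        refine ⟨⟨g, (hmem g).1 hh⟩, ?_⟩
        apply Subtype.ext; apply Subtype.ext
        rfl
    exact ⟨(eT.trans (MulEquiv.ofBijective φ hφ)).symm⟩

end Cfsg.Agent.Lib.TcCosetAct
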