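/-
TensSpinA: tensor-power matrices indexed by functions `Fin t → Fin k`.
`pureM ms` is the tensor product of the matrices `ms i`, `tens i s` has `s` at factor `i` and the identity elsewhere,
`permM σ` permutes the factors.  Product, transpose, conjugation formulas and the action on pure vectors.
-/
import Mathlib

set_option autoImplicit false

namespace Cfsg.Agent.Lib.TensSpinA

open Matrix

variable {F : Type*} [Field F] {k t : ℕ}

/-- The index type of a tensor power. -/
abbrev Idx (k t : ℕ) : Type := Fin t → Fin k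

/-- The tensor product of `t` matrices. -/
def pureM (ms : Fin t → Matrix (Fin k) (Fin k) F) : Matrix (Idx k t) (Idx k t) F :=
  fun a b => ∏ i, ms i (a i) (b i)

theorem pureM_apply (ms : Fin t → Matrix (Fin k) (Fin k) F) (a b : Idx k t) :
    pureM ms a b = ∏ i, ms i (a i) (b i) := rfl

theorem pureM_mul (ms ns : Fin t → Matrix (Fin k) (Fin k) F) :
    pureM ms * pureM ns = pureM (fun i => ms i * ns i) := by
  ext a b
  simp only [Matrix.mul_apply, pureM_apply]
  rw [Finset.prod_univ_sum]
  simp only [Fintype.piFinset_univ, Finset.prod_mul_distrib]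

theorem pureM_one : pureM (fun _ => (1 : Matrix (Fin k) (Fin k) F)) = (1 : Matrix (Idx k t) (Idx k t) F) := by
  ext a b
  rw [pureM_apply]
  by_cases h : a = b
  · subst h
    simp
  · rw [Matrix.one_apply_ne h]
    obtain ⟨i, hi⟩ := Function.ne_iff.1 h
    exact Finset.prod_eq_zero (Finset.mem_univ i) (Matrix.one_apply_ne hi)

theorem pureM_transpose (ms : Fin t → Matrix (Fin k) (Fin k) F) :
    (pureM ms)ᵀ = pureM (fun i => (ms i)ᵀ) := by
  ext a b
  rfl

/-- Matrix `s` at factor `i`, identity elsewhere. -/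
def tens (i : Fin t) (s : Matrix (Fin k) (Fin k) F) : Matrix (Idx k t) (Idx k t) F :=
  pureM (Function.update (fun _ => 1) i s)

theorem tens_apply (i : Fin t) (s : Matrix (Fin k) (Fin k) F) (a b : Idx k t) :
    tens i s a b = s (a i) (b i) * ∏ j ∈ Finset.univ.erase i, (1 : Matrix (Fin k) (Fin k) F) (a j) (b j) := by
  rw [tens, pureM_apply, ← Finset.mul_prod_erase Finset.univ _ (Finset.mem_univ i)]
  simp only [Function.update_self]
  congr 1
  refine Finset.prod_congr rfl fun j hj => ?_
  rw [Function.update_of_ne (Finset.ne_of_mem_erase hj)]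

theorem tens_add (i : Fin t) (s s' : Matrix (Fin k) (Fin k) F) :
    tens i (s + s') = tens i s + tens i s' := by
  ext a b
  simp only [tens_apply, Matrix.add_apply, add_mul]

theorem tens_smul (i : Fin t) (c : F) (s : Matrix (Fin k) (Fin k) F) :
    tens i (c • s) = c • tens i s := by
  ext a b
  simp only [tens_apply, Matrix.smul_apply, smul_eq_mul, mul_assoc]

theorem tens_one (i : Fin t) : tens i (1 : Matrix (Fin k) (Fin k) F) = 1 := by
  rw [tens, Function.update_eq_self_iff.2 rfl, pureM_one]

theorem tens_zero (i : Fin t) : tens i (0 : Matrix (Fin k) (Fin k) F) = 0 := by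
  ext a b
  simp [tens_apply]

theorem tens_mul_same (i : Fin t) (s s' : Matrix (Fin k) (Fin k) F) :
    tens i s * tens i s' = tens i (s * s') := by
  rw [tens, tens, tens, pureM_mul]
  congr 1
  funext j
  by_cases h : j = i
  · subst h
    simp
  · simp [Function.update_of_ne h]

theorem tens_comm {i j : Fin t} (h : i ≠ j) (s s' : Matrix (Fin k) (Fin k) F) :
    tens i s * tens j s' = tens j s' * tens i s := by
  rw [tens, tens, pureM_mul, pureM_mul]
  congr 1
  funext l
  by_cases h1 : l = i
  · subst h1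
    simp [Function.update_of_ne h]
  · by_cases h2 : l = j
    · subst h2
      simp [Function.update_of_ne h1]
    · simp [Function.update_of_ne h1, Function.update_of_ne h2]

theorem tens_transpose (i : Fin t) (s : Matrix (Fin k) (Fin k) F) :
    (tens i s)ᵀ = tens i sᵀ := by
  rw [tens, tens, pureM_transpose]
  congr 1
  funext j
  by_cases h : j = i
  · subst h
    simp
  · simp [Function.update_of_ne h]

/-- Entries of `tens` vanish when the two indices differ outside the factor. -/
theorem tens_apply_eq_zero {i : Fin t} (s : Matrix (Fin k) (Fin k) F) {a b : Idx k t} {j : Fin t} (hj : j ≠ i)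
    (hab : a j ≠ b j) : tens i s a b = 0 := by
  rw [tens_apply]
  have : ∏ l ∈ Finset.univ.erase i, (1 : Matrix (Fin k) (Fin k) F) (a l) (b l) = 0 :=
    Finset.prod_eq_zero (Finset.mem_erase.2 ⟨hj, Finset.mem_univ j⟩) (Matrix.one_apply_ne hab)
  rw [this, mul_zero]

theorem tens_apply_of_eq {i : Fin t} (s : Matrix (Fin k) (Fin k) F) {a b : Idx k t} (hab : ∀ j, j ≠ i → a j = b j) :
    tens i s a b = s (a i) (b i) := by
  rw [tens_apply, Finset.prod_eq_one, mul_one]
  intro j hj
  rw [hab j (Finset.ne_of_mem_erase hj), Matrix.one_apply_eq]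

/-! ### Permutations of the factors -/

/-- The matrix permuting the tensor factors. -/
def permM (k : ℕ) (F : Type*) [Field F] {t : ℕ} (σ : Equiv.Perm (Fin t)) : Matrix (Idx k t) (Idx k t) F :=
  fun a b => if b = a ∘ σ then 1 else 0

theorem permM_apply (σ : Equiv.Perm (Fin t)) (a b : Idx k t) :
    permM k F σ a b = if b = a ∘ σ then 1 else 0 := rfl

theorem permM_mul (σ τ : Equiv.Perm (Fin t)) :
    permM k F σ * permM k F τ = permM k F (σ * τ) := by
  ext a b
  rw [Matrix.mul_apply, Finset.sum_eq_single (a ∘ σ)]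
  · simp only [permM_apply, if_true, one_mul]
    rfl
  · intro z _ hz
    simp [permM_apply, hz]
  · simp

theorem permM_one : permM k F (1 : Equiv.Perm (Fin t)) = 1 := by
  ext a b
  rw [permM_apply, Matrix.one_apply]
  by_cases h : a = b
  · subst h
    simp
  · have h' : ¬ b = a ∘ (1 : Equiv.Perm (Fin t)) := fun h2 => h (by rw [h2]; rfl)
    rw [if_neg h', if_neg h]

theorem permM_mul_pureM (σ : Equiv.Perm (Fin t)) (ms : Fin t → Matrix (Fin k) (Fin k) F) :
    permM k F σ * pureM ms = pureM (fun i => ms (σ⁻¹ i)) * permM k F σ := by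
  ext a b
  have h1 : (permM k F σ * pureM ms) a b = pureM ms (a ∘ σ) b := by
    rw [Matrix.mul_apply, Finset.sum_eq_single (a ∘ σ)]
    · simp only [permM_apply, if_true, one_mul]
    · intro z _ hz
      simp [permM_apply, hz]
    · simp
  have hb : b = (b ∘ (σ⁻¹ : Equiv.Perm (Fin t))) ∘ σ := by
    funext i
    simp
  have h2 : (pureM (fun i => ms (σ⁻¹ i)) * permM k F σ) a b =
      pureM (fun i => ms (σ⁻¹ i)) a (b ∘ (σ⁻¹ : Equiv.Perm (Fin t))) := by
    rw [Matrix.mul_apply, Finset.sum_eq_single (b ∘ (σ⁻¹ : Equiv.Perm (Fin t)))]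
    · rw [permM_apply, if_pos hb, mul_one]
    · intro z _ hz
      rw [permM_apply, if_neg, mul_zero]
      intro h
      apply hz
      rw [h]
      funext i
      simp
    · simp
  rw [h1, h2, pureM_apply, pureM_apply]
  rw [← Equiv.prod_comp σ (fun i => ms (σ⁻¹ i) (a i) ((b ∘ (σ⁻¹ : Equiv.Perm (Fin t))) i))]
  refine Finset.prod_congr rfl fun j _ => ?_
  simp

theorem permM_transpose (σ : Equiv.Perm (Fin t)) : (permM k F σ)ᵀ = permM k F σ⁻¹ := by
  ext a b
  rw [Matrix.transpose_apply, permM_apply, permM_apply]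
  have : (a = b ∘ σ) ↔ (b = a ∘ (σ⁻¹ : Equiv.Perm (Fin t))) := by
    constructor
    · rintro rfl
      funext i
      simp
    · rintro rfl
      funext i
      simp
  simp only [this]

theorem permM_conj_pureM (σ : Equiv.Perm (Fin t)) (ms : Fin t → Matrix (Fin k) (Fin k) F) :
    permM k F σ * pureM ms * permM k F σ⁻¹ = pureM (fun i => ms (σ⁻¹ i)) := by
  rw [permM_mul_pureM, Matrix.mul_assoc, permM_mul, mul_inv_cancel, permM_one, Matrix.mul_one]

theorem permM_conj_tens (σ : Equiv.Perm (Fin t)) (i : Fin t) (s : Matrix (Fin k) (Fin k) F) :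
    permM k F σ * tens i s * permM k F σ⁻¹ = tens (σ i) s := by
  rw [tens, permM_conj_pureM, tens]
  congr 1
  funext j
  by_cases h : j = σ i
  · subst h
    simp
  · have h' : σ⁻¹ j ≠ i := fun h2 => h (by rw [← h2]; simp)
    rw [Function.update_of_ne h, Function.update_of_ne h']

/-! ### Pure vectors -/

/-- A vector is pure if it is a tensor product of vectors. -/
def IsPureVec (z : Idx k t → F) : Prop :=
  ∃ xs : Fin t → Fin k → F, ∀ a, z a = ∏ i, xs i (a i)

theorem IsPureVec.pureM_mulVec {z : Idx k t → F} (hz : IsPureVec z) (ms : Fin t → Matrix (Fin k) (Fin k) F) :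
    IsPureVec (pureM ms *ᵥ z) := by
  obtain ⟨xs, hxs⟩ := hz
  refine ⟨fun i => ms i *ᵥ xs i, fun a => ?_⟩
  simp only [Matrix.mulVec, dotProduct, hxs, pureM_apply]
  rw [Finset.prod_univ_sum]
  simp only [Fintype.piFinset_univ, Finset.prod_mul_distrib]

theorem IsPureVec.permM_mulVec {z : Idx k t → F} (hz : IsPureVec z) (σ : Equiv.Perm (Fin t)) :
    IsPureVec (permM k F σ *ᵥ z) := by
  obtain ⟨xs, hxs⟩ := hz
  refine ⟨fun i => xs (σ⁻¹ i), fun a => ?_⟩
  simp only [Matrix.mulVec, dotProduct, permM_apply]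
  rw [Finset.sum_eq_single (a ∘ σ)]
  · simp only [if_true, one_mul, hxs, Function.comp]
    rw [← Equiv.prod_comp σ (fun i => xs (σ⁻¹ i) (a i))]
    refine Finset.prod_congr rfl fun j _ => ?_
    simp
  · intro z _ hz
    simp [hz]
  · simp

/-- Basis vectors are pure. -/
theorem isPureVec_single (a : Idx k t) : IsPureVec (Pi.single a (1 : F) : Idx k t → F) := by
  refine ⟨fun i => Pi.single (a i) 1, fun b => ?_⟩
  by_cases h : b = a
  · subst h
    simp
  · rw [Pi.single_eq_of_ne h]
    obtain ⟨i, hi⟩ := Function.ne_iff.1 h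
    exact (Finset.prod_eq_zero (Finset.mem_univ i) (by
      show (Pi.single (a i) (1 : F) : Fin k → F) (b i) = 0
      rw [Pi.single_eq_of_ne hi])).symm

/-- The exchange relation for entries of a pure vector. -/
theorem IsPureVec.exchange {z : Idx k t → F} (hz : IsPureVec z) {i₁ i₂ : Fin t} (hi : i₁ ≠ i₂) (a : Idx k t)
    (p q : Fin k) (hp : a i₁ = q) (hq : a i₂ = q) :
    z (Function.update a i₁ p) * z (Function.update a i₂ p) =
      z a * z (Function.update (Function.update a i₁ p) i₂ p) := by
  obtain ⟨xs, hxs⟩ := hz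
  simp only [hxs]
  -- split the products over `i₁, i₂` and the rest
  have key : ∀ b : Idx k t, ∏ i, xs i (b i) = xs i₁ (b i₁) * (xs i₂ (b i₂) *
      ∏ j ∈ (Finset.univ.erase i₁).erase i₂, xs j (b j)) := by
    intro b
    rw [← Finset.mul_prod_erase Finset.univ _ (Finset.mem_univ i₁),
      ← Finset.mul_prod_erase (Finset.univ.erase i₁) _ (Finset.mem_erase.2 ⟨hi.symm, Finset.mem_univ i₂⟩)]
  have rest : ∀ b : Idx k t, (∀ j, j ≠ i₁ → j ≠ i₂ → b j = a j) →
      ∏ j ∈ (Finset.univ.erase i₁).erase i₂, xs j (b j) = ∏ j ∈ (Finset.univ.erase i₁).erase i₂, xs j (a j) := by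
    intro b hb
    refine Finset.prod_congr rfl fun j hj => ?_
    have h2 := Finset.ne_of_mem_erase hj
    have h1 := Finset.ne_of_mem_erase (Finset.mem_of_mem_erase hj)
    rw [hb j h1 h2]
  simp only [key] at *
  rw [rest (Function.update a i₁ p) (fun j h1 _ => Function.update_of_ne h1 _ _),
    rest (Function.update a i₂ p) (fun j _ h2 => Function.update_of_ne h2 _ _),
    rest (Function.update (Function.update a i₁ p) i₂ p) (fun j h1 h2 => by
      rw [Function.update_of_ne h2, Function.update_of_ne h1])]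
  simp only [Function.update_self, Function.update_of_ne hi, Function.update_of_ne hi.symm]
  rw [hp, hq]
  ring

end Cfsg.Agent.Lib.TensSpinA
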