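/-
TensSpinB: the "Clifford subspace" `U` of a tensor power of a symplectic space in characteristic two and the subgroup
normalizing it.  `Std` packages the standard symplectic Gram matrix together with a conjugation-invariant set of
self-adjoint matrices any two of which anticommute up to a scalar.
-/
import Mathlib
import Cfsg.Prelude.Def_GeometricClasses
import Cfsg.Agent.Lib.TensSpinA

set_option autoImplicit false

namespace Cfsg.Agent.Lib.TensSpinB

open Matrix Cfsg.Agent.Lib.TensSpinA
open scoped MatrixGroups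

variable {F : Type*} [Field F] {k t : ℕ}

/-- Standard symplectic data in characteristic two. -/
structure Std (F : Type*) [Field F] (k : ℕ) where
  star : Fin k → Fin k
  star_star : ∀ i, star (star i) = i
  star_ne : ∀ i, star i ≠ i
  J : Matrix (Fin k) (Fin k) F
  J_apply : ∀ i j, J i j = if j = star i then 1 else 0
  good : Matrix (Fin k) (Fin k) F → Prop
  good_sa : ∀ s, good s → sᵀ * J = J * s
  good_anti : ∀ s s', good s → good s' → ∃ δ : F, s * s' + s' * s = δ • 1
  good_conj : ∀ (g g' : Matrix (Fin k) (Fin k) F) (μ : F), g * g' = 1 → g' * g = 1 →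
    gᵀ * J * g = μ • J → μ ≠ 0 → ∀ s, good s → good (g * s * g')
  s : Matrix (Fin k) (Fin k) F
  r : Matrix (Fin k) (Fin k) F
  good_s : good s
  good_r : good r
  s_sq : s * s = 0
  r_sq : r * r = 0
  anti : s * r + r * s = 1
  α : Fin k
  β : Fin k
  hαβ : α ≠ β
  s_col : ∀ p, s p β = if p = α then 1 else 0
  r_col : ∀ p, r p β = 0

namespace Std

variable (S : Std F k)

theorem J_diag (i : Fin k) : S.J i i = 0 := by
  rw [S.J_apply, if_neg (S.star_ne i).symm]

theorem J_star (i : Fin k) : S.J i (S.star i) = 1 := by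
  rw [S.J_apply, if_pos rfl]

/-- The Gram matrix of the tensor power. -/
def bigJ (t : ℕ) : Matrix (Idx k t) (Idx k t) F := pureM (fun _ => S.J)

/-- Coordinatewise `star`. -/
def Star (a : Idx k t) : Idx k t := fun i => S.star (a i)

theorem Star_Star (a : Idx k t) : S.Star (S.Star a) = a := by
  funext i
  exact S.star_star _

theorem bigJ_apply (a b : Idx k t) : S.bigJ t a b = if b = S.Star a then 1 else 0 := by
  rw [bigJ, pureM_apply]
  by_cases h : b = S.Star a
  · rw [if_pos h]
    apply Finset.prod_eq_one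
    intro i _
    rw [S.J_apply, if_pos (show b i = S.star (a i) from congrFun h i)]
  · rw [if_neg h]
    obtain ⟨i, hi⟩ := Function.ne_iff.1 h
    refine Finset.prod_eq_zero (Finset.mem_univ i) ?_
    rw [S.J_apply, if_neg (show ¬ b i = S.star (a i) from hi)]

/-- The star permutation on indices. -/
def StarP (S : Std F k) (t : ℕ) : Equiv.Perm (Idx k t) where
  toFun := S.Star
  invFun := S.Star
  left_inv := S.Star_Star
  right_inv := S.Star_Star

/-! ### The subspace `U` -/

/-- Generators of `U`. -/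
def gens (t : ℕ) : Set (Matrix (Idx k t) (Idx k t) F) :=
  {y | y = 1 ∨ ∃ i s, S.good s ∧ y = tens i s}

/-- The Clifford subspace. -/
def U (t : ℕ) : Submodule F (Matrix (Idx k t) (Idx k t) F) := Submodule.span F (S.gens t)

theorem one_mem_U : (1 : Matrix (Idx k t) (Idx k t) F) ∈ S.U t :=
  Submodule.subset_span (Or.inl rfl)

theorem tens_mem_U (i : Fin t) {s : Matrix (Fin k) (Fin k) F} (hs : S.good s) : tens i s ∈ S.U t :=
  Submodule.subset_span (Or.inr ⟨i, s, hs, rfl⟩)

/-- Elements of `U` have zero entries at indices differing in two positions. -/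
theorem U_vanish {y : Matrix (Idx k t) (Idx k t) F} (hy : y ∈ S.U t) {a b : Idx k t} {i₁ i₂ : Fin t} (hi : i₁ ≠ i₂)
    (h₁ : a i₁ ≠ b i₁) (h₂ : a i₂ ≠ b i₂) : y a b = 0 := by
  induction hy using Submodule.span_induction with
  | mem y hy =>
    rcases hy with rfl | ⟨i, s, -, rfl⟩
    · apply Matrix.one_apply_ne
      intro h
      exact h₁ (congrFun h i₁)
    · by_cases h : i₁ = i
      · exact tens_apply_eq_zero s (by rw [← h]; exact hi.symm) h₂
      · exact tens_apply_eq_zero s h h₁
  | zero => rfl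
  | add x y _ _ hx hy => rw [Matrix.add_apply, hx, hy, add_zero]
  | smul c x _ hx => rw [Matrix.smul_apply, hx, smul_zero]

section CharTwo

variable [CharP F 2]

theorem mat_add_self {ι : Type*} [Fintype ι] [DecidableEq ι] (y : Matrix ι ι F) : y + y = 0 := by
  ext a b
  simp [CharTwo.add_self_eq_zero]

theorem anti_gens {y y' : Matrix (Idx k t) (Idx k t) F} (hy : y ∈ S.gens t) (hy' : y' ∈ S.gens t) :
    ∃ δ : F, y * y' + y' * y = δ • 1 := by
  rcases hy with rfl | ⟨i, s, hs, rfl⟩
  · exact ⟨0, by rw [one_mul, mul_one, mat_add_self, zero_smul]⟩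
  rcases hy' with rfl | ⟨j, s', hs', rfl⟩
  · exact ⟨0, by rw [one_mul, mul_one, mat_add_self, zero_smul]⟩
  by_cases h : i = j
  · subst h
    obtain ⟨δ, hδ⟩ := S.good_anti s s' hs hs'
    refine ⟨δ, ?_⟩
    rw [tens_mul_same, tens_mul_same, ← tens_add, hδ, tens_smul, tens_one]
  · exact ⟨0, by rw [tens_comm h, mat_add_self, zero_smul]⟩

theorem anti_U {y y' : Matrix (Idx k t) (Idx k t) F} (hy : y ∈ S.U t) (hy' : y' ∈ S.U t) :
    ∃ δ : F, y * y' + y' * y = δ • 1 := by
  have step : ∀ g ∈ S.gens t, ∀ w ∈ S.U t, ∃ δ : F, g * w + w * g = δ • 1 := by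
    intro g hg w hw
    induction hw using Submodule.span_induction with
    | mem w hw => exact S.anti_gens hg hw
    | zero => exact ⟨0, by simp⟩
    | add a b _ _ ha hb =>
      obtain ⟨δ₁, h₁⟩ := ha
      obtain ⟨δ₂, h₂⟩ := hb
      refine ⟨δ₁ + δ₂, ?_⟩
      rw [add_smul, ← h₁, ← h₂]
      noncomm_ring
    | smul c a _ ha =>
      obtain ⟨δ, h⟩ := ha
      refine ⟨c * δ, ?_⟩
      rw [mul_smul, ← h, mul_smul_comm, smul_mul_assoc, smul_add]
  induction hy using Submodule.span_induction with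
  | mem g hg => exact step g hg y' hy'
  | zero => exact ⟨0, by simp⟩
  | add a b _ _ ha hb =>
    obtain ⟨δ₁, h₁⟩ := ha
    obtain ⟨δ₂, h₂⟩ := hb
    refine ⟨δ₁ + δ₂, ?_⟩
    rw [add_smul, ← h₁, ← h₂]
    noncomm_ring
  | smul c a _ ha =>
    obtain ⟨δ, h⟩ := ha
    refine ⟨c * δ, ?_⟩
    rw [mul_smul, ← h, mul_smul_comm, smul_mul_assoc, smul_add]

/-- Conjugation by an involution in `U` preserves `U`. -/
theorem conj_U {u y : Matrix (Idx k t) (Idx k t) F} (hu : u ∈ S.U t) (huu : u * u = 1) (hy : y ∈ S.U t) :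
    u * y * u ∈ S.U t := by
  obtain ⟨δ, hδ⟩ := S.anti_U hu hy
  have h1 : u * y = δ • 1 + y * u := by
    rw [← hδ, add_assoc, mat_add_self, add_zero]
  have h2 : u * y * u = δ • u + y := by
    rw [h1, add_mul, smul_mul_assoc, one_mul, Matrix.mul_assoc, huu, Matrix.mul_one]
  rw [h2]
  exact (S.U t).add_mem ((S.U t).smul_mem _ hu) hy

end CharTwo

/-- The stabilizer of `U` under conjugation. -/
def normU (t : ℕ) : Subgroup (GL (Idx k t) F) where
  carrier := {g | ∀ y, y ∈ S.U t ↔
    (g : Matrix (Idx k t) (Idx k t) F) * y * ((g⁻¹ : GL (Idx k t) F) : Matrix (Idx k t) (Idx k t) F) ∈ S.U t}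
  mul_mem' {a b} ha hb := by
    intro y
    rw [hb y, ha]
    have : (((a * b : GL (Idx k t) F)) : Matrix (Idx k t) (Idx k t) F) * y *
        (((a * b)⁻¹ : GL (Idx k t) F) : Matrix (Idx k t) (Idx k t) F) =
        (a : Matrix (Idx k t) (Idx k t) F) * ((b : Matrix (Idx k t) (Idx k t) F) * y *
          ((b⁻¹ : GL (Idx k t) F) : Matrix (Idx k t) (Idx k t) F)) *
          ((a⁻¹ : GL (Idx k t) F) : Matrix (Idx k t) (Idx k t) F) := by
      rw [_root_.mul_inv_rev, Units.val_mul, Units.val_mul]
      simp only [Matrix.mul_assoc]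
    rw [this]
  one_mem' := by
    intro y
    simp
  inv_mem' {a} ha := by
    intro y
    have h := ha ((((a⁻¹ : GL (Idx k t) F)) : Matrix (Idx k t) (Idx k t) F) * y * (a : Matrix (Idx k t) (Idx k t) F))
    have h2 : (a : Matrix (Idx k t) (Idx k t) F) * (((a⁻¹ : GL (Idx k t) F) : Matrix (Idx k t) (Idx k t) F) * y *
        (a : Matrix (Idx k t) (Idx k t) F)) * ((a⁻¹ : GL (Idx k t) F) : Matrix (Idx k t) (Idx k t) F) = y := by
      have e1 : (a : Matrix (Idx k t) (Idx k t) F) * ((a⁻¹ : GL (Idx k t) F) : Matrix (Idx k t) (Idx k t) F) = 1 := by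
        rw [← Units.val_mul, mul_inv_cancel, Units.val_one]
      calc _ = ((a : Matrix (Idx k t) (Idx k t) F) * ((a⁻¹ : GL (Idx k t) F) : Matrix (Idx k t) (Idx k t) F)) * y *
            ((a : Matrix (Idx k t) (Idx k t) F) * ((a⁻¹ : GL (Idx k t) F) : Matrix (Idx k t) (Idx k t) F)) := by
            simp only [Matrix.mul_assoc]
        _ = y := by rw [e1, one_mul, mul_one]
    rw [h2] at h
    rw [inv_inv]
    exact h.symm

theorem mem_normU_iff {g : GL (Idx k t) F} : g ∈ S.normU t ↔ ∀ y, y ∈ S.U t ↔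
    (g : Matrix (Idx k t) (Idx k t) F) * y * ((g⁻¹ : GL (Idx k t) F) : Matrix (Idx k t) (Idx k t) F) ∈ S.U t :=
  Iff.rfl

/-- Criterion: forward conjugation by `g` and by `g⁻¹`. -/
theorem mem_normU_of {g : GL (Idx k t) F}
    (h1 : ∀ y ∈ S.U t, (g : Matrix (Idx k t) (Idx k t) F) * y * ((g⁻¹ : GL (Idx k t) F) : Matrix (Idx k t) (Idx k t) F) ∈ S.U t)
    (h2 : ∀ y ∈ S.U t, ((g⁻¹ : GL (Idx k t) F) : Matrix (Idx k t) (Idx k t) F) * y * (g : Matrix (Idx k t) (Idx k t) F) ∈ S.U t) :
    g ∈ S.normU t := by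
  intro y
  refine ⟨h1 y, fun h => ?_⟩
  have h3 := h2 _ h
  have e1 : ((g⁻¹ : GL (Idx k t) F) : Matrix (Idx k t) (Idx k t) F) * (g : Matrix (Idx k t) (Idx k t) F) = 1 := by
    rw [← Units.val_mul, inv_mul_cancel, Units.val_one]
  have h4 : ((g⁻¹ : GL (Idx k t) F) : Matrix (Idx k t) (Idx k t) F) * ((g : Matrix (Idx k t) (Idx k t) F) * y *
      ((g⁻¹ : GL (Idx k t) F) : Matrix (Idx k t) (Idx k t) F)) * (g : Matrix (Idx k t) (Idx k t) F) = y := by
    calc _ = (((g⁻¹ : GL (Idx k t) F) : Matrix (Idx k t) (Idx k t) F) * (g : Matrix (Idx k t) (Idx k t) F)) * y *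
          (((g⁻¹ : GL (Idx k t) F) : Matrix (Idx k t) (Idx k t) F) * (g : Matrix (Idx k t) (Idx k t) F)) := by
          simp only [Matrix.mul_assoc]
      _ = y := by rw [e1, one_mul, mul_one]
  rwa [h4] at h3

end Std

/-! ### Group-level tensor elements -/

/-- A pure tensor of invertible matrices. -/
def pureGL (gs : Fin t → GL (Fin k) F) : GL (Idx k t) F where
  val := pureM (fun i => (gs i : Matrix (Fin k) (Fin k) F))
  inv := pureM (fun i => ((gs i)⁻¹ : GL (Fin k) F))
  val_inv := by
    rw [pureM_mul]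
    simp only [← Units.val_mul, mul_inv_cancel, Units.val_one, pureM_one]
  inv_val := by
    rw [pureM_mul]
    simp only [← Units.val_mul, inv_mul_cancel, Units.val_one, pureM_one]

/-- A factor permutation. -/
def permGL (k : ℕ) (F : Type*) [Field F] {t : ℕ} (σ : Equiv.Perm (Fin t)) : GL (Idx k t) F where
  val := permM k F σ
  inv := permM k F σ⁻¹
  val_inv := by rw [permM_mul, mul_inv_cancel, permM_one]
  inv_val := by rw [permM_mul, inv_mul_cancel, permM_one]

theorem pureGL_coe (gs : Fin t → GL (Fin k) F) :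
    ((pureGL gs : GL (Idx k t) F) : Matrix (Idx k t) (Idx k t) F) = pureM (fun i => (gs i : Matrix (Fin k) (Fin k) F)) := rfl

theorem permGL_coe (σ : Equiv.Perm (Fin t)) :
    ((permGL k F σ : GL (Idx k t) F) : Matrix (Idx k t) (Idx k t) F) = permM k F σ := rfl

theorem pureGL_inv (gs : Fin t → GL (Fin k) F) : (pureGL gs)⁻¹ = pureGL (fun i => (gs i)⁻¹) := by
  apply Units.ext
  rfl

theorem permGL_inv (σ : Equiv.Perm (Fin t)) : (permGL k F σ)⁻¹ = permGL k F σ⁻¹ := by
  apply Units.ext
  rfl

theorem pureGL_mul (gs hs : Fin t → GL (Fin k) F) : pureGL gs * pureGL hs = pureGL (fun i => gs i * hs i) := by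
  apply Units.ext
  rw [Units.val_mul, pureGL_coe, pureGL_coe, pureGL_coe, pureM_mul]
  simp only [Units.val_mul]

theorem permGL_mul (σ τ : Equiv.Perm (Fin t)) : permGL k F σ * permGL k F τ = permGL k F (σ * τ) := by
  apply Units.ext
  rw [Units.val_mul, permGL_coe, permGL_coe, permGL_coe, permM_mul]

theorem permGL_mul_pureGL (σ : Equiv.Perm (Fin t)) (gs : Fin t → GL (Fin k) F) :
    permGL k F σ * pureGL gs = pureGL (fun i => gs (σ⁻¹ i)) * permGL k F σ := by
  apply Units.ext
  rw [Units.val_mul, Units.val_mul, permGL_coe, pureGL_coe, pureGL_coe, permM_mul_pureM]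

/-- Normal form of elements of the standard tensor-wreath subgroup. -/
theorem nf_of_mem {g : GL (Idx k t) F} (hg : g ∈ Cfsg.Geo.tensorWreathStandard k t F) :
    ∃ (gs : Fin t → GL (Fin k) F) (σ : Equiv.Perm (Fin t)), g = pureGL gs * permGL k F σ := by
  induction hg using Subgroup.closure_induction with
  | mem x hx =>
    rcases hx with ⟨gs, h⟩ | ⟨σ, h⟩
    · refine ⟨gs, 1, ?_⟩
      apply Units.ext
      rw [Units.val_mul, permGL_coe, permM_one, mul_one, pureGL_coe]
      ext a b
      exact h a b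
    · refine ⟨1, σ, ?_⟩
      apply Units.ext
      rw [Units.val_mul, permGL_coe, pureGL_coe]
      simp only [Pi.one_apply, Units.val_one, pureM_one, one_mul]
      ext a b
      rw [h a b]
      rfl
  | one =>
    refine ⟨1, 1, ?_⟩
    apply Units.ext
    rw [Units.val_mul, permGL_coe, permM_one, mul_one, pureGL_coe]
    simp only [Pi.one_apply, Units.val_one, pureM_one]
  | mul x y _ _ hx hy =>
    obtain ⟨gs, σ, rfl⟩ := hx
    obtain ⟨hs, τ, rfl⟩ := hy
    refine ⟨fun i => gs i * hs (σ⁻¹ i), σ * τ, ?_⟩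
    rw [← pureGL_mul, ← permGL_mul]
    calc pureGL gs * permGL k F σ * (pureGL hs * permGL k F τ)
        = pureGL gs * (permGL k F σ * pureGL hs) * permGL k F τ := by group
      _ = pureGL gs * (pureGL (fun i => hs (σ⁻¹ i)) * permGL k F σ) * permGL k F τ := by rw [permGL_mul_pureGL]
      _ = _ := by group
  | inv x _ hx =>
    obtain ⟨gs, σ, rfl⟩ := hx
    refine ⟨fun i => (gs (σ i))⁻¹, σ⁻¹, ?_⟩
    rw [_root_.mul_inv_rev, permGL_inv, pureGL_inv, permGL_mul_pureGL]
    simp

/-- Every element of the standard tensor-wreath subgroup maps pure vectors to pure vectors. -/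
theorem pure_of_mem {g : GL (Idx k t) F} (hg : g ∈ Cfsg.Geo.tensorWreathStandard k t F) {z : Idx k t → F}
    (hz : IsPureVec z) : IsPureVec ((g : Matrix (Idx k t) (Idx k t) F) *ᵥ z) := by
  obtain ⟨gs, σ, rfl⟩ := nf_of_mem hg
  rw [Units.val_mul, ← Matrix.mulVec_mulVec, permGL_coe, pureGL_coe]
  exact (hz.permM_mulVec σ).pureM_mulVec _

namespace Std

variable (S : Std F k)

/-- A tensor power of matrices equal to the power of `J` has factors proportional to `J`. -/
theorem factor_eq (ms : Fin t → Matrix (Fin k) (Fin k) F) (h : pureM ms = S.bigJ t) (i : Fin t) :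
    ∃ μ : F, μ ≠ 0 ∧ ms i = μ • S.J := by
  classical
  let a₀ : Idx k t := fun _ => S.α
  let b₀ : Idx k t := fun _ => S.star S.α
  let R : F := ∏ l ∈ Finset.univ.erase i, ms l S.α (S.star S.α)
  have key : ∀ p q, ms i p q * R = S.J p q := by
    intro p q
    have h1 := congrFun (congrFun h (Function.update a₀ i p)) (Function.update b₀ i q)
    rw [pureM_apply, bigJ, pureM_apply, ← Finset.mul_prod_erase Finset.univ _ (Finset.mem_univ i),
      ← Finset.mul_prod_erase Finset.univ (fun l => S.J (Function.update a₀ i p l) (Function.update b₀ i q l))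
        (Finset.mem_univ i)] at h1
    simp only [Function.update_self] at h1
    have h2 : ∏ x ∈ Finset.univ.erase i, ms x (Function.update a₀ i p x) (Function.update b₀ i q x) = R := by
      refine Finset.prod_congr rfl fun l hl => ?_
      have := Finset.ne_of_mem_erase hl
      rw [Function.update_of_ne this, Function.update_of_ne this]
    have h3 : ∏ x ∈ Finset.univ.erase i, S.J (Function.update a₀ i p x) (Function.update b₀ i q x) = 1 := by
      apply Finset.prod_eq_one
      intro l hl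
      have := Finset.ne_of_mem_erase hl
      rw [Function.update_of_ne this, Function.update_of_ne this]
      exact S.J_star _
    rw [h2, h3, mul_one] at h1
    exact h1
  have hR : R ≠ 0 := by
    intro h0
    have := key S.α (S.star S.α)
    rw [h0, mul_zero, S.J_star] at this
    exact zero_ne_one this
  refine ⟨R⁻¹, inv_ne_zero hR, ?_⟩
  ext p q
  rw [Matrix.smul_apply, smul_eq_mul, ← key p q]
  field_simp

end Std

end Cfsg.Agent.Lib.TensSpinB
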