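/-
TensSpinC: isometries of a quadratic form whose polar form is a tensor power of the standard symplectic form and which
vanishes on pure tensors.  Criteria for isometries, the two involutions in the Clifford subspace and their commutator.
-/
import Mathlib
import Cfsg.Prelude.Def_GeometricClasses
import Cfsg.Agent.Lib.TensSpinB

set_option autoImplicit false

namespace Cfsg.Agent.Lib.TensSpinC

open Matrix Cfsg.Agent.Lib.TensSpinA Cfsg.Agent.Lib.TensSpinB
open scoped MatrixGroups

variable {F : Type*} [Field F] {k t : ℕ}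

/-- The properties of the quadratic form used below. -/
structure QData (S : Std F k) (Q : (Idx k t → F) → F) (c : F) : Prop where
  c_ne : c ≠ 0
  smul : ∀ (l : F) (v : Idx k t → F), Q (l • v) = l ^ 2 * Q v
  polar : ∀ x y : Idx k t → F, Q (x + y) = Q x + Q y + c * (x ⬝ᵥ (S.bigJ t *ᵥ y))
  pure : ∀ z : Idx k t → F, IsPureVec z → Q z = 0

variable {S : Std F k} {Q : (Idx k t → F) → F} {c : F}

/-- The dot product of two columns. -/
theorem dot_formula (S : Std F k) (A B : Matrix (Idx k t) (Idx k t) F) (a b : Idx k t) :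
    (A *ᵥ (Pi.single a 1)) ⬝ᵥ (S.bigJ t *ᵥ (B *ᵥ (Pi.single b 1))) = (Aᵀ * S.bigJ t * B) a b := by
  rw [Matrix.mulVec_mulVec, Matrix.mulVec_single_one, Matrix.mulVec_single_one, Matrix.mul_assoc,
    Matrix.mul_apply]
  rfl

theorem preserve_J (h : QData S Q c) (g : Matrix (Idx k t) (Idx k t) F) (hg : ∀ v, Q (g *ᵥ v) = Q v) :
    gᵀ * S.bigJ t * g = S.bigJ t := by
  have hdot : ∀ x y, (g *ᵥ x) ⬝ᵥ (S.bigJ t *ᵥ (g *ᵥ y)) = x ⬝ᵥ (S.bigJ t *ᵥ y) := by
    intro x y
    have h1 := h.polar (g *ᵥ x) (g *ᵥ y)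
    have h2 := h.polar x y
    rw [← Matrix.mulVec_add, hg, hg, hg, h2] at h1
    have h3 := add_left_cancel h1
    exact (mul_left_cancel₀ h.c_ne h3).symm
  ext a b
  rw [← dot_formula, hdot]
  have := dot_formula S (1 : Matrix (Idx k t) (Idx k t) F) 1 a b
  simp only [Matrix.one_mulVec, Matrix.transpose_one, Matrix.one_mul, Matrix.mul_one] at this
  exact this

section CharTwo

variable [CharP F 2]

theorem iso_of (h : QData S Q c) (g : Matrix (Idx k t) (Idx k t) F) (hJ : gᵀ * S.bigJ t * g = S.bigJ t)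
    (h0 : ∀ a, Q (g *ᵥ (Pi.single a 1)) = 0) (v : Idx k t → F) : Q (g *ᵥ v) = Q v := by
  classical
  have h2 : (2 : F) = 0 := CharTwo.two_eq_zero
  have hdot : ∀ x y, (g *ᵥ x) ⬝ᵥ (S.bigJ t *ᵥ (g *ᵥ y)) = x ⬝ᵥ (S.bigJ t *ᵥ y) := by
    intro x y
    have : (g *ᵥ x) ⬝ᵥ (S.bigJ t *ᵥ (g *ᵥ y)) = x ⬝ᵥ (gᵀ *ᵥ (S.bigJ t *ᵥ (g *ᵥ y))) := by
      rw [dotProduct_comm, Matrix.dotProduct_mulVec, Matrix.mulVec_transpose, dotProduct_comm]
    rw [this, Matrix.mulVec_mulVec, Matrix.mulVec_mulVec, hJ]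
  let L : (Idx k t → F) → F := fun x => Q (g *ᵥ x) + Q x
  have hadd : ∀ x y, L (x + y) = L x + L y := by
    intro x y
    show Q (g *ᵥ (x + y)) + Q (x + y) = Q (g *ᵥ x) + Q x + (Q (g *ᵥ y) + Q y)
    rw [Matrix.mulVec_add, h.polar, h.polar x y, hdot]
    linear_combination (c * (x ⬝ᵥ (S.bigJ t *ᵥ y))) * h2
  have hzero : L 0 = 0 := by
    have := hadd 0 0
    rw [add_zero] at this
    exact left_eq_add.mp this
  have hsingle : ∀ (a : Idx k t) (l : F), L (Pi.single a l) = 0 := by
    intro a l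
    have e : (Pi.single a l : Idx k t → F) = l • Pi.single a 1 := by
      rw [← Pi.single_smul, smul_eq_mul, mul_one]
    show Q (g *ᵥ (Pi.single a l)) + Q (Pi.single a l) = 0
    rw [e, Matrix.mulVec_smul, h.smul, h.smul, h0, h.pure _ (isPureVec_single a)]
    ring
  have hsum : ∀ s : Finset (Idx k t), L (∑ a ∈ s, Pi.single a (v a)) = 0 := by
    intro s
    induction s using Finset.induction_on with
    | empty => simpa using hzero
    | insert a s ha ih => rw [Finset.sum_insert ha, hadd, hsingle, ih, add_zero]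
  have := hsum Finset.univ
  rw [Finset.univ_sum_single] at this
  have h3 : Q (g *ᵥ v) + Q v = 0 := this
  have h4 : Q v + Q v = 0 := CharTwo.add_self_eq_zero _
  exact add_right_cancel (h3.trans h4.symm)

/-- The `J`-condition for `1 + y`. -/
theorem J_one_add (S : Std F k) {y : Matrix (Idx k t) (Idx k t) F} (hy : yᵀ * S.bigJ t = S.bigJ t * y) (hyy : y * y = 0) :
    (1 + y)ᵀ * S.bigJ t * (1 + y) = S.bigJ t := by
  have e : (1 + yᵀ) * S.bigJ t * (1 + y) = S.bigJ t + S.bigJ t * y + yᵀ * S.bigJ t + yᵀ * S.bigJ t * y := by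
    noncomm_ring
  rw [Matrix.transpose_add, Matrix.transpose_one, e, hy, Matrix.mul_assoc, hyy, mul_zero, add_zero, add_assoc,
    Std.mat_add_self, add_zero]

end CharTwo

theorem tens_sa (S : Std F k) (i : Fin t) {s : Matrix (Fin k) (Fin k) F} (hs : S.good s) :
    (tens i s)ᵀ * S.bigJ t = S.bigJ t * tens i s := by
  rw [tens_transpose, tens, tens, Std.bigJ, pureM_mul, pureM_mul]
  congr 1
  funext l
  by_cases h : l = i
  · subst h
    simp [S.good_sa s hs]
  · simp [Function.update_of_ne h]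

/-- The nilpotent part of the first involution. -/
def yM (S : Std F k) (i₁ i₂ : Fin t) : Matrix (Idx k t) (Idx k t) F := tens i₁ S.s + tens i₂ S.s

/-- The nilpotent part of the second involution. -/
def zM (S : Std F k) (i₁ : Fin t) : Matrix (Idx k t) (Idx k t) F := tens i₁ S.r

section CharTwo

variable [CharP F 2]

theorem yM_sq (S : Std F k) {i₁ i₂ : Fin t} (hi : i₁ ≠ i₂) : yM S i₁ i₂ * yM S i₁ i₂ = 0 := by
  rw [yM, add_mul, mul_add, mul_add, tens_mul_same, tens_mul_same, S.s_sq, tens_comm hi.symm]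
  simp only [tens_zero, zero_add, add_zero]
  rw [Std.mat_add_self]

theorem zM_sq (S : Std F k) (i₁ : Fin t) : zM S i₁ * zM S i₁ = 0 := by
  rw [zM, tens_mul_same, S.r_sq, tens_zero]

theorem yz_anti (S : Std F k) {i₁ i₂ : Fin t} (hi : i₁ ≠ i₂) :
    yM S i₁ i₂ * zM S i₁ + zM S i₁ * yM S i₁ i₂ = 1 := by
  rw [yM, zM, add_mul, mul_add, tens_mul_same, tens_mul_same, tens_comm hi.symm]
  have : tens i₁ (S.s * S.r) + tens i₁ S.r * tens i₂ S.s + (tens i₁ (S.r * S.s) + tens i₁ S.r * tens i₂ S.s) =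
      tens i₁ (S.s * S.r + S.r * S.s) + (tens i₁ S.r * tens i₂ S.s + tens i₁ S.r * tens i₂ S.s) := by
    rw [tens_add]
    abel
  rw [this, S.anti, tens_one, Std.mat_add_self, add_zero]

/-- The group identity for the commutator of two involutions `1 + y`, `1 + z`. -/
theorem comm_formula {ι : Type*} [Fintype ι] [DecidableEq ι] {y z : Matrix ι ι F} (hy : y * y = 0) (hz : z * z = 0)
    (hyz : y * z + z * y = 1) : (1 + y) * (1 + z) * (1 + y) * (1 + z) = y + z + y * z := by
  have hch : ∀ w : Matrix ι ι F, w + w = 0 := Std.mat_add_self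
  have hzy : z * y = 1 + y * z := by
    rw [← hyz, add_comm (y * z), add_assoc, hch, add_zero]
  have h1 : y * z * y = y := by
    rw [Matrix.mul_assoc, hzy, mul_add, mul_one, ← Matrix.mul_assoc, hy, zero_mul, add_zero]
  have h2 : z * y * z = z := by
    rw [hzy, add_mul, one_mul, Matrix.mul_assoc, hz, mul_zero, add_zero]
  have h3 : y * z * (y * z) = y * z := by
    rw [← Matrix.mul_assoc, h1]
  have expand : (1 + y) * (1 + z) * (1 + y) * (1 + z) =
      1 + y + z + y * z + (y + y * y + y * z + y * y * z) + (z + z * y + z * z + z * y * z) +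
        (y * z + y * z * y + y * (z * z) + y * z * (y * z)) := by
    noncomm_ring
  rw [expand, hy, hz, hzy, h1, h3]
  have h4 : (1 + y * z) * z = z := by rw [← hzy, h2]
  rw [h4, zero_mul, mul_zero]
  have : (1 : Matrix ι ι F) + y + z + y * z + (y + 0 + y * z + 0) + (z + (1 + y * z) + 0 + z) + (y * z + y + 0 + y * z) =
      y + z + y * z + (1 + 1) + (y + y) + (z + z) + (y * z + y * z) + (y * z + y * z) := by
    abel
  rw [this, hch, hch, hch, hch]
  abel

/-- An involutive matrix as a unit. -/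
def invGL {ι : Type} [Fintype ι] [DecidableEq ι] (m : Matrix ι ι F) (h : m * m = 1) : GL ι F where
  val := m
  inv := m
  val_inv := h
  inv_val := h

theorem invGL_inv {ι : Type} [Fintype ι] [DecidableEq ι] (m : Matrix ι ι F) (h : m * m = 1) :
    (invGL m h)⁻¹ = invGL m h := by
  apply Units.ext
  rfl

theorem one_add_sq {ι : Type*} [Fintype ι] [DecidableEq ι] {y : Matrix ι ι F} (hy : y * y = 0) :
    (1 + y) * (1 + y) = 1 := by
  rw [add_mul, mul_add, mul_add, one_mul, one_mul, mul_one, hy, add_zero, add_assoc, Std.mat_add_self, add_zero]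

/-- Membership of an involution of `U` in the normalizer. -/
theorem invGL_mem_normU (S : Std F k) {m : Matrix (Idx k t) (Idx k t) F} (hm : m ∈ S.U t) (h : m * m = 1) :
    invGL m h ∈ S.normU t := by
  apply S.mem_normU_of
  · intro y hy
    exact S.conj_U hm h hy
  · intro y hy
    exact S.conj_U hm h hy

end CharTwo

end Cfsg.Agent.Lib.TensSpinC
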