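/-
TensSpinD: the stabilizer in Ω of the tensor decomposition lies in the stabilizer of the Clifford subspace; the latter
contains a further element and does not contain Ω.
-/
import Mathlib
import Cfsg.Prelude.Def_GeometricClasses
import Cfsg.Agent.Lib.TensSpinC

set_option autoImplicit false
set_option linter.unusedSectionVars false

namespace Cfsg.Agent.Lib.TensSpinD

open Matrix Cfsg.Agent.Lib.TensSpinA Cfsg.Agent.Lib.TensSpinB Cfsg.Agent.Lib.TensSpinC
open scoped MatrixGroups commutatorElement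

variable {F : Type*} [Field F] {k t : ℕ}

theorem mem_iso {ι : Type} [Fintype ι] [DecidableEq ι] {Q : (ι → F) → F} {g : GL ι F} :
    g ∈ Cfsg.isometryGroup F Q ↔ ∀ v, Q ((g : Matrix ι ι F) *ᵥ v) = Q v :=
  ⟨fun h v => h v v, fun h u _ => h u⟩

theorem omega_le_iso {ι : Type} [Fintype ι] [DecidableEq ι] (Q : (ι → F) → F) :
    Cfsg.Geo.omegaGL Q ≤ Cfsg.isometryGroup F Q := by
  rintro g ⟨h, -, rfl⟩
  exact h.2

theorem comm_mem_omega {ι : Type} [Fintype ι] [DecidableEq ι] {Q : (ι → F) → F} {a b : GL ι F}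
    (ha : a ∈ Cfsg.isometryGroup F Q) (hb : b ∈ Cfsg.isometryGroup F Q) : ⁅a, b⁆ ∈ Cfsg.Geo.omegaGL Q := by
  refine ⟨⁅(⟨a, ha⟩ : Cfsg.isometryGroup F Q), ⟨b, hb⟩⁆, ?_, rfl⟩
  exact Subgroup.commutator_mem_commutator (Subgroup.mem_top _) (Subgroup.mem_top _)

section StdPart

variable (S : Std F k)

/-- Conjugation extends from the generators to `U`. -/
theorem conj_mem_of_gens (A B : Matrix (Idx k t) (Idx k t) F) (h : ∀ y ∈ S.gens t, A * y * B ∈ S.U t) :
    ∀ y ∈ S.U t, A * y * B ∈ S.U t := by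
  intro y hy
  induction hy using Submodule.span_induction with
  | mem y hy => exact h y hy
  | zero => simp
  | add a b _ _ ha hb =>
    rw [mul_add, add_mul]
    exact (S.U t).add_mem ha hb
  | smul c a _ ha =>
    rw [mul_smul_comm, smul_mul_assoc]
    exact (S.U t).smul_mem c ha

theorem pure_conj_tens (g g' : Fin t → Matrix (Fin k) (Fin k) F) (hg : ∀ i, g i * g' i = 1) (i : Fin t)
    (s : Matrix (Fin k) (Fin k) F) :
    pureM g * tens i s * pureM g' = tens i (g i * s * g' i) := by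
  rw [tens, tens, pureM_mul, pureM_mul]
  congr 1
  funext l
  by_cases h : l = i
  · subst h
    simp
  · simp [Function.update_of_ne h, hg l]

/-- The forward conjugation by a similarity pure tensor. -/
theorem pure_conj_mem (g g' : Fin t → Matrix (Fin k) (Fin k) F) (hg : ∀ i, g i * g' i = 1) (hg' : ∀ i, g' i * g i = 1)
    (hsim : ∀ i, ∃ μ : F, μ ≠ 0 ∧ (g i)ᵀ * S.J * g i = μ • S.J) :
    ∀ y ∈ S.U t, pureM g * y * pureM g' ∈ S.U t := by
  apply conj_mem_of_gens S
  rintro y (rfl | ⟨i, s, hs, rfl⟩)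
  · rw [mul_one, pureM_mul]
    have : (fun i => g i * g' i) = fun _ => 1 := funext hg
    rw [this, pureM_one]
    exact S.one_mem_U
  · rw [pure_conj_tens g g' hg]
    obtain ⟨μ, hμ, h⟩ := hsim i
    exact S.tens_mem_U i (S.good_conj _ _ μ (hg i) (hg' i) h hμ s hs)

theorem sim_inv {g g' : Matrix (Fin k) (Fin k) F} (h1 : g * g' = 1) {μ : F} (hμ : μ ≠ 0)
    (h : gᵀ * S.J * g = μ • S.J) : g'ᵀ * S.J * g' = μ⁻¹ • S.J := by
  have h2 : g'ᵀ * (gᵀ * S.J * g) * g' = S.J := by
    calc g'ᵀ * (gᵀ * S.J * g) * g' = (g'ᵀ * gᵀ) * S.J * (g * g') := by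
          simp only [Matrix.mul_assoc]
      _ = S.J := by
          rw [← Matrix.transpose_mul, h1, Matrix.transpose_one, one_mul, mul_one]
  rw [h, Matrix.mul_smul, Matrix.smul_mul] at h2
  calc g'ᵀ * S.J * g' = μ⁻¹ • (μ • (g'ᵀ * S.J * g')) := by rw [smul_smul, inv_mul_cancel₀ hμ, one_smul]
    _ = μ⁻¹ • S.J := by rw [h2]

theorem pureGL_mem_normU (gs : Fin t → GL (Fin k) F)
    (hsim : ∀ i, ∃ μ : F, μ ≠ 0 ∧ ((gs i : Matrix (Fin k) (Fin k) F))ᵀ * S.J * (gs i : Matrix (Fin k) (Fin k) F) = μ • S.J) :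
    pureGL gs ∈ S.normU t := by
  have e1 : ∀ i, (gs i : Matrix (Fin k) (Fin k) F) * (((gs i)⁻¹ : GL (Fin k) F) : Matrix (Fin k) (Fin k) F) = 1 := by
    intro i
    rw [← Units.val_mul, mul_inv_cancel, Units.val_one]
  have e2 : ∀ i, (((gs i)⁻¹ : GL (Fin k) F) : Matrix (Fin k) (Fin k) F) * (gs i : Matrix (Fin k) (Fin k) F) = 1 := by
    intro i
    rw [← Units.val_mul, inv_mul_cancel, Units.val_one]
  apply S.mem_normU_of
  · intro y hy
    rw [pureGL_inv, pureGL_coe, pureGL_coe]
    exact pure_conj_mem S _ _ e1 e2 hsim y hy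
  · intro y hy
    rw [pureGL_inv, pureGL_coe, pureGL_coe]
    refine pure_conj_mem S _ _ e2 e1 (fun i => ?_) y hy
    obtain ⟨μ, hμ, h⟩ := hsim i
    exact ⟨μ⁻¹, inv_ne_zero hμ, sim_inv S (e1 i) hμ h⟩

theorem perm_conj_mem (σ : Equiv.Perm (Fin t)) : ∀ y ∈ S.U t, permM k F σ * y * permM k F σ⁻¹ ∈ S.U t := by
  apply conj_mem_of_gens S
  rintro y (rfl | ⟨i, s, hs, rfl⟩)
  · rw [mul_one, permM_mul, mul_inv_cancel, permM_one]
    exact S.one_mem_U
  · rw [permM_conj_tens]
    exact S.tens_mem_U _ hs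

theorem permGL_mem_normU (σ : Equiv.Perm (Fin t)) : permGL k F σ ∈ S.normU t := by
  apply S.mem_normU_of
  · intro y hy
    rw [permGL_inv, permGL_coe, permGL_coe]
    exact perm_conj_mem S σ y hy
  · intro y hy
    rw [permGL_inv, permGL_coe, permGL_coe]
    have := perm_conj_mem S σ⁻¹ y hy
    rwa [inv_inv] at this

theorem perm_J (σ : Equiv.Perm (Fin t)) : (permM k F σ)ᵀ * S.bigJ t * permM k F σ = S.bigJ t := by
  rw [permM_transpose, TensSpinB.Std.bigJ]
  have := permM_conj_pureM (k := k) (F := F) σ⁻¹ (fun _ : Fin t => S.J)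
  rwa [inv_inv] at this

variable [CharP F 2]

/-- The intersection of the tensor-wreath subgroup with the isometries normalizes `U`. -/
theorem wreath_le_normU {Q : (Idx k t → F) → F} {c : F} (h : QData S Q c) {g : GL (Idx k t) F}
    (hg : g ∈ Cfsg.Geo.tensorWreathStandard k t F) (hiso : g ∈ Cfsg.isometryGroup F Q) : g ∈ S.normU t := by
  obtain ⟨gs, σ, rfl⟩ := nf_of_mem hg
  refine (S.normU t).mul_mem (pureGL_mem_normU S gs ?_) (permGL_mem_normU S σ)
  have hJ := preserve_J h _ (mem_iso.1 hiso)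
  rw [Units.val_mul, permGL_coe, pureGL_coe, Matrix.transpose_mul] at hJ
  set a := pureM (fun i => (gs i : Matrix (Fin k) (Fin k) F)) with ha
  have h1 : aᵀ * S.bigJ t * a = S.bigJ t := by
    have h2 : (permM k F σ⁻¹)ᵀ * ((permM k F σ)ᵀ * aᵀ * S.bigJ t * (a * permM k F σ)) * permM k F σ⁻¹ =
        S.bigJ t := by
      rw [hJ]
      exact perm_J S σ⁻¹
    have e1 : permM k F σ * permM k F σ⁻¹ = (1 : Matrix (Idx k t) (Idx k t) F) := by
      rw [permM_mul, mul_inv_cancel, permM_one]
    have e2 : (permM k F σ⁻¹)ᵀ * (permM k F σ)ᵀ = (1 : Matrix (Idx k t) (Idx k t) F) := by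
      rw [← Matrix.transpose_mul, e1, Matrix.transpose_one]
    calc aᵀ * S.bigJ t * a = ((permM k F σ⁻¹)ᵀ * (permM k F σ)ᵀ) * aᵀ * S.bigJ t * a * (permM k F σ * permM k F σ⁻¹) := by
          rw [e1, e2, one_mul, mul_one]
      _ = (permM k F σ⁻¹)ᵀ * ((permM k F σ)ᵀ * aᵀ * S.bigJ t * (a * permM k F σ)) * permM k F σ⁻¹ := by
          simp only [Matrix.mul_assoc]
      _ = S.bigJ t := h2
  intro i
  rw [ha, pureM_transpose, TensSpinB.Std.bigJ, pureM_mul, pureM_mul] at h1
  exact S.factor_eq _ h1 i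

end StdPart

section Points

variable (S : Std F k) {i₁ i₂ : Fin t}

theorem exists_third (ht : 3 ≤ t) (i₁ i₂ : Fin t) : ∃ l, l ≠ i₁ ∧ l ≠ i₂ := by
  by_contra h
  push Not at h
  have hsub : (Finset.univ : Finset (Fin t)) ⊆ {i₁, i₂} := by
    intro l _
    by_cases hl : l = i₁
    · simp [hl]
    · simp [h l hl]
  have := Finset.card_le_card hsub
  rw [Finset.card_univ, Fintype.card_fin] at this
  have h2 := Finset.card_le_two (a := i₁) (b := i₂)
  omega

/-- The coordinates of the four points used below. -/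
def PP (i₁ i₂ : Fin t) (x : Idx k t) : Prop :=
  (x i₁ = S.α ∨ x i₁ = S.β) ∧ ∀ l, l ≠ i₁ → l ≠ i₂ → x l = S.β

theorem no_star (hc : 3 ≤ t ∨ S.star S.α ≠ S.β) {x y : Idx k t} (hx : PP S i₁ i₂ x) (hy : PP S i₁ i₂ y) :
    x ≠ S.Star y := by
  intro h
  rcases hc with hc | hc
  · obtain ⟨l, h1, h2⟩ := exists_third hc i₁ i₂
    have e := congrFun h l
    rw [hx.2 l h1 h2] at e
    have e2 : S.Star y l = S.star S.β := by
      show S.star (y l) = _
      rw [hy.2 l h1 h2]
    rw [e2] at e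
    exact S.star_ne _ e.symm
  · have e : x i₁ = S.star (y i₁) := congrFun h i₁
    have hb : S.star S.β ≠ S.α := by
      intro h3
      apply hc
      rw [← h3, S.star_star]
    rcases hx.1 with h1 | h1 <;> rcases hy.1 with h2 | h2 <;> rw [h1, h2] at e
    · exact S.star_ne _ e.symm
    · exact hb e.symm
    · exact hc e.symm
    · exact S.star_ne _ e.symm

/-- A double transposition commuting with `star`. -/
def tau (x y : Idx k t) : Equiv.Perm (Idx k t) := Equiv.swap x y * Equiv.swap (S.Star x) (S.Star y)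

theorem tau_star {x y : Idx k t} (h1 : x ≠ S.Star x) (h2 : x ≠ S.Star y) (h3 : y ≠ S.Star x) (h4 : y ≠ S.Star y)
    (a : Idx k t) : tau S x y (S.Star a) = S.Star (tau S x y a) := by
  have hf : ∀ u v : Idx k t, S.StarP t * Equiv.swap u v = Equiv.swap (S.Star u) (S.Star v) * S.StarP t := by
    intro u v
    have := Equiv.swap_apply_apply (S.StarP t) u v
    have e : Equiv.swap (S.Star u) (S.Star v) = S.StarP t * Equiv.swap u v * (S.StarP t)⁻¹ := this
    rw [e]
    group
  have hd : Equiv.swap (S.Star x) (S.Star y) * Equiv.swap x y = Equiv.swap x y * Equiv.swap (S.Star x) (S.Star y) := by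
    have : Equiv.Perm.Disjoint (Equiv.swap x y) (Equiv.swap (S.Star x) (S.Star y)) := by
      intro z
      by_cases hz : z = x ∨ z = y
      · right
        rcases hz with rfl | rfl
        · exact Equiv.swap_apply_of_ne_of_ne h1 h2
        · exact Equiv.swap_apply_of_ne_of_ne h3 h4
      · left
        push Not at hz
        exact Equiv.swap_apply_of_ne_of_ne hz.1 hz.2
    exact this.commute.symm.eq
  have key : S.StarP t * tau S x y = tau S x y * S.StarP t := by
    rw [tau, ← mul_assoc, hf, mul_assoc, hf]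
    have e1 : S.Star (S.Star x) = x := S.Star_Star x
    have e2 : S.Star (S.Star y) = y := S.Star_Star y
    rw [e1, e2, ← mul_assoc, hd]
  have := congrArg (fun f : Equiv.Perm (Idx k t) => f a) key
  exact this.symm

end Points

/-! ### Monomial matrices -/

section Monom

variable {ι : Type} [Fintype ι] [DecidableEq ι]

/-- The monomial matrix of a permutation of the basis. -/
def monom (F : Type*) [Field F] (π : Equiv.Perm ι) : Matrix ι ι F := fun x y => if x = π y then 1 else 0

theorem monom_mul (π ρ : Equiv.Perm ι) : monom F π * monom F ρ = monom F (π * ρ) := by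
  ext x y
  rw [Matrix.mul_apply, Finset.sum_eq_single (ρ y)]
  · simp [monom]
    rfl
  · intro z _ hz
    simp [monom, hz]
  · simp

theorem monom_one : monom F (1 : Equiv.Perm ι) = 1 := by
  ext x y
  simp [monom, Matrix.one_apply]
  rfl

/-- The monomial unit. -/
def monomGL (F : Type*) [Field F] (π : Equiv.Perm ι) : GL ι F where
  val := monom F π
  inv := monom F π⁻¹
  val_inv := by rw [monom_mul, mul_inv_cancel, monom_one]
  inv_val := by rw [monom_mul, inv_mul_cancel, monom_one]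

theorem monomGL_mul (π ρ : Equiv.Perm ι) : monomGL F π * monomGL F ρ = monomGL F (π * ρ) := by
  apply Units.ext
  exact monom_mul π ρ

theorem monomGL_inv (π : Equiv.Perm ι) : (monomGL F π)⁻¹ = monomGL F π⁻¹ := by
  apply Units.ext
  rfl

theorem monomGL_comm (π ρ : Equiv.Perm ι) : ⁅monomGL F π, monomGL F ρ⁆ = monomGL F ⁅π, ρ⁆ := by
  rw [commutatorElement_def, commutatorElement_def, monomGL_inv, monomGL_inv, monomGL_mul, monomGL_mul, monomGL_mul]

theorem monom_mulVec_single (π : Equiv.Perm ι) (a : ι) :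
    monom F π *ᵥ (Pi.single a 1) = Pi.single (π a) (1 : F) := by
  rw [Matrix.mulVec_single_one]
  funext c
  by_cases h : c = π a
  · subst h
    simp [monom]
  · rw [Pi.single_eq_of_ne h]
    simp [monom, h]

theorem monom_conj_apply (π : Equiv.Perm ι) (M : Matrix ι ι F) (x y : ι) :
    (monom F π * M * monom F π⁻¹) (π x) (π y) = M x y := by
  rw [Matrix.mul_apply, Finset.sum_eq_single y]
  · have h1 : monom F π⁻¹ y (π y) = (1 : F) := by simp [monom]
    rw [h1, mul_one, Matrix.mul_apply, Finset.sum_eq_single x]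
    · simp [monom]
    · intro z _ hz
      have : π x ≠ π z := fun h => hz (π.injective h).symm
      simp [monom, this]
    · simp
  · intro z _ hz
    have hne : z ≠ π⁻¹ (π y) := by simpa using hz
    have h0 : monom F π⁻¹ z (π y) = (0 : F) := if_neg hne
    rw [h0, mul_zero]
  · simp

end Monom

end Cfsg.Agent.Lib.TensSpinD
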