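/-
TensSpinE: the core statement.  For the standard data in a tensor power, the stabilizer of the Clifford subspace inside
Ω lies strictly between the stabilizer of the tensor decomposition and Ω.
-/
import Mathlib
import Cfsg.Prelude.Def_GeometricClasses
import Cfsg.Agent.Lib.TensSpinD

set_option autoImplicit false
set_option linter.unusedSectionVars false

namespace Cfsg.Agent.Lib.TensSpinE

open Matrix Cfsg.Agent.Lib.TensSpinA Cfsg.Agent.Lib.TensSpinB Cfsg.Agent.Lib.TensSpinC Cfsg.Agent.Lib.TensSpinD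
open scoped MatrixGroups commutatorElement

variable {F : Type*} [Field F] {k t : ℕ}

theorem pure_diag_zero (ms : Fin t → Matrix (Fin k) (Fin k) F) (l : Fin t) (h : ∀ p, ms l p p = 0) (a : Idx k t) :
    pureM ms a a = 0 := by
  rw [pureM_apply]
  exact Finset.prod_eq_zero (Finset.mem_univ l) (h _)

variable (S : Std F k) {i₁ i₂ : Fin t} {Q : (Idx k t → F) → F} {c : F}

theorem dot_single_tens (i l : Fin t) (hl : l ≠ i) (s : Matrix (Fin k) (Fin k) F) (a : Idx k t) :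
    (Pi.single a (1 : F) : Idx k t → F) ⬝ᵥ (S.bigJ t *ᵥ (tens i s *ᵥ Pi.single a 1)) = 0 := by
  have h := dot_formula S (1 : Matrix (Idx k t) (Idx k t) F) (tens i s) a a
  simp only [Matrix.one_mulVec, Matrix.transpose_one, Matrix.one_mul] at h
  rw [h, TensSpinB.Std.bigJ, tens, pureM_mul]
  apply pure_diag_zero _ l
  intro p
  simp only [Function.update_of_ne hl, mul_one]
  exact S.J_diag p

theorem dot_tens_tens (hi : i₁ ≠ i₂) (hc : 3 ≤ t ∨ ∀ p, (S.sᵀ * S.J) p p = 0) (a : Idx k t) :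
    (tens i₁ S.s *ᵥ Pi.single a (1 : F)) ⬝ᵥ (S.bigJ t *ᵥ (tens i₂ S.s *ᵥ Pi.single a 1)) = 0 := by
  rw [dot_formula, tens_transpose, TensSpinB.Std.bigJ, tens, tens, pureM_mul, pureM_mul]
  rcases hc with hc | hc
  · obtain ⟨l, h1, h2⟩ := exists_third hc i₁ i₂
    apply pure_diag_zero _ l
    intro p
    simp only [Function.update_of_ne h1, Function.update_of_ne h2, one_mul, mul_one]
    exact S.J_diag p
  · apply pure_diag_zero _ i₁
    intro p
    simp only [Function.update_self, Function.update_of_ne hi, mul_one]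
    exact hc p

variable [CharP F 2]

theorem y_iso (h : QData S Q c) (hi : i₁ ≠ i₂) (hc : 3 ≤ t ∨ ∀ p, (S.sᵀ * S.J) p p = 0) :
    ∀ v, Q ((1 + yM S i₁ i₂) *ᵥ v) = Q v := by
  apply iso_of h
  · apply J_one_add S
    · rw [yM, Matrix.transpose_add, add_mul, mul_add, tens_sa S i₁ S.good_s, tens_sa S i₂ S.good_s]
    · exact yM_sq S hi
  · intro a
    have e : (1 + yM S i₁ i₂) *ᵥ Pi.single a (1 : F) =
        Pi.single a 1 + (tens i₁ S.s *ᵥ Pi.single a 1 + tens i₂ S.s *ᵥ Pi.single a 1) := by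
      rw [yM, Matrix.add_mulVec, Matrix.add_mulVec, Matrix.one_mulVec]
    have p0 : IsPureVec (Pi.single a (1 : F) : Idx k t → F) := isPureVec_single a
    have p1 : IsPureVec (tens i₁ S.s *ᵥ Pi.single a (1 : F)) := p0.pureM_mulVec _
    have p2 : IsPureVec (tens i₂ S.s *ᵥ Pi.single a (1 : F)) := p0.pureM_mulVec _
    rw [e, h.polar, h.polar (tens i₁ S.s *ᵥ Pi.single a 1), h.pure _ p0, h.pure _ p1, h.pure _ p2,
      Matrix.mulVec_add, dotProduct_add, dot_single_tens S i₁ i₂ hi.symm, dot_single_tens S i₂ i₁ hi,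
      dot_tens_tens S hi hc]
    simp

theorem z_iso (h : QData S Q c) : ∀ v, Q ((1 + zM S i₁) *ᵥ v) = Q v := by
  apply iso_of h
  · apply J_one_add S
    · exact tens_sa S i₁ S.good_r
    · exact zM_sq S i₁
  · intro a
    have e : 1 + zM S i₁ = tens i₁ (1 + S.r) := by rw [zM, tens_add, tens_one]
    rw [e]
    exact h.pure _ ((isPureVec_single a).pureM_mulVec _)

/-- The base point. -/
def a0 : Idx k t := fun _ => S.β

/-- The second point. -/
def a1 (i₁ : Fin t) : Idx k t := Function.update (a0 S) i₁ S.α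

/-- The third point. -/
def a2 (i₂ : Fin t) : Idx k t := Function.update (a0 S) i₂ S.α

/-- The fourth point. -/
def a3 (i₁ i₂ : Fin t) : Idx k t := Function.update (a1 S i₁) i₂ S.α

theorem zM_col (p : Idx k t) : zM S i₁ p (a0 S) = 0 := by
  by_cases hp : ∀ j, j ≠ i₁ → p j = a0 S j
  · rw [zM, tens_apply_of_eq _ hp]
    exact S.r_col _
  · push Not at hp
    obtain ⟨j, hj, hj2⟩ := hp
    exact tens_apply_eq_zero _ hj hj2

theorem yz_col (p : Idx k t) : (yM S i₁ i₂ * zM S i₁) p (a0 S) = 0 := by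
  rw [Matrix.mul_apply]
  apply Finset.sum_eq_zero
  intro q _
  rw [zM_col, mul_zero]

/-- The first new element. -/
theorem first_step (h : QData S Q c) (hi : i₁ ≠ i₂) (hc : 3 ≤ t ∨ ∀ p, (S.sᵀ * S.J) p p = 0) :
    ∃ v, v ∈ S.normU t ∧ v ∈ Cfsg.Geo.omegaGL Q ∧ v ∉ Cfsg.Geo.tensorWreathStandard k t F := by
  let U₀ : GL (Idx k t) F := invGL (1 + yM S i₁ i₂) (one_add_sq (yM_sq S hi))
  let X₀ : GL (Idx k t) F := invGL (1 + zM S i₁) (one_add_sq (zM_sq S i₁))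
  have hU₀ : U₀ ∈ Cfsg.isometryGroup F Q := mem_iso.2 (y_iso S h hi hc)
  have hX₀ : X₀ ∈ Cfsg.isometryGroup F Q := mem_iso.2 (z_iso S h)
  have hyU : (1 + yM S i₁ i₂) ∈ S.U t := by
    apply (S.U t).add_mem S.one_mem_U
    exact (S.U t).add_mem (S.tens_mem_U i₁ S.good_s) (S.tens_mem_U i₂ S.good_s)
  have hzU : (1 + zM S i₁) ∈ S.U t := (S.U t).add_mem S.one_mem_U (S.tens_mem_U i₁ S.good_r)
  have hU₁ : U₀ ∈ S.normU t := invGL_mem_normU S hyU _
  have hX₁ : X₀ ∈ S.normU t := invGL_mem_normU S hzU _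
  refine ⟨⁅U₀, X₀⁆, ?_, comm_mem_omega hU₀ hX₀, ?_⟩
  · rw [commutatorElement_def]
    exact (S.normU t).mul_mem ((S.normU t).mul_mem ((S.normU t).mul_mem hU₁ hX₁) ((S.normU t).inv_mem hU₁))
      ((S.normU t).inv_mem hX₁)
  · intro hv
    have hpure := pure_of_mem hv (isPureVec_single (F := F) (a0 S))
    have hcoe : ((⁅U₀, X₀⁆ : GL (Idx k t) F) : Matrix (Idx k t) (Idx k t) F) =
        yM S i₁ i₂ + zM S i₁ + yM S i₁ i₂ * zM S i₁ := by
      rw [commutatorElement_def, invGL_inv, invGL_inv]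
      rw [Units.val_mul, Units.val_mul, Units.val_mul]
      exact comm_formula (yM_sq S hi) (zM_sq S i₁) (yz_anti S hi)
    rw [hcoe, Matrix.mulVec_single_one] at hpure
    have hx := hpure.exchange hi (a0 S) S.α S.β rfl rfl
    have hw : ∀ p, (yM S i₁ i₂ + zM S i₁ + yM S i₁ i₂ * zM S i₁).col (a0 S) p = tens i₁ S.s p (a0 S) + tens i₂ S.s p (a0 S) := by
      intro p
      show (yM S i₁ i₂ + zM S i₁ + yM S i₁ i₂ * zM S i₁) p (a0 S) = _
      rw [Matrix.add_apply, Matrix.add_apply, zM_col, yz_col, add_zero, add_zero]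
      rfl
    simp only [hw] at hx
    have hαβ := S.hαβ
    have e1 : tens i₁ S.s (Function.update (a0 S) i₁ S.α) (a0 S) = 1 := by
      rw [tens_apply_of_eq _ (fun j hj => Function.update_of_ne hj _ _), Function.update_self]
      show S.s S.α S.β = 1
      rw [S.s_col, if_pos rfl]
    have e2 : tens i₂ S.s (Function.update (a0 S) i₁ S.α) (a0 S) = 0 := by
      apply tens_apply_eq_zero _ hi
      rw [Function.update_self]
      exact hαβ
    have e3 : tens i₁ S.s (Function.update (a0 S) i₂ S.α) (a0 S) = 0 := by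
      apply tens_apply_eq_zero _ hi.symm
      rw [Function.update_self]
      exact hαβ
    have e4 : tens i₂ S.s (Function.update (a0 S) i₂ S.α) (a0 S) = 1 := by
      rw [tens_apply_of_eq _ (fun j hj => Function.update_of_ne hj _ _), Function.update_self]
      show S.s S.α S.β = 1
      rw [S.s_col, if_pos rfl]
    have e5 : ∀ i : Fin t, tens i S.s (a0 S) (a0 S) = 0 := by
      intro i
      rw [tens_apply_of_eq _ (fun j _ => rfl)]
      show S.s S.β S.β = 0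
      rw [S.s_col, if_neg hαβ.symm]
    rw [e1, e2, e3, e4, e5, e5] at hx
    simp at hx

/-! ### The second element -/

theorem tau_fix {x y a : Idx k t} (h1 : a ≠ x) (h2 : a ≠ y) (h3 : a ≠ S.Star x) (h4 : a ≠ S.Star y) :
    tau S x y a = a := by
  rw [tau, Equiv.Perm.mul_apply, Equiv.swap_apply_of_ne_of_ne h3 h4, Equiv.swap_apply_of_ne_of_ne h1 h2]

theorem tau_left {x y : Idx k t} (h3 : x ≠ S.Star x) (h4 : x ≠ S.Star y) : tau S x y x = y := by
  rw [tau, Equiv.Perm.mul_apply, Equiv.swap_apply_of_ne_of_ne h3 h4, Equiv.swap_apply_left]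

theorem tau_right {x y : Idx k t} (h3 : y ≠ S.Star x) (h4 : y ≠ S.Star y) : tau S x y y = x := by
  rw [tau, Equiv.Perm.mul_apply, Equiv.swap_apply_of_ne_of_ne h3 h4, Equiv.swap_apply_right]

omit [CharP F 2] in
theorem monom_transpose {ι : Type} [Fintype ι] [DecidableEq ι] (π : Equiv.Perm ι) :
    (monom F π)ᵀ = monom F π⁻¹ := by
  ext x y
  show (if y = π x then (1 : F) else 0) = if x = π⁻¹ y then 1 else 0
  by_cases h : y = π x
  · rw [if_pos h, if_pos]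
    rw [h]
    simp
  · rw [if_neg h, if_neg]
    intro h2
    apply h
    rw [h2]
    simp

theorem monom_iso (h : QData S Q c) (π : Equiv.Perm (Idx k t)) (hπ : ∀ a, π (S.Star a) = S.Star (π a)) :
    monomGL F π ∈ Cfsg.isometryGroup F Q := by
  apply mem_iso.2
  apply iso_of h
  · show (monom F π)ᵀ * S.bigJ t * monom F π = S.bigJ t
    rw [monom_transpose]
    ext x y
    have := monom_conj_apply π⁻¹ (S.bigJ t) (π x) (π y)
    have ex : ∀ u : Idx k t, π⁻¹ (π u) = u := fun u => by simp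
    rw [inv_inv, ex, ex] at this
    rw [this, S.bigJ_apply, S.bigJ_apply, ← hπ]
    simp only [π.injective.eq_iff]
  · intro a
    show Q (monom F π *ᵥ _) = 0
    rw [monom_mulVec_single]
    exact h.pure _ (isPureVec_single _)

theorem second_step (h : QData S Q c) (hi : i₁ ≠ i₂) (hc : 3 ≤ t ∨ S.star S.α ≠ S.β) :
    ∃ ω, ω ∈ Cfsg.Geo.omegaGL Q ∧ ω ∉ S.normU t := by
  have hαβ := S.hαβ
  -- coordinates
  have c1 : a1 S i₁ i₁ = S.α := Function.update_self _ _ _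
  have c1' : ∀ l, l ≠ i₁ → a1 S i₁ l = S.β := fun l hl => Function.update_of_ne hl _ _
  have c2 : a2 S i₂ i₂ = S.α := Function.update_self _ _ _
  have c2' : ∀ l, l ≠ i₂ → a2 S i₂ l = S.β := fun l hl => Function.update_of_ne hl _ _
  have c3 : a3 S i₁ i₂ i₂ = S.α := Function.update_self _ _ _
  have c3' : a3 S i₁ i₂ i₁ = S.α := by
    rw [a3, Function.update_of_ne hi]
    exact c1
  have c3'' : ∀ l, l ≠ i₁ → l ≠ i₂ → a3 S i₁ i₂ l = S.β := fun l h1 h2 => by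
    rw [a3, Function.update_of_ne h2]
    exact c1' l h1
  have p0 : PP S i₁ i₂ (a0 S) := ⟨Or.inr rfl, fun _ _ _ => rfl⟩
  have p1 : PP S i₁ i₂ (a1 S i₁) := ⟨Or.inl c1, fun l h1 _ => c1' l h1⟩
  have p2 : PP S i₁ i₂ (a2 S i₂) := ⟨Or.inr (c2' i₁ hi), fun l _ h2 => c2' l h2⟩
  have p3 : PP S i₁ i₂ (a3 S i₁ i₂) := ⟨Or.inl c3', fun l h1 h2 => c3'' l h1 h2⟩
  have ns := fun {x y : Idx k t} (hx : PP S i₁ i₂ x) (hy : PP S i₁ i₂ y) => no_star S hc hx hy
  -- distinctness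
  have d01 : a0 S ≠ a1 S i₁ := fun h => hαβ (by rw [← c1, ← h]; rfl)
  have d02 : a0 S ≠ a2 S i₂ := fun h => hαβ (by rw [← c2, ← h]; rfl)
  have d12 : a1 S i₁ ≠ a2 S i₂ := fun h => hαβ (by rw [← c1, h, c2' i₁ hi])
  have d13 : a1 S i₁ ≠ a3 S i₁ i₂ := fun h => hαβ (by rw [← c3, ← h, c1' i₂ hi.symm])
  have d23 : a2 S i₂ ≠ a3 S i₁ i₂ := fun h => hαβ (by rw [← c3', ← h, c2' i₁ hi])
  have d03 : a0 S ≠ a3 S i₁ i₂ := fun h => hαβ (by rw [← c3, ← h]; rfl)
  -- the two double transpositions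
  set τ₁ := tau S (a1 S i₁) (a2 S i₂) with hτ₁
  set τ₂ := tau S (a2 S i₂) (a3 S i₁ i₂) with hτ₂
  have star₁ : ∀ a, τ₁ (S.Star a) = S.Star (τ₁ a) :=
    tau_star S (ns p1 p1) (ns p1 p2) (ns p2 p1) (ns p2 p2)
  have star₂ : ∀ a, τ₂ (S.Star a) = S.Star (τ₂ a) :=
    tau_star S (ns p2 p2) (ns p2 p3) (ns p3 p2) (ns p3 p3)
  have hiso₁ := monom_iso S h τ₁ star₁
  have hiso₂ := monom_iso S h τ₂ star₂
  refine ⟨⁅monomGL F τ₁, monomGL F τ₂⁆, comm_mem_omega hiso₁ hiso₂, ?_⟩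
  intro hω
  rw [monomGL_comm] at hω
  set π : Equiv.Perm (Idx k t) := ⁅τ₁, τ₂⁆ with hπ
  have t₁0 : τ₁ (a0 S) = a0 S := tau_fix S d01 d02 (ns p0 p1) (ns p0 p2)
  have t₂0 : τ₂ (a0 S) = a0 S := tau_fix S d02 d03 (ns p0 p2) (ns p0 p3)
  have t₂1 : τ₂ (a1 S i₁) = a1 S i₁ := tau_fix S d12 d13 (ns p1 p2) (ns p1 p3)
  have t₁2 : τ₁ (a2 S i₂) = a1 S i₁ := tau_right S (ns p2 p1) (ns p2 p2)
  have t₂2 : τ₂ (a2 S i₂) = a3 S i₁ i₂ := tau_left S (ns p2 p2) (ns p2 p3)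
  have t₁3 : τ₁ (a3 S i₁ i₂) = a3 S i₁ i₂ := tau_fix S d13.symm d23.symm (ns p3 p1) (ns p3 p2)
  have πa0 : π (a0 S) = a0 S := by
    rw [hπ, commutatorElement_def]
    simp only [Equiv.Perm.mul_apply]
    have e1 : τ₂⁻¹ (a0 S) = a0 S := by rw [Equiv.Perm.inv_eq_iff_eq, t₂0]
    have e2 : τ₁⁻¹ (a0 S) = a0 S := by rw [Equiv.Perm.inv_eq_iff_eq, t₁0]
    rw [e1, e2, t₂0, t₁0]
  have πa1 : π (a1 S i₁) = a3 S i₁ i₂ := by
    rw [hπ, commutatorElement_def]
    simp only [Equiv.Perm.mul_apply]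
    have e1 : τ₂⁻¹ (a1 S i₁) = a1 S i₁ := by rw [Equiv.Perm.inv_eq_iff_eq, t₂1]
    have e2 : τ₁⁻¹ (a1 S i₁) = a2 S i₂ := by rw [Equiv.Perm.inv_eq_iff_eq, t₁2]
    rw [e1, e2, t₂2, t₁3]
  have hmem := ((S.mem_normU_iff (t := t)).1 hω (tens i₁ S.s)).1 (S.tens_mem_U i₁ S.good_s)
  rw [monomGL_inv] at hmem
  have hmem2 : monom F π * tens i₁ S.s * monom F π⁻¹ ∈ S.U t := hmem
  have hv := S.U_vanish hmem2 (a := a3 S i₁ i₂) (b := a0 S) hi (by rw [c3']; exact hαβ) (by rw [c3]; exact hαβ)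
  have hconj := monom_conj_apply π (tens i₁ S.s) (a1 S i₁) (a0 S)
  rw [πa0, πa1, hv] at hconj
  have : tens i₁ S.s (a1 S i₁) (a0 S) = 1 := by
    rw [tens_apply_of_eq (b := a0 S) _ (fun j hj => c1' j hj), c1]
    show S.s S.α S.β = 1
    rw [S.s_col, if_pos rfl]
  rw [this] at hconj
  exact zero_ne_one hconj

/-- The core statement. -/
theorem core (h : QData S Q c) (hi : i₁ ≠ i₂) (hc : 3 ≤ t ∨ (S.star S.α ≠ S.β ∧ ∀ p, (S.sᵀ * S.J) p p = 0)) :
    ∃ K : Subgroup (GL (Idx k t) F),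
      Cfsg.Geo.tensorWreathStandard k t F ⊓ Cfsg.Geo.omegaGL Q < K ∧ K < Cfsg.Geo.omegaGL Q := by
  obtain ⟨v, hv1, hv2, hv3⟩ := first_step S h hi (hc.imp id (fun hh => hh.2))
  obtain ⟨ω, hω1, hω2⟩ := second_step S h hi (hc.imp id (fun hh => hh.1))
  refine ⟨S.normU t ⊓ Cfsg.Geo.omegaGL Q, ?_, ?_⟩
  · rw [SetLike.lt_iff_le_and_exists]
    constructor
    · rintro g ⟨hg1, hg2⟩
      exact ⟨wreath_le_normU S h hg1 (omega_le_iso Q hg2), hg2⟩
    · exact ⟨v, ⟨hv1, hv2⟩, fun hh => hv3 hh.1⟩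
  · rw [SetLike.lt_iff_le_and_exists]
    exact ⟨inf_le_right, ω, hω1, fun hh => hω2 hh.1⟩

end Cfsg.Agent.Lib.TensSpinE
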