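/-
TensSpinF: the two standard data for the Clifford subspace, in dimensions 2 and 4 over a field of characteristic two.
-/
import Mathlib
import Cfsg.Agent.Lib.TensSpinE

set_option autoImplicit false
set_option linter.unusedSectionVars false
set_option linter.unusedSimpArgs false

namespace Cfsg.Agent.Lib.TensSpinF

open Matrix Cfsg.Agent.Lib.TensSpinB

variable {F : Type*} [Field F]

/-- Self-adjointness is preserved under conjugation by a similarity. -/
theorem sa_conj {ι : Type*} [Fintype ι] [DecidableEq ι] {J g g' s : Matrix ι ι F} {μ : F} (h1 : g * g' = 1)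
    (hg : gᵀ * J * g = μ • J) (hs : sᵀ * J = J * s) : (g * s * g')ᵀ * J = J * (g * s * g') := by
  have e1 : gᵀ * J = μ • (J * g') := by
    calc gᵀ * J = gᵀ * J * (g * g') := by rw [h1, Matrix.mul_one]
      _ = (gᵀ * J * g) * g' := by simp only [Matrix.mul_assoc]
      _ = μ • (J * g') := by rw [hg, Matrix.smul_mul]
  have e2 : J * g = μ • (g'ᵀ * J) := by
    have h3 : g'ᵀ * gᵀ = 1 := by rw [← transpose_mul, h1, transpose_one]
    calc J * g = (g'ᵀ * gᵀ) * J * g := by rw [h3, Matrix.one_mul]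
      _ = g'ᵀ * (gᵀ * J * g) := by simp only [Matrix.mul_assoc]
      _ = μ • (g'ᵀ * J) := by rw [hg, Matrix.mul_smul]
  rw [transpose_mul, transpose_mul]
  calc g'ᵀ * (sᵀ * gᵀ) * J = g'ᵀ * sᵀ * (gᵀ * J) := by simp only [Matrix.mul_assoc]
    _ = μ • (g'ᵀ * (sᵀ * J) * g') := by
        rw [e1, Matrix.mul_smul]
        simp only [Matrix.mul_assoc]
    _ = μ • (g'ᵀ * (J * s) * g') := by rw [hs]
    _ = (J * g) * s * g' := by
        rw [e2, Matrix.smul_mul, Matrix.smul_mul]
        simp only [Matrix.mul_assoc]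
    _ = J * (g * s * g') := by simp only [Matrix.mul_assoc]

/-! ### Dimension two -/

/-- The Gram matrix in dimension two. -/
def J2 (F : Type*) [Field F] : Matrix (Fin 2) (Fin 2) F := !![0, 1; 1, 0]

/-- The matrices self-adjoint for `J2`. -/
def M2 (a q u : F) : Matrix (Fin 2) (Fin 2) F := !![a, q; u, a]

theorem J2_sa_form (s : Matrix (Fin 2) (Fin 2) F) (h : sᵀ * J2 F = J2 F * s) : s = M2 (s 0 0) (s 0 1) (s 1 0) := by
  have h1 := congrFun (congrFun h 0) 1
  simp [Matrix.mul_apply, Fin.sum_univ_two, J2] at h1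
  ext i j
  fin_cases i <;> fin_cases j <;> simp [M2, h1]

variable [CharP F 2]

theorem M2_anti (a q u a' q' u' : F) :
    M2 a q u * M2 a' q' u' + M2 a' q' u' * M2 a q u = (q * u' + q' * u) • (1 : Matrix (Fin 2) (Fin 2) F) := by
  have h2 : (2 : F) = 0 := CharTwo.two_eq_zero
  ext i j
  fin_cases i <;> fin_cases j <;> simp [M2, Matrix.mul_apply, Fin.sum_univ_two, Matrix.add_apply, Matrix.smul_apply]
  · linear_combination (a * a') * h2
  · linear_combination (a * q' + q * a') * h2
  · linear_combination (u * a' + a * u') * h2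
  · linear_combination (a * a') * h2

/-- The standard data in dimension two. -/
def S2 (F : Type*) [Field F] [CharP F 2] : Std F 2 where
  star := ![1, 0]
  star_star := by decide
  star_ne := by decide
  J := J2 F
  J_apply := by
    intro i j
    fin_cases i <;> fin_cases j <;> simp [J2]
  good := fun s => sᵀ * J2 F = J2 F * s
  good_sa := fun _ h => h
  good_anti := by
    intro s s' hs hs'
    rw [J2_sa_form s hs, J2_sa_form s' hs']
    exact ⟨_, M2_anti _ _ _ _ _ _⟩
  good_conj := by
    intro g g' μ h1 _ hg _ s hs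
    exact sa_conj h1 hg hs
  s := M2 0 1 0
  r := M2 0 0 1
  good_s := by
    ext i j
    fin_cases i <;> fin_cases j <;> simp [M2, J2, Matrix.mul_apply, Fin.sum_univ_two]
  good_r := by
    ext i j
    fin_cases i <;> fin_cases j <;> simp [M2, J2, Matrix.mul_apply, Fin.sum_univ_two]
  s_sq := by
    ext i j
    fin_cases i <;> fin_cases j <;> simp [M2, Matrix.mul_apply, Fin.sum_univ_two]
  r_sq := by
    ext i j
    fin_cases i <;> fin_cases j <;> simp [M2, Matrix.mul_apply, Fin.sum_univ_two]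
  anti := by
    ext i j
    fin_cases i <;> fin_cases j <;> simp [M2, Matrix.mul_apply, Fin.sum_univ_two]
  α := 0
  β := 1
  hαβ := by decide
  s_col := by
    intro p
    fin_cases p <;> simp [M2]
  r_col := by
    intro p
    fin_cases p <;> simp [M2]

/-! ### Dimension four -/

omit [CharP F 2] in
/-- The Gram matrix in dimension four. -/
def J4 (F : Type*) [Field F] : Matrix (Fin 4) (Fin 4) F := !![0, 1, 0, 0; 1, 0, 0, 0; 0, 0, 0, 1; 0, 0, 1, 0]

omit [CharP F 2] in
/-- The relevant matrices in dimension four. -/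
def M4 (p q r u v : F) : Matrix (Fin 4) (Fin 4) F := !![p, 0, q, r; 0, p, u, v; v, r, p, 0; u, q, 0, p]

theorem M4_anti (p q r u v p' q' r' u' v' : F) :
    M4 p q r u v * M4 p' q' r' u' v' + M4 p' q' r' u' v' * M4 p q r u v =
      (q * v' + r * u' + q' * v + r' * u) • (1 : Matrix (Fin 4) (Fin 4) F) := by
  have h2 : (2 : F) = 0 := CharTwo.two_eq_zero
  ext i j
  fin_cases i <;> fin_cases j <;> simp [M4, Matrix.mul_apply, Fin.sum_univ_four, Matrix.add_apply, Matrix.smul_apply]
  · linear_combination (p * p') * h2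
  · linear_combination (q * r' + r * q') * h2
  · linear_combination (p * q' + q * p') * h2
  · linear_combination (p * r' + r * p') * h2
  · linear_combination (u * v' + v * u') * h2
  · linear_combination (p * p') * h2
  · linear_combination (p * u' + u * p') * h2
  · linear_combination (p * v' + v * p') * h2
  · linear_combination (v * p' + p * v') * h2
  · linear_combination (r * p' + p * r') * h2
  · linear_combination (p * p') * h2
  · linear_combination (v * r' + r * v') * h2
  · linear_combination (u * p' + p * u') * h2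
  · linear_combination (q * p' + p * q') * h2
  · linear_combination (u * q' + q * u') * h2
  · linear_combination (p * p') * h2

theorem J4_form (s : Matrix (Fin 4) (Fin 4) F) (h1 : sᵀ * J4 F = J4 F * s) (h2 : ∃ l : F, s * s = l • 1)
    (h3 : ∀ p, (sᵀ * J4 F) p p = 0) : s = M4 (s 0 0) (s 0 2) (s 0 3) (s 1 2) (s 1 3) := by
  have e10 : s 1 0 = 0 := by simpa [Matrix.mul_apply, Fin.sum_univ_four, J4] using h3 0
  have e01 : s 0 1 = 0 := by simpa [Matrix.mul_apply, Fin.sum_univ_four, J4] using h3 1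
  have e32 : s 3 2 = 0 := by simpa [Matrix.mul_apply, Fin.sum_univ_four, J4] using h3 2
  have e23 : s 2 3 = 0 := by simpa [Matrix.mul_apply, Fin.sum_univ_four, J4] using h3 3
  have a11 : s 0 0 = s 1 1 := by simpa [Matrix.mul_apply, Fin.sum_univ_four, J4] using congrFun (congrFun h1 0) 1
  have a33 : s 2 2 = s 3 3 := by simpa [Matrix.mul_apply, Fin.sum_univ_four, J4] using congrFun (congrFun h1 2) 3
  have a30 : s 3 0 = s 1 2 := by simpa [Matrix.mul_apply, Fin.sum_univ_four, J4] using congrFun (congrFun h1 0) 2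
  have a20 : s 2 0 = s 1 3 := by simpa [Matrix.mul_apply, Fin.sum_univ_four, J4] using congrFun (congrFun h1 0) 3
  have a31 : s 3 1 = s 0 2 := by simpa [Matrix.mul_apply, Fin.sum_univ_four, J4] using congrFun (congrFun h1 1) 2
  have a21 : s 2 1 = s 0 3 := by simpa [Matrix.mul_apply, Fin.sum_univ_four, J4] using congrFun (congrFun h1 1) 3
  obtain ⟨l, hl⟩ := h2
  have q0 := congrFun (congrFun hl 0) 0
  have q2 := congrFun (congrFun hl 2) 2
  simp [Matrix.mul_apply, Fin.sum_univ_four, Matrix.smul_apply] at q0 q2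
  rw [e01, a20, a30] at q0
  rw [e23, a20, a21, e32] at q2
  have h2F : (2 : F) = 0 := CharTwo.two_eq_zero
  have hsq : (s 0 0 + s 2 2) ^ 2 = 0 := by
    linear_combination q0 - q2 + (s 0 0 * s 2 2 + s 2 2 * s 2 2) * h2F
  have ha : s 0 0 + s 2 2 = 0 := by simpa using hsq
  have ha' : s 2 2 = s 0 0 := by
    have : s 0 0 + s 0 0 = 0 := CharTwo.add_self_eq_zero _
    exact add_left_cancel (ha.trans this.symm)
  ext i j
  fin_cases i <;> fin_cases j <;> simp [M4, e10, e01, e32, e23, ← a11, ← a33, a30, a20, a31, a21, ha']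

/-- Alternating matrices stay alternating under congruence. -/
theorem alt_congr (A X : Matrix (Fin 4) (Fin 4) F) (hs : Aᵀ = A) (hd : ∀ i, A i i = 0) (p : Fin 4) :
    (Xᵀ * A * X) p p = 0 := by
  have h2 : (2 : F) = 0 := CharTwo.two_eq_zero
  have hsym : ∀ i j, A j i = A i j := fun i j => congrFun (congrFun hs i) j
  rw [Matrix.mul_apply]
  simp only [Matrix.mul_apply, Matrix.transpose_apply, Fin.sum_univ_four, hd]
  rw [hsym 0 1, hsym 0 2, hsym 0 3, hsym 1 2, hsym 1 3, hsym 2 3]
  linear_combination (X 0 p * X 1 p * A 0 1 + X 0 p * X 2 p * A 0 2 + X 0 p * X 3 p * A 0 3 +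
    X 1 p * X 2 p * A 1 2 + X 1 p * X 3 p * A 1 3 + X 2 p * X 3 p * A 2 3) * h2

/-- The standard data in dimension four. -/
def S4 (F : Type*) [Field F] [CharP F 2] : Std F 4 where
  star := ![1, 0, 3, 2]
  star_star := by decide
  star_ne := by decide
  J := J4 F
  J_apply := by
    intro i j
    fin_cases i <;> fin_cases j <;> simp [J4]
  good := fun s => sᵀ * J4 F = J4 F * s ∧ (∃ l : F, s * s = l • 1) ∧ ∀ p, (sᵀ * J4 F) p p = 0
  good_sa := fun _ h => h.1
  good_anti := by
    rintro s s' ⟨h1, h2, h3⟩ ⟨h1', h2', h3'⟩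
    rw [J4_form s h1 h2 h3, J4_form s' h1' h2' h3']
    exact ⟨_, M4_anti _ _ _ _ _ _ _ _ _ _⟩
  good_conj := by
    rintro g g' μ h1 h1' hg _ s ⟨hs1, ⟨l, hl⟩, hs3⟩
    have hsa := sa_conj h1 hg hs1
    refine ⟨hsa, ⟨l, ?_⟩, fun p => ?_⟩
    · calc g * s * g' * (g * s * g') = g * s * (g' * g) * s * g' := by simp only [Matrix.mul_assoc]
        _ = g * (s * s) * g' := by rw [h1', Matrix.mul_one, Matrix.mul_assoc g s s]
        _ = l • 1 := by rw [hl, Matrix.mul_smul, Matrix.mul_one, Matrix.smul_mul, h1]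
    · have h3 : g'ᵀ * gᵀ = 1 := by rw [← transpose_mul, h1, transpose_one]
      have e2 : J4 F * g = μ • (g'ᵀ * J4 F) := by
        calc J4 F * g = (g'ᵀ * gᵀ) * J4 F * g := by rw [h3, Matrix.one_mul]
          _ = g'ᵀ * (gᵀ * J4 F * g) := by simp only [Matrix.mul_assoc]
          _ = μ • (g'ᵀ * J4 F) := by rw [hg, Matrix.mul_smul]
      have e3 : (g * s * g')ᵀ * J4 F = μ • (g'ᵀ * (sᵀ * J4 F) * g') := by
        rw [hsa, hs1]
        calc J4 F * (g * s * g') = (J4 F * g) * s * g' := by simp only [Matrix.mul_assoc]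
          _ = μ • (g'ᵀ * (J4 F * s) * g') := by
              rw [e2, Matrix.smul_mul, Matrix.smul_mul]
              simp only [Matrix.mul_assoc]
      rw [e3, Matrix.smul_apply, alt_congr _ _ ?_ hs3 p, smul_zero]
      rw [hs1, Matrix.transpose_mul]
      have hJ : (J4 F)ᵀ = J4 F := by
        ext i j
        fin_cases i <;> fin_cases j <;> simp [J4]
      rw [hJ, ← hs1]
  s := M4 0 0 1 0 0
  r := M4 0 0 0 1 0
  good_s := by
    refine ⟨?_, ⟨0, ?_⟩, fun p => ?_⟩
    · ext i j
      fin_cases i <;> fin_cases j <;> simp [M4, J4, Matrix.mul_apply, Fin.sum_univ_four]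
    · ext i j
      fin_cases i <;> fin_cases j <;> simp [M4, Matrix.mul_apply, Fin.sum_univ_four]
    · fin_cases p <;> simp [M4, J4, Matrix.mul_apply, Fin.sum_univ_four]
  good_r := by
    refine ⟨?_, ⟨0, ?_⟩, fun p => ?_⟩
    · ext i j
      fin_cases i <;> fin_cases j <;> simp [M4, J4, Matrix.mul_apply, Fin.sum_univ_four]
    · ext i j
      fin_cases i <;> fin_cases j <;> simp [M4, Matrix.mul_apply, Fin.sum_univ_four]
    · fin_cases p <;> simp [M4, J4, Matrix.mul_apply, Fin.sum_univ_four]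
  s_sq := by
    ext i j
    fin_cases i <;> fin_cases j <;> simp [M4, Matrix.mul_apply, Fin.sum_univ_four]
  r_sq := by
    ext i j
    fin_cases i <;> fin_cases j <;> simp [M4, Matrix.mul_apply, Fin.sum_univ_four]
  anti := by
    ext i j
    fin_cases i <;> fin_cases j <;> simp [M4, Matrix.mul_apply, Fin.sum_univ_four]
  α := 0
  β := 3
  hαβ := by decide
  s_col := by
    intro p
    fin_cases p <;> simp [M4]
  r_col := by
    intro p
    fin_cases p <;> simp [M4]

theorem S4_star : (S4 F).star (S4 F).α ≠ (S4 F).β := by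
  show (![1, 0, 3, 2] : Fin 4 → Fin 4) 0 ≠ 3
  decide

theorem S4_diag (p : Fin 4) : ((S4 F).sᵀ * (S4 F).J) p p = 0 :=
  (S4 F).good_s.2.2 p

end Cfsg.Agent.Lib.TensSpinF
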