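/-
TensSpinG: transport of the core statement along the tensor power structure of a form.
-/
import Mathlib
import Cfsg.Prelude.Def_GeometricClasses
import Cfsg.Agent.Lib.TensSpinF
import Cfsg.Agent.Lib.SympBasis

set_option autoImplicit false
set_option linter.unusedSectionVars false
set_option linter.unusedSimpArgs false

namespace Cfsg.Agent.Lib.TensSpinG

open Matrix Cfsg.Agent.Lib.TensSpinA Cfsg.Agent.Lib.TensSpinB Cfsg.Agent.Lib.TensSpinC Cfsg.Agent.Lib.TensSpinD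
  Cfsg.Agent.Lib.TensSpinE Cfsg.Agent.Lib.TensSpinF
open scoped MatrixGroups commutatorElement

variable {F : Type*} [Field F] {k t n : ℕ}

theorem omegaGL_eq {ι : Type} [Fintype ι] [DecidableEq ι] (Q : (ι → F) → F) :
    Cfsg.Geo.omegaGL Q = ⁅Cfsg.isometryGroup F Q, Cfsg.isometryGroup F Q⁆ := by
  rw [Cfsg.Geo.omegaGL]
  exact Subgroup.map_subtype_commutator _

/-- The transport isomorphism. -/
noncomputable def psi (e : Fin n ≃ Idx k t) (P : GL (Fin n) F) (Ah : GL (Idx k t) F) : GL (Idx k t) F ≃* GL (Fin n) F :=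
  (MulAut.conj Ah).trans ((Cfsg.Geo.glReindex e.symm).trans (MulAut.conj P))

/-- The transport of vectors. -/
def TT (e : Fin n ≃ Idx k t) (P : GL (Fin n) F) (Ah : GL (Idx k t) F) (x : Idx k t → F) : Fin n → F :=
  (P : Matrix (Fin n) (Fin n) F) *ᵥ (((Ah : Matrix (Idx k t) (Idx k t) F) *ᵥ x) ∘ e)

theorem psi_coe (e : Fin n ≃ Idx k t) (P : GL (Fin n) F) (Ah g : GL (Idx k t) F) :
    ((psi e P Ah g : GL (Fin n) F) : Matrix (Fin n) (Fin n) F) =
      (P : Matrix (Fin n) (Fin n) F) *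
        (((Ah * g * Ah⁻¹ : GL (Idx k t) F) : Matrix (Idx k t) (Idx k t) F).submatrix e e) *
        ((P⁻¹ : GL (Fin n) F) : Matrix (Fin n) (Fin n) F) := by
  rfl

theorem psi_TT (e : Fin n ≃ Idx k t) (P : GL (Fin n) F) (Ah g : GL (Idx k t) F) (x : Idx k t → F) :
    ((psi e P Ah g : GL (Fin n) F) : Matrix (Fin n) (Fin n) F) *ᵥ TT e P Ah x =
      TT e P Ah ((g : Matrix (Idx k t) (Idx k t) F) *ᵥ x) := by
  rw [psi_coe, TT, TT, Matrix.mulVec_mulVec, Matrix.mul_assoc, Matrix.mul_assoc]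
  have e1 : ((P⁻¹ : GL (Fin n) F) : Matrix (Fin n) (Fin n) F) * (P : Matrix (Fin n) (Fin n) F) = 1 := by
    rw [← Units.val_mul, inv_mul_cancel, Units.val_one]
  rw [e1, Matrix.mul_one, ← Matrix.mulVec_mulVec]
  have e3 : ((Ah * g * Ah⁻¹ : GL (Idx k t) F) : Matrix (Idx k t) (Idx k t) F) *ᵥ
      ((Ah : Matrix (Idx k t) (Idx k t) F) *ᵥ x) =
      (Ah : Matrix (Idx k t) (Idx k t) F) *ᵥ ((g : Matrix (Idx k t) (Idx k t) F) *ᵥ x) := by
    rw [Matrix.mulVec_mulVec, Matrix.mulVec_mulVec, ← Units.val_mul, ← Units.val_mul]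
    congr 2
    group
  have e4 : (((Ah : Matrix (Idx k t) (Idx k t) F) *ᵥ x) ∘ e) ∘ e.symm = (Ah : Matrix (Idx k t) (Idx k t) F) *ᵥ x := by
    funext a
    simp
  rw [Matrix.submatrix_mulVec_equiv, e4, e3]

theorem TT_surj (e : Fin n ≃ Idx k t) (P : GL (Fin n) F) (Ah : GL (Idx k t) F) : Function.Surjective (TT e P Ah) := by
  intro v
  refine ⟨((Ah⁻¹ : GL (Idx k t) F) : Matrix (Idx k t) (Idx k t) F) *ᵥ
    ((((P⁻¹ : GL (Fin n) F) : Matrix (Fin n) (Fin n) F) *ᵥ v) ∘ e.symm), ?_⟩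
  rw [TT, Matrix.mulVec_mulVec]
  have e2 : (Ah : Matrix (Idx k t) (Idx k t) F) * ((Ah⁻¹ : GL (Idx k t) F) : Matrix (Idx k t) (Idx k t) F) = 1 := by
    rw [← Units.val_mul, mul_inv_cancel, Units.val_one]
  rw [e2, Matrix.one_mulVec]
  have e3 : (((((P⁻¹ : GL (Fin n) F) : Matrix (Fin n) (Fin n) F) *ᵥ v) ∘ e.symm) ∘ e) =
      ((P⁻¹ : GL (Fin n) F) : Matrix (Fin n) (Fin n) F) *ᵥ v := by
    funext a
    simp
  rw [e3, Matrix.mulVec_mulVec]
  have e1 : (P : Matrix (Fin n) (Fin n) F) * ((P⁻¹ : GL (Fin n) F) : Matrix (Fin n) (Fin n) F) = 1 := by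
    rw [← Units.val_mul, mul_inv_cancel, Units.val_one]
  rw [e1, Matrix.one_mulVec]

theorem iso_map (e : Fin n ≃ Idx k t) (P : GL (Fin n) F) (Ah : GL (Idx k t) F) (Q : (Fin n → F) → F) :
    (Cfsg.isometryGroup F (fun x => Q (TT e P Ah x))).map (psi e P Ah).toMonoidHom = Cfsg.isometryGroup F Q := by
  ext h
  constructor
  · rintro ⟨g, hg, rfl⟩
    refine mem_iso.2 fun v => ?_
    obtain ⟨x, rfl⟩ := TT_surj e P Ah v
    have := psi_TT e P Ah g x
    show Q (((psi e P Ah g : GL (Fin n) F) : Matrix (Fin n) (Fin n) F) *ᵥ TT e P Ah x) = _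
    rw [this]
    exact (mem_iso.1 hg) x
  · intro hh
    refine ⟨(psi e P Ah).symm h, ?_, by simp⟩
    refine mem_iso.2 fun x => ?_
    have h1 := psi_TT e P Ah ((psi e P Ah).symm h) x
    show Q (TT e P Ah _) = Q (TT e P Ah x)
    rw [← h1, MulEquiv.apply_symm_apply]
    exact (mem_iso.1 hh) _

theorem omega_map (e : Fin n ≃ Idx k t) (P : GL (Fin n) F) (Ah : GL (Idx k t) F) (Q : (Fin n → F) → F) :
    (Cfsg.Geo.omegaGL (fun x => Q (TT e P Ah x))).map (psi e P Ah).toMonoidHom = Cfsg.Geo.omegaGL Q := by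
  rw [omegaGL_eq, omegaGL_eq, Subgroup.map_commutator, iso_map]

theorem wreath_map (e : Fin n ≃ Idx k t) (P : GL (Fin n) F) {Ah : GL (Idx k t) F}
    (hAh : Ah ∈ Cfsg.Geo.tensorWreathStandard k t F) :
    (Cfsg.Geo.tensorWreathStandard k t F).map (psi e P Ah).toMonoidHom = Cfsg.Geo.tensorWreathSubgroup k t e P := by
  have h0 : (Cfsg.Geo.tensorWreathStandard k t F).map (MulAut.conj Ah).toMonoidHom =
      Cfsg.Geo.tensorWreathStandard k t F := by
    ext g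
    constructor
    · rintro ⟨x, hx, rfl⟩
      show Ah * x * Ah⁻¹ ∈ _
      exact Subgroup.mul_mem _ (Subgroup.mul_mem _ hAh hx) (Subgroup.inv_mem _ hAh)
    · intro hg
      refine ⟨Ah⁻¹ * g * Ah, Subgroup.mul_mem _ (Subgroup.mul_mem _ (Subgroup.inv_mem _ hAh) hg) hAh, ?_⟩
      show Ah * (Ah⁻¹ * g * Ah) * Ah⁻¹ = g
      group
  rw [Cfsg.Geo.tensorWreathSubgroup]
  conv_rhs => rw [← h0]
  rw [Subgroup.map_map, Subgroup.map_map]
  rfl

/-- The tensor power of one invertible matrix. -/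
def Ahat (A : GL (Fin k) F) : GL (Idx k t) F := pureGL (fun _ => A)

theorem Ahat_mem (A : GL (Fin k) F) : Ahat (t := t) A ∈ Cfsg.Geo.tensorWreathStandard k t F :=
  Subgroup.subset_closure (Or.inl ⟨fun _ => A, fun _ _ => rfl⟩)

theorem gram_expand (G : Matrix (Fin k) (Fin k) F) (X Y : Idx k t → F) :
    ∑ a, ∑ b, X a * (∏ i, G (a i) (b i)) * id (Y b) = X ⬝ᵥ (pureM (fun _ => G) *ᵥ Y) := by
  simp only [dotProduct, Matrix.mulVec, Finset.mul_sum, pureM_apply, id, mul_assoc]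

theorem dot_adj {ι : Type*} [Fintype ι] (A : Matrix ι ι F) (x w : ι → F) : (A *ᵥ x) ⬝ᵥ w = x ⬝ᵥ (Aᵀ *ᵥ w) := by
  rw [Matrix.dotProduct_mulVec, Matrix.vecMul_transpose]

theorem qdata (S : Std F k) (A : GL (Fin k) F) {f₁ : (Fin k → F) → (Fin k → F) → F}
    (hA : (A : Matrix (Fin k) (Fin k) F)ᵀ * Cfsg.Geo.gramMatrix f₁ * (A : Matrix (Fin k) (Fin k) F) = S.J)
    {Q : (Fin n → F) → F} (hQ : Cfsg.Geo.IsNondegenerateQuadraticForm Q) {e : Fin n ≃ Idx k t} {P : GL (Fin n) F}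
    (hT : Cfsg.Geo.IsTensorPowerFormStructure id (QuadraticMap.polar Q) f₁ e P)
    (hpure : ∀ xs : Fin t → (Fin k → F),
      Q (Matrix.mulVec (P : Matrix (Fin n) (Fin n) F) ((fun a : Fin t → Fin k => ∏ i, xs i (a i)) ∘ e)) = 0) :
    ∃ c, QData S (fun x => Q (TT e P (Ahat A) x)) c := by
  obtain ⟨c, hc, hform⟩ := hT
  have hcoe : ((Ahat (t := t) A : GL (Idx k t) F) : Matrix (Idx k t) (Idx k t) F) =
      pureM (fun _ => (A : Matrix (Fin k) (Fin k) F)) := rfl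
  refine ⟨c, hc, fun l v => ?_, fun x y => ?_, fun z hz => ?_⟩
  · have : TT e P (Ahat A) (l • v) = l • TT e P (Ahat A) v := by
      rw [TT, TT, Matrix.mulVec_smul]
      show (P : Matrix (Fin n) (Fin n) F) *ᵥ (l • _) = _
      rw [Matrix.mulVec_smul]
      rfl
    show Q (TT e P (Ahat A) (l • v)) = _
    rw [this, hQ.smul]
  · show Q (TT e P (Ahat A) (x + y)) = Q (TT e P (Ahat A) x) + Q (TT e P (Ahat A) y) + _
    have hadd : TT e P (Ahat A) (x + y) = TT e P (Ahat A) x + TT e P (Ahat A) y := by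
      rw [TT, TT, TT, Matrix.mulVec_add]
      show (P : Matrix (Fin n) (Fin n) F) *ᵥ (_ + _) = _
      rw [Matrix.mulVec_add]
      rfl
    have h1 := hform (((Ahat (t := t) A : GL (Idx k t) F) : Matrix (Idx k t) (Idx k t) F) *ᵥ x)
      (((Ahat (t := t) A : GL (Idx k t) F) : Matrix (Idx k t) (Idx k t) F) *ᵥ y)
    rw [gram_expand, dot_adj, Matrix.mulVec_mulVec, Matrix.mulVec_mulVec] at h1
    have h2 : ((Ahat (t := t) A : GL (Idx k t) F) : Matrix (Idx k t) (Idx k t) F)ᵀ *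
        (pureM fun _ => Cfsg.Geo.gramMatrix f₁) *
        ((Ahat (t := t) A : GL (Idx k t) F) : Matrix (Idx k t) (Idx k t) F) = S.bigJ t := by
      rw [hcoe, pureM_transpose, pureM_mul, pureM_mul, hA]
      rfl
    rw [h2] at h1
    have h3 : QuadraticMap.polar Q (TT e P (Ahat A) x) (TT e P (Ahat A) y) = c * (x ⬝ᵥ (S.bigJ t *ᵥ y)) := h1
    rw [QuadraticMap.polar] at h3
    rw [hadd, ← h3]
    ring
  · have hp : IsPureVec (((Ahat (t := t) A : GL (Idx k t) F) : Matrix (Idx k t) (Idx k t) F) *ᵥ z) := by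
      rw [hcoe]
      exact hz.pureM_mulVec _
    obtain ⟨xs, hxs⟩ := hp
    have := hpure xs
    show Q (TT e P (Ahat A) z) = 0
    rw [TT, funext hxs]
    exact this

/-- The statement for a standard datum. -/
theorem reduce [CharP F 2] (S : Std F k) {i₁ i₂ : Fin t} (hi : i₁ ≠ i₂)
    (hc : 3 ≤ t ∨ (S.star S.α ≠ S.β ∧ ∀ p, (S.sᵀ * S.J) p p = 0))
    (A : GL (Fin k) F) {f₁ : (Fin k → F) → (Fin k → F) → F}
    (hA : (A : Matrix (Fin k) (Fin k) F)ᵀ * Cfsg.Geo.gramMatrix f₁ * (A : Matrix (Fin k) (Fin k) F) = S.J)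
    {Q : (Fin n → F) → F} (hQ : Cfsg.Geo.IsNondegenerateQuadraticForm Q) {e : Fin n ≃ Idx k t} {P : GL (Fin n) F}
    (hT : Cfsg.Geo.IsTensorPowerFormStructure id (QuadraticMap.polar Q) f₁ e P)
    (hpure : ∀ xs : Fin t → (Fin k → F),
      Q (Matrix.mulVec (P : Matrix (Fin n) (Fin n) F) ((fun a : Fin t → Fin k => ∏ i, xs i (a i)) ∘ e)) = 0) :
    ∃ K : Subgroup (GL (Fin n) F),
      Cfsg.Geo.tensorWreathSubgroup k t e P ⊓ Cfsg.Geo.omegaGL Q < K ∧ K < Cfsg.Geo.omegaGL Q := by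
  obtain ⟨c, hdata⟩ := qdata S A hA hQ hT hpure
  obtain ⟨K', h1, h2⟩ := core S hdata hi hc
  have hinj : Function.Injective (psi e P (Ahat A)).toMonoidHom := (psi e P (Ahat A)).injective
  refine ⟨K'.map (psi e P (Ahat A)).toMonoidHom, ?_, ?_⟩
  · rw [← wreath_map e P (Ahat_mem A), ← omega_map e P (Ahat A) Q, ← Subgroup.map_inf _ _ _ hinj]
    exact (Subgroup.map_lt_map_iff_of_injective hinj).2 h1
  · rw [← omega_map e P (Ahat A) Q]
    exact (Subgroup.map_lt_map_iff_of_injective hinj).2 h2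

/-! ### The change of basis in the small space -/

theorem form_eq_gram {f : (Fin k → F) → (Fin k → F) → F} (hf : Cfsg.Geo.IsBilinearForm f) (u v : Fin k → F) :
    f u v = u ⬝ᵥ (Cfsg.Geo.gramMatrix f *ᵥ v) := by
  let B : (Fin k → F) →ₗ[F] (Fin k → F) →ₗ[F] F :=
    LinearMap.mk₂ F f hf.add_left hf.smul_left hf.add_right hf.smul_right
  have hB : Cfsg.Geo.gramMatrix f = LinearMap.toMatrix₂' F B := by
    ext i j
    rw [LinearMap.toMatrix₂'_apply]
    rfl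
  rw [hB, ← Matrix.toLinearMap₂'_apply', Matrix.toLinearMap₂'_toMatrix']
  rfl

theorem gram_change {f : (Fin k → F) → (Fin k → F) → F} (hf : Cfsg.Geo.IsBilinearForm f)
    (b : Module.Basis (Fin k) F (Fin k → F)) :
    ∃ A : GL (Fin k) F, ∀ p q, ((A : Matrix (Fin k) (Fin k) F)ᵀ * Cfsg.Geo.gramMatrix f * (A : Matrix (Fin k) (Fin k) F)) p q =
      f (b p) (b q) := by
  let b₀ : Module.Basis (Fin k) F (Fin k → F) := Pi.basisFun F (Fin k)
  let A : GL (Fin k) F :=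
    ⟨b₀.toMatrix b, b.toMatrix b₀, Module.Basis.toMatrix_mul_toMatrix_flip _ _, Module.Basis.toMatrix_mul_toMatrix_flip _ _⟩
  refine ⟨A, fun p q => ?_⟩
  have hcol : ∀ p, (A : Matrix (Fin k) (Fin k) F) *ᵥ (Pi.single p 1) = b p := by
    intro p
    rw [Matrix.mulVec_single_one]
    funext i
    show b₀.toMatrix b i p = _
    rw [Module.Basis.toMatrix_apply]
    simp [b₀]
  rw [form_eq_gram hf, ← hcol p, ← hcol q]
  rw [Matrix.mulVec_mulVec, Matrix.mulVec_single_one, Matrix.mulVec_single_one, Matrix.mul_assoc, Matrix.mul_apply]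
  rfl

end Cfsg.Agent.Lib.TensSpinG
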