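import Mathlib
import Cfsg.Prelude.Def_SporadicCombinatorics

set_option autoImplicit false

namespace Cfsg.Agent.Lib.TernaryGolay

open Cfsg

/-- Position index in `0..11`. -/
def pidx (p : ArrayPt) : ℕ := 3 * p.1.val + ZMod.val p.2

/-- A basis of the length-12 ternary code; the row of index `5` has `s = 1`, the others `s = 0`. -/
def basTable : Fin 6 → Fin 12 → ZMod 3 :=
  ![![2, 2, 2, 1, 1, 1, 0, 0, 0, 0, 0, 0],
    ![0, 1, 2, 1, 2, 0, 2, 1, 0, 0, 0, 0],
    ![2, 1, 0, 2, 1, 0, 2, 0, 1, 0, 0, 0],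
    ![0, 2, 1, 1, 2, 0, 0, 0, 0, 2, 1, 0],
    ![2, 0, 1, 2, 1, 0, 0, 0, 0, 2, 0, 1],
    ![1, 2, 2, 2, 0, 0, 2, 0, 0, 2, 0, 0]]

/-- The position as an element of `Fin 12`. -/
def pfin (p : ArrayPt) : Fin 12 := ⟨pidx p, by
  obtain ⟨i, r⟩ := p
  have h1 := i.isLt
  have h2 : ZMod.val r < 3 := ZMod.val_lt r
  simp only [pidx]
  omega⟩

/-- Basis word. -/
def bas (k : Fin 6) (p : ArrayPt) : ZMod 3 := basTable k (pfin p)

/-- Linear combination of the basis. -/
def word (a : Fin 6 → ZMod 3) (p : ArrayPt) : ZMod 3 := ∑ k, a k * bas k p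

/-- The inverse of `word` on the code. -/
def coord (x : ArrayPt → ZMod 3) : Fin 6 → ZMod 3 :=
  ![x (1, 2), x (2, 1), x (2, 2), x (3, 1), x (3, 2), -(x (0, 0) + x (0, 1) + x (0, 2))]

theorem coord_word : ∀ a, coord (word a) = a := by decide +kernel

theorem word_injective : Function.Injective word :=
  Function.LeftInverse.injective coord_word

theorem sum_zmod3 (f : ZMod 3 → ZMod 3) : ∑ r, f r = f 0 + f 1 + f 2 :=
  Fin.sum_univ_three f

theorem mem_tetracode_iff (t : Fin 4 → ZMod 3) :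
    t ∈ tetracode ↔ ∃ u v : ZMod 3, t = u • ![0, 1, 1, 1] + v • ![1, 0, 1, 2] := by
  rw [tetracode, Submodule.mem_span_pair]
  constructor
  · rintro ⟨u, v, e⟩; exact ⟨u, v, e.symm⟩
  · rintro ⟨u, v, e⟩; exact ⟨u, v, e.symm⟩

/-- The code equations with scalar `s`, in a decidable shape. -/
def Eqs (x : ArrayPt → ZMod 3) (s : ZMod 3) : Prop :=
  (∀ i : Fin 4, x (i, 0) + x (i, 1) + x (i, 2) = -s) ∧
  ∀ u v : ZMod 3, x (0, (u • ![0, 1, 1, 1] + v • ![1, 0, 1, 2] : Fin 4 → ZMod 3) 0)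
    + x (1, (u • ![0, 1, 1, 1] + v • ![1, 0, 1, 2] : Fin 4 → ZMod 3) 1)
    + x (2, (u • ![0, 1, 1, 1] + v • ![1, 0, 1, 2] : Fin 4 → ZMod 3) 2)
    + x (3, (u • ![0, 1, 1, 1] + v • ![1, 0, 1, 2] : Fin 4 → ZMod 3) 3) = s

instance (x : ArrayPt → ZMod 3) (s : ZMod 3) : Decidable (Eqs x s) := by
  unfold Eqs; infer_instance

theorem eqs_of_word {x : ArrayPt → ZMod 3} {s : ZMod 3} (h : IsTernaryGolayWord x)
    (hs : x (0, 0) + x (0, 1) + x (0, 2) = -s) : Eqs x s := by
  obtain ⟨s', h1, h2⟩ := h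
  have e : s' = s := by
    have := h1 0
    rw [sum_zmod3] at this
    rw [hs] at this
    exact neg_injective this.symm
  subst e
  refine ⟨fun i => ?_, fun u v => ?_⟩
  · have := h1 i
    rwa [sum_zmod3] at this
  · have := h2 _ ((mem_tetracode_iff _).2 ⟨u, v, rfl⟩)
    rwa [Fin.sum_univ_four] at this

theorem word_of_eqs {x : ArrayPt → ZMod 3} {s : ZMod 3} (h : Eqs x s) : IsTernaryGolayWord x := by
  refine ⟨s, fun i => ?_, fun t ht => ?_⟩
  · rw [sum_zmod3]; exact h.1 i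
  · obtain ⟨u, v, rfl⟩ := (mem_tetracode_iff _).1 ht
    rw [Fin.sum_univ_four]
    exact h.2 u v

theorem bas_eqs : ∀ k : Fin 6, Eqs (bas k) (![0, 0, 0, 0, 0, 1] k) := by decide +kernel

theorem bas_mem (k : Fin 6) : bas k ∈ ternaryGolayCode := word_of_eqs (bas_eqs k)

theorem word_mem (a : Fin 6 → ZMod 3) : word a ∈ ternaryGolayCode := by
  have : word a = ∑ k, a k • bas k := by
    funext p
    simp [word, Finset.sum_apply]
  rw [this]
  exact Submodule.sum_mem _ fun k _ => Submodule.smul_mem _ _ (bas_mem k)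

theorem coord_sub (x y : ArrayPt → ZMod 3) : coord (x - y) = coord x - coord y := by
  funext k
  fin_cases k <;> simp [coord] <;> ring

theorem small_solve : ∀ a b c d e : ZMod 3, a + d = 0 → b + d = 0 → c + d = 0 → a + e = 0 →
    d + e = 0 → a = 0 ∧ b = 0 ∧ c = 0 ∧ d = 0 ∧ e = 0 := by decide

theorem forall_pt {P : ArrayPt → Prop} (h00 : P (0, 0)) (h01 : P (0, 1)) (h02 : P (0, 2))
    (h10 : P (1, 0)) (h11 : P (1, 1)) (h12 : P (1, 2))
    (h20 : P (2, 0)) (h21 : P (2, 1)) (h22 : P (2, 2))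
    (h30 : P (3, 0)) (h31 : P (3, 1)) (h32 : P (3, 2)) : ∀ p, P p := by
  have h4 : ∀ i : Fin 4, i = 0 ∨ i = 1 ∨ i = 2 ∨ i = 3 := by decide
  have h3 : ∀ r : ZMod 3, r = 0 ∨ r = 1 ∨ r = 2 := by decide
  rintro ⟨i, r⟩
  rcases h4 i with rfl | rfl | rfl | rfl <;> rcases h3 r with rfl | rfl | rfl <;> assumption

theorem eq_zero_of_coord {y : ArrayPt → ZMod 3} (hy : y ∈ ternaryGolayCode)
    (hc : coord y = 0) : y = 0 := by
  have hy' : IsTernaryGolayWord y := hy
  have c0 : y (1, 2) = 0 := congrFun hc 0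
  have c1 : y (2, 1) = 0 := congrFun hc 1
  have c2 : y (2, 2) = 0 := congrFun hc 2
  have c3 : y (3, 1) = 0 := congrFun hc 3
  have c4 : y (3, 2) = 0 := congrFun hc 4
  have c5 : -(y (0, 0) + y (0, 1) + y (0, 2)) = 0 := congrFun hc 5
  have c5' : y (0, 0) + y (0, 1) + y (0, 2) = -0 := by
    rw [neg_zero]; exact neg_eq_zero.1 c5
  have e := eqs_of_word hy' c5'
  have e1 : y (1, 0) + y (1, 1) + y (1, 2) = -0 := e.1 1
  have e2 : y (2, 0) + y (2, 1) + y (2, 2) = -0 := e.1 2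
  have e3 : y (3, 0) + y (3, 1) + y (3, 2) = -0 := e.1 3
  have t1 : y (0, 0) + y (1, 0) + y (2, 0) + y (3, 0) = 0 := e.2 0 0
  have t2 : y (0, 1) + y (1, 0) + y (2, 1) + y (3, 2) = 0 := e.2 0 1
  have t3 : y (0, 2) + y (1, 0) + y (2, 2) + y (3, 1) = 0 := e.2 0 2
  have t4 : y (0, 0) + y (1, 1) + y (2, 1) + y (3, 1) = 0 := e.2 1 0
  rw [c0] at e1
  rw [c1, c2] at e2
  rw [c3, c4] at e3
  simp only [add_zero, neg_zero] at e1 e2 e3
  rw [e2, e3] at t1
  rw [c1, c4] at t2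
  rw [c2, c3] at t3
  rw [c1, c3] at t4
  simp only [add_zero] at t1 t2 t3 t4
  obtain ⟨a0, a1, a2, a3, a4⟩ := small_solve _ _ _ _ _ t1 t2 t3 t4 e1
  funext p
  revert p
  apply forall_pt <;> assumption

theorem word_coord {x : ArrayPt → ZMod 3} (hx : x ∈ ternaryGolayCode) : word (coord x) = x := by
  have h : x - word (coord x) = 0 := by
    apply eq_zero_of_coord (Submodule.sub_mem _ hx (word_mem _))
    rw [coord_sub, coord_word, sub_self]
  exact (sub_eq_zero.1 h).symm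

theorem mem_code_iff (x : ArrayPt → ZMod 3) : x ∈ ternaryGolayCode ↔ ∃ a, word a = x :=
  ⟨fun h => ⟨_, word_coord h⟩, fun ⟨_, h⟩ => h ▸ word_mem _⟩

/-- The code is parametrized by `Fin 6 → ZMod 3`. -/
noncomputable def codeEquiv : (Fin 6 → ZMod 3) ≃ ternaryGolayCode where
  toFun a := ⟨word a, word_mem a⟩
  invFun x := coord x
  left_inv a := coord_word a
  right_inv x := Subtype.ext (word_coord x.2)

theorem card_code : Nat.card ternaryGolayCode = 729 := by
  rw [← Nat.card_congr codeEquiv]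
  simp [ZMod.card]

/-- Sets of code words are images of sets of parameters. -/
theorem code_filter_eq (P : (ArrayPt → ZMod 3) → Prop) :
    {x : ArrayPt → ZMod 3 | x ∈ ternaryGolayCode ∧ P x} = word '' {a | P (word a)} := by
  ext x
  constructor
  · rintro ⟨hx, hp⟩
    obtain ⟨a, rfl⟩ := (mem_code_iff x).1 hx
    exact ⟨a, hp, rfl⟩
  · rintro ⟨a, hp, rfl⟩
    exact ⟨word_mem a, hp⟩

theorem ncard_code_filter (P : (ArrayPt → ZMod 3) → Prop) [DecidablePred P] :
    {x : ArrayPt → ZMod 3 | x ∈ ternaryGolayCode ∧ P x}.ncard =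
      (Finset.univ.filter fun a => P (word a)).card := by
  rw [code_filter_eq, Set.ncard_image_of_injective _ word_injective, ← Set.ncard_coe_finset]
  congr 1
  ext a
  simp

theorem weights : ∀ a : Fin 6 → ZMod 3, a = 0 ∨ (ternarySupport (word a)).card = 6 ∨
    (ternarySupport (word a)).card = 9 ∨ (ternarySupport (word a)).card = 12 := by
  decide +kernel

theorem word_zero : word 0 = 0 := by
  funext p
  simp [word]

theorem count6 : (Finset.univ.filter (fun a : Fin 6 → ZMod 3 => (ternarySupport (word a)).card = 6)).card = 264 := by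
  decide +kernel

theorem count9 : (Finset.univ.filter (fun a : Fin 6 → ZMod 3 => (ternarySupport (word a)).card = 9)).card = 440 := by
  decide +kernel

theorem count12 : (Finset.univ.filter (fun a : Fin 6 → ZMod 3 => (ternarySupport (word a)).card = 12)).card = 24 := by
  decide +kernel

theorem bas_orth : ∀ i j : Fin 6, ∑ p, bas i p * bas j p = 0 := by decide +kernel

theorem code_orth {x y : ArrayPt → ZMod 3} (hx : x ∈ ternaryGolayCode) (hy : y ∈ ternaryGolayCode) :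
    ∑ p, x p * y p = 0 := by
  obtain ⟨a, rfl⟩ := (mem_code_iff x).1 hx
  obtain ⟨b, rfl⟩ := (mem_code_iff y).1 hy
  simp only [word]
  have : ∀ p : ArrayPt, (∑ k, a k * bas k p) * (∑ k, b k * bas k p) =
      ∑ i, ∑ j, a i * b j * (bas i p * bas j p) := by
    intro p
    rw [Finset.sum_mul_sum]
    refine Finset.sum_congr rfl fun i _ => Finset.sum_congr rfl fun j _ => ?_
    ring
  simp only [this]
  rw [Finset.sum_comm]
  refine Finset.sum_eq_zero fun i _ => ?_
  rw [Finset.sum_comm]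
  refine Finset.sum_eq_zero fun j _ => ?_
  rw [← Finset.mul_sum, bas_orth, mul_zero]

end Cfsg.Agent.Lib.TernaryGolay
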