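import Mathlib
import Cfsg.Agent.Lib.TernaryGolay
import Cfsg.Agent.Lib.BitMask

set_option autoImplicit false

/-!
The hexads of the length-12 ternary code: an explicit list of masks, and the Steiner system.
-/

namespace Cfsg.Agent.Lib.TernaryHexads

open Cfsg
open Cfsg.Agent.Lib.TernaryGolay
open Cfsg.Agent.Lib.BitMask

/-- Hexad masks, each with a base-3 code of a parameter of a word with that support. -/
def hexPairs : List (ℕ × ℕ) :=
  [(63, 1), (222, 3), (237, 4), (243, 7), (347, 9), (366, 19),
   (373, 10), (413, 21), (427, 16), (438, 22), (455, 12), (504, 25),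
   (591, 243), (630, 244), (633, 487), (667, 489), (679, 490), (700, 250),
   (725, 246), (746, 247), (791, 495), (813, 262), (826, 496), (860, 252),
   (867, 505), (910, 255), (945, 256), (969, 498), (978, 507), (996, 502),
   (1117, 513), (1127, 514), (1146, 298), (1175, 516), (1198, 304), (1209, 517),
   (1227, 300), (1268, 301), (1295, 522), (1331, 316), (1340, 523), (1366, 306),
   (1385, 307), (1434, 309), (1445, 538), (1484, 534), (1489, 318), (1506, 526),
   (1566, 27), (1579, 28), (1589, 55), (1619, 270), (1644, 271), (1677, 543),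
   (1714, 277), (1734, 57), (1752, 30), (1761, 547), (1817, 549), (1830, 550),
   (1861, 36), (1866, 279), (1904, 46), (1923, 48), (1940, 282), (1960, 76),
   (2135, 567), (2155, 406), (2172, 568), (2191, 570), (2229, 412), (2234, 571),
   (2265, 408), (2278, 574), (2334, 576), (2343, 577), (2361, 424), (2381, 414),
   (2418, 415), (2451, 417), (2476, 418), (2506, 426), (2516, 579), (2529, 589),
   (2589, 81), (2606, 163), (2611, 82), (2650, 324), (2661, 649), (2710, 651),
   (2729, 331), (2755, 84), (2764, 327), (2800, 166), (2827, 657), (2868, 343),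
   (2886, 171), (2897, 333), (2920, 91), (2949, 183), (2968, 102), (2978, 673),
   (3099, 189), (3117, 136), (3126, 190), (3150, 351), (3185, 352), (3228, 705),
   (3235, 706), (3269, 192), (3282, 354), (3304, 196), (3349, 711), (3370, 370),
   (3395, 144), (3416, 198), (3428, 721), (3462, 156), (3465, 363), (3504, 151),
   (3591, 108), (3640, 217), (3657, 594), (3668, 675), (3682, 622), (3722, 678),
   (3729, 624), (3748, 598), (3852, 630), (3858, 603), (3873, 685), (4032, 228)]

/-- The hexad masks. -/
def hexMasks : List ℕ := hexPairs.map Prod.fst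

/-- Decode a base-3 code. -/
def decode (c : ℕ) : Fin 6 → ZMod 3 := fun k => ((c / 3 ^ k.val : ℕ) : ZMod 3)

/-- The mask of the support of a word. -/
def maskW (a : Fin 6 → ZMod 3) : ℕ := ∑ p, if word a p ≠ 0 then 2 ^ pidx p else 0

theorem pidx_injective : Function.Injective pidx := by decide +kernel

theorem pidx_lt : ∀ p, pidx p < 12 := by decide +kernel

theorem pidx_surj : ∀ i < 12, i ∈ Set.range pidx := by
  have : ∀ i : Fin 12, ∃ p, pidx p = i.val := by decide +kernel
  intro i hi
  obtain ⟨p, hp⟩ := this ⟨i, hi⟩
  exact ⟨p, hp⟩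

theorem toMask_supp (a : Fin 6 → ZMod 3) : toMask pidx (ternarySupport (word a)) = maskW a := by
  rw [ternarySupport, toMask_filter]
  rfl

theorem card_supp (a : Fin 6 → ZMod 3) : (ternarySupport (word a)).card = popc 12 (maskW a) := by
  rw [← toMask_supp]
  exact card_eq_popc pidx_lt pidx_injective _ pidx_surj

theorem checkA : ∀ a : Fin 6 → ZMod 3, popc 12 (maskW a) = 6 → maskW a ∈ hexMasks := by
  decide +kernel

theorem checkB : ∀ q ∈ hexPairs, maskW (decode q.2) = q.1 := by
  decide +kernel

theorem checkC : ∀ m ∈ hexMasks, popc 12 m = 6 := by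
  decide +kernel

theorem checkD : hexMasks.Nodup := by
  decide +kernel

theorem checkE : hexMasks.length = 132 := by
  decide +kernel

theorem checkF' : allRange (fun m => popc 12 m != 5 || (hexMasks.filter fun h => m &&& h == m).length == 1) 12 0 = true := by
  decide +kernel

theorem checkF : ∀ m < 4096, popc 12 m = 5 → (hexMasks.filter fun h => m &&& h == m).length = 1 := by
  intro m hm h5
  have := of_allRange checkF' (Nat.zero_le m) (by omega : m < 0 + 2 ^ 12)
  simp only [h5, bne_self_eq_false, Bool.false_or, beq_iff_eq] at this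
  exact this

/-- The set of hexads. -/
def hexadSet : Set (Finset ArrayPt) :=
  {h : Finset Cfsg.ArrayPt | ∃ x ∈ Cfsg.ternaryGolayCode, Cfsg.ternarySupport x = h ∧ h.card = 6}

theorem mem_hexadSet_iff (h : Finset ArrayPt) : h ∈ hexadSet ↔ toMask pidx h ∈ hexMasks := by
  constructor
  · rintro ⟨x, hx, rfl, hc⟩
    obtain ⟨a, rfl⟩ := (mem_code_iff x).1 hx
    rw [toMask_supp]
    rw [card_supp] at hc
    exact checkA a hc
  · intro hm
    obtain ⟨q, hq, hq1⟩ := List.mem_map.1 hm
    have hB := checkB q hq
    have hs : ternarySupport (word (decode q.2)) = h := by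
      apply toMask_injective pidx_injective
      rw [toMask_supp, hB, ← hq1]
    refine ⟨word (decode q.2), word_mem _, hs, ?_⟩
    rw [card_eq_popc pidx_lt pidx_injective h pidx_surj]
    exact checkC _ hm

theorem isSteiner : IsSteinerSystem 5 6 hexadSet := by
  refine ⟨?_, ?_⟩
  · rintro b ⟨x, _, _, hc⟩
    exact hc
  · intro s hs
    have hlt : toMask pidx s < 4096 := toMask_lt pidx_lt pidx_injective s
    have hp : popc 12 (toMask pidx s) = 5 := by
      rw [← card_eq_popc pidx_lt pidx_injective s pidx_surj, hs]
    have hF := checkF _ hlt hp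
    obtain ⟨h0, hh0⟩ := List.length_eq_one_iff.1 hF
    have h0mem : h0 ∈ hexMasks.filter fun h => toMask pidx s &&& h == toMask pidx s := by
      rw [hh0]; simp
    rw [List.mem_filter, beq_iff_eq] at h0mem
    have h0lt : h0 < 2 ^ 12 := by
      have : ∀ m ∈ hexMasks, m < 2 ^ 12 := by decide +kernel
      exact this _ h0mem.1
    have ht : toMask pidx (ofMask pidx h0) = h0 :=
      toMask_ofMask pidx_injective pidx_surj pidx_lt h0lt
    refine ⟨ofMask pidx h0, ⟨?_, ?_⟩, ?_⟩
    · rw [mem_hexadSet_iff, ht]
      exact h0mem.1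
    · rw [subset_iff_land pidx_injective, ht]
      exact h0mem.2
    · rintro b' ⟨hb', hsb'⟩
      rw [mem_hexadSet_iff] at hb'
      rw [subset_iff_land pidx_injective] at hsb'
      apply toMask_injective pidx_injective
      rw [ht]
      have : toMask pidx b' ∈ hexMasks.filter fun h => toMask pidx s &&& h == toMask pidx s := by
        rw [List.mem_filter, beq_iff_eq]
        exact ⟨hb', hsb'⟩
      rw [hh0] at this
      simpa using this

theorem ncard_hexadSet : hexadSet.ncard = 132 := by
  have h1 : toMask pidx '' hexadSet = (hexMasks.toFinset : Set ℕ) := by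
    ext m
    simp only [Set.mem_image, Finset.mem_coe, List.mem_toFinset]
    constructor
    · rintro ⟨h, hh, rfl⟩
      exact (mem_hexadSet_iff h).1 hh
    · intro hm
      have hlt : m < 2 ^ 12 := by
        have : ∀ m ∈ hexMasks, m < 2 ^ 12 := by decide +kernel
        exact this _ hm
      have ht : toMask pidx (ofMask pidx m) = m :=
        toMask_ofMask pidx_injective pidx_surj pidx_lt hlt
      refine ⟨ofMask pidx m, ?_, ht⟩
      rw [mem_hexadSet_iff, ht]
      exact hm
  rw [← Set.ncard_image_of_injective _ (toMask_injective pidx_injective), h1,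
    Set.ncard_coe_finset, List.toFinset_card_of_nodup checkD, checkE]

end Cfsg.Agent.Lib.TernaryHexads
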