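import Mathlib
import Cfsg.Agent.Lib.PoissonZn

/-!
Theta series of an integral unimodular positive definite lattice: the inversion formula.
-/

set_option autoImplicit false

noncomputable section

namespace Cfsg.Agent.Lib.ThetaLattice

open MeasureTheory UnitAddTorus Matrix Cfsg.Agent.Lib.PoissonZn
open scoped MatrixOrder ComplexOrder

variable {n : ℕ}

/-- The hypotheses on the integer matrix. -/
structure Unimod (B : Matrix (Fin n) (Fin n) ℤ) : Prop where
  symm : B.IsSymm
  pos : ∀ x : Fin n → ℤ, x ≠ 0 → 0 < x ⬝ᵥ (B *ᵥ x)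
  det : B.det = 1

/-- The real version. -/
def realM (B : Matrix (Fin n) (Fin n) ℤ) : Matrix (Fin n) (Fin n) ℝ := B.map (Int.cast : ℤ → ℝ)

/-- The real quadratic form. -/
def Q (B : Matrix (Fin n) (Fin n) ℤ) (x : Fin n → ℝ) : ℝ := x ⬝ᵥ (realM B *ᵥ x)

theorem Q_cast (B : Matrix (Fin n) (Fin n) ℤ) (x : Fin n → ℤ) :
    Q B (zcast x) = ((x ⬝ᵥ (B *ᵥ x) : ℤ) : ℝ) := by
  simp only [Q, realM, zcast, dotProduct, mulVec, Int.cast_sum, Int.cast_mul, Matrix.map_apply]

theorem continuous_Q (B : Matrix (Fin n) (Fin n) ℤ) : Continuous (Q B) := by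
  unfold Q dotProduct mulVec dotProduct
  fun_prop

theorem Q_smul (B : Matrix (Fin n) (Fin n) ℤ) (r : ℝ) (x : Fin n → ℝ) :
    Q B (r • x) = r ^ 2 * Q B x := by
  unfold Q
  rw [mulVec_smul, dotProduct_smul, smul_dotProduct]
  simp only [smul_eq_mul]
  ring

/-- Nonnegativity on rational vectors. -/
theorem Q_rat_nonneg {B : Matrix (Fin n) (Fin n) ℤ} (hB : Unimod B) (q : Fin n → ℚ) :
    0 ≤ Q B (fun i => (q i : ℝ)) := by
  -- clear denominators
  let N : ℕ := ∏ i, (q i).den
  have hN : (N : ℝ) ≠ 0 := by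
    have : N ≠ 0 := Finset.prod_ne_zero_iff.2 fun i _ => (q i).den_ne_zero
    exact_mod_cast this
  have hk : ∀ i, ∃ z : ℤ, (q i) * N = z := by
    intro i
    obtain ⟨d, hd⟩ : (q i).den ∣ N := Finset.dvd_prod_of_mem _ (Finset.mem_univ i)
    refine ⟨(q i).num * d, ?_⟩
    rw [hd]
    push_cast
    rw [← mul_assoc, Rat.mul_den_eq_num]
  choose x hx using hk
  have hv : (N : ℝ) • (fun i => (q i : ℝ)) = zcast x := by
    funext i
    simp only [Pi.smul_apply, smul_eq_mul, zcast]
    have := congrArg (fun r : ℚ => (r : ℝ)) (hx i)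
    simp only [Rat.cast_mul, Rat.cast_natCast, Rat.cast_intCast] at this
    rw [← this]; ring
  have h1 : (N : ℝ) ^ 2 * Q B (fun i => (q i : ℝ)) = ((x ⬝ᵥ (B *ᵥ x) : ℤ) : ℝ) := by
    rw [← Q_smul, hv, Q_cast]
  have h2 : 0 ≤ ((x ⬝ᵥ (B *ᵥ x) : ℤ) : ℝ) := by
    by_cases hx0 : x = 0
    · subst hx0; simp
    · exact_mod_cast (hB.pos x hx0).le
  have h3 : 0 < (N : ℝ) ^ 2 := by positivity
  by_contra hneg
  push Not at hneg
  nlinarith

theorem Q_nonneg {B : Matrix (Fin n) (Fin n) ℤ} (hB : Unimod B) (x : Fin n → ℝ) : 0 ≤ Q B x := by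
  let S : Set (Fin n → ℝ) := Set.pi Set.univ fun _ => Set.range ((↑) : ℚ → ℝ)
  have hS : Dense S := dense_pi _ fun _ _ => Rat.denseRange_cast
  have hcl : IsClosed {x : Fin n → ℝ | 0 ≤ Q B x} := isClosed_le continuous_const (continuous_Q B)
  have hsub : S ⊆ {x : Fin n → ℝ | 0 ≤ Q B x} := by
    intro v hv
    have : ∀ i, ∃ q : ℚ, (q : ℝ) = v i := fun i => hv i (Set.mem_univ i)
    choose q hq using this
    have e : v = fun i => (q i : ℝ) := funext fun i => (hq i).symm
    rw [Set.mem_ofPred_eq, e]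
    exact Q_rat_nonneg hB q
  have := hS.closure_eq ▸ hcl.closure_subset_iff.2 hsub
  exact this (Set.mem_univ x)

theorem realM_isHermitian {B : Matrix (Fin n) (Fin n) ℤ} (hB : Unimod B) :
    (realM B).IsHermitian := by
  ext i j
  simp only [realM, conjTranspose_apply, map_apply, star_trivial]
  rw [hB.symm.apply]

theorem realM_posSemidef {B : Matrix (Fin n) (Fin n) ℤ} (hB : Unimod B) :
    (realM B).PosSemidef := by
  refine .of_dotProduct_mulVec_nonneg (realM_isHermitian hB) fun x => ?_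
  simpa [Q] using Q_nonneg hB x

theorem det_realM {B : Matrix (Fin n) (Fin n) ℤ} (hB : Unimod B) : (realM B).det = 1 := by
  have : (realM B).det = ((B.det : ℤ) : ℝ) := by
    rw [realM]
    exact (RingHom.map_det (Int.castRingHom ℝ) B).symm
  rw [this, hB.det]; simp

/-- A factorisation of the real matrix -/
structure Factor (B : Matrix (Fin n) (Fin n) ℤ) (L M : Matrix (Fin n) (Fin n) ℝ) : Prop where
  eq : realM B = Lᵀ * L
  ml : M * L = 1
  lm : L * M = 1
  det : |L.det| = 1

theorem exists_factor {B : Matrix (Fin n) (Fin n) ℤ} (hB : Unimod B) :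
    ∃ L M, Factor B L M := by
  have h0 : 0 ≤ realM B := Matrix.nonneg_iff_posSemidef.2 (realM_posSemidef hB)
  obtain ⟨s, hs⟩ := CStarAlgebra.nonneg_iff_eq_star_mul_self.1 h0
  have hst : star s = sᵀ := by
    rw [star_eq_conjTranspose, conjTranspose_eq_transpose_of_trivial]
  have h2 : s.det ^ 2 = 1 := by
    have := det_realM hB
    rw [hs, hst, det_mul, det_transpose] at this
    rw [pow_two]; exact this
  have hu : IsUnit s.det := by
    rw [isUnit_iff_ne_zero]
    intro h; rw [h] at h2; norm_num at h2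
  refine ⟨s, s⁻¹, ⟨by rw [hs, hst], nonsing_inv_mul _ hu, mul_nonsing_inv _ hu, ?_⟩⟩
  have : |s.det| ^ 2 = 1 := by rw [sq_abs]; exact h2
  have h3 : 0 ≤ |s.det| := abs_nonneg _
  nlinarith

section
variable {B : Matrix (Fin n) (Fin n) ℤ} {L M : Matrix (Fin n) (Fin n) ℝ}

theorem Factor.Q_eq (h : Factor B L M) (x : Fin n → ℝ) : Q B x = nsq (L *ᵥ x) := by
  unfold Q nsq
  rw [h.eq, ← mulVec_mulVec, dotProduct_mulVec, vecMul_transpose]
  simp [dotProduct, pow_two]

theorem Factor.nsq_le (h : Factor B L M) (x : Fin n → ℝ) :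
    nsq x ≤ (∑ i, ∑ j, M i j ^ 2 + 1) * Q B x := by
  rw [h.Q_eq]
  set z := L *ᵥ x with hz
  have hx : x = M *ᵥ z := by
    rw [hz, mulVec_mulVec, h.ml, one_mulVec]
  have hz0 : 0 ≤ nsq z := nsq_nonneg z
  have key : nsq x ≤ (∑ i, ∑ j, M i j ^ 2) * nsq z := by
    rw [Finset.sum_mul]
    unfold nsq
    apply Finset.sum_le_sum
    intro i _
    rw [hx]
    simp only [mulVec, dotProduct]
    exact Finset.sum_mul_sq_le_sq_mul_sq _ _ _
  nlinarith

/-- The constant in the lower bound. -/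
def KK (M : Matrix (Fin n) (Fin n) ℝ) : ℝ := ∑ i, ∑ j, M i j ^ 2 + 1

theorem KK_pos (M : Matrix (Fin n) (Fin n) ℝ) : 0 < KK M := by
  have : 0 ≤ ∑ i, ∑ j, M i j ^ 2 :=
    Finset.sum_nonneg fun i _ => Finset.sum_nonneg fun j _ => sq_nonneg _
  unfold KK; linarith

/-- The Gaussian attached to `B` -/
def gauss (B : Matrix (Fin n) (Fin n) ℤ) (c : ℂ) (x : Fin n → ℝ) : ℂ :=
  Complex.exp (-(Real.pi * c) * (Q B x : ℂ))

theorem norm_gauss (c : ℂ) (x : Fin n → ℝ) :
    ‖gauss B c x‖ = Real.exp (-(Real.pi * c.re) * Q B x) := by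
  unfold gauss
  rw [Complex.norm_exp]
  congr 1
  simp [Complex.mul_re]

theorem Factor.decay_gauss (h : Factor B L M) {c : ℂ} (hc : 0 < c.re) :
    Decay (gauss B c) (Real.pi * c.re / KK M) 1 := by
  refine ⟨?_, ?_, zero_le_one, ?_⟩
  · unfold gauss
    have : Continuous fun x : Fin n → ℝ => ((Q B x : ℝ) : ℂ) :=
      Complex.continuous_ofReal.comp (continuous_Q B)
    fun_prop
  · have := KK_pos M
    have hp := Real.pi_pos
    positivity
  · intro x
    rw [norm_gauss, one_mul]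
    apply Real.exp_le_exp.2
    have h1 := h.nsq_le x
    have hK := KK_pos M
    have hp : 0 < Real.pi * c.re := mul_pos Real.pi_pos hc
    have h2 : nsq x / KK M ≤ Q B x := by
      rw [div_le_iff₀ hK, mul_comm]
      exact h1
    have h3 := mul_le_mul_of_nonneg_left h2 hp.le
    have e : Real.pi * c.re / KK M * nsq x = Real.pi * c.re * (nsq x / KK M) := by
      ring
    nlinarith

theorem ff_eq (m : Fin n → ℤ) (y : Fin n → ℝ) :
    ff m y = Complex.exp (-(2 * Real.pi * Complex.I) * ∑ i, (m i : ℂ) * y i) := by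
  simp only [ff, mFourier, toTorus, ContinuousMap.coe_mk, Pi.neg_apply]
  rw [Finset.mul_sum, Complex.exp_sum]
  refine Finset.prod_congr rfl fun i _ => ?_
  rw [fourier_coe_apply]
  congr 1
  push_cast
  ring

theorem Factor.ft (h : Factor B L M) {c : ℂ} (hc : 0 < c.re) (m : Fin n → ℤ) :
    ∫ y, ff m y * gauss B c y =
      (1 / c) ^ ((n : ℂ) / 2) * Complex.exp (-(Real.pi / c) * (nsq (Mᵀ *ᵥ zcast m) : ℝ)) := by
  have hpi : (Real.pi : ℂ) ≠ 0 := by exact_mod_cast Real.pi_ne_zero
  have hc0 : c ≠ 0 := by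
    rintro rfl
    simp at hc
  set r : Fin n → ℝ := Mᵀ *ᵥ zcast m with hr
  let w : Fin n → ℂ := fun j => -(2 * Real.pi * Complex.I) * (r j : ℝ)
  let G : (Fin n → ℝ) → ℂ := fun z =>
    Complex.exp (-(Real.pi * c) * ∑ i, (z i : ℂ) ^ 2 + ∑ i, w i * z i)
  have hG : ∀ y, ff m y * gauss B c y = G (toLin' L y) := by
    intro y
    have hreal : ∑ j, r j * (L *ᵥ y) j = ∑ i, (m i : ℝ) * y i := by
      have : r ⬝ᵥ (L *ᵥ y) = zcast m ⬝ᵥ y := by
        rw [hr, mulVec_transpose, ← dotProduct_mulVec, mulVec_mulVec, h.ml, one_mulVec]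
      simpa [dotProduct, zcast] using this
    rw [ff_eq]
    unfold gauss
    rw [← Complex.exp_add]
    simp only [G, toLin'_apply]
    congr 1
    rw [h.Q_eq y]
    unfold nsq
    have e1 : ∑ i, w i * ((L *ᵥ y) i : ℂ) = -(2 * Real.pi * Complex.I) * ∑ i, (m i : ℂ) * y i := by
      simp only [w, mul_assoc, ← Finset.mul_sum]
      congr 1
      have := congrArg (fun t : ℝ => (t : ℂ)) hreal
      push_cast at this
      exact this
    rw [e1]
    push_cast
    ring
  have hdet : L.det ≠ 0 := by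
    intro h0
    have := h.det
    rw [h0] at this
    simp at this
  have hmap : Measure.map (toLin' L) (volume : Measure (Fin n → ℝ)) = volume := by
    rw [Real.map_matrix_volume_pi_eq_smul_volume_pi hdet, abs_inv, h.det]
    simp
  have hcontL : Continuous (toLin' L) := LinearMap.continuous_on_pi _
  have hcontG : Continuous G := by
    simp only [G]
    fun_prop
  have hb : 0 < ((Real.pi : ℂ) * c).re := by
    simp only [Complex.mul_re, Complex.ofReal_re, Complex.ofReal_im, zero_mul, sub_zero]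
    exact mul_pos Real.pi_pos hc
  calc ∫ y, ff m y * gauss B c y = ∫ y, G (toLin' L y) := by simp only [hG]
    _ = ∫ z, G z ∂(Measure.map (toLin' L) volume) :=
        (integral_map hcontL.aemeasurable hcontG.aestronglyMeasurable).symm
    _ = ∫ z, G z := by rw [hmap]
    _ = ((Real.pi : ℂ) / (Real.pi * c)) ^ (Fintype.card (Fin n) / 2 : ℂ) *
          Complex.exp ((∑ i, w i ^ 2) / (4 * (Real.pi * c))) :=
        GaussianFourier.integral_cexp_neg_mul_sum_add hb w
    _ = _ := by
        have e1 : ((Real.pi : ℂ) / (Real.pi * c)) = 1 / c := by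
          field_simp
        have e2 : (∑ i, w i ^ 2) / (4 * (Real.pi * c)) =
            -(Real.pi / c) * (nsq r : ℝ) := by
          have : ∑ i, w i ^ 2 = (-(2 * Real.pi * Complex.I)) ^ 2 * (nsq r : ℝ) := by
            simp only [w, mul_pow, nsq]
            push_cast
            rw [Finset.mul_sum]
          rw [this]
          rw [neg_sq, mul_pow, mul_pow, Complex.I_sq]
          field_simp
          ring
        rw [e1, e2, Fintype.card_fin]

theorem zcast_mulVec (B : Matrix (Fin n) (Fin n) ℤ) (x : Fin n → ℤ) :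
    zcast (B *ᵥ x) = realM B *ᵥ zcast x := by
  funext i
  simp [zcast, realM, mulVec, dotProduct]

theorem Factor.nsq_transpose (h : Factor B L M) (x : Fin n → ℤ) :
    nsq (Mᵀ *ᵥ zcast (B *ᵥ x)) = Q B (zcast x) := by
  rw [zcast_mulVec, h.eq, ← mulVec_mulVec, mulVec_mulVec _ Mᵀ Lᵀ, ← transpose_mul, h.lm, transpose_one,
    one_mulVec, h.Q_eq]

/-- The theta function on the right half plane -/
def theta (B : Matrix (Fin n) (Fin n) ℤ) (c : ℂ) : ℂ :=
  ∑' k : Fin n → ℤ, gauss B c (zcast k)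

theorem Factor.summable_gauss (h : Factor B L M) {c : ℂ} (hc : 0 < c.re) :
    Summable fun k : Fin n → ℤ => gauss B c (zcast k) := by
  have hd := h.decay_gauss hc
  refine Summable.of_norm_bounded (summable_exp_neg_nsq hd.pos n) fun k => ?_
  have := hd.bound (zcast k)
  rwa [one_mul] at this

theorem one_div_re_pos {c : ℂ} (hc : 0 < c.re) : 0 < (1 / c).re := by
  have hc0 : c ≠ 0 := by
    rintro rfl
    simp at hc
  rw [one_div, Complex.inv_re]
  exact div_pos hc (Complex.normSq_pos.2 hc0)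

/-- The integer equivalence -/
def mulEquiv (hB : Unimod B) : (Fin n → ℤ) ≃ (Fin n → ℤ) where
  toFun x := B *ᵥ x
  invFun y := B⁻¹ *ᵥ y
  left_inv x := by
    have hu : IsUnit B.det := by rw [hB.det]; exact isUnit_one
    show B⁻¹ *ᵥ (B *ᵥ x) = x
    rw [mulVec_mulVec, nonsing_inv_mul _ hu, one_mulVec]
  right_inv y := by
    have hu : IsUnit B.det := by rw [hB.det]; exact isUnit_one
    show B *ᵥ (B⁻¹ *ᵥ y) = y
    rw [mulVec_mulVec, mul_nonsing_inv _ hu, one_mulVec]

theorem theta_inversion (hB : Unimod B) {c : ℂ} (hc : 0 < c.re) :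
    theta B c = (1 / c) ^ ((n : ℂ) / 2) * theta B (1 / c) := by
  obtain ⟨L, M, h⟩ := exists_factor hB
  have hc' := one_div_re_pos hc
  have hft : ∀ k : Fin n → ℤ, ∫ y, ff (mulEquiv hB k) y * gauss B c y =
      (1 / c) ^ ((n : ℂ) / 2) * gauss B (1 / c) (zcast k) := by
    intro k
    rw [h.ft hc]
    show _ * Complex.exp (-(Real.pi / c) * (nsq (Mᵀ *ᵥ zcast (B *ᵥ k)) : ℝ)) = _
    rw [h.nsq_transpose]
    unfold gauss
    congr 2
    ring
  have hsum : Summable fun m : Fin n → ℤ => ∫ y, ff m y * gauss B c y := by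
    rw [← (mulEquiv hB).summable_iff]
    simp only [Function.comp_def, hft]
    exact (h.summable_gauss hc').mul_left _
  have := poisson (h.decay_gauss hc) hsum
  unfold theta
  rw [← this.tsum_eq, ← (mulEquiv hB).tsum_eq]
  simp only [hft]
  rw [tsum_mul_left]

end

end Cfsg.Agent.Lib.ThetaLattice
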