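import Mathlib
import Cfsg.Agent.Lib.ThetaLattice

/-!
The theta series of an even unimodular positive definite lattice of rank 24 as a modular form of
weight 12 and level one, and its coefficients.
-/

set_option autoImplicit false

noncomputable section

namespace Cfsg.Agent.Lib.ThetaForm

open Matrix Cfsg.Agent.Lib.PoissonZn Cfsg.Agent.Lib.ThetaLattice
open UpperHalfPlane ModularForm SlashInvariantForm ModularFormClass MatrixGroups EisensteinSeries
open scoped MatrixOrder ComplexOrder Manifold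

/-- The integer form. -/
def qf (B : Matrix (Fin 24) (Fin 24) ℤ) (x : Fin 24 → ℤ) : ℤ := x ⬝ᵥ (B *ᵥ x)

variable {B : Matrix (Fin 24) (Fin 24) ℤ}

theorem Q_zcast' (x : Fin 24 → ℤ) : Q B (zcast x) = (qf B x : ℝ) := Q_cast B x

theorem qf_nonneg (hB : Unimod B) (x : Fin 24 → ℤ) : 0 ≤ qf B x := by
  by_cases h : x = 0
  · subst h; simp [qf]
  · exact (hB.pos x h).le

theorem gauss_zcast (c : ℂ) (x : Fin 24 → ℤ) :
    gauss B c (zcast x) = Complex.exp (-(Real.pi * c) * (qf B x : ℂ)) := by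
  unfold gauss
  rw [Q_zcast']
  push_cast
  rfl

/-- Theta on the upper half plane, on `ℂ`. -/
def thetaC (B : Matrix (Fin 24) (Fin 24) ℤ) (z : ℂ) : ℂ :=
  ∑' k : Fin 24 → ℤ, Complex.exp (Real.pi * Complex.I * z * (qf B k : ℂ))

theorem thetaC_eq_theta (z : ℂ) : thetaC B z = theta B (-Complex.I * z) := by
  unfold thetaC theta
  refine tsum_congr fun k => ?_
  rw [gauss_zcast]
  congr 1
  ring

theorem re_neg_I_mul (z : ℂ) : (-Complex.I * z).re = z.im := by
  simp

/-- the norm of a term -/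
theorem norm_term (z : ℂ) (x : Fin 24 → ℤ) :
    ‖Complex.exp (Real.pi * Complex.I * z * (qf B x : ℂ))‖ =
      Real.exp (-(Real.pi * z.im) * (qf B x : ℝ)) := by
  rw [Complex.norm_exp]
  congr 1
  have : (Real.pi : ℂ) * Complex.I * z * (qf B x : ℂ) =
      ((Real.pi * (qf B x : ℝ) : ℝ) : ℂ) * (Complex.I * z) := by
    push_cast; ring
  rw [this, Complex.re_ofReal_mul]
  simp
  ring

/-- real summability for `δ > 0`. -/
theorem summable_exp_qf (hB : Unimod B) {δ : ℝ} (hδ : 0 < δ) :
    Summable fun k : Fin 24 → ℤ => Real.exp (-(Real.pi * δ) * (qf B k : ℝ)) := by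
  obtain ⟨L, M, h⟩ := exists_factor hB
  have hc : 0 < ((δ : ℝ) : ℂ).re := by simpa using hδ
  have := (h.summable_gauss hc).norm
  refine this.congr fun k => ?_
  rw [norm_gauss, Q_zcast']
  simp

theorem summable_term (hB : Unimod B) {z : ℂ} (hz : 0 < z.im) :
    Summable fun k : Fin 24 → ℤ => Complex.exp (Real.pi * Complex.I * z * (qf B k : ℂ)) := by
  refine Summable.of_norm ?_
  simp only [norm_term]
  exact summable_exp_qf hB hz

theorem differentiableOn_thetaC (hB : Unimod B) :
    DifferentiableOn ℂ (thetaC B) upperHalfPlaneSet := by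
  intro z0 hz0
  have hz0' : 0 < z0.im := hz0
  let δ := z0.im / 2
  have hδ : 0 < δ := half_pos hz0'
  let s : Set ℂ := {z | δ < z.im}
  have hs : IsOpen s := isOpen_lt continuous_const Complex.continuous_im
  have hzs : z0 ∈ s := by
    show δ < z0.im
    simp only [δ]; linarith
  have hd : DifferentiableOn ℂ (thetaC B) s := by
    unfold thetaC
    refine Complex.differentiableOn_tsum_of_summable_norm (summable_exp_qf hB hδ) ?_ hs ?_
    · intro k
      fun_prop
    · intro k z hz
      rw [norm_term]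
      apply Real.exp_le_exp.2
      have h1 : δ < z.im := hz
      have h2 : (0 : ℝ) ≤ (qf B k : ℝ) := by exact_mod_cast qf_nonneg hB k
      have h3 : Real.pi * δ ≤ Real.pi * z.im :=
        mul_le_mul_of_nonneg_left h1.le Real.pi_pos.le
      nlinarith
  exact (hd.differentiableAt (hs.mem_nhds hzs)).differentiableWithinAt

/-- Theta on `ℍ`. -/
def thetaH (B : Matrix (Fin 24) (Fin 24) ℤ) (τ : ℍ) : ℂ := thetaC B τ

theorem mdifferentiable_thetaH (hB : Unimod B) : MDiff (thetaH B) := by
  rw [UpperHalfPlane.mdifferentiable_iff]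
  refine (differentiableOn_thetaC hB).congr fun z hz => ?_
  simp only [thetaH, Function.comp_apply, ofComplex_apply_of_im_pos hz]

set_option backward.isDefEq.respectTransparency.types false in
theorem slash_S (hB : Unimod B) : thetaH B ∣[(12 : ℤ)] ModularGroup.S = thetaH B := by
  ext z
  rw [SL_slash_apply, UpperHalfPlane.modular_S_smul]
  have hz : (z : ℂ) ≠ 0 := z.ne_zero
  have h1 : thetaH B (UpperHalfPlane.mk (-(z:ℂ))⁻¹ z.im_inv_neg_coe_pos) =
      theta B (1 / (-Complex.I * z)) := by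
    show thetaC B (-(z:ℂ))⁻¹ = _
    rw [thetaC_eq_theta]
    congr 1
    field_simp
    simp
  have h2 : thetaH B z = theta B (-Complex.I * z) := thetaC_eq_theta _
  have hc : 0 < (-Complex.I * (z : ℂ)).re := by
    rw [re_neg_I_mul]; exact z.im_pos
  have h3 := theta_inversion hB hc
  simp only [Nat.cast_ofNat] at h3
  have h5 : ((24 : ℂ) / 2) = ((12 : ℕ) : ℂ) := by norm_num
  rw [h5, Complex.cpow_natCast] at h3
  rw [h1, h2, h3]
  have h6 : (1 / (-Complex.I * (z : ℂ))) ^ 12 = ((z : ℂ) ^ 12)⁻¹ := by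
    have hI : (-Complex.I) ^ 12 = 1 := by
      have : (-Complex.I) ^ 12 = (Complex.I ^ 4) ^ 3 := by ring
      rw [this, Complex.I_pow_four, one_pow]
    rw [div_pow, mul_pow, hI, one_pow, one_mul, one_div]
  rw [h6]
  simp [denom, ModularGroup.S, mul_comm]

set_option backward.isDefEq.respectTransparency.types false in
theorem slash_T (heven : ∀ x : Fin 24 → ℤ, (2 : ℤ) ∣ qf B x) :
    thetaH B ∣[(12 : ℤ)] ModularGroup.T = thetaH B := by
  ext z
  rw [SL_slash_apply, UpperHalfPlane.modular_T_smul]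
  have h1 : thetaH B ((1 : ℝ) +ᵥ z) = thetaH B z := by
    show thetaC B (((1 : ℝ) +ᵥ z : ℍ) : ℂ) = thetaC B z
    unfold thetaC
    refine tsum_congr fun k => ?_
    obtain ⟨j, hj⟩ := heven k
    rw [hj]
    have : (((1 : ℝ) +ᵥ z : ℍ) : ℂ) = 1 + (z : ℂ) := by
      simp
    rw [this]
    have e : (Real.pi : ℂ) * Complex.I * (1 + (z : ℂ)) * ((2 * j : ℤ) : ℂ) =
        (Real.pi : ℂ) * Complex.I * (z : ℂ) * ((2 * j : ℤ) : ℂ) + (j : ℂ) * (2 * Real.pi * Complex.I) := by
      push_cast; ring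
    rw [e, Complex.exp_add, Complex.exp_int_mul_two_pi_mul_I, mul_one]
  rw [h1]
  simp [denom, ModularGroup.T]

theorem isBoundedAtImInfty_thetaH (hB : Unimod B) : IsBoundedAtImInfty (thetaH B) := by
  rw [UpperHalfPlane.isBoundedAtImInfty_iff]
  refine ⟨∑' k : Fin 24 → ℤ, Real.exp (-(Real.pi * 1) * (qf B k : ℝ)), 1, fun z hz => ?_⟩
  have hs := summable_exp_qf hB (δ := 1) one_pos
  have hz' : 0 < (z : ℂ).im := z.im_pos
  show ‖thetaC B z‖ ≤ _
  unfold thetaC
  refine (norm_tsum_le_tsum_norm (summable_term hB hz').norm).trans ?_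
  refine (summable_term hB hz').norm.tsum_le_tsum (fun k => ?_) hs
  rw [norm_term]
  apply Real.exp_le_exp.2
  have h2 : (0 : ℝ) ≤ (qf B k : ℝ) := by exact_mod_cast qf_nonneg hB k
  have h3 : Real.pi * 1 ≤ Real.pi * z.im :=
    mul_le_mul_of_nonneg_left hz Real.pi_pos.le
  have : ((z : ℂ)).im = z.im := rfl
  rw [this]
  nlinarith

/-- The theta series as a modular form. -/
def thetaForm (hB : Unimod B) (heven : ∀ x : Fin 24 → ℤ, (2 : ℤ) ∣ qf B x) :
    ModularForm 𝒮ℒ 12 where
  toFun := thetaH B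
  slash_action_eq' A hA := by
    obtain ⟨A, rfl⟩ := hA
    exact slash_action_generators_SL2Z (slash_S hB) (slash_T heven) A
  holo' := mdifferentiable_thetaH hB
  bdd_at_cusps' hc := by
    rw [Subgroup.IsArithmetic.isCusp_iff_isCusp_SL2Z] at hc
    rw [OnePoint.isBoundedAt_iff_forall_SL2Z hc]
    intro γ _
    rw [slash_action_generators_SL2Z (slash_S hB) (slash_T heven)]
    exact isBoundedAtImInfty_thetaH hB

/-- half the norm -/
def halfN (B : Matrix (Fin 24) (Fin 24) ℤ) (x : Fin 24 → ℤ) : ℕ := (qf B x / 2).toNat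

theorem qf_eq (hB : Unimod B) (heven : ∀ x : Fin 24 → ℤ, (2 : ℤ) ∣ qf B x) (x : Fin 24 → ℤ) :
    qf B x = 2 * (halfN B x : ℤ) := by
  obtain ⟨j, hj⟩ := heven x
  have h0 := qf_nonneg hB x
  unfold halfN
  rw [hj]
  have hj0 : 0 ≤ j := by omega
  rw [Int.mul_ediv_cancel_left _ (by norm_num), Int.toNat_of_nonneg hj0]

/-- The number of lattice vectors of half-norm `m`. -/
def rr (B : Matrix (Fin 24) (Fin 24) ℤ) (m : ℕ) : ℕ := {x : Fin 24 → ℤ | qf B x = 2 * m}.ncard

theorem finite_fiber (hB : Unimod B) (m : ℕ) : {x : Fin 24 → ℤ | qf B x = 2 * m}.Finite := by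
  have hs := summable_exp_qf hB (δ := 1) one_pos
  have hpos : 0 < Real.exp (-(Real.pi * 1) * ((2 * m : ℤ) : ℝ)) := Real.exp_pos _
  have := hs.tendsto_cofinite_zero.eventually (gt_mem_nhds hpos)
  rw [Filter.eventually_cofinite] at this
  refine this.subset fun x hx => ?_
  have hx' : qf B x = 2 * m := hx
  simp only [Set.mem_ofPred_eq, hx', not_lt, le_refl]

theorem hasSum_q (hB : Unimod B) (heven : ∀ x : Fin 24 → ℤ, (2 : ℤ) ∣ qf B x) (τ : ℍ) :
    HasSum (fun m : ℕ => (rr B m : ℂ) • Function.Periodic.qParam 1 τ ^ m) (thetaH B τ) := by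
  set q := Function.Periodic.qParam 1 (τ : ℂ) with hq
  have hterm : ∀ x : Fin 24 → ℤ, Complex.exp (Real.pi * Complex.I * τ * (qf B x : ℂ)) =
      q ^ halfN B x := by
    intro x
    rw [hq, Function.Periodic.qParam, ← Complex.exp_nat_mul, qf_eq hB heven x]
    congr 1
    push_cast
    ring
  have hs : HasSum (fun x : Fin 24 → ℤ => q ^ halfN B x) (thetaH B τ) := by
    have := (summable_term hB τ.im_pos).hasSum
    simp only [hterm] at this
    convert this using 1
    show thetaC B τ = _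
    unfold thetaC
    simp only [hterm]
  have hs' := ((Equiv.sigmaFiberEquiv (halfN B)).hasSum_iff).2 hs
  refine HasSum.sigma hs' fun m => ?_
  have hset : {x : Fin 24 → ℤ | halfN B x = m} = {x : Fin 24 → ℤ | qf B x = 2 * m} := by
    ext x
    simp only [Set.mem_ofPred_eq]
    rw [qf_eq hB heven x]
    omega
  have hfin : Finite {x : Fin 24 → ℤ // halfN B x = m} := by
    have : Set.Finite {x : Fin 24 → ℤ | halfN B x = m} := by
      rw [hset]; exact finite_fiber hB m
    exact this.to_subtype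
  let := Fintype.ofFinite {x : Fin 24 → ℤ // halfN B x = m}
  have hcard : Fintype.card {x : Fin 24 → ℤ // halfN B x = m} = rr B m := by
    have h1 : Nat.card {x : Fin 24 → ℤ // halfN B x = m} =
        Fintype.card {x : Fin 24 → ℤ // halfN B x = m} := Nat.card_eq_fintype_card
    rw [← h1]
    unfold rr
    rw [← hset]
    exact Nat.card_coe_set_eq _
  have hconst : (fun c : {x : Fin 24 → ℤ // halfN B x = m} =>
      ((q ^ halfN B ·) ∘ (Equiv.sigmaFiberEquiv (halfN B))) ⟨m, c⟩) = fun _ => q ^ m := by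
    funext c
    show q ^ halfN B c.1 = q ^ m
    rw [c.2]
  rw [hconst]
  have := hasSum_fintype (fun _ : {x : Fin 24 → ℤ // halfN B x = m} => q ^ m)
  convert this using 1
  rw [Finset.sum_const, Finset.card_univ, hcard, nsmul_eq_mul, smul_eq_mul]

theorem rr_eq_coeff (hB : Unimod B) (heven : ∀ x : Fin 24 → ℤ, (2 : ℤ) ∣ qf B x) (m : ℕ) :
    (rr B m : ℂ) = (qExpansion 1 (thetaForm hB heven)).coeff m :=
  ModularFormClass.qExpansion_coeff_unique (c := fun m => (rr B m : ℂ))
    (f := thetaForm hB heven) one_pos one_mem_strictPeriods_SL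
    (fun τ => hasSum_q hB heven τ) m

/-! ### Coefficients of `E₄` and `E₆` -/

open scoped ArithmeticFunction.sigma

theorem e4_coeff (m : ℕ) : (qExpansion 1 E₄).coeff m = if m = 0 then 1 else 240 * (σ 3 m : ℂ) := by
  rw [E_qExpansion_coeff _ ⟨2, rfl⟩]
  norm_num [show bernoulli 4 = -1 / 30 by decide +kernel]

theorem e6_coeff (m : ℕ) : (qExpansion 1 E₆).coeff m = if m = 0 then 1 else -504 * (σ 5 m : ℂ) := by
  rw [E_qExpansion_coeff _ ⟨3, rfl⟩]
  norm_num [show bernoulli 6 = 1 / 42 by decide +kernel]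

theorem s31 : σ 3 1 = 1 := by decide +kernel
theorem s32 : σ 3 2 = 9 := by decide +kernel
theorem s33 : σ 3 3 = 28 := by decide +kernel
theorem s34 : σ 3 4 = 73 := by decide +kernel
theorem s51 : σ 5 1 = 1 := by decide +kernel
theorem s52 : σ 5 2 = 33 := by decide +kernel
theorem s53 : σ 5 3 = 244 := by decide +kernel
theorem s54 : σ 5 4 = 1057 := by decide +kernel

theorem a0 : (qExpansion 1 E₄).coeff 0 = 1 := by rw [e4_coeff]; simp
theorem a1 : (qExpansion 1 E₄).coeff 1 = 240 := by rw [e4_coeff, s31]; norm_num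
theorem a2 : (qExpansion 1 E₄).coeff 2 = 2160 := by rw [e4_coeff, s32]; norm_num
theorem a3 : (qExpansion 1 E₄).coeff 3 = 6720 := by rw [e4_coeff, s33]; norm_num
theorem a4 : (qExpansion 1 E₄).coeff 4 = 17520 := by rw [e4_coeff, s34]; norm_num
theorem b0 : (qExpansion 1 E₆).coeff 0 = 1 := by rw [e6_coeff]; simp
theorem b1 : (qExpansion 1 E₆).coeff 1 = -504 := by rw [e6_coeff, s51]; norm_num
theorem b2 : (qExpansion 1 E₆).coeff 2 = -16632 := by rw [e6_coeff, s52]; norm_num
theorem b3 : (qExpansion 1 E₆).coeff 3 = -122976 := by rw [e6_coeff, s53]; norm_num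
theorem b4 : (qExpansion 1 E₆).coeff 4 = -532728 := by rw [e6_coeff, s54]; norm_num

/-- the weight 12 comparison form. -/
def compForm : ModularForm 𝒮ℒ 12 :=
  (7 / 12 : ℂ) • ModularForm.mcast (by decide) (E₄.pow 3) +
    (5 / 12 : ℂ) • ModularForm.mcast (by decide) (E₆.pow 2)

theorem compForm_qExpansion : qExpansion 1 compForm =
    (7 / 12 : ℂ) • (qExpansion 1 E₄ * qExpansion 1 E₄ * qExpansion 1 E₄) +
      (5 / 12 : ℂ) • (qExpansion 1 E₆ * qExpansion 1 E₆) := by
  rw [compForm, FunLike.coe_add, ModularForm.qExpansion_add one_pos one_mem_strictPeriods_SL,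
    FunLike.coe_smul, FunLike.coe_smul,
    ModularForm.qExpansion_smul one_pos one_mem_strictPeriods_SL,
    ModularForm.qExpansion_smul one_pos one_mem_strictPeriods_SL,
    ModularForm.qExpansion_mcast, ModularForm.qExpansion_mcast,
    ModularForm.qExpansion_pow one_pos one_mem_strictPeriods_SL,
    ModularForm.qExpansion_pow one_pos one_mem_strictPeriods_SL]
  ring

theorem comp_c0 : (qExpansion 1 compForm).coeff 0 = 1 := by
  rw [compForm_qExpansion]
  norm_num [PowerSeries.coeff_mul, Finset.Nat.antidiagonal_succ, a0, b0,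
    -PowerSeries.coeff_zero_eq_constantCoeff]

theorem comp_c1 : (qExpansion 1 compForm).coeff 1 = 0 := by
  rw [compForm_qExpansion]
  norm_num [PowerSeries.coeff_mul, Finset.Nat.antidiagonal_succ, a0, a1, b0, b1,
    -PowerSeries.coeff_zero_eq_constantCoeff]

theorem comp_c2 : (qExpansion 1 compForm).coeff 2 = 196560 := by
  rw [compForm_qExpansion]
  norm_num [PowerSeries.coeff_mul, Finset.Nat.antidiagonal_succ, a0, a1, a2, b0, b1, b2,
    -PowerSeries.coeff_zero_eq_constantCoeff]

theorem comp_c3 : (qExpansion 1 compForm).coeff 3 = 16773120 := by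
  rw [compForm_qExpansion]
  norm_num [PowerSeries.coeff_mul, Finset.Nat.antidiagonal_succ, a0, a1, a2, a3, b0, b1, b2, b3,
    -PowerSeries.coeff_zero_eq_constantCoeff]

theorem comp_c4 : (qExpansion 1 compForm).coeff 4 = 398034000 := by
  rw [compForm_qExpansion]
  norm_num [PowerSeries.coeff_mul, Finset.Nat.antidiagonal_succ, a0, a1, a2, a3, a4, b0, b1, b2,
    b3, b4, -PowerSeries.coeff_zero_eq_constantCoeff]

theorem rr_zero (hB : Unimod B) : rr B 0 = 1 := by
  unfold rr
  have : {x : Fin 24 → ℤ | qf B x = 2 * ((0 : ℕ) : ℤ)} = {0} := by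
    ext x
    simp only [Set.mem_ofPred_eq, Set.mem_singleton_iff, Nat.cast_zero, mul_zero]
    constructor
    · intro h
      by_contra hx
      have := hB.pos x hx
      unfold qf at h
      omega
    · rintro rfl
      simp [qf]
  rw [this, Set.ncard_singleton]

theorem rr_one (h2 : ∀ x : Fin 24 → ℤ, qf B x ≠ 2) : rr B 1 = 0 := by
  unfold rr
  have : {x : Fin 24 → ℤ | qf B x = 2 * ((1 : ℕ) : ℤ)} = ∅ := by
    ext x
    simp only [Set.mem_ofPred_eq, Set.mem_empty_iff_false, iff_false, Nat.cast_one, mul_one]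
    exact h2 x
  rw [this, Set.ncard_empty]

/-- The main identity -/
theorem rr_eq_comp (hB : Unimod B) (heven : ∀ x : Fin 24 → ℤ, (2 : ℤ) ∣ qf B x)
    (h2 : ∀ x : Fin 24 → ℤ, qf B x ≠ 2) (m : ℕ) :
    (rr B m : ℂ) = (qExpansion 1 compForm).coeff m := by
  rw [rr_eq_coeff hB heven]
  set F := thetaForm hB heven with hF
  have hsub : qExpansion 1 (⇑F - ⇑compForm) = qExpansion 1 F - qExpansion 1 compForm :=
    ModularForm.qExpansion_sub one_pos one_mem_strictPeriods_SL F compForm
  have h0 : (qExpansion 1 (F - compForm : ModularForm 𝒮ℒ 12)).coeff 0 = 0 := by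
    rw [FunLike.coe_sub, hsub, map_sub, comp_c0, ← rr_eq_coeff hB heven, rr_zero hB]
    simp
  have h1 : (qExpansion 1 (F - compForm : ModularForm 𝒮ℒ 12)).coeff 1 = 0 := by
    rw [FunLike.coe_sub, hsub, map_sub, comp_c1, ← rr_eq_coeff hB heven, rr_one h2]
    simp
  have hord : (2 : ℕ∞) ≤ (qExpansion 1 (F - compForm : ModularForm 𝒮ℒ 12)).order := by
    have : ((2 : ℕ) : ℕ∞) ≤ (qExpansion 1 (F - compForm : ModularForm 𝒮ℒ 12)).order := by
      apply PowerSeries.nat_le_order
      intro i hi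
      interval_cases i
      · exact h0
      · exact h1
    exact_mod_cast this
  have hz : F - compForm = 0 := by
    apply ModularForm.sturm_bound_levelOne
    have e : ((Int.toNat (12 : ℤ) / 12 : ℕ) : ℕ∞) = 1 := by decide
    rw [e]
    exact lt_of_lt_of_le (by norm_num) hord
  have hFe : F = compForm := sub_eq_zero.1 hz
  rw [hFe]

/-- The final counts. -/
theorem counts (hB : Unimod B) (heven : ∀ x : Fin 24 → ℤ, (2 : ℤ) ∣ qf B x)
    (h2 : ∀ x : Fin 24 → ℤ, qf B x ≠ 2) :
    rr B 2 = 196560 ∧ rr B 3 = 16773120 ∧ rr B 4 = 398034000 := by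
  refine ⟨?_, ?_, ?_⟩
  · have := rr_eq_comp hB heven h2 2
    rw [comp_c2] at this
    exact_mod_cast this
  · have := rr_eq_comp hB heven h2 3
    rw [comp_c3] at this
    exact_mod_cast this
  · have := rr_eq_comp hB heven h2 4
    rw [comp_c4] at this
    exact_mod_cast this

end Cfsg.Agent.Lib.ThetaForm
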