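import Mathlib

/-!
# Homomorphisms from multiplication tables

A finite group listed by a table of left multiplications with generators, together with a compatible table in a second
group, gives a homomorphism.
-/

set_option autoImplicit false

namespace Cfsg.Agent.Lib.TitsMHom

/-- A homomorphism from a table of left multiplications. -/
theorem exists_hom_of_table {G Q : Type*} [Group G] [Group Q] [Finite G] {m N : ℕ} (s : ℕ → G) (y : ℕ → Q)
    (gK : ℕ → G) (hK : ℕ → Q) (nx : ℕ → ℕ → ℕ) (prt : ℕ → ℕ × ℕ)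
    (hcard : Nat.card G = N) (g0 : gK 0 = 1) (h0 : hK 0 = 1)
    (hinj : ∀ k k', k < N → k' < N → gK k = gK k' → k = k')
    (hnx : ∀ k, k < N → ∀ i, i < m → nx k i < N)
    (hs : ∀ k, k < N → ∀ i, i < m → s i * gK k = gK (nx k i))
    (hy : ∀ k, k < N → ∀ i, i < m → y i * hK k = hK (nx k i))
    (hprt : ∀ k, k < N → 0 < k → (prt k).1 < k ∧ (prt k).2 < m ∧ nx (prt k).1 (prt k).2 = k) :
    ∃ φ : G →* Q, ∀ k, k < N → φ (gK k) = hK k := by
  classical
  let f : Fin N → G := fun k => gK k.1
  have hf : Function.Injective f := by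
    intro a b hab
    exact Fin.ext (hinj a.1 b.1 a.2 b.2 hab)
  have hbij : Function.Bijective f := by
    refine hf.bijective_of_nat_card_le ?_
    rw [hcard, Nat.card_fin]
  let e : Fin N ≃ G := Equiv.ofBijective f hbij
  let F : G → Q := fun x => hK (e.symm x).1
  have hF : ∀ k, k < N → F (gK k) = hK k := by
    intro k hk
    have h1 : e.symm (gK k) = ⟨k, hk⟩ := by
      rw [Equiv.symm_apply_eq]
      rfl
    show hK (e.symm (gK k)).1 = hK k
    rw [h1]
  have hall : ∀ x : G, ∃ k, k < N ∧ x = gK k := by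
    intro x
    obtain ⟨k, hk⟩ := hbij.2 x
    exact ⟨k.1, k.2, hk.symm⟩
  have hFs : ∀ i, i < m → ∀ x, F (s i * x) = y i * F x := by
    intro i hi x
    obtain ⟨k, hk, rfl⟩ := hall x
    rw [hs k hk i hi, hF _ (hnx k hk i hi), hF k hk, hy k hk i hi]
  have hP : ∀ k, k < N → ∀ x, F (gK k * x) = hK k * F x := by
    intro k
    induction k using Nat.strong_induction_on with
    | _ k ih =>
      intro hk x
      by_cases hk0 : k = 0
      · subst hk0
        rw [g0, h0, one_mul, one_mul]
      · obtain ⟨h1, h2, h3⟩ := hprt k hk (by omega)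
        have h4 := hs _ (h1.trans hk) _ h2
        have h5 := hy _ (h1.trans hk) _ h2
        rw [h3] at h4 h5
        rw [← h4, ← h5, mul_assoc, hFs _ h2, ih _ h1 (h1.trans hk), mul_assoc]
  refine ⟨MonoidHom.mk' F ?_, fun k hk => hF k hk⟩
  intro a b
  obtain ⟨k, hk, rfl⟩ := hall a
  rw [hP k hk, hF k hk]

end Cfsg.Agent.Lib.TitsMHom
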