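import Mathlib
import Cfsg.Agent.Lib.TitsMData
import Cfsg.Agent.Lib.StMain
import Cfsg.Agent.Lib.SchurStem
import Cfsg.Agent.Lib.ClassicalSL
import Cfsg.Agent.Lib.ClassicalCore

/-!
# `SL₃(3)` and its action on the vectors

The facts on `SL₃(3)` needed for the subgroup of the Tits group: two matrices with tables of their action on the
twenty-seven vectors, the order of the group, its trivial Schur multiplier and its perfection.
-/

set_option autoImplicit false
set_option maxRecDepth 100000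

namespace Cfsg.Agent.Lib.TitsMSL

open Cfsg Cfsg.Agent.Lib.TitsMCert Cfsg.Agent.Lib.TitsMData
open scoped Matrix MatrixGroups

/-- The special linear group. -/
abbrev SL3 : Type := Matrix.SpecialLinearGroup (Fin 3) (ZMod 3)

instance : Finite SL3 := inferInstance

/-- The vector with a given code. -/
def vec3 (c : ℕ) : Fin 3 → ZMod 3 := ![(c : ZMod 3), ((c / 3 : ℕ) : ZMod 3), ((c / 9 : ℕ) : ZMod 3)]

theorem vec3_inj_fin : ∀ a b : Fin 27, vec3 a.val = vec3 b.val → a = b := by decide +kernel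

theorem vec3_inj {a b : ℕ} (ha : a < 27) (hb : b < 27) (h : vec3 a = vec3 b) : a = b := by
  have := vec3_inj_fin ⟨a, ha⟩ ⟨b, hb⟩ h
  exact congrArg Fin.val this

/-- The first matrix. -/
def m0 : Matrix (Fin 3) (Fin 3) (ZMod 3) := !![2, 2, 1; 1, 2, 2; 1, 2, 1]
/-- The second matrix. -/
def m1 : Matrix (Fin 3) (Fin 3) (ZMod 3) := !![2, 2, 2; 0, 2, 0; 0, 2, 1]

theorem det0 : m0.det = 1 := by
  rw [Matrix.det_fin_three]
  decide +kernel

theorem det1 : m1.det = 1 := by
  rw [Matrix.det_fin_three]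
  decide +kernel

/-- The generators. -/
def sS (i : ℕ) : SL3 := if i = 0 then ⟨m0, det0⟩ else ⟨m1, det1⟩

/-- The tables of the generators on the vectors. -/
def Sx (i v : ℕ) : ℕ := fld (if i = 0 then tS0 else tS1) 5 31 v

theorem act0 : ∀ v : Fin 27, m0 *ᵥ vec3 v.val = vec3 (Sx 0 v.val) := by decide +kernel
theorem act1 : ∀ v : Fin 27, m1 *ᵥ vec3 v.val = vec3 (Sx 1 v.val) := by decide +kernel

theorem sS_act {i : ℕ} (hi : i < 2) {v : ℕ} (hv : v < 27) : (sS i).1 *ᵥ vec3 v = vec3 (Sx i v) := by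
  interval_cases i
  · exact act0 ⟨v, hv⟩
  · exact act1 ⟨v, hv⟩

theorem vec_basis : ∀ j : Fin 3, vec3 (3 ^ j.val) = Pi.single j 1 := by decide +kernel

theorem mat_eq_of_cols {A B : Matrix (Fin 3) (Fin 3) (ZMod 3)}
    (h : ∀ j, j < 3 → A *ᵥ vec3 (3 ^ j) = B *ᵥ vec3 (3 ^ j)) : A = B := by
  ext i j
  have h1 := h j.val j.isLt
  rw [vec_basis] at h1
  have h2 := congrFun h1 i
  simpa [Matrix.mulVec_single] using h2

theorem card_SL3 : Nat.card SL3 = 5616 := by
  show Nat.card (Matrix.SpecialLinearGroup (Fin 3) (ZMod 3)) = 5616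
  have h1 := Cfsg.Agent.Lib.ClassicalCore.card_GL_eq_mul_card_SL (n := Fin 3) (F := ZMod 3)
  have h2 : Nat.card (GL (Fin 3) (ZMod 3)) = 11232 := by
    rw [Matrix.card_GL_field]
    simp [ZMod.card, Fin.prod_univ_succ]
  rw [h2] at h1
  have h3 : Fintype.card (ZMod 3) = 3 := ZMod.card 3
  rw [h3] at h1
  omega

theorem good : Cfsg.Agent.Lib.StA.Good (Fin 3) (ZMod 3) := by
  refine ⟨by simp, fun _ => ⟨2, by decide, by decide⟩, fun h => ?_⟩
  simp at h

theorem hM : HasCyclicSchurMultiplier SL3 1 :=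
  Cfsg.Agent.Lib.SchurStem.hasCyclicSchurMultiplier_one SL3 (fun _ _ _ σ hσ =>
    Cfsg.Agent.Lib.StMain.ker_eq_bot_SL good σ hσ)

theorem hperf : commutator SL3 = ⊤ :=
  Cfsg.Agent.Lib.ClassicalSL.commutator_SL_eq_top (by simp)

end Cfsg.Agent.Lib.TitsMSL
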