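import Mathlib
import Cfsg.Agent.Lib.TitsMT
import Cfsg.Agent.Lib.TitsMSL
import Cfsg.Agent.Lib.TitsMHom
import Cfsg.Agent.Lib.CosetPackG

/-!
# The Schur multiplier of the Tits group

A copy of `SL₃(3)` in the Tits group, of index `3200`, and the coset system with the certificate of `TitsMCert`.
-/

set_option autoImplicit false
set_option maxRecDepth 100000

namespace Cfsg.Agent.Lib.TitsMUp

open Cfsg Cfsg.Agent.Lib.SchurCoset46 Cfsg.Agent.Lib.CosetPackG Cfsg.Agent.Lib.TitsMCert Cfsg.Agent.Lib.TitsMData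
  Cfsg.Agent.Lib.TitsMT Cfsg.Agent.Lib.TitsMSL Cfsg.Agent.Lib.TitsPar Cfsg.Agent.Lib.TwoF4Inv
open scoped Matrix

/-! ### The tables -/

/-- The columns. -/
def gC (k j : ℕ) : ℕ := tGC (3 * k + j)
/-- The images of the base. -/
def hEnt (k b : ℕ) : ℕ := tHE (9 * k + b)
/-- The products. -/
def nxT (k i : ℕ) : ℕ := tNX (2 * k + i)
/-- The tree. -/
def prt (k : ℕ) : ℕ × ℕ := (tPR k / 2, tPR k % 2)
/-- The elements of the Schreier generators. -/
def kT (c i : ℕ) : ℕ := tKT (2 * c + i)
/-- The inverse of the table of columns. -/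
def invC (x : ℕ) : ℕ := tIC x
/-- The letter for the generators of the image of `SL₃(3)`. -/
def Yl (i : ℕ) : ℕ := if i = 0 then 0 else 4

/-- Forcing a number to a literal. -/
def frc {α : Type} (n : ℕ) (f : ℕ → α) : α := Nat.casesOn n (f 0) (fun m => f (Nat.succ m))

theorem frc_eq {α : Type} (n : ℕ) (f : ℕ → α) : frc n f = f n := by
  cases n <;> rfl

/-- The images of the generators of `SL₃(3)`. -/
noncomputable def yY (i : ℕ) : ↥T := if i = 0 then aT else yT

theorem yY_act {i : ℕ} (hi : i < 2) (p : Fin 1755) : ((yY i).1 p).val = lt (Yl i) p.val := by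
  interval_cases i
  · exact a_act p
  · exact y_act p

/-- The test of a product in a row of the tables. -/
def rowChk1 (k i n : ℕ) : Bool :=
  Nat.blt n 5616 &&
    (List.range 3).all (fun j => Nat.beq (gC n j) (Sx i (gC k j))) &&
    (List.range 9).all (fun b => Nat.beq (hEnt n b) (frc (hEnt k b) (lt (Yl i))))

/-- The test of a row of the tables. -/
def rowChk (k : ℕ) : Bool :=
  (List.range 2).all (fun i => frc (nxT k i) (rowChk1 k i)) &&
  (List.range 3).all (fun j => Nat.blt (gC k j) 27) &&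
  Nat.beq (frc (gC k 0 + 32 * gC k 1 + 1024 * gC k 2) invC) k &&
  (Nat.beq k 0 || (Nat.blt (prt k).1 k && Nat.blt (prt k).2 2 && Nat.beq (nxT (prt k).1 (prt k).2) k))

theorem tab_chk : (List.range 5616).all rowChk = true := by decide +kernel

theorem row_facts {k : ℕ} (hk : k < 5616) :
    (∀ i, i < 2 → nxT k i < 5616 ∧ (∀ j, j < 3 → gC (nxT k i) j = Sx i (gC k j)) ∧
      ∀ b, b < 9 → hEnt (nxT k i) b = lt (Yl i) (hEnt k b)) ∧
    (∀ j, j < 3 → gC k j < 27) ∧ invC (gC k 0 + 32 * gC k 1 + 1024 * gC k 2) = k ∧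
    (k ≠ 0 → (prt k).1 < k ∧ (prt k).2 < 2 ∧ nxT (prt k).1 (prt k).2 = k) := by
  have h := tab_chk
  simp only [List.all_eq_true, List.mem_range] at h
  have h1 := h k hk
  simp only [rowChk, rowChk1, frc_eq, Bool.and_eq_true, List.all_eq_true, List.mem_range, Bool.or_eq_true,
    Nat.blt_eq] at h1
  obtain ⟨⟨⟨h2, h3⟩, h4⟩, h5⟩ := h1
  refine ⟨fun i hi => ?_, h3, Nat.eq_of_beq_eq_true h4, fun hk0 => ?_⟩
  · obtain ⟨⟨h6, h7⟩, h8⟩ := h2 i hi
    exact ⟨h6, fun j hj => Nat.eq_of_beq_eq_true (h7 j hj), fun b hb => Nat.eq_of_beq_eq_true (h8 b hb)⟩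
  · rcases h5 with h6 | h6
    · exact absurd (Nat.eq_of_beq_eq_true h6) hk0
    · exact ⟨h6.1.1, h6.1.2, Nat.eq_of_beq_eq_true h6.2⟩

theorem gC_zero : ∀ j, j < 3 → gC 0 j = 3 ^ j := by decide +kernel
theorem hEnt_zero : ∀ b, b < 9 → hEnt 0 b = B9 b := by decide +kernel

/-- The pairs of elements of the two tables. -/
theorem exists_pair (k : ℕ) : ∃ (x : SL3) (h : ↥T), k < 5616 →
    (∀ j, j < 3 → x.1 *ᵥ vec3 (3 ^ j) = vec3 (gC k j)) ∧
      ∀ b, b < 9 → ∀ p : Fin 1755, p.val = B9 b → (h.1 p).val = hEnt k b := by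
  induction k using Nat.strong_induction_on with
  | _ k ih =>
    by_cases hk : k < 5616
    · by_cases hk0 : k = 0
      · subst hk0
        refine ⟨1, 1, fun _ => ⟨fun j hj => ?_, fun b hb p hp => ?_⟩⟩
        · rw [gC_zero j hj]
          simp
        · rw [hEnt_zero b hb, ← hp]
          rfl
      · obtain ⟨-, -, -, h1⟩ := row_facts hk
        obtain ⟨h1, h2, h3⟩ := h1 hk0
        obtain ⟨x, y, hxy⟩ := ih _ h1
        obtain ⟨h4, h5⟩ := hxy (h1.trans hk)
        obtain ⟨h6, -, -, -⟩ := row_facts (h1.trans hk)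
        obtain ⟨-, h7, h8⟩ := h6 _ h2
        rw [h3] at h7 h8
        obtain ⟨-, h9, -, -⟩ := row_facts (h1.trans hk)
        refine ⟨sS (prt k).2 * x, yY (prt k).2 * y, fun _ => ⟨fun j hj => ?_, fun b hb p hp => ?_⟩⟩
        · rw [Matrix.SpecialLinearGroup.coe_mul, ← Matrix.mulVec_mulVec, h4 j hj, sS_act h2 (h9 j hj), h7 j hj]
        · rw [Subgroup.coe_mul, Equiv.Perm.mul_apply, yY_act h2, h5 b hb p hp, h8 b hb]
    · exact ⟨1, 1, fun h => absurd h hk⟩

/-- The homomorphism from `SL₃(3)`. -/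
theorem exists_phi : ∃ φ : SL3 →* ↥T, ∀ k, k < 5616 → ∃ x : SL3, ∀ b, b < 9 → ∀ p : Fin 1755, p.val = B9 b →
    ((φ x).1 p).val = hEnt k b := by
  choose gK hK hp using exists_pair
  have hgK : ∀ k, k < 5616 → ∀ j, j < 3 → (gK k).1 *ᵥ vec3 (3 ^ j) = vec3 (gC k j) := fun k hk => (hp k hk).1
  have hhK : ∀ k, k < 5616 → ∀ b, b < 9 → ∀ p : Fin 1755, p.val = B9 b → ((hK k).1 p).val = hEnt k b :=
    fun k hk => (hp k hk).2
  have g0 : gK 0 = 1 := by
    apply Subtype.ext
    apply mat_eq_of_cols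
    intro j hj
    rw [hgK 0 (by norm_num) j hj, gC_zero j hj]
    simp
  have h0 : hK 0 = 1 := by
    apply Subtype.ext
    apply eq_one_of_base (T_le (hK 0).2)
    intro i hi p hp'
    rw [hhK 0 (by norm_num) i hi p hp', hEnt_zero i hi, hp']
  have hinj : ∀ k k', k < 5616 → k' < 5616 → gK k = gK k' → k = k' := by
    intro k k' hk hk' he
    obtain ⟨-, h1, h2, -⟩ := row_facts hk
    obtain ⟨-, h3, h4, -⟩ := row_facts hk'
    have hc : ∀ j, j < 3 → gC k j = gC k' j := by
      intro j hj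
      apply vec3_inj (h1 j hj) (h3 j hj)
      rw [← hgK k hk j hj, ← hgK k' hk' j hj, he]
    rw [← h2, ← h4, hc 0 (by norm_num), hc 1 (by norm_num), hc 2 (by norm_num)]
  have hs : ∀ k, k < 5616 → ∀ i, i < 2 → sS i * gK k = gK (nxT k i) := by
    intro k hk i hi
    obtain ⟨h1, h2, -, -⟩ := row_facts hk
    obtain ⟨h3, h4, -⟩ := h1 i hi
    apply Subtype.ext
    apply mat_eq_of_cols
    intro j hj
    rw [Matrix.SpecialLinearGroup.coe_mul, ← Matrix.mulVec_mulVec, hgK k hk j hj, sS_act hi (h2 j hj),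
      hgK _ h3 j hj, h4 j hj]
  have hy : ∀ k, k < 5616 → ∀ i, i < 2 → yY i * hK k = hK (nxT k i) := by
    intro k hk i hi
    obtain ⟨h1, -, -, -⟩ := row_facts hk
    obtain ⟨h3, -, h5⟩ := h1 i hi
    apply Subtype.ext
    apply eq_of_base (T_le (yY i * hK k).2) (T_le (hK (nxT k i)).2)
    intro b hb p hp'
    rw [Subgroup.coe_mul, Equiv.Perm.mul_apply, yY_act hi, hhK k hk b hb p hp', hhK _ h3 b hb p hp', h5 b hb]
  obtain ⟨φ, hφ⟩ := Cfsg.Agent.Lib.TitsMHom.exists_hom_of_table (m := 2) (N := 5616) sS yY gK hK nxT prt card_SL3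
    g0 h0 hinj (fun k hk i hi => ((row_facts hk).1 i hi).1) hs hy
    (fun k hk hk0 => (row_facts hk).2.2.2 (by omega))
  refine ⟨φ, fun k hk => ⟨gK k, fun b hb p hp' => ?_⟩⟩
  rw [hφ k hk]
  exact hhK k hk b hb p hp'

/-- The homomorphism. -/
noncomputable def φ : SL3 →* ↥T := Classical.choose exists_phi

theorem φ_spec : ∀ k, k < 5616 → ∃ x : SL3, ∀ b, b < 9 → ∀ p : Fin 1755, p.val = B9 b →
    ((φ x).1 p).val = hEnt k b := Classical.choose_spec exists_phi

/-- The subgroup. -/
noncomputable abbrev Hs : Subgroup ↥T := φ.range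

/-! ### The Schreier generators -/

theorem cert_check : cert.check = true := cert_ok

theorem hTab : Tab cert.n cert.m cert.T cert.par := by
  have h := cert_ok
  simp only [CertP.check, Bool.and_eq_true] at h
  exact cert.base.tab_of_chk h.1.1.1.2

/-- The lifts of the coset representatives. -/
noncomputable abbrev tO : ℕ → ↥T := tOf sT cert.par

/-- A coset representative on the points. -/
def tAc : ℕ → ℕ → ℕ → ℕ
  | 0, _, x => x
  | f + 1, c, x => cond (Nat.beq c 0) x
      (frc (lt (cert.par c).2 x) fun y => frc (cert.par c).1 fun d => tAc f d y)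

/-- The inverse of a coset representative on the points. -/
def tIn : ℕ → ℕ → ℕ → ℕ
  | 0, _, x => x
  | f + 1, c, x => cond (Nat.beq c 0) x
      (frc (frc (cert.par c).1 fun d => tIn f d x) (lt (inv1 (cert.par c).2)))

theorem tO_act (f : ℕ) : ∀ c, c ≤ f → c < cert.n → ∀ p : Fin 1755, ((tO c).1 p).val = tAc f c p.val := by
  induction f with
  | zero =>
    intro c hc _ p
    obtain rfl : c = 0 := by omega
    rw [tO, tOf_zero]
    rfl
  | succ f ih =>
    intro c hc hn p
    by_cases h0 : c = 0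
    · subst h0
      rw [tO, tOf_zero]
      rfl
    · obtain ⟨h1, h2, -⟩ := hTab.par_lt c hn (by omega)
      have h3 : Nat.beq c 0 = false := by
        rw [Bool.eq_false_iff]
        intro h
        exact h0 (Nat.eq_of_beq_eq_true h)
      have h4 : (cert.par c).2 < 4 := h2
      rw [tO, tOf_pos sT cert.par (by omega) h1, Subgroup.coe_mul, Equiv.Perm.mul_apply]
      rw [tAc, h3, cond_false, frc_eq, frc_eq, ← lett_act h4 p]
      exact ih _ (by omega) (h1.trans hn) _

theorem tO_inv_act (f : ℕ) : ∀ c, c ≤ f → c < cert.n → ∀ p : Fin 1755, (((tO c)⁻¹).1 p).val = tIn f c p.val := by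
  induction f with
  | zero =>
    intro c hc _ p
    obtain rfl : c = 0 := by omega
    rw [tO, tOf_zero, inv_one]
    rfl
  | succ f ih =>
    intro c hc hn p
    by_cases h0 : c = 0
    · subst h0
      rw [tO, tOf_zero, inv_one]
      rfl
    · obtain ⟨h1, h2, -⟩ := hTab.par_lt c hn (by omega)
      have h3 : Nat.beq c 0 = false := by
        rw [Bool.eq_false_iff]
        intro h
        exact h0 (Nat.eq_of_beq_eq_true h)
      have h4 : (cert.par c).2 < 4 := h2
      rw [tO, tOf_pos sT cert.par (by omega) h1, mul_inv_rev, lett_inv h4, Subgroup.coe_mul, Equiv.Perm.mul_apply,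
        lett_act (inv1_lt h4), tIn, h3, cond_false, frc_eq, frc_eq, ih _ (by omega) (h1.trans hn) p]

/-- The test for a Schreier generator, at a base point. -/
def schChk1 (c i d k b : ℕ) : Bool :=
  Nat.beq (frc (B9 b) fun x => frc (tIn d d x) fun y => frc (lt (2 * i) y) fun z => tAc c c z) (hEnt k b)

/-- The test for a Schreier generator. -/
def schChk (c i : ℕ) : Bool :=
  frc (kT c i) fun k => frc (cert.T c (2 * i)) fun d => Nat.blt k 5616 && (List.range 9).all (schChk1 c i d k)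

theorem sch_ok : (List.range 3200).all (fun c => (List.range 2).all (schChk c)) = true := by decide +kernel

theorem hn : cert.n = 3200 := rfl

theorem sch_mem {c : ℕ} (hc : c < cert.n) {i : ℕ} (hi : i < 2) : tO c * sT i * (tO (cert.T c (2 * i)))⁻¹ ∈ Hs := by
  have h := sch_ok
  simp only [List.all_eq_true, List.mem_range] at h
  have h1 := h c (by rw [← hn]; exact hc) i hi
  simp only [schChk, schChk1, frc_eq, Bool.and_eq_true, Nat.blt_eq, List.all_eq_true, List.mem_range] at h1
  obtain ⟨x, hx⟩ := φ_spec _ h1.1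
  have hd : cert.T c (2 * i) < cert.n := hTab.T_lt c hc _ (by rw [hm2]; omega)
  refine ⟨x, ?_⟩
  apply Subtype.ext
  apply eq_of_base (T_le (φ x).2) (T_le (tO c * sT i * (tO (cert.T c (2 * i)))⁻¹).2)
  intro b hb p hp
  rw [hx b hb p hp, ← Nat.eq_of_beq_eq_true (h1.2 b hb)]
  rw [Subgroup.coe_mul, Subgroup.coe_mul, Equiv.Perm.mul_apply, Equiv.Perm.mul_apply]
  rw [tO_act c c le_rfl hc, ← lett_even sT i, lett_act (by omega), tO_inv_act _ _ le_rfl hd, hp]

/-! ### The cosets -/

/-- The cosets of the subgroup. -/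
abbrev XX : Type := ↥T ⧸ Hs

/-- The coset of the subgroup itself. -/
noncomputable def x0 : XX := QuotientGroup.mk 1

theorem smul_x0 (a : ↥T) : a • x0 = (QuotientGroup.mk a : XX) := by
  rw [x0, MulAction.Quotient.smul_mk, smul_eq_mul, mul_one]

theorem smul_x0_eq {a b : ↥T} (h : a⁻¹ * b ∈ Hs) : a • x0 = b • x0 := by
  rw [smul_x0, smul_x0]
  exact QuotientGroup.eq.mpr h

theorem smul_x0_iff (a : ↥T) : a • x0 = x0 ↔ a ∈ Hs := by
  have h : x0 = (QuotientGroup.mk 1 : XX) := rfl
  rw [smul_x0, h, QuotientGroup.eq, mul_one, inv_mem_iff]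

/-- The masks. -/
noncomputable def mask (c : ℕ) : XX := (tO c)⁻¹ • x0

theorem hm0 : mask 0 = x0 := by
  rw [mask, tO, tOf_zero, inv_one, one_smul]

theorem hms : ∀ c, c < cert.n → ∀ i, i < cert.m → sT i • mask (cert.T c (2 * i)) = mask c := by
  intro c hc i hi
  rw [mask, mask, smul_smul]
  apply smul_x0_eq
  have h1 := Hs.inv_mem (sch_mem hc (i := i) hi)
  have e : (sT i * (tO (cert.T c (2 * i)))⁻¹)⁻¹ * (tO c)⁻¹ = (tO c * sT i * (tO (cert.T c (2 * i)))⁻¹)⁻¹ := by group
  rwa [e]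

theorem lett_mask {c : ℕ} (hc : c < cert.n) {l : ℕ} (hl : l < 2 * cert.m) :
    (lett sT l)⁻¹ • mask c = mask (cert.T c l) := by
  rcases Nat.mod_two_eq_zero_or_one l with h | h
  · obtain ⟨i, rfl⟩ : ∃ i, l = 2 * i := ⟨l / 2, by omega⟩
    rw [lett_even, inv_smul_eq_iff]
    exact (hms c hc i (by omega)).symm
  · obtain ⟨i, rfl⟩ : ∃ i, l = 2 * i + 1 := ⟨l / 2, by omega⟩
    rw [lett_odd, inv_inv]
    have h1 := hms _ (hTab.T_lt c hc (2 * i + 1) hl) i (by omega)
    rw [hTab.T_odd c hc i (by omega)] at h1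
    exact h1

theorem mask_all (x : XX) : ∃ c, c < cert.n ∧ mask c = x := by
  have hA : ∀ g : ↥T, ∀ x : XX, (∃ c, c < cert.n ∧ mask c = x) → ∃ c, c < cert.n ∧ mask c = g • x := by
    intro g
    have hg : g ∈ Subgroup.closure (sT '' Set.Iio cert.m) := by
      rw [hgen]
      exact Subgroup.mem_top g
    induction hg using Subgroup.closure_induction with
    | mem a ha =>
      obtain ⟨i, hi, rfl⟩ := ha
      rintro x ⟨c, hc, rfl⟩
      have hi' : i < cert.m := hi
      have h1 := lett_mask hc (l := 2 * i + 1) (by omega)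
      rw [lett_odd, inv_inv] at h1
      exact ⟨_, hTab.T_lt c hc _ (by omega), h1.symm⟩
    | one =>
      intro x hx
      simpa using hx
    | mul a b _ _ ha hb =>
      intro x hx
      rw [mul_smul]
      exact ha _ (hb _ hx)
    | inv a _ ha =>
      intro x hx
      have hfin : IsOfFinOrder a := isOfFinOrder_of_finite a
      have hpow : ∀ n : ℕ, ∀ x : XX, (∃ c, c < cert.n ∧ mask c = x) → ∃ c, c < cert.n ∧ mask c = (a ^ n) • x := by
        intro n
        induction n with
        | zero =>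
          intro x hx
          simpa using hx
        | succ n ih =>
          intro x hx
          rw [pow_succ', mul_smul]
          exact ha _ (ih _ hx)
      have h3 : a ^ (orderOf a - 1) * a = 1 := by
        rw [← pow_succ, Nat.sub_add_cancel (orderOf_pos _), pow_orderOf_eq_one]
      have h4 : a ^ (orderOf a - 1) = a⁻¹ := eq_inv_of_mul_eq_one_left h3
      have := hpow (orderOf a - 1) x hx
      rwa [h4] at this
  obtain ⟨g, rfl⟩ := QuotientGroup.mk_surjective x
  rw [← smul_x0]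
  exact hA g x0 ⟨0, hTab.n_pos, hm0⟩

instance : Finite ↥T := inferInstance

theorem index_le : Hs.index ≤ 3200 := by
  classical
  have : Fintype XX := Fintype.ofFinite _
  rw [Subgroup.index_eq_card]
  have hsurj : Function.Surjective (fun c : Fin 3200 => mask c.1) := by
    intro x
    obtain ⟨c, hc, h⟩ := mask_all x
    exact ⟨⟨c, hc⟩, h⟩
  have := Nat.card_le_card_of_surjective _ hsurj
  simpa using this

theorem card_range_le : Nat.card Hs ≤ 5616 := by
  rw [← card_SL3]
  exact Nat.card_le_card_of_surjective _ φ.rangeRestrict_surjective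

theorem card_index : Nat.card Hs * Hs.index = 17971200 := by
  have h := Subgroup.card_mul_index Hs
  rwa [card_T] at h

theorem card_Hs : Nat.card Hs = 5616 := by
  have h1 := card_range_le
  have h2 := index_le
  have h3 := card_index
  by_contra hne
  have h4 : Nat.card Hs ≤ 5615 := by omega
  have h5 := Nat.mul_le_mul h4 h2
  omega

theorem index_Hs : Hs.index = 3200 := by
  have h3 := card_index
  rw [card_Hs] at h3
  omega

theorem φ_inj : Function.Injective φ := by
  have h1 : Function.Bijective φ.rangeRestrict := by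
    refine (Nat.bijective_iff_surjective_and_card _).mpr ⟨φ.rangeRestrict_surjective, ?_⟩
    rw [card_SL3, card_Hs]
  have h2 := h1.1
  intro a b hab
  apply h2
  exact Subtype.ext hab

theorem mask_inj {c d : ℕ} (hc : c < cert.n) (hd : d < cert.n) (e : mask c = mask d) : c = d := by
  classical
  have hsurj : Function.Surjective (fun c : Fin 3200 => mask c.1) := by
    intro x
    obtain ⟨c, hc, h⟩ := mask_all x
    exact ⟨⟨c, hc⟩, h⟩
  have h1 : Function.Bijective (fun c : Fin 3200 => mask c.1) := by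
    refine (Nat.bijective_iff_surjective_and_card _).mpr ⟨hsurj, ?_⟩
    rw [Nat.card_fin, ← Subgroup.index_eq_card, index_Hs]
  have h2 := h1.1 (a₁ := ⟨c, hc⟩) (a₂ := ⟨d, hd⟩) e
  exact congrArg Fin.val h2

theorem hmne : ∀ c, c < cert.n → mask c = x0 → c = 0 := by
  intro c hc he
  rw [← hm0] at he
  exact mask_inj hc hTab.n_pos he

/-! ### Stem extensions -/

/-- The subgroup as a copy of `SL₃(3)`. -/
noncomputable def eqv : SL3 ≃* Hs := MonoidHom.ofInjective φ_inj

section Stem

variable {Γ : Type*} [Group Γ] [Finite Γ]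

theorem exists_ret (σ : Γ →* ↥T) (hσ : IsStemExtension σ) :
    ∃ ρ : (Hs.comap σ) →* σ.ker, ∀ k (hk : k ∈ σ.ker) (h : k ∈ Hs.comap σ), ρ ⟨k, h⟩ = ⟨k, hk⟩ := by
  let τ : (Hs.comap σ) →* SL3 := eqv.symm.toMonoidHom.comp (σ.subgroupComap Hs)
  have hτ : Function.Surjective τ := eqv.symm.surjective.comp (σ.subgroupComap_surjective_of_surjective Hs hσ.1)
  have hker : ∀ y, τ y = 1 ↔ σ y = 1 := by
    intro y
    have h1 : τ y = eqv.symm (σ.subgroupComap Hs y) := rfl
    rw [h1, map_eq_one_iff _ eqv.symm.injective]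
    exact ⟨fun h => congrArg Subtype.val h, fun h => Subtype.ext h⟩
  exact exists_retraction' hσ.2.1 hM hperf τ hτ hker

theorem exp_ker {σ : Γ →* ↥T} (hσ : IsStemExtension σ) {k : Γ} (hk : k ∈ σ.ker) : k ^ 3200 = 1 := by
  obtain ⟨ρ, hρ⟩ := exists_ret σ hσ
  have hcomm : ∀ a b : σ.ker, a * b = b * a := fun a b =>
    Subtype.ext (Subgroup.mem_center_iff.mp (hσ.2.1 b.2) a.1)
  have := pow_index_of_retraction (Hs.comap σ) hcomm ρ hk (hσ.2.1 hk) (hσ.2.2 hk) hρ
  rwa [Subgroup.index_comap_of_surjective _ hσ.1, index_Hs] at this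

theorem ker_bot (σ : Γ →* ↥T) (hσ : IsStemExtension σ) : σ.ker = ⊥ := by
  obtain ⟨ρ, hρ⟩ := exists_ret σ hσ
  let _ : CommGroup σ.ker := { (inferInstance : Group σ.ker) with
    mul_comm := fun a b => Subtype.ext (Subgroup.mem_center_iff.mp (hσ.2.1 b.2) a.1) }
  have hE : ∀ b : σ.ker, b ^ cert.E = 1 := fun b => Subtype.ext (exp_ker hσ b.2)
  have hlift : ∀ i, ∃ x, σ x = sT i ∧ x ^ 13 = 1 := fun i =>
    exists_lift_pow hσ (g := sT i) (n := 13) (u := 1723) (E := 3200) (sT_pow i) (fun k hk => exp_ker hσ hk)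
      (by norm_num)
  choose x hx1 hx2 using hlift
  have hnorm : ∀ j, j < cert.R → cert.normal j = true → evW x (cert.rels j) = 1 := by
    intro j _ hj
    have hj' : j ≤ 1 := Nat.le_of_ble_eq_true hj
    interval_cases j
    · rw [rel0_eq, evW_13, show lett x 0 = x 0 from lett_even x 0, hx2]
    · rw [rel1_eq, evW_13, show lett x 2 = x 1 from lett_even x 1, hx2]
  obtain ⟨u, hu, hall⟩ := ker_cyclic_of_certP hσ (Ht := Hs.comap σ) (x0 := x0) (fun y => (smul_x0_iff _).symm) ρ hρ
    (MonoidHom.id σ.ker) cert cert_ok hE hm0 hmne hms hgen hx1 hrels hrel hnorm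
  have hr0 : cert.r0 = 1 := rfl
  rw [hr0, pow_one] at hu
  rw [eq_bot_iff]
  intro k hk
  have h1 := hall ⟨k, hk⟩
  rw [hu, Subgroup.zpowers_one_eq_bot, Subgroup.mem_bot] at h1
  exact congrArg Subtype.val h1

end Stem

end Cfsg.Agent.Lib.TitsMUp
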