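import Mathlib
import Cfsg.Agent.Lib.SmallPres
import Cfsg.Agent.Lib.SL2Klein
import Cfsg.Agent.S3377

set_option autoImplicit false
set_option linter.unusedSectionVars false
set_option linter.unusedSimpArgs false
set_option linter.unusedVariables false

/-!
# Trace triples in `SL₂(F)` and subgroups `A₄`, `S₄`, `A₅` of `PSL₂(F)`
-/

namespace Cfsg.Agent.Lib.TraceTriple

open Cfsg.Agent.Lib.SL2Core Cfsg.Agent.Lib.SL2Inv Cfsg.Agent.Lib.SL2Four Cfsg.Agent.Lib.SL2Klein
open Cfsg.Agent.Lib.SmallPres Matrix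

section General

variable {G : Type*} [Group G]

/-- A normal subgroup of order two is central. -/
theorem le_center_of_card_two {K : Subgroup G} [hK : K.Normal] (h : Nat.card K = 2) :
    K ≤ Subgroup.center G := by
  intro g hg
  rw [Subgroup.mem_center_iff]
  intro x
  by_cases hg1 : g = 1
  · rw [hg1, mul_one, one_mul]
  · obtain ⟨u, -, hu⟩ := (Nat.card_eq_two_iff' (1 : K)).mp h
    have h1 : (⟨g, hg⟩ : K) = u := hu _ (fun h => hg1 (congrArg Subtype.val h))
    have h3 : x * g * x⁻¹ ∈ K := hK.conj_mem g hg x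
    have h4 : (⟨x * g * x⁻¹, h3⟩ : K) = u := hu _ (fun h => hg1 (by
      have h5 : x * g * x⁻¹ = 1 := congrArg Subtype.val h
      have h6 : g = x⁻¹ * (x * g * x⁻¹) * x := by group
      rw [h6, h5]
      group))
    have h5 : x * g * x⁻¹ = g := by
      have := h4.trans h1.symm
      exact congrArg Subtype.val this
    calc x * g = (x * g * x⁻¹) * x := by group
      _ = g * x := by rw [h5]

/-- Injectivity of a homomorphism whose image has order divisible by `m`, from a group with trivial
center and of order dividing `2m`. -/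
theorem inj_of_dvd {A : Type*} [Group A] [Finite A] (hc : Subgroup.center A = ⊥) {m : ℕ} (hm : 0 < m)
    (hA : Nat.card A = 2 * m) (φ : A →* G) (hd : m ∣ Nat.card φ.range) : Function.Injective φ := by
  have h1 := Subgroup.card_mul_index φ.ker
  rw [Subgroup.index_ker, hA] at h1
  obtain ⟨k, hk⟩ := hd
  rw [hk] at h1
  have h2 : Nat.card φ.ker * k = 2 := by
    apply Nat.eq_of_mul_eq_mul_left hm
    calc m * (Nat.card φ.ker * k) = Nat.card φ.ker * (m * k) := by ring
      _ = 2 * m := h1
      _ = m * 2 := by ring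
  have h3 : Nat.card φ.ker ∣ 2 := ⟨k, h2.symm⟩
  rw [← MonoidHom.ker_eq_bot_iff]
  rcases (Nat.dvd_prime Nat.prime_two).mp h3 with h4 | h4
  · exact Subgroup.eq_bot_of_card_eq _ h4
  · have h5 := le_center_of_card_two h4
    rw [hc] at h5
    exact le_bot_iff.mp h5

theorem center_perm4 : Subgroup.center (Equiv.Perm (Fin 4)) = ⊥ := by
  rw [eq_bot_iff]
  intro g hg
  rw [Subgroup.mem_center_iff] at hg
  rw [Subgroup.mem_bot]
  have key : ∀ g : Equiv.Perm (Fin 4), (∀ h : Equiv.Perm (Fin 4), h * g = g * h) → g = 1 := by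
    decide +kernel
  exact key g hg

theorem center_alt4 : Subgroup.center (alternatingGroup (Fin 4)) = ⊥ := by
  rw [eq_bot_iff]
  intro g hg
  rw [Subgroup.mem_center_iff] at hg
  rw [Subgroup.mem_bot]
  have key : ∀ g : alternatingGroup (Fin 4), (∀ h : alternatingGroup (Fin 4), h * g = g * h) → g = 1 := by
    decide +kernel
  exact key g hg

end General

variable {F : Type*} [Field F]

local notation "Mat" => Matrix (Fin 2) (Fin 2) F

/-- Power formula from Cayley--Hamilton. -/
theorem step {M : Mat} {t : F} (hM : M * M = t • M - 1) (α β : F) :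
    (α • M + β • (1 : Mat)) * M = (α * t + β) • M + (-α) • (1 : Mat) := by
  rw [add_mul, Matrix.smul_mul, Matrix.smul_mul, hM, Matrix.one_mul, smul_sub, smul_smul, add_smul, neg_smul]
  simp only [sub_eq_add_neg, smul_one_eq_diagonal]
  abel

theorem pow_two_ {M : Mat} {t : F} (hM : M * M = t • M - 1) : M ^ 2 = t • M + (-1 : F) • (1 : Mat) := by
  rw [pow_two, hM, neg_smul, one_smul, sub_eq_add_neg]

theorem pow_three_ {M : Mat} {t : F} (hM : M * M = t • M - 1) :
    M ^ 3 = (t * t - 1) • M + (-t) • (1 : Mat) := by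
  rw [pow_succ, pow_two_ hM, step hM]
  ring_nf

theorem pow_four_ {M : Mat} {t : F} (hM : M * M = t • M - 1) :
    M ^ 4 = (t * t * t - 2 * t) • M + (-(t * t - 1)) • (1 : Mat) := by
  rw [pow_succ, pow_three_ hM, step hM]
  ring_nf

theorem pow_five_ {M : Mat} {t : F} (hM : M * M = t • M - 1) :
    M ^ 5 = (t * t * t * t - 3 * t * t + 1) • M + (-(t * t * t - 2 * t)) • (1 : Mat) := by
  rw [pow_succ, pow_four_ hM, step hM]
  ring_nf

theorem coe_pow_ (c : SL2 F) (n : ℕ) : ((c ^ n : SL2 F) : Mat) = (c : Mat) ^ n := by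
  induction n with
  | zero => rfl
  | succ n ih => rw [pow_succ, pow_succ, ← ih]; rfl

theorem cube_of_tr {c : SL2 F} (h : tr c = 1) : c ^ 3 = negS 1 := by
  apply Subtype.ext
  have hM := cayley c
  rw [h] at hM
  rw [coe_pow_, pow_three_ hM]
  show _ = -((1 : SL2 F) : Mat)
  rw [show ((1 : SL2 F) : Mat) = 1 from rfl]
  simp

theorem pow_four_of_tr {c : SL2 F} {t : F} (h : tr c = t) (ht : t * t = 2) : c ^ 4 = negS 1 := by
  apply Subtype.ext
  have hM := cayley c
  rw [h] at hM
  rw [coe_pow_, pow_four_ hM, ht, sub_self]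
  show _ = -((1 : SL2 F) : Mat)
  rw [show ((1 : SL2 F) : Mat) = 1 from rfl]
  have e2 : (2 - 1 : F) = 1 := by norm_num
  rw [e2]
  simp

theorem pow_five_of_tr {c : SL2 F} {t : F} (h : tr c = t) (ht : t * t = t + 1) : c ^ 5 = negS 1 := by
  apply Subtype.ext
  have hM := cayley c
  rw [h] at hM
  rw [coe_pow_, pow_five_ hM]
  have e1 : t * t * t * t - 3 * t * t + 1 = 0 := by
    linear_combination (t * t + t - 1) * ht
  have e2 : t * t * t - 2 * t = 1 := by
    linear_combination (t + 1) * ht
  rw [e1, e2]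
  show _ = -((1 : SL2 F) : Mat)
  rw [show ((1 : SL2 F) : Mat) = 1 from rfl]
  simp

theorem proj_pow_eq_one {c : SL2 F} {n : ℕ} (h : c ^ n = negS 1) : (proj c) ^ n = 1 := by
  rw [← map_pow, h, proj_negS, map_one]

theorem eq_or_of_proj_eq_one {Z : SL2 F} (h : proj Z = 1) : Z = 1 ∨ Z = negS 1 :=
  center_eq _ ((proj_eq_one_iff _).mp h)

/-- An element of `SL₂` with a given pair of traces. -/
theorem exists_of_point {γ x y : F} (h : x * x - x * y + y * y - γ * y + 1 = 0) :
    ∃ a b : SL2 F, tr a = 0 ∧ tr b = 1 ∧ tr (a * b) = γ := by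
  let a : SL2 F := mk2 x y (y - x - γ) (-x) (by linear_combination -h)
  let b : SL2 F := mk2 0 (-1) 1 1 (by ring)
  refine ⟨a, b, ?_, ?_, ?_⟩
  · simp [tr_eq, a]
  · simp [tr_eq, b]
  · rw [tr_eq]
    show ((a : Mat) * (b : Mat)) 0 0 + ((a : Mat) * (b : Mat)) 1 1 = γ
    simp [a, b, Matrix.mul_apply, Fin.sum_univ_two]
    ring

variable [Fintype F]

theorem exists_point (γ : F) (hγ : γ ≠ 0) : ∃ x y : F, x * x - x * y + y * y - γ * y + 1 = 0 := by
  by_cases h2 : (2 : F) = 0
  · exact ⟨1, 0, by linear_combination h2⟩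
  by_cases h3 : (3 : F) = 0
  · refine ⟨-γ⁻¹, γ⁻¹, ?_⟩
    have e : γ * γ⁻¹ = 1 := mul_inv_cancel₀ hγ
    linear_combination γ⁻¹ * γ⁻¹ * h3 - e
  · have h4 : (4 : F) ≠ 0 := by
      have : (4 : F) = 2 * 2 := by norm_num
      rw [this]; exact mul_ne_zero h2 h2
    obtain ⟨u, v, huv⟩ := Cfsg.Agent.Lib.OrthSiegel2.exists_sum_eq h2 (one_ne_zero (α := F))
      (div_ne_zero h3 h4) (γ * γ / 3 - 1)
    refine ⟨u + (v + 2 * γ / 3) / 2, v + 2 * γ / 3, ?_⟩
    have e : (u + (v + 2 * γ / 3) / 2) * (u + (v + 2 * γ / 3) / 2) - (u + (v + 2 * γ / 3) / 2) * (v + 2 * γ / 3)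
        + (v + 2 * γ / 3) * (v + 2 * γ / 3) - γ * (v + 2 * γ / 3) + 1
        = (u * u * 1 + v * v * (3 / 4)) - (γ * γ / 3 - 1) := by
      field_simp
      ring
    rw [e, huv, sub_self]

/-- The trace triples. -/
theorem exists_triple (γ : F) (hγ : γ ≠ 0) : ∃ a b : SL2 F, tr a = 0 ∧ tr b = 1 ∧ tr (a * b) = γ := by
  obtain ⟨x, y, h⟩ := exists_point γ hγ
  exact exists_of_point h

omit [Fintype F] in
theorem tr_one_eq : tr (1 : SL2 F) = 2 := tr_one

omit [Fintype F] in
/-- If `b = ±1`, the traces of `a` and `ab` agree up to sign. -/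
theorem proj_b_ne_one {a b : SL2 F} (ha : tr a = 0) {γ : F} (hab : tr (a * b) = γ) (hγ : γ ≠ 0) : proj b ≠ 1 := by
  intro h
  rcases eq_or_of_proj_eq_one h with rfl | rfl
  · rw [mul_one, ha] at hab
    exact hγ hab.symm
  · rw [mul_negS, mul_one, tr_negS, ha, neg_zero] at hab
    exact hγ hab.symm

omit [Fintype F] in
theorem proj_a_ne_one_of_two {a : SL2 F} (h2 : (2 : F) ≠ 0) (ha : tr a = 0) : proj a ≠ 1 := by
  intro h
  rcases eq_or_of_proj_eq_one h with rfl | rfl
  · rw [tr_one] at ha
    exact h2 ha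
  · rw [tr_negS, tr_one, neg_eq_zero] at ha
    exact h2 ha

omit [Fintype F] in
theorem order_three_of {b : SL2 F} (hb : tr b = 1) (h1 : proj b ≠ 1) : orderOf (proj b) = 3 :=
  orderOf_eq_prime (proj_pow_eq_one (cube_of_tr hb)) h1

omit [Fintype F] in
theorem order_two_of {a : SL2 F} (ha : tr a = 0) (h1 : proj a ≠ 1) : orderOf (proj a) = 2 := by
  apply orderOf_eq_prime _ h1
  rw [← map_pow, pow_two, sq_of_tr_zero ha, proj_negS, map_one]

omit [Fintype F] in
/-- An element of a subgroup gives divisibility. -/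
theorem dvd_of_mem {G : Type*} [Group G] [Finite G] {K : Subgroup G} {x : G} (hx : x ∈ K) {n : ℕ} (hn : orderOf x = n) :
    n ∣ Nat.card K := by
  have := orderOf_dvd_natCard (⟨x, hx⟩ : K)
  rwa [Subgroup.orderOf_mk, hn] at this

omit [Fintype F] in
/-- `A₄` from a trace triple. -/
theorem exists_A4 [Finite (PSL2 F)] {a b : SL2 F} (ha : tr a = 0) (hb : tr b = 1) (hab : tr (a * b) = 1)
    (ha1 : proj a ≠ 1) (hb1 : proj b ≠ 1) :
    ∃ H : Subgroup (PSL2 F), Nonempty (H ≃* alternatingGroup (Fin 4)) := by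
  have ox := order_two_of ha ha1
  have oy := order_three_of hb hb1
  obtain ⟨φ, h1, h3⟩ := exists_hom_A4 (proj a) (proj b)
    (by rw [← map_pow, pow_two, sq_of_tr_zero ha, proj_negS, map_one])
    (proj_pow_eq_one (cube_of_tr hb))
    (by rw [← map_mul]; exact proj_pow_eq_one (cube_of_tr hab))
  have d2 : 2 ∣ Nat.card φ.range := dvd_of_mem (⟨XA, h1⟩ : proj a ∈ φ.range) ox
  have d3 : 3 ∣ Nat.card φ.range := dvd_of_mem (⟨YA, h3⟩ : proj b ∈ φ.range) oy
  have d6 : 6 ∣ Nat.card φ.range := Nat.Coprime.mul_dvd_of_dvd_of_dvd (by norm_num : Nat.Coprime 2 3) d2 d3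
  have hinj := inj_of_dvd center_alt4 (m := 6) (by norm_num) (by rw [nat_card_alternatingGroup]; simp; decide) φ d6
  exact ⟨φ.range, ⟨(MonoidHom.ofInjective hinj).symm⟩⟩

/-- `S₄` from a trace triple. -/
theorem exists_S4 (h2 : (2 : F) ≠ 0) {s : F} (hs : s * s = 2) :
    ∃ H : Subgroup (PSL2 F), Nonempty (H ≃* Equiv.Perm (Fin 4)) := by
  have hs0 : s ≠ 0 := by
    rintro rfl
    apply h2
    rw [← hs, mul_zero]
  obtain ⟨a, b, ha, hb, hab⟩ := exists_triple s hs0
  have ha1 := proj_a_ne_one_of_two h2 ha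
  have hb1 := proj_b_ne_one ha hab hs0
  have oy := order_three_of hb hb1
  -- `ab` has order four
  have hc : (proj (a * b)) ^ 4 = 1 := proj_pow_eq_one (pow_four_of_tr hab hs)
  have hc2 : (proj (a * b)) ^ 2 ≠ 1 := by
    intro h
    rw [← map_pow] at h
    have hM := cayley (a * b)
    rw [hab] at hM
    have hT : (((a * b : SL2 F)) : Mat).trace = s := hab
    have h4 : (2 : F) * 2 = 2 → False := by
      intro h5
      apply h2
      linear_combination h5
    rcases eq_or_of_proj_eq_one h with h | h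
    · have h3 := congrArg (fun Z : SL2 F => (Z : Mat)) h
      simp only [coe_pow_] at h3
      rw [pow_two, hM] at h3
      have h5 := congrArg Matrix.trace h3
      rw [trace_sub, trace_smul, hT, show ((1 : SL2 F) : Mat) = 1 from rfl, trace_one, Fintype.card_fin, smul_eq_mul, hs] at h5
      apply h2
      simp only [Nat.cast_ofNat] at h5
      linear_combination -h5
    · have h3 := congrArg (fun Z : SL2 F => (Z : Mat)) h
      simp only [coe_pow_] at h3
      rw [pow_two, hM] at h3
      have h5 := congrArg Matrix.trace h3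
      rw [trace_sub, negS_coe, trace_neg, trace_smul, hT, show ((1 : SL2 F) : Mat) = 1 from rfl, trace_one, Fintype.card_fin, smul_eq_mul, hs] at h5
      apply h2
      simp only [Nat.cast_ofNat] at h5
      linear_combination h5
  have oc : orderOf (proj (a * b)) = 4 := by
    have := orderOf_eq_prime_pow (p := 2) (n := 1) (x := proj (a * b)) (by simpa using hc2) (by simpa using hc)
    simpa using this
  obtain ⟨φ, h1, h3⟩ := exists_hom_S4 (proj a) (proj b)
    (by rw [← map_pow, pow_two, sq_of_tr_zero ha, proj_negS, map_one])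
    (proj_pow_eq_one (cube_of_tr hb))
    (by rw [← map_mul]; exact hc)
  have d4 : 4 ∣ Nat.card φ.range := dvd_of_mem (φ.range.mul_mem ⟨XS, h1⟩ ⟨YS, h3⟩ : proj a * proj b ∈ φ.range) (by rw [← map_mul]; exact oc)
  have d3 : 3 ∣ Nat.card φ.range := dvd_of_mem (⟨YS, h3⟩ : proj b ∈ φ.range) oy
  have d12 : 12 ∣ Nat.card φ.range := Nat.Coprime.mul_dvd_of_dvd_of_dvd (by norm_num : Nat.Coprime 4 3) d4 d3
  have hinj := inj_of_dvd center_perm4 (m := 12) (by norm_num) (by rw [Nat.card_perm]; simp; decide) φ d12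
  exact ⟨φ.range, ⟨(MonoidHom.ofInjective hinj).symm⟩⟩

omit [Fintype F] in
/-- Scalar elements are central. -/
theorem mem_center_of_scalar {Z : SL2 F} {l : F} (h : (Z : Mat) = l • (1 : Mat)) : Z ∈ Subgroup.center (SL2 F) := by
  rw [Subgroup.mem_center_iff]
  intro g
  apply Subtype.ext
  show (g : Mat) * (Z : Mat) = (Z : Mat) * (g : Mat)
  rw [h, Matrix.mul_smul, Matrix.smul_mul, Matrix.mul_one, Matrix.one_mul]

/-- `A₅` from a root of `x² = x + 1`. -/
theorem exists_A5 {t : F} (ht : t * t = t + 1) :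
    ∃ H : Subgroup (PSL2 F), Nonempty (H ≃* alternatingGroup (Fin 5)) := by
  have ht0 : t ≠ 0 := by
    rintro rfl
    simp at ht
  obtain ⟨a, b, ha, hb, hab⟩ := exists_triple t ht0
  have ha1 : proj a ≠ 1 := by
    intro h
    rcases eq_or_of_proj_eq_one h with rfl | rfl
    · rw [one_mul, hb] at hab
      rw [← hab] at ht
      exact one_ne_zero (α := F) (by linear_combination -ht)
    · rw [negS_mul, one_mul, tr_negS, hb] at hab
      rw [← hab] at ht
      norm_num at ht
  obtain ⟨e⟩ := Cfsg.Agent.S3377.result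
  have hb3 : (proj b) ^ 3 = 1 := proj_pow_eq_one (cube_of_tr hb)
  have hc5 : (proj (a * b)) ^ 5 = 1 := proj_pow_eq_one (pow_five_of_tr hab ht)
  have ha2 : proj a * proj a = 1 := by
    rw [← map_mul, sq_of_tr_zero ha, proj_negS, map_one]
  have hxy : (proj b)⁻¹ * proj (a * b) = (proj b)⁻¹ * proj a * proj b := by
    rw [map_mul, mul_assoc]
  let ψ := PresentedGroup.toGroup (rels := ({FreeGroup.of (0 : Fin 2) ^ 3, FreeGroup.of (1 : Fin 2) ^ 5,
        (FreeGroup.of (0 : Fin 2) * FreeGroup.of 1) ^ 2} : Set (FreeGroup (Fin 2)))) (f := ![(proj b)⁻¹, proj (a * b)]) (by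
    intro r hr
    simp only [Set.mem_insert_iff, Set.mem_singleton_iff] at hr
    rcases hr with rfl | rfl | rfl
    · simp [hb3]
    · simpa using hc5
    · simp only [map_pow, map_mul, FreeGroup.lift_apply_of, Matrix.cons_val_zero, Matrix.cons_val_one]
      rw [pow_two]
      calc (proj b)⁻¹ * (proj a * proj b) * ((proj b)⁻¹ * (proj a * proj b))
          = (proj b)⁻¹ * (proj a * proj a) * proj b := by group
        _ = 1 := by rw [ha2]; group)
  let φ : alternatingGroup (Fin 5) →* PSL2 F := ψ.comp e.symm.toMonoidHom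
  have hinj : Function.Injective φ := by
    rw [← MonoidHom.ker_eq_bot_iff]
    rcases (MonoidHom.normal_ker φ).eq_bot_or_eq_top with h | h
    · exact h
    · exfalso
      have hφ : ∀ g, φ g = 1 := fun g => by
        have : g ∈ φ.ker := by rw [h]; trivial
        exact this
      have h0 : (proj b)⁻¹ = 1 := by
        have := hφ (e (PresentedGroup.of 0))
        simpa [φ, ψ] using this
      have h1 : proj (a * b) = 1 := by
        have := hφ (e (PresentedGroup.of 1))
        simpa [φ, ψ] using this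
      apply ha1
      have h3 : proj b = 1 := by simpa using h0
      rw [map_mul, h3, mul_one] at h1
      exact h1
  exact ⟨φ.range, ⟨(MonoidHom.ofInjective hinj).symm⟩⟩

/-- A root of `x² = x + 1` from an element of order five. -/
theorem exists_root_of_dvd (h5 : 5 ∣ Nat.card (PSL2 F)) : ∃ t : F, t * t = t + 1 := by
  have : Fact (Nat.Prime 5) := ⟨by norm_num⟩
  obtain ⟨z, hz⟩ := exists_prime_orderOf_dvd_card' 5 h5
  obtain ⟨c, rfl⟩ := proj_surjective z
  have hz5 : (proj c) ^ 5 = 1 := by rw [← hz]; exact pow_orderOf_eq_one _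
  have hz1 : proj c ≠ 1 := by
    intro h
    rw [h] at hz
    simp at hz
  have hM := cayley c
  set t := tr c with htdef
  have hpow := pow_five_ hM
  have hcoef : t * t * t * t - 3 * t * t + 1 = 0 := by
    by_contra hne
    apply hz1
    rw [proj_eq_one_iff]
    rw [← map_pow] at hz5
    rcases eq_or_of_proj_eq_one hz5 with h | h
    · have h3 := congrArg (fun Z : SL2 F => (Z : Mat)) h
      simp only [coe_pow_] at h3
      rw [hpow, show ((1 : SL2 F) : Mat) = 1 from rfl] at h3
      refine mem_center_of_scalar (l := (t * t * t * t - 3 * t * t + 1)⁻¹ * (1 + (t * t * t - 2 * t))) ?_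
      have h4 : (t * t * t * t - 3 * t * t + 1) • (c : Mat) = (1 + (t * t * t - 2 * t)) • (1 : Mat) := by
        calc (t * t * t * t - 3 * t * t + 1) • (c : Mat) = ((t * t * t * t - 3 * t * t + 1) • (c : Mat) + (-(t * t * t - 2 * t)) • (1 : Mat)) + (t * t * t - 2 * t) • (1 : Mat) := by
              rw [neg_smul]; abel
          _ = 1 + (t * t * t - 2 * t) • (1 : Mat) := by rw [h3]
          _ = _ := by rw [add_smul, one_smul]
      calc (c : Mat) = (t * t * t * t - 3 * t * t + 1)⁻¹ • ((t * t * t * t - 3 * t * t + 1) • (c : Mat)) := by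
            rw [smul_smul, inv_mul_cancel₀ hne, one_smul]
        _ = _ := by rw [h4, smul_smul]
    · have h3 := congrArg (fun Z : SL2 F => (Z : Mat)) h
      simp only [coe_pow_] at h3
      rw [hpow, negS_coe, show ((1 : SL2 F) : Mat) = 1 from rfl] at h3
      refine mem_center_of_scalar (l := (t * t * t * t - 3 * t * t + 1)⁻¹ * (-1 + (t * t * t - 2 * t))) ?_
      have h4 : (t * t * t * t - 3 * t * t + 1) • (c : Mat) = (-1 + (t * t * t - 2 * t)) • (1 : Mat) := by
        calc (t * t * t * t - 3 * t * t + 1) • (c : Mat) = ((t * t * t * t - 3 * t * t + 1) • (c : Mat) + (-(t * t * t - 2 * t)) • (1 : Mat)) + (t * t * t - 2 * t) • (1 : Mat) := by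
              rw [neg_smul]; abel
          _ = -1 + (t * t * t - 2 * t) • (1 : Mat) := by rw [h3]
          _ = _ := by rw [add_smul, neg_smul, one_smul]
      calc (c : Mat) = (t * t * t * t - 3 * t * t + 1)⁻¹ • ((t * t * t * t - 3 * t * t + 1) • (c : Mat)) := by
            rw [smul_smul, inv_mul_cancel₀ hne, one_smul]
        _ = _ := by rw [h4, smul_smul]
  have hfac : (t * t - t - 1) * (t * t + t - 1) = 0 := by linear_combination hcoef
  rcases mul_eq_zero.mp hfac with h | h
  · exact ⟨t, by linear_combination h⟩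
  · exact ⟨-t, by linear_combination h⟩

/-- No element of order four in characteristic two. -/
theorem no_order_four (h2 : (2 : F) = 0) (z : PSL2 F) (h : z ^ 4 = 1) : z ^ 2 = 1 := by
  obtain ⟨c, rfl⟩ := proj_surjective z
  have hneg : negS (1 : SL2 F) = 1 := by
    apply Subtype.ext
    show -((1 : SL2 F) : Mat) = _
    rw [show ((1 : SL2 F) : Mat) = 1 from rfl]
    have e : (-1 : F) = 1 := by linear_combination -h2
    ext i j
    fin_cases i <;> fin_cases j <;> simp [e]
  have h4 : c ^ 4 = 1 := by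
    rw [← map_pow] at h
    rcases eq_or_of_proj_eq_one h with h | h
    · exact h
    · rw [h, hneg]
  have hM := cayley c
  set t := tr c with htdef
  have hT : (c : Mat).trace = t := rfl
  have hpow := pow_four_ hM
  have h3 := congrArg (fun Z : SL2 F => (Z : Mat)) h4
  simp only [coe_pow_] at h3
  rw [hpow, show ((1 : SL2 F) : Mat) = 1 from rfl] at h3
  have ht : t = 0 := by
    by_contra ht
    have h5 : (t * t * t) • (c : Mat) = (t * t) • (1 : Mat) := by
      have e1 : t * t * t - 2 * t = t * t * t := by linear_combination -t * h2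
      rw [e1] at h3
      calc (t * t * t) • (c : Mat) = ((t * t * t) • (c : Mat) + (-(t * t - 1)) • (1 : Mat)) + (t * t - 1) • (1 : Mat) := by
            rw [neg_smul]; abel
        _ = 1 + (t * t - 1) • (1 : Mat) := by rw [h3]
        _ = _ := by rw [sub_smul, one_smul]; abel
    have h6 := congrArg Matrix.trace h5
    rw [trace_smul, hT, trace_smul, trace_one, Fintype.card_fin] at h6
    simp only [smul_eq_mul, Nat.cast_ofNat] at h6
    have h7 : t * t * t * t = 0 := by
      rw [h6, h2, mul_zero]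
    exact (mul_ne_zero (mul_ne_zero (mul_ne_zero ht ht) ht) ht) h7
  rw [← map_pow, pow_two, sq_of_tr_zero ht, proj_negS, map_one]

omit [Fintype F] in
/-- Commuting nilpotent `2 × 2` matrices in characteristic two are proportional. -/
theorem nil_prop (h2 : (2 : F) = 0) {M N : Mat} (hM : M * M = 0) (hN : N * N = 0) (hc : M * N = N * M) (hM0 : M ≠ 0) :
    ∃ μ : F, N = μ • M := by
  have e00 := congrFun (congrFun hM 0) 0
  have e01 := congrFun (congrFun hM 0) 1
  have e10 := congrFun (congrFun hM 1) 0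
  have e11 := congrFun (congrFun hM 1) 1
  have f00 := congrFun (congrFun hN 0) 0
  have f11 := congrFun (congrFun hN 1) 1
  have g00 := congrFun (congrFun hc 0) 0
  simp only [Matrix.mul_apply, Fin.sum_univ_two, Matrix.zero_apply] at e00 e01 e10 e11 f00 f11 g00
  set a := M 0 0 with ha
  set b := M 0 1 with hb
  set c := M 1 0 with hc'
  set d := M 1 1 with hd
  set e := N 0 0 with he
  set f := N 0 1 with hf
  set g := N 1 0 with hg
  set k := N 1 1 with hk
  have hda : d = a := by
    have h3 : (a + d) * (a + d) = 0 := by linear_combination e00 - e11 + (d * d + a * d) * h2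
    have h4 := mul_self_eq_zero.mp h3
    linear_combination h4 - a * h2
  have hke : k = e := by
    have h3 : (e + k) * (e + k) = 0 := by linear_combination f00 - f11 + (k * k + e * k) * h2
    have h4 := mul_self_eq_zero.mp h3
    linear_combination h4 - e * h2
  have hcf : b * g = c * f := by linear_combination g00
  have hne : ¬ (a = 0 ∧ b = 0 ∧ c = 0) := by
    rintro ⟨h1, h3, h4⟩
    apply hM0
    ext i j
    fin_cases i <;> fin_cases j
    · exact h1
    · exact h3
    · exact h4
    · show d = 0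
      rw [hda, h1]
  by_cases hb0 : b = 0
  · have ha0 : a = 0 := by
      rw [hb0] at e00
      have : a * a = 0 := by linear_combination e00
      exact mul_self_eq_zero.mp this
    have hc0 : c ≠ 0 := fun h => hne ⟨ha0, hb0, h⟩
    have hf0 : f = 0 := by
      rw [hb0] at hcf
      have : c * f = 0 := by linear_combination -hcf
      exact (mul_eq_zero.mp this).resolve_left hc0
    have he0 : e = 0 := by
      rw [hf0] at f00
      have : e * e = 0 := by linear_combination f00
      exact mul_self_eq_zero.mp this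
    refine ⟨g / c, ?_⟩
    ext i j
    fin_cases i <;> fin_cases j
    · show e = g / c * a
      rw [he0, ha0, mul_zero]
    · show f = g / c * b
      rw [hf0, hb0, mul_zero]
    · show g = g / c * c
      field_simp
    · show k = g / c * d
      rw [hke, he0, hda, ha0, mul_zero]
  · have hg' : g = f / b * c := by
      field_simp
      linear_combination hcf
    have he' : e = f / b * a := by
      have h3 : (e - f / b * a) * (e - f / b * a) = 0 := by
        have h5 : a * a = b * c := by linear_combination e00 - (b * c) * h2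
        have h6 : e * e = f * g := by linear_combination f00 - (f * g) * h2
        calc (e - f / b * a) * (e - f / b * a) = e * e - 2 * (e * (f / b * a)) + (f / b) * (f / b) * (a * a) := by ring
          _ = f * g - 0 + (f / b) * (f / b) * (b * c) := by rw [h6, h2, h5]; ring
          _ = f * (f / b * c) + (f / b) * (f / b) * (b * c) := by rw [hg']; ring
          _ = 2 * (f * (f / b * c)) := by field_simp; ring
          _ = 0 := by rw [h2, zero_mul]
      have h4 := mul_self_eq_zero.mp h3
      linear_combination h4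
    refine ⟨f / b, ?_⟩
    ext i j
    fin_cases i <;> fin_cases j
    · exact he'
    · show f = f / b * b
      field_simp
    · exact hg'
    · show k = f / b * d
      rw [hke, hda]
      exact he'

/-- The main obstruction for `A₄` in characteristic two. -/
theorem no_A4_lift (h2 : (2 : F) = 0) (hq : ¬ 3 ∣ Fintype.card F - 1) {X Y R : SL2 F} (hX : X * X = 1) (hX1 : X ≠ 1)
    (hY : Y * Y = 1) (hY1 : Y ≠ 1) (hXY : X * Y = Y * X) (hne : X ≠ Y) (hR : R ^ 3 = 1) (hc : R * X * R⁻¹ = Y) :
    False := by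
  have hnil : ∀ Z : SL2 F, Z * Z = 1 → ((Z : Mat) - 1) * ((Z : Mat) - 1) = 0 := by
    intro Z hZ
    have h3 : (Z : Mat) * (Z : Mat) = 1 := by
      have := congrArg (fun W : SL2 F => (W : Mat)) hZ
      exact this
    calc ((Z : Mat) - 1) * ((Z : Mat) - 1) = (Z : Mat) * (Z : Mat) - (2 : F) • (Z : Mat) + 1 := by
          rw [sub_mul, mul_sub, mul_sub, two_smul]
          simp only [Matrix.mul_one, Matrix.one_mul]
          abel
      _ = 0 := by
          rw [h3, h2, zero_smul, sub_zero]
          have e : (1 : Mat) + 1 = (2 : F) • (1 : Mat) := by rw [two_smul]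
          rw [e, h2, zero_smul]
  have hM := hnil X hX
  have hN := hnil Y hY
  have hMN : ((X : Mat) - 1) * ((Y : Mat) - 1) = ((Y : Mat) - 1) * ((X : Mat) - 1) := by
    have h3 : (X : Mat) * (Y : Mat) = (Y : Mat) * (X : Mat) := congrArg (fun W : SL2 F => (W : Mat)) hXY
    rw [sub_mul, mul_sub, mul_sub, sub_mul, mul_sub, h3]
    simp only [Matrix.mul_one, Matrix.one_mul]
    abel
  have hM0 : (X : Mat) - 1 ≠ 0 := by
    intro h
    apply hX1
    apply Subtype.ext
    exact sub_eq_zero.mp h
  obtain ⟨μ, hμ⟩ := nil_prop h2 hM hN hMN hM0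
  have hμ1 : μ ≠ 1 := by
    rintro rfl
    apply hne
    apply Subtype.ext
    have : (Y : Mat) - 1 = (X : Mat) - 1 := by rw [hμ, one_smul]
    exact (sub_left_inj.mp this).symm
  -- `R M = μ M R`
  have hRX : (R : Mat) * (X : Mat) = (Y : Mat) * (R : Mat) := by
    have : R * X = Y * R := by rw [← hc]; group
    exact congrArg (fun W : SL2 F => (W : Mat)) this
  have hRM : (R : Mat) * ((X : Mat) - 1) = μ • (((X : Mat) - 1) * (R : Mat)) := by
    rw [← Matrix.smul_mul, ← hμ, mul_sub, sub_mul, hRX]
    simp only [Matrix.mul_one, Matrix.one_mul]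
  set M : Mat := (X : Mat) - 1 with hMdef
  have hR3 : (R : Mat) * ((R : Mat) * (R : Mat)) = 1 := by
    have := congrArg (fun W : SL2 F => (W : Mat)) hR
    simp only [coe_pow_] at this
    rw [pow_succ, pow_two] at this
    rw [← Matrix.mul_assoc]
    exact this
  have h3 : ((R : Mat) * ((R : Mat) * (R : Mat))) * M = (μ * μ * μ) • (M * ((R : Mat) * ((R : Mat) * (R : Mat)))) := by
    calc ((R : Mat) * ((R : Mat) * (R : Mat))) * M = (R : Mat) * ((R : Mat) * ((R : Mat) * M)) := by
          simp only [Matrix.mul_assoc]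
      _ = (R : Mat) * ((R : Mat) * (μ • (M * (R : Mat)))) := by rw [hRM]
      _ = μ • ((R : Mat) * (((R : Mat) * M) * (R : Mat))) := by
          simp only [Matrix.mul_smul, Matrix.mul_assoc]
      _ = μ • ((R : Mat) * ((μ • (M * (R : Mat))) * (R : Mat))) := by rw [hRM]
      _ = (μ * μ) • (((R : Mat) * M) * ((R : Mat) * (R : Mat))) := by
          simp only [Matrix.mul_smul, Matrix.smul_mul, smul_smul, Matrix.mul_assoc]
      _ = (μ * μ) • ((μ • (M * (R : Mat))) * ((R : Mat) * (R : Mat))) := by rw [hRM]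
      _ = (μ * μ * μ) • (M * ((R : Mat) * ((R : Mat) * (R : Mat)))) := by
          simp only [Matrix.smul_mul, smul_smul, Matrix.mul_assoc]
  rw [hR3, Matrix.one_mul, Matrix.mul_one] at h3
  have hμ3 : μ * μ * μ = 1 := by
    by_contra h4
    have h5 : (μ * μ * μ - 1) • M = 0 := by
      rw [sub_smul, ← h3, one_smul, sub_self]
    rcases smul_eq_zero.mp h5 with h6 | h6
    · exact h4 (sub_eq_zero.mp h6)
    · exact hM0 h6
  have hμ0 : μ ≠ 0 := by
    rintro rfl
    simp at hμ3
  have ho : orderOf μ = 3 := orderOf_eq_prime (by rw [pow_succ, pow_two]; exact hμ3) hμ1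
  apply hq
  rw [← ho]
  exact orderOf_dvd_of_pow_eq_one (FiniteField.pow_card_sub_one_eq_one μ hμ0)

omit [Fintype F] in
theorem proj_injective_of_two (h2 : (2 : F) = 0) : Function.Injective (proj : SL2 F → PSL2 F) := by
  intro A B h
  rw [proj_eq_proj_iff'] at h
  rcases h with h | h
  · exact h.symm
  · rw [h]
    apply Subtype.ext
    show (A : Mat) = -(A : Mat)
    ext i j
    simp only [Matrix.neg_apply]
    linear_combination ((A : Mat) i j) * h2

/-- In characteristic two with `3 ∤ q - 1` there is no `A₄`. -/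
theorem no_A4 (h2 : (2 : F) = 0) (hq : ¬ 3 ∣ Fintype.card F - 1) (H : Subgroup (PSL2 F)) :
    IsEmpty (H ≃* alternatingGroup (Fin 4)) := by
  constructor
  intro e
  let f : alternatingGroup (Fin 4) →* PSL2 F := H.subtype.comp e.symm.toMonoidHom
  have hf : Function.Injective f := fun a b h => e.symm.injective (Subtype.ext h)
  have hpj := proj_injective_of_two h2
  obtain ⟨X, hX⟩ := proj_surjective (f XA)
  obtain ⟨R, hR⟩ := proj_surjective (f YA)
  have hY' : proj (R * X * R⁻¹) = f (YA * XA * YA⁻¹) := by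
    rw [map_mul, map_mul, map_mul, map_mul, map_inv, map_inv, hX, hR]
  refine no_A4_lift h2 hq (X := X) (Y := R * X * R⁻¹) (R := R) ?_ ?_ ?_ ?_ ?_ ?_ ?_ rfl
  · apply hpj
    rw [map_mul, hX, ← map_mul, map_one]
    have : XA * XA = 1 := by decide
    rw [this, map_one]
  · intro h
    rw [h, map_one] at hX
    have : XA = 1 := hf (by rw [← hX, map_one])
    exact absurd this (by decide)
  · apply hpj
    rw [map_mul, hY', ← map_mul, map_one]
    have : (YA * XA * YA⁻¹) * (YA * XA * YA⁻¹) = 1 := by decide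
    rw [this, map_one]
  · intro h
    rw [h, map_one] at hY'
    have : YA * XA * YA⁻¹ = 1 := hf (by rw [← hY', map_one])
    exact absurd this (by decide)
  · apply hpj
    rw [map_mul proj X, map_mul proj (R * X * R⁻¹), hX, hY', ← map_mul, ← map_mul]
    have : XA * (YA * XA * YA⁻¹) = (YA * XA * YA⁻¹) * XA := by decide
    rw [this]
  · intro h
    have h3 : f XA = f (YA * XA * YA⁻¹) := by rw [← hX, ← hY', ← h]
    have := hf h3
    exact absurd this (by decide)
  · apply hpj
    rw [map_pow, hR, ← map_pow, map_one]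
    have : YA ^ 3 = 1 := by decide
    rw [this, map_one]

end Cfsg.Agent.Lib.TraceTriple
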