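import Mathlib

set_option autoImplicit false

namespace Cfsg.Agent.Lib.Transv

open Matrix

/-- Rank one matrices factor as `x ↦ φ x • v`. -/
theorem rank_one_factor {F ι : Type*} [Field F] [Fintype ι] [DecidableEq ι] (N : Matrix ι ι F)
    (h : N.rank = 1) :
    ∃ (v : ι → F) (φ : Module.Dual F (ι → F)), v ≠ 0 ∧ φ ≠ 0 ∧ ∀ x, N *ᵥ x = φ x • v := by
  have h1 : Module.finrank F (LinearMap.range N.mulVecLin) = 1 := h
  obtain ⟨⟨v, hv⟩, hv0, hspan⟩ := finrank_eq_one_iff'.mp h1
  have hv0' : v ≠ 0 := fun h => hv0 (Subtype.ext h)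
  obtain ⟨θ, hθ⟩ := Module.Projective.exists_dual_eq_one F hv0'
  let φ : Module.Dual F (ι → F) := θ ∘ₗ N.mulVecLin
  have hfac : ∀ x, N *ᵥ x = φ x • v := by
    intro x
    obtain ⟨c, hc⟩ := hspan ⟨N *ᵥ x, LinearMap.mem_range_self N.mulVecLin x⟩
    have hc' : c • v = N *ᵥ x := congrArg Subtype.val hc
    have : φ x = c := by
      simp only [φ, LinearMap.comp_apply, Matrix.mulVecLin_apply]
      rw [← hc', map_smul, hθ, smul_eq_mul, mul_one]
    rw [this, hc']
  refine ⟨v, φ, hv0', ?_, hfac⟩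
  intro hφ
  have hN : N = 0 := by
    apply Matrix.mulVec_injective
    funext x
    simp [hfac, hφ]
  rw [hN, Matrix.rank_zero] at h
  omega

theorem basis_step {F V : Type*} [Field F] [AddCommGroup V] [Module F V] [FiniteDimensional F V]
    {n : ℕ} (h : Module.finrank F V = n + 1) (φ : Module.Dual F V) (u : V) (hu : φ u = 1) :
    ∃ b : Module.Basis (Fin (n + 1)) F V, b 0 = u ∧ ∀ j, j ≠ 0 → φ (b j) = 0 := by
  have hsurj : LinearMap.range φ = ⊤ := LinearMap.range_eq_top.mpr (by
    intro c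
    refine ⟨c • u, ?_⟩
    simp [hu])
  have hN₁ : Module.finrank F (LinearMap.ker φ) = n := by
    have h1 := LinearMap.finrank_range_add_finrank_ker φ
    rw [hsurj] at h1
    simp at h1
    omega
  let b₁ : Module.Basis (Fin n) F (LinearMap.ker φ) := Module.finBasisOfFinrankEq F _ hN₁
  let b : Module.Basis (Fin (n + 1)) F V := Module.Basis.mkFinCons u b₁
    (by
      intro c y hy hc
      have h1 := congrArg φ hc
      have hy' : φ y = 0 := hy
      simpa [hu, hy'] using h1)
    (by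
      intro z
      refine ⟨-φ z, ?_⟩
      change φ (z + (-φ z) • u) = 0
      simp [hu])
  refine ⟨b, ?_, ?_⟩
  · simp [b, Module.Basis.coe_mkFinCons]
  · intro j hj
    obtain ⟨i, rfl⟩ := Fin.exists_succ_eq.mpr hj
    have : b i.succ = ((b₁ i : LinearMap.ker φ) : V) := by
      simp [b, Module.Basis.coe_mkFinCons]
    rw [this]
    exact (b₁ i).2

theorem exists_basis_transv {F : Type*} [Field F] {k : ℕ} (v : Fin (k + 3) → F)
    (φ : Module.Dual F (Fin (k + 3) → F)) (hv : v ≠ 0) (hφ : φ ≠ 0) (hφv : φ v = 0) :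
    ∃ b : Module.Basis (Fin (k + 3)) F (Fin (k + 3) → F),
      b 1 = v ∧ φ (b 0) = 1 ∧ ∀ j, j ≠ 0 → φ (b j) = 0 := by
  classical
  obtain ⟨x, hx⟩ : ∃ x, φ x ≠ 0 := by
    by_contra hcon
    push Not at hcon
    exact hφ (LinearMap.ext hcon)
  let u := (φ x)⁻¹ • x
  have hu : φ u = 1 := by
    simp only [u, map_smul, smul_eq_mul]
    exact inv_mul_cancel₀ hx
  have hsurj : LinearMap.range φ = ⊤ := LinearMap.range_eq_top.mpr (by
    intro c
    refine ⟨c • u, ?_⟩
    simp [hu])
  have hN₁ : Module.finrank F (LinearMap.ker φ) = k + 2 := by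
    have h1 := LinearMap.finrank_range_add_finrank_ker φ
    rw [hsurj] at h1
    simp at h1
    omega
  let v' : LinearMap.ker φ := ⟨v, hφv⟩
  have hv' : v' ≠ 0 := fun h => hv (congrArg Subtype.val h)
  obtain ⟨θ, hθ⟩ := Module.Projective.exists_dual_eq_one F hv'
  obtain ⟨b₁, hb₁0, -⟩ := basis_step hN₁ θ v' hθ
  let b : Module.Basis (Fin (k + 3)) F (Fin (k + 3) → F) := Module.Basis.mkFinCons u b₁
    (by
      intro c y hy hc
      have h1 := congrArg φ hc
      have hy' : φ y = 0 := hy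
      simpa [hu, hy'] using h1)
    (by
      intro z
      refine ⟨-φ z, ?_⟩
      change φ (z + (-φ z) • u) = 0
      simp [hu])
  have hb : ∀ j : Fin (k + 2), b j.succ = ((b₁ j : LinearMap.ker φ) : Fin (k + 3) → F) := by
    intro j
    simp [b, Module.Basis.coe_mkFinCons]
  refine ⟨b, ?_, ?_, ?_⟩
  · have : (1 : Fin (k + 3)) = Fin.succ 0 := rfl
    rw [this, hb, hb₁0]
  · have : b 0 = u := by simp [b, Module.Basis.coe_mkFinCons]
    rw [this, hu]
  · intro j hj
    obtain ⟨i, rfl⟩ := Fin.exists_succ_eq.mpr hj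
    rw [hb]
    exact (b₁ i).2

/-- Every matrix `1 + v φ` with `φ v = 0`, `v ≠ 0, φ ≠ 0` is conjugate in `SL_{k+3}` to
the elementary transvection. -/
theorem exists_sl_conj {F : Type*} [Field F] {k : ℕ} (N : Matrix (Fin (k + 3)) (Fin (k + 3)) F)
    (h1 : N.rank = 1) (h2 : N * N = 0) :
    ∃ g : Matrix (Fin (k + 3)) (Fin (k + 3)) F, g.det = 1 ∧
      g * (1 + Matrix.single 1 0 1) = (1 + N) * g := by
  classical
  obtain ⟨v, φ, hv, hφ, hN⟩ := rank_one_factor N h1
  have hφv : φ v = 0 := by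
    obtain ⟨x, hx⟩ : ∃ x, φ x ≠ 0 := by
      by_contra hcon
      push Not at hcon
      exact hφ (LinearMap.ext hcon)
    have h3 : N *ᵥ (N *ᵥ x) = 0 := by
      rw [Matrix.mulVec_mulVec, h2, Matrix.zero_mulVec]
    rw [hN x, Matrix.mulVec_smul, hN v, smul_smul] at h3
    have h4 := (smul_eq_zero.mp h3).resolve_right hv
    exact (mul_eq_zero.mp h4).resolve_left hx
  obtain ⟨b, hb1, hb0, hbj⟩ := exists_basis_transv v φ hv hφ hφv
  let P : Matrix (Fin (k + 3)) (Fin (k + 3)) F := (Pi.basisFun F (Fin (k + 3))).toMatrix b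
  have hPu : IsUnit P.det := by
    have := (Pi.basisFun F (Fin (k + 3))).isUnit_det b
    rwa [Module.Basis.det_apply] at this
  have hP0 : P.det ≠ 0 := hPu.ne_zero
  have hPk : ∀ i j, P i j = b j i := by
    intro i j
    simp [P, Module.Basis.toMatrix_apply]
  let E : Matrix (Fin (k + 3)) (Fin (k + 3)) F := Matrix.single 1 0 1
  have hNP : N * P = P * E := by
    ext i j
    have h5 : (N * P) i j = (N *ᵥ (b j)) i := by
      simp [Matrix.mul_apply, Matrix.mulVec, dotProduct, hPk]
    rw [h5, hN]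
    have h6 : (P * E) i j = if j = 0 then v i else 0 := by
      simp only [Matrix.mul_apply, E, Matrix.single_apply, hPk, mul_ite, mul_one, mul_zero]
      by_cases hj : j = 0
      · subst hj
        simp [hb1]
      · simp [hj, Ne.symm hj]
    rw [h6]
    by_cases hj : j = 0
    · subst hj
      simp [hb0]
    · simp [hj, hbj j hj]
  let d : Fin (k + 3) → F := Function.update (fun _ => 1) 2 (P.det)⁻¹
  let D : Matrix (Fin (k + 3)) (Fin (k + 3)) F := Matrix.diagonal d
  have h3 : 2 % (k + 3) = 2 := Nat.mod_eq_of_lt (by omega)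
  have h02 : (0 : Fin (k + 3)) ≠ 2 := by
    intro h
    have := congrArg Fin.val h
    simp at this
    rw [h3] at this
    omega
  have h12 : (1 : Fin (k + 3)) ≠ 2 := by
    intro h
    have := congrArg Fin.val h
    simp at this
    rw [h3] at this
    omega
  have hd0 : d 0 = 1 := by
    simp [d, h02]
  have hd1 : d 1 = 1 := by
    simp [d, h12]
  have hDE : D * E = E * D := by
    ext i j
    simp only [D, E, Matrix.diagonal_mul, Matrix.mul_diagonal, Matrix.single_apply]
    by_cases h : 1 = i ∧ 0 = j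
    · obtain ⟨rfl, rfl⟩ := h
      simp [hd0, hd1]
    · simp [h]
  have hdetD : D.det = (P.det)⁻¹ := by
    simp only [D, Matrix.det_diagonal, d]
    rw [Finset.prod_update_of_mem (Finset.mem_univ _)]
    simp
  refine ⟨P * D, ?_, ?_⟩
  · rw [Matrix.det_mul, hdetD]
    exact mul_inv_cancel₀ hP0
  · change P * D * (1 + E) = _
    rw [mul_assoc, mul_add, mul_one, hDE, add_mul, one_mul, mul_add, ← mul_assoc P E D, ← hNP,
      mul_assoc N P D]

end Cfsg.Agent.Lib.Transv
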