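import Mathlib
import Cfsg.Agent.S0514

/-!
# Two `p`-elements acting as transvections on an elementary abelian normal subgroup

In a finite group of odd order, if `x`, `y` are `p`-elements with `[V, x]`, `[V, y]` cyclic for an elementary abelian
normal subgroup `V`, then every element of `⟨x, y⟩` of order prime to `p` centralizes `V`.
-/

set_option autoImplicit false
set_option linter.style.haveILetI false
set_option linter.unusedSectionVars false

namespace Cfsg.Agent.Lib.TransvPair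

open Cfsg.Agent.S0514

variable {Z : Type*} [Group Z] [Finite Z] {p : ℕ} [hp : Fact p.Prime]

/-- A `p`-element preserving a cyclic subgroup of order at most `p` acts trivially on it. -/
theorem fix_of_line {x u : Z} (hup : u ^ p = 1) (hxp : ∃ n : ℕ, x ^ p ^ n = 1) {k : ℕ}
    (hk : x * u * x⁻¹ = u ^ k * u) : x * u * x⁻¹ = u := by
  obtain ⟨n, hn⟩ := hxp
  have hk' : x * u * x⁻¹ = u ^ (k + 1) := by rw [hk, pow_succ]
  have hj : ∀ j : ℕ, x ^ j * u * (x ^ j)⁻¹ = u ^ ((k + 1) ^ j) := by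
    intro j
    induction j with
    | zero => simp
    | succ j ih =>
      calc x ^ (j + 1) * u * (x ^ (j + 1))⁻¹ = x * (x ^ j * u * (x ^ j)⁻¹) * x⁻¹ := by
            rw [pow_succ']; group
        _ = x * u ^ ((k + 1) ^ j) * x⁻¹ := by rw [ih]
        _ = (x * u * x⁻¹) ^ ((k + 1) ^ j) := by rw [conj_pow]
        _ = u ^ ((k + 1) ^ (j + 1)) := by rw [hk', ← pow_mul, pow_succ']
  have h1 := hj (p ^ n)
  rw [hn] at h1
  simp only [one_mul, inv_one, mul_one] at h1
  have hfer : ((k + 1) ^ (p ^ n) : ℕ) ≡ k + 1 [MOD p] := by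
    rw [← ZMod.natCast_eq_natCast_iff]
    push_cast
    exact ZMod.pow_card_pow (p := p) _
  have h2 : u ^ ((k + 1) ^ (p ^ n)) = u ^ (k + 1) := by
    apply (pow_eq_pow_iff_modEq).mpr
    exact hfer.of_dvd (orderOf_dvd_of_pow_eq_one hup)
  rw [hk', ← h2, ← h1]

/-- Squares of inversions: an odd-order element cannot invert a nontrivial element of order dividing `p`. -/
theorem eq_one_of_invert (hp2 : p ≠ 2) (hodd : Odd (Nat.card Z)) {h u : Z} (hup : u ^ p = 1)
    (hinv : h * u * h⁻¹ = u⁻¹) : u = 1 := by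
  have hj : ∀ j : ℕ, h ^ (2 * j + 1) * u * (h ^ (2 * j + 1))⁻¹ = u⁻¹ := by
    intro j
    induction j with
    | zero => simpa using hinv
    | succ j ih =>
      have e : 2 * (j + 1) + 1 = (2 * j + 1) + 2 := by ring
      calc h ^ (2 * (j + 1) + 1) * u * (h ^ (2 * (j + 1) + 1))⁻¹
          = h ^ (2 * j + 1) * (h * (h * u * h⁻¹) * h⁻¹) * (h ^ (2 * j + 1))⁻¹ := by
            rw [e, pow_add]; group
        _ = h ^ (2 * j + 1) * u * (h ^ (2 * j + 1))⁻¹ := by
            rw [hinv, ← conj_inv, hinv, inv_inv]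
        _ = u⁻¹ := ih
  have hoddo : Odd (orderOf h) := Odd.of_dvd_nat hodd (orderOf_dvd_natCard h)
  obtain ⟨m, hm⟩ := hoddo
  have h1 := hj m
  rw [← hm, pow_orderOf_eq_one] at h1
  simp only [one_mul, inv_one, mul_one] at h1
  -- `u = u⁻¹`
  have h2 : u ^ 2 = 1 := by
    rw [pow_two]
    nth_rewrite 1 [h1]
    simp
  have h3 : orderOf u ∣ 2 := orderOf_dvd_of_pow_eq_one h2
  have h4 : orderOf u ∣ p := orderOf_dvd_of_pow_eq_one hup
  have h5 : Nat.Coprime 2 p := (Nat.coprime_primes Nat.prime_two hp.out).mpr (Ne.symm hp2)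
  have h6 : orderOf u = 1 := Nat.eq_one_of_dvd_coprimes h5 h3 h4
  exact orderOf_eq_one_iff.mp h6

/-- The case in which `x` fixes `w`: the stability argument. -/
theorem stab_case (V : Subgroup Z) (hVp : ∀ v ∈ V, v ^ p = 1)
    {x y u w : Z} (hu : u ∈ V) (hw : w ∈ V)
    (hx : ∀ v ∈ V, ∃ k : ℕ, x * v * x⁻¹ = u ^ k * v) (hy : ∀ v ∈ V, ∃ k : ℕ, y * v * y⁻¹ = w ^ k * v)
    (hxu : x * u * x⁻¹ = u) (hyw : y * w * y⁻¹ = w) (hxw : x * w * x⁻¹ = w)
    {h : Z} (hh : h ∈ Subgroup.closure ({x, y} : Set Z)) (hco : (orderOf h).Coprime p) :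
    ∀ v ∈ V, h * v = v * h := by
  let B : Subgroup Z := Subgroup.closure ({u, w} : Set Z)
  have huB : u ∈ B := Subgroup.subset_closure (by simp)
  have hwB : w ∈ B := Subgroup.subset_closure (by simp)
  have hBV : B ≤ V := by
    rw [Subgroup.closure_le]
    rintro a (rfl | rfl)
    · exact hu
    · exact hw
  -- the stabilizer of the chain
  let P : Z → Prop := fun g => g * w * g⁻¹ = w ∧ (∃ j : ℕ, g * u * g⁻¹ = w ^ j * u) ∧
    ∀ v ∈ V, ∃ c ∈ B, g * v * g⁻¹ = c * v
  have hP1 : P 1 := by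
    refine ⟨by simp, ⟨0, by simp⟩, fun v _ => ⟨1, B.one_mem, by simp⟩⟩
  have hPB : ∀ g : Z, P g → ∀ c ∈ B, g * c * g⁻¹ ∈ B := by
    rintro g ⟨h1, ⟨j, h2⟩, -⟩ c hc
    have hle : B ≤ B.comap (MulAut.conj g).toMonoidHom := by
      rw [Subgroup.closure_le]
      rintro a (rfl | rfl)
      · show g * a * g⁻¹ ∈ B
        rw [h2]
        exact B.mul_mem (B.pow_mem hwB j) huB
      · show g * a * g⁻¹ ∈ B
        rw [h1]
        exact hwB
    exact hle hc
  have hPmul : ∀ g g' : Z, P g → P g' → P (g * g') := by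
    intro g g' hg hg'
    obtain ⟨h1, ⟨j, h2⟩, h3⟩ := id hg
    obtain ⟨h1', ⟨j', h2'⟩, h3'⟩ := id hg'
    have hconjpow : ∀ (a : Z) (n : ℕ), g * a ^ n * g⁻¹ = (g * a * g⁻¹) ^ n := fun a n => (conj_pow).symm
    have hconjmul : ∀ a b : Z, g * (a * b) * g⁻¹ = (g * a * g⁻¹) * (g * b * g⁻¹) := by
      intro a b; group
    refine ⟨?_, ⟨j' + j, ?_⟩, ?_⟩
    · calc g * g' * w * (g * g')⁻¹ = g * (g' * w * g'⁻¹) * g⁻¹ := by group
        _ = w := by rw [h1', h1]
    · calc g * g' * u * (g * g')⁻¹ = g * (g' * u * g'⁻¹) * g⁻¹ := by group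
        _ = g * (w ^ j' * u) * g⁻¹ := by rw [h2']
        _ = w ^ j' * (w ^ j * u) := by rw [hconjmul, hconjpow, h1, h2]
        _ = w ^ (j' + j) * u := by rw [← mul_assoc, ← pow_add]
    · intro v hv
      obtain ⟨c', hc', e'⟩ := h3' v hv
      obtain ⟨c, hc, e⟩ := h3 v hv
      refine ⟨(g * c' * g⁻¹) * c, B.mul_mem (hPB g hg c' hc') hc, ?_⟩
      calc g * g' * v * (g * g')⁻¹ = g * (g' * v * g'⁻¹) * g⁻¹ := by group
        _ = g * (c' * v) * g⁻¹ := by rw [e']
        _ = (g * c' * g⁻¹) * (g * v * g⁻¹) := hconjmul _ _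
        _ = (g * c' * g⁻¹) * c * v := by rw [e]; group
  have hPx : P x := by
    refine ⟨hxw, ⟨0, by simpa using hxu⟩, fun v hv => ?_⟩
    obtain ⟨k, hk⟩ := hx v hv
    exact ⟨u ^ k, B.pow_mem huB k, hk⟩
  have hPy : P y := by
    refine ⟨hyw, ?_, fun v hv => ?_⟩
    · exact hy u hu
    · obtain ⟨k, hk⟩ := hy v hv
      exact ⟨w ^ k, B.pow_mem hwB k, hk⟩
  have hPpow : ∀ (g : Z) (n : ℕ), P g → P (g ^ n) := by
    intro g n hg
    induction n with
    | zero => simpa using hP1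
    | succ n ih =>
      rw [pow_succ]
      exact hPmul _ _ ih hg
  have hPinv : ∀ g : Z, P g → P g⁻¹ := by
    intro g hg
    have : g⁻¹ = g ^ (orderOf g - 1) := by
      apply inv_eq_of_mul_eq_one_left
      rw [← pow_succ, Nat.sub_add_cancel (orderOf_pos g), pow_orderOf_eq_one]
    rw [this]
    exact hPpow _ _ hg
  have hPh : P h := by
    clear hco
    induction hh using Subgroup.closure_induction with
    | mem a ha =>
      rcases ha with rfl | rfl
      · exact hPx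
      · exact hPy
    | one => exact hP1
    | mul a b _ _ ha hb => exact hPmul _ _ ha hb
    | inv a _ ha => exact hPinv _ ha
  obtain ⟨h1, ⟨j, h2⟩, h3⟩ := hPh
  have hcw : h * w = w * h := by
    calc h * w = h * w * h⁻¹ * h := by group
      _ = w * h := by rw [h1]
  have hwj : h * w ^ j = w ^ j * h := (Commute.pow_right hcw j).eq
  have hcu : h * u = u * h :=
    coprime_fix h u (w ^ j) hco ⟨1, by rw [pow_one]; exact hVp _ (V.pow_mem hw j)⟩ hwj h2
  have hcB : ∀ c ∈ B, h * c = c * h := by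
    intro c hc
    induction hc using Subgroup.closure_induction with
    | mem a ha =>
      rcases ha with rfl | rfl
      · exact hcu
      · exact hcw
    | one => simp
    | mul a b _ _ ha hb => exact (Commute.mul_right ha hb).eq
    | inv a _ ha => exact (Commute.inv_right ha).eq
  intro v hv
  obtain ⟨c, hc, e⟩ := h3 v hv
  exact coprime_fix h v c hco ⟨1, by rw [pow_one]; exact hVp _ (hBV hc)⟩ (hcB c hc) e

/-- Every element of order prime to `p` generated by two "transvections" of odd order centralizes `V`. -/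
theorem core (hp2 : p ≠ 2) (hZ : Odd (Nat.card Z)) (V : Subgroup Z)
    (hVc : ∀ a ∈ V, ∀ b ∈ V, a * b = b * a) (hVp : ∀ v ∈ V, v ^ p = 1)
    {x y u w : Z} (hu : u ∈ V) (hw : w ∈ V) (hxp : ∃ n : ℕ, x ^ p ^ n = 1) (hyp : ∃ n : ℕ, y ^ p ^ n = 1)
    (hx : ∀ v ∈ V, ∃ k : ℕ, x * v * x⁻¹ = u ^ k * v) (hy : ∀ v ∈ V, ∃ k : ℕ, y * v * y⁻¹ = w ^ k * v)
    {h : Z} (hh : h ∈ Subgroup.closure ({x, y} : Set Z)) (hco : (orderOf h).Coprime p) :
    ∀ v ∈ V, h * v = v * h := by
  have hup := hVp u hu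
  have hwp := hVp w hw
  obtain ⟨k₀, hk₀⟩ := hx u hu
  obtain ⟨l₀, hl₀⟩ := hy w hw
  have hxu : x * u * x⁻¹ = u := fix_of_line hup hxp hk₀
  have hyw : y * w * y⁻¹ = w := fix_of_line hwp hyp hl₀
  obtain ⟨a, ha⟩ := hx w hw
  obtain ⟨b, hb⟩ := hy u hu
  by_cases hua : u ^ a = 1
  · -- `x` fixes `w`
    have hxw : x * w * x⁻¹ = w := by rw [ha, hua, one_mul]
    exact stab_case V hVp hu hw hx hy hxu hyw hxw hh hco
  by_cases hwb : w ^ b = 1
  · -- `y` fixes `u`
    have hyu : y * u * y⁻¹ = u := by rw [hb, hwb, one_mul]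
    have hh' : h ∈ Subgroup.closure ({y, x} : Set Z) := by rwa [Set.pair_comm]
    exact stab_case V hVp hw hu hy hx hyw hxu hyu hh' hco
  -- contradiction
  exfalso
  have hcuw : Commute u w := hVc u hu w hw
  have hpa : ¬ p ∣ a := fun hd => hua (by
    obtain ⟨c, rfl⟩ := hd
    rw [pow_mul, hup, one_pow])
  have hpb : ¬ p ∣ b := fun hd => hwb (by
    obtain ⟨c, rfl⟩ := hd
    rw [pow_mul, hwp, one_pow])
  -- choose `i`
  have ha0 : (a : ZMod p) ≠ 0 := by
    rw [Ne, ZMod.natCast_eq_zero_iff]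
    exact hpa
  have hb0 : (b : ZMod p) ≠ 0 := by
    rw [Ne, ZMod.natCast_eq_zero_iff]
    exact hpb
  let i : ℕ := (((-2 : ZMod p)) / ((a : ZMod p) * (b : ZMod p))).val
  have hi : ((i * (a * b) + 2 : ℕ) : ZMod p) = 0 := by
    have : ((i : ℕ) : ZMod p) = (-2 : ZMod p) / ((a : ZMod p) * (b : ZMod p)) := by
      simp only [i]
      rw [ZMod.natCast_zmod_val]
    push_cast
    rw [this]
    field_simp
    ring
  have hdvd : p ∣ i * (a * b) + 2 := (ZMod.natCast_eq_zero_iff _ _).mp hi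
  obtain ⟨c, hc⟩ := hdvd
  -- the action of `x ^ i` on `w`
  have hxiu : ∀ n : ℕ, x ^ n * u * (x ^ n)⁻¹ = u := by
    intro n
    induction n with
    | zero => simp
    | succ n ih =>
      calc x ^ (n + 1) * u * (x ^ (n + 1))⁻¹ = x * (x ^ n * u * (x ^ n)⁻¹) * x⁻¹ := by
            rw [pow_succ']; group
        _ = u := by rw [ih, hxu]
  have hxiw : ∀ n : ℕ, x ^ n * w * (x ^ n)⁻¹ = u ^ (n * a) * w := by
    intro n
    induction n with
    | zero => simp
    | succ n ih =>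
      calc x ^ (n + 1) * w * (x ^ (n + 1))⁻¹ = x * (x ^ n * w * (x ^ n)⁻¹) * x⁻¹ := by
            rw [pow_succ']; group
        _ = x * (u ^ (n * a) * w) * x⁻¹ := by rw [ih]
        _ = (x * u ^ (n * a) * x⁻¹) * (x * w * x⁻¹) := by group
        _ = (x * u * x⁻¹) ^ (n * a) * (x * w * x⁻¹) := by rw [conj_pow]
        _ = u ^ (n * a) * (u ^ a * w) := by rw [hxu, ha]
        _ = u ^ ((n + 1) * a) * w := by rw [← mul_assoc, ← pow_add, add_mul, one_mul]
  -- the element inverting `u`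
  have hinv : (y * x ^ i * y) * u * (y * x ^ i * y)⁻¹ = u⁻¹ := by
    have e1 : x ^ i * (w ^ b * u) * (x ^ i)⁻¹ = u ^ (i * a * b + 1) * w ^ b := by
      have e2 : x ^ i * (w ^ b * u) * (x ^ i)⁻¹ =
          (x ^ i * w * (x ^ i)⁻¹) ^ b * (x ^ i * u * (x ^ i)⁻¹) := by
        rw [conj_pow]; group
      rw [e2, hxiw, hxiu]
      have hc1 : Commute (u ^ (i * a)) w := hcuw.pow_left _
      rw [hc1.mul_pow, ← pow_mul]
      have hc2 : Commute (w ^ b) u := (hcuw.symm.pow_left b)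
      rw [mul_assoc, hc2.eq, ← mul_assoc, ← pow_succ]
    have e3 : y * u ^ (i * a * b + 1) * y⁻¹ = (w ^ b * u) ^ (i * a * b + 1) := by
      rw [← conj_pow, hb]
    have e4 : y * w ^ b * y⁻¹ = w ^ b := by
      rw [← conj_pow, hyw]
    calc (y * x ^ i * y) * u * (y * x ^ i * y)⁻¹
        = y * (x ^ i * (y * u * y⁻¹) * (x ^ i)⁻¹) * y⁻¹ := by group
      _ = y * (u ^ (i * a * b + 1) * w ^ b) * y⁻¹ := by rw [hb, e1]
      _ = (y * u ^ (i * a * b + 1) * y⁻¹) * (y * w ^ b * y⁻¹) := by group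
      _ = (w ^ b * u) ^ (i * a * b + 1) * w ^ b := by rw [e3, e4]
      _ = u⁻¹ := by
        have hc2 : Commute (w ^ b) u := (hcuw.symm.pow_left b)
        rw [hc2.mul_pow, ← pow_mul]
        have e5 : i * a * b + 1 + 1 = p * c := by rw [← hc]; ring
        have e6 : u ^ (i * a * b + 1) = u⁻¹ := by
          apply eq_inv_of_mul_eq_one_left
          rw [← pow_succ, e5, pow_mul, hup, one_pow]
        have e7 : w ^ (b * (i * a * b + 1)) * u⁻¹ * w ^ b = u⁻¹ := by
          have hc3 : Commute u⁻¹ (w ^ b) := (hc2.symm).inv_left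
          rw [mul_assoc, hc3.eq, ← mul_assoc, ← pow_add]
          have e8 : b * (i * a * b + 1) + b = b * (p * c) := by
            rw [← e5]; ring
          rw [e8, mul_comm b, mul_assoc, pow_mul, hwp, one_pow, one_mul]
        rw [e6]
        exact e7
  have hu1 : u = 1 := eq_one_of_invert hp2 hZ hup hinv
  exact hua (by rw [hu1, one_pow])

end Cfsg.Agent.Lib.TransvPair
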