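import Mathlib
import Cfsg.Agent.Lib.OrbTri
import Cfsg.Agent.Lib.OrbKset
import Cfsg.Agent.Lib.SextetGroup

set_option autoImplicit false
set_option linter.unusedVariables false
set_option maxRecDepth 100000

/-!
# The stabiliser of a trio: `2^6 : (GL3(2) × S3)`

The seven sextets refining the trio carry a Fano plane; the stabiliser acts on it linearly, and on the three octads.
-/

namespace Cfsg.Agent.Lib.TrioGroup
open Cfsg Cfsg.Agent.Lib.Golay Cfsg.Agent.Lib.OrbitTree Cfsg.Agent.Lib.OrbitCheck
open Cfsg.Agent.Lib.OrbTri Cfsg.Agent.Lib.M24Fam Cfsg.Agent.Lib.OrbKset Cfsg.Agent.Lib.SextetGroup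
open scoped Pointwise

/-- the base trio -/
abbrev T0 : Finset (Finset GolayPt) := famOf b0

/-- the plane -/
abbrev V : Type := Fin 3 → ZMod 2

/-- the seven sextets refining the base trio; the entry `i` has label `i + 1` -/
def E0L : List (List ℕ) := [[29, 5250, 346112, 663616, 5275680, 10486528], [147, 5132, 272448, 737280, 7340544, 8421664], [142, 5137, 90176, 919552, 2130464, 13631744], [1031, 4248, 458816, 550912, 6291744, 9470464], [1050, 4229, 149568, 860160, 3178752, 12583456], [1172, 4107, 206848, 802880, 1049376, 14712832], [1161, 4118, 417792, 591936, 4227840, 11534368]]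

/-- elements fixing the three octads, inducing all linear maps -/
def listA : List ℕ := [218469892335703440077504665138243628, 218712139560860544229526352244640992, 218713599092165684561877859654731783, 218954337670837120771194513948803172, 219727724723456015068052282483445856, 219728992265252687905462821800905089, 220213196335738539885701283403923778, 220237319880133397262788466915217633, 220333536711151739554402475616569475, 227557878734247515077563936786484544, 228066206687771384646056101071065322, 228085092403622079741770342055681027, 228123326488336318472433063197508682, 234533868921278833668039493625708620, 234597221814399327127569243658292612, 234598214413826298679414847839405159, 235295224208639842458641440805260352, 235774872620372678676499281165224996, 235873781374145002549604792861531137, 236625413220967281055801131432683596, 237113458554001646980848074979578178, 237120836751585392337301587991332068, 237899164313249202871316221079716931, 238410027582698956959270602559983850, 339189526660545806523759155094816068, 339628210018387713422633890596620673, 339660900603726413392918336447257920,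 339709339654840251773902229365665856, 344625520604091747462649269570280836, 344627557015462273726790180602445964, 352619222525570975333962509744898179, 358883944141816110706135802753451010, 359132403891349103209669670153291905, 359228551795460992991775906102022247, 360187208029544001114704707826352225, 361079122554418021374592348875721730, 361502792866931198737618424586174594, 362391534393307697111373878209610114, 362392609321774082253764912556847328, 362797258530916368225140621550093420, 362985934282222341686275579817734178, 380974060758070576665217834470834243, 381288526114342974097085660147361799, 384845355707967567954552088360524876, 384865597265551116488963036819816577, 385060926874359603185914179599337507, 385101421039784151590746226737290340, 385169558542143403888872076741844035, 385188848050082886684362370803899520, 393670419755906990423753184323701889, 394194272386019508584057281256496266, 400036563278441286891214931133533252, 400151112535844230459566640033010048, 400158576112593584971191861364428812, 400665318286158955388318405168771079, 400710146572032676794213652785074243,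 400746957452692161231164671776525346, 401458036790528092930263528415304706, 402757218946697065026753892556603457, 403038675871886093597337613341143367, 403265546775918903179750868680769644, 403274540287001033667228794643025124, 403355741832967738486140906383650954, 404540922077067033722256469104332834, 404560049600779794935393321026067524, 629916120193561515026817922604860738, 629941992937207369741835801279728964, 629957082085581844214529113343492167, 630404369925044205778540484479029575, 630443731403175623556200931360376128, 634278427778102934208542204695183498, 634300092929259781924560034823733345, 634301360617336596525203560899643716, 635638499996236103696879896020131148, 649368697533685021500077164724558883, 649413065507852536117037502387423619, 649430735676602863041477865072855175, 649917116087869673532605046664278052, 649956923398887670734277064099211392, 649959422844550231883485314097057162, 650566456714187605516852559727530049, 650666813731849333116334232006003776, 652456651079424196735203620369534177, 652573345459145075325839930957372451, 653162571612656510172325919893560643,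 653281654130321279290125467724778624, 653303445388703540163502078518692928, 837611035917356982114874470116498464, 837642502848007624869203623303809036, 841383338846902603822900746892904556, 842033845267176729300150746991526976, 843085979178493974756395370863101068, 843331711821248638973794075038516291, 850471044241993880656113412002255242, 850592966612313288084835263857066307, 850631841749830391314972982520123402, 851120284531729394087613054546116932, 858258211985385958316351518675180578, 858402971469773781845347268852778082, 858411883907855843638438335342480512, 858970764006663897953597336691189890, 859661311723682422100348413604495394, 859696806166476453485427849216196714, 860270104860126041508521118690314564, 861238547861423682833899315727138924, 861242552335107889205995923213463553, 861494540063932381129761774371940396, 861535341441015644739614029415582858, 879132937705407459592707397379231745, 879190740581896231306192915346622602, 879708144080341319479816877789776108, 879714482258389474467107580101765220, 879741284782582400158688839802783850, 883062426526479012374019589889066052,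 883083976705157547535514887021277280, 883530384180318508114973598367940643, 883602475626583970422959548939710474, 883612781246510805096238342591621347, 883649348944852810105899069093415306, 884220978812650273191961364951862284, 884928123593251494936115683861213315, 884941273102359674639374064455913793, 892005725033837728285026074993499140, 892113168520774060999210966921383943, 892676525353631326003808608980173127, 892681508102191908731305930784802912, 892720652994462890990023645441785930, 892735891774019106164213520671967619, 898480859726497985638651493705984044, 898882419120529746084262641536143751, 898904161026377361460258738254450055, 901694586345836800423391800476280960, 902512211278936567249927830310552704, 902546325410169384558336821845633155, 902554812617065198282025690322929985, 902795860785273883936144475239616544, 921157582708263667690967649678131434, 924621077911754536063893846984032300, 924623651479085251873063601495411756, 925052117469292819724981325820831841, 925168629700667127858511267401797730, 925173700428796221976336130824515651, 926164795267313722301765988093266147,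 926345087577285905911233107978485834, 926368097168790210699574310212833602, 926479458455689976305447456284354796, 933666761305750758281310570567403843, 934138642967326540300094218762750343, 934178892221311120104594255688771681, 934255420243086557942697504002093284, 940441078565902616674877387297751082, 941458201163109266852842174910957804, 941724380757040798550905698112645217, 942047631158095211539258722119385415, 943929961534542057285243261664985124, 944044137951285406637257496184598567, 944538558662339392148241432631644387, 962508743588601240045558683951926276, 962744312906139216146523576044919948, 965997183609347951517242851187891522, 966158379486242116863675476934144130, 966401564040439019879162291050024160, 967968426056219164996570812384350215, 975229489085643928800362143765532682, 982215553348802326235132633072930178, 982256118182628942874867117993630848, 983560690413690240104772419155210375, 984271673973070309146597282391852172]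

/-- the elements of the normal subgroup -/
def listN : List ℕ := [220212714852030859185898598225380426, 220212916823634747761786313418740099, 220212994364134639791857418127842412, 220213021984472001614544147585240292, 220213109803259289183002082616117280, 220213147128842336518244087811680257, 220213196335738539885701283403923778, 220213234947629620631314865134579847, 358661710457044056393439495129792834, 358661912428647940353137008170802284, 358661989969147834695807071273619843, 358662017589485186128689151159382151, 358662105408272472545351412772907009, 358662142733855540651195105552730144, 358662191940751730173460734397350986, 358662230552642823612470209458277604, 380679533732974860317197295320894692, 380679735704578744262258556249974785, 380679813245078647833929983948064800, 380679840865415988883763329098810442, 380679928684203269541447395404979308, 380679966009786328418289723589529987, 380680015216682528323604087169167495, 380680053828573620593929939978420546, 651239271942200099653488162017156204, 651239473913803999747332027293237570, 651239551454303889473811888243704906,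 651239579074641248992907580101724192, 651239666893428531954182684007271652, 651239704219011580441220362620186759, 651239753425907778049699603437064579, 651239792037798866857882624233711617, 841384326674705150677669060004884615, 841384528646309054241536335100872736, 841384606186808937042606075214702593, 841384633807146291937630987113070914, 841384721625933570291723809660604803, 841384758951516626855967179451440236, 841384808158412837151086192602713316, 841384846770303916728016152081695818, 892716570080838209712931004353710112, 892716772052442090202605107574812807, 892716849592941992622480861855550692, 892716877213279331368723169406917740, 892716965032066621240772142037173322, 892717002357649682421205713980358978, 892717051564545876567542122784630785, 892717090176436960775298536527892867, 944318823064290954642400041923651585, 944319025035894854750880159311662308, 944319102576394738703745572842844295, 944319130196732087839792529965846915, 944319218015519380015432746354737474, 944319255341102434276084872386937930, 944319304547998642267612847938832416, 944319343159889714933768938693106796,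 984817724440155751670153212646658435, 984817926411759647147806875770389578, 984818003952259543794068182631842114, 984818031572596889467972307742238721, 984818119391384173581043085065138311, 984818156716967240535091104427609316, 984818205923863427753765695672851564, 984818244535754528103549039458486304]

/-- elements swapping two octads, acting trivially on the plane -/
def listS : List ℕ := [125922760182817295223400852343774857, 892716329567443627658237294440728134, 561475752336465117108830150322033027]

/-- number of a vector -/
def natOf (v : V) : ℕ := (v 0).val + 2 * (v 1).val + 4 * (v 2).val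

/-- the sextet of a vector -/
def secOf (v : V) : List ℕ := E0L.getD (natOf v - 1) []

/-- the octad test -/
def refinesB (l : List ℕ) : Bool := l.all fun t => b0.any fun o => Nat.beq (Nat.land t o) t

/-- the test for collinearity -/
def Rb (l1 l2 l3 : List ℕ) : Bool :=
  b0.all fun o => l1.all fun t => l2.all fun u =>
    !(Nat.beq (Nat.land t o) t && Nat.beq (Nat.land u o) u) || l3.contains (Nat.xor t u)

theorem check_E : ∀ l ∈ sexL, (refinesB l = true ↔ l ∈ E0L) := by decide +kernel
theorem check_E' : ∀ l ∈ E0L, l ∈ sexL := by decide +kernel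
theorem check_sec1 : ∀ v : V, v ≠ 0 → secOf v ∈ E0L := by decide +kernel
theorem check_sec2 : ∀ v w : V, v ≠ 0 → w ≠ 0 → secOf v = secOf w → v = w := by decide +kernel
theorem check_sec3 : ∀ l ∈ E0L, ∃ v : V, v ≠ 0 ∧ secOf v = l := by decide +kernel
theorem check_sec : (∀ v : V, v ≠ 0 → secOf v ∈ E0L) ∧ (∀ v w : V, v ≠ 0 → w ≠ 0 → secOf v = secOf w → v = w) ∧
    (∀ l ∈ E0L, ∃ v : V, v ≠ 0 ∧ secOf v = l) := ⟨check_sec1, check_sec2, check_sec3⟩
theorem check_lines : ∀ u v w : V, u ≠ 0 → v ≠ 0 → w ≠ 0 → (Rb (secOf u) (secOf v) (secOf w) = true ↔ u + v + w = 0) := by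
  decide +kernel

/-- the condition on a code for `listN` and `listS` -/
def trivE (c : ℕ) : Bool := E0L.all fun l => decide (actFam c l = l)

/-- fixing the octads -/
def fixO (c : ℕ) : Bool := b0.all fun o => Nat.beq (img c o) o

/-- the key of an element of `listA` -/
def keyA (c : ℕ) : List (List ℕ) := E0L.map (actFam c)

theorem check_A : (listA.all fun c => isM24 c && fixO c && (keyA c).all fun l => strictAsc l && allLt l) = true ∧
    (listA.map keyA).Nodup ∧ listA.length = 168 := by decide +kernel

theorem check_N : (listN.all fun c => isM24 c && fixO c && trivE c && idxL.all fun i => Nat.beq (ap c (ap c i)) i) = true ∧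
    (listN.map perm24).Nodup ∧ listN.length = 64 := by decide +kernel

theorem check_S' : ∀ t ∈ b0, ∀ u ∈ b0, t ≠ u → ∃ c ∈ listS, isM24 c = true ∧ trivE c = true ∧ img c t = u ∧ img c u = t ∧
    ∀ v ∈ b0, v ≠ t → v ≠ u → img c v = v := by decide +kernel

theorem b0_facts : strictAsc b0 = true ∧ allLt b0 = true := by decide +kernel

theorem lt_of_mem_sexL {l : List ℕ} (hl : l ∈ sexL) : ∀ m ∈ l, m < 2 ^ 24 :=
  allLt_spec (sexOK_asc (List.all_eq_true.1 sexL_ok l hl)).2

/-! ### the sextets refining the trio -/

/-- a sextet refining the base trio -/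
def Ref (x : Finset (Finset GolayPt)) : Prop := ∀ t ∈ x, ∃ o ∈ T0, t ⊆ o

theorem Ref_iff {l : List ℕ} (hl : ∀ m ∈ l, m < 2 ^ 24) : Ref (famOf l) ↔ refinesB l = true := by
  simp only [Ref, refinesB, List.all_eq_true, List.any_eq_true, Nat.beq_eq]
  constructor
  · intro h t ht
    obtain ⟨o, ho, hs⟩ := h _ (ofMask_mem_famOf ht)
    obtain ⟨a, ha, rfl⟩ := mem_famOf.1 ho
    exact ⟨a, ha, land_eq_of_subset (hl t ht) (allLt_spec b0_facts.2 a ha) hs⟩
  · intro h t ht
    obtain ⟨m, hm, rfl⟩ := mem_famOf.1 ht
    obtain ⟨a, ha, he⟩ := h m hm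
    exact ⟨ofMask a, ofMask_mem_famOf ha, subset_of_land_eq he⟩

/-- the sextets refining the base trio -/
def E0 : Finset (Finset (Finset GolayPt)) := (E0L.map famOf).toFinset

theorem mem_E0 {x : Finset (Finset GolayPt)} : x ∈ E0 ↔ x ∈ sextets ∧ Ref x := by
  simp only [E0, List.mem_toFinset, List.mem_map]
  constructor
  · rintro ⟨l, hl, rfl⟩
    have h1 := check_E' l hl
    exact ⟨famOf_mem_sextets (List.all_eq_true.1 sexL_ok l h1),
      (Ref_iff (lt_of_mem_sexL h1)).2 ((check_E l h1).2 hl)⟩
  · rintro ⟨h1, h2⟩
    rw [sextets_eq_image] at h1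
    obtain ⟨l, hl, rfl⟩ := h1
    exact ⟨l, (check_E l hl).1 ((Ref_iff (lt_of_mem_sexL hl)).1 h2), rfl⟩

theorem smul_mem_E0 {g : Equiv.Perm GolayPt} (hg : g ∈ M24) (hT : g • T0 = T0)
    {x : Finset (Finset GolayPt)} (hx : x ∈ E0) : g • x ∈ E0 := by
  obtain ⟨h1, h2⟩ := mem_E0.1 hx
  refine mem_E0.2 ⟨smul_mem_sextets hg h1, ?_⟩
  intro t ht
  obtain ⟨t₀, ht₀, rfl⟩ := Finset.mem_smul_finset.1 ht
  obtain ⟨o, ho, hs⟩ := h2 t₀ ht₀
  refine ⟨g • o, ?_, Finset.smul_finset_subset_smul_finset_iff.2 hs⟩
  rw [← hT]
  exact Finset.smul_mem_smul_finset ho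

/-! ### collinearity -/

/-- collinearity of three sextets -/
def R (x y z : Finset (Finset GolayPt)) : Prop :=
  ∀ o ∈ T0, ∀ t ∈ x, ∀ u ∈ y, t ⊆ o → u ⊆ o → symmDiff t u ∈ z

theorem R_smul {g : Equiv.Perm GolayPt} (hT : g • T0 = T0) {x y z : Finset (Finset GolayPt)} (h : R x y z) :
    R (g • x) (g • y) (g • z) := by
  intro o ho t ht u hu hto huo
  obtain ⟨t₀, ht₀, rfl⟩ := Finset.mem_smul_finset.1 ht
  obtain ⟨u₀, hu₀, rfl⟩ := Finset.mem_smul_finset.1 hu
  rw [← hT] at ho
  obtain ⟨o₀, ho₀, rfl⟩ := Finset.mem_smul_finset.1 ho
  have h1 := h o₀ ho₀ t₀ ht₀ u₀ hu₀ (Finset.smul_finset_subset_smul_finset_iff.1 hto)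
    (Finset.smul_finset_subset_smul_finset_iff.1 huo)
  show symmDiff (g • t₀) (g • u₀) ∈ _
  rw [← Finset.smul_finset_symmDiff]
  exact Finset.smul_mem_smul_finset h1

theorem ofMask_xor (a b : ℕ) : ofMask (Nat.xor a b) = symmDiff (ofMask a) (ofMask b) := by
  ext p
  rw [Finset.mem_symmDiff, mem_ofMask, mem_ofMask, mem_ofMask, testBit_xor']
  cases a.testBit (idx p) <;> cases b.testBit (idx p) <;> simp

theorem R_iff {l1 l2 l3 : List ℕ} (h1 : ∀ m ∈ l1, m < 2 ^ 24) (h2 : ∀ m ∈ l2, m < 2 ^ 24)
    (h3 : ∀ m ∈ l3, m < 2 ^ 24) : R (famOf l1) (famOf l2) (famOf l3) ↔ Rb l1 l2 l3 = true := by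
  simp only [R, Rb, List.all_eq_true, Bool.or_eq_true, Bool.not_eq_true', Bool.and_eq_false_iff,
    List.contains_iff_mem]
  constructor
  · intro h o ho t ht u hu
    by_cases e1 : Nat.beq (Nat.land t o) t = false
    · exact Or.inl (Or.inl e1)
    by_cases e2 : Nat.beq (Nat.land u o) u = false
    · exact Or.inl (Or.inr e2)
    right
    simp only [Bool.not_eq_false, Nat.beq_eq] at e1 e2
    have h4 := h _ (ofMask_mem_famOf ho) _ (ofMask_mem_famOf ht) _ (ofMask_mem_famOf hu)
      (subset_of_land_eq e1) (subset_of_land_eq e2)
    rw [← ofMask_xor] at h4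
    obtain ⟨m, hm, he⟩ := mem_famOf.1 h4
    rwa [← ofMask_injOn (h3 m hm) (lt_of_xor (h1 t ht) (h2 u hu)) he]
  · intro h o ho t ht u hu hto huo
    obtain ⟨a, ha, rfl⟩ := mem_famOf.1 ho
    obtain ⟨m, hm, rfl⟩ := mem_famOf.1 ht
    obtain ⟨n, hn, rfl⟩ := mem_famOf.1 hu
    have halt := allLt_spec b0_facts.2 a ha
    rcases h a ha m hm n hn with (h4 | h4) | h4
    · rw [land_eq_of_subset (h1 m hm) halt hto, Nat.beq_refl] at h4
      cases h4
    · rw [land_eq_of_subset (h2 n hn) halt huo, Nat.beq_refl] at h4
      cases h4
    · rw [← ofMask_xor]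
      exact ofMask_mem_famOf h4

theorem secOf_lt {v : V} (hv : v ≠ 0) : ∀ m ∈ secOf v, m < 2 ^ 24 :=
  lt_of_mem_sexL (check_E' _ (check_sec.1 v hv))

/-! ### the group, and the labelling of the plane -/

/-- the stabiliser of the base trio -/
abbrev G0 : Type := ↥(MulAction.stabilizer M24 T0)

theorem g_fix (g : G0) : g.1.1 • T0 = T0 := g.2

theorem stab_E_iff (g : G0) (x : Finset (Finset GolayPt)) : g.1.1 • x ∈ E0 ↔ x ∈ E0 := by
  constructor
  · intro h
    have h1 := smul_mem_E0 (M24.inv_mem g.1.2) (inv_smul_eq_iff.2 (g_fix g).symm) h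
    rwa [inv_smul_smul] at h1
  · exact smul_mem_E0 g.1.2 (g_fix g)

/-- the action on the seven sextets -/
def secAct : G0 →* Equiv.Perm ↥E0 :=
  MonoidHom.mk' (fun g => (MulAction.toPerm g.1.1 : Equiv.Perm (Finset (Finset GolayPt))).subtypePerm (stab_E_iff g)) (by
    intro a b
    apply Equiv.ext
    intro t
    apply Subtype.ext
    exact mul_smul a.1.1 b.1.1 t.1)

theorem secAct_apply (g : G0) (x : ↥E0) : ((secAct g x : ↥E0) : Finset (Finset GolayPt)) = g.1.1 • x.1 := rfl

theorem famOf_secOf_mem {v : V} (hv : v ≠ 0) : famOf (secOf v) ∈ E0 := by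
  simp only [E0, List.mem_toFinset, List.mem_map]
  exact ⟨_, check_sec.1 v hv, rfl⟩

/-- the labelling -/
noncomputable def lab : {v : V // v ≠ 0} ≃ ↥E0 :=
  Equiv.ofBijective (fun v => ⟨famOf (secOf v.1), famOf_secOf_mem v.2⟩) (by
    constructor
    · intro v w h
      have h1 : famOf (secOf v.1) = famOf (secOf w.1) := congrArg Subtype.val h
      have h2 := famOf_injOn_sexL (check_E' _ (check_sec.1 _ v.2)) (check_E' _ (check_sec.1 _ w.2)) h1
      exact Subtype.ext (check_sec.2.1 _ _ v.2 w.2 h2)
    · rintro ⟨x, hx⟩
      simp only [E0, List.mem_toFinset, List.mem_map] at hx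
      obtain ⟨l, hl, rfl⟩ := hx
      obtain ⟨v, hv, rfl⟩ := check_sec.2.2 l hl
      exact ⟨⟨v, hv⟩, rfl⟩)

theorem lab_val (v : {v : V // v ≠ 0}) : ((lab v : ↥E0) : Finset (Finset GolayPt)) = famOf (secOf v.1) := rfl

/-- the action on the nonzero vectors -/
noncomputable def vecAct (g : G0) : Equiv.Perm {v : V // v ≠ 0} := lab.trans ((secAct g).trans lab.symm)

theorem lab_vecAct (g : G0) (v : {v : V // v ≠ 0}) : lab (vecAct g v) = secAct g (lab v) := by
  simp [vecAct]

theorem famOf_vecAct (g : G0) (v : {v : V // v ≠ 0}) :
    famOf (secOf (vecAct g v).1) = g.1.1 • famOf (secOf v.1) := by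
  rw [← lab_val, lab_vecAct, secAct_apply, lab_val]

theorem vecAct_mul (a b : G0) (v : {v : V // v ≠ 0}) : vecAct (a * b) v = vecAct a (vecAct b v) := by
  apply lab.injective
  rw [lab_vecAct, lab_vecAct, lab_vecAct, map_mul]
  rfl

theorem vecAct_lines (g : G0) (u v w : {v : V // v ≠ 0}) (h : u.1 + v.1 + w.1 = 0) :
    (vecAct g u).1 + (vecAct g v).1 + (vecAct g w).1 = 0 := by
  have h1 : Rb (secOf u.1) (secOf v.1) (secOf w.1) = true := (check_lines _ _ _ u.2 v.2 w.2).2 h
  have h2 := (R_iff (secOf_lt u.2) (secOf_lt v.2) (secOf_lt w.2)).2 h1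
  have h3 := R_smul (g_fix g) h2
  rw [← famOf_vecAct, ← famOf_vecAct, ← famOf_vecAct] at h3
  have h4 := (R_iff (secOf_lt (vecAct g u).2) (secOf_lt (vecAct g v).2) (secOf_lt (vecAct g w).2)).1 h3
  exact (check_lines _ _ _ (vecAct g u).2 (vecAct g v).2 (vecAct g w).2).1 h4

/-! ### linear maps -/

/-- extension by zero -/
def extFun (σ : Equiv.Perm {v : V // v ≠ 0}) (v : V) : V :=
  if h : v = 0 then 0 else (σ ⟨v, h⟩).1

theorem extFun_zero (σ : Equiv.Perm {v : V // v ≠ 0}) : extFun σ 0 = 0 := by simp [extFun]

theorem extFun_ne (σ : Equiv.Perm {v : V // v ≠ 0}) {v : V} (h : v ≠ 0) : extFun σ v = (σ ⟨v, h⟩).1 := by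
  simp [extFun, h]

theorem two_eq (v : V) : v + v = 0 := by
  funext i
  exact CharTwo.add_self_eq_zero (v i)

theorem extFun_add (σ : Equiv.Perm {v : V // v ≠ 0})
    (hσ : ∀ u v w : {v : V // v ≠ 0}, u.1 + v.1 + w.1 = 0 → (σ u).1 + (σ v).1 + (σ w).1 = 0)
    (v w : V) : extFun σ (v + w) = extFun σ v + extFun σ w := by
  by_cases hv : v = 0
  · rw [hv, zero_add, extFun_zero, zero_add]
  by_cases hw : w = 0
  · rw [hw, add_zero, extFun_zero, add_zero]
  by_cases hvw : v = w
  · rw [hvw, two_eq, extFun_zero, two_eq]
  have hu : v + w ≠ 0 := by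
    intro h
    apply hvw
    have h1 := two_eq w
    have : v + w = w + w := by rw [h, h1]
    exact add_right_cancel this
  rw [extFun_ne σ hv, extFun_ne σ hw, extFun_ne σ hu]
  have h2 := hσ ⟨v, hv⟩ ⟨w, hw⟩ ⟨v + w, hu⟩ (by
    show v + w + (v + w) = 0
    exact two_eq _)
  have h3 : (σ ⟨v, hv⟩).1 + (σ ⟨w, hw⟩).1 + ((σ ⟨v, hv⟩).1 + (σ ⟨w, hw⟩).1) = 0 := two_eq _
  exact (add_left_cancel (h2.trans h3.symm))

theorem extFun_inj (σ : Equiv.Perm {v : V // v ≠ 0}) : Function.Injective (extFun σ) := by
  intro v w h
  by_cases hv : v = 0
  · by_cases hw : w = 0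
    · rw [hv, hw]
    · rw [hv, extFun_zero, extFun_ne σ hw] at h
      exact absurd h.symm (σ ⟨w, hw⟩).2
  · by_cases hw : w = 0
    · rw [hw, extFun_zero, extFun_ne σ hv] at h
      exact absurd h (σ ⟨v, hv⟩).2
    · rw [extFun_ne σ hv, extFun_ne σ hw] at h
      have := σ.injective (Subtype.ext h)
      exact congrArg Subtype.val this

/-- the linear map of an element of the stabiliser -/
noncomputable def linOf (g : G0) : V ≃ₗ[ZMod 2] V :=
  LinearEquiv.ofInjectiveEndo
    ((AddMonoidHom.mk' (extFun (vecAct g)) (extFun_add _ (vecAct_lines g))).toZModLinearMap 2)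
    (extFun_inj _)

theorem linOf_apply (g : G0) {v : V} (hv : v ≠ 0) : linOf g v = (vecAct g ⟨v, hv⟩).1 := by
  have : linOf g v = extFun (vecAct g) v := rfl
  rw [this, extFun_ne _ hv]

theorem linOf_zero (g : G0) : linOf g 0 = 0 := map_zero _

/-- the action on the plane, as a homomorphism -/
noncomputable def linHom : G0 →* (V ≃ₗ[ZMod 2] V) :=
  MonoidHom.mk' linOf (by
    intro a b
    apply LinearEquiv.ext
    intro v
    by_cases hv : v = 0
    · rw [hv, map_zero, map_zero]
    · rw [linOf_apply _ hv, vecAct_mul]
      show _ = linOf a (linOf b v)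
      rw [linOf_apply b hv, linOf_apply a (vecAct b ⟨v, hv⟩).2])

theorem linHom_eq_one {g : G0} (h : ∀ x ∈ E0, g.1.1 • x = x) : linHom g = 1 := by
  apply LinearEquiv.ext
  intro v
  by_cases hv : v = 0
  · rw [hv]
    exact map_zero _
  · show linOf g v = v
    rw [linOf_apply _ hv]
    have h1 := famOf_vecAct g ⟨v, hv⟩
    rw [h _ (famOf_secOf_mem hv)] at h1
    have h2 := famOf_injOn_sexL (check_E' _ (check_sec.1 _ (vecAct g ⟨v, hv⟩).2)) (check_E' _ (check_sec.1 _ hv)) h1
    exact check_sec.2.1 _ _ (vecAct g ⟨v, hv⟩).2 hv h2

theorem smul_eq_of_linHom {a b : G0} (h : linHom a = linHom b) {x : Finset (Finset GolayPt)} (hx : x ∈ E0) :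
    a.1.1 • x = b.1.1 • x := by
  have hx' := hx
  simp only [E0, List.mem_toFinset, List.mem_map] at hx'
  obtain ⟨l, hl, rfl⟩ := hx'
  obtain ⟨v, hv, rfl⟩ := check_sec.2.2 l hl
  rw [← famOf_vecAct a ⟨v, hv⟩, ← famOf_vecAct b ⟨v, hv⟩]
  have h1 : linOf a v = linOf b v := congrArg (fun f : V ≃ₗ[ZMod 2] V => f v) h
  rw [linOf_apply _ hv, linOf_apply _ hv] at h1
  rw [h1]

/-! ### counting -/

theorem card_G0 : Nat.card G0 = 64512 := by
  have h1 := Subgroup.card_mul_index (MulAction.stabilizer M24 T0)
  have h3 := MulAction.index_stabilizer M24 T0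
  rw [show MulAction.orbit ↥M24 T0 = MulAction.orbit M24 T0 from rfl, data.orbit_all, ncard_trios] at h3
  rw [h3, card_M24] at h1
  have h4 : Nat.card G0 * 3795 = 244823040 := h1
  omega

/-- `V ≃ₗ V` and the matrix group -/
noncomputable def equivGL : (V ≃ₗ[ZMod 2] V) ≃* GL (Fin 3) (ZMod 2) :=
  (LinearMap.GeneralLinearGroup.generalLinearEquiv (ZMod 2) V).symm.trans Matrix.GeneralLinearGroup.toLin.symm

theorem card_GL : Nat.card (GL (Fin 3) (ZMod 2)) = 168 := by
  rw [Matrix.card_GL_field, Fin.prod_univ_three, ZMod.card]
  norm_num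

theorem card_linEquiv : Nat.card (V ≃ₗ[ZMod 2] V) = 168 := by
  rw [Nat.card_congr equivGL.toEquiv, card_GL]

instance finite_linEquiv : Finite (V ≃ₗ[ZMod 2] V) :=
  Finite.of_injective (fun e => (e : V → V)) (fun a b h => LinearEquiv.ext (congrFun h))

theorem card_subtype_list {L : List ℕ} (h : L.Nodup) : Nat.card {c // c ∈ L} = L.length := by
  rw [Nat.card_eq_fintype_card, Fintype.card_of_subtype L.toFinset (by simp), List.toFinset_card_of_nodup h]

/-! ### the elements `listA`: surjectivity on the plane -/

theorem smul_T0_of_fixO {c : ℕ} (h : isM24 c = true) (h2 : fixO c = true) : decode c • T0 = T0 := by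
  have hv := isM24_valid h
  rw [decode_smul_famOf hv]
  congr 1
  have : b0.map (img c) = b0.map id := by
    apply List.map_congr_left
    intro o ho
    exact Nat.eq_of_beq_eq_true (List.all_eq_true.1 h2 o ho)
  rw [this, List.map_id]

/-- the element of a code fixing the octads -/
noncomputable def eltOf {c : ℕ} (h : isM24 c = true) (h2 : fixO c = true) : G0 :=
  ⟨⟨decode c, decode_mem_M24 h⟩, smul_T0_of_fixO h h2⟩

theorem A_facts {c : ℕ} (hc : c ∈ listA) : isM24 c = true ∧ fixO c = true ∧
    ∀ l ∈ keyA c, strictAsc l = true ∧ allLt l = true := by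
  have h := List.all_eq_true.1 check_A.1 c hc
  simp only [Bool.and_eq_true, List.all_eq_true] at h
  exact ⟨h.1.1, h.1.2, h.2⟩

/-- elements of `listA` -/
noncomputable def eltA (c : {c // c ∈ listA}) : G0 := eltOf (A_facts c.2).1 (A_facts c.2).2.1

theorem eltA_injective : Function.Injective fun c => linHom (eltA c) := by
  intro c c' h
  have hv := isM24_valid (A_facts c.2).1
  have hv' := isM24_valid (A_facts c'.2).1
  have hkey : keyA c.1 = keyA c'.1 := by
    apply List.map_congr_left
    intro l hl
    have hx : famOf l ∈ E0 := by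
      simp only [E0, List.mem_toFinset, List.mem_map]
      exact ⟨l, hl, rfl⟩
    have h1 := smul_eq_of_linHom h hx
    have h2 : decode c.1 • famOf l = decode c'.1 • famOf l := h1
    rw [decode_smul_famOf' _ hv, decode_smul_famOf' _ hv'] at h2
    have k1 := (A_facts c.2).2.2 (actFam c.1 l) (List.mem_map.2 ⟨l, hl, rfl⟩)
    have k2 := (A_facts c'.2).2.2 (actFam c'.1 l) (List.mem_map.2 ⟨l, hl, rfl⟩)
    exact famOf_inj k1.1 k2.1 k1.2 k2.2 h2
  exact Subtype.ext (List.inj_on_of_nodup_map check_A.2.1 c.2 c'.2 hkey)

theorem eltA_surjective : Function.Surjective fun c => linHom (eltA c) := by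
  apply (Function.Injective.bijective_of_nat_card_le eltA_injective _).2
  rw [card_linEquiv, card_subtype_list (List.Nodup.of_map _ check_A.2.1), check_A.2.2]

theorem eltA_fix (c : {c // c ∈ listA}) : tetAct T0 (eltA c) = 1 := by
  apply Equiv.ext
  intro t
  apply Subtype.ext
  obtain ⟨m, hm, hmt⟩ := mem_famOf.1 t.2
  have hv := isM24_valid (A_facts c.2).1
  show decode c.1 • t.1 = t.1
  rw [← hmt, decode_smul_ofMask hv, Nat.eq_of_beq_eq_true (List.all_eq_true.1 (A_facts c.2).2.1 m hm)]

/-- every linear map comes from an element fixing the octads -/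
theorem exists_A (A : V ≃ₗ[ZMod 2] V) : ∃ a : G0, tetAct T0 a = 1 ∧ linHom a = A := by
  obtain ⟨c, hc⟩ := eltA_surjective A
  exact ⟨eltA c, eltA_fix c, hc⟩

/-! ### swaps of octads -/

theorem smul_of_trivE {c : ℕ} (hv : valid c = true) (h : trivE c = true) {x : Finset (Finset GolayPt)} (hx : x ∈ E0) :
    decode c • x = x := by
  simp only [E0, List.mem_toFinset, List.mem_map] at hx
  obtain ⟨l, hl, rfl⟩ := hx
  rw [decode_smul_famOf' _ hv]
  have := List.all_eq_true.1 h l hl
  rw [decide_eq_true_eq] at this
  rw [this]

theorem swap_base3 {t u : Finset GolayPt} (ht : t ∈ T0) (hu : u ∈ T0) (htu : t ≠ u) :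
    ∃ g : G0, linHom g = 1 ∧ g.1.1 • t = u ∧ g.1.1 • u = t ∧ ∀ v ∈ T0, v ≠ t → v ≠ u → g.1.1 • v = v := by
  obtain ⟨a, ha, rfl⟩ := mem_famOf.1 ht
  obtain ⟨b, hb, rfl⟩ := mem_famOf.1 hu
  have hab : a ≠ b := fun h => htu (by rw [h])
  obtain ⟨c, -, hc, hE, h1, h2, h3⟩ := check_S' a ha b hb hab
  have hv := isM24_valid hc
  have hfix : ∀ v ∈ T0, v ≠ ofMask a → v ≠ ofMask b → decode c • v = v := by
    intro v hv1 hv2 hv3
    obtain ⟨m, hm, rfl⟩ := mem_famOf.1 hv1
    rw [decode_smul_ofMask hv, h3 m hm (fun h => hv2 (by rw [h])) (fun h => hv3 (by rw [h]))]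
  have h4 : decode c • ofMask a = ofMask b := by rw [decode_smul_ofMask hv, h1]
  have h5 : decode c • ofMask b = ofMask a := by rw [decode_smul_ofMask hv, h2]
  have hst : decode c • T0 = T0 := by
    apply Finset.eq_of_subset_of_card_le
    · intro w hw
      obtain ⟨v, hv1, rfl⟩ := Finset.mem_smul_finset.1 hw
      by_cases e1 : v = ofMask a
      · rw [e1]; show decode c • ofMask a ∈ _; rw [h4]; exact hu
      · by_cases e2 : v = ofMask b
        · rw [e2]; show decode c • ofMask b ∈ _; rw [h5]; exact ht
        · show decode c • v ∈ _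
          rw [hfix v hv1 e1 e2]; exact hv1
    · rw [Finset.card_smul_finset]
  refine ⟨⟨⟨decode c, decode_mem_M24 hc⟩, hst⟩, ?_, h4, h5, hfix⟩
  exact linHom_eq_one (fun x hx => smul_of_trivE hv hE hx)

/-- every permutation of the octads comes from an element acting trivially on the plane -/
theorem exists_B (π : Equiv.Perm ↥T0) : ∃ b : G0, linHom b = 1 ∧ tetAct T0 b = π := by
  have hmem : π ∈ (linHom.ker.map (tetAct T0)) := by
    have htop : (linHom.ker.map (tetAct T0)) = ⊤ := by
      rw [eq_top_iff, ← Equiv.Perm.closure_isSwap, Subgroup.closure_le]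
      rintro σ ⟨a, b, hab, rfl⟩
      have hab' : a.1 ≠ b.1 := fun h => hab (Subtype.ext h)
      obtain ⟨g, h0, h2, h3, h4⟩ := swap_base3 a.2 b.2 hab'
      refine ⟨g, h0, ?_⟩
      apply Equiv.ext
      intro v
      apply Subtype.ext
      rw [tetAct_apply]
      by_cases e1 : v = a
      · rw [e1, Equiv.swap_apply_left]; exact h2
      · by_cases e2 : v = b
        · rw [e2, Equiv.swap_apply_right]; exact h3
        · rw [Equiv.swap_apply_of_ne_of_ne e1 e2]
          exact h4 v.1 v.2 (fun h => e1 (Subtype.ext h)) (fun h => e2 (Subtype.ext h))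
    rw [htop]
    exact Subgroup.mem_top π
  obtain ⟨b, hb, hbπ⟩ := hmem
  exact ⟨b, hb, hbπ⟩

/-! ### the homomorphism to the product -/

/-- the identification of the octads with `Fin 3` -/
noncomputable def octEquiv : ↥T0 ≃ Fin 3 := T0.equivFinOfCardEq (by
  have h : T0 ∈ trios := by
    rw [← data.orbit_all]
    exact MulAction.mem_orbit_self _
  exact h.1)

/-- the homomorphism -/
noncomputable def phi : G0 →* GL (Fin 3) (ZMod 2) × Equiv.Perm (Fin 3) :=
  (equivGL.toMonoidHom.comp linHom).prod ((Equiv.permCongrHom octEquiv).toMonoidHom.comp (tetAct T0))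

theorem phi_surjective : Function.Surjective phi := by
  rintro ⟨A, π⟩
  obtain ⟨a, ha1, ha2⟩ := exists_A (equivGL.symm A)
  obtain ⟨b, hb1, hb2⟩ := exists_B ((Equiv.permCongrHom octEquiv).symm π)
  refine ⟨a * b, ?_⟩
  apply Prod.ext
  · show equivGL (linHom (a * b)) = A
    rw [map_mul, ha2, hb1, mul_one, MulEquiv.apply_symm_apply]
  · show (Equiv.permCongrHom octEquiv) (tetAct T0 (a * b)) = π
    rw [map_mul, ha1, hb2, one_mul, MulEquiv.apply_symm_apply]

theorem mem_ker_phi {g : G0} : g ∈ phi.ker ↔ linHom g = 1 ∧ tetAct T0 g = 1 := by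
  rw [MonoidHom.mem_ker]
  constructor
  · intro h
    have h1 := congrArg Prod.fst h
    have h2 := congrArg Prod.snd h
    have h3 : equivGL (linHom g) = 1 := h1
    have h4 : (Equiv.permCongrHom octEquiv) (tetAct T0 g) = 1 := h2
    exact ⟨(map_eq_one_iff _ equivGL.injective).1 h3, (map_eq_one_iff _ (MulEquiv.injective _)).1 h4⟩
  · rintro ⟨h1, h2⟩
    apply Prod.ext
    · show equivGL (linHom g) = 1
      rw [h1, map_one]
    · show (Equiv.permCongrHom octEquiv) (tetAct T0 g) = 1
      rw [h2, map_one]

theorem card_ker_phi : Nat.card phi.ker = 64 := by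
  have h1 := Subgroup.card_mul_index phi.ker
  rw [Subgroup.index_ker, MonoidHom.range_eq_top.2 phi_surjective, Subgroup.card_top, Nat.card_prod,
    card_GL, card_G0, Nat.card_eq_fintype_card (α := Equiv.Perm (Fin 3)), Fintype.card_perm, Fintype.card_fin] at h1
  have h2 : Nat.card phi.ker * 1008 = 64512 := by
    have : Nat.factorial 3 = 6 := rfl
    rw [this] at h1
    omega
  omega

/-! ### the elements of the kernel -/

theorem N_facts {c : ℕ} (hc : c ∈ listN) : isM24 c = true ∧ fixO c = true ∧ trivE c = true ∧
    ∀ i ∈ idxL, Nat.beq (ap c (ap c i)) i = true := by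
  have h := List.all_eq_true.1 check_N.1 c hc
  simp only [Bool.and_eq_true, List.all_eq_true] at h
  exact ⟨h.1.1.1, h.1.1.2, h.1.2, h.2⟩

/-- elements of `listN` -/
noncomputable def eltN (c : {c // c ∈ listN}) : G0 := eltOf (N_facts c.2).1 (N_facts c.2).2.1

theorem eltN_mem (c : {c // c ∈ listN}) : eltN c ∈ phi.ker := by
  obtain ⟨h1, h2, h3, -⟩ := N_facts c.2
  have hv := isM24_valid h1
  rw [mem_ker_phi]
  constructor
  · exact linHom_eq_one (fun x hx => smul_of_trivE hv h3 hx)
  · apply Equiv.ext
    intro t
    apply Subtype.ext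
    obtain ⟨m, hm, hmt⟩ := mem_famOf.1 t.2
    show decode c.1 • t.1 = t.1
    rw [← hmt, decode_smul_ofMask hv, Nat.eq_of_beq_eq_true (List.all_eq_true.1 h2 m hm)]

theorem eltN_sq (c : {c // c ∈ listN}) : eltN c * eltN c = 1 := by
  obtain ⟨h1, h2, h3, h4⟩ := N_facts c.2
  have hv := isM24_valid h1
  apply Subtype.ext
  apply Subtype.ext
  apply Equiv.ext
  intro p
  show decode c.1 (decode c.1 p) = p
  apply idx_injective
  rw [idx_decode hv, idx_decode hv]
  exact Nat.eq_of_beq_eq_true (h4 _ (mem_idxL.2 (idx_lt p)))

theorem ker_phi_sq {x : G0} (hx : x ∈ phi.ker) : x * x = 1 := by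
  let F : {c // c ∈ listN} → ↥phi.ker := fun c => ⟨eltN c, eltN_mem c⟩
  have hF : Function.Injective F := by
    intro c c' h
    have h1 : decode c.1 = decode c'.1 := congrArg (fun y : ↥phi.ker => (y.1.1.1 : Equiv.Perm GolayPt)) h
    have h2 := decode_inj_perm24 (isM24_valid (N_facts c.2).1) (isM24_valid (N_facts c'.2).1) h1
    exact Subtype.ext (List.inj_on_of_nodup_map check_N.2.1 c.2 c'.2 h2)
  have hS : Function.Surjective F := by
    apply (Function.Injective.bijective_of_nat_card_le hF _).2
    rw [card_ker_phi, card_subtype_list (List.Nodup.of_map _ check_N.2.1), check_N.2.2]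
  obtain ⟨c, hc⟩ := hS ⟨x, hx⟩
  have : x = eltN c := (congrArg Subtype.val hc).symm
  rw [this]
  exact eltN_sq c

/-! ### transport -/

theorem exists_struct_base : ∃ (N : Subgroup G0) (_ : N.Normal), Nat.card N = 64 ∧ (∀ x ∈ N, x * x = 1) ∧
    Nonempty (G0 ⧸ N ≃* GL (Fin 3) (ZMod 2) × Equiv.Perm (Fin 3)) :=
  ⟨phi.ker, inferInstance, card_ker_phi, fun _ hx => ker_phi_sq hx,
    ⟨QuotientGroup.quotientKerEquivOfSurjective phi phi_surjective⟩⟩

theorem transport_struct {G X Q : Type*} [Group G] [MulAction G X] [Group Q] {x y : X} (k : G) (hk : y = k • x) (n : ℕ)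
    (h : ∃ (N : Subgroup (MulAction.stabilizer G x)) (_ : N.Normal), Nat.card N = n ∧ (∀ a ∈ N, a * a = 1) ∧
      Nonempty ((MulAction.stabilizer G x) ⧸ N ≃* Q)) :
    ∃ (N : Subgroup (MulAction.stabilizer G y)) (_ : N.Normal), Nat.card N = n ∧ (∀ a ∈ N, a * a = 1) ∧
      Nonempty ((MulAction.stabilizer G y) ⧸ N ≃* Q) := by
  obtain ⟨N, hN, h1, h2, ⟨e⟩⟩ := h
  let φ := MulAction.stabilizerEquivStabilizer hk
  let N' : Subgroup (MulAction.stabilizer G y) := N.map φ.toMonoidHom
  have hN' : N'.Normal := hN.map _ φ.surjective
  refine ⟨N', hN', ?_, ?_, ?_⟩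
  · rw [← h1]
    exact Subgroup.card_map_of_injective φ.injective
  · rintro _ ⟨b, hb, rfl⟩
    show φ b * φ b = 1
    rw [← map_mul, h2 b hb, map_one]
  · exact ⟨(QuotientGroup.congr N N' φ rfl).symm.trans e⟩

theorem exists_struct {T : Finset (Finset GolayPt)} (hT : T ∈ trios) :
    ∃ (N : Subgroup ↥(MulAction.stabilizer M24 T)) (_ : N.Normal), Nat.card N = 64 ∧ (∀ x ∈ N, x * x = 1) ∧
      Nonempty (↥(MulAction.stabilizer M24 T) ⧸ N ≃* GL (Fin 3) (ZMod 2) × Equiv.Perm (Fin 3)) := by
  have h : T ∈ MulAction.orbit M24 (famOf b0) := by rw [data.orbit_all]; exact hT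
  obtain ⟨k, hk⟩ := h
  exact transport_struct k hk.symm 64 exists_struct_base

theorem tetAct_surjective_trio {T : Finset (Finset GolayPt)} (hT : T ∈ trios) : Function.Surjective (tetAct T) := by
  have h : T ∈ MulAction.orbit M24 (famOf b0) := by rw [data.orbit_all]; exact hT
  obtain ⟨⟨k, hkM⟩, hk⟩ := h
  have hk' : k • famOf b0 = T := hk
  subst hk'
  rw [← MonoidHom.range_eq_top, eq_top_iff, ← Equiv.Perm.closure_isSwap, Subgroup.closure_le]
  rintro σ ⟨a, b, hab, rfl⟩
  have hab' : a.1 ≠ b.1 := fun h => hab (Subtype.ext h)
  obtain ⟨t', ht', hta⟩ := Finset.mem_smul_finset.1 a.2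
  obtain ⟨u', hu', hub⟩ := Finset.mem_smul_finset.1 b.2
  have htu' : t' ≠ u' := fun h => hab' (by rw [← hta, ← hub, h])
  obtain ⟨g, -, h2, h3, h4⟩ := swap_base3 ht' hu' htu'
  have hg1 : g.1.1 ∈ M24 := g.1.2
  have hg2 : g.1.1 • famOf b0 = famOf b0 := g.2
  have hst : (k * g.1.1 * k⁻¹) • (k • famOf b0) = k • famOf b0 := by
    rw [mul_smul, mul_smul, inv_smul_smul, hg2]
  refine ⟨⟨⟨k * g.1.1 * k⁻¹, M24.mul_mem (M24.mul_mem hkM hg1) (M24.inv_mem hkM)⟩, hst⟩, ?_⟩
  apply Equiv.ext
  intro v
  apply Subtype.ext
  rw [tetAct_apply]
  show (k * g.1.1 * k⁻¹) • v.1 = _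
  by_cases e1 : v = a
  · rw [e1, Equiv.swap_apply_left, ← hub, ← hta]
    show (k * g.1.1 * k⁻¹) • k • t' = k • u'
    rw [mul_smul, mul_smul, inv_smul_smul, h2]
  · by_cases e2 : v = b
    · rw [e2, Equiv.swap_apply_right, ← hub, ← hta]
      show (k * g.1.1 * k⁻¹) • k • u' = k • t'
      rw [mul_smul, mul_smul, inv_smul_smul, h3]
    · rw [Equiv.swap_apply_of_ne_of_ne e1 e2]
      obtain ⟨v', hv', hvv⟩ := Finset.mem_smul_finset.1 v.2
      rw [← hvv]
      show (k * g.1.1 * k⁻¹) • k • v' = k • v'
      have e3 : v' ≠ t' := fun h => e1 (Subtype.ext (by rw [← hvv, ← hta, h]))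
      have e4 : v' ≠ u' := fun h => e2 (Subtype.ext (by rw [← hvv, ← hub, h]))
      rw [mul_smul, mul_smul, inv_smul_smul, h4 v' hv' e3 e4]

end Cfsg.Agent.Lib.TrioGroup
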