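import Cfsg.Agent.Lib.ChevFix

/-!
# Fixed points of a field automorphism: the general case

If the Cartan matrix is not unimodular, a fixed element is a product of an element of the image of the small group and
a fixed element of the torus; a power of it lies in the image of the small group.
-/

set_option autoImplicit false
set_option linter.unusedSectionVars false
set_option linter.unusedVariables false
set_option linter.unnecessarySimpa false

namespace Cfsg.Agent.Lib.TwFix32

open Cfsg.Lie Matrix Cfsg.Agent.Lib.Chev Cfsg.Agent.Lib.ChevFix Cfsg.Agent.Lib.ChevFix.Fix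

variable {T : Tabs} {X : Extra} {R : RootTab} {D : ChevalleyDatum} (hF : Full T X R D)
variable {K F : Type*} [Field K] [Field F]
variable (σ : F ≃+* F) (f : K →+* F)

/-- The action of `σ`. -/
local notation "sg" => glM D (σ : F →+* F)

/-- Products of the image of the small group with fixed elements of the torus. -/
def LL : Set (GL D.Idx F) :=
  {x | ∃ g₀ ∈ G0 D f, ∃ h ∈ D.diagonalSubgroup F, sg h = h ∧ x = g₀ * h}

variable (hf : ∀ a : F, σ a = a → ∃ b, f b = a)

include hF hf

theorem B_mem' {b : GL D.Idx F} (hb : b ∈ D.borelSubgroup F) (hfix : sg b = b) : b ∈ LL σ f := by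
  obtain ⟨u, hu, h, hh, rfl⟩ := (hF.mem_borel_iff).1 hb
  rw [map_mul] at hfix
  have h1 : u⁻¹ * sg u = h * (sg h)⁻¹ := by
    calc u⁻¹ * sg u = u⁻¹ * (sg u * sg h) * (sg h)⁻¹ := by group
      _ = u⁻¹ * (u * h) * (sg h)⁻¹ := by rw [hfix]
      _ = _ := by group
  have h2 : u⁻¹ * sg u ∈ D.posUnipotent F ⊓ D.diagonalSubgroup F := by
    refine ⟨Subgroup.mul_mem _ (Subgroup.inv_mem _ hu) (sg_U hF σ hu), ?_⟩
    rw [h1]
    exact Subgroup.mul_mem _ hh (Subgroup.inv_mem _ (sg_T hF σ hh))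
  rw [hF.U_inf_H, Subgroup.mem_bot] at h2
  have h3 : sg u = u := by
    rw [inv_mul_eq_one] at h2
    exact h2.symm
  have h4 : sg h = h := by
    rw [h2] at h1
    have := h1.symm
    rw [mul_inv_eq_one] at this
    exact this.symm
  exact ⟨u, U_mem hF σ f hf hu h3, h, hh, h4, rfl⟩

open Cfsg.Agent.Lib.BNPair in
theorem mem_of_reduced' (l : List ↥(D.group F)) (hl : IsReducedWord (hF.bnPair F) l) :
    ∀ g : ↥(D.group F), g ∈ dc (hF.bnPair F) l.prod → sg g.1 = g.1 → g.1 ∈ LL σ f := by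
  induction l with
  | nil =>
    intro g hg hfix
    have hg' : g ∈ ((hF.bnPair F).B : Set ↥(D.group F)) := by
      rw [List.prod_nil, dc_one] at hg
      exact hg
    exact B_mem' hF σ f hf (Subgroup.mem_subgroupOf.1 hg') hfix
  | cons s l ih =>
    intro g hg hfix
    have hl' := hl.tail
    obtain ⟨i, hi, hsi⟩ := hl.1.head
    have hsS : s ∈ (hF.bnPair F).S := hl.1.head
    have hs1 : s.1 = hF.nS i := (hF.S_iff).1 hsi
    have hlenl' := hl'.2
    have hlenl := hl.2
    rw [List.prod_cons] at hg hlenl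
    simp only [List.length_cons] at hlenl
    set m : ↥(D.group F) := l.prod with hm
    have hmN : m ∈ (hF.bnPair F).N := hl'.1.prod_mem_N subset_rfl
    have hlen : len (hF.bnPair F) m < len (hF.bnPair F) (s * m) := by omega
    have hmfix : sg m.1 = m.1 := sg_word hF σ hl'.1
    rw [← dc_S_inv_mul hsS hmN] at hg
    obtain ⟨b₁, hb₁, b₂, hb₂, e⟩ := mem_dc.1 hg
    have hb₁' : b₁.1 ∈ D.borelSubgroup F := Subgroup.mem_subgroupOf.1 hb₁
    have hb₂' : b₂.1 ∈ D.borelSubgroup F := Subgroup.mem_subgroupOf.1 hb₂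
    obtain ⟨u, hu, h, hh, e1⟩ := (hF.mem_borel_iff).1 hb₁'
    obtain ⟨u', hu', t, e2⟩ := hF.mem_U_iff hi hu
    set xt := hF.c.xG (D.simple i) t with hxt
    have hp := hF.simple_lt hi
    -- conjugating into `Up`
    have hu'' : xt⁻¹ * u' * xt ∈ Full.Up D F i := by
      have hn : xt⁻¹ ∈ Subgroup.normalizer (Full.Up D F i : Set (GL D.Idx F)) :=
        Subgroup.inv_mem _ (hF.xp_mem_normalizer hi t)
      have := (Subgroup.mem_normalizer_iff.1 hn u').1 hu'
      simpa using this
    set u'' := xt⁻¹ * u' * xt with hu''def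
    have hb₁eq : b₁.1 = xt * (u'' * h) := by
      rw [e1, e2, hu''def]; group
    -- the element `c`
    set n := hF.nS (F := F) i with hn
    have hnN := hF.nS_mem_normalizer (F := F) hi
    set c := n * (u'' * h) * n⁻¹ with hc
    have hcB : c ∈ D.borelSubgroup F := by
      have e3 : c = (n * u'' * n⁻¹) * (n * h * n⁻¹) := by rw [hc]; group
      rw [e3]
      refine Subgroup.mul_mem _ (hF.c.posUnipotent_le_borel (hF.Up_le_U i (hF.nS_conj_Up hi hu''))) ?_
      exact hF.c.diagonal_le_borel ((Subgroup.mem_normalizer_iff.1 hnN h).1 hh)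
    have hcG : c ∈ D.group F := hF.c.borel_le_group hcB
    let c' : ↥(D.group F) := ⟨c, hcG⟩
    have hc'B : c' ∈ (hF.bnPair F).B := Subgroup.mem_subgroupOf.2 hcB
    -- the new element
    let g' : ↥(D.group F) := c' * m * b₂
    have hg'dc : g' ∈ dc (hF.bnPair F) m := mem_dc.2 ⟨c', hc'B, b₂, hb₂, rfl⟩
    have hgeq : g.1 = xt * n⁻¹ * g'.1 := by
      have e3 := congrArg Subtype.val e
      simp only [Subgroup.coe_mul, Subgroup.coe_inv] at e3
      rw [e3, hs1, hb₁eq]
      show xt * (u'' * h) * (n⁻¹ * m.1) * b₂.1 = xt * n⁻¹ * (c * m.1 * b₂.1)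
      rw [hc]
      group
    have hsgxt : sg xt = hF.c.xG (D.simple i) (σ t) := sg_xG hF σ _ _
    have hsgn : sg n = n := sg_nS hF σ i
    -- apply the automorphism
    have hfix2 : sg g'.1 = hF.c.xG (D.neg (D.simple i)) (σ t - t) * g'.1 := by
      have e3 : hF.c.xG (D.simple i) (σ t) * n⁻¹ * sg g'.1 = xt * n⁻¹ * g'.1 := by
        rw [← hgeq, ← hfix, hgeq, map_mul, map_mul, map_inv, hsgxt, hsgn]
      have e4 : n * hF.c.xG (D.simple i) (t - σ t) * n⁻¹ =
          hF.c.xG (D.neg (D.simple i)) (σ t - t) := by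
        rw [hn, hF.nS_conj_xG hi hp, hF.wf_simple hi, hF.eta_simple hi]
        congr 1
        push_cast
        ring
      rw [← e4]
      have e5 : hF.c.xG (D.simple i) (t - σ t) = (hF.c.xG (D.simple i) (σ t))⁻¹ * xt := by
        rw [hF.c.xG_inv, hxt, hF.c.xG_add]
        congr 1
        ring
      rw [e5]
      calc sg g'.1 = n * (hF.c.xG (D.simple i) (σ t))⁻¹ * (hF.c.xG (D.simple i) (σ t) * n⁻¹ * sg g'.1) := by group
        _ = n * (hF.c.xG (D.simple i) (σ t))⁻¹ * (xt * n⁻¹ * g'.1) := by rw [e3]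
        _ = _ := by group
    by_cases hd : σ t - t = 0
    · have ht : σ t = t := sub_eq_zero.1 hd
      rw [hd, hF.c.xG_zero, one_mul] at hfix2
      obtain ⟨a, ha, h', hh', hfix', e'⟩ := ih hl' g' hg'dc hfix2
      rw [hgeq, e']
      refine ⟨xt * n⁻¹ * a, Subgroup.mul_mem _ (Subgroup.mul_mem _ (xG_mem hF σ f hf hp ht)
        (Subgroup.inv_mem _ (nS_mem hF σ f hf hi))) ha, h', hh', hfix', ?_⟩
      group
    · exfalso
      set d := σ t - t with hddef
      have hy : hF.c.xG (D.neg (D.simple i)) d =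
          (hF.c.xG (D.simple i) d⁻¹ * hF.c.hG (D.simple i) (-d⁻¹)) * n * hF.c.xG (D.simple i) d⁻¹ := by
        rw [hF.xG_neg_eq _ hd, hF.c.nG_eq_hG_mul, hn]
        unfold Full.nS
        group
      have hb3 : hF.c.xG (D.simple i) d⁻¹ * hF.c.hG (D.simple i) (-d⁻¹) ∈ D.borelSubgroup F := by
        refine Subgroup.mul_mem _ (hF.c.posUnipotent_le_borel (hF.xG_mem_U hp (hF.simple_ge hi) _)) ?_
        refine hF.c.diagonal_le_borel (hF.c.hG_mem_diagonal hp ?_)
        simpa using hd
      have hb4 : hF.c.xG (D.simple i) d⁻¹ ∈ D.borelSubgroup F :=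
        hF.c.posUnipotent_le_borel (hF.xG_mem_U hp (hF.simple_ge hi) _)
      let b₃ : ↥(D.group F) := ⟨_, hF.c.borel_le_group hb3⟩
      let b₄ : ↥(D.group F) := ⟨_, hF.c.borel_le_group hb4⟩
      have hb₃ : b₃ ∈ (hF.bnPair F).B := Subgroup.mem_subgroupOf.2 hb3
      have hb₄ : b₄ ∈ (hF.bnPair F).B := Subgroup.mem_subgroupOf.2 hb4
      let w : ↥(D.group F) := b₃ * s * b₄ * g'
      have hwval : w.1 = sg g'.1 := by
        rw [hfix2, hy]
        show b₃.1 * s.1 * b₄.1 * g'.1 = _
        rw [hs1]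
      -- `w` is in `B s m B`
      have hw1 : w ∈ dc (hF.bnPair F) (s * m) := by
        have e3 : w = b₃ * (s * (b₄ * c') * m) * b₂ := by
          show b₃ * s * b₄ * (c' * m * b₂) = _
          group
        rw [e3]
        have hmem := mem_dc_of_len_lt hsS ((hF.bnPair F).B.mul_mem hb₄ hc'B) hmN hlen
        exact mul_mem_dc hmem hb₃ hb₂
      -- `w` is in `B m B`
      have hw2 : w ∈ dc (hF.bnPair F) m := by
        have hg1 : sg (c : GL D.Idx F) ∈ D.group F := hF.c.borel_le_group (sg_B hF σ hcB)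
        have hg2 : sg b₂.1 ∈ D.group F := hF.c.borel_le_group (sg_B hF σ hb₂')
        refine mem_dc.2 ⟨⟨_, hg1⟩, Subgroup.mem_subgroupOf.2 (sg_B hF σ hcB), ⟨_, hg2⟩,
          Subgroup.mem_subgroupOf.2 (sg_B hF σ hb₂'), ?_⟩
        apply Subtype.ext
        rw [hwval]
        show sg (c * m.1 * b₂.1) = sg c * m.1 * sg b₂.1
        rw [map_mul, map_mul, hmfix]
      have h1 := mem_dc_of_mem_of_mem hw1 hw2
      have h2 := (dc_eq_iff hmN ((hF.bnPair F).N.mul_mem (S_mem_N hsS) hmN)).1 h1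
      have h3 := len_congr h2
      omega

theorem mem_of_fixed' (g : ↥(D.group F)) (hfix : sg g.1 = g.1) : g.1 ∈ LL σ f := by
  classical
  obtain ⟨n, hn, hg⟩ := Cfsg.Agent.Lib.BNPair.exists_mem_dc (P := hF.bnPair F) g
  obtain ⟨l, hl, hln⟩ := Cfsg.Agent.Lib.BNPair.exists_reduced hn
  have h1 := Cfsg.Agent.Lib.BNPair.dc_eq_dc_of_inv_mul_mem hln
  rw [h1] at hg
  exact mem_of_reduced' hF σ f hf l hl g hg hfix


/-- The fixed torus normalises the image of the small group. -/
theorem conj_mem_G0 (hfσ : ∀ b, σ (f b) = f b) {c : Fin D.rank → Fˣ} (hc : sg (tor R D c) = tor R D c) {g : GL D.Idx F} (hg : g ∈ G0 D f) :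
    tor R D c * g * (tor R D c)⁻¹ ∈ G0 D f := by
  -- the values on the roots are fixed
  have hchi : ∀ s : ℕ, s < D.nroots → σ ((chiT D c s : Fˣ) : F) = ((chiT D c s : Fˣ) : F) := by
    intro s hs
    have h1 := glM_tor hF (σ : F →+* F) c
    rw [hc] at h1
    have h2 : ∀ (a : Fin D.rank → Fˣ) , (tor R D a : GL D.Idx F) =
        Cfsg.Agent.Lib.Chev.diagG D (chiT D a) := fun a => hF.tor_eq a
    have h3 : ((Cfsg.Agent.Lib.Chev.diagG D (chiT D c) : GL D.Idx F) : Matrix D.Idx D.Idx F) (Sum.inr ⟨s, hs⟩) (Sum.inr ⟨s, hs⟩) =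
        ((Cfsg.Agent.Lib.Chev.diagG D (chiT D fun i => Units.map ((σ : F →+* F) : F →* F) (c i)) : GL D.Idx F) : Matrix D.Idx D.Idx F)
          (Sum.inr ⟨s, hs⟩) (Sum.inr ⟨s, hs⟩) := by
      rw [← h2, ← h2, ← h1]
    simp only [coe_diagG, Matrix.diagonal_apply_eq, Sum.elim_inr] at h3
    have h4 : chiT D (fun i => Units.map ((σ : F →+* F) : F →* F) (c i)) s = Units.map ((σ : F →+* F) : F →* F) (chiT D c s) := by
      unfold chiT
      rw [map_prod]
      apply Finset.prod_congr rfl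
      intro i _
      rw [map_zpow]
    rw [h4] at h3
    exact h3.symm
  obtain ⟨g₁, hg₁, rfl⟩ := hg
  unfold ChevalleyDatum.group at hg₁
  induction hg₁ using Subgroup.closure_induction with
  | mem x hx =>
    obtain ⟨r, t, hx⟩ := hx
    have hx' : (x : Matrix D.Idx D.Idx K) = D.x K r t := by
      rw [hx]
      unfold ChevalleyDatum.x
      rw [dif_pos r.2]
    have e : x = hF.c.xG r t := hF.c.eq_xG hx'
    rw [e, glM_xG hF f, hF.tor_conj_xG c r.2]
    apply xG_mem hF σ f hf r.2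
    rw [map_mul, hchi r r.2, hfσ]
  | one =>
    simp
  | mul x y _ _ hx hy =>
    rw [map_mul]
    have e : tor R D c * ((glM D f x) * (glM D f y)) * (tor R D c)⁻¹ =
        (tor R D c * glM D f x * (tor R D c)⁻¹) * (tor R D c * glM D f y * (tor R D c)⁻¹) := by group
    rw [e]
    exact Subgroup.mul_mem _ hx hy
  | inv x _ hx =>
    rw [map_inv]
    have e : tor R D c * (glM D f x)⁻¹ * (tor R D c)⁻¹ = (tor R D c * glM D f x * (tor R D c)⁻¹)⁻¹ := by group
    rw [e]
    exact Subgroup.inv_mem _ hx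

/-- Integer matrices up to a scalar: parameters with prescribed values of the Cartan map. -/
noncomputable def cOfE (B : Fin D.rank → Fin D.rank → ℤ) (y : Fin D.rank → Fˣ) : Fin D.rank → Fˣ :=
  fun i => ∏ k : Fin D.rank, y k ^ B i k

omit hF hf in
theorem cartanMap_cOfE (e : ℤ) (B : Fin D.rank → Fin D.rank → ℤ)
    (hB : ∀ k j : Fin D.rank, ∑ i : Fin D.rank, B i k * D.cartan i (D.simple j) = if j = k then e else 0)
    (y : Fin D.rank → Fˣ) (j : Fin D.rank) : cartanMap D (cOfE B y) j = y j ^ e := by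
  classical
  have hz : ∀ (a : Fˣ) (s : Finset (Fin D.rank)) (g : Fin D.rank → ℤ), a ^ (∑ i ∈ s, g i) = ∏ i ∈ s, a ^ g i := by
    intro a s g
    induction s using Finset.induction_on with
    | empty => simp
    | insert b s hb ih => rw [Finset.sum_insert hb, Finset.prod_insert hb, _root_.zpow_add, ih]
  have h2 : cartanMap D (cOfE B y) j = ∏ k : Fin D.rank, y k ^ (∑ i : Fin D.rank, B i k * D.cartan i (D.simple j)) := by
    simp only [cartanMap, cOfE, ← Finset.prod_zpow, ← _root_.zpow_mul]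
    rw [Finset.prod_comm]
    apply Finset.prod_congr rfl
    intro k _
    rw [hz]
  rw [h2]
  simp only [hB]
  rw [Finset.prod_eq_single j]
  · simp
  · intro i _ hi
    rw [if_neg (Ne.symm hi), zpow_zero]
  · simp

/-- **A power of a fixed element lies in the image of the small group.** -/
theorem pow_mem_of_fixed (hfσ : ∀ b, σ (f b) = f b) (e : ℕ) (B : Fin D.rank → Fin D.rank → ℤ)
    (hB : ∀ k j : Fin D.rank, ∑ i : Fin D.rank, B i k * D.cartan i (D.simple j) = if j = k then (e : ℤ) else 0)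
    (g : ↥(D.group F)) (hfix : sg g.1 = g.1) : g.1 ^ e ∈ G0 D f := by
  classical
  obtain ⟨g₀, hg₀, h, hh, hhfix, he⟩ := mem_of_fixed' hF σ f hf g hfix
  obtain ⟨c, rfl⟩ := (hF.mem_diagonal_iff).1 hh
  rw [he]
  set h := tor R D c with hh'
  have hpowfix : ∀ k : ℕ, sg (tor R D (c ^ k)) = tor R D (c ^ k) := by
    intro k
    have e1 : tor R D (c ^ k) = h ^ k := map_pow (torHom R D) c k
    rw [e1, map_pow, hhfix]
  have hform : ∀ k : ℕ, ∃ a ∈ G0 D f, (g₀ * h) ^ k = a * h ^ k := by
    intro k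
    induction k with
    | zero => exact ⟨1, Subgroup.one_mem _, by simp⟩
    | succ k ih =>
      obtain ⟨a, ha, e2⟩ := ih
      have e1 : tor R D (c ^ k) = h ^ k := map_pow (torHom R D) c k
      have h3 := conj_mem_G0 hF σ f hf hfσ (hpowfix k) hg₀
      rw [e1] at h3
      refine ⟨a * (h ^ k * g₀ * (h ^ k)⁻¹), Subgroup.mul_mem _ ha h3, ?_⟩
      rw [pow_succ, e2, pow_succ]
      group
  obtain ⟨a, ha, e2⟩ := hform e
  rw [e2]
  refine Subgroup.mul_mem _ ha ?_
  -- the power of the torus element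
  have e1 : h ^ e = tor R D (c ^ e) := (map_pow (torHom R D) c e).symm
  have hfixC : ∀ j : Fin D.rank, σ ((cartanMap D c j : Fˣ) : F) = ((cartanMap D c j : Fˣ) : F) := by
    intro j
    have h1 := glM_tor hF (σ : F →+* F) c
    rw [hhfix] at h1
    have h2 : tor R D ((fun i => Units.map ((σ : F →+* F) : F →* F) (c i)) * c⁻¹) = 1 := by
      rw [← tor_mul, ← h1, tor_mul, mul_inv_cancel, tor_one]
    have h3 := (hF.tor_eq_one_iff _).1 h2 j j.2
    have h4 : cartanMap D ((fun i => Units.map ((σ : F →+* F) : F →* F) (c i)) * c⁻¹) j =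
        Units.map ((σ : F →+* F) : F →* F) (cartanMap D c j) * (cartanMap D c j)⁻¹ := by
      unfold cartanMap
      rw [map_prod, ← Finset.prod_inv_distrib, ← Finset.prod_mul_distrib]
      apply Finset.prod_congr rfl
      intro i _
      rw [Pi.mul_apply, Pi.inv_apply, mul_zpow, _root_.inv_zpow, map_zpow]
    rw [h4] at h3
    have h5 := mul_inv_eq_one.1 h3
    have h6 := congrArg (fun z : Fˣ => (z : F)) h5
    simpa using h6
  set c' := cOfE B (fun j : Fin D.rank => cartanMap D c j) with hc'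
  have hc'eq : tor R D c' = tor R D (c ^ e) := by
    have h1 : tor R D (c' * (c ^ e)⁻¹) = 1 := by
      rw [hF.tor_eq_one_iff]
      intro j hj
      have h2 := cartanMap_cOfE (e : ℤ) B hB (fun j : Fin D.rank => cartanMap D c j) ⟨j, hj⟩
      have h3 : cartanMap D (c' * (c ^ e)⁻¹) j = cartanMap D c' j * (cartanMap D c j ^ (e : ℤ))⁻¹ := by
        unfold cartanMap
        rw [← Finset.prod_zpow, ← Finset.prod_inv_distrib, ← Finset.prod_mul_distrib]
        apply Finset.prod_congr rfl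
        intro i _
        rw [Pi.mul_apply, Pi.inv_apply, Pi.pow_apply, mul_zpow, _root_.inv_zpow, ← zpow_natCast, ← _root_.zpow_mul,
          ← _root_.zpow_mul, mul_comm (D.cartan (↑i) (D.simple j))]
      rw [h3]
      have h4 : cartanMap D c' j = cartanMap D c j ^ (e : ℤ) := h2
      rw [h4, mul_inv_cancel]
    rw [← tor_mul] at h1
    have h5 := eq_inv_of_mul_eq_one_left h1
    rw [h5, tor_inv, inv_inv]
  rw [e1, ← hc'eq]
  apply tor_mem hF σ f hf
  intro i
  have h7 : ∀ (y : Fˣ), σ (y : F) = y → ∀ z : ℤ, σ ((y ^ z : Fˣ) : F) = ((y ^ z : Fˣ) : F) := by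
    intro y hy z
    have : Units.map ((σ : F →+* F) : F →* F) y = y := Units.ext hy
    have h8 : Units.map ((σ : F →+* F) : F →* F) (y ^ z) = y ^ z := by
      rw [map_zpow, this]
    exact congrArg (fun u : Fˣ => (u : F)) h8
  have h9 : ∀ S : Finset (Fin D.rank), σ ((∏ k ∈ S, cartanMap D c k ^ B i k : Fˣ) : F) = ((∏ k ∈ S, cartanMap D c k ^ B i k : Fˣ) : F) := by
    intro S
    induction S using Finset.induction_on with
    | empty => simp
    | insert b S hb ih =>
      rw [Finset.prod_insert hb, Units.val_mul, map_mul, ih, h7 _ (hfixC b)]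
  exact h9 Finset.univ

end Cfsg.Agent.Lib.TwFix32
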