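import Cfsg.Agent.Lib.TwE6W32
import Cfsg.Agent.Lib.StE632L
import Cfsg.Agent.Lib.TwFix32

/-!
# The lattice of type E6 as a module over the Coxeter element
-/

set_option autoImplicit false
set_option linter.unusedSectionVars false
set_option linter.unusedVariables false
set_option linter.unusedSimpArgs false

namespace Cfsg.Agent.Lib.TwE6D32

open Cfsg Cfsg.Lie Cfsg.Agent.Lib.Chev Matrix Cfsg.Agent.Lib.ChevFix Cfsg.Agent.Lib.TwTor32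
open Cfsg.Agent.Lib.TwE6W32 Cfsg.Agent.Lib.StE632 Equiv

noncomputable section

/-- The orbit of a root under the Coxeter element, as a matrix. -/
def VL : List (List ℤ) := [[-1,0,0,-1,1,0],[-1,0,-1,0,0,0],[-1,-1,0,-1,0,1],[-1,-1,-1,-1,0,0],[-1,0,-1,-1,0,0],[-1,0,0,-1,0,0]]

/-- Its inverse. -/
def BIL : List (List ℤ) := [[0,-1,0,0,1,-1],[0,0,0,-1,1,0],[0,0,0,0,-1,1],[0,1,0,0,-1,0],[1,0,0,0,0,-1],[0,0,1,-1,1,-1]]

def VM : Matrix (Fin chevE6.rank) (Fin chevE6.rank) ℤ := fun i k => ent VL i k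

def BM : Matrix (Fin chevE6.rank) (Fin chevE6.rank) ℤ := fun k j => ent BIL k j

/-- The columns of `VM`. -/
def colV (k : ℕ) : Fin chevE6.rank → ℤ := fun i => ent VL i k

/-- The Coxeter element. -/
abbrev A₀ : Matrix (Fin chevE6.rank) (Fin chevE6.rank) ℤ := AM 1

/-- An entry of a vector, as an integer. -/
def vE (v : Fin chevE6.rank → ℤ) (i : Fin chevE6.rank) : ℤ := v i

theorem certV : ∀ i j : Fin chevE6.rank, mE (VM * BM) i j = mE 1 i j := by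
  decide +kernel

theorem VM_BM : VM * BM = 1 := by
  ext i j
  exact certV i j

theorem certS : ∀ k : Fin 5, ∀ i : Fin chevE6.rank, vE (A₀ *ᵥ colV k) i = vE (colV (k + 1)) i := by
  decide +kernel

theorem A_col {k : ℕ} (hk : k < 5) : A₀ *ᵥ colV k = colV (k + 1) := by
  funext i
  exact certS ⟨k, hk⟩ i

theorem certL : ∀ i : Fin chevE6.rank, vE (A₀ *ᵥ colV 5) i = - colV 5 i + colV 3 i - colV 1 i - colV 0 i := by
  decide +kernel

theorem col0 : ∀ i : Fin chevE6.rank, vE (colV 0) i = RootE6T.R.rcAt 8 i := by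
  decide +kernel

theorem colV0_eq : colV 0 = rcV RootE6T.R chevE6 8 := by
  funext i
  exact col0 i

/-- The rows of `BM` under the Coxeter element. -/
theorem certR : ∀ j : Fin chevE6.rank,
    mE (BM * A₀) ⟨0, by decide⟩ j = - BM ⟨5, by decide⟩ j ∧
    mE (BM * A₀) ⟨1, by decide⟩ j = BM ⟨0, by decide⟩ j - BM ⟨5, by decide⟩ j ∧
    mE (BM * A₀) ⟨2, by decide⟩ j = BM ⟨1, by decide⟩ j ∧
    mE (BM * A₀) ⟨3, by decide⟩ j = BM ⟨2, by decide⟩ j + BM ⟨5, by decide⟩ j ∧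
    mE (BM * A₀) ⟨4, by decide⟩ j = BM ⟨3, by decide⟩ j ∧
    mE (BM * A₀) ⟨5, by decide⟩ j = BM ⟨4, by decide⟩ j - BM ⟨5, by decide⟩ j := by
  decide +kernel

/-- The integer attached to a vector of the lattice: the value of the polynomial with the coordinates of the vector. -/
def EEv (q : ℤ) (v : Fin chevE6.rank → ℤ) : ℤ := ∑ k : Fin chevE6.rank, (BM *ᵥ v) k * q ^ (k : ℕ)

/-- The number attached to the Coxeter element. -/
def Nq (q : ℤ) : ℤ := q ^ 6 + q ^ 5 - q ^ 3 + q + 1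

theorem EEv_six (q : ℤ) (v : Fin chevE6.rank → ℤ) : EEv q v =
    (BM *ᵥ v) ⟨0, by decide⟩ + (BM *ᵥ v) ⟨1, by decide⟩ * q + (BM *ᵥ v) ⟨2, by decide⟩ * q ^ 2 +
      (BM *ᵥ v) ⟨3, by decide⟩ * q ^ 3 + (BM *ᵥ v) ⟨4, by decide⟩ * q ^ 4 + (BM *ᵥ v) ⟨5, by decide⟩ * q ^ 5 := by
  have h := Fin.sum_univ_six (M := ℤ) (fun k : Fin 6 => (BM *ᵥ v) k * q ^ (k : ℕ))
  refine h.trans ?_
  show (BM *ᵥ v) ⟨0, by decide⟩ * q ^ 0 + (BM *ᵥ v) ⟨1, by decide⟩ * q ^ 1 + (BM *ᵥ v) ⟨2, by decide⟩ * q ^ 2 +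
      (BM *ᵥ v) ⟨3, by decide⟩ * q ^ 3 + (BM *ᵥ v) ⟨4, by decide⟩ * q ^ 4 + (BM *ᵥ v) ⟨5, by decide⟩ * q ^ 5 = _
  ring

theorem row_A (k : Fin chevE6.rank) (v : Fin chevE6.rank → ℤ) : (BM *ᵥ (A₀ *ᵥ v)) k = ((BM * A₀) *ᵥ v) k := by
  rw [Matrix.mulVec_mulVec]

theorem row_lin (k : Fin chevE6.rank) (a : Fin chevE6.rank → ℤ) (h : ∀ j, mE (BM * A₀) k j = a j) (v : Fin chevE6.rank → ℤ) :
    (BM *ᵥ (A₀ *ᵥ v)) k = a ⬝ᵥ v := by
  rw [row_A]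
  show ((BM * A₀) k) ⬝ᵥ v = _
  congr 1
  funext j
  exact h j

theorem EE_A (q : ℤ) (v : Fin chevE6.rank → ℤ) :
    EEv q (A₀ *ᵥ v) = q * EEv q v - Nq q * (BM *ᵥ v) ⟨5, by decide⟩ := by
  have hr := certR
  have r0 := row_lin ⟨0, by decide⟩ (fun j => - BM ⟨5, by decide⟩ j) (fun j => (hr j).1) v
  have r1 := row_lin ⟨1, by decide⟩ (fun j => BM ⟨0, by decide⟩ j - BM ⟨5, by decide⟩ j) (fun j => (hr j).2.1) v
  have r2 := row_lin ⟨2, by decide⟩ (fun j => BM ⟨1, by decide⟩ j) (fun j => (hr j).2.2.1) v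
  have r3 := row_lin ⟨3, by decide⟩ (fun j => BM ⟨2, by decide⟩ j + BM ⟨5, by decide⟩ j) (fun j => (hr j).2.2.2.1) v
  have r4 := row_lin ⟨4, by decide⟩ (fun j => BM ⟨3, by decide⟩ j) (fun j => (hr j).2.2.2.2.1) v
  have r5 := row_lin ⟨5, by decide⟩ (fun j => BM ⟨4, by decide⟩ j - BM ⟨5, by decide⟩ j) (fun j => (hr j).2.2.2.2.2) v
  have e0 : (fun j => - BM ⟨5, by decide⟩ j) ⬝ᵥ v = - (BM *ᵥ v) ⟨5, by decide⟩ := by
    simp [dotProduct, Matrix.mulVec, Finset.sum_neg_distrib]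
  have e1 : (fun j => BM ⟨0, by decide⟩ j - BM ⟨5, by decide⟩ j) ⬝ᵥ v =
      (BM *ᵥ v) ⟨0, by decide⟩ - (BM *ᵥ v) ⟨5, by decide⟩ := by
    simp [dotProduct, Matrix.mulVec, sub_mul, Finset.sum_sub_distrib]
  have e3 : (fun j => BM ⟨2, by decide⟩ j + BM ⟨5, by decide⟩ j) ⬝ᵥ v =
      (BM *ᵥ v) ⟨2, by decide⟩ + (BM *ᵥ v) ⟨5, by decide⟩ := by
    simp [dotProduct, Matrix.mulVec, add_mul, Finset.sum_add_distrib]
  have e5 : (fun j => BM ⟨4, by decide⟩ j - BM ⟨5, by decide⟩ j) ⬝ᵥ v =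
      (BM *ᵥ v) ⟨4, by decide⟩ - (BM *ᵥ v) ⟨5, by decide⟩ := by
    simp [dotProduct, Matrix.mulVec, sub_mul, Finset.sum_sub_distrib]
  have e2 : (fun j => BM ⟨1, by decide⟩ j) ⬝ᵥ v = (BM *ᵥ v) ⟨1, by decide⟩ := rfl
  have e4 : (fun j => BM ⟨3, by decide⟩ j) ⬝ᵥ v = (BM *ᵥ v) ⟨3, by decide⟩ := rfl
  rw [e0] at r0
  rw [e1] at r1
  rw [e2] at r2
  rw [e3] at r3
  rw [e4] at r4
  rw [e5] at r5
  rw [EEv_six, EEv_six, r0, r1, r2, r3, r4, r5]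
  unfold Nq
  ring

theorem EEv_lin (q : ℤ) (v : Fin chevE6.rank → ℤ) :
    EEv q v = ∑ j : Fin chevE6.rank, EEv q (Pi.single j 1) * v j := by
  classical
  unfold EEv
  simp only [Matrix.mulVec_single_one, Finset.sum_mul]
  rw [Finset.sum_comm]
  apply Finset.sum_congr rfl
  intro k _
  rw [Matrix.mulVec, dotProduct, Finset.sum_mul]
  apply Finset.sum_congr rfl
  intro j _
  simp only [Matrix.col_apply, Matrix.transpose_apply]
  ring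

theorem EEv_col0 (q : ℤ) : EEv q (colV 0) = 1 := by
  rw [EEv_six]
  have h : ∀ k : Fin chevE6.rank, vE (BM *ᵥ colV 0) k = if (k : ℕ) = 0 then 1 else 0 := by
    decide +kernel
  have h0 := h ⟨0, by decide⟩
  have h1 := h ⟨1, by decide⟩
  have h2 := h ⟨2, by decide⟩
  have h3 := h ⟨3, by decide⟩
  have h4 := h ⟨4, by decide⟩
  have h5 := h ⟨5, by decide⟩
  simp only [vE] at h0 h1 h2 h3 h4 h5
  rw [h0, h1, h2, h3, h4, h5]
  norm_num

/-! ### Characters -/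

variable {K : Type*} [Field K]

/-- The character on the columns. -/
theorem Xc_cols (c : Fin chevE6.rank → Kˣ) (q : ℕ) (h : ∀ v, Xc c (A₀ *ᵥ v) = Xc c v ^ q) {k : ℕ} (hk : k ≤ 5) :
    Xc c (colV k) = Xc c (colV 0) ^ ((q : ℤ) ^ k) := by
  induction k with
  | zero => simp
  | succ k ih =>
    rw [← A_col (by omega), h, ih (by omega), ← zpow_natCast, ← _root_.zpow_mul, pow_succ]

theorem zpow_sum_fin (a : Kˣ) (s : Finset (Fin chevE6.rank)) (g : Fin chevE6.rank → ℤ) :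
    a ^ (∑ i ∈ s, g i) = ∏ i ∈ s, a ^ g i := by
  classical
  induction s using Finset.induction_on with
  | empty => simp
  | insert b s hb ih => rw [Finset.sum_insert hb, Finset.prod_insert hb, _root_.zpow_add, ih]

/-- The form of a twisted character. -/
theorem Xc_form (c : Fin chevE6.rank → Kˣ) (q : ℕ) (h : ∀ v, Xc c (A₀ *ᵥ v) = Xc c v ^ q) (v : Fin chevE6.rank → ℤ) :
    Xc c v = Xc c (colV 0) ^ EEv q v := by
  have e : v = VM *ᵥ (BM *ᵥ v) := by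
    rw [Matrix.mulVec_mulVec, VM_BM, Matrix.one_mulVec]
  conv_lhs => rw [e]
  rw [Xc_mulVec]
  unfold EEv
  rw [zpow_sum_fin]
  apply Finset.prod_congr rfl
  intro k _
  have hk : (k : ℕ) ≤ 5 := by
    have := k.2
    have h6 : chevE6.rank = 6 := rfl
    omega
  have e2 : (fun i => VM i k) = colV k := rfl
  rw [e2, Xc_cols c q h hk, ← _root_.zpow_mul, mul_comm]

/-- The exponent of a twisted character. -/
theorem z_pow_N (c : Fin chevE6.rank → Kˣ) (q : ℕ) (h : ∀ v, Xc c (A₀ *ᵥ v) = Xc c v ^ q) :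
    Xc c (colV 0) ^ Nq q = 1 := by
  have e : A₀ *ᵥ colV 5 = (-1 : ℤ) • colV 5 + colV 3 + (-1 : ℤ) • colV 1 + (-1 : ℤ) • colV 0 := by
    funext i
    have := certL i
    simp only [vE] at this
    simp only [Pi.add_apply, Pi.smul_apply, smul_eq_mul]
    rw [this]
    ring
  have h1 := congrArg (Xc c) e
  rw [h, Xc_add, Xc_add, Xc_add, Xc_smul, Xc_smul, Xc_smul, Xc_cols c q h (by norm_num : 5 ≤ 5),
    Xc_cols c q h (by norm_num : 3 ≤ 5), Xc_cols c q h (by norm_num : 1 ≤ 5)] at h1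
  set z := Xc c (colV 0) with hz
  have h2 : z ^ ((q : ℤ) ^ 6) = z ^ (-(q : ℤ) ^ 5 + (q : ℤ) ^ 3 - (q : ℤ) - 1) := by
    have e1 : z ^ ((q : ℤ) ^ 6) = (z ^ ((q : ℤ) ^ 5)) ^ q := by
      rw [← zpow_natCast, ← _root_.zpow_mul]
      congr 1
    rw [e1, h1]
    simp only [← _root_.zpow_mul, ← _root_.zpow_add, zpow_one, sub_eq_add_neg]
    congr 1
    ring
  have h3 : z ^ Nq q = z ^ ((q : ℤ) ^ 6) * (z ^ (-(q : ℤ) ^ 5 + (q : ℤ) ^ 3 - (q : ℤ) - 1))⁻¹ := by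
    rw [← _root_.zpow_neg, ← _root_.zpow_add]
    congr 1
    unfold Nq
    ring
  rw [h3, h2, mul_inv_cancel]

/-- The inverse of the Cartan matrix, up to the factor three, gives characters. -/
def cZ (q : ℤ) (z : Kˣ) : Fin chevE6.rank → Kˣ :=
  TwFix32.cOfE adjB (fun j => z ^ EEv q (Pi.single j 1))

theorem Xc_cZ (q : ℤ) (z : Kˣ) (v : Fin chevE6.rank → ℤ) : Xc (cZ q z) v = (z ^ 3) ^ EEv q v := by
  classical
  unfold Xc
  rw [EEv_lin q v, zpow_sum_fin]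
  apply Finset.prod_congr rfl
  intro j _
  unfold cZ
  rw [TwFix32.cartanMap_cOfE ((3 : ℕ) : ℤ) adjB adjB_spec2]
  rw [← _root_.zpow_mul, ← zpow_natCast z 3, ← _root_.zpow_mul, ← _root_.zpow_mul]
  congr 1
  push_cast
  ring

/-- The relation of the character of a torus element and its values on the weights. -/
theorem Xc_eq_prod (c : Fin chevE6.rank → Kˣ) (v : Fin chevE6.rank → ℤ) :
    Xc c v = ∏ i : Fin chevE6.rank, c i ^ (∑ k : Fin chevE6.rank, chevE6.cartan i (chevE6.simple k) * v k) := by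
  unfold Xc
  simp only [cartanMap, ← Finset.prod_zpow, ← _root_.zpow_mul]
  rw [Finset.prod_comm]
  apply Finset.prod_congr rfl
  intro i _
  rw [zpow_sum_fin]

/-- The lattice vectors attached to two weights. -/
def nV : Fin chevE6.rank → ℤ := fun k => ([1, 0, 1, 1, 1, 1] : List ℤ).getD k 0

def mV : Fin chevE6.rank → ℤ := fun k => ([1, 3, 2, 3, 1, -1] : List ℤ).getD k 0

theorem certW : ∀ i : Fin chevE6.rank,
    ∑ k : Fin chevE6.rank, chevE6.cartan i (chevE6.simple k) * nV k = wA i 0 - wA i 7 ∧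
    ∑ k : Fin chevE6.rank, chevE6.cartan i (chevE6.simple k) * mV k = 3 * wA i 7 := by
  decide +kernel

theorem Dc_rel (c : Fin chevE6.rank → Kˣ) : Dc c 0 = Xc c nV * Dc c 7 := by
  rw [Xc_eq_prod]
  unfold Dc
  rw [← Finset.prod_mul_distrib]
  apply Finset.prod_congr rfl
  intro i _
  rw [(certW i).1, ← _root_.zpow_add]
  congr 1
  ring

theorem Dc_cube (c : Fin chevE6.rank → Kˣ) : Dc c 7 ^ 3 = Xc c mV := by
  rw [Xc_eq_prod]
  unfold Dc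
  rw [← Finset.prod_pow]
  apply Finset.prod_congr rfl
  intro i _
  rw [(certW i).2, ← zpow_natCast, ← _root_.zpow_mul]
  congr 1
  push_cast
  ring

theorem EEv_n (q : ℤ) : EEv q nV = - q ^ 3 := by
  rw [EEv_six]
  have h : ∀ k : Fin chevE6.rank, vE (BM *ᵥ nV) k = ([0, 0, 0, -1, 0, 0] : List ℤ).getD k 0 := by
    decide +kernel
  have h0 := h ⟨0, by decide⟩
  have h1 := h ⟨1, by decide⟩
  have h2 := h ⟨2, by decide⟩
  have h3 := h ⟨3, by decide⟩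
  have h4 := h ⟨4, by decide⟩
  have h5 := h ⟨5, by decide⟩
  simp only [vE] at h0 h1 h2 h3 h4 h5
  rw [h0, h1, h2, h3, h4, h5]
  simp

theorem EEv_m (q : ℤ) : EEv q mV = -1 - 2 * q - 2 * q ^ 2 + 2 * q ^ 3 + 2 * q ^ 4 + q ^ 5 := by
  rw [EEv_six]
  have h : ∀ k : Fin chevE6.rank, vE (BM *ᵥ mV) k = ([-1, -2, -2, 2, 2, 1] : List ℤ).getD k 0 := by
    decide +kernel
  have h0 := h ⟨0, by decide⟩
  have h1 := h ⟨1, by decide⟩
  have h2 := h ⟨2, by decide⟩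
  have h3 := h ⟨3, by decide⟩
  have h4 := h ⟨4, by decide⟩
  have h5 := h ⟨5, by decide⟩
  simp only [vE] at h0 h1 h2 h3 h4 h5
  rw [h0, h1, h2, h3, h4, h5]
  simp
  ring

/-- **The invariant in terms of the twisted character.** -/
theorem inv_rel (c : Fin chevE6.rank → Kˣ) (q : ℕ) (d : ℕ) (hq : q = 3 * d + 1)
    (h : ∀ v, Xc c (A₀ *ᵥ v) = Xc c v ^ q) (hstar : Dc c 0 = Dc c 7 ^ q) :
    Xc c (colV 0) ^ (-(q : ℤ) ^ 3 - d * (-1 - 2 * q - 2 * q ^ 2 + 2 * q ^ 3 + 2 * q ^ 4 + q ^ 5)) = 1 := by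
  have h1 := Dc_rel c
  have h2 := Dc_cube c
  rw [hstar] at h1
  have h3 : Xc c nV = (Xc c mV) ^ d := by
    rw [← h2, ← pow_mul]
    have e : Dc c 7 ^ q = Dc c 7 ^ (3 * d) * Dc c 7 := by
      rw [hq, pow_succ]
    rw [e] at h1
    exact (mul_right_cancel h1).symm
  rw [Xc_form c q h nV, Xc_form c q h mV, EEv_n, EEv_m] at h3
  set z := Xc c (colV 0)
  rw [sub_eq_add_neg, _root_.zpow_add, h3, ← zpow_natCast, ← _root_.zpow_mul, ← _root_.zpow_add]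
  have : (-1 - 2 * (q : ℤ) - 2 * q ^ 2 + 2 * q ^ 3 + 2 * q ^ 4 + q ^ 5) * d +
      -(d * (-1 - 2 * (q : ℤ) - 2 * q ^ 2 + 2 * q ^ 3 + 2 * q ^ 4 + q ^ 5)) = 0 := by ring
  rw [this, zpow_zero]

/-- The number in the invariant is not divisible by three. -/
theorem not_dvd_inv (q d : ℕ) (hq : q = 3 * d + 1) :
    ¬ (3 : ℤ) ∣ (-(q : ℤ) ^ 3 - d * (-1 - 2 * q - 2 * q ^ 2 + 2 * q ^ 3 + 2 * q ^ 4 + q ^ 5)) := by
  intro h
  have e : (-(q : ℤ) ^ 3 - d * (-1 - 2 * q - 2 * q ^ 2 + 2 * q ^ 3 + 2 * q ^ 4 + q ^ 5)) =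
      -1 - 3 * ((d : ℤ) * ((q : ℤ) ^ 2 + q + 1) + d ^ 2 * ((q : ℤ) ^ 4 + 3 * q ^ 3 + 5 * q ^ 2 + 3 * q + 1)) := by
    have hq' : (q : ℤ) = 3 * d + 1 := by exact_mod_cast hq
    rw [hq']
    ring
  rw [e] at h
  have h2 : (3 : ℤ) ∣ -1 := by
    have := dvd_add h (Dvd.intro _ rfl : (3 : ℤ) ∣ 3 * ((d : ℤ) * ((q : ℤ) ^ 2 + q + 1) + d ^ 2 * ((q : ℤ) ^ 4 + 3 * q ^ 3 + 5 * q ^ 2 + 3 * q + 1)))
    simpa using this
  omega

/-- The norm of a root vanishes modulo no odd prime. -/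
def NnV (v : Fin chevE6.rank → ℤ) : ℤ :=
  let y := BM *ᵥ v
  let a := y ⟨0, by decide⟩ - y ⟨4, by decide⟩
  let b := y ⟨1, by decide⟩ - y ⟨5, by decide⟩
  let c := y ⟨2, by decide⟩ + y ⟨4, by decide⟩
  let d := y ⟨3, by decide⟩ + y ⟨5, by decide⟩
  let P := a ^ 2 - c ^ 2 + 2 * b * d + d ^ 2
  let Q := 2 * a * c + c ^ 2 - b ^ 2 - 2 * b * d
  P ^ 2 + P * Q + Q ^ 2

theorem norm_dvd12 {r q a b c d : ℤ} (h1 : r ∣ a + b * q + c * q ^ 2 + d * q ^ 3) (h2 : r ∣ q ^ 4 - q ^ 2 + 1) :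
    r ∣ (a ^ 2 - c ^ 2 + 2 * b * d + d ^ 2) ^ 2 + (a ^ 2 - c ^ 2 + 2 * b * d + d ^ 2) * (2 * a * c + c ^ 2 - b ^ 2 - 2 * b * d) +
      (2 * a * c + c ^ 2 - b ^ 2 - 2 * b * d) ^ 2 := by
  set P := a ^ 2 - c ^ 2 + 2 * b * d + d ^ 2 with hP
  set Q := 2 * a * c + c ^ 2 - b ^ 2 - 2 * b * d with hQ
  have e : P ^ 2 + P * Q + Q ^ 2 = (a + b * q + c * q ^ 2 + d * q ^ 3) * ((a - b * q + c * q ^ 2 - d * q ^ 3) * (P + Q - Q * q ^ 2)) +
      (q ^ 4 - q ^ 2 + 1) * (Q ^ 2 - (c ^ 2 - 2 * b * d - d ^ 2 - d ^ 2 * q ^ 2) * (P + Q - Q * q ^ 2)) := by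
    rw [hP, hQ]
    ring
  rw [e]
  exact dvd_add (h1.mul_right _) (h2.mul_right _)

theorem norm_EE {r q : ℤ} (v : Fin chevE6.rank → ℤ) (h1 : r ∣ EEv q v) (h2 : r ∣ q ^ 4 - q ^ 2 + 1) : r ∣ NnV v := by
  rw [EEv_six] at h1
  set y := BM *ᵥ v with hy
  have h3 : r ∣ (y ⟨0, by decide⟩ - y ⟨4, by decide⟩) + (y ⟨1, by decide⟩ - y ⟨5, by decide⟩) * q +
      (y ⟨2, by decide⟩ + y ⟨4, by decide⟩) * q ^ 2 + (y ⟨3, by decide⟩ + y ⟨5, by decide⟩) * q ^ 3 := by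
    have e : (y ⟨0, by decide⟩ - y ⟨4, by decide⟩) + (y ⟨1, by decide⟩ - y ⟨5, by decide⟩) * q +
      (y ⟨2, by decide⟩ + y ⟨4, by decide⟩) * q ^ 2 + (y ⟨3, by decide⟩ + y ⟨5, by decide⟩) * q ^ 3 =
        (y ⟨0, by decide⟩ + y ⟨1, by decide⟩ * q + y ⟨2, by decide⟩ * q ^ 2 + y ⟨3, by decide⟩ * q ^ 3 +
          y ⟨4, by decide⟩ * q ^ 4 + y ⟨5, by decide⟩ * q ^ 5) - (q ^ 4 - q ^ 2 + 1) * (y ⟨4, by decide⟩ + y ⟨5, by decide⟩ * q) := by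
      ring
    rw [e]
    exact dvd_sub h1 (h2.mul_right _)
  exact norm_dvd12 h3 h2

theorem norm_ok : ∀ s : Fin 72, NnV (fun j : Fin chevE6.rank => RootE6T.R.rcAt s j) = 1 ∨ NnV (fun j : Fin chevE6.rank => RootE6T.R.rcAt s j) = 4 := by
  decide +kernel

/-- The integers attached to roots are prime to the odd prime divisors of the cyclotomic value. -/
theorem not_dvd_EE {r q : ℤ} (hr2 : ¬ r ∣ 4) (h2 : r ∣ q ^ 4 - q ^ 2 + 1) (s : Fin chevE6.nroots) :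
    ¬ r ∣ EEv q (rcV RootE6T.R chevE6 s) := by
  intro h
  have h3 := norm_EE _ h h2
  have h4 := norm_ok s
  have e : rcV RootE6T.R chevE6 s = fun j : Fin chevE6.rank => RootE6T.R.rcAt s j := rfl
  rw [e] at h3
  rcases h4 with h4 | h4 <;> rw [h4] at h3
  · exact hr2 (h3.trans (by norm_num))
  · exact hr2 h3

end

end Cfsg.Agent.Lib.TwE6D32
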