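import Mathlib
import Cfsg.Agent.Lib.ChevCenterCard
import Cfsg.Agent.Lib.RepE6All
import Cfsg.Agent.Lib.Chev.RelE6
import Cfsg.Agent.Lib.Chev.RootE6
import Cfsg.Agent.Lib.ChevPresTabE6
import Cfsg.Agent.Lib.ChevPresNegE6
import Cfsg.Agent.Lib.ChevStemN
import Cfsg.Agent.Lib.Chev.TwSCH
import Cfsg.Agent.Lib.HermForm
import Cfsg.Prelude.Def_LieTwisted
import Cfsg.Prelude.Def_KGroupFacts

/-!
# The triple cover of `²E₆(q)`, `3 ∣ q + 1`

The subgroup of Steinberg's group of type `E₆` over the field with `q²` elements generated by the twisted words is a stem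
extension of `²E₆(q)` with kernel of order three.
-/

set_option autoImplicit false
set_option linter.unusedSectionVars false
set_option linter.unusedVariables false

namespace Cfsg.Agent.Lib.TwE6Low8

open Cfsg Cfsg.Lie Matrix Cfsg.Agent.Lib.Chev Cfsg.Agent.Lib.ChevRep Cfsg.Agent.Lib.ChevPres Cfsg.Agent.Lib.ChevCenterCard

universe u

theorem latE6_lt' : ∀ k : Fin 6, Cfsg.Agent.Lib.RepE6.latC.getD k 0 < Cfsg.Agent.Lib.RepE6.T.dim := by decide +kernel

theorem latE6_ok' : ∀ i j : Fin 6, ∑ k : Fin 6, (Cfsg.Agent.Lib.RepE6.latW.getD i []).getD k 0 *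
    hExp Cfsg.Agent.Lib.RepE6.T chevE6 (chevE6.simple j) (Cfsg.Agent.Lib.RepE6.latC.getD k 0) =
      if i = j then 1 else 0 := by decide +kernel

theorem cancel_pos' {a b g m : ℕ} (h1 : a * b = m) (h2 : g * b = m) (hm : 0 < m) : a = g := by
  have hb : 0 < b := by
    rcases Nat.eq_zero_or_pos b with h | h
    · rw [h, mul_zero] at h1
      omega
    · exact h
  exact Nat.eq_of_mul_eq_mul_right hb (h1.trans h2.symm)

theorem hFE : Full TabE6.T TabE6.X RootE6T.R chevE6 := ⟨RelE6.checks, RootE6.checks⟩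

theorem hPE : PresOK TabE6.X chevE6 :=
  ⟨negOK_of_check hFE Cfsg.Agent.Lib.ChevPresNegE6.neg_ok, Cfsg.Agent.Lib.ChevPresTabE6.w_ok⟩

variable {K : Type u} [Field K]

theorem hb_inj : Function.Injective (hbHom (K := K) hFE hPE) :=
  hbHom_inj hFE hPE Cfsg.Agent.Lib.RepE6.rep_ok
    (C := fun k => ⟨_, latE6_lt' k⟩) (W := fun i k => (Cfsg.Agent.Lib.RepE6.latW.getD i []).getD k 0) latE6_ok'

theorem center_E6' [Fintype K] :
    Nat.card (Subgroup.center (chevE6.SteinbergGroup K)) = Nat.gcd 3 (Fintype.card K - 1) := by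
  have h1 := card_center_eq (K := K) hFE hPE Cfsg.Agent.Lib.RepE6.rep_ok
    (C := fun k => ⟨_, latE6_lt' k⟩) (W := fun i k => (Cfsg.Agent.Lib.RepE6.latW.getD i []).getD k 0) latE6_ok'
  rw [h1]
  have hq : 1 < Fintype.card K := Fintype.one_lt_card
  exact cancel_pos' (card_ker_mul (K := K) hFE) (Full.torus_card_E6 (F := K) hFE) (pow_pos (by omega) _)

/-- The subgroup generated by the twisted words. -/
noncomputable def G0 (K : Type u) [Field K] (q : ℕ) : Subgroup (chevE6.SteinbergGroup K) :=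
  Subgroup.closure {g | ∃ w ∈ e6Words K q, g = wb chevE6 K w}

lemma wb_mem {q : ℕ} {w : List (ℕ × K)} (hw : w ∈ e6Words K q) : wb chevE6 K w ∈ G0 K q :=
  Subgroup.subset_closure ⟨w, hw, rfl⟩

lemma word_lt {q : ℕ} {w : List (ℕ × K)} (hw : w ∈ e6Words K q) : ∀ p ∈ w, p.1 < chevE6.nroots := by
  rcases hw with ⟨t, _, r, hr, rfl⟩ | ⟨t, rs, hrs, rfl⟩
  · simp only [List.mem_cons, List.not_mem_nil, or_false] at hr
    rintro p hp
    simp only [List.mem_cons, List.not_mem_nil, or_false] at hp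
    subst hp
    rcases hr with rfl | rfl | rfl | rfl
    · exact (by decide : e6p2 < chevE6.nroots)
    · exact (by decide : e6m2 < chevE6.nroots)
    · exact (by decide : e6p4 < chevE6.nroots)
    · exact (by decide : e6m4 < chevE6.nroots)
  · simp only [List.mem_cons, List.not_mem_nil, or_false] at hrs
    rintro p hp
    simp only [List.mem_cons, List.not_mem_nil, or_false] at hp
    rcases hp with rfl | rfl <;> rcases hrs with rfl | rfl | rfl | rfl
    · exact (by decide : e6p1 < chevE6.nroots)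
    · exact (by decide : e6m1 < chevE6.nroots)
    · exact (by decide : e6p3 < chevE6.nroots)
    · exact (by decide : e6m3 < chevE6.nroots)
    · exact (by decide : e6p6 < chevE6.nroots)
    · exact (by decide : e6m6 < chevE6.nroots)
    · exact (by decide : e6p5 < chevE6.nroots)
    · exact (by decide : e6m5 < chevE6.nroots)

/-- The homomorphism to `²E₆(q)`. -/
noncomputable def sigma (K : Type u) [Field K] (q : ℕ) : G0 K q →* ↥(twistedE6 K q) :=
  ((theta (K := K) hFE).comp (G0 K q).subtype).codRestrict (twistedE6 K q) (by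
    rintro ⟨g, hg⟩
    show theta hFE g ∈ twistedE6 K q
    have h0 : G0 K q ≤ (twistedE6 K q).comap (theta hFE) := by
      unfold G0
      rw [Subgroup.closure_le]
      rintro _ ⟨w, hw, rfl⟩
      show theta hFE (wb chevE6 K w) ∈ twistedE6 K q
      rw [theta_wb hFE w (word_lt hw)]
      exact hFE.c.wordG_mem_gen hw
    exact h0 hg)

lemma sigma_coe {q : ℕ} (g : G0 K q) : ((sigma K q g : ↥(twistedE6 K q)) : GL chevE6.Idx K) = theta hFE g.1 := rfl

lemma sigma_surj (q : ℕ) : Function.Surjective (sigma K q) := by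
  rintro ⟨g, hg⟩
  have h1 : twistedE6 K q ≤ (G0 K q).map (theta hFE) := by
    unfold twistedE6
    apply hFE.c.gen_le
    intro w hw
    exact ⟨_, wb_mem hw, theta_wb hFE w (word_lt hw)⟩
  obtain ⟨x, hx, e⟩ := h1 hg
  exact ⟨⟨x, hx⟩, Subtype.ext e⟩

lemma sigma_ker_center {q : ℕ} : (sigma K q).ker ≤ Subgroup.center (G0 K q) := by
  intro x hx
  have h1 : theta hFE x.1 = 1 := congrArg Subtype.val hx
  have h2 := ker_le_center hFE hPE h1
  rw [Subgroup.mem_center_iff]
  intro g
  apply Subtype.ext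
  exact (Subgroup.mem_center_iff.1 h2) g.1

/-! ### Root elements with orthogonal roots commute -/

lemma comm_of_terms {r s : ℕ} (hr : r < chevE6.nroots) (hs : s < chevE6.nroots) (h1 : s ≠ r) (h2 : s ≠ chevE6.neg r)
    (h3 : chevE6.commTerms r s = []) (t u : K) : Commute (chevE6.stGen K r t) (chevE6.stGen K s u) := by
  have := yb_comm chevE6 hr hs h1 h2 t u
  have e : chevE6.commWord K r s t u = [] := by
    unfold ChevalleyDatum.commWord
    rw [h3]
    rfl
  rw [e, wb_nil, mul_one] at this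
  exact this.symm

lemma stGen_pow (r : ℕ) (t : K) (n : ℕ) : chevE6.stGen K r t ^ n = chevE6.stGen K r ((n : K) * t) := by
  induction n with
  | zero => simp
  | succ n ih =>
    rw [pow_succ, ih, yb_add]
    congr 1
    push_cast
    ring

/-- The four root elements attached to a pair of opposite classes. -/
structure Pr (r s : ℕ) : Prop where
  r_lt : r < chevE6.nroots
  s_lt : s < chevE6.nroots
  a : ∀ (t u : K), Commute (chevE6.stGen K r t) (chevE6.stGen K s u)
  b : ∀ (t u : K), Commute (chevE6.stGen K r t) (chevE6.stGen K (chevE6.neg s) u)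
  c : ∀ (t u : K), Commute (chevE6.stGen K (chevE6.neg r) t) (chevE6.stGen K s u)
  d : ∀ (t u : K), Commute (chevE6.stGen K (chevE6.neg r) t) (chevE6.stGen K (chevE6.neg s) u)

lemma pr1 : Pr (K := K) e6p1 e6p6 :=
  ⟨by decide, by decide, comm_of_terms (by decide) (by decide) (by decide) (by decide) (by decide),
    comm_of_terms (by decide) (by decide) (by decide) (by decide) (by decide),
    comm_of_terms (by decide) (by decide) (by decide) (by decide) (by decide),
    comm_of_terms (by decide) (by decide) (by decide) (by decide) (by decide)⟩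

lemma pr3 : Pr (K := K) e6p3 e6p5 :=
  ⟨by decide, by decide, comm_of_terms (by decide) (by decide) (by decide) (by decide) (by decide),
    comm_of_terms (by decide) (by decide) (by decide) (by decide) (by decide),
    comm_of_terms (by decide) (by decide) (by decide) (by decide) (by decide),
    comm_of_terms (by decide) (by decide) (by decide) (by decide) (by decide)⟩

lemma mix3 {G : Type*} [Group G] {a1 a2 a3 b1 b2 b3 : G} (h1 : Commute a2 b1) (h2 : Commute a3 b1) (h3 : Commute a3 b2) :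
    (a1 * b1) * (a2 * b2) * (a3 * b3) = (a1 * a2 * a3) * (b1 * b2 * b3) := by
  have e1 : a1 * b1 * (a2 * b2) * (a3 * b3) = a1 * (b1 * a2) * b2 * a3 * b3 := by group
  rw [e1, ← h1.eq]
  have e2 : a1 * (a2 * b1) * b2 * a3 * b3 = a1 * a2 * b1 * (b2 * a3) * b3 := by group
  rw [e2, ← h3.eq]
  have e3 : a1 * a2 * b1 * (a3 * b2) * b3 = a1 * a2 * (b1 * a3) * b2 * b3 := by group
  rw [e3, ← h2.eq]
  group

lemma nb_comm {r s : ℕ} (h : Pr (K := K) r s) (t u : K) : Commute (nb chevE6 K r t) (nb chevE6 K s u) := by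
  unfold nb
  have e1 := h.a
  have e2 := h.b
  have e3 := h.c
  have e4 := h.d
  refine Commute.mul_left (Commute.mul_left ?_ ?_) ?_ <;> refine Commute.mul_right (Commute.mul_right ?_ ?_) ?_ <;>
    first | exact e1 _ _ | exact e2 _ _ | exact e3 _ _ | exact e4 _ _

/-- The elements `h̄_r(t) h̄_s(t^q)` lie in the group generated by the twisted words. -/
lemma hb_pair_mem {q : ℕ} (f : K →+* K) (hf : ∀ t, f t = t ^ q) {r s : ℕ} (h : Pr (K := K) r s)
    (hX : ∀ t, [(r, t), (s, t ^ q)] ∈ e6Words K q) (hY : ∀ t, [(chevE6.neg r, t), (chevE6.neg s, t ^ q)] ∈ e6Words K q)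
    {t : K} (ht : t ≠ 0) : hb chevE6 K r t * hb chevE6 K s (t ^ q) ∈ G0 K q := by
  have key : ∀ x : K, x ≠ 0 → nb chevE6 K r x * nb chevE6 K s (x ^ q) ∈ G0 K q := by
    intro x _
    have e : nb chevE6 K r x * nb chevE6 K s (x ^ q) =
        wb chevE6 K [(r, x), (s, x ^ q)] * wb chevE6 K [(chevE6.neg r, -x⁻¹), (chevE6.neg s, (-x⁻¹) ^ q)] *
          wb chevE6 K [(r, x), (s, x ^ q)] := by
      have e0 : (-x⁻¹) ^ q = -(x ^ q)⁻¹ := by
        rw [← hf, ← hf, map_neg, map_inv₀]
      simp only [wb_cons, wb_nil, mul_one]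
      rw [e0]
      symm
      unfold nb
      exact mix3 (h.c _ _) (h.a _ _) (h.b _ _)
    rw [e]
    exact Subgroup.mul_mem _ (Subgroup.mul_mem _ (wb_mem (hX _)) (wb_mem (hY _))) (wb_mem (hX _))
  have e1 : (-1 : K) ^ q = -1 := by
    rw [← hf, map_neg, map_one]
  have e : hb chevE6 K r t * hb chevE6 K s (t ^ q) =
      (nb chevE6 K r t * nb chevE6 K s (t ^ q)) * (nb chevE6 K r (-1) * nb chevE6 K s ((-1) ^ q)) := by
    rw [e1]
    unfold hb
    have := (nb_comm h (-1 : K) (t ^ q)).eq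
    calc nb chevE6 K r t * nb chevE6 K r (-1) * (nb chevE6 K s (t ^ q) * nb chevE6 K s (-1))
        = nb chevE6 K r t * (nb chevE6 K r (-1) * nb chevE6 K s (t ^ q)) * nb chevE6 K s (-1) := by group
      _ = _ := by rw [this]; group
  rw [e]
  exact Subgroup.mul_mem _ (key t ht) (key _ (neg_ne_zero.mpr one_ne_zero))

/-! ### The central element -/

/-- Indices of the fundamental roots. -/
def i1 : Fin chevE6.rank := ⟨0, by decide⟩
/-- Indices of the fundamental roots. -/
def i3 : Fin chevE6.rank := ⟨2, by decide⟩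
/-- Indices of the fundamental roots. -/
def i5 : Fin chevE6.rank := ⟨4, by decide⟩
/-- Indices of the fundamental roots. -/
def i6 : Fin chevE6.rank := ⟨5, by decide⟩

/-- The parameters of the central element. -/
noncomputable def c0 (w : Kˣ) : Fin chevE6.rank → Kˣ :=
  Pi.mulSingle i1 w * Pi.mulSingle i6 (w ^ 2) * Pi.mulSingle i3 (w ^ 2) * Pi.mulSingle i5 w

lemma hbHom_c0 (w : Kˣ) : hbHom hFE hPE (c0 w) =
    (hb chevE6 K e6p1 w * hb chevE6 K e6p6 ((w ^ 2 : Kˣ) : K)) * (hb chevE6 K e6p3 ((w ^ 2 : Kˣ) : K) * hb chevE6 K e6p5 w) := by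
  unfold c0
  rw [map_mul, map_mul, map_mul, hbHom_mulSingle, hbHom_mulSingle, hbHom_mulSingle, hbHom_mulSingle]
  have h1 : chevE6.simple i1 = e6p1 := by decide
  have h3 : chevE6.simple i3 = e6p3 := by decide
  have h5 : chevE6.simple i5 = e6p5 := by decide
  have h6 : chevE6.simple i6 = e6p6 := by decide
  rw [h1, h3, h5, h6]
  group

lemma cartanMap_single (i : Fin chevE6.rank) (x : Kˣ) (j : ℕ) :
    cartanMap chevE6 (Pi.mulSingle i x) j = x ^ chevE6.cartan i (chevE6.simple j) := by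
  unfold cartanMap
  rw [Finset.prod_eq_single i]
  · rw [Pi.mulSingle_eq_same]
  · intro b _ hb
    rw [Pi.mulSingle_eq_of_ne hb, _root_.one_zpow]
  · intro h
    exact absurd (Finset.mem_univ _) h

theorem cartan_dvd : ∀ j : Fin 6, (3 : ℤ) ∣ chevE6.cartan i1 (chevE6.simple j) + 2 * chevE6.cartan i6 (chevE6.simple j) +
    2 * chevE6.cartan i3 (chevE6.simple j) + chevE6.cartan i5 (chevE6.simple j) := by decide +kernel

lemma cartan_c0 (w : Kˣ) (hw : w ^ 3 = 1) : ∀ j < chevE6.rank, cartanMap chevE6 (c0 w) j = 1 := by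
  intro j hj
  have hr : chevE6.rank = 6 := by decide
  obtain ⟨m, hm⟩ := cartan_dvd ⟨j, by omega⟩
  simp only at hm
  unfold c0
  rw [cartanMap_mul, cartanMap_mul, cartanMap_mul]
  simp only [Pi.mul_apply, cartanMap_single]
  have e : w ^ chevE6.cartan i1 (chevE6.simple j) * (w ^ 2) ^ chevE6.cartan i6 (chevE6.simple j) *
      (w ^ 2) ^ chevE6.cartan i3 (chevE6.simple j) * w ^ chevE6.cartan i5 (chevE6.simple j) =
      w ^ (chevE6.cartan i1 (chevE6.simple j) + 2 * chevE6.cartan i6 (chevE6.simple j) +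
        2 * chevE6.cartan i3 (chevE6.simple j) + chevE6.cartan i5 (chevE6.simple j)) := by
    rw [_root_.zpow_add, _root_.zpow_add, _root_.zpow_add, _root_.zpow_mul, _root_.zpow_mul]
    simp
  rw [e, hm, _root_.zpow_mul]
  have : w ^ (3 : ℤ) = 1 := by
    rw [show (3 : ℤ) = ((3 : ℕ) : ℤ) from rfl, zpow_natCast, hw]
  rw [this, _root_.one_zpow]

lemma neg_p1 : chevE6.neg e6p1 = e6m1 := by decide
lemma neg_p6 : chevE6.neg e6p6 = e6m6 := by decide
lemma neg_p3 : chevE6.neg e6p3 = e6m3 := by decide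
lemma neg_p5 : chevE6.neg e6p5 = e6m5 := by decide

/-- The central element lies in the group generated by the twisted words. -/
lemma z_mem {q : ℕ} (f : K →+* K) (hf : ∀ t, f t = t ^ q) (w : Kˣ) (hw : w ^ 3 = 1) (h3 : 3 ∣ q + 1) :
    hbHom hFE hPE (c0 w) ∈ G0 K q := by
  have hw0 : ((w : Kˣ) : K) ^ 3 = 1 := by
    rw [← Units.val_pow_eq_pow_val, hw, Units.val_one]
  obtain ⟨m, hm⟩ := h3
  have hpow : ((w : Kˣ) : K) ^ q = (w : K) ^ 2 := by
    have e : q + 1 = 3 * m := hm
    have hne : ((w : Kˣ) : K) ≠ 0 := w.ne_zero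
    have e1 : ((w : Kˣ) : K) ^ q * (w : K) = 1 := by
      rw [← pow_succ, e, pow_mul, hw0, one_pow]
    have e2 : (w : K) ^ 2 * (w : K) = 1 := by
      rw [← pow_succ]
      exact hw0
    exact mul_right_cancel₀ hne (e1.trans e2.symm)
  have h1 := hb_pair_mem f hf pr1 (fun t => Or.inr ⟨t, (e6p1, e6p6), by simp, rfl⟩)
    (fun t => by rw [neg_p1, neg_p6]; exact Or.inr ⟨t, (e6m1, e6m6), by simp, rfl⟩) (t := (w : K)) w.ne_zero
  have h2 := hb_pair_mem f hf pr3 (fun t => Or.inr ⟨t, (e6p3, e6p5), by simp, rfl⟩)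
    (fun t => by rw [neg_p3, neg_p5]; exact Or.inr ⟨t, (e6m3, e6m5), by simp, rfl⟩) (t := (((w ^ 2 : Kˣ) : K))) (Units.ne_zero _)
  have e1 : ((w ^ 2 : Kˣ) : K) = (w : K) ^ 2 := Units.val_pow_eq_pow_val _ _
  have e2 : (((w ^ 2 : Kˣ) : K)) ^ q = (w : K) := by
    rw [e1, ← pow_mul, mul_comm, pow_mul, hpow, ← pow_mul]
    show (w : K) ^ 4 = w
    rw [show 4 = 3 + 1 from rfl, pow_add, hw0, one_mul, pow_one]
  rw [hpow] at h1
  rw [e2] at h2
  rw [hbHom_c0, e1]
  rw [e1] at h2
  exact Subgroup.mul_mem _ h1 h2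

/-! ### Generators are `p`-elements -/

lemma gen_pow {q p : ℕ} [CharP K p] {w : List (ℕ × K)} (hw : w ∈ e6Words K q) : wb chevE6 K w ^ p = 1 := by
  have hp0 : ∀ (r : ℕ) (t : K), chevE6.stGen K r t ^ p = 1 := by
    intro r t
    rw [stGen_pow, CharP.cast_eq_zero, zero_mul, yb_zero]
  rcases hw with ⟨t, _, r, hr, rfl⟩ | ⟨t, rs, hrs, rfl⟩
  · simp only [wb_cons, wb_nil, mul_one]
    exact hp0 _ _
  · simp only [wb_cons, wb_nil, mul_one]
    have hc : Commute (chevE6.stGen K rs.1 t) (chevE6.stGen K rs.2 (t ^ q)) := by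
      simp only [List.mem_cons, List.not_mem_nil, or_false] at hrs
      rcases hrs with rfl | rfl | rfl | rfl
      · exact pr1.a _ _
      · have := pr1 (K := K).d t (t ^ q)
        rwa [neg_p1, neg_p6] at this
      · exact pr3.a _ _
      · have := pr3 (K := K).d t (t ^ q)
        rwa [neg_p3, neg_p5] at this
    rw [hc.mul_pow, hp0, hp0, one_mul]

lemma ab_pel {q p : ℕ} [CharP K p] (x : G0 K q) : ∃ a : ℕ, (Abelianization.of x) ^ p ^ a = 1 := by
  have h1 : ∀ y (hy : y ∈ G0 K q), ∃ a : ℕ, (Abelianization.of (⟨y, hy⟩ : G0 K q)) ^ p ^ a = 1 := by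
    intro y hy
    unfold G0 at hy
    induction hy using Subgroup.closure_induction with
    | mem y hy =>
      obtain ⟨w, hw, rfl⟩ := hy
      refine ⟨1, ?_⟩
      rw [← map_pow, pow_one]
      have : (⟨wb chevE6 K w, Subgroup.subset_closure ⟨w, hw, rfl⟩⟩ : G0 K q) ^ p = 1 := Subtype.ext (gen_pow hw)
      rw [this, map_one]
    | one =>
      refine ⟨0, ?_⟩
      have : (⟨1, Subgroup.one_mem _⟩ : G0 K q) = 1 := rfl
      rw [this, map_one, one_pow]
    | mul a b ha hb iha ihb =>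
      obtain ⟨m, hm⟩ := iha
      obtain ⟨k, hk⟩ := ihb
      refine ⟨m + k, ?_⟩
      have : (⟨a * b, Subgroup.mul_mem _ ha hb⟩ : G0 K q) = ⟨a, ha⟩ * ⟨b, hb⟩ := rfl
      rw [this, map_mul, mul_pow, pow_add, pow_mul, hm, one_pow, one_mul, mul_comm, pow_mul, hk, one_pow]
    | inv a ha iha =>
      obtain ⟨m, hm⟩ := iha
      refine ⟨m, ?_⟩
      have : (⟨a⁻¹, Subgroup.inv_mem _ ha⟩ : G0 K q) = (⟨a, ha⟩ : G0 K q)⁻¹ := rfl
      rw [this, map_inv, inv_pow, hm, inv_one]
  exact h1 x.1 x.2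

/-- The triple cover of `²E₆(q)`, `3 ∣ q + 1`. -/
theorem exists_stem [Fintype K] {q : ℕ} (hK : Fintype.card K = q ^ 2) (h3 : 3 ∣ q + 1) :
    ∃ (Γ : Type u) (_ : Group Γ) (_ : Finite Γ) (σ : Γ →* ↥(twistedE6 K q)), IsStemExtension σ ∧
      Nonempty (σ.ker ≃* Multiplicative (ZMod 3)) := by
  classical
  obtain ⟨p, k, hp, hchar, hqk⟩ := Cfsg.Agent.Lib.HermForm.exists_char_pow hK
  haveI := hchar
  haveI : Fact p.Prime := ⟨hp⟩
  haveI : Fact (Nat.Prime 3) := ⟨Nat.prime_three⟩
  have hp3 : p ≠ 3 := by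
    rintro rfl
    obtain ⟨m, hm⟩ := h3
    rcases k with _ | k
    · rw [hqk] at hm
      simp at hm
      omega
    · rw [hqk, pow_succ] at hm
      omega
  let f : K →+* K := iterateFrobenius K p k
  have hf : ∀ t, f t = t ^ q := by
    intro t
    rw [hqk]
    exact iterateFrobenius_def p k t
  have hq1 : 1 ≤ q := by
    rcases Nat.eq_zero_or_pos q with h | h
    · rw [h] at h3
      omega
    · exact h
  have h3c : 3 ∣ Fintype.card K - 1 := by
    rw [hK]
    obtain ⟨m, hm⟩ := h3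
    have e : q ^ 2 - 1 = (q - 1) * (q + 1) := by
      obtain ⟨n, rfl⟩ : ∃ n, q = n + 1 := ⟨q - 1, by omega⟩
      simp only [Nat.add_sub_cancel]
      have : (n + 1) ^ 2 = n * (n + 1 + 1) + 1 := by ring
      rw [this]
      simp
    rw [e, hm]
    exact Dvd.dvd.mul_left (Dvd.intro _ rfl) _
  have hcen : Nat.card (Subgroup.center (chevE6.SteinbergGroup K)) = 3 := by
    rw [center_E6', Nat.gcd_eq_left h3c]
  -- finiteness
  haveI hfin : Finite (chevE6.SteinbergGroup K) := by
    have h1 : Finite (thetaG (K := K) hFE).ker := by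
      rw [ker_eq_center hFE hPE]
      exact Nat.finite_of_card_ne_zero (by rw [hcen]; omega)
    have := Fintype.ofFinite (thetaG (K := K) hFE).ker
    have := Fintype.ofFinite ↥(chevE6.group K)
    letI := Group.fintypeOfKerOfCodom (g := thetaG (K := K) hFE)
    exact Finite.of_fintype _
  -- the element of order three
  have hcardU : 3 ∣ Nat.card Kˣ := by
    rw [Nat.card_eq_fintype_card, Fintype.card_units]
    exact h3c
  obtain ⟨w, hw⟩ := exists_prime_orderOf_dvd_card' 3 hcardU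
  have hw3 : w ^ 3 = 1 := by
    rw [← hw]
    exact pow_orderOf_eq_one w
  have hw1 : w ≠ 1 := by
    intro h
    rw [h, orderOf_one] at hw
    omega
  set z := hbHom hFE hPE (c0 w) with hz
  have hzG : z ∈ G0 K q := z_mem f hf w hw3 h3
  have hzc : z ∈ Subgroup.center (chevE6.SteinbergGroup K) :=
    (mem_center_iff_hbHom hFE hPE).2 ⟨c0 w, cartan_c0 w hw3, rfl⟩
  have hz1 : z ≠ 1 := by
    intro h
    have h2 : c0 w = 1 := hb_inj (by rw [← hz, h, map_one])
    have h4 := congrFun h2 i1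
    have h5 : c0 w i1 = w := by
      unfold c0
      simp only [Pi.mul_apply]
      rw [Pi.mulSingle_eq_same, Pi.mulSingle_eq_of_ne (by decide), Pi.mulSingle_eq_of_ne (by decide),
        Pi.mulSingle_eq_of_ne (by decide)]
      simp
    rw [h5] at h4
    exact hw1 h4
  -- the centre lies in G0
  have hcenG : ∀ y ∈ Subgroup.center (chevE6.SteinbergGroup K), y ∈ G0 K q := by
    intro y hy
    have hne : (⟨z, hzc⟩ : Subgroup.center (chevE6.SteinbergGroup K)) ≠ 1 := fun h => hz1 (congrArg Subtype.val h)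
    have h5 := mem_zpowers_of_prime_card hcen (g' := (⟨y, hy⟩ : Subgroup.center (chevE6.SteinbergGroup K))) hne
    obtain ⟨n, hn⟩ := h5
    have h6 : y = z ^ n := by
      have := congrArg Subtype.val hn
      simpa using this.symm
    rw [h6]
    exact Subgroup.zpow_mem _ hzG n
  -- the kernel
  have hker : Nat.card (sigma K q).ker = 3 := by
    rw [← hcen]
    let e : (sigma K q).ker → Subgroup.center (chevE6.SteinbergGroup K) := fun x =>
      ⟨x.1.1, ker_le_center hFE hPE (congrArg Subtype.val x.2)⟩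
    refine Nat.card_eq_of_bijective e ⟨?_, ?_⟩
    · intro a b h
      apply Subtype.ext
      apply Subtype.ext
      exact congrArg (fun u : Subgroup.center (chevE6.SteinbergGroup K) => u.1) h
    · rintro ⟨y, hy⟩
      have hy2 : theta hFE y = 1 := by
        have := (ker_eq_center hFE hPE (K := K)).symm ▸ hy
        rw [ker_thetaG] at this
        exact this
      exact ⟨⟨⟨y, hcenG y hy⟩, Subtype.ext hy2⟩, rfl⟩
  refine ⟨G0 K q, inferInstance, inferInstance, sigma K q, ⟨sigma_surj q, sigma_ker_center, ?_⟩, ?_⟩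
  · intro x hx
    obtain ⟨a, ha⟩ := ab_pel (p := p) x
    have hx3 : x ^ 3 = 1 := by
      have := pow_card_eq_one' (G := (sigma K q).ker) (x := ⟨x, hx⟩)
      rw [hker] at this
      exact congrArg Subtype.val this
    have h4 : (Abelianization.of x) ^ 3 = 1 := by rw [← map_pow, hx3, map_one]
    have h5 : Nat.Coprime (p ^ a) 3 := Nat.Coprime.pow_left _ ((Nat.coprime_primes hp Nat.prime_three).2 hp3)
    have h6 : Abelianization.of x = 1 := by
      have h7 := orderOf_dvd_of_pow_eq_one ha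
      have h8 := orderOf_dvd_of_pow_eq_one h4
      have h9 := Nat.dvd_gcd h7 h8
      rw [h5] at h9
      exact orderOf_eq_one_iff.1 (Nat.dvd_one.1 h9)
    rw [← Abelianization.ker_of]
    exact h6
  · obtain ⟨e⟩ := Cfsg.Agent.Lib.ChevStemN.iso_of_card hker (Or.inr Nat.prime_three)
    exact ⟨e.symm⟩

end Cfsg.Agent.Lib.TwE6Low8
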