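import Cfsg.Agent.Lib.TwE6D32
import Cfsg.Agent.Lib.TwTor32F
import Cfsg.Agent.Lib.Chev.OrdE6
import Cfsg.Agent.Lib.Chev.TorusCard

/-!
# The self-centralising cyclic subgroup of `E₆(q)`: the data over the big field
-/

set_option autoImplicit false
set_option linter.unusedSectionVars false
set_option linter.unusedVariables false
set_option linter.unusedSimpArgs false

namespace Cfsg.Agent.Lib.TwE6M32

open Cfsg Cfsg.Lie Cfsg.Agent.Lib.Chev Matrix Cfsg.Agent.Lib.ChevFix Cfsg.Agent.Lib.TwTor32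
open Cfsg.Agent.Lib.TwE6W32 Cfsg.Agent.Lib.StE632 Cfsg.Agent.Lib.TwE6D32 Cfsg.Agent.Lib.TwE6Tab32 Polynomial

noncomputable section

variable {K : Type*} [Field K]

theorem card_Wk : Nat.card ↥(hFE.Wk Set.univ) = 51840 := by
  classical
  have h := OrdE6.poin_univ hFE 1
  unfold Full.poin at h
  simp only [one_pow, Finset.sum_const, smul_eq_mul, mul_one] at h
  rw [Nat.card_eq_fintype_card, Fintype.card_subtype]
  convert h using 1

/-- The action of a word of simple reflections on the roots. -/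
def evw (L : List ℕ) (s : ℕ) : ℕ := L.foldr (fun j a => app (wB j) a) s

theorem rhoN_word (L : List ℕ) (hL : ∀ i ∈ L, i < 6) (s : Fin chevE6.nroots) :
    ((hFE.rhoN K ⟨hFE.wordN L, hFE.wordN_mem_monomial L hL⟩ s : Fin chevE6.nroots) : ℕ) = evw L s := by
  induction L with
  | nil =>
    have e : (⟨hFE.wordN [], hFE.wordN_mem_monomial [] hL⟩ : ↥(chevE6.monomialSubgroup K)) = 1 := by
      apply Subtype.ext
      rfl
    rw [e, map_one]
    rfl
  | cons j L ih =>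
    have hL' : ∀ i ∈ L, i < 6 := fun i hi => hL i (List.mem_cons_of_mem _ hi)
    have hj : j < chevE6.rank := hL j List.mem_cons_self
    have e : (⟨hFE.wordN (j :: L), hFE.wordN_mem_monomial (j :: L) hL⟩ : ↥(chevE6.monomialSubgroup K)) =
        hFE.nN hj * ⟨hFE.wordN L, hFE.wordN_mem_monomial L hL'⟩ := by
      apply Subtype.ext
      exact hFE.wordN_cons j L
    rw [e, map_mul, hFE.rhoN_nN, Equiv.Perm.mul_apply, hFE.wPerm_apply, ih hL']
    show _ = app (wB j) (evw L s)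
    rw [← ih hL', wB_spec (hL j List.mem_cons_self) (hFE.rhoN K ⟨hFE.wordN L, hFE.wordN_mem_monomial L hL'⟩ s).2]

theorem word0_ok : allBelow (fun i => Nat.beq (evw [0, 1, 2, 3, 4, 5] (chevE6.simple i)) (img (row 1) i)) 6 = true := by
  decide +kernel

theorem rep_word : Rep (hFE.rhoN K ⟨hFE.wordN [0, 1, 2, 3, 4, 5], hFE.wordN_mem_monomial _ (by decide)⟩) 1 := by
  intro i
  rw [rhoN_word [0, 1, 2, 3, 4, 5] (by decide)]
  exact Nat.eq_of_beq_eq_true (allBelow_spec _ _ word0_ok i i.2)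

theorem rep_unique {τ τ' : Equiv.Perm (Fin chevE6.nroots)} (hτ : τ ∈ hFE.Wk Set.univ) (hτ' : τ' ∈ hFE.Wk Set.univ)
    {idx : ℕ} (h : Rep τ idx) (h' : Rep τ' idx) : τ = τ' := by
  have e : mat hFE τ = mat hFE τ' := by
    ext m k
    show RootE6T.R.rcAt (τ (hFE.pF k)) m = RootE6T.R.rcAt (τ' (hFE.pF k)) m
    rw [h k, h' k]
  ext s
  have h1 : rcV RootE6T.R chevE6 (τ s) = rcV RootE6T.R chevE6 (τ' s) := by
    rw [mat_rc hFE hτ, mat_rc hFE hτ', e]
  exact congrArg (fun n : ℕ => n) (rcV_inj hFE (τ s).2 (τ' s).2 h1)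

/-- Small values do not occur. -/
theorem reg_z {r : ℕ} (hr : r.Prime) (hr2 : r ≠ 2) (hr3 : r ≠ 3) (hr5 : r ≠ 5) {q : ℤ} (hq : (r : ℤ) ∣ q ^ 4 - q ^ 2 + 1)
    {z : Kˣ} (hz : r ∣ orderOf z) {t : ℤ} (ht : ¬ (r : ℤ) ∣ t) {d : Fin chevE6.rank → Kˣ}
    (hd : ∀ s : Fin chevE6.nroots, chiT chevE6 d s = z ^ (t * EEv q (rcV RootE6T.R chevE6 s))) (x : Fin chevE6.nroots) :
    chiT chevE6 d x ^ 2 ≠ 1 ∧ chiT chevE6 d x ^ 3 ≠ 1 ∧ chiT chevE6 d x ^ 5 ≠ 1 := by
  have hrZ : Prime (r : ℤ) := Nat.prime_iff_prime_int.1 hr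
  have hz' : (r : ℤ) ∣ (orderOf z : ℤ) := by exact_mod_cast hz
  have hE : ¬ (r : ℤ) ∣ EEv q (rcV RootE6T.R chevE6 x) := by
    apply not_dvd_EE _ hq
    intro h
    have h1 : r ∣ 2 ^ 2 := by exact_mod_cast h
    have h2 := hr.dvd_of_dvd_pow h1
    exact hr2 ((Nat.prime_dvd_prime_iff_eq hr Nat.prime_two).1 h2)
  have key : ∀ p : ℕ, p.Prime → r ≠ p → chiT chevE6 d x ^ p ≠ 1 := by
    intro p hp hrp h1
    rw [hd, ← zpow_natCast, ← _root_.zpow_mul] at h1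
    have h2 := (orderOf_dvd_iff_zpow_eq_one).2 h1
    have h3 := hz'.trans h2
    rcases hrZ.dvd_or_dvd h3 with h4 | h4
    · rcases hrZ.dvd_or_dvd h4 with h5 | h5
      · exact ht h5
      · exact hE h5
    · have h5 : r ∣ p := by exact_mod_cast h4
      exact hrp ((Nat.prime_dvd_prime_iff_eq hr hp).1 h5)
  exact ⟨key 2 Nat.prime_two hr2, key 3 Nat.prime_three hr3, key 5 Nat.prime_five hr5⟩

/-- The twisted characters of a Coxeter element. -/
theorem tw_form {n : ↥(chevE6.monomialSubgroup K)} {q : ℕ} (hrep : Rep (hFE.rhoN K n) 1)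
    {c : Fin chevE6.rank → Kˣ} (htw : Tw hFE n q c) : ∀ v, Xc c (A₀ *ᵥ v) = Xc c v ^ q := by
  have h := Xc_twist hFE (hFE.rhoN_mem_Wk n) c q htw
  rw [mat_of_rep (by norm_num) hrep] at h
  exact h

theorem chi_eq_of_tw {n : ↥(chevE6.monomialSubgroup K)} {q : ℕ} (hrep : Rep (hFE.rhoN K n) 1)
    {c : Fin chevE6.rank → Kˣ} (htw : Tw hFE n q c) (s : Fin chevE6.nroots) :
    chiT chevE6 c s = Xc c (colV 0) ^ EEv q (rcV RootE6T.R chevE6 s) := by
  rw [← Xc_rc hFE c s.2, Xc_form c q (tw_form hrep htw)]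

theorem Xc_col0 (c : Fin chevE6.rank → Kˣ) : Xc c (colV 0) = chiT chevE6 c 8 := by
  rw [colV0_eq, Xc_rc hFE c (by decide)]

section Big

variable {F : Type*} [Field F] [Fintype F] [Fintype K]

/-- From an element of prime order of the small group to the twisting data. -/
theorem exists_data (f : F →+* K) (σ : K ≃+* K) (q : ℕ) (hfσ : ∀ b, σ (f b) = f b) (hq : ∀ x : K, σ x = x ^ q)
    {r : ℕ} [Fact r.Prime] (hr2 : r ≠ 2) (hr3 : r ≠ 3) (hr5 : r ≠ 5) (hqr : (r : ℤ) ∣ (q : ℤ) ^ 4 - (q : ℤ) ^ 2 + 1)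
    (hrq : ¬ r ∣ q) (hidx : ¬ r ∣ ((chevE6.diagonalSubgroup K).subgroupOf (chevE6.group K)).index)
    {s : GL chevE6.Idx F} (hs : s ∈ chevE6.group F) (hsr : orderOf s = r) :
    ∃ Y ∈ chevE6.group K, ∃ n : ↥(chevE6.monomialSubgroup K), ∃ τ ∈ chevE6.diagonalSubgroup K,
      glM chevE6 (σ : K →+* K) Y = Y * (n.1 * τ) ∧ Rep (hFE.rhoN K n) 1 := by
  classical
  have hrp : r.Prime := Fact.out
  set sg := glM chevE6 (σ : K →+* K) with hsg
  set x := glM chevE6 f s with hx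
  have hxG : x ∈ chevE6.group K := map_group_le chevE6 f ⟨s, hs, rfl⟩
  have hxr : x ^ r = 1 := by rw [hx, ← map_pow, ← hsr, pow_orderOf_eq_one, map_one]
  have hxne : x ≠ 1 := by
    intro h
    have h1 : s = 1 := glM_injective chevE6 f (by rw [map_one]; exact h)
    rw [h1, orderOf_one] at hsr
    exact hrp.one_lt.ne hsr
  have hxfix : sg x = x := Fix.fixed_of_mem σ f hfσ ⟨s, hs, rfl⟩
  obtain ⟨Y, hY, ht⟩ := exists_conj_torus hFE hidx hxG hxr
  obtain ⟨c, hc⟩ := (hFE.mem_diagonal_iff).1 ht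
  set t : GL chevE6.Idx K := tor RootE6T.R chevE6 c with htdef
  have htT : t ∈ chevE6.diagonalSubgroup K := (hFE.mem_diagonal_iff).2 ⟨c, rfl⟩
  have htx : Y * t * Y⁻¹ = x := by
    rw [← hc]
    group
  have hYs : sg Y ∈ chevE6.group K := map_group_le chevE6 (σ : K →+* K) ⟨Y, hY, rfl⟩
  have hst : sg t = tor RootE6T.R chevE6 (c ^ q) := sg_tor σ q hFE hq c
  have hstT : sg t ∈ chevE6.diagonalSubgroup K := by
    rw [hst]
    exact (hFE.mem_diagonal_iff).2 ⟨_, rfl⟩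
  have hz : Y⁻¹ * sg Y ∈ chevE6.group K := mul_mem (inv_mem hY) hYs
  have hconj : sg Y * sg t * (sg Y)⁻¹ = x := by
    have h1 := congrArg sg htx
    rw [hxfix, map_mul, map_mul, map_inv] at h1
    exact h1
  have key : (Y⁻¹ * sg Y) * sg t * (Y⁻¹ * sg Y)⁻¹ = t := by
    calc (Y⁻¹ * sg Y) * sg t * (Y⁻¹ * sg Y)⁻¹ = Y⁻¹ * (sg Y * sg t * (sg Y)⁻¹) * Y := by group
      _ = t := by rw [hconj, ← htx]; group
  obtain ⟨n₁, hn₁⟩ := exists_N_conj hFE hstT htT hz key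
  have htw : Tw hFE n₁ q c := by
    rw [tw_iff q hFE n₁ c, ← hst]
    exact hn₁
  have htr : t ^ r = 1 := by
    have e : t = Y⁻¹ * x * Y := hc.symm
    have e2 := conj_pow (a := Y⁻¹) (b := x) (i := r)
    rw [inv_inv] at e2
    rw [e, e2, hxr]
    group
  have htne : t ≠ 1 := by
    intro h
    apply hxne
    rw [← htx, h]
    group
  have htorpow : ∀ (d : Fin chevE6.rank → Kˣ) (k : ℕ), tor RootE6T.R chevE6 (d ^ k) = (tor RootE6T.R chevE6 d : GL chevE6.Idx K) ^ k :=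
    fun d k => map_pow (torHom RootE6T.R chevE6) d k
  have hchi1 : ∀ {d : Fin chevE6.rank → Kˣ}, (tor RootE6T.R chevE6 d : GL chevE6.Idx K) ^ r = 1 →
      ∀ s : Fin chevE6.nroots, chiT chevE6 d s ^ r = 1 := by
    intro d hd s
    have h1 : tor RootE6T.R chevE6 (d ^ r) = (tor RootE6T.R chevE6 (1 : Fin chevE6.rank → Kˣ) : GL chevE6.Idx K) := by
      rw [tor_one, htorpow, hd]
    have h2 := chi_eq_of_tor hFE h1 s
    rwa [chiT_pow, chiT_one''] at h2
  have hchir := hchi1 htr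
  have htorone : ∀ {d : Fin chevE6.rank → Kˣ}, (∀ s : Fin chevE6.nroots, chiT chevE6 d s = 1) →
      (tor RootE6T.R chevE6 d : GL chevE6.Idx K) = 1 := by
    intro d hd
    rw [tor_eq_of_chi hFE (c' := 1) (fun s => by rw [hd, chiT_one'']), tor_one]
  -- the element of the Weyl group has the eigenvalue
  set ρ := hFE.rhoN K n₁ with hρdef
  have hρ : ρ ∈ hFE.Wk Set.univ := hFE.rhoN_mem_Wk n₁
  have hcne : ∃ s : Fin chevE6.nroots, chiT chevE6 c s ≠ 1 := by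
    by_contra h0
    push Not at h0
    exact htne (htorone h0)
  have hrW : ¬ r ∣ orderOf ρ := by
    intro h1
    have h2 : orderOf (⟨ρ, hρ⟩ : ↥(hFE.Wk Set.univ)) = orderOf ρ := Subgroup.orderOf_mk _ _
    rw [← h2] at h1
    have h3 := h1.trans (orderOf_dvd_natCard _)
    rw [card_Wk] at h3
    have e : (51840 : ℕ) = 2 ^ 7 * 3 ^ 4 * 5 := by norm_num
    rw [e] at h3
    rcases (Nat.Prime.dvd_mul hrp).1 h3 with h | h
    · rcases (Nat.Prime.dvd_mul hrp).1 h with h | h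
      · exact hr2 ((Nat.prime_dvd_prime_iff_eq hrp Nat.prime_two).1 (hrp.dvd_of_dvd_pow h))
      · exact hr3 ((Nat.prime_dvd_prime_iff_eq hrp Nat.prime_three).1 (hrp.dvd_of_dvd_pow h))
    · exact hr5 ((Nat.prime_dvd_prime_iff_eq hrp Nat.prime_five).1 h)
  have hSing : Sing ρ := by
    set A := mat hFE ρ with hA
    set P : ℤ[X] := X ^ 4 - X ^ 2 + 1 with hP
    set k₀ : ℤ[X] := X ^ 8 + X ^ 6 - X ^ 2 - 1 with hk₀
    have hPk₀ : P * k₀ = X ^ 12 - 1 := by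
      rw [hP, hk₀]
      ring
    obtain ⟨w, hw⟩ : (X ^ 12 - 1 : ℤ[X]) ∣ X ^ (12 * orderOf ρ) - 1 := by
      rw [pow_mul]
      have := sub_dvd_pow_sub_pow (X ^ 12 : ℤ[X]) 1 (orderOf ρ)
      rwa [one_pow] at this
    set M := 12 * orderOf ρ with hM
    have hPk : P * (k₀ * w) = X ^ M - 1 := by
      rw [hw, ← hPk₀]
      ring
    have hAM : A ^ M = 1 := by
      rw [hA, ← mat_pow hFE hρ, hM, mul_comm, pow_mul, pow_orderOf_eq_one, one_pow, mat_one]
    have hprod : aeval A P * aeval A (k₀ * w) = 0 := by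
      rw [← map_mul, hPk]
      simp [hAM]
    obtain ⟨s₀, hs₀⟩ := hcne
    have htwX : ∀ v, Xc c (A *ᵥ v) = Xc c v ^ q := Xc_twist hFE hρ c q htw
    set v := rcV RootE6T.R chevE6 s₀ with hv
    set u := aeval A (k₀ * w) *ᵥ v with hu
    have hrZ : Prime (r : ℤ) := Nat.prime_iff_prime_int.1 hrp
    have hrM : ¬ (r : ℤ) ∣ (M : ℤ) := by
      intro h
      have h1 : r ∣ M := by exact_mod_cast h
      rw [hM] at h1
      rcases (Nat.Prime.dvd_mul hrp).1 h1 with h2 | h2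
      · have e : (12 : ℕ) = 2 ^ 2 * 3 := by norm_num
        rw [e] at h2
        rcases (Nat.Prime.dvd_mul hrp).1 h2 with h | h
        · exact hr2 ((Nat.prime_dvd_prime_iff_eq hrp Nat.prime_two).1 (hrp.dvd_of_dvd_pow h))
        · exact hr3 ((Nat.prime_dvd_prime_iff_eq hrp Nat.prime_three).1 h)
      · exact hrW h2
    have hrq' : ¬ (r : ℤ) ∣ (q : ℤ) := by
      intro h
      exact hrq (by exact_mod_cast h)
    have hPq : (r : ℤ) ∣ P.eval (q : ℤ) := by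
      rw [hP]
      simpa using hqr
    have hder := deriv_aux P (k₀ * w) M hPk (q : ℤ) (r : ℤ) hrZ hPq hrM hrq'
    have hXv : Xc c v = chiT chevE6 c s₀ := Xc_rc hFE c s₀.2
    have hord : orderOf (chiT chevE6 c s₀) = r := orderOf_eq_prime (hchir s₀) hs₀
    refine ⟨u, ?_, ?_⟩
    · intro h0
      have h1 := Xc_aeval c q htwX (k₀ * w) v
      rw [← hu, h0, Xc_zero, hXv] at h1
      have h2 := (orderOf_dvd_iff_zpow_eq_one).2 h1.symm
      rw [hord] at h2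
      exact hder.1 h2
    · have e : Phi A = aeval A P := by
        unfold Phi
        rw [hP]
        simp only [map_add, map_sub, map_pow, aeval_X, map_one]
        rw [show A ^ 4 = A * A * (A * A) by noncomm_ring, show A ^ 2 = A * A by noncomm_ring]
      rw [e, hu, Matrix.mulVec_mulVec, hprod, Matrix.zero_mulVec]
  obtain ⟨y, hy1, hy2⟩ := classify σ hρ hSing
  have hyG : y.1 ∈ chevE6.group K := hFE.c.monomial_le_group y.2
  let n' : ↥(chevE6.monomialSubgroup K) := y * n₁ * y⁻¹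
  have hn'v : n'.1 = y.1 * n₁.1 * y.1⁻¹ := rfl
  have hrep' : Rep (hFE.rhoN K n') 1 := by
    have e : hFE.rhoN K n' = hFE.rhoN K y * ρ * (hFE.rhoN K y)⁻¹ := by
      simp [n', map_mul, map_inv, hρdef]
    rw [e]
    exact hy2
  have hnormN : y.1 * t * y.1⁻¹ ∈ chevE6.diagonalSubgroup K := by
    have := hFE.diagonal_normal (F := K)
    have h3 := this.conj_mem ⟨t, hFE.c.diagonal_le_monomial htT⟩ (Subgroup.mem_subgroupOf.2 htT) y
    exact Subgroup.mem_subgroupOf.1 h3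
  obtain ⟨c', hc'0⟩ := (hFE.mem_diagonal_iff).1 hnormN
  have hc' : tor RootE6T.R chevE6 c' = y.1 * t * y.1⁻¹ := hc'0.symm
  set Y' := Y * y.1⁻¹ with hY'
  have hY'G : Y' ∈ chevE6.group K := mul_mem hY (inv_mem hyG)
  have hsY' : sg Y' = sg Y * y.1⁻¹ := by
    rw [hY', map_mul, map_inv, hy1]
  have hst' : tor RootE6T.R chevE6 (c' ^ q) = y.1 * sg t * y.1⁻¹ := by
    rw [← sg_tor σ q hFE hq c', hc', map_mul, map_mul, map_inv, hy1]
  have hn'c : n'.1 * tor RootE6T.R chevE6 (c' ^ q) * n'.1⁻¹ = tor RootE6T.R chevE6 c' := by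
    rw [hst', hc', hn'v]
    calc (y.1 * n₁.1 * y.1⁻¹) * (y.1 * sg t * y.1⁻¹) * (y.1 * n₁.1 * y.1⁻¹)⁻¹
        = y.1 * (n₁.1 * sg t * n₁.1⁻¹) * y.1⁻¹ := by group
      _ = _ := by rw [hn₁]
  have htw' : Tw hFE n' q c' := (tw_iff q hFE n' c').2 hn'c
  have htcr : (tor RootE6T.R chevE6 c' : GL chevE6.Idx K) ^ r = 1 := by
    rw [hc', conj_pow, htr]
    group
  set zz := Xc c' (colV 0) with hzz
  have hE := chi_eq_of_tw hrep' htw'
  have hzr : zz ^ r = 1 := by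
    rw [hzz, Xc_col0]
    exact hchi1 htcr ⟨8, by decide⟩
  have hzne : zz ≠ 1 := by
    intro h
    apply htne
    have h1 : (tor RootE6T.R chevE6 c' : GL chevE6.Idx K) = 1 := by
      apply htorone
      intro s
      rw [hE s, ← hzz, h, _root_.one_zpow]
    rw [hc'] at h1
    have e : t = y.1⁻¹ * (y.1 * t * y.1⁻¹) * y.1 := by group
    rw [e, h1]
    group
  have hordz : orderOf zz = r := orderOf_eq_prime hzr hzne
  have hrq'' : ¬ (r : ℤ) ∣ (q : ℤ) := by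
    intro h
    exact hrq (by exact_mod_cast h)
  have hreg := reg_z hrp hr2 hr3 hr5 hqr (z := zz) (by rw [hordz]) hrq'' (d := c' ^ q) (by
    intro s
    rw [chiT_pow, hE s, ← hzz, ← zpow_natCast, ← _root_.zpow_mul, mul_comm])
  have hstab := fun (g' : Equiv.Perm (Fin chevE6.nroots)) (hg' : g' ∈ hFE.Wk Set.univ) hfix => stab_one (c' ^ q) hreg hg' hfix
  obtain ⟨hreg1, hreg2⟩ := reg_of_stab (K := K) hFE (c' ^ q) hstab
  set u := n'.1⁻¹ * (Y'⁻¹ * sg Y') with hu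
  have huG : u ∈ chevE6.group K :=
    mul_mem (inv_mem (hFE.c.monomial_le_group n'.2)) (mul_mem (inv_mem hY'G)
      (map_group_le chevE6 (σ : K →+* K) ⟨Y', hY'G, rfl⟩))
  have e1 : Y'⁻¹ * sg Y' = y.1 * (Y⁻¹ * sg Y) * y.1⁻¹ := by
    rw [hsY', hY']
    group
  have hcomm : u * tor RootE6T.R chevE6 (c' ^ q) = tor RootE6T.R chevE6 (c' ^ q) * u := by
    have h3 : u * tor RootE6T.R chevE6 (c' ^ q) * u⁻¹ = tor RootE6T.R chevE6 (c' ^ q) := by
      rw [hu, e1]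
      calc n'.1⁻¹ * (y.1 * (Y⁻¹ * sg Y) * y.1⁻¹) * tor RootE6T.R chevE6 (c' ^ q) * (n'.1⁻¹ * (y.1 * (Y⁻¹ * sg Y) * y.1⁻¹))⁻¹
          = n'.1⁻¹ * (y.1 * ((Y⁻¹ * sg Y) * (y.1⁻¹ * tor RootE6T.R chevE6 (c' ^ q) * y.1) * (Y⁻¹ * sg Y)⁻¹) * y.1⁻¹) * n'.1 := by group
        _ = n'.1⁻¹ * (y.1 * ((Y⁻¹ * sg Y) * sg t * (Y⁻¹ * sg Y)⁻¹) * y.1⁻¹) * n'.1 := by
            rw [hst']
            congr 4
            group
        _ = n'.1⁻¹ * (y.1 * t * y.1⁻¹) * n'.1 := by rw [key]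
        _ = n'.1⁻¹ * (n'.1 * tor RootE6T.R chevE6 (c' ^ q) * n'.1⁻¹) * n'.1 := by rw [hn'c, hc']
        _ = _ := by group
    calc u * tor RootE6T.R chevE6 (c' ^ q) = (u * tor RootE6T.R chevE6 (c' ^ q) * u⁻¹) * u := by group
      _ = _ := by rw [h3]
  have hτ := Cfsg.Agent.Lib.ChevReg250.mem_diagonal_of_comm2 hFE (c' ^ q) hreg1 hreg2 huG hcomm
  refine ⟨Y', hY'G, n', u, hτ, ?_, hrep'⟩
  rw [hu]
  group

end Big

end

end Cfsg.Agent.Lib.TwE6M32
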