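import Cfsg.Agent.Lib.TwE6M32

/-!
# The self-centralising cyclic subgroup of `E₆(q)`
-/

set_option autoImplicit false
set_option linter.unusedSectionVars false
set_option linter.unusedVariables false
set_option linter.unusedSimpArgs false

namespace Cfsg.Agent.Lib.TwE6N32

open Cfsg Cfsg.Lie Cfsg.Agent.Lib.Chev Matrix Cfsg.Agent.Lib.ChevFix Cfsg.Agent.Lib.TwTor32
open Cfsg.Agent.Lib.TwE6W32 Cfsg.Agent.Lib.StE632 Cfsg.Agent.Lib.TwE6D32 Cfsg.Agent.Lib.TwE6Tab32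
open Cfsg.Agent.Lib.TwE6M32 Polynomial

noncomputable section

section Assembly

variable {T : Tabs} {X' : Extra} {R : RootTab} {D : ChevalleyDatum}
variable {F K : Type*} [Field F] [Field K] [Fintype F] [Fintype K]
variable (f : F →+* K) (σ : K ≃+* K) (q : ℕ)

local notation "sg" => glM D (σ : K →+* K)

/-- The twisted torus of the small group, when only a subgroup of it lies in the small group. -/
theorem assembly3 (hF : Full T X' R D) (hfσ : ∀ b, σ (f b) = f b) (hq : ∀ x : K, σ x = x ^ q)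
    {Y : GL D.Idx K} (hYG : Y ∈ D.group K) (n : ↥(D.monomialSubgroup K)) {τ : GL D.Idx K}
    (hτ : τ ∈ D.diagonalSubgroup K) (hY : sg Y = Y * (n.1 * τ))
    (c₀ : Fin D.rank → Kˣ) (e m : ℕ)
    (h1 : ∀ r, r < D.nroots → chiT D (c₀ ^ e) r ≠ 1)
    (h2 : ∀ n : ↥(D.monomialSubgroup K), (∀ s : Fin D.nroots, chiT D (c₀ ^ e) (hF.rhoN K n s) = chiT D (c₀ ^ e) s) →
      n.1 ∈ D.diagonalSubgroup K)
    (hall : ∀ c, Tw hF n q c → ∃ k : ℤ, tor R D c = (tor R D c₀ : GL D.Idx K) ^ k)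
    {s₀ : GL D.Idx F} (hs₀ : s₀ ∈ D.group F) (hι : glM D f s₀ = (Y * tor R D c₀ * Y⁻¹) ^ e)
    (hdiv : ∀ (k : ℤ) (g : GL D.Idx F), g ∈ D.group F → glM D f g = Y * (tor R D c₀) ^ k * Y⁻¹ → (e : ℤ) ∣ k)
    (hord : orderOf ((Y * tor R D c₀ * Y⁻¹) ^ e) = m) :
    ∃ H : Subgroup ↥(D.group F), IsCyclic ↥H ∧ Nat.card ↥H = m ∧
      Subgroup.centralizer (H : Set ↥(D.group F)) = H := by
  classical
  set t₀ : GL D.Idx K := tor R D c₀ with ht₀
  set A := Y * t₀ * Y⁻¹ with hA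
  have hinj := glM_injective D f
  have hords : orderOf s₀ = m := by
    rw [← hord, ← hι]
    exact (orderOf_injective (glM D f) hinj s₀).symm
  have hAe : A ^ e = Y * tor R D (c₀ ^ e) * Y⁻¹ := by
    have e1 : tor R D (c₀ ^ e) = t₀ ^ e := map_pow (torHom R D) c₀ e
    rw [e1, hA, conj_pow]
  refine ⟨Subgroup.zpowers ⟨s₀, hs₀⟩, inferInstance, ?_, ?_⟩
  · rw [Nat.card_zpowers, Subgroup.orderOf_mk, hords]
  · ext g
    constructor
    · intro hg
      have hcomm : g.1 * s₀ = s₀ * g.1 := by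
        have h3 := Subgroup.mem_centralizer_iff.1 hg ⟨s₀, hs₀⟩ (Subgroup.mem_zpowers _)
        exact (congrArg Subtype.val h3).symm
      set ι := glM D f with hιdef
      have hιg : ι g.1 ∈ D.group K := map_group_le D f ⟨g.1, g.2, rfl⟩
      set g' := Y⁻¹ * ι g.1 * Y with hg'
      have hg'G : g' ∈ D.group K := mul_mem (mul_mem (inv_mem hYG) hιg) hYG
      have hcomm2 : ι g.1 * A ^ e = A ^ e * ι g.1 := by
        rw [← hι, ← map_mul, ← map_mul, hcomm]
      have hg'c : g' * tor R D (c₀ ^ e) = tor R D (c₀ ^ e) * g' := by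
        have e1 : g' * tor R D (c₀ ^ e) = Y⁻¹ * (ι g.1 * A ^ e) * Y := by
          rw [hg', hAe]; group
        have e2 : tor R D (c₀ ^ e) * g' = Y⁻¹ * (A ^ e * ι g.1) * Y := by
          rw [hg', hAe]; group
        rw [e1, e2, hcomm2]
      have hdiag := Cfsg.Agent.Lib.ChevReg250.mem_diagonal_of_comm2 hF (c₀ ^ e) h1 h2 hg'G hg'c
      obtain ⟨c₁, hc₁⟩ := (hF.mem_diagonal_iff).1 hdiag
      have hι1 : ι g.1 = Y * tor R D c₁ * Y⁻¹ := by
        rw [← hc₁, hg']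
        group
      have hfix1 : sg (Y * tor R D c₁ * Y⁻¹) = Y * tor R D c₁ * Y⁻¹ := by
        rw [← hι1]
        exact Fix.fixed_of_mem σ f hfσ ⟨g.1, g.2, rfl⟩
      obtain ⟨k, hk⟩ := hall c₁ ((fix_iff σ q hF hq n hτ hY c₁).1 hfix1)
      have hι2 : ι g.1 = Y * t₀ ^ k * Y⁻¹ := by
        rw [hι1, hk]
      obtain ⟨l, rfl⟩ := hdiv k g.1 g.2 hι2
      refine Subgroup.mem_zpowers_iff.2 ⟨l, ?_⟩
      apply Subtype.ext
      apply hinj
      show ι ((⟨s₀, hs₀⟩ ^ l : ↥(D.group F)) : GL D.Idx F) = ι g.1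
      rw [Subgroup.coe_zpow, map_zpow]
      show (ι s₀) ^ l = ι g.1
      rw [hι, hι2, ← zpow_natCast, ← _root_.zpow_mul, hA, conj_zpow]
    · intro hg
      obtain ⟨k, rfl⟩ := Subgroup.mem_zpowers_iff.1 hg
      refine Subgroup.mem_centralizer_iff.2 ?_
      intro h hh
      obtain ⟨l, rfl⟩ := Subgroup.mem_zpowers_iff.1 hh
      exact zpow_mul_comm _ _ _

end Assembly

/-- The index of the torus is prime to primes dividing `Q - 1`, apart from `2`, `3`, `5`. -/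
theorem idx_not_dvd {K : Type*} [Field K] [Fintype K] {r : ℕ} (hr : r.Prime) (hr2 : r ≠ 2) (hr3 : r ≠ 3)
    (hr5 : r ≠ 5) (hQ : r ∣ Fintype.card K - 1) :
    ¬ r ∣ ((chevE6.diagonalSubgroup K).subgroupOf (chevE6.group K)).index := by
  classical
  have h1 := OrdE6.card_group (F := K) hFE
  have h2 := Full.torus_card_E6 (F := K) hFE
  have hle : chevE6.diagonalSubgroup K ≤ chevE6.group K :=
    fun x hx => hFE.c.monomial_le_group (hFE.c.diagonal_le_monomial hx)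
  have h3 : Nat.card ↥((chevE6.diagonalSubgroup K).subgroupOf (chevE6.group K)) =
      Nat.card ↥(chevE6.diagonalSubgroup K) :=
    Nat.card_congr (Subgroup.subgroupOfEquivOfLe hle).toEquiv
  have h4 := Subgroup.card_mul_index ((chevE6.diagonalSubgroup K).subgroupOf (chevE6.group K))
  rw [h3] at h4
  obtain ⟨u, hu⟩ : ∃ u, Fintype.card K = u + 1 := ⟨Fintype.card K - 1, (Nat.sub_add_cancel Fintype.card_pos).symm⟩
  have hu0 : 0 < u := by
    have := Fintype.one_lt_card (α := K)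
    omega
  rw [hu] at h1 h2 hQ
  simp only [Nat.add_sub_cancel] at h1 h2 hQ
  have S : ∀ d, (u + 1) ^ d - 1 = (∑ i ∈ Finset.range d, (u + 1) ^ i) * u := by
    intro d
    rw [← geom_sum_mul_add u d]
    simp
  set idx := ((chevE6.diagonalSubgroup K).subgroupOf (chevE6.group K)).index with hidx
  set g := Nat.gcd 3 u with hg
  have hg0 : 0 < g := Nat.gcd_pos_of_pos_left _ (by norm_num)
  rw [S, S, S, S, S, S] at h1
  have h6 : idx = (u + 1) ^ 36 * (∑ i ∈ Finset.range 2, (u + 1) ^ i) * (∑ i ∈ Finset.range 5, (u + 1) ^ i) *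
      (∑ i ∈ Finset.range 6, (u + 1) ^ i) * (∑ i ∈ Finset.range 8, (u + 1) ^ i) *
      (∑ i ∈ Finset.range 9, (u + 1) ^ i) * (∑ i ∈ Finset.range 12, (u + 1) ^ i) := by
    have h7 : 0 < u ^ chevE6.rank := pow_pos hu0 _
    apply Nat.eq_of_mul_eq_mul_left h7
    calc u ^ chevE6.rank * idx = g * Nat.card ↥(chevE6.diagonalSubgroup K) * idx := by rw [h2]
      _ = g * (Nat.card ↥(chevE6.diagonalSubgroup K) * idx) := by ring
      _ = g * Nat.card ↥(chevE6.group K) := by rw [h4]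
      _ = _ := by rw [h1]
      _ = _ := by
        show _ = u ^ 6 * _
        ring
  intro hd
  haveI := Fact.mk hr
  have hu0' : (u : ZMod r) = 0 := (ZMod.natCast_eq_zero_iff u r).2 hQ
  have h7 : (idx : ZMod r) = 0 := (ZMod.natCast_eq_zero_iff _ _).2 hd
  rw [h6] at h7
  push_cast at h7
  simp only [hu0', zero_add, one_pow, Finset.sum_const, Finset.card_range, nsmul_eq_mul, mul_one, one_mul] at h7
  have h8 : ((51840 : ℕ) : ZMod r) = 0 := by
    push_cast at h7 ⊢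
    rw [← h7]
    norm_num
  have h9 : r ∣ 2 ^ 7 * 3 ^ 4 * 5 := (ZMod.natCast_eq_zero_iff _ _).1 (by simpa using h8)
  rcases (Nat.Prime.dvd_mul hr).1 h9 with h | h
  · rcases (Nat.Prime.dvd_mul hr).1 h with h | h
    · exact hr2 ((Nat.prime_dvd_prime_iff_eq hr Nat.prime_two).1 (hr.dvd_of_dvd_pow h))
    · exact hr3 ((Nat.prime_dvd_prime_iff_eq hr Nat.prime_three).1 (hr.dvd_of_dvd_pow h))
  · exact hr5 ((Nat.prime_dvd_prime_iff_eq hr Nat.prime_five).1 h)

/-- The fixed field. -/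
theorem mem_range_of_fixed {F K : Type*} [Field F] [Fintype F] [Field K] [Fintype K] [Algebra F K] {x : K}
    (h : x ^ Fintype.card F = x) : ∃ y, algebraMap F K y = x := by
  classical
  set q := Fintype.card F with hq
  have hq2 : 1 < q := Fintype.one_lt_card
  have hne : (Polynomial.X ^ q - Polynomial.X : Polynomial K) ≠ 0 := FiniteField.X_pow_card_sub_X_ne_zero K hq2
  set R := (Polynomial.X ^ q - Polynomial.X : Polynomial K).roots.toFinset with hR
  have hRcard : R.card ≤ q := by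
    calc R.card ≤ Multiset.card (Polynomial.X ^ q - Polynomial.X : Polynomial K).roots := Multiset.toFinset_card_le _
      _ ≤ (Polynomial.X ^ q - Polynomial.X : Polynomial K).natDegree := Polynomial.card_roots' _
      _ = q := FiniteField.X_pow_card_sub_X_natDegree_eq K hq2
  have hmem : ∀ u : K, u ∈ R ↔ u ^ q = u := by
    intro u
    simp only [hR, Multiset.mem_toFinset, Polynomial.mem_roots hne, Polynomial.IsRoot.def, Polynomial.eval_sub,
      Polynomial.eval_pow, Polynomial.eval_X, sub_eq_zero]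
  have hsub : (Finset.univ.image (algebraMap F K)) ⊆ R := by
    intro u hu
    obtain ⟨y, -, rfl⟩ := Finset.mem_image.1 hu
    rw [hmem, ← map_pow, hq, FiniteField.pow_card]
  have hcard : (Finset.univ.image (algebraMap F K)).card = q := by
    rw [Finset.card_image_of_injective _ (algebraMap F K).injective, Finset.card_univ]
  have heq := Finset.eq_of_subset_of_card_le hsub (by rw [hcard]; exact hRcard)
  have hx : x ∈ R := (hmem x).2 h
  rw [← heq] at hx
  obtain ⟨y, -, rfl⟩ := Finset.mem_image.1 hx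
  exact ⟨y, rfl⟩

/-- In a cyclic group, elements of order dividing the order of a given element are powers of it. -/
theorem exists_zpow {G : Type*} [Group G] [Fintype G] [IsCyclic G] {z₀ z : G} {N : ℕ} (hN : 0 < N)
    (h : orderOf z₀ = N) (hz : z ^ N = 1) : ∃ k : ℤ, z = z₀ ^ k := by
  classical
  have hc := IsCyclic.card_pow_eq_one_le (α := G) hN
  have hsub : (Finset.univ.filter fun a : G => a ∈ Subgroup.zpowers z₀) ⊆ (Finset.univ.filter fun a : G => a ^ N = 1) := by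
    intro a ha
    rw [Finset.mem_filter] at ha ⊢
    refine ⟨ha.1, ?_⟩
    obtain ⟨k, rfl⟩ := Subgroup.mem_zpowers_iff.1 ha.2
    rw [← zpow_natCast, ← _root_.zpow_mul, mul_comm, _root_.zpow_mul, zpow_natCast, ← h, pow_orderOf_eq_one, _root_.one_zpow]
  have hcard : (Finset.univ.filter fun a : G => a ∈ Subgroup.zpowers z₀).card = N := by
    rw [← h, ← Nat.card_zpowers, Nat.card_eq_fintype_card, Fintype.card_subtype]
  have heq := Finset.eq_of_subset_of_card_le hsub (by rw [hcard]; exact hc)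
  have hmem : z ∈ (Finset.univ.filter fun a : G => a ^ N = 1) := by
    rw [Finset.mem_filter]
    exact ⟨Finset.mem_univ _, hz⟩
  rw [← heq, Finset.mem_filter] at hmem
  obtain ⟨k, hk⟩ := Subgroup.mem_zpowers_iff.1 hmem.2
  exact ⟨k, hk.symm⟩

theorem no_small {p : ℕ} (hdec : ∀ x : ZMod p, x ^ 4 - x ^ 2 + 1 ≠ 0) (q m : ℕ)
    (hm : (m : ℤ) = (q : ℤ) ^ 4 - (q : ℤ) ^ 2 + 1) : ¬ p ∣ m := by
  intro hd
  have h0 : (m : ZMod p) = 0 := (ZMod.natCast_eq_zero_iff _ _).2 hd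
  apply hdec (q : ZMod p)
  have h1 := congrArg (Int.cast : ℤ → ZMod p) hm
  push_cast at h1
  rw [← h1, h0]

/-- An element whose cube has order `N`. -/
theorem exists_cube_root {K : Type*} [Field K] [Fintype K] (q N : ℕ) (hq2 : 2 ≤ q) (hKq : Fintype.card K = q ^ 36)
    (hN : (N : ℤ) = Nq q) (hN0 : 0 < N) :
    ∃ z₁ : Kˣ, orderOf (z₁ ^ 3) = N := by
  classical
  obtain ⟨γ, hγ⟩ := IsCyclic.exists_generator (α := Kˣ)
  set Q₁ := q ^ 36 - 1 with hQ₁
  have hq36 : 1 ≤ q ^ 36 := Nat.one_le_pow _ _ (by omega)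
  have hordγ : orderOf γ = Q₁ := by
    rw [orderOf_eq_card_of_forall_mem_zpowers hγ, Nat.card_eq_fintype_card, Fintype.card_units, hKq]
  have hQ0 : 0 < Q₁ := by
    have : 2 ^ 36 ≤ q ^ 36 := Nat.pow_le_pow_left hq2 36
    omega
  have hgen : ∀ t : ℕ, t ∣ Q₁ → 0 < t → orderOf (γ ^ (Q₁ / t)) = t := by
    intro t ht ht0
    have h0 : Q₁ / t ≠ 0 := (Nat.div_pos (Nat.le_of_dvd hQ0 ht) ht0).ne'
    rw [orderOf_pow' γ h0, hordγ, Nat.gcd_eq_right (Nat.div_dvd_of_dvd ht), Nat.div_div_self ht hQ0.ne']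
  have hQcast : ((Q₁ : ℕ) : ℤ) = (q : ℤ) ^ 36 - 1 := by
    rw [hQ₁, Nat.cast_sub hq36]
    push_cast
    rfl
  have hNQ : (N : ℤ) ∣ (Q₁ : ℤ) := by
    rw [hN, hQcast]
    refine ⟨((q : ℤ) ^ 6 - (q : ℤ) ^ 5 + (q : ℤ) ^ 4 - (q : ℤ) ^ 2 + q - 1) * ((q : ℤ) ^ 24 + (q : ℤ) ^ 12 + 1), ?_⟩
    unfold Nq
    ring
  by_cases h3 : 3 ∣ q
  · -- no cube roots of unity
    have hNd : N ∣ Q₁ := by exact_mod_cast hNQ
    have hN3 : ¬ 3 ∣ N := by
      intro h
      obtain ⟨a, rfl⟩ := h3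
      have h1 : (3 : ℤ) ∣ (N : ℤ) := by exact_mod_cast h
      rw [hN] at h1
      have e : Nq ((3 * a : ℕ) : ℤ) = 1 + 3 * (((a : ℤ)) * (3 ^ 5 * a ^ 5 + 3 ^ 4 * a ^ 4 - 3 ^ 2 * a ^ 2 + 1)) := by
        unfold Nq
        push_cast
        ring
      rw [e] at h1
      have h2 : (3 : ℤ) ∣ 1 := (Int.dvd_add_left (Dvd.intro _ rfl)).1 h1
      omega
    refine ⟨γ ^ (Q₁ / N), ?_⟩
    rw [orderOf_pow' _ (by norm_num), hgen N hNd hN0]
    have : Nat.gcd N 3 = 1 := by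
      have := (Nat.Prime.coprime_iff_not_dvd Nat.prime_three).2 hN3
      rwa [Nat.Coprime, Nat.gcd_comm] at this
    rw [this, Nat.div_one]
  · -- the cube roots of unity are present
    have h3N : 3 * N ∣ Q₁ := by
      have h1 : (3 : ℤ) ∣ (q : ℤ) ^ 24 + (q : ℤ) ^ 12 + 1 := by
        have h2 : q % 3 = 1 ∨ q % 3 = 2 := by omega
        have h4 : ((q : ℤ) ^ 2) % 3 = 1 := by
          have h5 : (q : ℤ) % 3 = 1 ∨ (q : ℤ) % 3 = 2 := by omega
          rcases h5 with h5 | h5 <;> simp [pow_two, Int.mul_emod, h5]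
        have h6 : ∃ a : ℤ, (q : ℤ) ^ 2 = 3 * a + 1 := ⟨((q : ℤ) ^ 2) / 3, by omega⟩
        obtain ⟨a, ha⟩ := h6
        have e1 : (q : ℤ) ^ 24 = ((q : ℤ) ^ 2) ^ 12 := by ring
        have e2 : (q : ℤ) ^ 12 = ((q : ℤ) ^ 2) ^ 6 := by ring
        rw [e1, e2, ha]
        have h7 : (3 : ℤ) ∣ (3 * a + 1) ^ 12 - 1 := by
          have := sub_dvd_pow_sub_pow (3 * a + 1) 1 12
          rw [one_pow] at this
          exact (by simp : (3 : ℤ) ∣ 3 * a + 1 - 1).trans this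
        have h8 : (3 : ℤ) ∣ (3 * a + 1) ^ 6 - 1 := by
          have := sub_dvd_pow_sub_pow (3 * a + 1) 1 6
          rw [one_pow] at this
          exact (by simp : (3 : ℤ) ∣ 3 * a + 1 - 1).trans this
        have e3 : (3 * a + 1) ^ 12 + (3 * a + 1) ^ 6 + 1 = ((3 * a + 1) ^ 12 - 1) + ((3 * a + 1) ^ 6 - 1) + 3 := by ring
        rw [e3]
        exact dvd_add (dvd_add h7 h8) (dvd_refl 3)
      have h2 : (3 * N : ℤ) ∣ (Q₁ : ℤ) := by
        obtain ⟨a, ha⟩ := h1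
        rw [hN, hQcast]
        refine ⟨((q : ℤ) ^ 6 - (q : ℤ) ^ 5 + (q : ℤ) ^ 4 - (q : ℤ) ^ 2 + q - 1) * a, ?_⟩
        have e : (q : ℤ) ^ 36 - 1 = Nq q * ((q : ℤ) ^ 6 - (q : ℤ) ^ 5 + (q : ℤ) ^ 4 - (q : ℤ) ^ 2 + q - 1) * ((q : ℤ) ^ 24 + (q : ℤ) ^ 12 + 1) := by
          unfold Nq
          ring
        rw [e, ha]
        ring
      exact_mod_cast h2
    refine ⟨γ ^ (Q₁ / (3 * N)), ?_⟩
    rw [orderOf_pow' _ (by norm_num), hgen (3 * N) h3N (by omega), Nat.gcd_eq_right (Nat.dvd_mul_right 3 N),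
      Nat.mul_div_cancel_left _ (by norm_num)]

end

end Cfsg.Agent.Lib.TwE6N32
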