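import Cfsg.Agent.Lib.TwE6N32

/-!
# The self-centralising cyclic subgroup of `E₆(q)`: the theorem
-/

set_option autoImplicit false
set_option linter.unusedSectionVars false
set_option linter.unusedVariables false
set_option linter.unusedSimpArgs false

namespace Cfsg.Agent.Lib.TwE6P32

open Cfsg Cfsg.Lie Cfsg.Agent.Lib.Chev Matrix Cfsg.Agent.Lib.ChevFix Cfsg.Agent.Lib.TwTor32
open Cfsg.Agent.Lib.TwE6W32 Cfsg.Agent.Lib.StE632 Cfsg.Agent.Lib.TwE6D32 Cfsg.Agent.Lib.TwE6Tab32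
open Cfsg.Agent.Lib.TwE6M32 Cfsg.Agent.Lib.TwE6N32 Polynomial

/-- **The main theorem**, given the extension of degree thirty-six. -/
theorem core {F K : Type*} [Field F] [Fintype F] [Field K] [Fintype K] [Algebra F K] (q : ℕ)
    (hFq : Fintype.card F = q) (hKq : Fintype.card K = q ^ 36) :
    ∃ H : Subgroup ↥(chevE6.group F), IsCyclic ↥H ∧
      Nat.card ↥H = (q ^ 4 - q ^ 2 + 1) * (q ^ 2 + q + 1) / Nat.gcd 3 (q - 1) ∧
      Subgroup.centralizer (H : Set ↥(chevE6.group F)) = H := by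
  classical
  have hq2 : 2 ≤ q := by
    have := Fintype.one_lt_card (α := F)
    omega
  -- the numbers
  have hq24 : q ^ 2 < q ^ 4 := Nat.pow_lt_pow_right (by omega) (by omega)
  set M := q ^ 4 - q ^ 2 + 1 with hMdef
  have hM : (M : ℤ) = (q : ℤ) ^ 4 - (q : ℤ) ^ 2 + 1 := by
    rw [hMdef, Nat.cast_add, Nat.cast_sub hq24.le]
    push_cast
    ring
  set M₃ := q ^ 2 + q + 1 with hM₃
  set N := M * M₃ with hNdef
  have hN : (N : ℤ) = Nq q := by
    rw [hNdef, Nat.cast_mul, hM, hM₃]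
    push_cast
    unfold Nq
    ring
  have hM1 : M ≠ 1 := by omega
  have hM0 : 0 < M := by omega
  have hM₃0 : 0 < M₃ := by omega
  have hN0 : 0 < N := Nat.mul_pos hM0 hM₃0
  obtain ⟨r, hr, hrM⟩ := Nat.exists_prime_and_dvd hM1
  haveI : Fact r.Prime := ⟨hr⟩
  have hr2 : r ≠ 2 := by
    rintro rfl
    exact no_small (by decide) q M hM hrM
  have hr3 : r ≠ 3 := by
    rintro rfl
    exact no_small (by decide) q M hM hrM
  have hr5 : r ≠ 5 := by
    rintro rfl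
    exact no_small (by decide) q M hM hrM
  have hrZ : (r : ℤ) ∣ (M : ℤ) := by exact_mod_cast hrM
  have hqr : (r : ℤ) ∣ (q : ℤ) ^ 4 - (q : ℤ) ^ 2 + 1 := by
    rw [← hM]
    exact hrZ
  have hrq : ¬ r ∣ q := by
    intro h
    have h1 : (r : ℤ) ∣ (q : ℤ) := by exact_mod_cast h
    have h6 : (r : ℤ) ∣ 1 := by
      have e : (1 : ℤ) = ((q : ℤ) ^ 4 - (q : ℤ) ^ 2 + 1) - (q : ℤ) * ((q : ℤ) ^ 3 - (q : ℤ)) := by ring
      rw [e]
      exact dvd_sub hqr (h1.mul_right _)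
    have h8 : r ∣ 1 := by exact_mod_cast h6
    exact hr.one_lt.ne' (Nat.dvd_one.1 h8)
  -- the field
  have hrK : r ∣ Fintype.card K - 1 := by
    rw [hKq]
    have h36 : 1 ≤ q ^ 36 := Nat.one_le_pow _ _ (by omega)
    have h2 : (r : ℤ) ∣ ((q ^ 36 - 1 : ℕ) : ℤ) := by
      rw [Nat.cast_sub h36]
      push_cast
      have e : (q : ℤ) ^ 36 - 1 = ((q : ℤ) ^ 4 - (q : ℤ) ^ 2 + 1) *
          (((q : ℤ) ^ 2 + 1) * ((q : ℤ) ^ 6 - 1) * ((q : ℤ) ^ 24 + (q : ℤ) ^ 12 + 1)) := by ring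
      rw [e]
      exact hqr.mul_right _
    exact_mod_cast h2
  have hrG : r ∣ Nat.card ↥(chevE6.group F) := by
    have h1 := OrdE6.card_group (F := F) hFE
    rw [hFq] at h1
    have h12 : 1 ≤ q ^ 12 := Nat.one_le_pow _ _ (by omega)
    have h2 : r ∣ q ^ 12 - 1 := by
      have h3 : (r : ℤ) ∣ ((q ^ 12 - 1 : ℕ) : ℤ) := by
        rw [Nat.cast_sub h12]
        push_cast
        have e : (q : ℤ) ^ 12 - 1 = ((q : ℤ) ^ 4 - (q : ℤ) ^ 2 + 1) * (((q : ℤ) ^ 2 + 1) * ((q : ℤ) ^ 6 - 1)) := by ring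
        rw [e]
        exact hqr.mul_right _
      exact_mod_cast h3
    have h3 : r ∣ Nat.gcd 3 (q - 1) * Nat.card ↥(chevE6.group F) := by
      rw [h1]
      exact Dvd.dvd.mul_left h2 _
    rcases (Nat.Prime.dvd_mul hr).1 h3 with h4 | h4
    · have h5 : r ∣ 3 := h4.trans (Nat.gcd_dvd_left _ _)
      exact absurd ((Nat.prime_dvd_prime_iff_eq hr Nat.prime_three).1 h5) hr3
    · exact h4
  -- the Frobenius map
  let σ : K ≃+* K := RingEquiv.ofBijective (FiniteField.frobeniusAlgHom F K : K →ₐ[F] K).toRingHom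
    (Finite.injective_iff_bijective.1 (RingHom.injective _))
  have hσ : ∀ x : K, σ x = x ^ q := by
    intro x
    show x ^ Fintype.card F = x ^ q
    rw [hFq]
  let f : F →+* K := algebraMap F K
  have hfσ : ∀ b, σ (f b) = f b := by
    intro b
    rw [hσ, ← map_pow, ← hFq, FiniteField.pow_card]
  have hf : ∀ a : K, σ a = a → ∃ b, f b = a := by
    intro a ha
    rw [hσ, ← hFq] at ha
    exact mem_range_of_fixed ha
  -- the data
  obtain ⟨s, hs⟩ := exists_prime_orderOf_dvd_card' r hrG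
  have hsr : orderOf s.1 = r := by
    rw [Subgroup.orderOf_coe]
    exact hs
  have hidx := idx_not_dvd (K := K) hr hr2 hr3 hr5 hrK
  obtain ⟨Y, hY, n, τ, hτ, hYs, hrep⟩ := exists_data f σ q hfσ hσ hr2 hr3 hr5 hqr hrq hidx s.2 hsr
  set ρ := hFE.rhoN K n with hρdef
  have hρ : ρ ∈ hFE.Wk Set.univ := hFE.rhoN_mem_Wk n
  have hmat : mat hFE ρ = A₀ := mat_of_rep (by norm_num) hrep
  -- the generator
  obtain ⟨z₁, hz₁⟩ := exists_cube_root (K := K) q N hq2 hKq hN hN0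
  set z₀ := z₁ ^ 3 with hz₀
  set c₀ := cZ (K := K) (q : ℤ) z₁ with hc₀
  have hX₀ : ∀ v, Xc c₀ v = z₀ ^ EEv q v := Xc_cZ (q : ℤ) z₁
  have hchi₀ : ∀ s : Fin chevE6.nroots, chiT chevE6 c₀ s = z₀ ^ EEv q (rcV RootE6T.R chevE6 s) := by
    intro s
    rw [← Xc_rc hFE c₀ s.2, hX₀]
  have hzN : z₀ ^ Nq (q : ℤ) = 1 := by
    rw [← hN, zpow_natCast, ← hz₁]
    exact pow_orderOf_eq_one z₀
  have htw₀ : Tw hFE n q c₀ := by
    intro s
    show chiT chevE6 c₀ (ρ s) = _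
    rw [hchi₀ (ρ s), hchi₀ s, mat_rc hFE hρ, hmat, EE_A, sub_eq_add_neg, _root_.zpow_add, ← mul_neg,
      _root_.zpow_mul z₀ (Nq (q : ℤ)), hzN, _root_.one_zpow, mul_one, mul_comm, _root_.zpow_mul, zpow_natCast]
  have he₀ : chiT chevE6 c₀ 8 = z₀ := by
    rw [← Xc_col0, hX₀, EEv_col0, zpow_one]
  have htorpow : ∀ (d : Fin chevE6.rank → Kˣ) (k : ℕ), tor RootE6T.R chevE6 (d ^ k) = (tor RootE6T.R chevE6 d : GL chevE6.Idx K) ^ k :=
    fun d k => map_pow (torHom RootE6T.R chevE6) d k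
  have htorzpow : ∀ (d : Fin chevE6.rank → Kˣ) (k : ℤ), tor RootE6T.R chevE6 (d ^ k) = (tor RootE6T.R chevE6 d : GL chevE6.Idx K) ^ k :=
    fun d k => map_zpow (torHom RootE6T.R chevE6) d k
  -- all twisted elements are powers
  have hall : ∀ c, Tw hFE n q c → ∃ k : ℤ, tor RootE6T.R chevE6 c = (tor RootE6T.R chevE6 c₀ : GL chevE6.Idx K) ^ k := by
    intro c htwc
    have hXtw := tw_form hrep htwc
    have h1 : Xc c (colV 0) ^ N = 1 := by
      rw [← zpow_natCast, hN]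
      exact z_pow_N c q hXtw
    obtain ⟨k, hk⟩ := exists_zpow hN0 hz₁ h1
    refine ⟨k, ?_⟩
    rw [← htorzpow]
    apply tor_eq_of_chi hFE
    intro s
    rw [chi_eq_of_tw hrep htwc s, chiT_zpow', hchi₀ s, hk, ← _root_.zpow_mul, ← _root_.zpow_mul, mul_comm]
  -- the orders
  have hordt : orderOf (tor RootE6T.R chevE6 c₀ : GL chevE6.Idx K) = N := by
    rw [← hz₁]
    apply orderOf_eq_orderOf_iff.2
    intro k₂
    constructor
    · intro h1
      rw [← htorpow] at h1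
      have h2 : tor RootE6T.R chevE6 (c₀ ^ k₂) = (tor RootE6T.R chevE6 (1 : Fin chevE6.rank → Kˣ) : GL chevE6.Idx K) := by
        rw [tor_one, h1]
      have h3 := chi_eq_of_tor hFE h2 ⟨8, by decide⟩
      rw [chiT_pow, chiT_one''] at h3
      rw [← he₀]
      exact h3
    · intro h1
      rw [← htorpow, ← tor_one (R := RootE6T.R) (D := chevE6)]
      apply tor_eq_of_chi hFE
      intro s
      rw [chiT_pow, chiT_one'', hchi₀, ← zpow_natCast, ← _root_.zpow_mul, mul_comm, _root_.zpow_mul, zpow_natCast, h1,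
        _root_.one_zpow]
  set t₀ : GL chevE6.Idx K := tor RootE6T.R chevE6 c₀ with ht₀
  set y₀ : GL chevE6.Idx K := Y * t₀ * Y⁻¹ with hy₀
  have hordy : orderOf y₀ = N := by
    rw [← hordt]
    exact orderOf_injective (MulAut.conj Y).toMonoidHom (MulAut.conj Y).injective _
  have hfix : glM chevE6 (σ : K →+* K) y₀ = y₀ := (fix_iff σ q hFE hσ n hτ hYs c₀).2 htw₀
  have ht₀G : t₀ ∈ chevE6.group K :=
    hFE.c.monomial_le_group (hFE.c.diagonal_le_monomial ((hFE.mem_diagonal_iff).2 ⟨c₀, rfl⟩))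
  have hy₀G : y₀ ∈ chevE6.group K := mul_mem (mul_mem hY ht₀G) (inv_mem hY)
  have hy3 : y₀ ^ 3 ∈ Cfsg.Agent.Lib.ChevFix.G0 chevE6 f := TwFix32.pow_mem_of_fixed hFE σ f hf hfσ 3 adjB adjB_spec2 ⟨y₀, hy₀G⟩ hfix
  -- the index
  set e := Nat.gcd 3 (q - 1) with he
  have hcases : (q % 3 = 1 ∧ e = 3) ∨ (q % 3 ≠ 1 ∧ e = 1) := by
    by_cases hq3 : q % 3 = 1
    · left
      refine ⟨hq3, ?_⟩
      rw [he]
      exact Nat.gcd_eq_left (by omega)
    · right
      refine ⟨hq3, ?_⟩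
      rw [he]
      have h1 : ¬ 3 ∣ q - 1 := by omega
      exact (Nat.Prime.coprime_iff_not_dvd Nat.prime_three).2 h1
  have he0 : e ≠ 0 := by
    rcases hcases with ⟨-, h⟩ | ⟨-, h⟩ <;> omega
  have heN : e ∣ N := by
    rcases hcases with ⟨h3, h⟩ | ⟨-, h⟩
    · rw [h]
      apply Dvd.dvd.mul_left
      rw [hM₃]
      have h4 : (q ^ 2 + q + 1) % 3 = 0 := by
        simp [Nat.add_mod, Nat.pow_mod, h3]
      exact Nat.dvd_of_mod_eq_zero h4
    · rw [h]
      exact one_dvd _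
  have hordye : orderOf (y₀ ^ e) = N / e := by
    rw [orderOf_pow' _ he0, hordy, Nat.gcd_eq_right heN]
  -- the element of the small group
  have hy : y₀ ^ e ∈ Cfsg.Agent.Lib.ChevFix.G0 chevE6 f := by
    rcases hcases with ⟨-, h⟩ | ⟨h3, h⟩
    · rw [h]
      exact hy3
    · rw [h, pow_one]
      have hNm : (N : ZMod 3) = 1 := by
        have h1 : ∀ x : ZMod 3, x ≠ 1 → x ^ 6 + x ^ 5 - x ^ 3 + x + 1 = 1 := by decide
        have h2 : (q : ZMod 3) ≠ 1 := by
          intro h4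
          have h5 : ((q : ℕ) : ZMod 3) = ((1 : ℕ) : ZMod 3) := by simpa using h4
          have h6 := (ZMod.natCast_eq_natCast_iff' q 1 3).1 h5
          exact h3 h6
        have h4 := congrArg (Int.cast : ℤ → ZMod 3) hN
        unfold Nq at h4
        push_cast at h4
        rw [h4]
        exact h1 _ h2
      have hNmod : N % 3 = 1 := by
        have h5 : ((N : ℕ) : ZMod 3) = ((1 : ℕ) : ZMod 3) := by simpa using hNm
        exact (ZMod.natCast_eq_natCast_iff' N 1 3).1 h5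
      have hcop : Nat.Coprime 3 N := by
        refine (Nat.Prime.coprime_iff_not_dvd Nat.prime_three).2 ?_
        omega
      have hN1 : 1 < N := by
        have : 1 < M := by omega
        have : 1 ≤ M₃ := by omega
        rw [hNdef]
        nlinarith
      obtain ⟨m, -, hm⟩ := Nat.exists_mul_mod_eq_one_of_coprime hcop hN1
      have e1 : y₀ = (y₀ ^ 3) ^ m := by
        rw [← pow_mul, ← pow_mod_orderOf, hordy, hm, pow_one]
      rw [e1]
      exact pow_mem hy3 m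
  obtain ⟨s₀, hs₀, hι⟩ := hy
  -- regularity
  have hrNz : r ∣ orderOf z₀ := by
    rw [hz₁, hNdef]
    exact Dvd.dvd.mul_right hrM _
  have hre : ¬ (r : ℤ) ∣ (e : ℤ) := by
    intro h
    have h1 : r ∣ e := by exact_mod_cast h
    have h5 : r ∣ 3 := h1.trans (Nat.gcd_dvd_left _ _)
    exact hr3 ((Nat.prime_dvd_prime_iff_eq hr Nat.prime_three).1 h5)
  have hreg := reg_z hr hr2 hr3 hr5 hqr (z := z₀) hrNz hre (d := c₀ ^ e) (by
    intro s
    rw [chiT_pow, hchi₀ s, ← zpow_natCast, ← _root_.zpow_mul, mul_comm])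
  have hstab := fun (g' : Equiv.Perm (Fin chevE6.nroots)) (hg' : g' ∈ hFE.Wk Set.univ) hfix' => stab_one (c₀ ^ e) hreg hg' hfix'
  obtain ⟨h1, h2⟩ := reg_of_stab (K := K) hFE (c₀ ^ e) hstab
  -- the divisibility
  have hdiv : ∀ (k : ℤ) (g : GL chevE6.Idx F), g ∈ chevE6.group F →
      glM chevE6 f g = Y * t₀ ^ k * Y⁻¹ → (e : ℤ) ∣ k := by
    intro k g hg hgY
    rcases hcases with ⟨hq3, h⟩ | ⟨-, h⟩
    · rw [h]
      obtain ⟨d, hd⟩ : ∃ d, q = 3 * d + 1 := ⟨q / 3, by omega⟩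
      set c := c₀ ^ k with hc
      have hgY' : glM chevE6 f g = Y * tor RootE6T.R chevE6 c * Y⁻¹ := by
        rw [hc, htorzpow, hgY]
      have hn : hFE.rhoN K n = hFE.rhoN K ⟨hFE.wordN [0, 1, 2, 3, 4, 5], hFE.wordN_mem_monomial _ (by decide)⟩ :=
        rep_unique (hFE.rhoN_mem_Wk n) (hFE.rhoN_mem_Wk _) hrep rep_word
      have hstar : Dc c 0 = Dc c 7 ^ q := star σ q hq3 hσ f hfσ hY n hτ hYs [0, 1, 2, 3, 4, 5] (by decide) hn c hg hgY'
        (μ₁ := 7) (μ₂ := 0) (by norm_num) (by norm_num) (by decide +kernel)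
      have htwc : Tw hFE n q c := Tw.zpow_tw htw₀ k
      have hinv := inv_rel c q d hd (tw_form hrep htwc) hstar
      rw [Xc_col0, hc, chiT_zpow', he₀, ← _root_.zpow_mul] at hinv
      have h5 := (orderOf_dvd_iff_zpow_eq_one).2 hinv
      rw [hz₁] at h5
      have h3N : (3 : ℤ) ∣ (N : ℤ) := by
        have h6 : 3 ∣ N := by
          have := heN
          rwa [h] at this
        exact_mod_cast h6
      have h7 := h3N.trans h5
      have hp3 : Prime (3 : ℤ) := Int.prime_three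
      rcases hp3.dvd_or_dvd h7 with h8 | h8
      · exact_mod_cast h8
      · exact absurd h8 (not_dvd_inv q d hd)
    · rw [h]
      simp
  exact assembly3 f σ q hFE hfσ hσ hY n hτ hYs c₀ e (N / e) h1 h2 hall hs₀ hι hdiv hordye

end Cfsg.Agent.Lib.TwE6P32
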