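import Cfsg.Agent.Lib.TwE7GT32
import Cfsg.Agent.Lib.StE732H
import Cfsg.Agent.Lib.TwTor32E
import Cfsg.Agent.Lib.Chev.OrdE7

/-!
# The Weyl group of type E7: every nontrivial element moves a multiple of a root into the image of its difference map

By Sylow's theorem it suffices to check the property on explicit Sylow subgroups.
-/

set_option autoImplicit false
set_option maxRecDepth 100000
set_option linter.unusedSectionVars false
set_option linter.unusedVariables false
set_option linter.unusedSimpArgs false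

namespace Cfsg.Agent.Lib.TwE7G32

open Cfsg Cfsg.Lie Cfsg.Agent.Lib.Chev Matrix Cfsg.Agent.Lib.ChevFix Cfsg.Agent.Lib.TwTor32
open Cfsg.Agent.Lib.TwE7GT32 Cfsg.Agent.Lib.StE732 Equiv

noncomputable section

/-- A permutation of the roots with given images of the simple roots. -/
def Rep (τ : Perm (Fin chevE7.nroots)) (r : ℕ → ℕ) : Prop :=
  ∀ i : Fin chevE7.rank, ((τ (hFE.pF i) : Fin chevE7.nroots) : ℕ) = r i

theorem rep_unique {τ τ' : Perm (Fin chevE7.nroots)} (hτ : τ ∈ hFE.Wk Set.univ) (hτ' : τ' ∈ hFE.Wk Set.univ)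
    {r : ℕ → ℕ} (h : Rep τ r) (h' : Rep τ' r) : τ = τ' := by
  have e : mat hFE τ = mat hFE τ' := by
    ext m k
    show RootE7T.R.rcAt (τ (hFE.pF k)) m = RootE7T.R.rcAt (τ' (hFE.pF k)) m
    rw [h k, h' k]
  ext s
  have h1 : rcV RootE7T.R chevE7 (τ s) = rcV RootE7T.R chevE7 (τ' s) := by
    rw [mat_rc hFE hτ, mat_rc hFE hτ', e]
  exact congrArg (fun n : ℕ => n) (rcV_inj hFE (τ s).2 (τ' s).2 h1)

theorem wB_ok : allBelow (fun j => allBelow (fun s => Nat.beq (f7 (wB j) s) (TabE7.X.wf j s)) 126) 7 = true := by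
  decide +kernel

theorem wB_spec {j s : ℕ} (hj : j < 7) (hs : s < 126) : f7 (wB j) s = TabE7.X.wf j s :=
  Nat.eq_of_beq_eq_true (allBelow_spec _ _ (allBelow_spec _ _ wB_ok j hj) s hs)

/-- A simple reflection as a permutation. -/
def wS (j : ℕ) : Perm (Fin chevE7.nroots) := if h : j < chevE7.rank then hFE.wPerm h else 1

theorem wS_mem (j : ℕ) : wS j ∈ hFE.Wk Set.univ := by
  unfold wS
  split_ifs with h
  · exact hFE.wPerm_mem h (Set.mem_univ _)
  · exact one_mem _

/-- A word of simple reflections as a permutation. -/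
def wW (L : List ℕ) : Perm (Fin chevE7.nroots) := (L.map wS).prod

theorem wW_cons (j : ℕ) (L : List ℕ) : wW (j :: L) = wS j * wW L := by
  simp [wW]

theorem wW_mem (L : List ℕ) : wW L ∈ hFE.Wk Set.univ := by
  induction L with
  | nil => exact one_mem _
  | cons j L ih =>
    rw [wW_cons]
    exact mul_mem (wS_mem j) ih

theorem wW_apply (L : List ℕ) (hL : ∀ i ∈ L, i < 7) (s : Fin chevE7.nroots) :
    ((wW L s : Fin chevE7.nroots) : ℕ) = evw L s := by
  induction L with
  | nil => rfl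
  | cons j L ih =>
    have hL' : ∀ i ∈ L, i < 7 := fun i hi => hL i (List.mem_cons_of_mem _ hi)
    have hj : j < 7 := hL j List.mem_cons_self
    have hj' : j < chevE7.rank := hj
    rw [wW_cons, Equiv.Perm.mul_apply]
    show _ = f7 (wB j) (evw L s)
    rw [← ih hL', wB_spec hj (wW L s).2]
    unfold wS
    rw [dif_pos hj', hFE.wPerm_apply]

/-- The property behind the triviality of stabilisers. -/
def Good (τ : Perm (Fin chevE7.nroots)) : Prop :=
  ∃ (x : Fin chevE7.nroots) (p : ℤ) (w : Fin chevE7.rank → ℤ), (p = 2 ∨ p = 3 ∨ p = 5 ∨ p = 7) ∧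
    p • rcV RootE7T.R chevE7 x = mat hFE τ *ᵥ w - w

theorem good_conj {τ g : Perm (Fin chevE7.nroots)} (hτ : τ ∈ hFE.Wk Set.univ) (hg : g ∈ hFE.Wk Set.univ)
    (h : Good τ) : Good (g * τ * g⁻¹) := by
  obtain ⟨x, p, w, hp, h⟩ := h
  have hgi : g⁻¹ ∈ hFE.Wk Set.univ := inv_mem hg
  have e1 : mat hFE g * mat hFE g⁻¹ = 1 := by
    rw [← mat_mul hFE hg hgi, mul_inv_cancel, mat_one]
  have e2 : mat hFE g⁻¹ * mat hFE g = 1 := by
    rw [← mat_mul hFE hgi hg, inv_mul_cancel, mat_one]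
  refine ⟨g x, p, mat hFE g *ᵥ w, hp, ?_⟩
  rw [mat_rc hFE hg, ← Matrix.mulVec_smul, h, mat_mul hFE (mul_mem hg hτ) hgi, mat_mul hFE hg hτ, Matrix.mulVec_sub,
    Matrix.mulVec_mulVec, Matrix.mulVec_mulVec]
  congr 2
  rw [mul_assoc, e2, mul_one]

theorem good_pow {τ : Perm (Fin chevE7.nroots)} (hτ : τ ∈ hFE.Wk Set.univ) (m : ℕ) (h : Good (τ ^ m)) : Good τ := by
  obtain ⟨x, p, w, hp, h⟩ := h
  rw [mat_pow hFE hτ] at h
  set A := mat hFE τ with hA
  have key : ∀ k : ℕ, A *ᵥ (∑ i ∈ Finset.range k, (A ^ i) *ᵥ w) - (∑ i ∈ Finset.range k, (A ^ i) *ᵥ w) = (A ^ k) *ᵥ w - w := by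
    intro k
    induction k with
    | zero => simp
    | succ k ih =>
      rw [Finset.sum_range_succ, Matrix.mulVec_add]
      have e : A *ᵥ ((A ^ k) *ᵥ w) = (A ^ (k + 1)) *ᵥ w := by
        rw [Matrix.mulVec_mulVec, pow_succ']
      rw [e]
      have e2 : A *ᵥ (∑ i ∈ Finset.range k, (A ^ i) *ᵥ w) + (A ^ (k + 1)) *ᵥ w -
          ((∑ i ∈ Finset.range k, (A ^ i) *ᵥ w) + (A ^ k) *ᵥ w) =
          (A *ᵥ (∑ i ∈ Finset.range k, (A ^ i) *ᵥ w) - (∑ i ∈ Finset.range k, (A ^ i) *ᵥ w)) + ((A ^ (k + 1)) *ᵥ w - (A ^ k) *ᵥ w) := by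
        abel
      rw [e2, ih]
      abel
  exact ⟨x, p, ∑ i ∈ Finset.range m, (A ^ i) *ᵥ w, hp, by rw [h, key m]⟩

theorem card_Wk : Nat.card ↥(hFE.Wk Set.univ) = 2903040 := by
  classical
  have h := OrdE7.poin_univ hFE 1
  unfold Full.poin at h
  simp only [one_pow, Finset.sum_const, smul_eq_mul, mul_one] at h
  rw [Nat.card_eq_fintype_card, Fintype.card_subtype]
  convert h using 1

/-! ### The tables -/

/-- The values of a witness. -/
def wwI (t : Tb) (i k : ℕ) : ℤ := (t.ww i k : ℤ) - 16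

def chk1 (t : Tb) : Bool :=
  allBelow (fun g => allBelow (fun i => Nat.blt ((t.gw g).getD i 0) 7) (t.gw g).length &&
    allBelow (fun s => Nat.beq (evw (t.gw g) s) (f7 (t.gt g) s)) 126) t.ng

def chk0 (t : Tb) : Bool := allBelow (fun i => Nat.beq (t.rw 0 i) (chevE7.simple i)) 7

def chk2 (t : Tb) : Bool :=
  allBelow (fun idx => allBelow (fun g => Nat.blt (t.nx idx g) t.S &&
    allBelow (fun i => Nat.beq (f7 (t.gt g) (t.rw idx i)) (t.rw (t.nx idx g) i)) 7) t.ng) t.S

def chk3 (t : Tb) : Bool :=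
  allBelow (fun idx => Nat.beq idx 0 || (Nat.blt (t.pi idx) idx && Nat.blt (t.pg idx) t.ng &&
    Nat.beq (t.nx (t.pi idx) (t.pg idx)) idx)) t.S

def chk4 (t : Tb) : Bool :=
  allBelow (fun idx => allBelow (fun j => !allBelow (fun i => Nat.beq (t.rw j i) (t.rw idx i)) 7) idx) t.S

/-- A sum over seven indices. -/
def sum7 (f : ℕ → ℤ) : ℤ := f 0 + f 1 + f 2 + f 3 + f 4 + f 5 + f 6

def chk5 (t : Tb) : Bool :=
  allBelow (fun idx => Nat.beq idx 0 || (Nat.blt (t.wx idx) 126 &&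
    (Nat.beq (t.wp idx) 2 || Nat.beq (t.wp idx) 3 || Nat.beq (t.wp idx) 5 || Nat.beq (t.wp idx) 7) &&
    allBelow (fun m => decide ((t.wp idx : ℤ) * RootE7T.R.rcAt (t.wx idx) m =
      sum7 (fun k => RootE7T.R.rcAt (t.rw idx k) m * wwI t idx k) - wwI t idx m)) 7)) t.S

/-- The subgroup of a table. -/
def PP (t : Tb) : Subgroup (Perm (Fin chevE7.nroots)) :=
  Subgroup.closure {τ | ∃ g, g < t.ng ∧ τ = wW (t.gw g)}

theorem PP_le (t : Tb) : PP t ≤ hFE.Wk Set.univ := by
  unfold PP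
  rw [Subgroup.closure_le]
  rintro τ ⟨g, -, rfl⟩
  exact wW_mem _

section Tab

variable {t : Tb}

theorem gen_lt (h1 : chk1 t = true) {g : ℕ} (hg : g < t.ng) : ∀ i ∈ t.gw g, i < 7 := by
  have h2 := allBelow_spec _ _ h1 g hg
  rw [Bool.and_eq_true] at h2
  intro i hi
  obtain ⟨k, hk, rfl⟩ := List.getElem_of_mem hi
  have h3 := allBelow_spec _ _ h2.1 k hk
  have h4 := Nat.le_of_ble_eq_true h3
  rw [List.getD_eq_getElem _ _ hk] at h4
  exact h4

theorem gen_apply (h1 : chk1 t = true) {g : ℕ} (hg : g < t.ng) (s : Fin chevE7.nroots) :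
    ((wW (t.gw g) s : Fin chevE7.nroots) : ℕ) = f7 (t.gt g) s := by
  rw [wW_apply _ (gen_lt h1 hg)]
  have h2 := allBelow_spec _ _ h1 g hg
  rw [Bool.and_eq_true] at h2
  exact Nat.eq_of_beq_eq_true (allBelow_spec _ _ h2.2 s s.2)

theorem rep_step (h1 : chk1 t = true) (h2 : chk2 t = true) {idx g : ℕ} (hidx : idx < t.S) (hg : g < t.ng)
    {τ : Perm (Fin chevE7.nroots)} (hrep : Rep τ (t.rw idx)) :
    t.nx idx g < t.S ∧ Rep (wW (t.gw g) * τ) (t.rw (t.nx idx g)) := by
  have h3 := allBelow_spec _ _ (allBelow_spec _ _ h2 idx hidx) g hg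
  rw [Bool.and_eq_true] at h3
  refine ⟨Nat.le_of_ble_eq_true h3.1, fun i => ?_⟩
  rw [Equiv.Perm.mul_apply, gen_apply h1 hg, hrep i]
  exact Nat.eq_of_beq_eq_true (allBelow_spec _ _ h3.2 i i.2)

theorem rep_one (h0 : chk0 t = true) : Rep 1 (t.rw 0) := by
  intro i
  exact (Nat.eq_of_beq_eq_true (allBelow_spec _ _ h0 i i.2)).symm

/-- Every element of the subgroup has a row. -/
theorem rep_of_mem (h0 : chk0 t = true) (h1 : chk1 t = true) (h2 : chk2 t = true) (hS : 0 < t.S)
    {τ : Perm (Fin chevE7.nroots)} (hτ : τ ∈ PP t) : ∃ idx < t.S, Rep τ (t.rw idx) := by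
  have hstep : ∀ g, g < t.ng → ∀ y : Perm (Fin chevE7.nroots), (∃ idx < t.S, Rep y (t.rw idx)) →
      ∃ idx < t.S, Rep (wW (t.gw g) * y) (t.rw idx) := by
    rintro g hg y ⟨idx, hidx, hrep⟩
    obtain ⟨a, b⟩ := rep_step h1 h2 hidx hg hrep
    exact ⟨_, a, b⟩
  have hpow : ∀ g, g < t.ng → ∀ (k : ℕ) (y : Perm (Fin chevE7.nroots)), (∃ idx < t.S, Rep y (t.rw idx)) →
      ∃ idx < t.S, Rep (wW (t.gw g) ^ k * y) (t.rw idx) := by
    intro g hg k
    induction k with
    | zero =>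
      intro y hy
      simpa using hy
    | succ k ih =>
      intro y hy
      rw [pow_succ', mul_assoc]
      exact hstep g hg _ (ih y hy)
  unfold PP at hτ
  refine Subgroup.closure_induction_left (p := fun τ _ => ∃ idx < t.S, Rep τ (t.rw idx)) ?_ ?_ ?_ hτ
  · exact ⟨0, hS, rep_one h0⟩
  · rintro x ⟨g, hg, rfl⟩ y _ hy
    exact hstep g hg y hy
  · rintro x ⟨g, hg, rfl⟩ y _ hy
    have e : (wW (t.gw g))⁻¹ = wW (t.gw g) ^ (orderOf (wW (t.gw g)) - 1) := by
      apply inv_eq_of_mul_eq_one_left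
      rw [← pow_succ, Nat.sub_add_cancel (orderOf_pos _), pow_orderOf_eq_one]
    rw [e]
    exact hpow g hg _ y hy

/-- Every row belongs to an element of the subgroup. -/
theorem mem_of_rep (h0 : chk0 t = true) (h1 : chk1 t = true) (h2 : chk2 t = true) (h3 : chk3 t = true) :
    ∀ idx, idx < t.S → ∃ τ ∈ PP t, Rep τ (t.rw idx) := by
  intro idx
  induction idx using Nat.strong_induction_on with
  | _ idx ih =>
    intro hidx
    by_cases h00 : idx = 0
    · subst h00
      exact ⟨1, one_mem _, rep_one h0⟩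
    · have h4 := allBelow_spec _ _ h3 idx hidx
      rw [nb_f h00, Bool.false_or, Bool.and_eq_true, Bool.and_eq_true] at h4
      obtain ⟨⟨a1, a2⟩, a3⟩ := h4
      have hp : t.pi idx < idx := Nat.le_of_ble_eq_true a1
      have hg : t.pg idx < t.ng := Nat.le_of_ble_eq_true a2
      have e := Nat.eq_of_beq_eq_true a3
      obtain ⟨τ, hτ, hrep⟩ := ih _ hp (by omega)
      refine ⟨wW (t.gw (t.pg idx)) * τ, mul_mem (Subgroup.subset_closure ⟨_, hg, rfl⟩) hτ, ?_⟩
      have h5 := (rep_step h1 h2 (by omega : t.pi idx < t.S) hg hrep).2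
      rwa [e] at h5

theorem allBelow_of (f : ℕ → Bool) (n : ℕ) (h : ∀ c, c < n → f c = true) : allBelow f n = true := by
  induction n with
  | zero => exact allBelow_zero f
  | succ n ih => exact allBelow_succ_of f n (ih (fun c hc => h c (by omega))) (h n (by omega))

theorem rows_inj (h4 : chk4 t = true) {a b : ℕ} (ha : a < t.S) (hb : b < t.S)
    (h : ∀ i : Fin chevE7.rank, t.rw a i = t.rw b i) : a = b := by
  by_contra hne
  wlog hlt : a < b generalizing a b
  · exact this hb ha (fun i => (h i).symm) (Ne.symm hne) (by omega)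
  have h5 := allBelow_spec _ _ (allBelow_spec _ _ h4 b hb) a hlt
  rw [Bool.not_eq_true'] at h5
  have h6 : allBelow (fun i => Nat.beq (t.rw a i) (t.rw b i)) 7 = true := by
    apply allBelow_of
    intro i hi
    exact nb_t (h ⟨i, hi⟩)
  rw [h6] at h5
  exact Bool.noConfusion h5

/-- The order of the subgroup of a table. -/
theorem card_PP (h0 : chk0 t = true) (h1 : chk1 t = true) (h2 : chk2 t = true) (h3 : chk3 t = true)
    (h4 : chk4 t = true) (hS : 0 < t.S) : Nat.card ↥(PP t) = t.S := by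
  classical
  have hex := mem_of_rep h0 h1 h2 h3
  choose! f hf1 hf2 using hex
  let φ : Fin t.S → ↥(PP t) := fun i => ⟨f i, hf1 i i.2⟩
  have hle := PP_le t
  have hφ : Function.Bijective φ := by
    constructor
    · intro a b hab
      have h5 : f a = f b := congrArg Subtype.val hab
      apply Fin.ext
      apply rows_inj h4 a.2 b.2
      intro i
      rw [← hf2 a a.2 i, ← hf2 b b.2 i, h5]
    · rintro ⟨τ, hτ⟩
      obtain ⟨idx, hidx, hrep⟩ := rep_of_mem h0 h1 h2 hS hτ
      refine ⟨⟨idx, hidx⟩, ?_⟩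
      apply Subtype.ext
      exact rep_unique (hle (hf1 idx hidx)) (hle hτ) (hf2 idx hidx) hrep
  have := Nat.card_congr (Equiv.ofBijective φ hφ)
  rw [← this]
  simp

theorem sum7_eq (f : Fin chevE7.rank → ℤ) (g : ℕ → ℤ) (h : ∀ k : Fin chevE7.rank, f k = g k) :
    ∑ k : Fin chevE7.rank, f k = sum7 g := by
  have hh : (∑ k : Fin chevE7.rank, f k) = ∑ k : Fin chevE7.rank, g k := Finset.sum_congr rfl (fun k _ => h k)
  rw [hh]
  exact Fin.sum_univ_seven (fun k : Fin 7 => g k)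

/-- The witnesses. -/
theorem good_of_mem (h0 : chk0 t = true) (h1 : chk1 t = true) (h2 : chk2 t = true) (h5 : chk5 t = true) (hS : 0 < t.S)
    {τ : Perm (Fin chevE7.nroots)} (hτ : τ ∈ PP t) (hne : τ ≠ 1) : Good τ := by
  have hle := PP_le t
  obtain ⟨idx, hidx, hrep⟩ := rep_of_mem h0 h1 h2 hS hτ
  have h00 : idx ≠ 0 := by
    rintro rfl
    exact hne (rep_unique (hle hτ) (one_mem _) hrep (rep_one h0))
  have h6 := allBelow_spec _ _ h5 idx hidx
  rw [nb_f h00, Bool.false_or, Bool.and_eq_true, Bool.and_eq_true] at h6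
  obtain ⟨⟨a1, a2⟩, a3⟩ := h6
  have hx : t.wx idx < 126 := Nat.le_of_ble_eq_true a1
  refine ⟨⟨t.wx idx, hx⟩, (t.wp idx : ℤ), fun k => wwI t idx k, ?_, ?_⟩
  · simp only [Bool.or_eq_true] at a2
    rcases a2 with ((a2 | a2) | a2) | a2 <;> have e := Nat.eq_of_beq_eq_true a2 <;> rw [e] <;> norm_num
  · funext m
    have a4 := of_decide_eq_true (allBelow_spec _ _ a3 m m.2)
    simp only [Pi.smul_apply, smul_eq_mul, Pi.sub_apply]
    show (t.wp idx : ℤ) * RootE7T.R.rcAt (t.wx idx) m = _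
    rw [a4]
    congr 1
    show _ = ∑ k : Fin chevE7.rank, mat hFE τ m k * wwI t idx k
    symm
    apply sum7_eq
    intro k
    congr 1
    show RootE7T.R.rcAt (τ (hFE.pF k)) m = _
    rw [hrep k]

end Tab

/-- A conjugate of an element lies in a subgroup of index prime to its order. -/
theorem exists_conj_of_index {G : Type*} [Group G] [Finite G] {H : Subgroup G} {r : ℕ} [Fact r.Prime]
    (hidx : ¬ r ∣ H.index) {g : G} (hg : g ^ r = 1) : ∃ y : G, y⁻¹ * g * y ∈ H := by
  classical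
  let P : Subgroup G := Subgroup.zpowers g
  have hP : IsPGroup r P := by
    apply IsPGroup.of_card (n := (Nat.factorization (orderOf g)) r)
    rw [Nat.card_zpowers]
    have h1 : orderOf g ∣ r := orderOf_dvd_of_pow_eq_one hg
    rcases (Nat.dvd_prime (Fact.out : r.Prime)).1 h1 with h2 | h2
    · rw [h2]; simp
    · rw [h2]; simp [Nat.Prime.factorization_self (Fact.out : r.Prime)]
  have hc := IsPGroup.card_modEq_card_fixedPoints (p := r) hP (G ⧸ H)
  have hne : (MulAction.fixedPoints P (G ⧸ H)).Nonempty := by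
    by_contra h0
    rw [Set.not_nonempty_iff_eq_empty] at h0
    have h1 : Nat.card (MulAction.fixedPoints P (G ⧸ H)) = 0 := by
      rw [h0]
      simp
    rw [h1] at hc
    apply hidx
    have := (Nat.modEq_zero_iff_dvd).1 hc
    rw [Subgroup.index]
    exact this
  obtain ⟨a, ha⟩ := hne
  obtain ⟨y, rfl⟩ := QuotientGroup.mk_surjective a
  have h1 := ha ⟨g, Subgroup.mem_zpowers g⟩
  have h2 : ((g * y : G) : G ⧸ H) = (y : G ⧸ H) := h1
  have h3 := QuotientGroup.eq.1 h2
  refine ⟨y, ?_⟩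
  have h4 := H.inv_mem h3
  have e : ((g * y)⁻¹ * y)⁻¹ = y⁻¹ * g * y := by group
  rw [e] at h4
  exact h4

/-- Elements of prime order of the Weyl group. -/
theorem good_of_prime {t : Tb} {p : ℕ} [Fact p.Prime] (h0 : chk0 t = true) (h1 : chk1 t = true) (h2 : chk2 t = true)
    (h3 : chk3 t = true) (h4 : chk4 t = true) (h5 : chk5 t = true) (hS : 0 < t.S) (hi : ¬ p ∣ 2903040 / t.S)
    (hd : t.S ∣ 2903040) {τ : Perm (Fin chevE7.nroots)} (hτ : τ ∈ hFE.Wk Set.univ) (hτp : τ ^ p = 1) (hne : τ ≠ 1) :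
    Good τ := by
  classical
  have hle := PP_le t
  set H := (PP t).subgroupOf (hFE.Wk Set.univ) with hH
  have hcard : Nat.card ↥H = t.S := by
    rw [← card_PP h0 h1 h2 h3 h4 hS]
    exact Nat.card_congr (Subgroup.subgroupOfEquivOfLe hle).toEquiv
  have hindex : H.index = 2903040 / t.S := by
    have h6 := Subgroup.card_mul_index H
    rw [hcard, card_Wk] at h6
    rw [← h6]
    exact (Nat.mul_div_cancel_left _ hS).symm
  have hidx : ¬ p ∣ H.index := by
    rw [hindex]
    exact hi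
  let g : ↥(hFE.Wk Set.univ) := ⟨τ, hτ⟩
  have hg : g ^ p = 1 := Subtype.ext hτp
  obtain ⟨y, hy⟩ := exists_conj_of_index hidx hg
  have hy2 : y.1⁻¹ * τ * y.1 ∈ PP t := Subgroup.mem_subgroupOf.1 hy
  have hne2 : y.1⁻¹ * τ * y.1 ≠ 1 := by
    intro h
    apply hne
    have e : τ = y.1 * (y.1⁻¹ * τ * y.1) * y.1⁻¹ := by group
    rw [e, h]
    group
  have hG := good_of_mem h0 h1 h2 h5 hS hy2 hne2
  have hG2 := good_conj (hle hy2) y.2 hG
  have e : y.1 * (y.1⁻¹ * τ * y.1) * y.1⁻¹ = τ := by group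
  rwa [e] at hG2

theorem t2_0 : chk0 tb2 = true := by decide +kernel
theorem t2_1 : chk1 tb2 = true := by decide +kernel
theorem t2_2 : chk2 tb2 = true := by decide +kernel
theorem t2_3 : chk3 tb2 = true := by decide +kernel
theorem t2_4 : chk4 tb2 = true := by decide +kernel
theorem t2_5 : chk5 tb2 = true := by decide +kernel
theorem t3_0 : chk0 tb3 = true := by decide +kernel
theorem t3_1 : chk1 tb3 = true := by decide +kernel
theorem t3_2 : chk2 tb3 = true := by decide +kernel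
theorem t3_3 : chk3 tb3 = true := by decide +kernel
theorem t3_4 : chk4 tb3 = true := by decide +kernel
theorem t3_5 : chk5 tb3 = true := by decide +kernel
theorem t5_0 : chk0 tb5 = true := by decide +kernel
theorem t5_1 : chk1 tb5 = true := by decide +kernel
theorem t5_2 : chk2 tb5 = true := by decide +kernel
theorem t5_3 : chk3 tb5 = true := by decide +kernel
theorem t5_4 : chk4 tb5 = true := by decide +kernel
theorem t5_5 : chk5 tb5 = true := by decide +kernel
theorem t7_0 : chk0 tb7 = true := by decide +kernel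
theorem t7_1 : chk1 tb7 = true := by decide +kernel
theorem t7_2 : chk2 tb7 = true := by decide +kernel
theorem t7_3 : chk3 tb7 = true := by decide +kernel
theorem t7_4 : chk4 tb7 = true := by decide +kernel
theorem t7_5 : chk5 tb7 = true := by decide +kernel

theorem good_prime {τ : Perm (Fin chevE7.nroots)} (hτ : τ ∈ hFE.Wk Set.univ) (hne : τ ≠ 1) {p : ℕ} (hp : p.Prime)
    (hd : p ∣ 2903040) (hτp : τ ^ p = 1) : Good τ := by
  have e : (2903040 : ℕ) = 2 ^ 10 * 3 ^ 4 * 5 * 7 := by norm_num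
  have hcases : p = 2 ∨ p = 3 ∨ p = 5 ∨ p = 7 := by
    rw [e] at hd
    rcases (Nat.Prime.dvd_mul hp).1 hd with h | h
    · rcases (Nat.Prime.dvd_mul hp).1 h with h | h
      · rcases (Nat.Prime.dvd_mul hp).1 h with h | h
        · left
          exact (Nat.prime_dvd_prime_iff_eq hp Nat.prime_two).1 (hp.dvd_of_dvd_pow h)
        · right; left
          exact (Nat.prime_dvd_prime_iff_eq hp Nat.prime_three).1 (hp.dvd_of_dvd_pow h)
      · right; right; left
        exact (Nat.prime_dvd_prime_iff_eq hp Nat.prime_five).1 h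
    · right; right; right
      exact (Nat.prime_dvd_prime_iff_eq hp (by norm_num)).1 h
  haveI := Fact.mk hp
  rcases hcases with rfl | rfl | rfl | rfl
  · exact good_of_prime t2_0 t2_1 t2_2 t2_3 t2_4 t2_5 (by decide +kernel) (by decide +kernel) (by decide +kernel) hτ hτp hne
  · exact good_of_prime t3_0 t3_1 t3_2 t3_3 t3_4 t3_5 (by decide +kernel) (by decide +kernel) (by decide +kernel) hτ hτp hne
  · exact good_of_prime t5_0 t5_1 t5_2 t5_3 t5_4 t5_5 (by decide +kernel) (by decide +kernel) (by decide +kernel) hτ hτp hne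
  · exact good_of_prime t7_0 t7_1 t7_2 t7_3 t7_4 t7_5 (by decide +kernel) (by decide +kernel) (by decide +kernel) hτ hτp hne

theorem good_all {τ : Perm (Fin chevE7.nroots)} (hτ : τ ∈ hFE.Wk Set.univ) (hne : τ ≠ 1) : Good τ := by
  classical
  set o := orderOf τ with ho
  have ho1 : o ≠ 1 := by
    intro h
    exact hne (orderOf_eq_one_iff.1 h)
  have hpos : 0 < o := orderOf_pos τ
  have hoW : o ∣ 2903040 := by
    have h1 : orderOf (⟨τ, hτ⟩ : ↥(hFE.Wk Set.univ)) = o := Subgroup.orderOf_mk _ _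
    rw [← h1, ← card_Wk]
    exact orderOf_dvd_natCard _
  obtain ⟨p, hp, hpo⟩ := Nat.exists_prime_and_dvd ho1
  obtain ⟨m, hm⟩ := hpo
  have hm0 : 0 < m := by
    rcases Nat.eq_zero_or_pos m with h | h
    · rw [h, mul_zero] at hm
      omega
    · exact h
  apply good_pow hτ m
  apply good_prime (pow_mem hτ m) _ hp (Dvd.dvd.trans ⟨m, hm⟩ hoW)
  · rw [← pow_mul, mul_comm, ← hm, ho, pow_orderOf_eq_one]
  · intro h
    have h2 := orderOf_le_of_pow_eq_one hm0 h
    rw [← ho, hm] at h2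
    have := hp.two_le
    nlinarith

variable {K : Type*} [Field K]

/-- **Stabilisers**: an element of the Weyl group fixing a torus element without small values on the roots is trivial. -/
theorem stab_one (c : Fin chevE7.rank → Kˣ)
    (hc : ∀ (x : Fin chevE7.nroots), chiT chevE7 c x ^ 2 ≠ 1 ∧ chiT chevE7 c x ^ 3 ≠ 1 ∧ chiT chevE7 c x ^ 5 ≠ 1 ∧
      chiT chevE7 c x ^ 7 ≠ 1)
    {h : Perm (Fin chevE7.nroots)} (hh : h ∈ hFE.Wk Set.univ)
    (hfix : ∀ s : Fin chevE7.nroots, chiT chevE7 c (h s) = chiT chevE7 c s) : h = 1 := by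
  by_contra hne
  obtain ⟨x, p, w, hp, h1⟩ := good_all hh hne
  have h2 : ∀ v, Xc c (mat hFE h *ᵥ v) = Xc c v ^ 1 :=
    Xc_twist hFE hh c 1 (fun s => by rw [hfix, pow_one])
  have h3 : Xc c (p • rcV RootE7T.R chevE7 x) = 1 := by
    rw [h1, sub_eq_add_neg, Xc_add]
    have h4 : Xc c (-w) = (Xc c w)⁻¹ := by
      have e : -w = (-1 : ℤ) • w := by simp
      rw [e, Xc_smul, _root_.zpow_neg_one]
    rw [h4, h2, pow_one, mul_inv_cancel]
  rw [Xc_smul, Xc_rc hFE c x.2] at h3
  obtain ⟨a1, a2, a3, a4⟩ := hc x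
  rcases hp with rfl | rfl | rfl | rfl
  · exact a1 (by exact_mod_cast h3)
  · exact a2 (by exact_mod_cast h3)
  · exact a3 (by exact_mod_cast h3)
  · exact a4 (by exact_mod_cast h3)

end

end Cfsg.Agent.Lib.TwE7G32
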