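import Cfsg.Agent.Lib.TwE6M32
import Cfsg.Agent.Lib.StE732L
import Cfsg.Agent.Lib.TwE7GT32

/-!
# From the Levi subgroup of type E6 to the group of type E7

The presented group of type E6 maps to the presented group of type E7, the tables of structure constants being compatible.
A twisting element of type E6 is transported to the group of type E7.
-/

set_option autoImplicit false
set_option maxRecDepth 100000
set_option linter.unusedSectionVars false
set_option linter.unusedVariables false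
set_option linter.unusedSimpArgs false

namespace Cfsg.Agent.Lib.TwE7L32

open Cfsg Cfsg.Lie Cfsg.Agent.Lib.Chev Matrix Cfsg.Agent.Lib.ChevFix Cfsg.Agent.Lib.TwTor32 Cfsg.Agent.Lib.ChevPres

noncomputable section

/-- The embedding of the roots. -/
def iotaB : ℕ := 49062121117882492944821017813480093410133068463054943973609708950598083688073044364323405227095917625673428350166716205878886669895879509486225269671174

def iota (r : ℕ) : ℕ := TwE7GT32.f7 iotaB r

def chkI (r : ℕ) : Bool :=
  Nat.blt (iota r) 126 && Nat.blt (chevE6.neg r) 72 && Nat.beq (iota (chevE6.neg r)) (chevE7.neg (iota r)) &&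
  allBelow (fun s => Nat.beq s r || Nat.beq s (chevE6.neg r) ||
    (!Nat.beq (iota s) (iota r) && !Nat.beq (iota s) (chevE7.neg (iota r)) &&
      decide (chevE7.commTerms (iota r) (iota s) = (chevE6.commTerms r s).map (fun c => (iota c.1, c.2))))) 72

theorem chkI_ok : allBelow chkI 72 = true := by
  decide +kernel

theorem chkS_ok : allBelow (fun i => Nat.beq (iota (chevE6.simple i)) (chevE7.simple i)) 6 = true := by
  decide +kernel

theorem iota_lt {r : ℕ} (hr : r < 72) : iota r < 126 := by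
  have h := allBelow_spec _ _ chkI_ok r hr
  unfold chkI at h
  simp only [Bool.and_eq_true] at h
  exact Nat.le_of_ble_eq_true h.1.1.1

theorem neg_lt6 {r : ℕ} (hr : r < 72) : chevE6.neg r < 72 := by
  have h := allBelow_spec _ _ chkI_ok r hr
  unfold chkI at h
  simp only [Bool.and_eq_true] at h
  exact Nat.le_of_ble_eq_true h.1.1.2

theorem iota_neg {r : ℕ} (hr : r < 72) : iota (chevE6.neg r) = chevE7.neg (iota r) := by
  have h := allBelow_spec _ _ chkI_ok r hr
  unfold chkI at h
  simp only [Bool.and_eq_true] at h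
  exact Nat.eq_of_beq_eq_true h.1.2

theorem iota_comm {r s : ℕ} (hr : r < 72) (hs : s < 72) (h1 : s ≠ r) (h2 : s ≠ chevE6.neg r) :
    iota s ≠ iota r ∧ iota s ≠ chevE7.neg (iota r) ∧
      chevE7.commTerms (iota r) (iota s) = (chevE6.commTerms r s).map (fun c => (iota c.1, c.2)) := by
  have h := allBelow_spec _ _ chkI_ok r hr
  unfold chkI at h
  simp only [Bool.and_eq_true] at h
  have h3 := allBelow_spec _ _ h.2 s hs
  rw [StE632.nb_f h1, StE632.nb_f h2] at h3
  simp only [Bool.false_or, Bool.and_eq_true, Bool.not_eq_true', decide_eq_true_eq] at h3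
  obtain ⟨⟨a1, a2⟩, a3⟩ := h3
  refine ⟨?_, ?_, a3⟩
  · intro e
    rw [StE632.nb_t e] at a1
    exact Bool.noConfusion a1
  · intro e
    rw [StE632.nb_t e] at a2
    exact Bool.noConfusion a2

variable {K F : Type*} [Field K] [Field F]

/-- The images of the generators. -/
def genI (K : Type*) [Field K] : Fin chevE6.nroots × K → chevE7.SteinbergGroup K :=
  fun p => chevE7.stGen K (iota p.1) p.2

theorem lift_X {r : ℕ} (hr : r < 72) (t : K) :
    FreeGroup.lift (genI K) (chevE6.stX r t) = chevE7.stGen K (iota r) t := by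
  have hr' : r < chevE6.nroots := hr
  unfold ChevalleyDatum.stX
  rw [dif_pos hr', FreeGroup.lift_apply_of]
  rfl

theorem lift_W (L : List (ℕ × K)) (hL : ∀ p ∈ L, p.1 < 72) :
    FreeGroup.lift (genI K) (chevE6.stWord L) = wb chevE7 K (L.map fun p => (iota p.1, p.2)) := by
  induction L with
  | nil =>
    simp [ChevalleyDatum.stWord, wb]
  | cons p L ih =>
    have h1 : chevE6.stWord (p :: L) = chevE6.stX p.1 p.2 * chevE6.stWord L := by
      simp [ChevalleyDatum.stWord]
    rw [h1, map_mul, lift_X (hL p List.mem_cons_self), ih (fun q hq => hL q (List.mem_cons_of_mem _ hq))]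
    simp [wb]

theorem lift_H {r : ℕ} (hr : r < 72) (t : K) :
    FreeGroup.lift (genI K) (chevE6.stH r t) = hb chevE7 K (iota r) t := by
  unfold ChevalleyDatum.stH
  rw [lift_W]
  · simp only [ChevalleyDatum.hWord, ChevalleyDatum.nWord, wb, hb, nb, List.cons_append, List.nil_append,
      List.map_cons, List.map_nil, List.prod_cons, List.prod_nil, mul_one, mul_assoc, iota_neg hr]
  · intro p hp
    simp only [ChevalleyDatum.hWord, ChevalleyDatum.nWord, List.cons_append, List.nil_append, List.mem_cons,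
      List.not_mem_nil, or_false] at hp
    have h6 := neg_lt6 hr
    rcases hp with rfl | rfl | rfl | rfl | rfl | rfl <;> assumption

theorem commWord_iota {r s : ℕ} (hr : r < 72) (hs : s < 72) (h1 : s ≠ r) (h2 : s ≠ chevE6.neg r) (t u : K) :
    (chevE6.commWord K r s t u).map (fun p => (iota p.1, p.2)) = chevE7.commWord K (iota r) (iota s) t u := by
  unfold ChevalleyDatum.commWord
  rw [(iota_comm hr hs h1 h2).2.2, List.map_map, List.map_map]
  rfl

theorem rels_ok : ∀ x ∈ chevE6.steinbergRels K, FreeGroup.lift (genI K) x = 1 := by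
  rintro x ((⟨r, t₁, t₂, hr, rfl⟩ | ⟨r, s, t, u, hr, hs, h1, h2, rfl⟩) | ⟨r, t₁, t₂, hr, ht₁, ht₂, rfl⟩)
  · rw [map_mul, map_mul, map_inv, lift_X hr, lift_X hr, lift_X hr, yb_add, mul_inv_cancel]
  · have hr' : r < 72 := hr
    have hs' : s < 72 := hs
    obtain ⟨a1, a2, -⟩ := iota_comm hr' hs' h1 h2
    rw [map_mul, map_mul, map_mul, map_mul, map_inv, map_inv, map_inv, lift_X hr', lift_X hs',
      lift_W _ (fun p hp => commWord_lt StE632.hFE hr hs h1 h2 t u p hp), commWord_iota hr' hs' h1 h2]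
    have h3 := yb_comm chevE7 (iota_lt hr') (iota_lt hs') a1 a2 t u
    have h4 : (chevE7.stGen K (iota s) u)⁻¹ * (chevE7.stGen K (iota r) t)⁻¹ * chevE7.stGen K (iota s) u * chevE7.stGen K (iota r) t =
        wb chevE7 K (chevE7.commWord K (iota r) (iota s) t u) := by
      calc _ = (chevE7.stGen K (iota r) t * chevE7.stGen K (iota s) u)⁻¹ * (chevE7.stGen K (iota s) u * chevE7.stGen K (iota r) t) := by group
        _ = _ := by rw [h3]; group
    rw [h4, mul_inv_cancel]
  · have hr' : r < 72 := hr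
    rw [map_mul, map_mul, map_inv, lift_H hr', lift_H hr', lift_H hr', hb_mul chevE7 (iota_lt hr') ht₁ ht₂, mul_inv_cancel]

/-- The homomorphism of presented groups. -/
def iS : chevE6.SteinbergGroup K →* chevE7.SteinbergGroup K := PresentedGroup.toGroup rels_ok

theorem iS_gen {r : ℕ} (hr : r < 72) (t : K) : iS (chevE6.stGen K r t) = chevE7.stGen K (iota r) t :=
  lift_X hr t

theorem iS_nb {r : ℕ} (hr : r < 72) (t : K) : iS (nb chevE6 K r t) = nb chevE7 K (iota r) t := by
  unfold nb
  simp only [wb, List.map_cons, List.map_nil, List.prod_cons, List.prod_nil, mul_one, map_mul]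
  rw [iS_gen hr, iS_gen (neg_lt6 hr), iota_neg hr]

theorem iS_hb {r : ℕ} (hr : r < 72) (t : K) : iS (hb chevE6 K r t) = hb chevE7 K (iota r) t := by
  unfold hb
  rw [map_mul, iS_nb hr, iS_nb hr]

theorem iota_simple {i : ℕ} (hi : i < 6) : iota (chevE6.simple i) = chevE7.simple i :=
  Nat.eq_of_beq_eq_true (allBelow_spec _ _ chkS_ok i hi)

theorem iS_nbS {i : ℕ} (hi : i < 6) : iS (nbS chevE6 K i) = nbS chevE7 K i := by
  unfold nbS
  rw [iS_nb (StE632.hFE.simple_lt hi), iota_simple hi]

theorem iS_wordNb (L : List ℕ) (hL : ∀ i ∈ L, i < 6) : iS (wordNb chevE6 K L) = wordNb chevE7 K L := by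
  induction L with
  | nil => rw [wordNb_nil, wordNb_nil, map_one]
  | cons i L ih =>
    rw [wordNb_cons, wordNb_cons, map_mul, iS_nbS (hL i List.mem_cons_self),
      ih (fun j hj => hL j (List.mem_cons_of_mem _ hj))]

/-- The torus of the presented group of type E6 lands in the torus of type E7. -/
theorem theta_iS_hbHom (c : Fin chevE6.rank → Kˣ) :
    theta StE732.hFE (iS (hbHom StE632.hFE StE632.hPE c)) ∈ chevE7.diagonalSubgroup K := by
  classical
  let φ : (Fin chevE6.rank → Kˣ) →* GL chevE7.Idx K :=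
    (theta StE732.hFE).comp (iS.comp (hbHom StE632.hFE StE632.hPE))
  have hmem : c ∈ ((chevE7.diagonalSubgroup K).comap φ).toSubmonoid := by
    rw [← Finset.univ_prod_mulSingle c]
    apply Submonoid.prod_mem
    intro i _
    show φ (Pi.mulSingle i (c i)) ∈ chevE7.diagonalSubgroup K
    show theta StE732.hFE (iS (hbHom StE632.hFE StE632.hPE (Pi.mulSingle i (c i)))) ∈ _
    have hi : (i : ℕ) < 6 := i.2
    rw [hbHom_mulSingle, iS_hb (StE632.hFE.simple_lt hi), iota_simple hi, theta_hb StE732.hFE (StE732.hFE.simple_lt (by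
      show (i : ℕ) < 7
      omega))]
    exact StE732.hFE.c.hG_mem_diagonal (StE732.hFE.simple_lt (by
      show (i : ℕ) < 7
      omega)) (c i).ne_zero
  exact hmem

theorem exists_lift7 (σ : K ≃+* K) {Y : GL chevE6.Idx K} (hY : Y ∈ chevE6.group K) :
    ∃ A B : chevE6.SteinbergGroup K, theta StE632.hFE A = Y ∧ theta StE632.hFE B = glM chevE6 (σ : K →+* K) Y ∧
      theta StE732.hFE (iS B) = glM chevE7 (σ : K →+* K) (theta StE732.hFE (iS A)) := by
  unfold ChevalleyDatum.group at hY
  induction hY using Subgroup.closure_induction with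
  | mem x hx =>
    obtain ⟨r, t, hx⟩ := hx
    have e : x = StE632.hFE.c.xG r t := by
      apply Units.ext
      rw [StE632.hFE.c.coe_xG, hx]
      simp [ChevalleyDatum.x, r.2]
    have hr : (r : ℕ) < 72 := r.2
    refine ⟨chevE6.stGen K r t, chevE6.stGen K r (σ t), ?_, ?_, ?_⟩
    · rw [theta_y StE632.hFE r.2, e]
    · rw [theta_y StE632.hFE r.2, e]
      exact (Fix.sg_xG StE632.hFE σ (r:ℕ) t).symm
    · rw [iS_gen hr, iS_gen hr, theta_y StE732.hFE (iota_lt hr), theta_y StE732.hFE (iota_lt hr)]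
      exact (Fix.sg_xG StE732.hFE σ (iota r) t).symm
  | one => exact ⟨1, 1, map_one _, by rw [map_one, map_one], by simp⟩
  | mul x y _ _ hx hy =>
    obtain ⟨A, B, h1, h2, h3⟩ := hx
    obtain ⟨A', B', h1', h2', h3'⟩ := hy
    exact ⟨A * A', B * B', by rw [map_mul, h1, h1'], by rw [map_mul, map_mul, h2, h2'],
      by rw [map_mul, map_mul, map_mul, map_mul, map_mul, h3, h3']⟩
  | inv x _ hx =>
    obtain ⟨A, B, h1, h2, h3⟩ := hx
    exact ⟨A⁻¹, B⁻¹, by rw [map_inv, h1], by rw [map_inv, map_inv, h2], by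
      simp only [map_inv, h3]⟩

/-- **The transport of the twisting data.** -/
theorem exists_twist7 (σ : K ≃+* K) {Y : GL chevE6.Idx K} (hY : Y ∈ chevE6.group K)
    (n : ↥(chevE6.monomialSubgroup K)) {τ : GL chevE6.Idx K} (hτ : τ ∈ chevE6.diagonalSubgroup K)
    (hYs : glM chevE6 (σ : K →+* K) Y = Y * (n.1 * τ))
    (hn : StE632.hFE.rhoN K n = StE632.hFE.rhoN K ⟨StE632.hFE.wordN [0, 1, 2, 3, 4, 5], StE632.hFE.wordN_mem_monomial _ (by decide)⟩) :
    ∃ Y₁ ∈ chevE7.group K, ∃ τ₁ ∈ chevE7.diagonalSubgroup K,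
      glM chevE7 (σ : K →+* K) Y₁ = Y₁ * (StE732.hFE.wordN [0, 1, 2, 3, 4, 5] * τ₁) := by
  classical
  set hFE := StE632.hFE with hhFE
  set hPE := StE632.hPE with hhPE
  set hh := hbHom (K := K) hFE hPE with hhdef
  set L : List ℕ := [0, 1, 2, 3, 4, 5] with hLdef
  have hL : ∀ i ∈ L, i < 6 := by decide
  have hL' : ∀ i ∈ L, i < chevE6.rank := hL
  obtain ⟨A, B, hA, hB, hAB⟩ := exists_lift7 σ hY
  have hthh : ∀ d, theta hFE (hh d) = tor RootE6T.R chevE6 d := theta_hbHom hFE hPE
  have hcent : ∀ z : chevE6.SteinbergGroup K, theta hFE z = 1 → ∃ ε, (∀ j < chevE6.rank, cartanMap chevE6 ε j = 1) ∧ z = hh ε := by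
    intro z hz
    have h1 : z ∈ (thetaG (K := K) hFE).ker := by
      rw [ker_thetaG]
      exact hz
    rw [ker_eq_center hFE hPE] at h1
    exact (mem_center_iff_hbHom hFE hPE).1 h1
  set W₀ := wordNb chevE6 K L with hW₀
  have hWθ : theta hFE W₀ = hFE.wordN L := theta_wordNb hFE L hL'
  let nL : ↥(chevE6.monomialSubgroup K) := ⟨hFE.wordN L, hFE.wordN_mem_monomial L hL'⟩
  have he : (nL⁻¹ * n).1 ∈ chevE6.diagonalSubgroup K := by
    apply hFE.mem_diagonal_of_pos'
    intro x hx
    have h1 : hFE.rhoN K (nL⁻¹ * n) = 1 := by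
      rw [map_mul, map_inv, hn]
      exact inv_mul_cancel _
    rw [h1]
    exact hx
  obtain ⟨d, hd⟩ := (hFE.mem_diagonal_iff).1 (mul_mem he hτ)
  have hUθ : theta hFE (A⁻¹ * B) = theta hFE (W₀ * hh d) := by
    rw [map_mul, map_mul, map_inv, hA, hB, hYs, hWθ, hthh, ← hd]
    show Y⁻¹ * (Y * (n.1 * τ)) = hFE.wordN L * ((nL.1)⁻¹ * n.1 * τ)
    have : nL.1 = hFE.wordN L := rfl
    rw [this]
    group
  obtain ⟨ε₀, -, hz₀⟩ := hcent ((W₀ * hh d)⁻¹ * (A⁻¹ * B)) (by
    rw [map_mul, map_inv, hUθ, inv_mul_cancel])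
  have hU : A⁻¹ * B = W₀ * hh (d * ε₀) := by
    rw [map_mul, ← mul_assoc, ← hz₀]
    group
  have hB' : B = A * (W₀ * hh (d * ε₀)) := by
    rw [← hU]
    group
  refine ⟨theta StE732.hFE (iS A), (thetaG StE732.hFE (iS A)).2, theta StE732.hFE (iS (hh (d * ε₀))),
    theta_iS_hbHom _, ?_⟩
  rw [← hAB, hB', map_mul, map_mul, map_mul, map_mul, iS_wordNb L hL, theta_wordNb StE732.hFE L (by decide)]

end

end Cfsg.Agent.Lib.TwE7L32
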