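import Cfsg.Agent.Lib.TwE7G32
import Cfsg.Agent.Lib.Chev.RankOne

/-!
# Changing a twisting element of type E7 by a reflection

The element `w₁` permutes three mutually orthogonal roots cyclically. An application of Lang's theorem in the rank one
subgroup `⟨X_b, X_{-b}⟩` changes the twisting element `w₁` into `s_b w₁`.
-/

set_option autoImplicit false
set_option maxRecDepth 100000
set_option linter.unusedSectionVars false
set_option linter.unusedVariables false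
set_option linter.unusedSimpArgs false

namespace Cfsg.Agent.Lib.TwE7S32

open Cfsg Cfsg.Lie Cfsg.Agent.Lib.Chev Matrix Cfsg.Agent.Lib.ChevFix Cfsg.Agent.Lib.TwTor32
open Cfsg.Agent.Lib.TwE7G32 Cfsg.Agent.Lib.TwE7GT32 Cfsg.Agent.Lib.StE732 Equiv
open Cfsg.Agent.Lib.Chev.SL2

noncomputable section

variable {K : Type*} [Field K]

/-- A product of three root elements in a rank one subgroup. -/
def T (s : Fin chevE7.nroots) (a b c : K) : GL chevE7.Idx K :=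
  hFE.c.xG s a * hFE.c.xG (hFE.negF s) b * hFE.c.xG s c

theorem T_mem (s : Fin chevE7.nroots) (a b c : K) : T s a b c ∈ chevE7.group K :=
  mul_mem (mul_mem (hFE.c.xG_mem_group s.2 a) (hFE.c.xG_mem_group (hFE.negF s).2 b)) (hFE.c.xG_mem_group s.2 c)

theorem T_nG (s : Fin chevE7.nroots) {ξ ξ' l b : K} (hb : b ≠ 0) (hl : l ≠ 0) (h : (ξ - ξ') * l = 1) :
    T s ((ξ - 1) / b) b ((l - 1) / b) * hFE.c.nG s (-l / b) = T s ((ξ' - 1) / b) b ((-l - 1) / b) := by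
  obtain ⟨φ, -, hφ⟩ := hFE.exists_sl2_hom (F := K) s.2
  have up : ∀ t : K, φ (x0 t) = hFE.c.xG s t := fun t => Units.ext (by
    rw [(hφ (x0 t) t).1 rfl]; rfl)
  have lo : ∀ t : K, φ (y0 t) = hFE.c.xG (chevE7.neg s) t := fun t => Units.ext (by
    rw [(hφ (y0 t) t).2 rfl]; rfl)
  have e : -(-l / b)⁻¹ = b / l := by
    field_simp
  have key : x0 ((ξ-1)/b) * y0 b * x0 ((l-1)/b) * (x0 (-l/b) * y0 (b / l) * x0 (-l/b)) =
      x0 ((ξ'-1)/b) * y0 b * x0 ((-l-1)/b) := by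
    apply Subtype.ext
    show (!![1, (ξ-1)/b; 0, 1] * !![1, 0; b, 1] * !![1, (l-1)/b; 0, 1] * (!![1, -l/b; 0, 1] * !![1, 0; b/l, 1] * !![1, -l/b; 0, 1]) : Matrix (Fin 2) (Fin 2) K) =
      !![1, (ξ'-1)/b; 0, 1] * !![1, 0; b, 1] * !![1, (-l-1)/b; 0, 1]
    simp only [Matrix.mul_fin_two]
    ext i j
    fin_cases i <;> fin_cases j <;> simp <;> field_simp
    · linear_combination h
    · linear_combination -h
    · ring
    · ring
  have h2 := congrArg φ key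
  simp only [map_mul, up, lo] at h2
  unfold T Checks.nG
  rw [e]
  exact h2

/-- The twisted Frobenius. -/
def Fm (σ : K ≃+* K) (g : GL chevE7.Idx K) : GL chevE7.Idx K →* GL chevE7.Idx K :=
  (MulAut.conj g).toMonoidHom.comp (glM chevE7 (σ : K →+* K))

theorem Fm_apply (σ : K ≃+* K) (g x : GL chevE7.Idx K) : Fm σ g x = g * glM chevE7 (σ : K →+* K) x * g⁻¹ := rfl

section act

variable {σ : K ≃+* K} {g : GL chevE7.Idx K} {ρ : Perm (Fin chevE7.nroots)} {u : Fin chevE7.nroots → Kˣ}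

theorem Fm_xG (hu : hFE.RootAct g ρ u) (s : Fin chevE7.nroots) (t : K) :
    Fm σ g (hFE.c.xG s t) = hFE.c.xG (ρ s) ((u s : K) * σ t) := by
  rw [Fm_apply, Fix.sg_xG hFE σ, hu.conj]

theorem Fm_T (hu : hFE.RootAct g ρ u) (s : Fin chevE7.nroots) (a b c : K) :
    Fm σ g (T s a b c) = T (ρ s) ((u s : K) * σ a) ((u s : K)⁻¹ * σ b) ((u s : K) * σ c) := by
  unfold T
  rw [map_mul, map_mul, Fm_xG hu, Fm_xG hu, Fm_xG hu, hu.neg_σ, hu.neg_u, Units.val_inv_eq_inv_val]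

/-- The scalar of the third power. -/
def dl (σ : K ≃+* K) (u : Fin chevE7.nroots → Kˣ) (b1 b2 b3 : Fin chevE7.nroots) : K :=
  (u b3 : K) * σ (u b2 : K) * σ (σ (u b1 : K))

theorem dl_ne (σ : K ≃+* K) (u : Fin chevE7.nroots → Kˣ) (b1 b2 b3 : Fin chevE7.nroots) : dl σ u b1 b2 b3 ≠ 0 := by
  unfold dl
  simp

theorem Fm3_xG (hu : hFE.RootAct g ρ u) {b1 b2 b3 : Fin chevE7.nroots} (h12 : ρ b1 = b2) (h23 : ρ b2 = b3)
    (h31 : ρ b3 = b1) (t : K) :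
    Fm σ g (Fm σ g (Fm σ g (hFE.c.xG b1 t))) = hFE.c.xG b1 (dl σ u b1 b2 b3 * σ (σ (σ t))) := by
  rw [Fm_xG hu, h12, Fm_xG hu, h23, Fm_xG hu, h31]
  congr 1
  unfold dl
  simp only [map_mul]
  ring

theorem Fm3_T (hu : hFE.RootAct g ρ u) {b1 b2 b3 : Fin chevE7.nroots} (h12 : ρ b1 = b2) (h23 : ρ b2 = b3)
    (h31 : ρ b3 = b1) (a b c : K) :
    Fm σ g (Fm σ g (Fm σ g (T b1 a b c))) = T b1 (dl σ u b1 b2 b3 * σ (σ (σ a)))
      ((dl σ u b1 b2 b3)⁻¹ * σ (σ (σ b))) (dl σ u b1 b2 b3 * σ (σ (σ c))) := by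
  rw [Fm_T hu, h12, Fm_T hu, h23, Fm_T hu, h31]
  congr 1
  · unfold dl
    simp only [map_mul]
    ring
  · unfold dl
    simp only [map_mul, map_inv₀, mul_inv]
    ring
  · unfold dl
    simp only [map_mul]
    ring

theorem Fm_iter {Y₁ : GL chevE7.Idx K} (hs : glM chevE7 (σ : K →+* K) Y₁ = Y₁ * g) (k : ℕ) (x : GL chevE7.Idx K) :
    (Fm σ g)^[k] x = Y₁⁻¹ * (glM chevE7 (σ : K →+* K))^[k] (Y₁ * x * Y₁⁻¹) * Y₁ := by
  induction k with
  | zero =>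
    simp only [Function.iterate_zero, id]
    group
  | succ k ih =>
    rw [Function.iterate_succ_apply', Function.iterate_succ_apply', ih, Fm_apply]
    simp only [map_mul, map_inv, hs]
    group

theorem sg_iter (k : ℕ) (x : GL chevE7.Idx K) (i j : chevE7.Idx) :
    (((glM chevE7 (σ : K →+* K))^[k] x : GL chevE7.Idx K) : Matrix chevE7.Idx chevE7.Idx K) i j =
      σ^[k] ((x : Matrix chevE7.Idx chevE7.Idx K) i j) := by
  induction k with
  | zero => rfl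
  | succ k ih =>
    rw [Function.iterate_succ_apply', Function.iterate_succ_apply', glM_val, Matrix.map_apply, ih]
    rfl

theorem Fm_iter36 [Fintype K] {q : ℕ} (hσ : ∀ x : K, σ x = x ^ q) (hK : Fintype.card K = q ^ 36)
    {Y₁ : GL chevE7.Idx K} (hs : glM chevE7 (σ : K →+* K) Y₁ = Y₁ * g) (x : GL chevE7.Idx K) :
    (Fm σ g)^[36] x = x := by
  have h1 : ∀ (k : ℕ) (a : K), σ^[k] a = a ^ (q ^ k) := by
    intro k a
    induction k with
    | zero => simp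
    | succ k ih =>
      rw [Function.iterate_succ_apply', ih, hσ, ← pow_mul, pow_succ]
  have h2 : ∀ y : GL chevE7.Idx K, (glM chevE7 (σ : K →+* K))^[36] y = y := by
    intro y
    apply Units.ext
    ext i j
    rw [sg_iter, h1, ← hK, FiniteField.pow_card]
  rw [Fm_iter hs, h2]
  group

end act

/-- `1 + Q + ... + Q^(k-1)`. -/
def gg (Q : ℕ) : ℕ → ℕ
  | 0 => 0
  | k + 1 => 1 + Q * gg Q k

theorem gg_pos (Q k : ℕ) : 0 < gg Q (k + 1) := by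
  show 0 < 1 + Q * gg Q k
  omega

theorem gg_spec (P k : ℕ) : gg (P + 1) k * P + 1 = (P + 1) ^ k := by
  induction k with
  | zero => simp [gg]
  | succ k ih =>
    rw [pow_succ, ← ih]
    simp only [gg]
    ring

theorem Fm3k {σ : K ≃+* K} {g : GL chevE7.Idx K} {ρ : Perm (Fin chevE7.nroots)} {u : Fin chevE7.nroots → Kˣ}
    (hu : hFE.RootAct g ρ u) {b1 b2 b3 : Fin chevE7.nroots} (h12 : ρ b1 = b2) (h23 : ρ b2 = b3)
    (h31 : ρ b3 = b1) {Q : ℕ} (hQ : ∀ x : K, σ (σ (σ x)) = x ^ Q) (k : ℕ) :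
    (Fm σ g)^[3 * k] (hFE.c.xG b1 1) = hFE.c.xG b1 (dl σ u b1 b2 b3 ^ gg Q k) := by
  induction k with
  | zero => simp [gg]
  | succ k ih =>
    have e : 3 * (k + 1) = 3 + 3 * k := by ring
    rw [e, Function.iterate_add_apply, ih]
    show Fm σ g (Fm σ g (Fm σ g _)) = _
    rw [Fm3_xG hu h12 h23 h31, hQ]
    congr 1
    simp only [gg]
    rw [pow_add, pow_one, ← pow_mul, mul_comm (gg Q k) Q]

section field

variable [Fintype K]

theorem exists_gen {Q : ℕ} (hK : Fintype.card K = Q ^ 12) :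
    ∃ γ : Kˣ, orderOf γ = Q ^ 12 - 1 ∧ ∀ x : Kˣ, ∃ i : ℕ, x = γ ^ i := by
  classical
  obtain ⟨γ, hγ⟩ := IsCyclic.exists_generator (α := Kˣ)
  refine ⟨γ, ?_, ?_⟩
  · rw [orderOf_eq_card_of_forall_mem_zpowers hγ, Nat.card_eq_fintype_card, Fintype.card_units, hK]
  · intro x
    have h := (mem_powers_iff_mem_zpowers (x := γ) (y := x)).2 (hγ x)
    obtain ⟨i, hi⟩ := h
    exact ⟨i, hi.symm⟩

theorem exists_b_aux {G P : ℕ} (hG : 0 < G) {γ : Kˣ} (hγ : orderOf γ = G * P) (hall : ∀ x : Kˣ, ∃ i : ℕ, x = γ ^ i)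
    {δ : K} (h0 : δ ≠ 0) (h : δ ^ G = 1) : ∃ b : K, b ≠ 0 ∧ b ^ (P + 1) = δ * b := by
  obtain ⟨i, hi⟩ := hall (Units.mk0 δ h0)
  have h1 : (γ ^ i) ^ G = 1 := by
    rw [← hi]
    apply Units.ext
    simp [h]
  rw [← pow_mul, ← orderOf_dvd_iff_pow_eq_one, hγ, mul_comm i] at h1
  obtain ⟨j, rfl⟩ := Nat.dvd_of_mul_dvd_mul_left hG h1
  refine ⟨(γ ^ j : Kˣ), Units.ne_zero _, ?_⟩
  have h4 : ((γ ^ (P * j) : Kˣ) : K) = δ := by
    rw [← hi]
    rfl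
  rw [← h4]
  push_cast
  rw [← pow_add, ← pow_mul]
  congr 1
  ring

theorem exists_b {Q : ℕ} (hQ : 2 ≤ Q) (hK : Fintype.card K = Q ^ 12) {δ : K} (h0 : δ ≠ 0)
    (h : δ ^ gg Q 12 = 1) : ∃ b : K, b ≠ 0 ∧ b ^ Q = δ * b := by
  obtain ⟨γ, hγ, hall⟩ := exists_gen hK
  obtain ⟨P, rfl⟩ : ∃ P, Q = P + 1 := ⟨Q - 1, by omega⟩
  refine exists_b_aux (gg_pos _ 11) ?_ hall h0 h
  rw [hγ, ← gg_spec P 12, Nat.add_sub_cancel]

theorem exists_xi {Q : ℕ} (hQ : 2 ≤ Q) (hK : Fintype.card K = Q ^ 12) :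
    ∃ ξ : K, (ξ ^ Q) ^ Q = ξ ∧ ξ ^ Q ≠ ξ := by
  obtain ⟨γ, hγ, hall⟩ := exists_gen hK
  obtain ⟨P, rfl⟩ : ∃ P, Q = P + 1 := ⟨Q - 1, by omega⟩
  have hP : 1 ≤ P := by omega
  set h := gg ((P + 1) ^ 2) 6 with hh
  have hhpos : 0 < h := gg_pos _ 5
  have e1 : (P + 1) ^ 12 - 1 = h * (P * (P + 2)) := by
    have := gg_spec (P * (P + 2)) 6
    have e : P * (P + 2) + 1 = (P + 1) ^ 2 := by ring
    rw [e] at this
    rw [hh]
    have e' : ((P + 1) ^ 2) ^ 6 = (P + 1) ^ 12 := by ring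
    rw [e'] at this
    omega
  refine ⟨((γ ^ h : Kˣ) : K), ?_, ?_⟩
  · have h1 : (γ ^ h) ^ (P * (P + 2)) = 1 := by
      rw [← pow_mul, ← orderOf_dvd_iff_pow_eq_one, hγ, e1]
    have h2 : ((γ ^ h) ^ (P + 1)) ^ (P + 1) = γ ^ h := by
      rw [← pow_mul]
      have e : (P + 1) * (P + 1) = P * (P + 2) + 1 := by ring
      rw [e, pow_succ, h1, one_mul]
    exact_mod_cast congrArg (fun x : Kˣ => (x : K)) h2
  · intro h1
    have h2 : (γ ^ h) ^ (P + 1) = γ ^ h := Units.ext (by exact_mod_cast h1)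
    have h3 : (γ ^ h) ^ P = 1 := by
      rw [pow_succ] at h2
      exact mul_eq_right.mp h2
    rw [← pow_mul, ← orderOf_dvd_iff_pow_eq_one, hγ, e1] at h3
    have h4 : h * (P * (P + 2)) ≤ h * P := Nat.le_of_dvd (Nat.mul_pos hhpos hP) h3
    have h5 : P * (P + 2) ≤ P := Nat.le_of_mul_le_mul_left h4 hhpos
    nlinarith

end field

/-! ### Words -/

theorem wS_eq {j : ℕ} (hj : j < chevE7.rank) : wS j = hFE.wPerm hj := by
  unfold wS
  rw [dif_pos hj]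

theorem wS_sq (j : ℕ) : wS j * wS j = 1 := by
  unfold wS
  split_ifs with h
  · ext s
    exact congrArg (fun n : ℕ => n) (hFE.wf_wf h s.2)
  · rfl

theorem wW_append (L L' : List ℕ) : wW (L ++ L') = wW L * wW L' := by
  simp [wW]

theorem wW_rev (L : List ℕ) : (wW L)⁻¹ = wW L.reverse := by
  induction L with
  | nil => simp [wW]
  | cons j L ih =>
    have e : (wS j)⁻¹ = wS j := inv_eq_of_mul_eq_one_left (wS_sq j)
    rw [wW_cons, _root_.mul_inv_rev, ih, List.reverse_cons, wW_append, wW_cons, e]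
    simp [wW]

theorem rhoN_word (L : List ℕ) (hL : ∀ i ∈ L, i < chevE7.rank) :
    hFE.rhoN K ⟨hFE.wordN L, hFE.wordN_mem_monomial L hL⟩ = wW L := by
  induction L with
  | nil =>
    have e : (⟨hFE.wordN [], hFE.wordN_mem_monomial [] hL⟩ : ↥(chevE7.monomialSubgroup K)) = 1 := by
      apply Subtype.ext
      rfl
    rw [e, map_one]
    rfl
  | cons j L ih =>
    have hL' : ∀ i ∈ L, i < chevE7.rank := fun i hi => hL i (List.mem_cons_of_mem _ hi)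
    have hj : j < chevE7.rank := hL j List.mem_cons_self
    have e : (⟨hFE.wordN (j :: L), hFE.wordN_mem_monomial _ hL⟩ : ↥(chevE7.monomialSubgroup K)) =
        hFE.nN hj * ⟨hFE.wordN L, hFE.wordN_mem_monomial L hL'⟩ := by
      apply Subtype.ext
      exact hFE.wordN_cons j L
    rw [e, map_mul, hFE.rhoN_nN, ih hL', wW_cons, wS_eq hj]

/-! ### Commuting -/

/-- Two roots whose root elements commute. -/
def okPair (r s : ℕ) : Prop := s ≠ r ∧ s ≠ chevE7.neg r ∧ chevE7.commTerms r s = []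

theorem xGc {r s : ℕ} (hr : r < chevE7.nroots) (hs : s < chevE7.nroots) (h : okPair r s) (a b : K) :
    Commute (hFE.c.xG r a) (hFE.c.xG s b) := by
  have h4 := hFE.xG_comm hr hs h.1 h.2.1 a b
  show hFE.c.xG r a * hFE.c.xG s b = hFE.c.xG s b * hFE.c.xG r a
  rw [h4]
  simp [ChevalleyDatum.commWord, h.2.2, Checks.wordG_nil]

theorem ok1 : okPair 89 107 ∧ okPair 89 (chevE7.neg 107) ∧ okPair (chevE7.neg 89) 107 ∧
    okPair (chevE7.neg 89) (chevE7.neg 107) := by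
  unfold okPair
  decide +kernel

theorem ok2 : okPair 89 114 ∧ okPair 89 (chevE7.neg 114) ∧ okPair (chevE7.neg 89) 114 ∧
    okPair (chevE7.neg 89) (chevE7.neg 114) := by
  unfold okPair
  decide +kernel

theorem T_commute {s s' : Fin chevE7.nroots} (h1 : okPair s s') (h2 : okPair s (chevE7.neg s'))
    (h3 : okPair (chevE7.neg s) s') (h4 : okPair (chevE7.neg s) (chevE7.neg s')) (a b c a' b' c' : K) :
    Commute (T s a b c) (T s' a' b' c') := by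
  have A : ∀ a b : K, Commute (hFE.c.xG s a) (hFE.c.xG s' b) := xGc s.2 s'.2 h1
  have B : ∀ a b : K, Commute (hFE.c.xG s a) (hFE.c.xG (hFE.negF s') b) := xGc s.2 (hFE.negF s').2 h2
  have C : ∀ a b : K, Commute (hFE.c.xG (hFE.negF s) a) (hFE.c.xG s' b) := xGc (hFE.negF s).2 s'.2 h3
  have E : ∀ a b : K, Commute (hFE.c.xG (hFE.negF s) a) (hFE.c.xG (hFE.negF s') b) :=
    xGc (hFE.negF s).2 (hFE.negF s').2 h4
  unfold T
  refine Commute.mul_left (Commute.mul_left ?_ ?_) ?_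
  · exact Commute.mul_right (Commute.mul_right (A _ _) (B _ _)) (A _ _)
  · exact Commute.mul_right (Commute.mul_right (C _ _) (E _ _)) (C _ _)
  · exact Commute.mul_right (Commute.mul_right (A _ _) (B _ _)) (A _ _)

/-- The word of the twisting element. -/
def Lb : List ℕ := [6, 5, 3, 4, 2, 3]

/-- The word of the final twisting element. -/
def L₂ : List ℕ := [6, 5, 3, 4, 2, 3, 1, 3, 2, 4, 3, 5, 6, 0, 1, 2, 3, 4, 5]

theorem wW_L₂ : wW L₂ = wW Lb * wS 1 * (wW Lb)⁻¹ * wW [0, 1, 2, 3, 4, 5] := by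
  rw [wW_rev]
  have e : L₂ = Lb ++ ([1] ++ (Lb.reverse ++ [0, 1, 2, 3, 4, 5])) := by decide
  rw [e, wW_append, wW_append, wW_append, mul_assoc, mul_assoc]
  simp [wW]

/-- **The change of twisting element.** -/
theorem exists_switch [Fintype K] (σ : K ≃+* K) (q : ℕ) (hσ : ∀ x : K, σ x = x ^ q) (hK : Fintype.card K = q ^ 36)
    {Y₁ : GL chevE7.Idx K} (hY₁ : Y₁ ∈ chevE7.group K) {τ₁ : GL chevE7.Idx K} (hτ₁ : τ₁ ∈ chevE7.diagonalSubgroup K)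
    (hs : glM chevE7 (σ : K →+* K) Y₁ = Y₁ * (hFE.wordN [0, 1, 2, 3, 4, 5] * τ₁)) :
    ∃ Y ∈ chevE7.group K, ∃ n : ↥(chevE7.monomialSubgroup K), ∃ τ ∈ chevE7.diagonalSubgroup K,
      glM chevE7 (σ : K →+* K) Y = Y * (n.1 * τ) ∧ hFE.rhoN K n = wW L₂ := by
  classical
  have hL₀ : ∀ i ∈ [0, 1, 2, 3, 4, 5], i < chevE7.rank := by decide
  have hLb : ∀ i ∈ Lb, i < chevE7.rank := by decide
  let n₀ : ↥(chevE7.monomialSubgroup K) := ⟨hFE.wordN [0, 1, 2, 3, 4, 5], hFE.wordN_mem_monomial _ hL₀⟩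
  let t₁ : ↥(chevE7.monomialSubgroup K) := ⟨τ₁, hFE.c.diagonal_le_monomial hτ₁⟩
  have hn₀ : hFE.rhoN K n₀ = wW [0, 1, 2, 3, 4, 5] := rhoN_word _ hL₀
  have ht₁ : hFE.rhoN K t₁ = 1 := hFE.rhoN_of_mem_diagonal t₁ hτ₁
  set n₁ := n₀ * t₁ with hn₁
  set g₁ : GL chevE7.Idx K := n₁.1 with hg₁
  have hg₁' : g₁ = hFE.wordN [0, 1, 2, 3, 4, 5] * τ₁ := rfl
  obtain ⟨u, hu⟩ := hFE.rhoN_spec n₁
  set ρ := hFE.rhoN K n₁ with hρdef
  have hρ : ρ = wW [0, 1, 2, 3, 4, 5] := by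
    rw [hρdef, hn₁, map_mul, ht₁, mul_one, hn₀]
  let b1 : Fin chevE7.nroots := ⟨89, by decide⟩
  let b2 : Fin chevE7.nroots := ⟨107, by decide⟩
  let b3 : Fin chevE7.nroots := ⟨114, by decide⟩
  have h12 : ρ b1 = b2 := Fin.ext (by
    rw [hρ, wW_apply _ (by decide)]
    decide +kernel)
  have h23 : ρ b2 = b3 := Fin.ext (by
    rw [hρ, wW_apply _ (by decide)]
    decide +kernel)
  have h31 : ρ b3 = b1 := Fin.ext (by
    rw [hρ, wW_apply _ (by decide)]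
    decide +kernel)
  have hs' : glM chevE7 (σ : K →+* K) Y₁ = Y₁ * g₁ := hs
  have hq2 : 2 ≤ q := by
    have h1 : 1 < Fintype.card K := Fintype.one_lt_card
    rw [hK] at h1
    by_contra hlt
    have : q = 0 ∨ q = 1 := by omega
    rcases this with rfl | rfl <;> simp at h1
  set Q := q ^ 3 with hQdef
  have hQ : ∀ x : K, σ (σ (σ x)) = x ^ Q := by
    intro x
    rw [hσ, hσ, hσ, ← pow_mul, ← pow_mul, hQdef]
    congr 1
    ring
  have hK12 : Fintype.card K = Q ^ 12 := by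
    rw [hK, hQdef, ← pow_mul]
  have hQ2 : 2 ≤ Q := le_trans hq2 (Nat.le_self_pow (by norm_num) q)
  set F := Fm σ g₁ with hF
  set δ := dl σ u b1 b2 b3 with hδ
  have hnorm : δ ^ gg Q 12 = 1 := by
    have h1 := Fm3k (σ := σ) hu h12 h23 h31 hQ 12
    have h2 : (Fm σ g₁)^[3 * 12] (hFE.c.xG b1 (1 : K)) = hFE.c.xG b1 (1 : K) := Fm_iter36 hσ hK hs' _
    rw [h1] at h2
    exact hFE.xG_param_inj b1.2 h2
  obtain ⟨b, hb0, hb⟩ := exists_b hQ2 hK12 (dl_ne σ u b1 b2 b3) hnorm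
  obtain ⟨ξ, hξ1, hξ2⟩ := exists_xi hQ2 hK12
  set ξ' := ξ ^ Q with hξ'
  have hsξ : σ (σ (σ ξ)) = ξ' := hQ ξ
  have hsξ' : σ (σ (σ ξ')) = ξ := by
    rw [hQ]
    exact hξ1
  have hη : ξ - ξ' ≠ 0 := sub_ne_zero.2 (Ne.symm hξ2)
  set l := (ξ - ξ')⁻¹ with hl
  have hl0 : l ≠ 0 := inv_ne_zero hη
  have hl1 : (ξ - ξ') * l = 1 := mul_inv_cancel₀ hη
  have hsl : σ (σ (σ l)) = -l := by
    rw [hl, map_inv₀, map_inv₀, map_inv₀, map_sub, map_sub, map_sub, hsξ, hsξ', ← neg_sub ξ ξ', inv_neg]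
  have hsb : σ (σ (σ b)) = δ * b := by
    rw [hQ]
    exact hb
  have hδ0 : δ ≠ 0 := dl_ne σ u b1 b2 b3
  set y := T b1 ((ξ - 1) / b) b ((l - 1) / b) with hy
  set t₀ := -l / b with ht₀
  have hy3 : F (F (F y)) = y * hFE.c.nG b1 t₀ := by
    rw [hy, hF, Fm3_T hu h12 h23 h31, ← hδ, ht₀, T_nG b1 hb0 hl0 hl1]
    congr 1
    · rw [map_div₀, map_div₀, map_div₀, map_sub, map_sub, map_sub, map_one, map_one, map_one, hsξ, hsb]
      field_simp
    · rw [hsb]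
      field_simp
    · rw [map_div₀, map_div₀, map_div₀, map_sub, map_sub, map_sub, map_one, map_one, map_one, hsl, hsb]
      field_simp
  set y₁ := F y with hy₁
  set y₂ := F y₁ with hy₂
  have e1 : ∃ a' b' c', y₁ = T b2 a' b' c' := ⟨_, _, _, by rw [hy₁, hy, hF, Fm_T hu, h12]⟩
  obtain ⟨a₁, b₁, c₁, e1⟩ := e1
  have e2 : ∃ a' b' c', y₂ = T b3 a' b' c' := ⟨_, _, _, by rw [hy₂, e1, hF, Fm_T hu, h23]⟩
  obtain ⟨a₂, b₂, c₂, e2⟩ := e2
  have c1 : Commute y y₁ := by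
    rw [e1, hy]
    exact T_commute ok1.1 ok1.2.1 ok1.2.2.1 ok1.2.2.2 _ _ _ _ _ _
  have c2 : Commute y y₂ := by
    rw [e2, hy]
    exact T_commute ok2.1 ok2.2.1 ok2.2.2.1 ok2.2.2.2 _ _ _ _ _ _
  set Y₂ := y * y₁ * y₂ with hY₂
  have hY₂G : Y₂ ∈ chevE7.group K := by
    rw [hY₂, e1, e2, hy]
    exact mul_mem (mul_mem (T_mem _ _ _ _) (T_mem _ _ _ _)) (T_mem _ _ _ _)
  have hFY : F Y₂ = Y₂ * hFE.c.nG b1 t₀ := by
    have e3 : F y₂ = y * hFE.c.nG b1 t₀ := hy3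
    rw [hY₂, map_mul, map_mul, e3]
    show y₁ * y₂ * (y * _) = _
    rw [← mul_assoc, mul_assoc y y₁ y₂, ((c1.mul_right c2).eq).symm]
  -- the monomial element
  let w : ↥(chevE7.monomialSubgroup K) := ⟨hFE.wordN Lb, hFE.wordN_mem_monomial _ hLb⟩
  have hw : hFE.rhoN K w = wW Lb := rhoN_word _ hLb
  obtain ⟨uw, huw⟩ := hFE.rhoN_spec w
  have h1r : (1 : ℕ) < chevE7.rank := by decide
  set p := hFE.pF ⟨1, h1r⟩ with hp
  have hwp : hFE.rhoN K w p = b1 := Fin.ext (by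
    rw [hw, wW_apply _ (by decide)]
    show evw Lb (chevE7.simple 1) = 89
    decide +kernel)
  have ht₀0 : t₀ ≠ 0 := by
    rw [ht₀]
    exact div_ne_zero (neg_ne_zero.2 hl0) hb0
  set cc := t₀ / (uw p : K) with hcc
  have hcc0 : cc ≠ 0 := div_ne_zero ht₀0 (Units.ne_zero _)
  have e4 := huw.conj_nG p cc
  have e5 : (uw p : K) * cc = t₀ := by
    rw [hcc]
    field_simp
  rw [hwp, e5] at e4
  have e6 : hFE.c.nG p cc = hFE.c.hG p cc * hFE.nS 1 := hFE.c.nG_eq_hG_mul _ _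
  have hh₀ : hFE.c.hG p cc ∈ chevE7.diagonalSubgroup K := hFE.c.hG_mem_diagonal p.2 hcc0
  let h₀ : ↥(chevE7.monomialSubgroup K) := ⟨hFE.c.hG p cc, hFE.c.diagonal_le_monomial hh₀⟩
  have hh₀r : hFE.rhoN K h₀ = 1 := hFE.rhoN_of_mem_diagonal h₀ hh₀
  let n' : ↥(chevE7.monomialSubgroup K) := w * (h₀ * hFE.nN h1r) * w⁻¹
  have hn' : n'.1 = hFE.c.nG b1 t₀ := by
    rw [← e4, e6]
    rfl
  have hn'r : hFE.rhoN K n' = wW Lb * wS 1 * (wW Lb)⁻¹ := by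
    simp only [n', map_mul, map_inv, hw, hh₀r, one_mul, hFE.rhoN_nN, wS_eq h1r]
  refine ⟨Y₁ * Y₂, mul_mem hY₁ hY₂G, n' * n₀, τ₁, hτ₁, ?_, ?_⟩
  · have e7 : glM chevE7 (σ : K →+* K) Y₂ = g₁⁻¹ * F Y₂ * g₁ := by
      rw [hF, Fm_apply]
      group
    rw [map_mul, hs', e7, hFY, Subgroup.coe_mul, hn']
    show Y₁ * g₁ * (g₁⁻¹ * (Y₂ * hFE.c.nG b1 t₀) * g₁) = _
    rw [hg₁']
    group
    rfl
  · rw [map_mul, hn'r, hn₀, wW_L₂]

end

end Cfsg.Agent.Lib.TwE7S32
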