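import Cfsg.Agent.Lib.TwE6N32
import Cfsg.Agent.Lib.TwE7S32
import Cfsg.Agent.Lib.TwE7D32
import Cfsg.Agent.Lib.TwE7L32

/-!
# The self-centralising cyclic subgroup of `E₇(q)`: the theorem
-/

set_option autoImplicit false
set_option maxRecDepth 100000
set_option linter.unusedSectionVars false
set_option linter.unusedVariables false
set_option linter.unusedSimpArgs false

namespace Cfsg.Agent.Lib.TwE7P32

open Cfsg Cfsg.Lie Cfsg.Agent.Lib.Chev Matrix Cfsg.Agent.Lib.ChevFix Cfsg.Agent.Lib.TwTor32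
open Cfsg.Agent.Lib.TwE7G32 Cfsg.Agent.Lib.TwE7GT32 Cfsg.Agent.Lib.StE732 Cfsg.Agent.Lib.TwE7D32 Polynomial

variable {K : Type*} [Field K]

theorem cert_mat : ∀ k m : Fin chevE7.rank,
    RootE7T.R.rcAt (evw TwE7S32.L₂ (chevE7.simple k)) m = ent AL m k := by
  decide +kernel

theorem mat_L₂ : mat hFE (wW TwE7S32.L₂) = A₀ := by
  ext m k
  show RootE7T.R.rcAt (wW TwE7S32.L₂ (hFE.pF k)) m = ent AL m k
  rw [wW_apply _ (by decide)]
  exact cert_mat k m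

theorem Xc_col0 (c : Fin chevE7.rank → Kˣ) : Xc c (colV 0) = chiT chevE7 c 29 := by
  rw [colV0_eq, Xc_rc hFE c (by decide)]

theorem not_two_dvd (a : ℕ) : ¬ (2 : ℤ) ∣ Nq ((2 * a : ℕ) : ℤ) := by
  intro h1
  have e : Nq ((2 * a : ℕ) : ℤ) = 1 + 2 * ((2 : ℤ) ^ 6 * a ^ 7 - 2 ^ 4 * a ^ 5 + 2 ^ 3 * a ^ 4 + 2 ^ 2 * a ^ 3 - 2 * a ^ 2) := by
    unfold Nq
    push_cast
    ring
  rw [e] at h1
  have h2 : (2 : ℤ) ∣ 1 := (Int.dvd_add_left (Dvd.intro _ rfl)).1 h1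
  omega

/-- An element whose square has order `N`. -/
theorem exists_sq_root [Fintype K] (q N : ℕ) (hq2 : 2 ≤ q) (hKq : Fintype.card K = q ^ 36)
    (hN : (N : ℤ) = Nq q) (hN0 : 0 < N) :
    ∃ z₁ : Kˣ, orderOf (z₁ ^ 2) = N := by
  classical
  obtain ⟨γ, hγ⟩ := IsCyclic.exists_generator (α := Kˣ)
  set Q₁ := q ^ 36 - 1 with hQ₁
  have hq36 : 1 ≤ q ^ 36 := Nat.one_le_pow _ _ (by omega)
  have hordγ : orderOf γ = Q₁ := by
    rw [orderOf_eq_card_of_forall_mem_zpowers hγ, Nat.card_eq_fintype_card, Fintype.card_units, hKq]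
  have hQ0 : 0 < Q₁ := by
    have : 2 ^ 36 ≤ q ^ 36 := Nat.pow_le_pow_left hq2 36
    omega
  have hgen : ∀ t : ℕ, t ∣ Q₁ → 0 < t → orderOf (γ ^ (Q₁ / t)) = t := by
    intro t ht ht0
    have h0 : Q₁ / t ≠ 0 := (Nat.div_pos (Nat.le_of_dvd hQ0 ht) ht0).ne'
    rw [orderOf_pow' γ h0, hordγ, Nat.gcd_eq_right (Nat.div_dvd_of_dvd ht), Nat.div_div_self ht hQ0.ne']
  have hQcast : ((Q₁ : ℕ) : ℤ) = (q : ℤ) ^ 36 - 1 := by
    rw [hQ₁, Nat.cast_sub hq36]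
    push_cast
    rfl
  by_cases h2 : 2 ∣ q
  · have hNQ : (N : ℤ) ∣ (Q₁ : ℤ) := by
      rw [hN, hQcast]
      refine ⟨((q : ℤ) ^ 3 - 1) * ((q : ℤ) ^ 2 + 1) * ((q : ℤ) ^ 24 + (q : ℤ) ^ 12 + 1), ?_⟩
      unfold Nq
      ring
    have hNd : N ∣ Q₁ := by exact_mod_cast hNQ
    have hN2 : ¬ 2 ∣ N := by
      intro h
      obtain ⟨a, rfl⟩ := h2
      have h1 : (2 : ℤ) ∣ (N : ℤ) := by exact_mod_cast h
      rw [hN] at h1
      exact not_two_dvd a h1
    refine ⟨γ ^ (Q₁ / N), ?_⟩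
    rw [orderOf_pow' _ (by norm_num), hgen N hNd hN0]
    have : Nat.gcd N 2 = 1 := by
      have := (Nat.Prime.coprime_iff_not_dvd Nat.prime_two).2 hN2
      rwa [Nat.Coprime, Nat.gcd_comm] at this
    rw [this, Nat.div_one]
  · have h2N : 2 * N ∣ Q₁ := by
      obtain ⟨a, ha⟩ : ∃ a : ℕ, q = 2 * a + 1 := ⟨q / 2, by omega⟩
      have h3 : (2 * N : ℤ) ∣ (Q₁ : ℤ) := by
        rw [hN, hQcast]
        refine ⟨((q : ℤ) ^ 3 - 1) * (2 * (a : ℤ) ^ 2 + 2 * a + 1) * ((q : ℤ) ^ 24 + (q : ℤ) ^ 12 + 1), ?_⟩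
        have e : (q : ℤ) ^ 2 + 1 = 2 * (2 * (a : ℤ) ^ 2 + 2 * a + 1) := by
          rw [ha]
          push_cast
          ring
        have e2 : (q : ℤ) ^ 36 - 1 = Nq q * ((q : ℤ) ^ 3 - 1) * ((q : ℤ) ^ 2 + 1) * ((q : ℤ) ^ 24 + (q : ℤ) ^ 12 + 1) := by
          unfold Nq
          ring
        rw [e2, e]
        ring
      exact_mod_cast h3
    refine ⟨γ ^ (Q₁ / (2 * N)), ?_⟩
    rw [orderOf_pow' _ (by norm_num), hgen (2 * N) h2N (by omega), Nat.gcd_eq_right (Nat.dvd_mul_right 2 N),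
      Nat.mul_div_cancel_left _ (by norm_num)]

/-- The roots of special shape. -/
theorem exc_contra (q e p j M : ℕ) (ε : ℤ) (hε : ε = 1 ∨ ε = -1) (hM : 0 < M) (hq : 2 ≤ q)
    (he : e = 1 ∨ (e = 2 ∧ 3 ≤ q)) (hp : p ≤ 7) (hp0 : 0 < p)
    (h : ((M * (q ^ 3 + 1) : ℕ) : ℤ) ∣ ε * (q : ℤ) ^ j * (M : ℤ) * (e : ℤ) * (p : ℤ)) : False := by
  have h1 : ((M * (q ^ 3 + 1) : ℕ) : ℤ) ∣ ((M * (q ^ j * (e * p)) : ℕ) : ℤ) := by
    rcases hε with rfl | rfl
    · have e1 : (1 : ℤ) * (q : ℤ) ^ j * (M : ℤ) * (e : ℤ) * (p : ℤ) = ((M * (q ^ j * (e * p)) : ℕ) : ℤ) := by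
        push_cast
        ring
      rwa [e1] at h
    · have e1 : (-1 : ℤ) * (q : ℤ) ^ j * (M : ℤ) * (e : ℤ) * (p : ℤ) = - ((M * (q ^ j * (e * p)) : ℕ) : ℤ) := by
        push_cast
        ring
      rw [e1] at h
      exact (dvd_neg).1 h
  have h2 : M * (q ^ 3 + 1) ∣ M * (q ^ j * (e * p)) := by exact_mod_cast h1
  have h3 : q ^ 3 + 1 ∣ q ^ j * (e * p) := Nat.dvd_of_mul_dvd_mul_left hM h2
  have hcop : Nat.Coprime (q ^ 3 + 1) q := by
    refine Nat.Coprime.symm ?_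
    unfold Nat.Coprime
    have h4 : Nat.gcd q (q ^ 3 + 1) ∣ 1 := by
      have h5 : Nat.gcd q (q ^ 3 + 1) ∣ q ^ 3 := (Nat.gcd_dvd_left _ _).trans (Dvd.intro_left (q ^ 2) (by ring))
      exact (Nat.dvd_add_right h5).1 (Nat.gcd_dvd_right _ _)
    exact Nat.dvd_one.1 h4
  have h4 : q ^ 3 + 1 ∣ e * p := (Nat.Coprime.pow_right j hcop).dvd_of_dvd_mul_left h3
  have hpos : 0 < e * p := by
    rcases he with rfl | ⟨rfl, -⟩ <;> omega
  have h5 := Nat.le_of_dvd hpos h4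
  rcases he with rfl | ⟨rfl, h3q⟩
  · have := Nat.pow_le_pow_left hq 3
    omega
  · have := Nat.pow_le_pow_left h3q 3
    omega

/-- **The main theorem**, given the extension of degree thirty-six. -/
theorem core {F K : Type*} [Field F] [Fintype F] [Field K] [Fintype K] [Algebra F K] (q : ℕ)
    (hFq : Fintype.card F = q) (hKq : Fintype.card K = q ^ 36) :
    ∃ H : Subgroup ↥(chevE7.group F), IsCyclic ↥H ∧
      Nat.card ↥H = (q ^ 4 - q ^ 2 + 1) * (q ^ 3 + 1) / Nat.gcd 2 (q - 1) ∧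
      Subgroup.centralizer (H : Set ↥(chevE7.group F)) = H := by
  classical
  have hq2 : 2 ≤ q := by
    have := Fintype.one_lt_card (α := F)
    omega
  -- the numbers
  have hq24 : q ^ 2 < q ^ 4 := Nat.pow_lt_pow_right (by omega) (by omega)
  set M := q ^ 4 - q ^ 2 + 1 with hMdef
  have hM : (M : ℤ) = (q : ℤ) ^ 4 - (q : ℤ) ^ 2 + 1 := by
    rw [hMdef, Nat.cast_add, Nat.cast_sub hq24.le]
    push_cast
    ring
  set M₃ := q ^ 3 + 1 with hM₃
  set N := M * M₃ with hNdef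
  have hN : (N : ℤ) = Nq q := by
    rw [hNdef, Nat.cast_mul, hM, hM₃]
    push_cast
    unfold Nq
    ring
  have hM1 : M ≠ 1 := by omega
  have hM0 : 0 < M := by omega
  have hM₃0 : 0 < M₃ := by omega
  have hN0 : 0 < N := Nat.mul_pos hM0 hM₃0
  obtain ⟨r, hr, hrM⟩ := Nat.exists_prime_and_dvd hM1
  haveI : Fact r.Prime := ⟨hr⟩
  have hr2 : r ≠ 2 := by
    rintro rfl
    exact TwE6N32.no_small (by decide) q M hM hrM
  have hr3 : r ≠ 3 := by
    rintro rfl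
    exact TwE6N32.no_small (by decide) q M hM hrM
  have hr5 : r ≠ 5 := by
    rintro rfl
    exact TwE6N32.no_small (by decide) q M hM hrM
  have hr7 : r ≠ 7 := by
    rintro rfl
    exact TwE6N32.no_small (by decide) q M hM hrM
  have hrZ : (r : ℤ) ∣ (M : ℤ) := by exact_mod_cast hrM
  have hqr : (r : ℤ) ∣ (q : ℤ) ^ 4 - (q : ℤ) ^ 2 + 1 := by
    rw [← hM]
    exact hrZ
  have hrq : ¬ r ∣ q := by
    intro h
    have h1 : (r : ℤ) ∣ (q : ℤ) := by exact_mod_cast h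
    have h6 : (r : ℤ) ∣ 1 := by
      have e : (1 : ℤ) = ((q : ℤ) ^ 4 - (q : ℤ) ^ 2 + 1) - (q : ℤ) * ((q : ℤ) ^ 3 - (q : ℤ)) := by ring
      rw [e]
      exact dvd_sub hqr (h1.mul_right _)
    have h8 : r ∣ 1 := by exact_mod_cast h6
    exact hr.one_lt.ne' (Nat.dvd_one.1 h8)
  -- the field
  have hrK : r ∣ Fintype.card K - 1 := by
    rw [hKq]
    have h36 : 1 ≤ q ^ 36 := Nat.one_le_pow _ _ (by omega)
    have h2 : (r : ℤ) ∣ ((q ^ 36 - 1 : ℕ) : ℤ) := by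
      rw [Nat.cast_sub h36]
      push_cast
      have e : (q : ℤ) ^ 36 - 1 = ((q : ℤ) ^ 4 - (q : ℤ) ^ 2 + 1) *
          (((q : ℤ) ^ 2 + 1) * ((q : ℤ) ^ 6 - 1) * ((q : ℤ) ^ 24 + (q : ℤ) ^ 12 + 1)) := by ring
      rw [e]
      exact hqr.mul_right _
    exact_mod_cast h2
  have hrG : r ∣ Nat.card ↥(chevE6.group F) := by
    have h1 := OrdE6.card_group (F := F) StE632.hFE
    rw [hFq] at h1
    have h12 : 1 ≤ q ^ 12 := Nat.one_le_pow _ _ (by omega)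
    have h2 : r ∣ q ^ 12 - 1 := by
      have h3 : (r : ℤ) ∣ ((q ^ 12 - 1 : ℕ) : ℤ) := by
        rw [Nat.cast_sub h12]
        push_cast
        have e : (q : ℤ) ^ 12 - 1 = ((q : ℤ) ^ 4 - (q : ℤ) ^ 2 + 1) * (((q : ℤ) ^ 2 + 1) * ((q : ℤ) ^ 6 - 1)) := by ring
        rw [e]
        exact hqr.mul_right _
      exact_mod_cast h3
    have h3 : r ∣ Nat.gcd 3 (q - 1) * Nat.card ↥(chevE6.group F) := by
      rw [h1]
      exact Dvd.dvd.mul_left h2 _
    rcases (Nat.Prime.dvd_mul hr).1 h3 with h4 | h4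
    · have h5 : r ∣ 3 := h4.trans (Nat.gcd_dvd_left _ _)
      exact absurd ((Nat.prime_dvd_prime_iff_eq hr Nat.prime_three).1 h5) hr3
    · exact h4
  -- the Frobenius map
  let σ : K ≃+* K := RingEquiv.ofBijective (FiniteField.frobeniusAlgHom F K : K →ₐ[F] K).toRingHom
    (Finite.injective_iff_bijective.1 (RingHom.injective _))
  have hσ : ∀ x : K, σ x = x ^ q := by
    intro x
    show x ^ Fintype.card F = x ^ q
    rw [hFq]
  let f : F →+* K := algebraMap F K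
  have hfσ : ∀ b, σ (f b) = f b := by
    intro b
    rw [hσ, ← map_pow, ← hFq, FiniteField.pow_card]
  have hf : ∀ a : K, σ a = a → ∃ b, f b = a := by
    intro a ha
    rw [hσ, ← hFq] at ha
    exact TwE6N32.mem_range_of_fixed ha
  -- the data
  obtain ⟨s, hs⟩ := exists_prime_orderOf_dvd_card' r hrG
  have hsr : orderOf s.1 = r := by
    rw [Subgroup.orderOf_coe]
    exact hs
  have hidx := TwE6N32.idx_not_dvd (K := K) hr hr2 hr3 hr5 hrK
  obtain ⟨Y₆, hY₆, n₆, τ₆, hτ₆, hYs₆, hrep₆⟩ := TwE6M32.exists_data f σ q hfσ hσ hr2 hr3 hr5 hqr hrq hidx s.2 hsr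
  have hn₆ : StE632.hFE.rhoN K n₆ = StE632.hFE.rhoN K ⟨StE632.hFE.wordN [0, 1, 2, 3, 4, 5], StE632.hFE.wordN_mem_monomial _ (by decide)⟩ :=
    TwE6M32.rep_unique (StE632.hFE.rhoN_mem_Wk n₆) (StE632.hFE.rhoN_mem_Wk _) hrep₆ TwE6M32.rep_word
  obtain ⟨Y₁, hY₁, τ₁, hτ₁, hs₁⟩ := TwE7L32.exists_twist7 σ hY₆ n₆ hτ₆ hYs₆ hn₆
  obtain ⟨Y, hY, n, τ, hτ, hYs, hρW⟩ := TwE7S32.exists_switch σ q hσ hKq hY₁ hτ₁ hs₁
  set ρ := hFE.rhoN K n with hρdef
  have hρ : ρ ∈ hFE.Wk Set.univ := hFE.rhoN_mem_Wk n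
  have hmat : mat hFE ρ = A₀ := by
    rw [hρW, mat_L₂]
  have tw_form : ∀ {c : Fin chevE7.rank → Kˣ}, Tw hFE n q c → ∀ v, Xc c (A₀ *ᵥ v) = Xc c v ^ q := by
    intro c htw
    have h := Xc_twist hFE hρ c q htw
    rw [hmat] at h
    exact h
  -- the generator
  obtain ⟨z₁, hz₁⟩ := exists_sq_root (K := K) q N hq2 hKq hN hN0
  set z₀ := z₁ ^ 2 with hz₀
  set c₀ := cZ (K := K) (q : ℤ) z₁ with hc₀
  have hX₀ : ∀ v, Xc c₀ v = z₀ ^ EEv q v := Xc_cZ (q : ℤ) z₁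
  have hchi₀ : ∀ s : Fin chevE7.nroots, chiT chevE7 c₀ s = z₀ ^ EEv q (rcV RootE7T.R chevE7 s) := by
    intro s
    rw [← Xc_rc hFE c₀ s.2, hX₀]
  have hzN : z₀ ^ Nq (q : ℤ) = 1 := by
    rw [← hN, zpow_natCast, ← hz₁]
    exact pow_orderOf_eq_one z₀
  have htw₀ : Tw hFE n q c₀ := by
    intro s
    show chiT chevE7 c₀ (ρ s) = _
    rw [hchi₀ (ρ s), hchi₀ s, mat_rc hFE hρ, hmat, EE_A, sub_eq_add_neg, _root_.zpow_add, ← mul_neg,
      _root_.zpow_mul z₀ (Nq (q : ℤ)), hzN, _root_.one_zpow, mul_one, mul_comm, _root_.zpow_mul, zpow_natCast]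
  have he₀ : chiT chevE7 c₀ 29 = z₀ := by
    rw [← Xc_col0, hX₀, EEv_col0, zpow_one]
  have htorpow : ∀ (d : Fin chevE7.rank → Kˣ) (k : ℕ), tor RootE7T.R chevE7 (d ^ k) = (tor RootE7T.R chevE7 d : GL chevE7.Idx K) ^ k :=
    fun d k => map_pow (torHom RootE7T.R chevE7) d k
  have htorzpow : ∀ (d : Fin chevE7.rank → Kˣ) (k : ℤ), tor RootE7T.R chevE7 (d ^ k) = (tor RootE7T.R chevE7 d : GL chevE7.Idx K) ^ k :=
    fun d k => map_zpow (torHom RootE7T.R chevE7) d k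
  -- all twisted elements are powers
  have hall : ∀ c, Tw hFE n q c → ∃ k : ℤ, tor RootE7T.R chevE7 c = (tor RootE7T.R chevE7 c₀ : GL chevE7.Idx K) ^ k := by
    intro c htwc
    have hXtw := tw_form htwc
    have h1 : Xc c (colV 0) ^ N = 1 := by
      rw [← zpow_natCast, hN]
      exact z_pow_N c q hXtw
    obtain ⟨k, hk⟩ := TwE6N32.exists_zpow hN0 hz₁ h1
    refine ⟨k, ?_⟩
    rw [← htorzpow]
    apply tor_eq_of_chi hFE
    intro s
    rw [← Xc_rc hFE c s.2, Xc_form c q hXtw, chiT_zpow', hchi₀ s, hk, ← _root_.zpow_mul, ← _root_.zpow_mul, mul_comm]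
  -- the orders
  have hordt : orderOf (tor RootE7T.R chevE7 c₀ : GL chevE7.Idx K) = N := by
    rw [← hz₁]
    apply orderOf_eq_orderOf_iff.2
    intro k₂
    constructor
    · intro h1
      rw [← htorpow] at h1
      have h2 : tor RootE7T.R chevE7 (c₀ ^ k₂) = (tor RootE7T.R chevE7 (1 : Fin chevE7.rank → Kˣ) : GL chevE7.Idx K) := by
        rw [tor_one, h1]
      have h3 := chi_eq_of_tor hFE h2 ⟨29, by decide⟩
      rw [chiT_pow, chiT_one''] at h3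
      rw [← he₀]
      exact h3
    · intro h1
      rw [← htorpow, ← tor_one (R := RootE7T.R) (D := chevE7)]
      apply tor_eq_of_chi hFE
      intro s
      rw [chiT_pow, chiT_one'', hchi₀, ← zpow_natCast, ← _root_.zpow_mul, mul_comm, _root_.zpow_mul, zpow_natCast, h1,
        _root_.one_zpow]
  set t₀ : GL chevE7.Idx K := tor RootE7T.R chevE7 c₀ with ht₀
  set y₀ : GL chevE7.Idx K := Y * t₀ * Y⁻¹ with hy₀
  have hordy : orderOf y₀ = N := by
    rw [← hordt]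
    exact orderOf_injective (MulAut.conj Y).toMonoidHom (MulAut.conj Y).injective _
  have hfix : glM chevE7 (σ : K →+* K) y₀ = y₀ := (fix_iff σ q hFE hσ n hτ hYs c₀).2 htw₀
  have ht₀G : t₀ ∈ chevE7.group K :=
    hFE.c.monomial_le_group (hFE.c.diagonal_le_monomial ((hFE.mem_diagonal_iff).2 ⟨c₀, rfl⟩))
  have hy₀G : y₀ ∈ chevE7.group K := mul_mem (mul_mem hY ht₀G) (inv_mem hY)
  have hy2 : y₀ ^ 2 ∈ Cfsg.Agent.Lib.ChevFix.G0 chevE7 f :=
    TwFix32.pow_mem_of_fixed hFE σ f hf hfσ 2 adjB adjB_spec2 ⟨y₀, hy₀G⟩ hfix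
  -- the index
  set e := Nat.gcd 2 (q - 1) with he
  have hcases : (q % 2 = 1 ∧ e = 2) ∨ (q % 2 = 0 ∧ e = 1) := by
    by_cases hq3 : q % 2 = 1
    · left
      refine ⟨hq3, ?_⟩
      rw [he]
      exact Nat.gcd_eq_left (by omega)
    · right
      refine ⟨by omega, ?_⟩
      rw [he]
      have h1 : ¬ 2 ∣ q - 1 := by omega
      exact (Nat.Prime.coprime_iff_not_dvd Nat.prime_two).2 h1
  have he0 : e ≠ 0 := by
    rcases hcases with ⟨-, h⟩ | ⟨-, h⟩ <;> omega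
  have heN : e ∣ N := by
    rcases hcases with ⟨h3, h⟩ | ⟨-, h⟩
    · rw [h]
      apply Dvd.dvd.mul_left
      rw [hM₃]
      have h4 : (q ^ 3 + 1) % 2 = 0 := by
        simp [Nat.add_mod, Nat.pow_mod, h3]
      exact Nat.dvd_of_mod_eq_zero h4
    · rw [h]
      exact one_dvd _
  have hordye : orderOf (y₀ ^ e) = N / e := by
    rw [orderOf_pow' _ he0, hordy, Nat.gcd_eq_right heN]
  -- the element of the small group
  have hy : y₀ ^ e ∈ Cfsg.Agent.Lib.ChevFix.G0 chevE7 f := by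
    rcases hcases with ⟨-, h⟩ | ⟨h3, h⟩
    · rw [h]
      exact hy2
    · rw [h, pow_one]
      have hcop : Nat.Coprime 2 N := by
        refine (Nat.Prime.coprime_iff_not_dvd Nat.prime_two).2 ?_
        intro h4
        obtain ⟨a, ha⟩ : ∃ a : ℕ, q = 2 * a := ⟨q / 2, by omega⟩
        have h1 : (2 : ℤ) ∣ (N : ℤ) := by exact_mod_cast h4
        rw [hN, ha] at h1
        exact not_two_dvd a h1
      have hN1 : 1 < N := by
        have : 1 < M := by omega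
        have : 1 ≤ M₃ := by omega
        rw [hNdef]
        nlinarith
      obtain ⟨m, -, hm⟩ := Nat.exists_mul_mod_eq_one_of_coprime hcop hN1
      have e1 : y₀ = (y₀ ^ 2) ^ m := by
        rw [← pow_mul, ← pow_mod_orderOf, hordy, hm, pow_one]
      rw [e1]
      exact pow_mem hy2 m
  obtain ⟨s₀, hs₀, hι⟩ := hy
  -- regularity
  have hreg : ∀ (x : Fin chevE7.nroots) (p : ℕ), (p = 2 ∨ p = 3 ∨ p = 5 ∨ p = 7) → chiT chevE7 (c₀ ^ e) x ^ p ≠ 1 := by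
    intro x p hp h1
    have hp7 : p ≤ 7 := by omega
    have hp0 : 0 < p := by omega
    rw [chiT_pow, hchi₀ x, ← zpow_natCast, ← zpow_natCast, ← _root_.zpow_mul, ← _root_.zpow_mul] at h1
    have h5 := (orderOf_dvd_iff_zpow_eq_one).2 h1
    rw [hz₁, ← mul_assoc] at h5
    cases hx : exc x with
    | false =>
      have h6 : (r : ℤ) ∣ EEv q (rcV RootE7T.R chevE7 x) * ↑e * ↑p := by
        have h7 : (r : ℤ) ∣ (N : ℤ) := by
          have : r ∣ N := hrM.trans (Nat.dvd_mul_right _ _)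
          exact_mod_cast this
        exact h7.trans h5
      have hprime : Prime (r : ℤ) := Nat.prime_iff_prime_int.1 hr
      rcases hprime.dvd_or_dvd h6 with h7 | h7
      · rcases hprime.dvd_or_dvd h7 with h8 | h8
        · refine not_dvd_EE (q := (q : ℤ)) (r := (r : ℤ)) ?_ hqr x hx h8
          intro h9
          have h10 : r ∣ 2 ^ 2 := by exact_mod_cast h9
          exact hr2 ((Nat.prime_dvd_prime_iff_eq hr Nat.prime_two).1 (hr.dvd_of_dvd_pow h10))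
        · have h9 : r ∣ e := by exact_mod_cast h8
          have h10 : r ∣ 2 := h9.trans (Nat.gcd_dvd_left _ _)
          exact hr2 ((Nat.prime_dvd_prime_iff_eq hr Nat.prime_two).1 h10)
      · have h9 : r ∣ p := by exact_mod_cast h7
        rcases hp with rfl | rfl | rfl | rfl
        · exact hr2 ((Nat.prime_dvd_prime_iff_eq hr Nat.prime_two).1 h9)
        · exact hr3 ((Nat.prime_dvd_prime_iff_eq hr Nat.prime_three).1 h9)
        · exact hr5 ((Nat.prime_dvd_prime_iff_eq hr Nat.prime_five).1 h9)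
        · exact hr7 ((Nat.prime_dvd_prime_iff_eq hr (by norm_num)).1 h9)
    | true =>
      obtain ⟨j, ε, hε, hEE⟩ := EE_exc (q : ℤ) x hx
      rw [hEE, ← hM] at h5
      refine exc_contra q e p j M ε hε hM0 hq2 ?_ hp7 hp0 h5
      rcases hcases with ⟨h3, h⟩ | ⟨-, h⟩
      · right
        exact ⟨h, by omega⟩
      · left
        exact h
  have hstab := fun (g' : Equiv.Perm (Fin chevE7.nroots)) (hg' : g' ∈ hFE.Wk Set.univ) hfix' =>
    stab_one (c₀ ^ e) (fun x => ⟨hreg x 2 (by simp), hreg x 3 (by simp), hreg x 5 (by simp), hreg x 7 (by simp)⟩) hg' hfix'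
  obtain ⟨h1, h2⟩ := reg_of_stab (K := K) hFE (c₀ ^ e) hstab
  -- the divisibility
  have hdiv : ∀ (k : ℤ) (g : GL chevE7.Idx F), g ∈ chevE7.group F →
      glM chevE7 f g = Y * t₀ ^ k * Y⁻¹ → (e : ℤ) ∣ k := by
    intro k g hg hgY
    rcases hcases with ⟨hq3, h⟩ | ⟨-, h⟩
    · rw [h]
      obtain ⟨d, hd⟩ : ∃ d, q = 2 * d + 1 := ⟨q / 2, by omega⟩
      set c := c₀ ^ k with hc
      have hgY' : glM chevE7 f g = Y * tor RootE7T.R chevE7 c * Y⁻¹ := by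
        rw [hc, htorzpow, hgY]
      have hLr : ∀ i ∈ TwE7S32.L₂, i < chevE7.rank := by decide
      have hn : hFE.rhoN K n = hFE.rhoN K ⟨hFE.wordN TwE7S32.L₂, hFE.wordN_mem_monomial _ hLr⟩ := by
        rw [TwE7S32.rhoN_word _ hLr]
        exact hρW
      have hstar : Dc c 42 = Dc c 46 ^ q := star σ q hq3 hσ f hfσ hY n hτ hYs TwE7S32.L₂ (by decide) hn c hg hgY'
        (μ₁ := 46) (μ₂ := 42) (by norm_num) (by norm_num) (by decide +kernel)
      have htwc : Tw hFE n q c := Tw.zpow_tw htw₀ k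
      have hinv := inv_rel c q d hd (tw_form htwc) hstar
      rw [Xc_col0, hc, chiT_zpow', he₀, ← _root_.zpow_mul] at hinv
      have h5 := (orderOf_dvd_iff_zpow_eq_one).2 hinv
      rw [hz₁] at h5
      have h6 : (2 : ℤ) * E₀ q d = (N : ℤ) := by
        rw [hN]
        exact two_E₀ (q : ℤ) (d : ℤ) (by rw [hd]; push_cast; ring)
      have hE0 : E₀ (q : ℤ) (d : ℤ) ≠ 0 := by
        intro h7
        rw [h7, mul_zero] at h6
        have : (N : ℤ) ≠ 0 := by exact_mod_cast hN0.ne'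
        exact this h6.symm
      rw [← h6, mul_comm k, mul_comm 2] at h5
      have h8 := (mul_dvd_mul_iff_left hE0).1 h5
      exact_mod_cast h8
    · rw [h]
      simp
  exact TwE6N32.assembly3 f σ q hFE hfσ hσ hY n hτ hYs c₀ e (N / e) h1 h2 hall hs₀ hι hdiv hordye

end Cfsg.Agent.Lib.TwE7P32
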