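import Mathlib
import Cfsg.Agent.Lib.TwRk1
import Cfsg.Agent.Lib.BSec
import Cfsg.Agent.Lib.SteinSL2

/-!
# Lifting homomorphisms from `SL₂(F)` to central extensions with kernel prime to the characteristic
-/

set_option autoImplicit false
set_option linter.unusedSectionVars false
set_option linter.unusedVariables false

namespace Cfsg.Agent.Lib.TwRk1

open Cfsg Cfsg.Agent.Lib.UMSect Cfsg.Agent.Lib.SL2Core Cfsg.Agent.Lib.SL2Bor Cfsg.Agent.Lib.StK
open Cfsg.Agent.Lib.ChevLift.RD (wd)

variable {F : Type*} [Field F]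

lemma sl2_gen (m : SL2 F) : m ∈ Subgroup.closure (Set.range (uu (F := F)) ∪ Set.range (ll (F := F))) := by
  have key : ∀ m : SL2 F, (m : Matrix (Fin 2) (Fin 2) F) 1 0 ≠ 0 →
      m ∈ Subgroup.closure (Set.range (uu (F := F)) ∪ Set.range (ll (F := F))) := by
    intro m hc
    set c := (m : Matrix (Fin 2) (Fin 2) F) 1 0 with hcd
    set a := (m : Matrix (Fin 2) (Fin 2) F) 0 0 with had
    set b := (m : Matrix (Fin 2) (Fin 2) F) 0 1 with hbd
    set d := (m : Matrix (Fin 2) (Fin 2) F) 1 1 with hdd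
    have hdet : a * d - b * c = 1 := det_entries m
    have e : m = uu ((a - 1) / c) * ll c * uu ((d - 1) / c) := by
      apply sl2_ext
      · simp only [mul_apply2, uu00, uu01, uu10, uu11, ll00, ll01, ll10, ll11]
        rw [← had]
        field_simp
        ring
      · simp only [mul_apply2, uu00, uu01, uu10, uu11, ll00, ll01, ll10, ll11]
        rw [← hbd]
        field_simp
        linear_combination (-1 : F) * hdet
      · simp only [mul_apply2, uu00, uu01, uu10, uu11, ll00, ll01, ll10, ll11]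
        rw [← hcd]
        ring
      · simp only [mul_apply2, uu00, uu01, uu10, uu11, ll00, ll01, ll10, ll11]
        rw [← hdd]
        field_simp
        ring
    rw [e]
    refine Subgroup.mul_mem _ (Subgroup.mul_mem _ ?_ ?_) ?_
    · exact Subgroup.subset_closure (Or.inl ⟨_, rfl⟩)
    · exact Subgroup.subset_closure (Or.inr ⟨_, rfl⟩)
    · exact Subgroup.subset_closure (Or.inl ⟨_, rfl⟩)
  by_cases hc : (m : Matrix (Fin 2) (Fin 2) F) 1 0 = 0
  · have hdet := det_entries m
    rw [hc, mul_zero, sub_zero] at hdet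
    have ha : (m : Matrix (Fin 2) (Fin 2) F) 0 0 ≠ 0 := left_ne_zero_of_mul_eq_one hdet
    have h1 : ll (1 : F) * m ∈ Subgroup.closure (Set.range (uu (F := F)) ∪ Set.range (ll (F := F))) := by
      apply key
      simp only [mul_apply2, ll00, ll01, ll10, ll11]
      rw [hc]
      simpa using ha
    have e : m = (ll (1 : F))⁻¹ * (ll (1 : F) * m) := by group
    rw [e]
    exact Subgroup.mul_mem _ (Subgroup.inv_mem _ (Subgroup.subset_closure (Or.inr ⟨_, rfl⟩))) h1
  · exact key m hc

variable {Γ G : Type*} [Group Γ] [Group G] [Finite Γ] [Fintype F]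

/-- Small fields: the subgroup generated by `p`-elements is a stem extension. -/
theorem sl2_sect_stein (h4 : Fintype.card F ≠ 4) (h9 : Fintype.card F ≠ 9) {r p : ℕ} (hr : r.Prime) (hp : p.Prime)
    (hrp : r ≠ p) [CharP F p] (π : Γ →* SL2 F) (hce : CE π) (hK : IsPGroup r π.ker) :
    ∃ s : SL2 F →* Γ, ∀ m, π (s m) = m := by
  classical
  haveI : Fact r.Prime := ⟨hr⟩
  have hlift : ∀ m : SL2 F, m ^ p = 1 → ∃ y : Γ, π y = m ∧ PEl p y := by
    intro m hm
    have hU : IsPGroup p (Subgroup.zpowers m) := by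
      rintro ⟨x, k, rfl⟩
      refine ⟨1, ?_⟩
      apply Subtype.ext
      show (m ^ k) ^ p ^ 1 = 1
      rw [pow_one, ← zpow_natCast, zpow_comm, zpow_natCast, hm, one_zpow]
    obtain ⟨Ut, h1, h2⟩ := exists_Ut hce hr hp hrp hK _ hU
    obtain ⟨y, hy, e⟩ := h2 m (Subgroup.mem_zpowers m)
    exact ⟨y, e, ((h1 y).1 hy).2⟩
  let Γ₀ : Subgroup Γ := Subgroup.closure {x | PEl p x}
  let π₀ : Γ₀ →* SL2 F := π.comp Γ₀.subtype
  have hsurj : Function.Surjective π₀ := by
    intro m
    have h0 : Subgroup.closure (Set.range (uu (F := F)) ∪ Set.range (ll (F := F))) ≤ π₀.range := by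
      rw [Subgroup.closure_le]
      rintro _ (⟨t, rfl⟩ | ⟨t, rfl⟩)
      · obtain ⟨y, e, hy⟩ := hlift (uu t) (uu_char_pow t)
        exact ⟨⟨y, Subgroup.subset_closure hy⟩, e⟩
      · obtain ⟨y, e, hy⟩ := hlift (ll t) (ll_char_pow t)
        exact ⟨⟨y, Subgroup.subset_closure hy⟩, e⟩
    exact h0 (sl2_gen m)
  have hcen : π₀.ker ≤ Subgroup.center Γ₀ := by
    intro x hx
    rw [Subgroup.mem_center_iff]
    intro g
    apply Subtype.ext
    exact central_comm hce hx g.1
  have hcomm : π₀.ker ≤ commutator Γ₀ := by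
    intro x hx
    have h1 : ∀ y ∈ Γ₀, ∀ hy : y ∈ Γ₀, ∃ a : ℕ, (Abelianization.of (⟨y, hy⟩ : Γ₀)) ^ p ^ a = 1 := by
      intro y hy
      induction hy using Subgroup.closure_induction with
      | mem y hy =>
        intro hy'
        obtain ⟨a, ha⟩ := hy
        refine ⟨a, ?_⟩
        rw [← map_pow]
        have : (⟨y, hy'⟩ : Γ₀) ^ p ^ a = 1 := Subtype.ext ha
        rw [this, map_one]
      | one => exact fun _ => ⟨0, by
          have : (⟨1, Subgroup.one_mem _⟩ : Γ₀) = 1 := rfl
          rw [this, map_one, one_pow]⟩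
      | mul a b ha hb iha ihb =>
        intro hy'
        obtain ⟨m, hm⟩ := iha ha
        obtain ⟨k, hk⟩ := ihb hb
        refine ⟨m + k, ?_⟩
        have : (⟨a * b, hy'⟩ : Γ₀) = ⟨a, ha⟩ * ⟨b, hb⟩ := rfl
        rw [this, map_mul, mul_pow, pow_add, pow_mul, hm, one_pow, one_mul, mul_comm, pow_mul, hk, one_pow]
      | inv a ha iha =>
        intro hy'
        obtain ⟨m, hm⟩ := iha ha
        refine ⟨m, ?_⟩
        have : (⟨a⁻¹, hy'⟩ : Γ₀) = (⟨a, ha⟩ : Γ₀)⁻¹ := rfl
        rw [this, map_inv, inv_pow, hm, inv_one]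
    obtain ⟨a, ha⟩ := h1 x.1 x.2 x.2
    have hx1 : π x.1 = 1 := hx
    obtain ⟨k, hk⟩ := hK ⟨x.1, hx1⟩
    have hk' : x.1 ^ r ^ k = 1 := congrArg Subtype.val hk
    have hk'' : x ^ r ^ k = 1 := Subtype.ext hk'
    have h3 : (Abelianization.of x) ^ p ^ a = 1 := ha
    have h4 : (Abelianization.of x) ^ r ^ k = 1 := by rw [← map_pow, hk'', map_one]
    have h5 : Nat.Coprime (p ^ a) (r ^ k) := Nat.Coprime.pow _ _ ((Nat.coprime_primes hp hr).2 (Ne.symm hrp))
    have h6 : Abelianization.of x = 1 := by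
      have h7 := orderOf_dvd_of_pow_eq_one h3
      have h8 := orderOf_dvd_of_pow_eq_one h4
      have h9 := Nat.dvd_gcd h7 h8
      rw [h5] at h9
      exact orderOf_eq_one_iff.1 (Nat.dvd_one.1 h9)
    rw [← Abelianization.ker_of]
    exact h6
  have hstem : IsStemExtension π₀ := ⟨hsurj, hcen, hcomm⟩
  have hker := Cfsg.Agent.Lib.SteinSL2.ker_eq_bot π₀ hstem h4 h9
  have hinj : Function.Injective π₀ := (MonoidHom.ker_eq_bot_iff _).mp hker
  let e := MulEquiv.ofBijective π₀ ⟨hinj, hsurj⟩
  refine ⟨Γ₀.subtype.comp e.symm.toMonoidHom, fun m => ?_⟩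
  exact e.apply_symm_apply m

/-- Homomorphisms from `SL₂(F)` lift to central extensions with kernel prime to the characteristic. -/
theorem sl2_lift {r p : ℕ} (hr : r.Prime) (hp : p.Prime) (hrp : r ≠ p) [CharP F p] (σ : Γ →* G) (hce : CE σ)
    (hK : IsPGroup r σ.ker) (φ : SL2 F →* G) : ∃ f : SL2 F →* Γ, ∀ m, σ (f m) = φ m := by
  classical
  haveI : Fact r.Prime := ⟨hr⟩
  by_cases h4 : 4 ≤ Fintype.card F
  · apply Cfsg.Agent.Lib.BSec.sl2_section h4 φ σ hce.cen (fun m => hce.surj _)
    intro s t a b ha hb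
    -- a commutator of lifts of commuting `p`-elements
    have hc : uu s * uu t = uu t * uu s := by
      apply sl2_ext <;> simp [mul_apply2, add_comm]
    set z := a * b * a⁻¹ * b⁻¹ with hz
    have hz1 : σ z = 1 := by
      rw [hz, map_mul, map_mul, map_mul, map_inv, map_inv, ha, hb, ← map_inv, ← map_inv, ← map_mul, ← map_mul, ← map_mul, hc]
      simp
    have hzc : ∀ x, x * z = z * x := fun x => central_comm hce hz1 x
    have hpow : ∀ k : ℕ, a ^ k * b * (a ^ k)⁻¹ = z ^ k * b := by
      intro k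
      induction k with
      | zero => simp
      | succ k ih =>
        have e : a ^ (k + 1) * b * (a ^ (k + 1))⁻¹ = a * (a ^ k * b * (a ^ k)⁻¹) * a⁻¹ := by
          rw [pow_succ']
          group
        rw [e, ih]
        have e2 : a * (z ^ k * b) * a⁻¹ = z ^ k * (a * b * a⁻¹) := by
          have : a * z ^ k = z ^ k * a := (Commute.pow_right (show Commute a z from hzc a) k)
          calc a * (z ^ k * b) * a⁻¹ = (a * z ^ k) * b * a⁻¹ := by group
            _ = _ := by rw [this]; group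
        rw [e2, pow_succ]
        have e3 : a * b * a⁻¹ = z * b := by
          rw [hz]
          group
        rw [e3]
        group
    have hap : σ (a ^ p) = 1 := by
      rw [map_pow, ha, ← map_pow, uu_char_pow, map_one]
    have h1 := hpow p
    have h2 : a ^ p * b * (a ^ p)⁻¹ = b := by
      rw [central_comm hce hap b |>.symm]
      group
    rw [h2] at h1
    have h3 : z ^ p = 1 := by
      have := h1.symm
      exact mul_eq_right.mp this
    have h4' : z = 1 := eq_one_of_coprime_order hK hz1 ((Nat.coprime_primes hp hr).2 (Ne.symm hrp)) h3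
    have h5 : a * b = b * a := by
      have : a * b * a⁻¹ * b⁻¹ = 1 := by rw [← hz, h4']
      have e1 : a * b * a⁻¹ = b := by
        rw [mul_inv_eq_one] at this
        exact this
      rw [mul_inv_eq_iff_eq_mul] at e1
      exact e1
    exact h5
  · -- small fields
    let P : Subgroup (Γ × SL2 F) := MonoidHom.eqLocus (σ.comp (MonoidHom.fst Γ _)) (φ.comp (MonoidHom.snd Γ _))
    have hP : ∀ x : Γ × SL2 F, x ∈ P ↔ σ x.1 = φ x.2 := fun x => Iff.rfl
    let π : P →* SL2 F := (MonoidHom.snd Γ _).comp P.subtype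
    have hce' : CE π := by
      refine ⟨?_, ?_⟩
      · intro g
        obtain ⟨γ, hγ⟩ := hce.surj (φ g)
        exact ⟨⟨(γ, g), hγ⟩, rfl⟩
      · rintro ⟨⟨γ, s⟩, hp'⟩ hk
        have hs1 : s = 1 := hk
        subst hs1
        have h1 : σ γ = 1 := by
          have := (hP (γ, 1)).mp hp'
          simpa using this
        rw [Subgroup.mem_center_iff]
        rintro ⟨⟨δ, t⟩, ht⟩
        apply Subtype.ext
        apply Prod.ext
        · exact central_comm hce h1 δ
        · show t * 1 = 1 * t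
          simp
    have hK' : IsPGroup r π.ker := by
      rintro ⟨⟨⟨γ, s⟩, hp'⟩, hk⟩
      have hs1 : s = 1 := hk
      subst hs1
      have h1 : σ γ = 1 := by
        have := (hP (γ, 1)).mp hp'
        simpa using this
      obtain ⟨k, hk'⟩ := hK ⟨γ, h1⟩
      refine ⟨k, ?_⟩
      apply Subtype.ext
      apply Subtype.ext
      apply Prod.ext
      · simpa using congrArg Subtype.val hk'
      · simp
    have hcard : Fintype.card F ≠ 4 := by omega
    have hcard9 : Fintype.card F ≠ 9 := by omega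
    obtain ⟨s, hs⟩ := sl2_sect_stein hcard hcard9 hr hp hrp π hce' hK'
    refine ⟨(MonoidHom.fst Γ _).comp (P.subtype.comp s), fun m => ?_⟩
    have h2 := (s m).2
    rw [hP] at h2
    have h3 : ((s m).1).2 = m := hs m
    rw [h3] at h2
    exact h2

end Cfsg.Agent.Lib.TwRk1
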