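import Cfsg.Agent.Lib.TwTor32A
import Cfsg.Agent.Lib.TwTorF4T32
import Cfsg.Agent.Lib.Chev.OrdF4
import Cfsg.Agent.Lib.Chev.TorusCard

/-!
# The cyclic torus of order `q⁴ + 1` of `F₄(q)`
-/

set_option autoImplicit false
set_option linter.unusedSectionVars false
set_option linter.unusedVariables false
set_option linter.unusedSimpArgs false

namespace Cfsg.Agent.Lib.TwTorF432

open Cfsg Cfsg.Lie Cfsg.Agent.Lib.Chev Matrix Cfsg.Agent.Lib.ChevFix Cfsg.Agent.Lib.TwTor32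
open Cfsg.Agent.Lib.TwTorF4T32 Cfsg.Agent.Lib.Chev.TabF4 Cfsg.Agent.Lib.Chev.RootF4T

theorem hF : Full T X R chevF4 := ⟨RelF4.checks, RootF4.checks⟩

/-- A permutation of the roots coded by a number. -/
def Rep (σ : Equiv.Perm (Fin chevF4.nroots)) (c : ℕ) : Prop :=
  ∀ s : Fin chevF4.nroots, ((σ s : Fin chevF4.nroots) : ℕ) = app c s

theorem mem_rows {σ : Equiv.Perm (Fin chevF4.nroots)} (hσ : σ ∈ hF.Wk Set.univ) : ∃ r ∈ rows, Rep σ r.1 := by
  refine hF.Wk_induction (J := Set.univ) (p := fun σ => ∃ r ∈ rows, Rep σ r.1) ?_ ?_ σ hσ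
  · exact ⟨_, rows_id, fun s => by rw [Equiv.Perm.one_apply]; exact (id_ok s s.2).symm⟩
  · rintro σ j hj - ⟨r, hr, hrep⟩
    have h1 := List.all_eq_true.1 closure_ok r hr
    have h2 := allBelow_spec _ _ h1 j hj
    rw [Bool.and_eq_true] at h2
    obtain ⟨h3, h4⟩ := h2
    refine ⟨rows.getD (r.2.1.getD j 0) dflt, ?_, ?_⟩
    · have h5 : r.2.1.getD j 0 < rows.length := by
        rw [rows_len]
        exact Nat.le_of_ble_eq_true h3
      rw [List.getD_eq_getElem _ _ h5]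
      exact List.getElem_mem _
    · intro s
      have h6 := allBelow_spec _ _ h4 s s.2
      have h7 := Nat.eq_of_beq_eq_true h6
      rw [h7, Equiv.Perm.mul_apply, hrep, hF.wPerm_apply, wB_ok j hj s s.2]

theorem rep_iter {σ : Equiv.Perm (Fin chevF4.nroots)} {c : ℕ} (h : Rep σ c) (k : ℕ) (s : Fin chevF4.nroots) :
    (((σ ^ k) s : Fin chevF4.nroots) : ℕ) = iterC c k s := by
  induction k with
  | zero => rfl
  | succ k ih =>
    rw [pow_succ', Equiv.Perm.mul_apply, h, ih]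
    rfl

variable {K : Type*} [Field K]

theorem chi_add3 (c : Fin chevF4.rank → Kˣ) {x y z : ℕ}
    (h : ∀ i : Fin chevF4.rank, chevF4.cartan i x + chevF4.cartan i y + chevF4.cartan i z = 0) :
    chiT chevF4 c x * chiT chevF4 c y * chiT chevF4 c z = 1 := by
  unfold chiT
  rw [← Finset.prod_mul_distrib, ← Finset.prod_mul_distrib]
  apply Finset.prod_eq_one
  intro i _
  rw [← _root_.zpow_add, ← _root_.zpow_add, h i, zpow_zero]

/-- Regularity of an element of the torus. -/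
def Reg (c : Fin chevF4.rank → Kˣ) : Prop :=
  ∀ s : ℕ, s < chevF4.nroots → chiT chevF4 c s ^ 2 ≠ 1 ∧ chiT chevF4 c s ^ 3 ≠ 1

theorem Reg.ne_one {c : Fin chevF4.rank → Kˣ} (h : Reg c) (s : ℕ) (hs : s < chevF4.nroots) :
    chiT chevF4 c s ≠ 1 := by
  intro h1
  apply (h s hs).1
  rw [h1, one_pow]

/-- An element of `N` fixing a regular element of the torus lies in the torus. -/
theorem Reg.mem_diag {c : Fin chevF4.rank → Kˣ} (h : Reg c) (n : ↥(chevF4.monomialSubgroup K))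
    (hn : ∀ s : Fin chevF4.nroots, chiT chevF4 c (hF.rhoN K n s) = chiT chevF4 c s) :
    n.1 ∈ chevF4.diagonalSubgroup K := by
  obtain ⟨r, hr, hrep⟩ := mem_rows (hF.rhoN_mem_Wk (F := K) n)
  have hit : ∀ (k : ℕ) (s : Fin chevF4.nroots),
      chiT chevF4 c ((hF.rhoN K n ^ k) s) = chiT chevF4 c s := by
    intro k s
    induction k with
    | zero => rfl
    | succ k ih =>
      rw [pow_succ', Equiv.Perm.mul_apply, hn, ih]
  have h1 := List.all_eq_true.1 goodB_ok r hr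
  rw [Bool.or_eq_true] at h1
  rcases h1 with h1 | h1
  · apply hF.mem_diagonal_of_pos'
    intro x hx
    have h2 := allBelow_spec _ _ h1 x x.2
    have h3 := Nat.eq_of_beq_eq_true h2
    rw [hrep, h3]
    exact hx
  · exfalso
    rw [Bool.and_eq_true] at h1
    obtain ⟨hx48, h1⟩ := h1
    set k := r.2.2.2.1 with hk
    set x := r.2.2.2.2.1 with hx
    have hxlt : x < chevF4.nroots := Nat.le_of_ble_eq_true hx48
    have h2 := h x hxlt
    have e1 := hit k ⟨x, hxlt⟩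
    have e2 := hit (2 * k) ⟨x, hxlt⟩
    have r1 := rep_iter hrep k ⟨x, hxlt⟩
    have r2 := rep_iter hrep (2 * k) ⟨x, hxlt⟩
    simp only at r1 r2 e1 e2
    rw [r1] at e1
    rw [r2] at e2
    by_cases hty : r.2.2.2.2.2 = 0
    · rw [if_pos hty] at h1
      have h3 := Nat.eq_of_beq_eq_true h1
      rw [h3, hF.chiT_neg c hxlt] at e1
      apply h2.1
      have e3 : chiT chevF4 c x * chiT chevF4 c x = 1 := by
        nth_rw 1 [← e1]
        exact inv_mul_cancel _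
      rw [sq]
      exact e3
    · rw [if_neg hty] at h1
      have h3 : ∀ i : Fin chevF4.rank, chevF4.cartan i x + chevF4.cartan i (iterC r.1 k x) +
          chevF4.cartan i (iterC r.1 (2 * k) x) = 0 := by
        intro i
        have := allBelow_spec _ _ h1 i i.2
        exact of_decide_eq_true this
      have h4 := chi_add3 c h3
      rw [e1, e2] at h4
      apply h2.2
      rw [pow_succ, sq]
      exact h4

/-! ### The twisted structure -/

/-- The exponent of the root `s`. -/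
def EE (q : ℤ) (s : ℕ) : ℤ := yy 0 s + yy 1 s * q + yy 2 s * q ^ 2 + yy 3 s * q ^ 3

theorem chi4 (c : Fin chevF4.rank → Kˣ) (s : ℕ) : chiT chevF4 c s =
    c ⟨0, by decide⟩ ^ chevF4.cartan 0 s * c ⟨1, by decide⟩ ^ chevF4.cartan 1 s *
      c ⟨2, by decide⟩ ^ chevF4.cartan 2 s * c ⟨3, by decide⟩ ^ chevF4.cartan 3 s := by
  exact Fin.prod_univ_four (M := Kˣ) (fun i : Fin 4 => c i ^ chevF4.cartan i s)

theorem lin_aux {Γ : Type*} [CommGroup Γ] (c₀ c₁ c₂ c₃ : Γ) (y₀ y₁ y₂ y₃ a₀ a₁ a₂ a₃ b₀ b₁ b₂ b₃ d₀ d₁ d₂ d₃ e₀ e₁ e₂ e₃ : ℤ) :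
    c₀ ^ (y₀ * a₀ + y₁ * b₀ + y₂ * d₀ + y₃ * e₀) * c₁ ^ (y₀ * a₁ + y₁ * b₁ + y₂ * d₁ + y₃ * e₁) *
      c₂ ^ (y₀ * a₂ + y₁ * b₂ + y₂ * d₂ + y₃ * e₂) * c₃ ^ (y₀ * a₃ + y₁ * b₃ + y₂ * d₃ + y₃ * e₃) =
    (c₀ ^ a₀ * c₁ ^ a₁ * c₂ ^ a₂ * c₃ ^ a₃) ^ y₀ * (c₀ ^ b₀ * c₁ ^ b₁ * c₂ ^ b₂ * c₃ ^ b₃) ^ y₁ *
      (c₀ ^ d₀ * c₁ ^ d₁ * c₂ ^ d₂ * c₃ ^ d₃) ^ y₂ * (c₀ ^ e₀ * c₁ ^ e₁ * c₂ ^ e₂ * c₃ ^ e₃) ^ y₃ := by
  have zz : ∀ (c : Γ) (a y : ℤ), (c ^ a) ^ y = c ^ (y * a) := fun c a y => by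
    rw [← _root_.zpow_mul, mul_comm]
  simp only [mul_zpow, zz, _root_.zpow_add]
  ac_rfl

theorem chi_lin (c : Fin chevF4.rank → Kˣ) (s : ℕ) (hs : s < 48) : chiT chevF4 c s =
    chiT chevF4 c 3 ^ yy 0 s * chiT chevF4 c 7 ^ yy 1 s * chiT chevF4 c 18 ^ yy 2 s * chiT chevF4 c 35 ^ yy 3 s := by
  rw [chi4 c s, chi4 c 3, chi4 c 7, chi4 c 18, chi4 c 35]
  rw [lin_ok s hs 0 (by decide), lin_ok s hs 1 (by decide), lin_ok s hs 2 (by decide), lin_ok s hs 3 (by decide)]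
  exact lin_aux _ _ _ _ _ _ _ _ _ _ _ _ _ _ _ _ _ _ _ _ _ _ _ _

/-- The values on the roots of a twisted element. -/
theorem chi_eq_E {n : ↥(chevF4.monomialSubgroup K)} {q : ℕ} (hrep : Rep (hF.rhoN K n) rho0)
    {c : Fin chevF4.rank → Kˣ} (htw : Tw hF n q c) :
    (∀ s, s < 48 → chiT chevF4 c s = chiT chevF4 c 3 ^ EE q s) ∧ chiT chevF4 c 3 ^ (q ^ 4 + 1) = 1 := by
  have hs : ∀ s (hs : s < 48), chiT chevF4 c (app rho0 s) = chiT chevF4 c s ^ q := by
    intro s hs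
    have h1 := htw ⟨s, hs⟩
    rw [hrep] at h1
    exact h1
  obtain ⟨a1, a2, a3, a4, a5⟩ := es_ok
  set z := chiT chevF4 c 3 with hz
  have h7 : chiT chevF4 c 7 = z ^ q := by
    rw [← a1, hs 3 (by decide)]
  have h18 : chiT chevF4 c 18 = z ^ q ^ 2 := by
    rw [← a2, hs 7 (by decide), h7, ← pow_mul, sq]
  have h35 : chiT chevF4 c 35 = z ^ q ^ 3 := by
    rw [← a3, hs 18 (by decide), h18, ← pow_mul, ← pow_succ]
  have h44 : chiT chevF4 c 44 = z ^ q ^ 4 := by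
    rw [← a4, hs 35 (by decide), h35, ← pow_mul, ← pow_succ]
  have h44' : chiT chevF4 c 44 = z⁻¹ := by
    rw [← a5]
    exact hF.chiT_neg c (by decide)
  constructor
  · intro s hs'
    rw [chi_lin c s hs', h7, h18, h35]
    unfold EE
    rw [_root_.zpow_add, _root_.zpow_add, _root_.zpow_add]
    congr 1
    · congr 1
      · congr 1
        rw [← zpow_natCast, ← _root_.zpow_mul, mul_comm]
      · rw [← zpow_natCast, ← _root_.zpow_mul, mul_comm]
        norm_cast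
    · rw [← zpow_natCast, ← _root_.zpow_mul, mul_comm]
      norm_cast
  · rw [pow_succ, ← h44, h44', inv_mul_cancel]

/-- The twisted parameters. -/
def ff (q : ℤ) (i : ℕ) : ℤ := Fm i 0 + Fm i 1 * q + Fm i 2 * q ^ 2 + Fm i 3 * q ^ 3

/-- The element of the twisted torus with value `z` on the base root. -/
def cc (q : ℤ) (z : Kˣ) : Fin chevF4.rank → Kˣ := fun i => z ^ ff q i

theorem chi_cc (q : ℤ) (z : Kˣ) (s : ℕ) : chiT chevF4 (cc q z) s = z ^ EE q s := by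
  rw [chi4]
  simp only [cc, ← _root_.zpow_mul, ← _root_.zpow_add]
  congr 1
  unfold EE yy ff
  ring

theorem tw_cc {n : ↥(chevF4.monomialSubgroup K)} {q : ℕ} (hrep : Rep (hF.rhoN K n) rho0) {z : Kˣ}
    (hz : z ^ (q ^ 4 + 1) = 1) : Tw hF n q (cc (q : ℤ) z) := by
  intro s
  rw [chi_cc, chi_cc, hrep]
  obtain ⟨a0, a1, a2, a3⟩ := rho_ok s s.2
  have e : EE (q : ℤ) (app rho0 s) = EE (q : ℤ) s * q + (-(yy 3 s)) * ((q ^ 4 + 1 : ℕ) : ℤ) := by
    unfold EE
    rw [a0, a1, a2, a3]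
    push_cast
    ring
  rw [e, _root_.zpow_add, _root_.zpow_mul z (EE (q : ℤ) s) q, mul_comm (-(yy 3 s)), _root_.zpow_mul z _ (-(yy 3 s))]
  have hz' : z ^ ((q ^ 4 + 1 : ℕ) : ℤ) = 1 := by
    rw [zpow_natCast]
    exact hz
  rw [hz', _root_.one_zpow, mul_one, zpow_natCast]

/-- The norm identity. -/
theorem norm_dvd {r q a b c d : ℤ} (h1 : r ∣ a + b * q + c * q ^ 2 + d * q ^ 3) (h2 : r ∣ q ^ 4 + 1) :
    r ∣ Nn a b c d := by
  have e : Nn a b c d = (a + b * q + c * q ^ 2 + d * q ^ 3) * ((a - b * q + c * q ^ 2 - d * q ^ 3) *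
      ((a ^ 2 - c ^ 2 + 2 * b * d) - (2 * a * c - b ^ 2 + d ^ 2) * q ^ 2)) -
      (q ^ 4 + 1) * ((c ^ 2 - 2 * b * d - d ^ 2 * q ^ 2) * ((a ^ 2 - c ^ 2 + 2 * b * d) - (2 * a * c - b ^ 2 + d ^ 2) * q ^ 2)
        - (2 * a * c - b ^ 2 + d ^ 2) ^ 2) := by
    unfold Nn
    ring
  rw [e]
  exact dvd_sub (h1.mul_right _) (h2.mul_right _)

/-- A value `z ^ E` has no small order. -/
theorem reg_of_E {c : Fin chevF4.rank → Kˣ} {z : Kˣ} {q r : ℕ} (hr : r.Prime) (hr2 : r ≠ 2) (hr3 : r ≠ 3)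
    (hq : r ∣ q ^ 4 + 1) (hz : r ∣ orderOf z) (h : ∀ s, s < 48 → chiT chevF4 c s = z ^ EE q s) : Reg c := by
  have hrZ : Prime (r : ℤ) := Nat.prime_iff_prime_int.1 hr
  have key : ∀ s, s < 48 → ¬ (r : ℤ) ∣ EE q s := by
    intro s hs hd
    have h1 : (r : ℤ) ∣ (q : ℤ) ^ 4 + 1 := by exact_mod_cast hq
    have h2 := norm_dvd hd h1
    have h5 : r ∣ 2 ^ 3 := by
      rcases norm_ok s hs with h3 | h3 | h3 | h3 <;> rw [h3] at h2
      · have : (r : ℤ) ∣ 2 ^ 3 := by exact h2.trans (by norm_num)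
        exact_mod_cast this
      · have : (r : ℤ) ∣ 2 ^ 3 := by exact h2.trans (by norm_num)
        exact_mod_cast this
      · have : (r : ℤ) ∣ 2 ^ 3 := by exact h2.trans (by norm_num)
        exact_mod_cast this
      · have : (r : ℤ) ∣ 2 ^ 3 := by exact h2.trans (by norm_num)
        exact_mod_cast this
    have h6 := hr.dvd_of_dvd_pow h5
    exact hr2 ((Nat.prime_dvd_prime_iff_eq hr Nat.prime_two).1 h6)
  intro s hs
  have hs' : s < 48 := hs
  rw [h s hs']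
  have hz' : (r : ℤ) ∣ (orderOf z : ℤ) := by exact_mod_cast hz
  constructor
  · intro h1
    rw [← zpow_natCast, ← _root_.zpow_mul] at h1
    have h2 := (orderOf_dvd_iff_zpow_eq_one).2 h1
    have h3 := hz'.trans h2
    rcases hrZ.dvd_or_dvd h3 with h4 | h4
    · exact key s hs' h4
    · have h5 : r ∣ 2 := by exact_mod_cast h4
      exact hr2 ((Nat.prime_dvd_prime_iff_eq hr Nat.prime_two).1 h5)
  · intro h1
    rw [← zpow_natCast, ← _root_.zpow_mul] at h1
    have h2 := (orderOf_dvd_iff_zpow_eq_one).2 h1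
    have h3 := hz'.trans h2
    rcases hrZ.dvd_or_dvd h3 with h4 | h4
    · exact key s hs' h4
    · have h5 : r ∣ 3 := by exact_mod_cast h4
      exact hr3 ((Nat.prime_dvd_prime_iff_eq hr Nat.prime_three).1 h5)

/-! ### Words in the generators -/

theorem chiT_one' (s : ℕ) : chiT chevF4 (1 : Fin chevF4.rank → Kˣ) s = 1 := by
  unfold chiT
  simp

theorem chiT_zpow (c : Fin chevF4.rank → Kˣ) (k : ℤ) (s : ℕ) : chiT chevF4 (c ^ k) s = chiT chevF4 c s ^ k := by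
  unfold chiT
  rw [← Finset.prod_zpow]
  apply Finset.prod_congr rfl
  intro i _
  rw [Pi.pow_apply, ← _root_.zpow_mul, ← _root_.zpow_mul, mul_comm]

theorem lift_word (σ' : K ≃+* K) : ∀ w : List ℕ, (∀ j ∈ w, j < 4) →
    ∃ y : ↥(chevF4.monomialSubgroup K), glM chevF4 (σ' : K →+* K) y.1 = y.1 ∧
      ∀ s : Fin chevF4.nroots, ((hF.rhoN K y s : Fin chevF4.nroots) : ℕ) = evw w s := by
  intro w
  induction w with
  | nil =>
    intro _
    refine ⟨1, ?_, ?_⟩
    · simp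
    · intro s
      rw [map_one]
      rfl
  | cons j w ih =>
    intro hw
    obtain ⟨y, hy1, hy2⟩ := ih (fun i hi => hw i (List.mem_cons_of_mem _ hi))
    have hj : j < chevF4.rank := hw j List.mem_cons_self
    refine ⟨hF.nN hj * y, ?_, ?_⟩
    · show glM chevF4 (σ' : K →+* K) (hF.nS j * y.1) = hF.nS j * y.1
      rw [map_mul, Fix.sg_nS hF σ', hy1]
    · intro s
      rw [map_mul, hF.rhoN_nN, Equiv.Perm.mul_apply, hF.wPerm_apply, hy2]
      show _ = app (wB j) (evw w s)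
      rw [wB_ok j hj _ (by rw [← hy2 s]; exact (hF.rhoN K y s).2)]

/-! ### The data over the big field -/

section Big

variable {F : Type*} [Field F] [Fintype F] [Fintype K]

theorem exists_data (f : F →+* K) (σ : K ≃+* K) (q : ℕ) (hfσ : ∀ b, σ (f b) = f b) (hq : ∀ x : K, σ x = x ^ q)
    {r : ℕ} [Fact r.Prime] (hr2 : r ≠ 2) (hr3 : r ≠ 3) (hqr : r ∣ q ^ 4 + 1)
    (hidx : ¬ r ∣ ((chevF4.diagonalSubgroup K).subgroupOf (chevF4.group K)).index)
    {s : GL chevF4.Idx F} (hs : s ∈ chevF4.group F) (hsr : orderOf s = r) :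
    ∃ Y ∈ chevF4.group K, ∃ n : ↥(chevF4.monomialSubgroup K), ∃ τ ∈ chevF4.diagonalSubgroup K,
      glM chevF4 (σ : K →+* K) Y = Y * (n.1 * τ) ∧ Rep (hF.rhoN K n) rho0 := by
  classical
  have hrp : r.Prime := Fact.out
  set sg := glM chevF4 (σ : K →+* K) with hsg
  set x := glM chevF4 f s with hx
  have hxG : x ∈ chevF4.group K := map_group_le chevF4 f ⟨s, hs, rfl⟩
  have hxr : x ^ r = 1 := by rw [hx, ← map_pow, ← hsr, pow_orderOf_eq_one, map_one]
  have hxne : x ≠ 1 := by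
    intro h
    have h1 : s = 1 := glM_injective chevF4 f (by rw [map_one]; exact h)
    rw [h1, orderOf_one] at hsr
    exact hrp.one_lt.ne hsr
  have hxfix : sg x = x := Fix.fixed_of_mem σ f hfσ ⟨s, hs, rfl⟩
  obtain ⟨Y, hY, ht⟩ := exists_conj_torus hF hidx hxG hxr
  obtain ⟨c, hc⟩ := (hF.mem_diagonal_iff).1 ht
  set t : GL chevF4.Idx K := tor R chevF4 c with htdef
  have htT : t ∈ chevF4.diagonalSubgroup K := (hF.mem_diagonal_iff).2 ⟨c, rfl⟩
  have htx : Y * t * Y⁻¹ = x := by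
    rw [← hc]
    group
  have hYs : sg Y ∈ chevF4.group K := map_group_le chevF4 (σ : K →+* K) ⟨Y, hY, rfl⟩
  have hst : sg t = tor R chevF4 (c ^ q) := sg_tor σ q hF hq c
  have hstT : sg t ∈ chevF4.diagonalSubgroup K := by
    rw [hst]
    exact (hF.mem_diagonal_iff).2 ⟨_, rfl⟩
  have hz : Y⁻¹ * sg Y ∈ chevF4.group K := mul_mem (inv_mem hY) hYs
  have hconj : sg Y * sg t * (sg Y)⁻¹ = x := by
    have h1 := congrArg sg htx
    rw [hxfix, map_mul, map_mul, map_inv] at h1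
    exact h1
  have key : (Y⁻¹ * sg Y) * sg t * (Y⁻¹ * sg Y)⁻¹ = t := by
    calc (Y⁻¹ * sg Y) * sg t * (Y⁻¹ * sg Y)⁻¹ = Y⁻¹ * (sg Y * sg t * (sg Y)⁻¹) * Y := by group
      _ = t := by rw [hconj, ← htx]; group
  obtain ⟨n₁, hn₁⟩ := exists_N_conj hF hstT htT hz key
  have htw : Tw hF n₁ q c := by
    rw [tw_iff q hF n₁ c, ← hst]
    exact hn₁
  have htr : t ^ r = 1 := by
    have e : t = Y⁻¹ * x * Y := hc.symm
    have e2 := conj_pow (a := Y⁻¹) (b := x) (i := r)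
    rw [inv_inv] at e2
    rw [e, e2, hxr]
    group
  have htne : t ≠ 1 := by
    intro h
    apply hxne
    rw [← htx, h]
    group
  have htorpow : ∀ (d : Fin chevF4.rank → Kˣ) (k : ℕ), tor R chevF4 (d ^ k) = (tor R chevF4 d : GL chevF4.Idx K) ^ k :=
    fun d k => map_pow (torHom R chevF4) d k
  have hchi1 : ∀ {d : Fin chevF4.rank → Kˣ}, (tor R chevF4 d : GL chevF4.Idx K) ^ r = 1 →
      ∀ s : Fin chevF4.nroots, chiT chevF4 d s ^ r = 1 := by
    intro d hd s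
    have h1 : tor R chevF4 (d ^ r) = (tor R chevF4 (1 : Fin chevF4.rank → Kˣ) : GL chevF4.Idx K) := by
      rw [tor_one, htorpow, hd]
    have h2 := chi_eq_of_tor hF h1 s
    rwa [chiT_pow, chiT_one'] at h2
  have hchir := hchi1 htr
  have htorone : ∀ {d : Fin chevF4.rank → Kˣ}, (∀ s : Fin chevF4.nroots, chiT chevF4 d s = 1) →
      (tor R chevF4 d : GL chevF4.Idx K) = 1 := by
    intro d hd
    rw [tor_eq_of_chi hF (c' := 1) (fun s => by rw [hd, chiT_one']), tor_one]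
  obtain ⟨ro, hro, hrep⟩ := mem_rows (hF.rhoN_mem_Wk (F := K) n₁)
  have hA := List.all_eq_true.1 goodA_ok ro hro
  rw [Bool.or_eq_true] at hA
  rcases hA with hA | hA
  · exfalso
    apply htne
    have hit : ∀ (k : ℕ) (s : Fin chevF4.nroots),
        chiT chevF4 c ((hF.rhoN K n₁ ^ k) s) = chiT chevF4 c s ^ (q ^ k) := by
      intro k s
      induction k with
      | zero => simp
      | succ k ih =>
        rw [pow_succ', Equiv.Perm.mul_apply, htw, ih, ← pow_mul, pow_succ]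
    have h12 : r ∣ q ^ 12 + 1 := by
      have h1 : q ^ 4 + 1 ∣ (q ^ 4) ^ 3 + 1 ^ 3 := Odd.nat_add_dvd_pow_add_pow _ _ (by decide)
      have e : (q ^ 4) ^ 3 + 1 ^ 3 = q ^ 12 + 1 := by ring
      rw [e] at h1
      exact hqr.trans h1
    apply htorone
    intro s
    have h1 := hit 12 s
    have h2 : (hF.rhoN K n₁ ^ 12) s = s := by
      apply Fin.ext
      rw [rep_iter hrep]
      exact Nat.eq_of_beq_eq_true (allBelow_spec _ _ hA s s.2)
    rw [h2] at h1
    set a := chiT chevF4 c s with ha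
    have h3 : a ^ (q ^ 12 + 1) = 1 := by
      obtain ⟨w, hw⟩ := h12
      rw [hw, pow_mul, hchir s, one_pow]
    have h4 : a ^ 2 = 1 := by
      rw [sq]
      nth_rw 1 [h1]
      rw [← pow_succ]
      exact h3
    have h5 : orderOf a ∣ 2 := orderOf_dvd_of_pow_eq_one h4
    have h6 : orderOf a ∣ r := orderOf_dvd_of_pow_eq_one (hchir s)
    have h7 : Nat.Coprime 2 r := (Nat.coprime_primes Nat.prime_two hrp).2 (Ne.symm hr2)
    exact orderOf_eq_one_iff.1 (Nat.eq_one_of_dvd_coprimes h7 h5 h6)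
  · rw [Bool.and_eq_true] at hA
    obtain ⟨hw, hA⟩ := hA
    obtain ⟨y, hy1, hy2⟩ := lift_word σ ro.2.2.1
      (fun j hj => Nat.le_of_ble_eq_true (List.all_eq_true.1 hw j hj))
    have hyG : y.1 ∈ chevF4.group K := hF.c.monomial_le_group y.2
    let n' : ↥(chevF4.monomialSubgroup K) := y * n₁ * y⁻¹
    have hn'v : n'.1 = y.1 * n₁.1 * y.1⁻¹ := rfl
    have hrep' : Rep (hF.rhoN K n') rho0 := by
      intro s
      obtain ⟨u, rfl⟩ := (hF.rhoN K y).surjective s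
      have e : (hF.rhoN K n') ((hF.rhoN K y) u) = (hF.rhoN K y) ((hF.rhoN K n₁) u) := by
        simp [n', map_mul, map_inv]
      rw [e, hy2, hy2, hrep]
      exact Nat.eq_of_beq_eq_true (allBelow_spec _ _ hA u u.2)
    have hnormN : y.1 * t * y.1⁻¹ ∈ chevF4.diagonalSubgroup K := by
      have := hF.diagonal_normal (F := K)
      have h3 := this.conj_mem ⟨t, hF.c.diagonal_le_monomial htT⟩ (Subgroup.mem_subgroupOf.2 htT) y
      exact Subgroup.mem_subgroupOf.1 h3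
    obtain ⟨c', hc'0⟩ := (hF.mem_diagonal_iff).1 hnormN
    have hc' : tor R chevF4 c' = y.1 * t * y.1⁻¹ := hc'0.symm
    set Y' := Y * y.1⁻¹ with hY'
    have hY'G : Y' ∈ chevF4.group K := mul_mem hY (inv_mem hyG)
    have hsY' : sg Y' = sg Y * y.1⁻¹ := by
      rw [hY', map_mul, map_inv, hy1]
    have hst' : tor R chevF4 (c' ^ q) = y.1 * sg t * y.1⁻¹ := by
      rw [← sg_tor σ q hF hq c', hc', map_mul, map_mul, map_inv, hy1]
    have hn'c : n'.1 * tor R chevF4 (c' ^ q) * n'.1⁻¹ = tor R chevF4 c' := by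
      rw [hst', hc', hn'v]
      calc (y.1 * n₁.1 * y.1⁻¹) * (y.1 * sg t * y.1⁻¹) * (y.1 * n₁.1 * y.1⁻¹)⁻¹
          = y.1 * (n₁.1 * sg t * n₁.1⁻¹) * y.1⁻¹ := by group
        _ = _ := by rw [hn₁]
    have htw' : Tw hF n' q c' := (tw_iff q hF n' c').2 hn'c
    obtain ⟨hE, hz1⟩ := chi_eq_E hrep' htw'
    have htcr : (tor R chevF4 c' : GL chevF4.Idx K) ^ r = 1 := by
      rw [hc', conj_pow, htr]
      group
    have hzr : chiT chevF4 c' 3 ^ r = 1 := hchi1 htcr ⟨3, by decide⟩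
    have hzne : chiT chevF4 c' 3 ≠ 1 := by
      intro h
      apply htne
      have h1 : (tor R chevF4 c' : GL chevF4.Idx K) = 1 := by
        apply htorone
        intro s
        rw [hE s s.2, h, _root_.one_zpow]
      rw [hc'] at h1
      have e : t = y.1⁻¹ * (y.1 * t * y.1⁻¹) * y.1 := by group
      rw [e, h1]
      group
    have hordz : orderOf (chiT chevF4 c' 3) = r := orderOf_eq_prime hzr hzne
    have hreg : Reg c' := reg_of_E hrp hr2 hr3 hqr (by rw [hordz]) hE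
    have hreg' : Reg (c' ^ q) := by
      intro s hs
      rw [chiT_pow, ← htw' ⟨s, hs⟩]
      exact hreg _ (hF.rhoN K n' ⟨s, hs⟩).2
    set u := n'.1⁻¹ * (Y'⁻¹ * sg Y') with hu
    have huG : u ∈ chevF4.group K :=
      mul_mem (inv_mem (hF.c.monomial_le_group n'.2)) (mul_mem (inv_mem hY'G)
        (map_group_le chevF4 (σ : K →+* K) ⟨Y', hY'G, rfl⟩))
    have e1 : Y'⁻¹ * sg Y' = y.1 * (Y⁻¹ * sg Y) * y.1⁻¹ := by
      rw [hsY', hY']
      group
    have hcomm : u * tor R chevF4 (c' ^ q) = tor R chevF4 (c' ^ q) * u := by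
      have h3 : u * tor R chevF4 (c' ^ q) * u⁻¹ = tor R chevF4 (c' ^ q) := by
        rw [hu, e1]
        calc n'.1⁻¹ * (y.1 * (Y⁻¹ * sg Y) * y.1⁻¹) * tor R chevF4 (c' ^ q) * (n'.1⁻¹ * (y.1 * (Y⁻¹ * sg Y) * y.1⁻¹))⁻¹
            = n'.1⁻¹ * (y.1 * ((Y⁻¹ * sg Y) * (y.1⁻¹ * tor R chevF4 (c' ^ q) * y.1) * (Y⁻¹ * sg Y)⁻¹) * y.1⁻¹) * n'.1 := by group
          _ = n'.1⁻¹ * (y.1 * ((Y⁻¹ * sg Y) * sg t * (Y⁻¹ * sg Y)⁻¹) * y.1⁻¹) * n'.1 := by
              rw [hst']
              congr 4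
              group
          _ = n'.1⁻¹ * (y.1 * t * y.1⁻¹) * n'.1 := by rw [key]
          _ = n'.1⁻¹ * (n'.1 * tor R chevF4 (c' ^ q) * n'.1⁻¹) * n'.1 := by rw [hn'c, hc']
          _ = _ := by group
      calc u * tor R chevF4 (c' ^ q) = (u * tor R chevF4 (c' ^ q) * u⁻¹) * u := by group
        _ = _ := by rw [h3]
    have hτ := Cfsg.Agent.Lib.ChevReg250.mem_diagonal_of_comm2 hF (c' ^ q) hreg'.ne_one hreg'.mem_diag huG hcomm
    refine ⟨Y', hY'G, n', u, hτ, ?_, hrep'⟩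
    rw [hu]
    group

end Big

/-! ### Arithmetic -/

theorem exists_r (q : ℕ) (hq : 2 ≤ q) : ∃ r : ℕ, r.Prime ∧ r ≠ 2 ∧ r ≠ 3 ∧ r ∣ q ^ 4 + 1 := by
  have h3 : ∀ r, r ∣ q ^ 4 + 1 → r ≠ 3 := by
    rintro r hd rfl
    have : (q ^ 4 + 1) % 3 ≠ 0 := by
      have h : q % 3 = 0 ∨ q % 3 = 1 ∨ q % 3 = 2 := by omega
      rcases h with h | h | h <;> simp [Nat.add_mod, Nat.pow_mod, h]
    omega
  rcases Nat.even_or_odd' q with ⟨k, rfl | rfl⟩
  · have hk : 1 ≤ k := by omega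
    have e : (2 * k) ^ 4 + 1 = 2 * (8 * k ^ 4) + 1 := by ring
    have h1 : 1 ≤ k ^ 4 := Nat.one_le_pow _ _ hk
    have hm : (2 * k) ^ 4 + 1 ≠ 1 := by
      rw [e]
      omega
    refine ⟨_, Nat.minFac_prime hm, ?_, h3 _ (Nat.minFac_dvd _), Nat.minFac_dvd _⟩
    intro h
    have h2 := Nat.minFac_dvd ((2 * k) ^ 4 + 1)
    rw [h, e] at h2
    omega
  · have hk : 1 ≤ k := by omega
    set v := 4 * k ^ 4 + 8 * k ^ 3 + 6 * k ^ 2 + 2 * k with hv
    have e : (2 * k + 1) ^ 4 + 1 = 2 * (2 * v + 1) := by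
      rw [hv]
      ring
    have hv1 : 1 ≤ v := by
      rw [hv]
      omega
    have hm : 2 * v + 1 ≠ 1 := by omega
    have hd : (2 * v + 1).minFac ∣ (2 * k + 1) ^ 4 + 1 := by
      rw [e]
      exact (Nat.minFac_dvd _).trans (Nat.dvd_mul_left _ _)
    refine ⟨_, Nat.minFac_prime hm, ?_, h3 _ hd, hd⟩
    intro h
    have h2 := Nat.minFac_dvd (2 * v + 1)
    rw [h] at h2
    omega

/-- The index of the torus is prime to primes dividing `Q - 1`, apart from `2` and `3`. -/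
theorem idx_not_dvd [Fintype K] {r : ℕ} (hr : r.Prime) (hr2 : r ≠ 2) (hr3 : r ≠ 3) (hQ : r ∣ Fintype.card K - 1) :
    ¬ r ∣ ((chevF4.diagonalSubgroup K).subgroupOf (chevF4.group K)).index := by
  classical
  have h1 := Chev.OrdF4.card_group (F := K) hF
  have h2 := Full.torus_card_F4 (F := K) hF
  have hle : chevF4.diagonalSubgroup K ≤ chevF4.group K :=
    fun x hx => hF.c.monomial_le_group (hF.c.diagonal_le_monomial hx)
  have h3 : Nat.card ↥((chevF4.diagonalSubgroup K).subgroupOf (chevF4.group K)) =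
      Nat.card ↥(chevF4.diagonalSubgroup K) :=
    Nat.card_congr (Subgroup.subgroupOfEquivOfLe hle).toEquiv
  have h4 := Subgroup.card_mul_index ((chevF4.diagonalSubgroup K).subgroupOf (chevF4.group K))
  rw [h3, h1] at h4
  rw [one_mul] at h2
  rw [h2] at h4
  obtain ⟨u, hu⟩ : ∃ u, Fintype.card K = u + 1 := ⟨Fintype.card K - 1, (Nat.sub_add_cancel Fintype.card_pos).symm⟩
  have hu0 : 0 < u := by
    have := Fintype.one_lt_card (α := K)
    omega
  rw [hu] at h4 hQ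
  simp only [Nat.add_sub_cancel] at h4 hQ
  have S : ∀ d, (u + 1) ^ d - 1 = (∑ i ∈ Finset.range d, (u + 1) ^ i) * u := by
    intro d
    rw [← geom_sum_mul_add u d]
    simp
  set idx := ((chevF4.diagonalSubgroup K).subgroupOf (chevF4.group K)).index with hidx
  rw [S, S, S, S] at h4
  have h6 : idx = (u + 1) ^ 24 * (∑ i ∈ Finset.range 2, (u + 1) ^ i) * (∑ i ∈ Finset.range 6, (u + 1) ^ i) *
      (∑ i ∈ Finset.range 8, (u + 1) ^ i) * (∑ i ∈ Finset.range 12, (u + 1) ^ i) := by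
    have h7 : 0 < u ^ chevF4.rank := pow_pos hu0 _
    apply Nat.eq_of_mul_eq_mul_left h7
    rw [h4]
    show _ = u ^ 4 * _
    ring
  intro hd
  haveI := Fact.mk hr
  have hu0' : (u : ZMod r) = 0 := (ZMod.natCast_eq_zero_iff u r).2 hQ
  have h7 : (idx : ZMod r) = 0 := (ZMod.natCast_eq_zero_iff _ _).2 hd
  rw [h6] at h7
  push_cast at h7
  simp only [hu0', zero_add, one_pow, Finset.sum_const, Finset.card_range, nsmul_eq_mul, mul_one, one_mul] at h7
  have h8 : ((1152 : ℕ) : ZMod r) = 0 := by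
    push_cast at h7 ⊢
    rw [← h7]
    norm_num
  have h9 : r ∣ 2 ^ 7 * 3 ^ 2 := (ZMod.natCast_eq_zero_iff _ _).1 h8
  rcases (Nat.Prime.dvd_mul hr).1 h9 with h | h
  · exact hr2 ((Nat.prime_dvd_prime_iff_eq hr Nat.prime_two).1 (hr.dvd_of_dvd_pow h))
  · exact hr3 ((Nat.prime_dvd_prime_iff_eq hr Nat.prime_three).1 (hr.dvd_of_dvd_pow h))

/-- The inverse of the Cartan matrix. -/
def invCartan : Fin chevF4.rank → Fin chevF4.rank → ℤ := fun k j =>
  (![![2, 3, 4, 2], ![3, 6, 8, 4], ![2, 4, 6, 3], ![1, 2, 3, 2]] : Fin 4 → Fin 4 → ℤ) j k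

theorem invCartan_spec : ∀ k i : Fin chevF4.rank,
    ∑ j : Fin chevF4.rank, invCartan k j * chevF4.cartan i (chevF4.simple j) = if i = k then 1 else 0 := by
  decide +kernel

/-- The fixed field. -/
theorem mem_range_of_fixed {F : Type*} [Field F] [Fintype F] [Fintype K] [Algebra F K] {x : K}
    (h : x ^ Fintype.card F = x) : ∃ y, algebraMap F K y = x := by
  classical
  set q := Fintype.card F with hq
  have hq2 : 1 < q := Fintype.one_lt_card
  have hne : (Polynomial.X ^ q - Polynomial.X : Polynomial K) ≠ 0 := FiniteField.X_pow_card_sub_X_ne_zero K hq2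
  set R := (Polynomial.X ^ q - Polynomial.X : Polynomial K).roots.toFinset with hR
  have hRcard : R.card ≤ q := by
    calc R.card ≤ Multiset.card (Polynomial.X ^ q - Polynomial.X : Polynomial K).roots := Multiset.toFinset_card_le _
      _ ≤ (Polynomial.X ^ q - Polynomial.X : Polynomial K).natDegree := Polynomial.card_roots' _
      _ = q := FiniteField.X_pow_card_sub_X_natDegree_eq K hq2
  have hmem : ∀ u : K, u ∈ R ↔ u ^ q = u := by
    intro u
    simp only [hR, Multiset.mem_toFinset, Polynomial.mem_roots hne, Polynomial.IsRoot.def, Polynomial.eval_sub,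
      Polynomial.eval_pow, Polynomial.eval_X, sub_eq_zero]
  have hsub : (Finset.univ.image (algebraMap F K)) ⊆ R := by
    intro u hu
    obtain ⟨y, -, rfl⟩ := Finset.mem_image.1 hu
    rw [hmem, ← map_pow, hq, FiniteField.pow_card]
  have hcard : (Finset.univ.image (algebraMap F K)).card = q := by
    rw [Finset.card_image_of_injective _ (algebraMap F K).injective, Finset.card_univ]
  have heq := Finset.eq_of_subset_of_card_le hsub (by rw [hcard]; exact hRcard)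
  have hx : x ∈ R := (hmem x).2 h
  rw [← heq] at hx
  obtain ⟨y, -, rfl⟩ := Finset.mem_image.1 hx
  exact ⟨y, rfl⟩

/-- **The main theorem**, given the extension of degree eight. -/
theorem core {F : Type*} [Field F] [Fintype F] [Fintype K] [Algebra F K] (q : ℕ) (hFq : Fintype.card F = q)
    (hKq : Fintype.card K = q ^ 8) :
    ∃ H : Subgroup ↥(chevF4.group F), IsCyclic ↥H ∧ Nat.card ↥H = q ^ 4 + 1 ∧
      Subgroup.centralizer (H : Set ↥(chevF4.group F)) = H := by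
  classical
  have hq2 : 2 ≤ q := by
    have := Fintype.one_lt_card (α := F)
    omega
  obtain ⟨r, hr, hr2, hr3, hqr⟩ := exists_r q hq2
  haveI : Fact r.Prime := ⟨hr⟩
  have hq4 : 1 ≤ q ^ 4 := Nat.one_le_pow _ _ (by omega)
  have e8 : q ^ 8 - 1 = (q ^ 4 + 1) * (q ^ 4 - 1) := by
    have := Nat.sq_sub_sq (q ^ 4) 1
    rw [one_pow, ← pow_mul] at this
    simpa using this
  have hr8 : r ∣ q ^ 8 - 1 := by
    rw [e8]
    exact hqr.trans (Nat.dvd_mul_right _ _)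
  -- an element of order `r`
  have hdvd : r ∣ Nat.card ↥(chevF4.group F) := by
    rw [Chev.OrdF4.card_group (F := F) hF, hFq]
    exact Dvd.dvd.mul_right (Dvd.dvd.mul_left hr8 _) _
  obtain ⟨s, hs⟩ := exists_prime_orderOf_dvd_card' r hdvd
  have hsr : orderOf s.1 = r := by
    rw [Subgroup.orderOf_coe]
    exact hs
  -- the Frobenius map
  let σ : K ≃+* K := RingEquiv.ofBijective (FiniteField.frobeniusAlgHom F K : K →ₐ[F] K).toRingHom
    (Finite.injective_iff_bijective.1 (RingHom.injective _))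
  have hσ : ∀ x : K, σ x = x ^ q := by
    intro x
    show x ^ Fintype.card F = x ^ q
    rw [hFq]
  let f : F →+* K := algebraMap F K
  have hfσ : ∀ b, σ (f b) = f b := by
    intro b
    rw [hσ, ← map_pow, ← hFq, FiniteField.pow_card]
  have hf : ∀ a : K, σ a = a → ∃ b, f b = a := by
    intro a ha
    rw [hσ, ← hFq] at ha
    exact mem_range_of_fixed ha
  have hidx : ¬ r ∣ ((chevF4.diagonalSubgroup K).subgroupOf (chevF4.group K)).index :=
    idx_not_dvd hr hr2 hr3 (by rw [hKq]; exact hr8)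
  obtain ⟨Y, hY, n, τ, hτ, hYs, hrep⟩ := exists_data f σ q hfσ hσ hr2 hr3 hqr hidx s.2 hsr
  -- the generator
  set m := q ^ 4 + 1 with hm
  have hw0 : q ^ 4 - 1 ≠ 0 := by
    have : 2 ^ 4 ≤ q ^ 4 := Nat.pow_le_pow_left hq2 4
    omega
  obtain ⟨γ, hγ⟩ := IsCyclic.exists_generator (α := Kˣ)
  have hordγ : orderOf γ = (q ^ 4 - 1) * m := by
    rw [orderOf_eq_card_of_forall_mem_zpowers hγ, Nat.card_eq_fintype_card, Fintype.card_units, hKq, e8, mul_comm]
  set z₀ := γ ^ (q ^ 4 - 1) with hz₀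
  have hordz : orderOf z₀ = m := by
    rw [hz₀, orderOf_pow' γ hw0, hordγ, Nat.gcd_eq_right (Nat.dvd_mul_right _ _),
      Nat.mul_div_cancel_left _ (Nat.pos_of_ne_zero hw0)]
  have hzm : z₀ ^ m = 1 := by
    rw [← hordz]
    exact pow_orderOf_eq_one z₀
  set c₀ := cc (q : ℤ) z₀ with hc₀
  have htw₀ : Tw hF n q c₀ := tw_cc hrep hzm
  have hchi₀ : ∀ s, chiT chevF4 c₀ s = z₀ ^ EE q s := chi_cc _ _
  have hreg : Reg c₀ := reg_of_E hr hr2 hr3 hqr (by rw [hordz]; exact hqr) (fun s _ => hchi₀ s)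
  have hE3 : EE (q : ℤ) 3 = 1 := by
    obtain ⟨a0, a1, a2, a3⟩ := y3_ok
    unfold EE
    rw [a0, a1, a2, a3]
    ring
  have htorpow : ∀ (d : Fin chevF4.rank → Kˣ) (k : ℕ), tor R chevF4 (d ^ k) = (tor R chevF4 d : GL chevF4.Idx K) ^ k :=
    fun d k => map_pow (torHom R chevF4) d k
  have htorzpow : ∀ (d : Fin chevF4.rank → Kˣ) (k : ℤ), tor R chevF4 (d ^ k) = (tor R chevF4 d : GL chevF4.Idx K) ^ k :=
    fun d k => map_zpow (torHom R chevF4) d k
  have hU : ∀ c : Fin chevF4.rank → Kˣ, (∀ j < chevF4.rank, cartanMap chevF4 c j = 1) → c = 1 :=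
    fun c hc => eq_one_of_cartanMap invCartan invCartan_spec hc
  refine assembly f σ q hF hfσ hf hσ hU hY n hτ hYs c₀ m htw₀ hreg.ne_one hreg.mem_diag ?_ ?_
  · intro c htw
    obtain ⟨hE, hz⟩ := chi_eq_E hrep htw
    obtain ⟨k, hk⟩ := Subgroup.mem_zpowers_iff.1 (hγ (chiT chevF4 c 3))
    have hdvd : ((orderOf γ : ℕ) : ℤ) ∣ k * m := by
      rw [orderOf_dvd_iff_zpow_eq_one, _root_.zpow_mul, hk]
      exact_mod_cast hz
    rw [hordγ] at hdvd
    have hm0 : (m : ℤ) ≠ 0 := by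
      have : m ≠ 0 := by omega
      exact_mod_cast this
    have hdvd2 : ((q ^ 4 - 1 : ℕ) : ℤ) ∣ k := by
      rw [Nat.cast_mul] at hdvd
      exact (mul_dvd_mul_iff_right hm0).1 hdvd
    obtain ⟨k', rfl⟩ := hdvd2
    have hz3 : chiT chevF4 c 3 = z₀ ^ k' := by
      rw [← hk, hz₀, ← zpow_natCast, ← _root_.zpow_mul]
    refine ⟨k', ?_⟩
    rw [← htorzpow]
    apply tor_eq_of_chi hF
    intro s
    rw [chiT_zpow, hchi₀, hE s s.2, hz3, ← _root_.zpow_mul, ← _root_.zpow_mul, mul_comm]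
  · rw [← hordz]
    apply orderOf_eq_orderOf_iff.2
    intro k
    constructor
    · intro h
      rw [← htorpow] at h
      have h1 : tor R chevF4 (c₀ ^ k) = (tor R chevF4 (1 : Fin chevF4.rank → Kˣ) : GL chevF4.Idx K) := by
        rw [tor_one, h]
      have h2 := chi_eq_of_tor hF h1 ⟨3, by decide⟩
      rw [chiT_pow, chiT_one', hchi₀] at h2
      simp only at h2
      rw [hE3, zpow_one] at h2
      exact h2
    · intro h
      rw [← htorpow, ← tor_one R chevF4]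
      apply tor_eq_of_chi hF
      intro s
      rw [chiT_pow, chiT_one', hchi₀, ← zpow_natCast, ← _root_.zpow_mul, mul_comm, _root_.zpow_mul, zpow_natCast, h,
        _root_.one_zpow]

end Cfsg.Agent.Lib.TwTorF432
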