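import Mathlib
import Cfsg.Agent.Lib.TwoDeg2
import Cfsg.Agent.Lib.CosetAvg
import Cfsg.Agent.Lib.InducedIrr

/-!
# Groups with character degrees `1` and `p`

* `comm_of_linear_over`: if all characters over a linear character are linear, the derived subgroup
  lies in the kernel.
* `inert_facts`: inertia groups in groups of degrees `1, p`.
* `pgroup_main`: a non-abelian `p`-group of degrees `1, p` without abelian subgroup of index `p`
  has central quotient of order `p ^ 3`.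
-/

set_option autoImplicit false
set_option linter.style.haveILetI false
set_option linter.unusedVariables false
set_option linter.unusedSectionVars false

namespace Cfsg.Agent.Lib.TwoDegP

open Cfsg Cfsg.Agent.Lib.CharBasic Cfsg.Agent.Lib.CharInd Cfsg.Agent.Lib.CharKernel
open Cfsg.Agent.Lib.Clifford Cfsg.Agent.Lib.CliffDvd Cfsg.Agent.Lib.TwoDeg Cfsg.Agent.Lib.TwoDeg2
open scoped ComplexConjugate commutatorElement

universe u v

section LemmaA

/-- If all the characters over a linear character are linear, then all commutators lie in the kernel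
of this linear character. -/
theorem comm_of_linear_over {T : Type u} [Group T] [Fintype T] (J : Subgroup T) [hJ : J.Normal]
    [Fintype J] (m : J →* ℂˣ)
    (h : ∀ ψ : IrrCharacter T, classInner (fun n : J => (ψ : T → ℂ) n)
      (fun j : J => ((m j : ℂˣ) : ℂ)) ≠ 0 → (ψ : T → ℂ) 1 = 1)
    (g k : T) : ∃ hc : g * k * g⁻¹ * k⁻¹ ∈ J, m ⟨_, hc⟩ = 1 := by
  classical
  set θ : J → ℂ := fun j : J => ((m j : ℂˣ) : ℂ) with hθ
  have hθi : IsIrrCharacter J θ := isIrrCharacter_of_hom m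
  have hlin : ∀ ψ : IrrCharacter T, classInner (fun n : J => (ψ : T → ℂ) n) θ ≠ 0 →
      ∃ F : T →* ℂˣ, (∀ t, (ψ : T → ℂ) t = F t) ∧ ∀ j : J, F j = m j := by
    intro ψ hψ
    obtain ⟨F, hF⟩ := exists_hom_of_degree_one (IsIrrCharacter.isCharacter ψ.2) (h ψ hψ)
    refine ⟨F, hF, fun j => ?_⟩
    apply Units.ext
    by_contra hne
    have h1 : (fun n : J => (ψ : T → ℂ) n) = fun n : J => ((F.comp J.subtype n : ℂˣ) : ℂ) := by
      funext n
      exact hF n
    have h2 : θ ≠ fun n : J => ((F.comp J.subtype n : ℂˣ) : ℂ) := by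
      intro h3
      exact hne (congrFun h3 j).symm
    apply hψ
    rw [h1, classInner_irr_ne (isIrrCharacter_of_hom _) hθi (Ne.symm h2)]
  set c := g * k * g⁻¹ * k⁻¹ with hc
  have hFc : ∀ F : T →* ℂˣ, F c = 1 := by
    intro F
    rw [hc, map_mul, map_mul, map_mul, map_inv, map_inv, mul_comm (F g) (F k), mul_inv_cancel_right,
      mul_inv_cancel]
  set Φ := indFun J θ with hΦ
  have hΦc : IsCharacter T Φ := indFun_isCharacter J (IsIrrCharacter.isCharacter hθi)
  have hdec := classFunction_eq_sum (isClassFunction_of_isCharacter hΦc)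
  have hval : Φ c = Φ 1 := by
    rw [hdec]
    simp only [Finset.sum_apply, Pi.smul_apply, smul_eq_mul]
    apply Finset.sum_congr rfl
    intro ψ _
    by_cases h0 : classInner Φ (ψ : T → ℂ) = 0
    · rw [h0, zero_mul, zero_mul]
    · congr 1
      have h1 : classInner (fun n : J => (ψ : T → ℂ) n) θ ≠ 0 := by
        rw [hΦ, frobenius J θ (isClassFunction_of_isCharacter (IsIrrCharacter.isCharacter ψ.2)),
          ← classInner_conj_symm] at h0
        exact fun h2 => h0 (by rw [h2, map_zero])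
      obtain ⟨F, hF, -⟩ := hlin ψ h1
      rw [hF, hF, hFc, map_one]
  have hone : Φ 1 ≠ 0 := by
    rw [hΦ, indFun_one]
    apply mul_ne_zero
    · exact_mod_cast Subgroup.index_ne_zero_of_finite
    · simp [hθ]
  have hmem : c ∈ J := by
    by_contra hnot
    apply hone
    rw [← hval, hΦ]
    exact Cfsg.Agent.Lib.CosetAvg.indFun_eq_zero_of_not_mem J hJ θ hnot
  refine ⟨hmem, ?_⟩
  obtain ⟨ψ, hψ⟩ := Cfsg.Agent.Lib.GlaubAbove.exists_irr_over J ⟨θ, hθi⟩
  obtain ⟨F, -, hF⟩ := hlin ψ hψ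
  rw [← hF ⟨c, hmem⟩]
  exact hFc F

end LemmaA

section Inert

variable {G : Type u} [Group G] [Finite G]

/-- Inertia groups in groups with character degrees `1` and `p`. -/
theorem inert_facts {p : ℕ} (hp : p.Prime) (hcd : Two G p) (H : Subgroup G) [hH : H.Normal]
    (μ : H →* ℂˣ) (hHI : H ≤ inert H μ) (htop : inert H μ ≠ ⊤) :
    (inert H μ).index = p ∧ ∀ a ∈ inert H μ, ∀ b ∈ inert H μ,
      ∃ hc : a * b * a⁻¹ * b⁻¹ ∈ H, μ ⟨_, hc⟩ = 1 := by
  classical
  haveI : Fintype G := Fintype.ofFinite G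
  haveI : Fintype H := Fintype.ofFinite H
  set T := inert H μ with hTdef
  haveI : Fintype T := Fintype.ofFinite T
  let J : Subgroup T := H.subgroupOf T
  haveI hJn : J.Normal := inferInstance
  haveI : Fintype J := Fintype.ofFinite J
  let e : J ≃* H := Subgroup.subgroupOfEquivOfLe hHI
  let m : J →* ℂˣ := μ.comp e.toMonoidHom
  let θ : H → ℂ := fun j => ((μ j : ℂˣ) : ℂ)
  have hθ : IsIrrCharacter H θ := isIrrCharacter_of_hom μ
  have hT : ∀ g : G, g ∈ T ↔ ∀ n : H, θ ⟨g * n * g⁻¹, hH.conj_mem (n : G) n.2 g⟩ = θ n := by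
    intro g
    constructor
    · intro h n
      have h1 := inert_conj H h n
      show ((μ _ : ℂˣ) : ℂ) = ((μ n : ℂˣ) : ℂ)
      rw [← h1]
      rfl
    · intro h
      show act H g μ = μ
      ext n
      exact h n
  have hindex : T.index ≠ 1 := fun h => htop (Subgroup.index_eq_one.mp h)
  have key : ∀ ψ : IrrCharacter T, classInner (fun n : J => (ψ : T → ℂ) n)
      (fun j : J => ((m j : ℂˣ) : ℂ)) ≠ 0 → T.index = p ∧ (ψ : T → ℂ) 1 = 1 := by
    intro ψ hψ
    have hψc := IsIrrCharacter.isCharacter ψ.2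
    have hover : classInner (fun n : H => (ψ : T → ℂ) ⟨(n : G), hHI n.2⟩) θ ≠ 0 := by
      have h1 := classInner_comp_mulEquiv e (fun n : H => (ψ : T → ℂ) ⟨(n : G), hHI n.2⟩) θ
      rw [← h1]
      exact hψ
    have h1 := (indFun_irr_of_over H T hθ hT hHI ψ.2 hover).1
    have hdeg : charDegree (indFun T (ψ : T → ℂ)) = T.index * charDegree (ψ : T → ℂ) := by
      apply charDegree_of_one
      rw [indFun_one, one_eq_charDegree hψc]
      push_cast
      rfl
    have h2 : T.index * charDegree (ψ : T → ℂ) = p := by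
      rcases hcd ⟨_, h1⟩ with h3 | h3
      · change charDegree (indFun T (ψ : T → ℂ)) = 1 at h3
        rw [hdeg] at h3
        exact absurd (Nat.eq_one_of_mul_eq_one_right h3) hindex
      · change charDegree (indFun T (ψ : T → ℂ)) = p at h3
        rw [← hdeg, h3]
    have h3 : T.index ∣ p := ⟨_, h2.symm⟩
    have h4 : T.index = p := ((Nat.dvd_prime hp).mp h3).resolve_left hindex
    refine ⟨h4, ?_⟩
    rw [h4] at h2
    have h5 : charDegree (ψ : T → ℂ) = 1 := by
      apply Nat.eq_of_mul_eq_mul_left hp.pos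
      rw [h2, mul_one]
    rw [one_eq_charDegree hψc, h5]
    simp
  constructor
  · obtain ⟨ψ, hψ⟩ := Cfsg.Agent.Lib.GlaubAbove.exists_irr_over J
      ⟨fun j : J => ((m j : ℂˣ) : ℂ), isIrrCharacter_of_hom m⟩
    exact (key ψ hψ).1
  · intro a ha b hb
    obtain ⟨hc, hc1⟩ := comm_of_linear_over J m (fun ψ hψ => (key ψ hψ).2) ⟨a, ha⟩ ⟨b, hb⟩
    exact ⟨hc, hc1⟩

end Inert

section Sep

variable {Q : Type u} [CommGroup Q] [Finite Q]

/-- Separation modulo a subgroup. -/
theorem sep_mod (L : Subgroup Q) (c : Q) (hc : c ∉ L) : ∃ μ : Q →* ℂˣ, (∀ l ∈ L, μ l = 1) ∧ μ c ≠ 1 := by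
  have h1 : (QuotientGroup.mk c : Q ⧸ L) ≠ 1 := fun h => hc ((QuotientGroup.eq_one_iff c).mp h)
  obtain ⟨l, hl⟩ := Cfsg.Agent.Lib.CharTwist.exists_hom_ne_one h1
  refine ⟨l.comp (QuotientGroup.mk' L), fun x hx => ?_, hl⟩
  show l (QuotientGroup.mk x) = 1
  rw [(QuotientGroup.eq_one_iff x).mpr hx, map_one]

/-- The characters outside a proper subgroup of a dual group generate it. -/
theorem sep_outside (L Y : Subgroup Q) (hLY : ¬ Y ≤ L) (c : Q)
    (hc : ∀ τ : Q →* ℂˣ, (∀ l ∈ L, τ l = 1) → (∃ y ∈ Y, τ y ≠ 1) → τ c = 1) : c ∈ L := by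
  by_contra hcL
  obtain ⟨τ₀, h01, h02⟩ := sep_mod L c hcL
  obtain ⟨y, hyY, hyL⟩ := SetLike.not_le_iff_exists.mp hLY
  obtain ⟨τ₁, h11, h12⟩ := sep_mod L y hyL
  by_cases h : ∃ y ∈ Y, τ₀ y ≠ 1
  · exact h02 (hc τ₀ h01 h)
  · push Not at h
    have h1 := hc τ₁ h11 ⟨y, hyY, h12⟩
    have h2 := hc (τ₀ * τ₁) (fun l hl => by
      rw [MonoidHom.mul_apply, h01 l hl, h11 l hl, mul_one]) ⟨y, hyY, by
      rw [MonoidHom.mul_apply, h y hyY, one_mul]
      exact h12⟩
    rw [MonoidHom.mul_apply, h1, mul_one] at h2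
    exact h02 h2

end Sep

section SepSub

variable {G : Type u} [Group G] (H : Subgroup G) [Finite H]

theorem sep_mod_sub (hab : ∀ a ∈ H, ∀ b ∈ H, a * b = b * a) (L : Subgroup H) (c : H) (hc : c ∉ L) :
    ∃ μ : H →* ℂˣ, (∀ l ∈ L, μ l = 1) ∧ μ c ≠ 1 := by
  letI : CommGroup H := { (inferInstance : Group H) with
    mul_comm := fun a b => Subtype.ext (hab a a.2 b b.2) }
  exact sep_mod L c hc

theorem sep_outside_sub (hab : ∀ a ∈ H, ∀ b ∈ H, a * b = b * a) (L Y : Subgroup H) (hLY : ¬ Y ≤ L)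
    (c : H) (hc : ∀ τ : H →* ℂˣ, (∀ l ∈ L, τ l = 1) → (∃ y ∈ Y, τ y ≠ 1) → τ c = 1) : c ∈ L := by
  letI : CommGroup H := { (inferInstance : Group H) with
    mul_comm := fun a b => Subtype.ext (hab a a.2 b b.2) }
  exact sep_outside L Y hLY c hc

/-- An abelian normal subgroup lies in the inertia group of each of its linear characters. -/
theorem le_inert [hH : H.Normal] (hab : ∀ a ∈ H, ∀ b ∈ H, a * b = b * a) (μ : H →* ℂˣ) :
    H ≤ inert H μ := by
  intro d hd
  show act H d μ = μ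
  ext e
  rw [act_apply]
  congr 2
  apply Subtype.ext
  rw [cj_apply, hab d hd e e.2]
  simp

end SepSub

section Good

variable {G : Type u} [Group G]

/-- The centre, as a commutative group. -/
instance centerCommGroup : CommGroup (Subgroup.center G) :=
  { (inferInstance : Group (Subgroup.center G)) with
    mul_comm := fun a b => Subtype.ext (Subgroup.mem_center_iff.mp b.2 a) }

/-- The commutator map of a second-central element. -/
def fx (x : G) (hx : ∀ g, x * g * x⁻¹ * g⁻¹ ∈ Subgroup.center G) : G →* Subgroup.center G where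
  toFun g := ⟨x * g * x⁻¹ * g⁻¹, hx g⟩
  map_one' := by
    apply Subtype.ext
    simp
  map_mul' a b := by
    apply Subtype.ext
    show x * (a * b) * x⁻¹ * (a * b)⁻¹ = (x * a * x⁻¹ * a⁻¹) * (x * b * x⁻¹ * b⁻¹)
    have h1 := Subgroup.mem_center_iff.mp (hx b) a
    calc x * (a * b) * x⁻¹ * (a * b)⁻¹
        = (x * a * x⁻¹ * a⁻¹) * (a * (x * b * x⁻¹ * b⁻¹)) * a⁻¹ := by group
      _ = (x * a * x⁻¹ * a⁻¹) * ((x * b * x⁻¹ * b⁻¹) * a) * a⁻¹ := by rw [h1]
      _ = _ := by group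

theorem fx_coe (x : G) (hx : ∀ g, x * g * x⁻¹ * g⁻¹ ∈ Subgroup.center G) (g : G) :
    ((fx x hx g : Subgroup.center G) : G) = x * g * x⁻¹ * g⁻¹ := rfl

/-- The subgroup generated by `x` and the centre. -/
def hgp (x : G) : Subgroup G := Subgroup.zpowers x ⊔ Subgroup.center G

theorem mem_hgp {x h : G} : h ∈ hgp x ↔ ∃ i : ℤ, ∃ z ∈ Subgroup.center G, x ^ i * z = h := by
  rw [hgp, Subgroup.mem_sup_of_normal_right]
  constructor
  · rintro ⟨y, hy, z, hz, rfl⟩
    obtain ⟨i, rfl⟩ := Subgroup.mem_zpowers_iff.mp hy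
    exact ⟨i, z, hz, rfl⟩
  · rintro ⟨i, z, hz, rfl⟩
    exact ⟨_, Subgroup.zpow_mem_zpowers x i, z, hz, rfl⟩

theorem center_le_hgp (x : G) : Subgroup.center G ≤ hgp x := le_sup_right

theorem self_mem_hgp (x : G) : x ∈ hgp x :=
  (le_sup_left : Subgroup.zpowers x ≤ hgp x) (Subgroup.mem_zpowers x)

theorem hgp_ab (x : G) : ∀ a ∈ hgp x, ∀ b ∈ hgp x, a * b = b * a := by
  intro a ha b hb
  obtain ⟨i, z, hz, rfl⟩ := mem_hgp.mp ha
  obtain ⟨j, w, hw, rfl⟩ := mem_hgp.mp hb
  have h1 : x ^ i * x ^ j = x ^ j * x ^ i := by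
    rw [← zpow_add, ← zpow_add, add_comm]
  have h2 := Subgroup.mem_center_iff.mp hz
  have h3 := Subgroup.mem_center_iff.mp hw
  calc x ^ i * z * (x ^ j * w) = x ^ i * (z * x ^ j) * w := by group
    _ = x ^ i * (x ^ j * z) * w := by rw [h2]
    _ = (x ^ i * x ^ j) * (z * w) := by group
    _ = (x ^ j * x ^ i) * (w * z) := by rw [h1, h3]
    _ = x ^ j * (x ^ i * w) * z := by group
    _ = x ^ j * (w * x ^ i) * z := by rw [h3]
    _ = _ := by group

theorem hgp_normal {x : G} (hx : ∀ g, x * g * x⁻¹ * g⁻¹ ∈ Subgroup.center G) : (hgp x).Normal := by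
  constructor
  intro h hh g
  obtain ⟨i, z, hz, rfl⟩ := mem_hgp.mp hh
  have h2 := Subgroup.mem_center_iff.mp hz
  have h3 : g * (x ^ i * z) * g⁻¹ = (g * x * g⁻¹) ^ i * z := by
    rw [conj_zpow]
    calc g * (x ^ i * z) * g⁻¹ = g * x ^ i * (z * g⁻¹) := by group
      _ = g * x ^ i * (g⁻¹ * z) := by rw [h2]
      _ = _ := by group
  rw [h3]
  apply (hgp x).mul_mem _ (center_le_hgp x hz)
  apply (hgp x).zpow_mem
  have h4 : g * x * g⁻¹ = (x * g * x⁻¹ * g⁻¹)⁻¹ * x := by group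
  rw [h4]
  exact (hgp x).mul_mem (center_le_hgp x (Subgroup.inv_mem _ (hx g))) (self_mem_hgp x)

/-- An abelian normal subgroup containing a central element. -/
theorem conj_center_eq {z : G} (hz : z ∈ Subgroup.center G) (g : G) : g * z * g⁻¹ = z := by
  rw [Subgroup.mem_center_iff.mp hz g]
  group

section Fin

variable [Finite G]

/-- The inertia group of an extension to `hgp x`. -/
theorem inert_hgp {x : G} (hx : ∀ g, x * g * x⁻¹ * g⁻¹ ∈ Subgroup.center G)
    (τ : Subgroup.center G →* ℂˣ) [hH : (hgp x).Normal] (μ : hgp x →* ℂˣ)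
    (hμ : ∀ z : Subgroup.center G, μ ⟨z, center_le_hgp x z.2⟩ = τ z) :
    inert (hgp x) μ = (τ.comp (fx x hx)).ker := by
  ext g
  rw [MonoidHom.mem_ker, MonoidHom.comp_apply]
  have hcx : cj (hgp x) g ⟨x, self_mem_hgp x⟩ =
      ⟨((fx x hx g)⁻¹ : Subgroup.center G), center_le_hgp x (Subgroup.inv_mem _ (hx g))⟩ *
        ⟨x, self_mem_hgp x⟩ := by
    apply Subtype.ext
    rw [cj_apply]
    show g * x * g⁻¹ = (x * g * x⁻¹ * g⁻¹)⁻¹ * x
    group
  constructor
  · intro hg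
    have h1 := inert_conj (hgp x) hg ⟨x, self_mem_hgp x⟩
    rw [hcx, map_mul, hμ, map_inv] at h1
    have h2 := mul_eq_right.mp h1
    exact inv_eq_one.mp h2
  · intro hg
    show act (hgp x) g μ = μ
    ext ⟨h, hh⟩
    congr 1
    obtain ⟨i, z, hz, rfl⟩ := mem_hgp.mp hh
    have h1 : (⟨x ^ i * z, hh⟩ : hgp x) = (⟨x, self_mem_hgp x⟩ : hgp x) ^ i *
        ⟨z, center_le_hgp x hz⟩ := by
      apply Subtype.ext
      simp
    rw [h1, map_mul, map_mul, map_zpow, map_zpow, act_apply, act_apply, hcx, map_mul, hμ, map_inv,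
      hg, inv_one, one_mul]
    congr 1
    congr 1
    apply Subtype.ext
    rw [cj_apply]
    exact conj_center_eq hz g

/-- The second key fact about second-central elements. -/
theorem key2 {p : ℕ} (hp : p.Prime) (hcd : Two G p) {x : G}
    (hx : ∀ g, x * g * x⁻¹ * g⁻¹ ∈ Subgroup.center G) (τ : Subgroup.center G →* ℂˣ)
    (htop : (τ.comp (fx x hx)).ker ≠ ⊤) :
    (τ.comp (fx x hx)).ker.index = p ∧ ∀ a ∈ (τ.comp (fx x hx)).ker, ∀ b ∈ (τ.comp (fx x hx)).ker,
      ∃ hc : a * b * a⁻¹ * b⁻¹ ∈ Subgroup.center G, τ ⟨_, hc⟩ = 1 := by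
  classical
  set T := (τ.comp (fx x hx)).ker with hT
  haveI hHn : (hgp x).Normal := hgp_normal hx
  have hab := hgp_ab x
  -- an extension of `τ`
  let J : Subgroup (hgp x) := (Subgroup.center G).subgroupOf (hgp x)
  let e : J ≃* Subgroup.center G := Subgroup.subgroupOfEquivOfLe (center_le_hgp x)
  have hJ : ∀ g k : hgp x, g * k * g⁻¹ * k⁻¹ ∈ J := by
    intro g k
    rw [Subgroup.mem_subgroupOf]
    have h1 : ((g * k * g⁻¹ * k⁻¹ : hgp x) : G) = 1 := by
      push_cast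
      rw [hab g g.2 k k.2]
      group
    rw [h1]
    exact Subgroup.one_mem _
  obtain ⟨μ, hμ⟩ := exists_hom_extend J (τ.comp e.toMonoidHom) hJ (by
    intro g k
    have h1 : (⟨g * k * g⁻¹ * k⁻¹, hJ g k⟩ : J) = 1 := by
      apply Subtype.ext
      apply Subtype.ext
      show (g : G) * k * (g : G)⁻¹ * (k : G)⁻¹ = 1
      rw [hab g g.2 k k.2]
      group
    rw [h1, map_one])
  have hμ' : ∀ z : Subgroup.center G, μ ⟨z, center_le_hgp x z.2⟩ = τ z := by
    intro z
    have h1 := hμ ⟨⟨z, center_le_hgp x z.2⟩, z.2⟩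
    exact h1
  have hin : inert (hgp x) μ = T := inert_hgp hx τ μ hμ'
  have hle := le_inert (hgp x) hab μ
  obtain ⟨h1, h2⟩ := inert_facts hp hcd (hgp x) μ hle (by rw [hin]; exact htop)
  rw [hin] at h1
  refine ⟨h1, fun a ha b hb => ?_⟩
  obtain ⟨hc, hc1⟩ := h2 a (by rw [hin]; exact ha) b (by rw [hin]; exact hb)
  have hcZ : a * b * a⁻¹ * b⁻¹ ∈ Subgroup.center G := by
    by_contra hnot
    have h3 : (⟨_, hc⟩ : hgp x) ∉ J := fun h => hnot h
    obtain ⟨l, hl1, hl2⟩ := sep_mod_sub (hgp x) hab J _ h3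
    have h4 : ∀ z : Subgroup.center G, (μ * l) ⟨z, center_le_hgp x z.2⟩ = τ z := by
      intro z
      rw [MonoidHom.mul_apply, hμ', hl1 _ z.2, mul_one]
    have hin' : inert (hgp x) (μ * l) = T := inert_hgp hx τ (μ * l) h4
    have hle' := le_inert (hgp x) hab (μ * l)
    obtain ⟨-, h5⟩ := inert_facts hp hcd (hgp x) (μ * l) hle' (by rw [hin']; exact htop)
    obtain ⟨hc', hc1'⟩ := h5 a (by rw [hin']; exact ha) b (by rw [hin']; exact hb)
    rw [MonoidHom.mul_apply, hc1, one_mul] at hc1'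
    exact hl2 hc1'
  refine ⟨hcZ, ?_⟩
  rw [← hμ']
  exact hc1

/-- The commutator map has exponent `p`. -/
theorem fx_pow {p : ℕ} (hp : p.Prime) (hcd : Two G p) {x : G}
    (hx : ∀ g, x * g * x⁻¹ * g⁻¹ ∈ Subgroup.center G) (g : G) : (fx x hx g) ^ p = 1 := by
  by_contra hne
  obtain ⟨τ, hτ⟩ := Cfsg.Agent.Lib.CharTwist.exists_hom_ne_one (Q := Subgroup.center G) hne
  apply hτ
  have h0 : τ ((fx x hx g) ^ p) = (τ.comp (fx x hx)) (g ^ p) := by
    simp only [MonoidHom.comp_apply, map_pow]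
  rw [h0]
  by_cases htop : (τ.comp (fx x hx)).ker = ⊤
  · have : g ^ p ∈ (τ.comp (fx x hx)).ker := by
      rw [htop]
      trivial
    exact this
  · have h1 := (key2 hp hcd hx τ htop).1
    have h2 := Subgroup.pow_index_mem (τ.comp (fx x hx)).ker g
    rw [h1] at h2
    exact h2

theorem fx_ne_one {x : G} (hx : ∀ g, x * g * x⁻¹ * g⁻¹ ∈ Subgroup.center G)
    (hxZ : x ∉ Subgroup.center G) : ∃ g₀, fx x hx g₀ ≠ 1 := by
  by_contra hno
  push Not at hno
  apply hxZ
  rw [Subgroup.mem_center_iff]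
  intro g
  have h1 : x * g * x⁻¹ * g⁻¹ = 1 := congrArg Subtype.val (hno g)
  calc g * x = (x * g * x⁻¹ * g⁻¹)⁻¹ * (x * g) := by group
    _ = x * g := by rw [h1, inv_one, one_mul]

/-- The centralizer of a non-central second-central element is abelian. -/
theorem cx_abelian {p : ℕ} (hp : p.Prime) (hcd : Two G p) {x : G}
    (hx : ∀ g, x * g * x⁻¹ * g⁻¹ ∈ Subgroup.center G) (hxZ : x ∉ Subgroup.center G) :
    ∀ a ∈ (fx x hx).ker, ∀ b ∈ (fx x hx).ker, a * b = b * a := by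
  intro a ha b hb
  obtain ⟨g₀, hg₀⟩ := fx_ne_one hx hxZ
  have hker : ∀ τ : Subgroup.center G →* ℂˣ, (fx x hx).ker ≤ (τ.comp (fx x hx)).ker := by
    intro τ y hy
    rw [MonoidHom.mem_ker, MonoidHom.comp_apply, hy, map_one]
  have htop : ∀ τ : Subgroup.center G →* ℂˣ, (∃ y ∈ (fx x hx).range, τ y ≠ 1) →
      (τ.comp (fx x hx)).ker ≠ ⊤ := by
    rintro τ ⟨y, ⟨g, rfl⟩, hy⟩ h
    have : g ∈ (τ.comp (fx x hx)).ker := by
      rw [h]
      trivial
    exact hy this
  obtain ⟨τ₁, hτ₁⟩ := Cfsg.Agent.Lib.CharTwist.exists_hom_ne_one (Q := Subgroup.center G) hg₀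
  obtain ⟨hcZ, -⟩ := (key2 hp hcd hx τ₁ (htop τ₁ ⟨_, ⟨g₀, rfl⟩, hτ₁⟩)).2 a (hker τ₁ ha) b (hker τ₁ hb)
  have h1 : (⟨_, hcZ⟩ : Subgroup.center G) ∈ (⊥ : Subgroup (Subgroup.center G)) := by
    apply sep_outside ⊥ (fx x hx).range
    · intro hle
      exact hg₀ (Subgroup.mem_bot.mp (hle ⟨g₀, rfl⟩))
    · intro τ _ hτ
      obtain ⟨hc', hc1⟩ := (key2 hp hcd hx τ (htop τ hτ)).2 a (hker τ ha) b (hker τ hb)
      exact hc1
  have h2 := congrArg Subtype.val (Subgroup.mem_bot.mp h1)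
  have h3 : a * b * a⁻¹ * b⁻¹ = 1 := h2
  calc a * b = a * b * a⁻¹ * b⁻¹ * (b * a) := by group
    _ = b * a := by rw [h3, one_mul]

/-- The commutator image is not cyclic if there is no abelian normal subgroup of index `p`. -/
theorem hnc_of_no {p : ℕ} (hp : p.Prime) (hcd : Two G p)
    (hno : ∀ A : Subgroup G, A.Normal → (∀ a ∈ A, ∀ b ∈ A, a * b = b * a) → A.index ≠ p) {x : G}
    (hx : ∀ g, x * g * x⁻¹ * g⁻¹ ∈ Subgroup.center G) (hxZ : x ∉ Subgroup.center G)
    (y : Subgroup.center G) : ∃ g, fx x hx g ∉ Subgroup.zpowers y := by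
  haveI : Fact p.Prime := ⟨hp⟩
  by_contra hnog
  push Not at hnog
  have hle : (fx x hx).range ≤ Subgroup.zpowers y := by
    rintro _ ⟨g, rfl⟩
    exact hnog g
  haveI : IsCyclic (fx x hx).range :=
    isCyclic_of_injective (Subgroup.inclusion hle) (Subgroup.inclusion_injective hle)
  obtain ⟨r, hr⟩ := IsCyclic.exists_generator (α := (fx x hx).range)
  have hcard : Nat.card (fx x hx).range = orderOf r := (orderOf_eq_card_of_forall_mem_zpowers hr).symm
  have hrp : r ^ p = 1 := by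
    obtain ⟨_, ⟨g, rfl⟩⟩ := r
    apply Subtype.ext
    exact fx_pow hp hcd hx g
  have hdvd : Nat.card (fx x hx).range ∣ p := by
    rw [hcard]
    exact orderOf_dvd_of_pow_eq_one hrp
  rcases (Nat.dvd_prime hp).mp hdvd with h1 | h1
  · obtain ⟨g₀, hg₀⟩ := fx_ne_one hx hxZ
    have h2 : Subsingleton (fx x hx).range := (Nat.card_eq_one_iff_unique.mp h1).1
    have h3 : (⟨_, ⟨g₀, rfl⟩⟩ : (fx x hx).range) = 1 := Subsingleton.elim _ _
    exact hg₀ (congrArg Subtype.val h3)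
  · apply hno (fx x hx).ker inferInstance (cx_abelian hp hcd hx hxZ)
    rw [Subgroup.index_ker, h1]

/-- Commutators with elements of the centralizer are multiples of the commutators with `x`. -/
theorem comm_mem_zpowers {p : ℕ} (hp : p.Prime) (hcd : Two G p) {x : G}
    (hx : ∀ g, x * g * x⁻¹ * g⁻¹ ∈ Subgroup.center G) (hxZ : x ∉ Subgroup.center G)
    (hnc : ∀ y : Subgroup.center G, ∃ g, fx x hx g ∉ Subgroup.zpowers y) (g : G)
    {a : G} (ha : a ∈ (fx x hx).ker) :
    ∃ k : ℤ, g * a * g⁻¹ * a⁻¹ = ((fx x hx g : Subgroup.center G) : G) ^ k := by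
  classical
  set f := fx x hx with hf
  set A := f.ker with hA
  haveI hAn : A.Normal := inferInstance
  have hAab := cx_abelian hp hcd hx hxZ
  have hZA : Subgroup.center G ≤ A := by
    intro z hz
    show f z = 1
    apply Subtype.ext
    show x * z * x⁻¹ * z⁻¹ = 1
    rw [Subgroup.mem_center_iff.mp hz x]
    group
  have hxA : x ∈ A := by
    show f x = 1
    apply Subtype.ext
    show x * x * x⁻¹ * x⁻¹ = 1
    group
  let ι : Subgroup.center G →* A := Subgroup.inclusion hZA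
  have hιinj : Function.Injective ι := Subgroup.inclusion_injective hZA
  let L : Subgroup A := Subgroup.zpowers (ι (f g))
  let Y : Subgroup A := (ι.comp f).range
  have hLY : ¬ Y ≤ L := by
    obtain ⟨g', hg'⟩ := hnc (f g)
    intro hle
    obtain ⟨k, hk⟩ := Subgroup.mem_zpowers_iff.mp (hle (⟨g', rfl⟩ : ι (f g') ∈ Y))
    apply hg'
    rw [Subgroup.mem_zpowers_iff]
    refine ⟨k, hιinj ?_⟩
    rw [map_zpow]
    exact hk
  let c : A := cj A g ⟨a, ha⟩ * ⟨a, ha⟩⁻¹
  have hcL : c ∈ L := by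
    apply sep_outside_sub A hAab L Y hLY c
    intro μ hμL hμY
    set τ : Subgroup.center G →* ℂˣ := μ.comp ι with hτ
    have htop : (τ.comp f).ker ≠ ⊤ := by
      obtain ⟨_, ⟨g', rfl⟩, hy⟩ := hμY
      intro h
      have : g' ∈ (τ.comp f).ker := by
        rw [h]
        trivial
      exact hy this
    obtain ⟨hTi, -⟩ := key2 hp hcd hx τ htop
    have hAI := le_inert A hAab μ
    have hST : inert A μ ≤ (τ.comp f).ker := by
      intro g' hg'
      have h1 := inert_conj A hg' ⟨x, hxA⟩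
      have h2 : cj A g' ⟨x, hxA⟩ = (ι (f g'))⁻¹ * ⟨x, hxA⟩ := by
        apply Subtype.ext
        rw [cj_apply]
        show g' * x * g'⁻¹ = (x * g' * x⁻¹ * g'⁻¹)⁻¹ * x
        group
      rw [h2, map_mul, map_inv] at h1
      have h3 := mul_eq_right.mp h1
      exact inv_eq_one.mp h3
    have hStop : inert A μ ≠ ⊤ := by
      intro h
      apply htop
      rw [eq_top_iff, ← h]
      exact hST
    have hSi := (inert_facts hp hcd A μ hAI hStop).1
    have hSeq := eq_of_le_of_index hST (by rw [hSi, hTi])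
    have hg : g ∈ inert A μ := by
      rw [hSeq]
      show τ (f g) = 1
      exact hμL _ (Subgroup.mem_zpowers _)
    have h1 := inert_conj A hg ⟨a, ha⟩
    show μ (cj A g ⟨a, ha⟩ * ⟨a, ha⟩⁻¹) = 1
    rw [map_mul, map_inv, h1, mul_inv_cancel]
  obtain ⟨k, hk⟩ := Subgroup.mem_zpowers_iff.mp hcL
  refine ⟨k, ?_⟩
  have h3 : ((c : A) : G) = g * a * g⁻¹ * a⁻¹ := by
    show ((cj A g ⟨a, ha⟩ : A) : G) * _ = _
    rw [cj_apply]
    rfl
  rw [← h3, ← hk, Subgroup.coe_zpow]
  rfl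

end Fin

/-- A homomorphism preserving the lines of a non-cyclic group of exponent `p` is a power map. -/
theorem scalar {Q : Type*} [CommGroup Q] {p : ℕ} (hp : p.Prime) (f h : G →* Q)
    (hfp : ∀ g, (f g) ^ p = 1) (hh : ∀ g, h g ∈ Subgroup.zpowers (f g))
    (hnc : ∀ y : Q, ∃ g, f g ∉ Subgroup.zpowers y) : ∃ k : ℤ, ∀ g, h g = (f g) ^ k := by
  haveI : Fact p.Prime := ⟨hp⟩
  have hdvd1 : ∀ (g : G) (e : ℤ), (p : ℤ) ∣ e → (f g) ^ e = 1 := by
    rintro g e ⟨t, rfl⟩
    rw [zpow_mul, zpow_natCast, hfp, one_zpow]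
  obtain ⟨g₀, hg₀⟩ := hnc 1
  have hy₀ : f g₀ ≠ 1 := by
    intro h1
    apply hg₀
    rw [h1]
    exact Subgroup.one_mem _
  have hord : orderOf (f g₀) = p := orderOf_eq_prime (hfp g₀) hy₀
  obtain ⟨k, hk⟩ := Subgroup.mem_zpowers_iff.mp (hh g₀)
  have hk' : h g₀ = (f g₀) ^ k := hk.symm
  refine ⟨k, ?_⟩
  have case1 : ∀ g, f g ∉ Subgroup.zpowers (f g₀) → h g = (f g) ^ k := by
    intro g hg
    obtain ⟨l, hl⟩ := Subgroup.mem_zpowers_iff.mp (hh g)
    obtain ⟨n, hn⟩ := Subgroup.mem_zpowers_iff.mp (hh (g * g₀))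
    rw [map_mul, map_mul, ← hl, hk', mul_zpow] at hn
    have h1 : (f g) ^ (l - n) = (f g₀) ^ (n - k) := by
      rw [zpow_sub, zpow_sub, ← div_eq_mul_inv, ← div_eq_mul_inv, div_eq_div_iff_mul_eq_mul,
        mul_comm (f g₀ ^ n)]
      exact hn.symm
    have h2 : (p : ℤ) ∣ l - n := by
      by_contra hnot
      apply hg
      have hcop : IsCoprime (l - n) (p : ℤ) :=
        ((Nat.prime_iff_prime_int.mp hp).coprime_iff_not_dvd.mpr hnot).symm
      obtain ⟨u, v, huv⟩ := hcop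
      rw [Subgroup.mem_zpowers_iff]
      refine ⟨(n - k) * u, ?_⟩
      rw [zpow_mul, ← h1, ← zpow_mul]
      have h3 : (f g) ^ ((l - n) * u + v * p) = f g := by
        rw [mul_comm (l - n) u, huv, zpow_one]
      rw [zpow_add, hdvd1 g (v * p) (Dvd.intro_left v rfl), mul_one] at h3
      exact h3
    have h3 : (p : ℤ) ∣ n - k := by
      rw [hdvd1 g _ h2] at h1
      have h4 := (orderOf_dvd_iff_zpow_eq_one).mpr h1.symm
      rwa [hord] at h4
    rw [← hl]
    have h4 : (f g) ^ l = (f g) ^ (l - k) * (f g) ^ k := by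
      rw [← zpow_add]
      congr 1
      ring
    rw [h4, hdvd1 g (l - k) (by
      have : l - k = (l - n) + (n - k) := by ring
      rw [this]
      exact dvd_add h2 h3), one_mul]
  intro g
  by_cases hg : f g ∈ Subgroup.zpowers (f g₀)
  · obtain ⟨g₁, hg₁⟩ := hnc (f g₀)
    have h1 : f (g * g₁) ∉ Subgroup.zpowers (f g₀) := by
      intro h2
      apply hg₁
      have h3 : f g₁ = (f g)⁻¹ * f (g * g₁) := by
        rw [map_mul, inv_mul_cancel_left]
      rw [h3]
      exact Subgroup.mul_mem _ (Subgroup.inv_mem _ hg) h2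
    have h2 := case1 _ h1
    have h3 := case1 _ hg₁
    rw [map_mul, map_mul, h3, mul_zpow] at h2
    exact mul_right_cancel h2
  · exact case1 g hg

end Good

section Main

variable {G : Type u} [Group G]

theorem fx_anti {u v : G} (hu : ∀ g, u * g * u⁻¹ * g⁻¹ ∈ Subgroup.center G)
    (hv : ∀ g, v * g * v⁻¹ * g⁻¹ ∈ Subgroup.center G) : fx u hu v = (fx v hv u)⁻¹ := by
  apply Subtype.ext
  show u * v * u⁻¹ * v⁻¹ = (v * u * v⁻¹ * u⁻¹)⁻¹
  group

theorem fx_self {u : G} (hu : ∀ g, u * g * u⁻¹ * g⁻¹ ∈ Subgroup.center G) : fx u hu u = 1 := by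
  apply Subtype.ext
  show u * u * u⁻¹ * u⁻¹ = 1
  group

theorem fx_center {u z : G} (hu : ∀ g, u * g * u⁻¹ * g⁻¹ ∈ Subgroup.center G)
    (hz : z ∈ Subgroup.center G) : fx u hu z = 1 := by
  apply Subtype.ext
  show u * z * u⁻¹ * z⁻¹ = 1
  rw [Subgroup.mem_center_iff.mp hz u]
  group

theorem fx_zpow {x : G} (hx : ∀ g, x * g * x⁻¹ * g⁻¹ ∈ Subgroup.center G) (g : G) (k : ℤ) :
    x ^ k * g * (x ^ k)⁻¹ * g⁻¹ = ((fx x hx g : Subgroup.center G) : G) ^ k := by
  set c := x * g * x⁻¹ * g⁻¹ with hc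
  have hcZ : c ∈ Subgroup.center G := hx g
  have h1 : g * x⁻¹ * g⁻¹ = x⁻¹ * c := by
    rw [hc]
    group
  have hcomm : Commute x⁻¹ c := (Subgroup.mem_center_iff.mp hcZ x⁻¹)
  have h2 : g * (x ^ k)⁻¹ * g⁻¹ = (x ^ k)⁻¹ * c ^ k := by
    have h3 : (g * x⁻¹ * g⁻¹) ^ k = g * (x⁻¹) ^ k * g⁻¹ := conj_zpow
    rw [h1, hcomm.mul_zpow, inv_zpow] at h3
    rw [h3]
  show x ^ k * g * (x ^ k)⁻¹ * g⁻¹ = c ^ k
  calc x ^ k * g * (x ^ k)⁻¹ * g⁻¹ = x ^ k * (g * (x ^ k)⁻¹ * g⁻¹) := by group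
    _ = c ^ k := by
      rw [h2, mul_inv_cancel_left]

section Fin

variable [Finite G]

theorem ker_le_hgp {p : ℕ} (hp : p.Prime) (hcd : Two G p) {x : G}
    (hx : ∀ g, x * g * x⁻¹ * g⁻¹ ∈ Subgroup.center G) (hxZ : x ∉ Subgroup.center G)
    (hnc : ∀ y : Subgroup.center G, ∃ g, fx x hx g ∉ Subgroup.zpowers y) :
    (fx x hx).ker ≤ hgp x := by
  intro a ha
  have h1 := fun g => comm_mem_zpowers hp hcd hx hxZ hnc g ha
  have ha' : ∀ g, a * g * a⁻¹ * g⁻¹ ∈ Subgroup.center G := by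
    intro g
    obtain ⟨k, hk⟩ := h1 g
    have h2 : a * g * a⁻¹ * g⁻¹ = (g * a * g⁻¹ * a⁻¹)⁻¹ := by group
    rw [h2, hk]
    exact Subgroup.inv_mem _ (Subgroup.zpow_mem _ (hx g) k)
  have hh : ∀ g, fx a ha' g ∈ Subgroup.zpowers (fx x hx g) := by
    intro g
    obtain ⟨k, hk⟩ := h1 g
    rw [Subgroup.mem_zpowers_iff]
    refine ⟨-k, ?_⟩
    apply Subtype.ext
    show (((fx x hx g) ^ (-k) : Subgroup.center G) : G) = a * g * a⁻¹ * g⁻¹
    rw [Subgroup.coe_zpow, zpow_neg, ← hk]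
    group
  obtain ⟨k, hk⟩ := scalar hp (fx x hx) (fx a ha') (fx_pow hp hcd hx) hh hnc
  have hb : x ^ (-k) * a ∈ Subgroup.center G := by
    rw [Subgroup.mem_center_iff]
    intro g
    have e : a * g * a⁻¹ * g⁻¹ = x ^ k * g * (x ^ k)⁻¹ * g⁻¹ := by
      rw [fx_zpow hx g k, ← Subgroup.coe_zpow, ← hk g]
      rfl
    have e2 : a * g * a⁻¹ = x ^ k * g * (x ^ k)⁻¹ := mul_right_cancel e
    rw [zpow_neg]
    calc g * ((x ^ k)⁻¹ * a) = (x ^ k)⁻¹ * (x ^ k * g * (x ^ k)⁻¹) * a := by group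
      _ = (x ^ k)⁻¹ * (a * g * a⁻¹) * a := by rw [e2]
      _ = _ := by group
  rw [mem_hgp]
  refine ⟨k, _, hb, ?_⟩
  rw [zpow_neg, mul_inv_cancel_left]

theorem pow_mem_center {p : ℕ} (hp : p.Prime) (hcd : Two G p) {x : G}
    (hx : ∀ g, x * g * x⁻¹ * g⁻¹ ∈ Subgroup.center G) : x ^ p ∈ Subgroup.center G := by
  rw [Subgroup.mem_center_iff]
  intro g
  have h1 := fx_zpow hx g p
  rw [zpow_natCast, zpow_natCast, ← Subgroup.coe_pow, fx_pow hp hcd hx g] at h1
  have h2 : x ^ p * g * (x ^ p)⁻¹ * g⁻¹ = 1 := h1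
  calc g * x ^ p = (x ^ p * g * (x ^ p)⁻¹ * g⁻¹)⁻¹ * (x ^ p * g) := by group
    _ = x ^ p * g := by rw [h2, inv_one, one_mul]

theorem index_center {p : ℕ} (hp : p.Prime) (hcd : Two G p) {x : G}
    (hx : ∀ g, x * g * x⁻¹ * g⁻¹ ∈ Subgroup.center G) (hxZ : x ∉ Subgroup.center G)
    (hnc : ∀ y : Subgroup.center G, ∃ g, fx x hx g ∉ Subgroup.zpowers y) :
    (Subgroup.center G).index = p * Nat.card (fx x hx).range := by
  haveI : Fact p.Prime := ⟨hp⟩
  have hZA : Subgroup.center G ≤ (fx x hx).ker := by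
    intro z hz
    exact fx_center hx hz
  have hxA : x ∈ (fx x hx).ker := fx_self hx
  have h1 := Subgroup.relIndex_mul_index hZA
  rw [Subgroup.index_ker] at h1
  rw [← h1]
  congr 1
  let q := QuotientGroup.mk' (Subgroup.center G)
  have h2 : (Subgroup.center G).relIndex (fx x hx).ker = Nat.card ((fx x hx).ker.map q) := by
    have := Subgroup.relIndex_ker (K := (fx x hx).ker) q
    rwa [QuotientGroup.ker_mk'] at this
  rw [h2]
  have h3 : (fx x hx).ker.map q = Subgroup.zpowers (q x) := by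
    apply le_antisymm
    · rintro _ ⟨a, ha, rfl⟩
      obtain ⟨i, z, hz, rfl⟩ := mem_hgp.mp (ker_le_hgp hp hcd hx hxZ hnc ha)
      have hqz : q z = 1 := (QuotientGroup.eq_one_iff z).mpr hz
      rw [map_mul, map_zpow, hqz, mul_one]
      exact Subgroup.zpow_mem_zpowers _ i
    · rw [Subgroup.zpowers_le]
      exact ⟨x, hxA, rfl⟩
  rw [h3, Nat.card_zpowers]
  apply orderOf_eq_prime
  · rw [← map_pow]
    exact (QuotientGroup.eq_one_iff _).mpr (pow_mem_center hp hcd hx)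
  · exact fun h => hxZ ((QuotientGroup.eq_one_iff x).mp h)

theorem card_sup_le {Q : Type*} [CommGroup Q] [Finite Q] {p : ℕ} (hp : 0 < p) (a b : Q)
    (ha : a ^ p = 1) (hb : b ^ p = 1) :
    Nat.card (Subgroup.zpowers a ⊔ Subgroup.zpowers b : Subgroup Q) ≤ p ^ 2 := by
  let g : Subgroup.zpowers a × Subgroup.zpowers b →
      (Subgroup.zpowers a ⊔ Subgroup.zpowers b : Subgroup Q) :=
    fun s => ⟨s.1 * s.2, Subgroup.mul_mem_sup s.1.2 s.2.2⟩
  have hg : Function.Surjective g := by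
    rintro ⟨y, hy⟩
    obtain ⟨s, hs, t, ht, rfl⟩ := Subgroup.mem_sup.mp hy
    exact ⟨(⟨s, hs⟩, ⟨t, ht⟩), rfl⟩
  have h1 := Nat.card_le_card_of_surjective g hg
  rw [Nat.card_prod, Nat.card_zpowers, Nat.card_zpowers] at h1
  have h2 := orderOf_le_of_pow_eq_one hp ha
  have h3 := orderOf_le_of_pow_eq_one hp hb
  nlinarith

theorem large_comm {p : ℕ} (hp : p.Prime) (hcd : Two G p) {x : G}
    (hx : ∀ g, x * g * x⁻¹ * g⁻¹ ∈ Subgroup.center G)
    (hlarge : p ^ 2 < Nat.card (fx x hx).range) (v w : G) :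
    ∃ hc : v * w * v⁻¹ * w⁻¹ ∈ Subgroup.center G, (⟨_, hc⟩ : Subgroup.center G) ∈
      Subgroup.zpowers (fx x hx v) ⊔ Subgroup.zpowers (fx x hx w) := by
  set f := fx x hx with hf
  set L : Subgroup (Subgroup.center G) := Subgroup.zpowers (f v) ⊔ Subgroup.zpowers (f w) with hL
  have hcard : Nat.card L ≤ p ^ 2 :=
    card_sup_le hp.pos _ _ (fx_pow hp hcd hx v) (fx_pow hp hcd hx w)
  have hnle : ¬ f.range ≤ L := by
    intro h
    have := Subgroup.card_le_of_le h
    omega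
  have hvw : ∀ τ : Subgroup.center G →* ℂˣ, (∀ l ∈ L, τ l = 1) →
      v ∈ (τ.comp f).ker ∧ w ∈ (τ.comp f).ker := by
    intro τ hτ
    refine ⟨?_, ?_⟩
    · exact hτ _ ((le_sup_left : Subgroup.zpowers (f v) ≤ L) (Subgroup.mem_zpowers _))
    · exact hτ _ ((le_sup_right : Subgroup.zpowers (f w) ≤ L) (Subgroup.mem_zpowers _))
  have htop : ∀ τ : Subgroup.center G →* ℂˣ, (∃ y ∈ f.range, τ y ≠ 1) → (τ.comp f).ker ≠ ⊤ := by
    rintro τ ⟨y, ⟨g, rfl⟩, hy⟩ h
    have : g ∈ (τ.comp f).ker := by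
      rw [h]
      trivial
    exact hy this
  obtain ⟨y, hy, hyL⟩ := SetLike.not_le_iff_exists.mp hnle
  obtain ⟨τ₁, hτ₁, hτ₁y⟩ := sep_mod L y hyL
  obtain ⟨hv₁, hw₁⟩ := hvw τ₁ hτ₁
  obtain ⟨hc, -⟩ := (key2 hp hcd hx τ₁ (htop τ₁ ⟨y, hy, hτ₁y⟩)).2 v hv₁ w hw₁
  refine ⟨hc, sep_outside L f.range hnle _ ?_⟩
  intro τ hτ hτY
  obtain ⟨hv', hw'⟩ := hvw τ hτ
  obtain ⟨hc', hc1⟩ := (key2 hp hcd hx τ (htop τ hτY)).2 v hv' w hw'
  exact hc1

/-- Existence of a second-central non-central element. -/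
theorem exists_good {p : ℕ} (hp : p.Prime) (hG : IsPGroup p G) {a b : G} (hab : a * b ≠ b * a) :
    ∃ x, x ∉ Subgroup.center G ∧ ∀ g, x * g * x⁻¹ * g⁻¹ ∈ Subgroup.center G := by
  haveI : Fact p.Prime := ⟨hp⟩
  haveI hnil : Group.IsNilpotent G := hG.isNilpotent
  obtain ⟨n, hn⟩ := Subgroup.nilpotent_iff_lowerCentralSeries.mp hnil
  by_contra hno
  push Not at hno
  have hall : ∀ k, ∃ y ∈ (⊤ : Subgroup G).lowerCentralSeries k, y ∉ Subgroup.center G := by
    intro k
    induction k with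
    | zero =>
      refine ⟨a, trivial, fun h => hab ?_⟩
      exact (Subgroup.mem_center_iff.mp h b).symm
    | succ k ih =>
      obtain ⟨y, hy, hyZ⟩ := ih
      obtain ⟨g, hg⟩ := hno y hyZ
      refine ⟨y * g * y⁻¹ * g⁻¹, ?_, hg⟩
      rw [← commutatorElement_def]
      exact Subgroup.commutator_mem_commutator hy trivial
  obtain ⟨y, hy, hyZ⟩ := hall n
  rw [hn, Subgroup.mem_bot] at hy
  rw [hy] at hyZ
  exact hyZ (Subgroup.one_mem _)

/-- The final contradiction when the image of the commutator map is too large. -/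
theorem large_false {p : ℕ} (hp : p.Prime) (hcd : Two G p)
    (hno : ∀ A : Subgroup G, A.Normal → (∀ a ∈ A, ∀ b ∈ A, a * b = b * a) → A.index ≠ p)
    (hcl : ∀ v w : G, v * w * v⁻¹ * w⁻¹ ∈ Subgroup.center G)
    (hL : ∀ u, u ∉ Subgroup.center G → ∀ v w, (⟨_, hcl v w⟩ : Subgroup.center G) ∈
      Subgroup.zpowers (fx u (hcl u) v) ⊔ Subgroup.zpowers (fx u (hcl u) w))
    {v : G} (hvZ : v ∉ Subgroup.center G) : False := by
  let F : G → G →* Subgroup.center G := fun g => fx g (hcl g)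
  have hpos : ∀ u v : G, F u v = (F v u)⁻¹ := fun u v => fx_anti (hcl u) (hcl v)
  have hself : ∀ u : G, F u u = 1 := fun u => fx_self (hcl u)
  obtain ⟨w, hw⟩ := fx_ne_one (hcl v) hvZ
  set c := F v w with hc
  have hcp : c ^ p = 1 := fx_pow hp hcd (hcl v) w
  have hcz : ∀ e : ℤ, (p : ℤ) ∣ e → c ^ e = 1 := by
    rintro e ⟨t, rfl⟩
    rw [zpow_mul, zpow_natCast, hcp, one_zpow]
  obtain ⟨u, hu⟩ := hnc_of_no hp hcd hno (hcl v) hvZ c
  have huZ : u ∉ Subgroup.center G := by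
    intro h
    apply hu
    rw [fx_center (hcl v) h]
    exact Subgroup.one_mem _
  obtain ⟨y, hy, z, hz, hyz⟩ := Subgroup.mem_sup.mp (hL u huZ v w)
  obtain ⟨a, rfl⟩ := Subgroup.mem_zpowers_iff.mp hy
  obtain ⟨b, rfl⟩ := Subgroup.mem_zpowers_iff.mp hz
  have hyz' : (F u v) ^ a * (F u w) ^ b = c := hyz
  set s := v ^ a * w ^ b with hs
  have hFu : F u s = c := by
    rw [hs, map_mul, map_zpow, map_zpow]
    exact hyz'
  have hsZ : s ∉ Subgroup.center G := by
    intro h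
    apply hw
    rw [← hFu]
    exact fx_center (hcl u) h
  have hFv : F v s = c ^ b := by
    rw [hs, map_mul, map_zpow, map_zpow, hself, one_zpow, one_mul]
  have hFw : F w s = c ^ (-a) := by
    rw [hs, map_mul, map_zpow, map_zpow, hself, one_zpow, mul_one, hpos w v, inv_zpow, zpow_neg]
  have hFsu : F s u = c⁻¹ := by rw [hpos, hFu]
  have hFsv : F s v = c ^ (-b) := by rw [hpos, hFv, zpow_neg]
  have hFsw : F s w = c ^ a := by rw [hpos, hFw, zpow_neg, inv_inv]
  -- Bezout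
  have hpv : ∀ e : ℤ, (p : ℤ) ∣ e → (F u v) ^ e = 1 := by
    rintro e ⟨t, rfl⟩
    rw [zpow_mul, zpow_natCast, fx_pow hp hcd (hcl u) v, one_zpow]
  have hpw : ∀ e : ℤ, (p : ℤ) ∣ e → (F u w) ^ e = 1 := by
    rintro e ⟨t, rfl⟩
    rw [zpow_mul, zpow_natCast, fx_pow hp hcd (hcl u) w, one_zpow]
  have hbez : ∃ α β : ℤ, (p : ℤ) ∣ α * b - β * a - 1 := by
    by_cases hpb : (p : ℤ) ∣ b
    · have hpa : ¬ (p : ℤ) ∣ a := by
        intro hpa
        apply hw
        rw [← hyz', hpv a hpa, hpw b hpb, one_mul]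
      have hcop : IsCoprime a (p : ℤ) :=
        ((Nat.prime_iff_prime_int.mp hp).coprime_iff_not_dvd.mpr hpa).symm
      obtain ⟨r, t, hrt⟩ := hcop
      refine ⟨0, -r, ⟨-t, ?_⟩⟩
      have : (p : ℤ) * -t = r * a - 1 := by linear_combination (-1 : ℤ) * hrt
      rw [this]
      ring
    · have hcop : IsCoprime b (p : ℤ) :=
        ((Nat.prime_iff_prime_int.mp hp).coprime_iff_not_dvd.mpr hpb).symm
      obtain ⟨r, t, hrt⟩ := hcop
      refine ⟨r, 0, ⟨-t, ?_⟩⟩
      have : (p : ℤ) * -t = r * b - 1 := by linear_combination (-1 : ℤ) * hrt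
      rw [this]
      ring
  obtain ⟨α, β, hαβ⟩ := hbez
  set t := v ^ α * w ^ β with ht
  have hFst : F s t = c⁻¹ := by
    rw [ht, map_mul, map_zpow, map_zpow, hFsv, hFsw, ← zpow_mul, ← zpow_mul, ← zpow_add]
    have h1 : -b * α + a * β = -1 + (-(α * b - β * a - 1)) := by ring
    rw [h1, zpow_add, hcz _ ((dvd_neg).mpr hαβ), mul_one, zpow_neg, zpow_one]
  have hker : t⁻¹ * u ∈ (F s).ker := by
    rw [MonoidHom.mem_ker, map_mul, map_inv, hFst, hFsu, inv_mul_cancel]
  have hmem := ker_le_hgp hp hcd (hcl s) hsZ (hnc_of_no hp hcd hno (hcl s) hsZ) hker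
  obtain ⟨i, z, hz, hiz⟩ := mem_hgp.mp hmem
  have hu' : u = t * (s ^ i * z) := by
    rw [hiz, mul_inv_cancel_left]
  have hFvt : F v t = c ^ β := by
    rw [ht, map_mul, map_zpow, map_zpow, hself, one_zpow, one_mul]
  have hFvz : F v z = 1 := fx_center (hcl v) hz
  apply hu
  show F v u ∈ Subgroup.zpowers c
  clear_value t
  rw [hu', map_mul, map_mul, map_zpow, hFvt, hFv, hFvz, mul_one, ← zpow_mul, ← zpow_add]
  exact Subgroup.zpow_mem_zpowers _ _

/-- The main theorem for `p`-groups. -/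
theorem pgroup_main {p : ℕ} (hp : p.Prime) (hG : IsPGroup p G) (hcd : Two G p) {a b : G}
    (hab : a * b ≠ b * a)
    (hno : ∀ A : Subgroup G, A.Normal → (∀ a ∈ A, ∀ b ∈ A, a * b = b * a) → A.index ≠ p) :
    (Subgroup.center G).index = p ^ 3 := by
  haveI : Fact p.Prime := ⟨hp⟩
  obtain ⟨x, hxZ, hx⟩ := exists_good hp hG hab
  have hnc := hnc_of_no hp hcd hno hx hxZ
  have hidx := index_center hp hcd hx hxZ hnc
  obtain ⟨n, hn⟩ := IsPGroup.iff_card.mp hG
  have hd : Nat.card (fx x hx).range ∣ p ^ n := by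
    rw [← hn, ← Subgroup.index_ker]
    exact Subgroup.index_dvd_card _
  obtain ⟨k, -, hk⟩ := (Nat.dvd_prime_pow hp).mp hd
  have hk0 : k ≠ 0 := by
    rintro rfl
    obtain ⟨g₀, hg₀⟩ := fx_ne_one hx hxZ
    rw [pow_zero] at hk
    have h2 : Subsingleton (fx x hx).range := (Nat.card_eq_one_iff_unique.mp hk).1
    have h3 : (⟨_, ⟨g₀, rfl⟩⟩ : (fx x hx).range) = 1 := Subsingleton.elim _ _
    exact hg₀ (congrArg Subtype.val h3)
  have hk1 : k ≠ 1 := by
    rintro rfl
    apply hno (fx x hx).ker inferInstance (cx_abelian hp hcd hx hxZ)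
    rw [Subgroup.index_ker, hk, pow_one]
  by_cases hk2 : k = 2
  · rw [hidx, hk, hk2]
    ring
  · exfalso
    have hlt : p ^ 2 < p ^ k := Nat.pow_lt_pow_right hp.one_lt (by omega)
    have hlarge : p ^ 2 < Nat.card (fx x hx).range := by rw [hk]; exact hlt
    have hcl : ∀ v w : G, v * w * v⁻¹ * w⁻¹ ∈ Subgroup.center G := fun v w =>
      (large_comm hp hcd hx hlarge v w).1
    apply large_false hp hcd hno hcl ?_ hxZ
    intro u hu v w
    have hnc' := hnc_of_no hp hcd hno (hcl u) hu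
    have hidx' := index_center hp hcd (hcl u) hu hnc'
    have hlarge' : p ^ 2 < Nat.card (fx u (hcl u)).range := by
      have h1 : Nat.card (fx u (hcl u)).range = p ^ k := by
        apply Nat.eq_of_mul_eq_mul_left hp.pos
        rw [← hidx', hidx, hk]
      rw [h1]
      exact hlt
    exact (large_comm hp hcd (hcl u) hlarge' v w).2

end Fin

end Main

section Final

variable {G : Type u} [Group G] [Finite G]

theorem exists_nonlinear_of_not_comm {a b : G} (hab : a * b ≠ b * a) :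
    ∃ χ : IrrCharacter G, charDegree (χ : G → ℂ) ≠ 1 := by
  by_contra hno
  push Not at hno
  apply hab
  apply comm_of_all_linear
  intro θ
  rw [one_eq_charDegree (IsIrrCharacter.isCharacter θ.2), hno θ]
  simp

/-- Degrees when there is an abelian normal subgroup of index `p`. -/
theorem two_of_abelian_index {p : ℕ} (hp : p.Prime) (A : Subgroup G) [hA : A.Normal]
    (hab : ∀ a ∈ A, ∀ b ∈ A, a * b = b * a) (hidx : A.index = p) : Two G p := by
  classical
  haveI : Fintype G := Fintype.ofFinite G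
  haveI : Fintype A := Fintype.ofFinite A
  intro χ
  have hχc := IsIrrCharacter.isCharacter χ.2
  obtain ⟨θ, hθ⟩ := Cfsg.Agent.Lib.CoprimeDeg.exists_constituent A hχc (irr_degree_ne_zero χ.2)
  have hθ1 : (θ : A → ℂ) 1 = 1 := Cfsg.Agent.Lib.CharCodegP.irr_one_of_comm
    (fun a b => Subtype.ext (hab a a.2 b b.2)) θ.2
  have h1 := (Cfsg.Agent.Lib.DegreeDiv.degree_div A χ.2 θ.2 hθ (one_eq_charDegree hχc)
    (d := 1) (by simpa using hθ1)).2
  rw [Nat.div_one, hidx] at h1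
  exact (Nat.dvd_prime hp).mp h1

/-- Degrees when the centre has index `p ^ 3`. -/
theorem two_of_center_index {p : ℕ} (hp : p.Prime) (hidx : (Subgroup.center G).index = p ^ 3) :
    Two G p := by
  classical
  haveI : Fintype G := Fintype.ofFinite G
  haveI : Fintype (Subgroup.center G) := Fintype.ofFinite _
  intro χ
  have hχc := IsIrrCharacter.isCharacter χ.2
  obtain ⟨θ, hθ⟩ := Cfsg.Agent.Lib.CoprimeDeg.exists_constituent (Subgroup.center G) hχc
    (irr_degree_ne_zero χ.2)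
  have hθ1 : (θ : Subgroup.center G → ℂ) 1 = 1 := Cfsg.Agent.Lib.CharCodegP.irr_one_of_comm
    (fun a b => mul_comm a b) θ.2
  have h1 := (Cfsg.Agent.Lib.DegreeDiv.degree_div (Subgroup.center G) χ.2 θ.2 hθ
    (one_eq_charDegree hχc) (d := 1) (by simpa using hθ1)).2
  rw [Nat.div_one, hidx] at h1
  obtain ⟨j, hj3, hj⟩ := (Nat.dvd_prime_pow hp).mp h1
  have h2 := Cfsg.Agent.Lib.InducedIrr.card_mul_sq_le_of_norm χ.2 (Subgroup.center G) (by
    intro z hz
    apply Cfsg.Agent.Lib.InducedIrr.central_mod_ker_norm χ.2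
    intro g
    have h9 : z * g * z⁻¹ * g⁻¹ = 1 := by
      rw [← Subgroup.mem_center_iff.mp hz g]
      group
    rw [h9])
  have h3 := Subgroup.card_mul_index (Subgroup.center G)
  rw [← h3, hidx, hj] at h2
  have hZ0 : 0 < Nat.card (Subgroup.center G) := Nat.card_pos
  have h4 : (p ^ j) ^ 2 ≤ p ^ 3 := Nat.le_of_mul_le_mul_left h2 hZ0
  rw [← pow_mul] at h4
  have h5 : j * 2 ≤ 3 := (Nat.pow_le_pow_iff_right hp.one_lt).mp h4
  have h6 : j = 0 ∨ j = 1 := by omega
  rcases h6 with rfl | rfl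
  · left
    simpa using hj
  · right
    simpa using hj

/-- The characterization of groups with character degrees `1` and `p`. -/
theorem cd_one_p {a b : G} (hab : a * b ≠ b * a) {p : ℕ} (hp : p.Prime) :
    (Two G p ∧ ∃ χ : IrrCharacter G, charDegree (χ : G → ℂ) = p) ↔
      ((∃ A : Subgroup G, A.Normal ∧ (∀ a ∈ A, ∀ b ∈ A, a * b = b * a) ∧ A.index = p) ∨
        (Subgroup.center G).index = p ^ 3) := by
  have hex : Two G p → ∃ χ : IrrCharacter G, charDegree (χ : G → ℂ) = p := by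
    intro hcd
    obtain ⟨χ, hχ⟩ := exists_nonlinear_of_not_comm hab
    exact ⟨χ, (hcd χ).resolve_left hχ⟩
  constructor
  · rintro ⟨hcd, hm⟩
    rcases two_structure hcd hm hp.ne_one with h | ⟨q, e, hq, hpe, P, A, hPn, hAn, hP, hAab, hinf, hsup⟩
    · exact Or.inl h
    · haveI := hPn
      haveI := hAn
      obtain ⟨rfl, rfl⟩ := (Nat.Prime.pow_eq_iff hp).mp hpe.symm
      have hdis : Disjoint P A := disjoint_iff.mpr hinf
      have hc : P.IsComplement' A := by
        apply Subgroup.isComplement'_of_disjoint_and_mul_eq_univ hdis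
        rw [← Subgroup.mul_normal, hsup]
        rfl
      let r : G →* P := hc.QuotientMulEquiv.toMonoidHom.comp (QuotientGroup.mk' A)
      have hr : Function.Surjective r :=
        hc.QuotientMulEquiv.surjective.comp (QuotientGroup.mk'_surjective A)
      have hrP : ∀ x : P, r x = x := by
        intro x
        show hc.QuotientMulEquiv ((x : G) : G ⧸ A) = x
        rw [← MulEquiv.eq_symm_apply]
        rfl
      have hker : ∀ g, r g = 1 ↔ g ∈ A := by
        intro g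
        show hc.QuotientMulEquiv (g : G ⧸ A) = 1 ↔ _
        rw [map_eq_one_iff _ hc.QuotientMulEquiv.injective, QuotientGroup.eq_one_iff]
      have hcom : ∀ {x y : G}, x ∈ P → y ∈ A → x * y = y * x := fun hx hy =>
        Subgroup.commute_of_normal_of_disjoint P A hPn hAn hdis _ _ hx hy
      have hdec : ∀ g, (r g : G)⁻¹ * g ∈ A := by
        intro g
        rw [← hker, map_mul, map_inv, hrP, inv_mul_cancel]
      have hcomm : ∀ g h : G, (r g : G) * (r h : G) = (r h : G) * (r g : G) → g * h = h * g := by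
        intro g h hgh
        have ha1 := hdec g
        have ha2 := hdec h
        set a₁ := (r g : G)⁻¹ * g with ha₁
        set a₂ := (r h : G)⁻¹ * h with ha₂
        have eg : g = (r g : G) * a₁ := by rw [ha₁]; group
        have eh : h = (r h : G) * a₂ := by rw [ha₂]; group
        have c1 : a₁ * (r h : G) = (r h : G) * a₁ := (hcom (r h).2 ha1).symm
        have c2 : a₂ * (r g : G) = (r g : G) * a₂ := (hcom (r g).2 ha2).symm
        have c3 : a₁ * a₂ = a₂ * a₁ := hAab _ ha1 _ ha2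
        clear_value a₁ a₂
        generalize (r g : G) = p₁ at *
        generalize (r h : G) = p₂ at *
        subst eg
        subst eh
        calc p₁ * a₁ * (p₂ * a₂) = p₁ * (a₁ * p₂) * a₂ := by group
          _ = p₁ * (p₂ * a₁) * a₂ := by rw [c1]
          _ = (p₁ * p₂) * (a₁ * a₂) := by group
          _ = (p₂ * p₁) * (a₂ * a₁) := by rw [hgh, c3]
          _ = p₂ * (p₁ * a₂) * a₁ := by group
          _ = p₂ * (a₂ * p₁) * a₁ := by rw [c2]
          _ = _ := by group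
      by_cases hno : ∃ B : Subgroup P, B.Normal ∧ (∀ a ∈ B, ∀ b ∈ B, a * b = b * a) ∧ B.index = q
      · obtain ⟨B, hBn, hBab, hBi⟩ := hno
        haveI := hBn
        left
        refine ⟨B.comap r, inferInstance, ?_, ?_⟩
        · intro x hx y hy
          apply hcomm
          exact congrArg Subtype.val (hBab _ hx _ hy)
        · rw [Subgroup.index_comap_of_surjective B hr, hBi]
      · right
        push Not at hno
        have hPna : ∃ x y : P, x * y ≠ y * x := by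
          by_contra h
          push Not at h
          apply hab
          apply hcomm
          exact congrArg Subtype.val (h _ _)
        obtain ⟨x, y, hxy⟩ := hPna
        have hcdP : Two P q := hcd.of_surjective r hr
        have hmain := pgroup_main hp hP hcdP hxy hno
        have hcenter : Subgroup.center G = (Subgroup.center P).comap r := by
          ext g
          rw [Subgroup.mem_comap, Subgroup.mem_center_iff, Subgroup.mem_center_iff]
          constructor
          · intro h k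
            obtain ⟨k', rfl⟩ := hr k
            rw [← map_mul, ← map_mul, h]
          · intro h k
            exact (hcomm g k (congrArg Subtype.val (h (r k)).symm)).symm
        rw [hcenter, Subgroup.index_comap_of_surjective _ hr, hmain]
  · intro h
    have hcd : Two G p := by
      rcases h with ⟨A, hAn, hAab, hAi⟩ | h
      · haveI := hAn
        exact two_of_abelian_index hp A hAab hAi
      · exact two_of_center_index hp h
    exact ⟨hcd, hex hcd⟩

end Final

end Cfsg.Agent.Lib.TwoDegP
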