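import Mathlib

/-!
# Linear algebra over `F₂` for involutions inverting odd order elements
-/

set_option autoImplicit false
set_option linter.unusedSectionVars false
set_option linter.unusedVariables false

namespace Cfsg.Agent.Lib.TwoFactA

variable {V : Type*} [AddCommGroup V] [Module (ZMod 2) V]

theorem add2 (v : V) : v + v = 0 := by
  have h : (2 : ZMod 2) • v = 0 := by
    rw [show (2 : ZMod 2) = 0 from rfl, zero_smul]
  rwa [two_smul] at h

theorem sub2 (v w : V) : v - w = v + w := by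
  rw [sub_eq_add_neg, neg_eq_of_add_eq_zero_left (add2 w)]

theorem eq_of_add2 {v w : V} (h : v + w = 0) : v = w := by
  have := add_eq_zero_iff_eq_neg.mp h
  rwa [neg_eq_of_add_eq_zero_left (add2 w)] at this

/-- The dimension of a subspace. -/
noncomputable abbrev dm (W : Submodule (ZMod 2) V) : ℕ := Module.finrank (ZMod 2) W

/-- The fixed space of a linear map. -/
def fx (f : Module.End (ZMod 2) V) : Submodule (ZMod 2) V := LinearMap.ker (f - 1)

theorem mem_fx {f : Module.End (ZMod 2) V} {v : V} : v ∈ fx f ↔ f v = v := by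
  simp [fx, LinearMap.mem_ker, sub_eq_zero]

/-- Stability. -/
def Stb (f : Module.End (ZMod 2) V) (W : Submodule (ZMod 2) V) : Prop := ∀ w ∈ W, f w ∈ W

variable [Finite V]

instance : Module.Finite (ZMod 2) V := Module.Finite.of_finite

theorem dm_inf_le_left (U K : Submodule (ZMod 2) V) : dm (U ⊓ K) ≤ dm U :=
  Submodule.finrank_mono inf_le_left

theorem dm_lt_of_ne {U K : Submodule (ZMod 2) V} (h : K ≤ U) (hne : K ≠ U) : dm K < dm U :=
  Submodule.finrank_lt_finrank_of_lt (lt_of_le_of_ne h hne)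

/-- Rank-nullity on a subspace. -/
theorem rank_nullity (φ : Module.End (ZMod 2) V) (U : Submodule (ZMod 2) V) :
    dm (U.map φ) + dm (U ⊓ LinearMap.ker φ) = dm U := by
  have h := LinearMap.finrank_range_add_finrank_ker (φ.domRestrict U)
  have h1 : LinearMap.range (φ.domRestrict U) = U.map φ := LinearMap.range_domRestrict U φ
  rw [h1] at h
  have h2 : Module.finrank (ZMod 2) (LinearMap.ker (φ.domRestrict U)) = dm (U ⊓ LinearMap.ker φ) := by
    apply LinearEquiv.finrank_eq
    refine LinearEquiv.ofBijective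
      (LinearMap.codRestrict (U ⊓ LinearMap.ker φ) (U.subtype.comp (LinearMap.ker (φ.domRestrict U)).subtype) ?_) ⟨?_, ?_⟩
    · rintro ⟨x, hx⟩
      refine ⟨x.2, ?_⟩
      have := LinearMap.mem_ker.mp hx
      simpa using this
    · rintro ⟨x, hx⟩ ⟨y, hy⟩ hxy
      have h3 : ((x : U) : V) = (y : U) :=
        congrArg (fun z : ↥(U ⊓ LinearMap.ker φ) => (z : V)) hxy
      exact Subtype.ext (Subtype.ext h3)
    · rintro ⟨x, hx1, hx2⟩
      refine ⟨⟨⟨x, hx1⟩, ?_⟩, rfl⟩
      exact LinearMap.mem_ker.mpr (by simpa using hx2)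
  rw [h2] at h
  exact h

/-- Splitting with respect to an idempotent. -/
theorem idem_split {e : Module.End (ZMod 2) V} (he : e * e = e) {U : Submodule (ZMod 2) V}
    (hU : Stb e U) : dm U = dm (U ⊓ LinearMap.ker e) + dm (U ⊓ LinearMap.range e) := by
  have h := Submodule.finrank_sup_add_finrank_inf_eq (U ⊓ LinearMap.ker e) (U ⊓ LinearMap.range e)
  have h1 : (U ⊓ LinearMap.ker e) ⊓ (U ⊓ LinearMap.range e) = ⊥ := by
    rw [eq_bot_iff]
    rintro v ⟨⟨-, hv1⟩, -, w, rfl⟩
    have h3 : e w = 0 := by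
      have h4 : e (e w) = 0 := LinearMap.mem_ker.mp hv1
      have h5 : (e * e) w = e (e w) := rfl
      rw [he] at h5
      rw [h5, h4]
    simp [h3]
  have h2 : (U ⊓ LinearMap.ker e) ⊔ (U ⊓ LinearMap.range e) = U := by
    apply le_antisymm (sup_le inf_le_left inf_le_left)
    intro u hu
    have hk : u + e u ∈ U ⊓ LinearMap.ker e := by
      refine ⟨U.add_mem hu (hU u hu), LinearMap.mem_ker.mpr ?_⟩
      have h5 : (e * e) u = e (e u) := rfl
      rw [he] at h5
      rw [map_add, ← h5, add2]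
    have hr : e u ∈ U ⊓ LinearMap.range e := ⟨hU u hu, u, rfl⟩
    have : u = (u + e u) + e u := by
      rw [add_assoc, add2, add_zero]
    rw [this]
    exact Submodule.add_mem _ (Submodule.mem_sup_left hk) (Submodule.mem_sup_right hr)
  rw [h1, h2] at h
  simp only [finrank_bot, add_zero] at h
  exact h

/-- The averaging map. -/
noncomputable def prj (f : Module.End (ZMod 2) V) (m : ℕ) : Module.End (ZMod 2) V :=
  ∑ i ∈ Finset.range m, f ^ i

theorem prj_apply (f : Module.End (ZMod 2) V) (m : ℕ) (v : V) :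
    prj f m v = ∑ i ∈ Finset.range m, (f ^ i) v := by
  simp [prj, LinearMap.sum_apply]

theorem odd_nsmul {m : ℕ} (hm : Odd m) (v : V) : m • v = v := by
  obtain ⟨k, rfl⟩ := hm
  have h2 : (2 * k) • v = 0 := by
    rw [mul_comm, mul_smul, two_smul, add2, smul_zero]
  rw [add_smul, one_smul, h2, zero_add]

theorem sum_shift {f : Module.End (ZMod 2) V} {m : ℕ} (hf : f ^ m = 1) (v : V) :
    ∑ i ∈ Finset.range m, (f ^ (i + 1)) v = ∑ i ∈ Finset.range m, (f ^ i) v := by
  have h1 := Finset.sum_range_succ (fun i => (f ^ i) v) m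
  have h2 := Finset.sum_range_succ' (fun i => (f ^ i) v) m
  simp only [hf, pow_zero, Module.End.one_apply] at h1 h2
  exact add_right_cancel (h2.symm.trans h1)

theorem f_prj {f : Module.End (ZMod 2) V} {m : ℕ} (hf : f ^ m = 1) (v : V) :
    f (prj f m v) = prj f m v := by
  rw [prj_apply, map_sum]
  have h : ∀ i, f ((f ^ i) v) = (f ^ (i + 1)) v := by
    intro i
    rw [pow_succ']
    rfl
  simp only [h]
  exact sum_shift hf v

theorem pow_fix {f : Module.End (ZMod 2) V} {v : V} (h : f v = v) (i : ℕ) : (f ^ i) v = v := by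
  induction i with
  | zero => simp
  | succ n ih =>
    rw [pow_succ']
    show f ((f ^ n) v) = v
    rw [ih, h]

theorem prj_of_fix {f : Module.End (ZMod 2) V} {m : ℕ} (hm : Odd m) {v : V} (h : f v = v) :
    prj f m v = v := by
  rw [prj_apply]
  simp only [pow_fix h]
  rw [Finset.sum_const, Finset.card_range, odd_nsmul hm]

theorem prj_idem {f : Module.End (ZMod 2) V} {m : ℕ} (hm : Odd m) (hf : f ^ m = 1) :
    prj f m * prj f m = prj f m := by
  ext v
  exact prj_of_fix hm (f_prj hf v)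

theorem range_prj {f : Module.End (ZMod 2) V} {m : ℕ} (hm : Odd m) (hf : f ^ m = 1) :
    LinearMap.range (prj f m) = fx f := by
  apply le_antisymm
  · rintro _ ⟨v, rfl⟩
    exact mem_fx.mpr (f_prj hf v)
  · intro v hv
    exact ⟨v, prj_of_fix hm (mem_fx.mp hv)⟩

/-- The complement of the fixed space. -/
noncomputable def Yp (f : Module.End (ZMod 2) V) (m : ℕ) : Submodule (ZMod 2) V :=
  LinearMap.ker (prj f m)

theorem stb_pow {f : Module.End (ZMod 2) V} {U : Submodule (ZMod 2) V} (h : Stb f U) (i : ℕ) :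
    Stb (f ^ i) U := by
  induction i with
  | zero => intro w hw; simpa using hw
  | succ n ih =>
    intro w hw
    rw [pow_succ']
    exact h _ (ih w hw)

theorem stb_prj {f : Module.End (ZMod 2) V} {U : Submodule (ZMod 2) V} (h : Stb f U) (m : ℕ) :
    Stb (prj f m) U := by
  intro w hw
  rw [prj_apply]
  exact Submodule.sum_mem _ (fun i _ => stb_pow h i w hw)

/-- Decomposition of a stable subspace. -/
theorem split {f : Module.End (ZMod 2) V} {m : ℕ} (hm : Odd m) (hf : f ^ m = 1)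
    {U : Submodule (ZMod 2) V} (h : Stb (prj f m) U) :
    dm U = dm (U ⊓ Yp f m) + dm (U ⊓ fx f) := by
  have := idem_split (prj_idem hm hf) h
  rwa [range_prj hm hf] at this

theorem inf_fx_Yp {f : Module.End (ZMod 2) V} {m : ℕ} (hm : Odd m) (hf : f ^ m = 1)
    (U : Submodule (ZMod 2) V) : (U ⊓ Yp f m) ⊓ fx f = ⊥ := by
  rw [eq_bot_iff]
  rintro v ⟨⟨-, hv⟩, hv2⟩
  have h1 : prj f m v = 0 := LinearMap.mem_ker.mp hv
  rw [prj_of_fix hm (mem_fx.mp hv2)] at h1
  simpa using h1

theorem semi_prj {a f g : Module.End (ZMod 2) V} (h : a * f = g * a) (m : ℕ) (v : V) :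
    a (prj f m v) = prj g m (a v) := by
  have hs : SemiconjBy a f g := h
  rw [prj_apply, prj_apply, map_sum]
  apply Finset.sum_congr rfl
  intro i _
  have h1 : a * f ^ i = g ^ i * a := hs.pow_right i
  exact LinearMap.congr_fun h1 v

theorem prj_inv {f g : Module.End (ZMod 2) V} {m : ℕ} (hm : Odd m) (hf : f ^ m = 1)
    (h1 : g * f = 1) (h2 : f * g = 1) (v : V) : prj g m v = prj f m v := by
  have hc : Commute g f := h1.trans h2.symm
  have hg : g ^ m = 1 := by
    have : (g * f) ^ m = g ^ m * f ^ m := hc.mul_pow m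
    rw [h1, one_pow, hf, mul_one] at this
    exact this.symm
  have e1 : prj g m (prj f m v) = prj f m v := by
    apply prj_of_fix hm
    have h3 : g (f (prj f m v)) = (g * f) (prj f m v) := rfl
    rw [f_prj hf] at h3
    rw [h3, h1]
    rfl
  have e2 : prj f m (prj g m v) = prj g m v := by
    apply prj_of_fix hm
    have h3 : f (g (prj g m v)) = (f * g) (prj g m v) := rfl
    rw [f_prj hg] at h3
    rw [h3, h2]
    rfl
  have hcomm : Commute (prj g m) (prj f m) := by
    unfold prj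
    apply Commute.sum_left
    intro i _
    apply Commute.sum_right
    intro j _
    exact hc.pow_pow i j
  have e3 : prj g m (prj f m v) = prj f m (prj g m v) := LinearMap.congr_fun hcomm v
  rw [← e2, ← e3, e1]

/-- An endomorphism inverting `f` commutes with the averaging map. -/
theorem inv_prj {a f g : Module.End (ZMod 2) V} {m : ℕ} (hm : Odd m) (hf : f ^ m = 1)
    (h1 : g * f = 1) (h2 : f * g = 1) (h : a * f = g * a) (v : V) :
    a (prj f m v) = prj f m (a v) := by
  rw [semi_prj h, prj_inv hm hf h1 h2]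

theorem stb_prj_of_comm {a f : Module.End (ZMod 2) V} (h : a * f = f * a) (m : ℕ) (v : V) :
    a (prj f m v) = prj f m (a v) := semi_prj h m v

/-- Fixed space of an involution on a space with fixed point free inverted element. -/
theorem dih {a f g : Module.End (ZMod 2) V} (ha : a * a = 1) (h : a * f = g * a)
    (h1 : g * f = 1) (h2 : f * g = 1) {U : Submodule (ZMod 2) V} (hUa : Stb a U) (hUf : Stb f U)
    (hfp : U ⊓ fx f = ⊥) : dm U = 2 * dm (U ⊓ fx a) := by
  classical
  have haa : ∀ v, a (a v) = v := fun v => LinearMap.congr_fun ha v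
  have hgf : ∀ v, g (f v) = v := fun v => LinearMap.congr_fun h1 v
  have hfg : ∀ v, f (g v) = v := fun v => LinearMap.congr_fun h2 v
  have haf : ∀ v, a (f v) = g (a v) := fun v => LinearMap.congr_fun h v
  -- `f + 1` is bijective on `U`
  let ψ : U →ₗ[ZMod 2] U := LinearMap.restrict (f + 1) (p := U) (q := U)
    (fun w hw => U.add_mem (hUf w hw) hw)
  have hψinj : Function.Injective ψ := by
    rw [injective_iff_map_eq_zero]
    intro u hu
    have h3 : f (u : V) + u = 0 := congrArg Subtype.val hu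
    have h4 : (u : V) ∈ U ⊓ fx f := ⟨u.2, mem_fx.mpr (eq_of_add2 h3)⟩
    rw [hfp] at h4
    exact Subtype.ext (by simpa using h4)
  have hψsurj : Function.Surjective ψ := LinearMap.injective_iff_surjective.mp hψinj
  have hψ : ∀ u v : V, u ∈ U → v ∈ U → f u + u = f v + v → u = v := by
    intro u v hu hv he
    have : ψ ⟨u, hu⟩ = ψ ⟨v, hv⟩ := Subtype.ext he
    exact congrArg Subtype.val (hψinj this)
  let φ : Module.End (ZMod 2) V := a + 1
  have hker : LinearMap.ker φ = fx a := by
    ext v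
    rw [LinearMap.mem_ker, mem_fx]
    constructor
    · intro hv
      exact eq_of_add2 hv
    · intro hv
      show a v + v = 0
      rw [hv, add2]
  have hmap : U.map φ = U ⊓ fx a := by
    apply le_antisymm
    · rintro _ ⟨u, hu, rfl⟩
      refine ⟨U.add_mem (hUa u hu) hu, mem_fx.mpr ?_⟩
      show a (a u + u) = a u + u
      rw [map_add, haa, add_comm]
    · rintro v ⟨hv, hv2⟩
      obtain ⟨⟨u, hu⟩, hψu⟩ := hψsurj ⟨v, hv⟩
      have hvu : f u + u = v := congrArg Subtype.val hψu
      have h3 : a (f u + u) = v := by rw [hvu]; exact mem_fx.mp hv2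
      rw [map_add, haf] at h3
      have h4 : f (a u) + a u = f (f u) + f u := by
        have h5 : f (g (a u) + a u) = f v := by rw [h3]
        rw [map_add, hfg] at h5
        rw [add_comm, h5, ← hvu, map_add]
      have h5 : a u = f u := hψ _ _ (hUa u hu) (hUf u hu) h4
      refine ⟨u, hu, ?_⟩
      show a u + u = v
      rw [h5, hvu]
  have := rank_nullity φ U
  rw [hker, hmap] at this
  omega

/-- `2` has order at least `D` modulo `ℓ`. -/
def Ord2 (ℓ D : ℕ) : Prop := ∀ d : ℕ, 1 ≤ d → ℓ ∣ 2 ^ d - 1 → D ≤ d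

/-- Free action of a prime order element. -/
theorem free_le {f : Module.End (ZMod 2) V} {ℓ D : ℕ} (hℓ : ℓ.Prime) (hf : f ^ ℓ = 1)
    (hD : Ord2 ℓ D) {U : Submodule (ZMod 2) V} (hU : Stb f U) (hne : U ≠ ⊥)
    (hfp : U ⊓ fx f = ⊥) : D ≤ dm U := by
  classical
  haveI : Fact ℓ.Prime := ⟨hℓ⟩
  haveI : Fintype U := Fintype.ofFinite U
  let F : Function.End U := fun u => ⟨f u, hU u u.2⟩
  have hFpow : ∀ i, ∀ u : U, ((F ^ i) u : V) = (f ^ i) (u : V) := by
    intro i
    induction i with
    | zero => intro u; rfl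
    | succ n ih =>
      intro u
      rw [pow_succ', pow_succ']
      show f (((F ^ n) u : U) : V) = f ((f ^ n) (u : V))
      rw [ih]
  have hF1 : F ^ ℓ ^ 1 = 1 := by
    rw [pow_one]
    funext u
    apply Subtype.ext
    rw [hFpow, hf]
    rfl
  have hmod := Equiv.Perm.card_fixedPoints_modEq (f := F) (p := ℓ) (n := 1) hF1
  have hfix : Fintype.card F.fixedPoints = 1 := by
    rw [Fintype.card_eq_one_iff]
    refine ⟨⟨0, ?_⟩, ?_⟩
    · show F 0 = 0
      apply Subtype.ext
      simp [F]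
    · rintro ⟨u, hu⟩
      apply Subtype.ext
      apply Subtype.ext
      have h3 : f (u : V) = u := congrArg Subtype.val hu
      have h4 : (u : V) ∈ U ⊓ fx f := ⟨u.2, mem_fx.mpr h3⟩
      rw [hfp] at h4
      simpa using h4
  rw [hfix] at hmod
  have hcard : Fintype.card U = 2 ^ dm U := by
    have := Module.card_eq_pow_finrank (K := ZMod 2) (V := U)
    simpa [ZMod.card] using this
  rw [hcard] at hmod
  have hd1 : 1 ≤ dm U := by
    rw [Nat.succ_le_iff, Module.finrank_pos_iff_exists_ne_zero]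
    obtain ⟨u, hu, hu0⟩ := (Submodule.ne_bot_iff U).mp hne
    exact ⟨⟨u, hu⟩, fun h => hu0 (congrArg Subtype.val h)⟩
  apply hD _ hd1
  exact (Nat.modEq_iff_dvd' (Nat.one_le_two_pow)).mp hmod.symm

/-- A prime order element inverted by an involution: the involution has a large commutator. -/
theorem gain1 {a f g : Module.End (ZMod 2) V} {ℓ D : ℕ} (hℓ : ℓ.Prime) (hℓ2 : ℓ ≠ 2)
    (hf : f ^ ℓ = 1) (hD : Ord2 ℓ D) (ha : a * a = 1) (h : a * f = g * a)
    (h1 : g * f = 1) (h2 : f * g = 1) {W : Submodule (ZMod 2) V} (hWa : Stb a W) (hWf : Stb f W)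
    (hnt : ¬ W ≤ fx f) : D ≤ 2 * (dm W - dm (W ⊓ fx a)) := by
  have hm : Odd ℓ := hℓ.odd_of_ne_two hℓ2
  have hWe : Stb (prj f ℓ) W := stb_prj hWf ℓ
  have e1 := split hm hf hWe
  have hU : Stb (prj f ℓ) (W ⊓ fx a) := by
    rintro v ⟨hv, hv2⟩
    refine ⟨hWe v hv, mem_fx.mpr ?_⟩
    rw [inv_prj hm hf h1 h2 h, mem_fx.mp hv2]
  have e2 := split hm hf hU
  have e3 : (W ⊓ fx a) ⊓ Yp f ℓ = (W ⊓ Yp f ℓ) ⊓ fx a := by
    rw [inf_assoc, inf_assoc, inf_comm (fx a)]
  have e4 : (W ⊓ fx a) ⊓ fx f = (W ⊓ fx f) ⊓ fx a := by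
    rw [inf_assoc, inf_assoc, inf_comm (fx a)]
  rw [e3, e4] at e2
  -- the free part
  have hYa : Stb a (W ⊓ Yp f ℓ) := by
    rintro v ⟨hv, hv2⟩
    refine ⟨hWa v hv, LinearMap.mem_ker.mpr ?_⟩
    rw [← inv_prj hm hf h1 h2 h, LinearMap.mem_ker.mp hv2, map_zero]
  have hYf : Stb f (W ⊓ Yp f ℓ) := by
    rintro v ⟨hv, hv2⟩
    refine ⟨hWf v hv, LinearMap.mem_ker.mpr ?_⟩
    rw [← stb_prj_of_comm (a := f) rfl, LinearMap.mem_ker.mp hv2, map_zero]
  have hfp := inf_fx_Yp hm hf W
  have e5 := dih ha h h1 h2 hYa hYf hfp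
  have hne : W ⊓ Yp f ℓ ≠ ⊥ := by
    intro hb
    apply hnt
    intro w hw
    have hw2 : w + prj f ℓ w ∈ W ⊓ Yp f ℓ := by
      refine ⟨W.add_mem hw (hWe w hw), LinearMap.mem_ker.mpr ?_⟩
      rw [map_add]
      have : prj f ℓ (prj f ℓ w) = prj f ℓ w := prj_of_fix hm (f_prj hf w)
      rw [this, add2]
    rw [hb] at hw2
    have h0 : w + prj f ℓ w = 0 := by simpa using hw2
    have : w = prj f ℓ w := eq_of_add2 h0
    rw [this]
    exact mem_fx.mpr (f_prj hf w)
  have e6 := free_le hℓ hf hD hYf hne hfp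
  have e7 : dm ((W ⊓ fx f) ⊓ fx a) ≤ dm (W ⊓ fx f) := dm_inf_le_left _ _
  omega

end Cfsg.Agent.Lib.TwoFactA
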