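import Mathlib
import Cfsg.Agent.Lib.TwoFactA

/-!
# Commutative groups of prime exponent acting on `F₂`-spaces
-/

set_option autoImplicit false
set_option linter.unusedSectionVars false
set_option linter.unusedVariables false

namespace Cfsg.Agent.Lib.TwoFactE

open Cfsg.Agent.Lib.TwoFactA

variable {V : Type*} [AddCommGroup V] [Module (ZMod 2) V] [Finite V]
variable {E : Type*} [CommGroup E] [Finite E]

/-- Kernel on a subspace. -/
def kerE (ρ : E →* Module.End (ZMod 2) V) (W : Submodule (ZMod 2) V) : Subgroup E where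
  carrier := {x | ∀ w ∈ W, ρ x w = w}
  one_mem' := by intro w _; simp
  mul_mem' := by
    intro x y hx hy w hw
    rw [map_mul]
    show ρ x (ρ y w) = w
    rw [hy w hw, hx w hw]
  inv_mem' := by
    intro x hx w hw
    have h1 : ρ x⁻¹ (ρ x w) = w := by
      have : (ρ x⁻¹ * ρ x) w = w := by
        rw [← map_mul]; simp
      exact this
    rw [hx w hw] at h1
    exact h1

theorem mem_kerE {ρ : E →* Module.End (ZMod 2) V} {W : Submodule (ZMod 2) V} {x : E} :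
    x ∈ kerE ρ W ↔ ∀ w ∈ W, ρ x w = w := Iff.rfl

/-- Common fixed points. -/
def fxE (ρ : E →* Module.End (ZMod 2) V) : Submodule (ZMod 2) V := ⨅ x : E, fx (ρ x)

theorem mem_fxE {ρ : E →* Module.End (ZMod 2) V} {v : V} : v ∈ fxE ρ ↔ ∀ x, ρ x v = v := by
  simp [fxE, Submodule.mem_iInf, mem_fx]

theorem inf_fxE_eq {ρ : E →* Module.End (ZMod 2) V} {ℓ : ℕ} (hm : Odd ℓ) (x : E) (hf : (ρ x) ^ ℓ = 1)
    (W : Submodule (ZMod 2) V) : dm (W ⊓ fxE ρ) = dm ((W ⊓ fx (ρ x)) ⊓ fxE ρ) := by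
  have : W ⊓ fxE ρ = (W ⊓ fx (ρ x)) ⊓ fxE ρ := by
    apply le_antisymm
    · rintro v ⟨h1, h2⟩
      exact ⟨⟨h1, mem_fx.mpr (mem_fxE.mp h2 x)⟩, h2⟩
    · rintro v ⟨⟨h1, -⟩, h2⟩
      exact ⟨h1, h2⟩
  rw [← this]

theorem yp_stb {ρ : E →* Module.End (ZMod 2) V} {ℓ : ℕ} (x y : E) {W : Submodule (ZMod 2) V}
    (hW : Stb (ρ y) W) : Stb (ρ y) (W ⊓ Yp (ρ x) ℓ) := by
  rintro v ⟨hv, hv2⟩
  refine ⟨hW v hv, LinearMap.mem_ker.mpr ?_⟩
  have hc : ρ y * ρ x = ρ x * ρ y := by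
    rw [← map_mul, ← map_mul, mul_comm]
  rw [← stb_prj_of_comm hc, LinearMap.mem_ker.mp hv2, map_zero]

theorem fx_stb {ρ : E →* Module.End (ZMod 2) V} (x y : E) {W : Submodule (ZMod 2) V}
    (hW : Stb (ρ y) W) : Stb (ρ y) (W ⊓ fx (ρ x)) := by
  rintro v ⟨hv, hv2⟩
  refine ⟨hW v hv, mem_fx.mpr ?_⟩
  have hc : (ρ x * ρ y) v = (ρ y * ρ x) v := by
    rw [← map_mul, ← map_mul, mul_comm]
  have h1 : ρ x (ρ y v) = ρ y (ρ x v) := hc
  rw [h1, mem_fx.mp hv2]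

theorem yp_ne_bot {f : Module.End (ZMod 2) V} {ℓ : ℕ} (hm : Odd ℓ) (hf : f ^ ℓ = 1)
    {W : Submodule (ZMod 2) V} (hWe : Stb (prj f ℓ) W) (hnt : ¬ W ≤ fx f) : W ⊓ Yp f ℓ ≠ ⊥ := by
  intro hb
  apply hnt
  intro w hw
  have hw2 : w + prj f ℓ w ∈ W ⊓ Yp f ℓ := by
    refine ⟨W.add_mem hw (hWe w hw), LinearMap.mem_ker.mpr ?_⟩
    rw [map_add]
    have : prj f ℓ (prj f ℓ w) = prj f ℓ w := prj_of_fix hm (f_prj hf w)
    rw [this, add2]
  rw [hb] at hw2
  have h0 : w + prj f ℓ w = 0 := by simpa using hw2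
  have : w = prj f ℓ w := eq_of_add2 h0
  rw [this]
  exact mem_fx.mpr (f_prj hf w)

theorem pow_rho {ρ : E →* Module.End (ZMod 2) V} {ℓ : ℕ} (hE : ∀ x : E, x ^ ℓ = 1) (x : E) :
    (ρ x) ^ ℓ = 1 := by
  rw [← map_pow, hE, map_one]

/-- Bound on the kernel from the dimension. -/
theorem L7 {ρ : E →* Module.End (ZMod 2) V} {ℓ D : ℕ} (hℓ : ℓ.Prime) (hℓ2 : ℓ ≠ 2)
    (hE : ∀ x : E, x ^ ℓ = 1) (hD : Ord2 ℓ D) :
    ∀ (n : ℕ) (W : Submodule (ZMod 2) V), dm W = n → (∀ x, Stb (ρ x) W) →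
      ∃ r : ℕ, (kerE ρ W).index = ℓ ^ r ∧ r * D + dm (W ⊓ fxE ρ) ≤ dm W := by
  intro n
  have hm : Odd ℓ := hℓ.odd_of_ne_two hℓ2
  induction n using Nat.strong_induction_on with
  | _ n ih =>
  intro W hWn hW
  haveI : Fact ℓ.Prime := ⟨hℓ⟩
  by_cases hcase : ∃ x, ¬ W ≤ fx (ρ x) ∧ W ⊓ fx (ρ x) ≠ ⊥
  · -- split
    obtain ⟨x, hx1, hx2⟩ := hcase
    have hf := pow_rho (ρ := ρ) hE x
    have hWe := stb_prj (hW x) ℓ
    have e1 := split hm hf hWe
    have hne1 := yp_ne_bot hm hf hWe hx1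
    have p1 : 0 < dm (W ⊓ Yp (ρ x) ℓ) := by
      rw [Module.finrank_pos_iff_exists_ne_zero]
      obtain ⟨u, hu, hu0⟩ := (Submodule.ne_bot_iff _).mp hne1
      exact ⟨⟨u, hu⟩, fun h => hu0 (congrArg Subtype.val h)⟩
    have p2 : 0 < dm (W ⊓ fx (ρ x)) := by
      rw [Module.finrank_pos_iff_exists_ne_zero]
      obtain ⟨u, hu, hu0⟩ := (Submodule.ne_bot_iff _).mp hx2
      exact ⟨⟨u, hu⟩, fun h => hu0 (congrArg Subtype.val h)⟩
    obtain ⟨r₁, h1, h1'⟩ := ih (dm (W ⊓ Yp (ρ x) ℓ)) (by omega) _ rfl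
      (fun y => yp_stb x y (hW y))
    obtain ⟨r₂, h2, h2'⟩ := ih (dm (W ⊓ fx (ρ x))) (by omega) _ rfl
      (fun y => fx_stb x y (hW y))
    have hk : kerE ρ (W ⊓ Yp (ρ x) ℓ) ⊓ kerE ρ (W ⊓ fx (ρ x)) ≤ kerE ρ W := by
      rintro y ⟨hy1, hy2⟩ w hw
      have hw1 : w + prj (ρ x) ℓ w ∈ W ⊓ Yp (ρ x) ℓ := by
        refine ⟨W.add_mem hw (hWe w hw), LinearMap.mem_ker.mpr ?_⟩
        rw [map_add]
        have : prj (ρ x) ℓ (prj (ρ x) ℓ w) = prj (ρ x) ℓ w := prj_of_fix hm (f_prj hf w)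
        rw [this, add2]
      have hw2 : prj (ρ x) ℓ w ∈ W ⊓ fx (ρ x) := ⟨hWe w hw, mem_fx.mpr (f_prj hf w)⟩
      have e0 : w = (w + prj (ρ x) ℓ w) + prj (ρ x) ℓ w := by
        rw [add_assoc, add2, add_zero]
      rw [e0, map_add, hy1 _ hw1, hy2 _ hw2]
    have hidx : (kerE ρ W).index ≤ ℓ ^ (r₁ + r₂) := by
      have h3 := Subgroup.index_antitone hk
      have h4 := Subgroup.index_inf_le (H := kerE ρ (W ⊓ Yp (ρ x) ℓ)) (K := kerE ρ (W ⊓ fx (ρ x)))
      rw [h1, h2, ← pow_add] at h4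
      have h5 : (kerE ρ W).index ≠ 0 := Subgroup.index_ne_zero_of_finite
      have h6 : (kerE ρ (W ⊓ Yp (ρ x) ℓ) ⊓ kerE ρ (W ⊓ fx (ρ x))).index ≠ 0 :=
        Subgroup.index_ne_zero_of_finite
      exact h3.trans h4
    have hpg : IsPGroup ℓ E := by
      intro x
      exact ⟨1, by rw [pow_one, hE]⟩
    obtain ⟨r, hr⟩ := hpg.index (kerE ρ W)
    refine ⟨r, hr, ?_⟩
    have hrle : r ≤ r₁ + r₂ := by
      rw [hr] at hidx
      exact (Nat.pow_le_pow_iff_right hℓ.one_lt).mp hidx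
    have e2 := inf_fxE_eq (ρ := ρ) hm x hf W
    have e3 : r * D ≤ (r₁ + r₂) * D := Nat.mul_le_mul_right D hrle
    rw [add_mul] at e3
    omega
  · push Not at hcase
    by_cases htriv : ∀ x, W ≤ fx (ρ x)
    · refine ⟨0, ?_, ?_⟩
      · rw [pow_zero, Subgroup.index_eq_one, eq_top_iff]
        intro x _ w hw
        exact mem_fx.mp (htriv x hw)
      · simpa using dm_inf_le_left W (fxE ρ)
    · push Not at htriv
      obtain ⟨x₀, hx₀⟩ := htriv
      have hfree : W ⊓ fx (ρ x₀) = ⊥ := hcase x₀ hx₀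
      have hne : W ≠ ⊥ := by
        rintro rfl
        exact hx₀ bot_le
      have hD' : D ≤ dm W := free_le hℓ (pow_rho hE x₀) hD (hW x₀) hne hfree
      have hfixbot : W ⊓ fxE ρ = ⊥ := by
        rw [eq_bot_iff, ← hfree]
        rintro v ⟨h1, h2⟩
        exact ⟨h1, mem_fx.mpr (mem_fxE.mp h2 x₀)⟩
      -- vanishing of the norm
      have hvan : ∀ g : E, g ∉ kerE ρ W → ∀ w ∈ W, prj (ρ g) ℓ w = 0 := by
        intro g hg w hw
        have h1 : ¬ W ≤ fx (ρ g) := by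
          intro h
          exact hg (fun w hw => mem_fx.mp (h hw))
        have h2 := hcase g h1
        have h3 : prj (ρ g) ℓ w ∈ W ⊓ fx (ρ g) :=
          ⟨stb_prj (hW g) ℓ w hw, mem_fx.mpr (f_prj (pow_rho hE g) w)⟩
        rw [h2] at h3
        simpa using h3
      obtain ⟨w₀, hw₀, hw₀0⟩ := (Submodule.ne_bot_iff W).mp hne
      have hx₀k : x₀ ∉ kerE ρ W := fun h => hx₀ (fun w hw => mem_fx.mpr (h w hw))
      -- the main identity
      have hid : ∀ y : E, (∀ j ∈ Finset.range ℓ, x₀ * y ^ j ∉ kerE ρ W) →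
          (∀ t ∈ Finset.range ℓ, t ≠ 0 → y ^ t ∉ kerE ρ W) → False := by
        intro y h1 h2
        have e1 : ∑ j ∈ Finset.range ℓ, prj (ρ (x₀ * y ^ j)) ℓ w₀ = 0 :=
          Finset.sum_eq_zero (fun j hj => hvan _ (h1 j hj) w₀ hw₀)
        have e2 : ∀ j t : ℕ, (ρ (x₀ * y ^ j) ^ t) w₀ = ρ (x₀ ^ t) ((ρ (y ^ t) ^ j) w₀) := by
          intro j t
          have e3 : (ρ (x₀ * y ^ j)) ^ t = ρ (x₀ ^ t) * (ρ (y ^ t)) ^ j := by
            rw [← map_pow, ← map_pow, ← map_mul, mul_pow, ← pow_mul, ← pow_mul, mul_comm j t]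
          rw [e3]
          rfl
        have e4 : ∑ j ∈ Finset.range ℓ, prj (ρ (x₀ * y ^ j)) ℓ w₀ =
            ∑ t ∈ Finset.range ℓ, ρ (x₀ ^ t) (prj (ρ (y ^ t)) ℓ w₀) := by
          simp only [prj_apply, map_sum, e2]
          exact Finset.sum_comm
        rw [e4] at e1
        have e5 : ∑ t ∈ Finset.range ℓ, ρ (x₀ ^ t) (prj (ρ (y ^ t)) ℓ w₀) = w₀ := by
          rw [Finset.sum_eq_single 0]
          · simp only [pow_zero, map_one]
            exact prj_of_fix hm (by simp)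
          · intro t ht ht0
            rw [hvan _ (h2 t ht ht0) w₀ hw₀, map_zero]
          · intro h
            exact absurd (Finset.mem_range.mpr hℓ.pos) h
        rw [e5] at e1
        exact hw₀0 e1
      -- every element is a power of `x₀` modulo the kernel
      have hcopr : ∀ t ∈ Finset.range ℓ, t ≠ 0 → ∃ m : ℕ, t * m % ℓ = 1 := by
        intro t ht ht0
        have h1 : t < ℓ := Finset.mem_range.mp ht
        have h2 : Nat.Coprime t ℓ :=
          Nat.Coprime.symm ((Nat.Prime.coprime_iff_not_dvd hℓ).mpr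
            (fun h => ht0 (Nat.eq_zero_of_dvd_of_lt h h1)))
        obtain ⟨m, -, hm⟩ := Nat.exists_mul_mod_eq_one_of_coprime h2 hℓ.one_lt
        exact ⟨m, hm⟩
      have hall : ∀ y : E, ∃ n : ℕ, y * (x₀ ^ n)⁻¹ ∈ kerE ρ W := by
        intro y
        by_cases hy : y ∈ kerE ρ W
        · exact ⟨0, by simpa using hy⟩
        have hpow : ∀ t ∈ Finset.range ℓ, t ≠ 0 → y ^ t ∉ kerE ρ W := by
          intro t ht ht0 hyt
          apply hy
          obtain ⟨m, hm1⟩ := hcopr t ht ht0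
          have h3 := (kerE ρ W).pow_mem hyt m
          rw [← pow_mul, pow_eq_pow_mod _ (hE y), hm1, pow_one] at h3
          exact h3
        by_contra hcon
        apply hid y _ hpow
        intro j hj hmem
        have hj0 : j ≠ 0 := by
          rintro rfl
          apply hx₀k
          simpa using hmem
        obtain ⟨m, hm1⟩ := hcopr j hj hj0
        have h3 := (kerE ρ W).pow_mem hmem m
        rw [mul_pow, ← pow_mul, pow_eq_pow_mod (j * m) (hE y), hm1, pow_one] at h3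
        apply hcon
        refine ⟨m * (ℓ - 1), ?_⟩
        have h4 : (x₀ ^ (m * (ℓ - 1)))⁻¹ = x₀ ^ m := by
          rw [inv_eq_iff_mul_eq_one, ← pow_add, ← mul_add_one, Nat.sub_add_cancel hℓ.one_le, mul_comm, pow_mul, hE, one_pow]
        rw [h4, mul_comm]
        exact h3
      refine ⟨1, ?_, ?_⟩
      · rw [pow_one]
        have hq : ∀ z : E ⧸ kerE ρ W, z ∈ Subgroup.zpowers (QuotientGroup.mk' (kerE ρ W) x₀) := by
          intro z
          obtain ⟨y, rfl⟩ := QuotientGroup.mk'_surjective _ z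
          obtain ⟨n, hn⟩ := hall y
          refine ⟨(n : ℤ), ?_⟩
          simp only [zpow_natCast]
          rw [← map_pow]
          rw [eq_comm, QuotientGroup.mk'_apply, QuotientGroup.mk'_apply, QuotientGroup.eq]
          have h5 : y⁻¹ * x₀ ^ n = (y * (x₀ ^ n)⁻¹)⁻¹ := by
            rw [mul_inv_rev, inv_inv, mul_comm]
          rw [h5]
          exact (kerE ρ W).inv_mem hn
        have h1 := orderOf_eq_card_of_forall_mem_zpowers hq
        have h2 : orderOf (QuotientGroup.mk' (kerE ρ W) x₀) = ℓ := by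
          apply orderOf_eq_prime
          · rw [← map_pow, hE, map_one]
          · intro h
            apply hx₀k
            have := (QuotientGroup.eq_one_iff x₀).mp h
            exact this
        rw [h2] at h1
        exact h1.symm
      · rw [hfixbot]
        simpa using hD'

/-- An inverting involution. -/
theorem L8 {ρ : E →* Module.End (ZMod 2) V} {ℓ : ℕ} (hℓ : ℓ.Prime) (hℓ2 : ℓ ≠ 2)
    (hE : ∀ x : E, x ^ ℓ = 1) {a : Module.End (ZMod 2) V} (ha : a * a = 1)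
    (hinv : ∀ x, a * ρ x = ρ x⁻¹ * a) :
    ∀ (n : ℕ) (W : Submodule (ZMod 2) V), dm W = n → (∀ x, Stb (ρ x) W) → Stb a W →
      dm W + 2 * dm (W ⊓ fx a) ≤ 2 * dm W + dm (W ⊓ fxE ρ) := by
  intro n
  have hm : Odd ℓ := hℓ.odd_of_ne_two hℓ2
  induction n using Nat.strong_induction_on with
  | _ n ih =>
  intro W hWn hW hWa
  by_cases htriv : ∀ x, W ≤ fx (ρ x)
  · have h1 : W ⊓ fxE ρ = W := by
      apply inf_eq_left.mpr
      intro w hw
      exact mem_fxE.mpr (fun x => mem_fx.mp (htriv x hw))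
    rw [h1]
    have h2 := dm_inf_le_left W (fx a)
    omega
  · push Not at htriv
    obtain ⟨x, hx⟩ := htriv
    have hf := pow_rho (ρ := ρ) hE x
    have hWe := stb_prj (hW x) ℓ
    have e1 := split hm hf hWe
    have hne1 := yp_ne_bot hm hf hWe hx
    have h1 : ρ x⁻¹ * ρ x = 1 := by rw [← map_mul]; simp
    have h2 : ρ x * ρ x⁻¹ = 1 := by rw [← map_mul]; simp
    have hinvx := hinv x
    have p1 : 0 < dm (W ⊓ Yp (ρ x) ℓ) := by
      rw [Module.finrank_pos_iff_exists_ne_zero]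
      obtain ⟨u, hu, hu0⟩ := (Submodule.ne_bot_iff _).mp hne1
      exact ⟨⟨u, hu⟩, fun h => hu0 (congrArg Subtype.val h)⟩
    have hU : Stb (prj (ρ x) ℓ) (W ⊓ fx a) := by
      rintro v ⟨hv, hv2⟩
      refine ⟨hWe v hv, mem_fx.mpr ?_⟩
      rw [inv_prj hm hf h1 h2 hinvx, mem_fx.mp hv2]
    have e2 := split hm hf hU
    have e3 : (W ⊓ fx a) ⊓ Yp (ρ x) ℓ = (W ⊓ Yp (ρ x) ℓ) ⊓ fx a := by
      rw [inf_assoc, inf_assoc, inf_comm (fx a)]
    have e4 : (W ⊓ fx a) ⊓ fx (ρ x) = (W ⊓ fx (ρ x)) ⊓ fx a := by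
      rw [inf_assoc, inf_assoc, inf_comm (fx a)]
    rw [e3, e4] at e2
    have hYa : Stb a (W ⊓ Yp (ρ x) ℓ) := by
      rintro v ⟨hv, hv2⟩
      refine ⟨hWa v hv, LinearMap.mem_ker.mpr ?_⟩
      rw [← inv_prj hm hf h1 h2 hinvx, LinearMap.mem_ker.mp hv2, map_zero]
    have hfa : Stb a (W ⊓ fx (ρ x)) := by
      rintro v ⟨hv, hv2⟩
      refine ⟨hWa v hv, ?_⟩
      have h3 : ρ x v = v := mem_fx.mp hv2
      have h4 : a (ρ x v) = ρ x⁻¹ (a v) := LinearMap.congr_fun hinvx v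
      rw [h3] at h4
      apply mem_fx.mpr
      have h5 : ρ x (ρ x⁻¹ (a v)) = a v := LinearMap.congr_fun h2 (a v)
      rw [← h4] at h5
      exact h5
    have e5 := dih ha hinvx h1 h2 hYa (yp_stb x x (hW x)) (inf_fx_Yp hm hf W)
    have e6 := ih (dm (W ⊓ fx (ρ x))) (by omega) _ rfl (fun y => fx_stb x y (hW y)) hfa
    have e7 := inf_fxE_eq (ρ := ρ) hm x hf W
    omega

/-- Conclusion for an independent family of elements. -/
theorem gainFam {ρ : E →* Module.End (ZMod 2) V} {ℓ D : ℕ} (hℓ : ℓ.Prime) (hℓ2 : ℓ ≠ 2)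
    (hE : ∀ x : E, x ^ ℓ = 1) (hD : Ord2 ℓ D) {a : Module.End (ZMod 2) V} (ha : a * a = 1)
    (hinv : ∀ x, a * ρ x = ρ x⁻¹ * a) {W : Submodule (ZMod 2) V} (hW : ∀ x, Stb (ρ x) W)
    (hWa : Stb a W) {I : Type*} [Fintype I] (X : I → E)
    (hind : ∀ e : I → ℕ, (∏ i, X i ^ e i) ∈ kerE ρ W → ∀ i, ℓ ∣ e i) :
    Fintype.card I * D ≤ 2 * (dm W - dm (W ⊓ fx a)) := by
  classical
  obtain ⟨r, hr, hr2⟩ := L7 (ρ := ρ) hℓ hℓ2 hE hD _ W rfl hW
  have h8 := L8 (ρ := ρ) hℓ hℓ2 hE ha hinv _ W rfl hW hWa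
  have hcard : ℓ ^ Fintype.card I ≤ ℓ ^ r := by
    rw [← hr]
    haveI : NeZero ℓ := ⟨hℓ.ne_zero⟩
    let φ : (I → Fin ℓ) → E ⧸ kerE ρ W := fun e => QuotientGroup.mk (∏ i, X i ^ (e i : ℕ))
    have hφ : Function.Injective φ := by
      intro e e' he
      have h1 : (∏ i, X i ^ (e i : ℕ))⁻¹ * (∏ i, X i ^ (e' i : ℕ)) ∈ kerE ρ W :=
        QuotientGroup.eq.mp he
      have h2 : (∏ i, X i ^ (e i : ℕ))⁻¹ * (∏ i, X i ^ (e' i : ℕ)) =
          ∏ i, X i ^ ((ℓ - (e i : ℕ)) + (e' i : ℕ)) := by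
        rw [← Finset.prod_inv_distrib, ← Finset.prod_mul_distrib]
        apply Finset.prod_congr rfl
        intro i _
        rw [pow_add]
        congr 1
        rw [inv_eq_iff_mul_eq_one, ← pow_add, Nat.add_sub_cancel' (e i).2.le, hE]
      rw [h2] at h1
      funext i
      have h3 := hind _ h1 i
      have h4 : (e i : ℕ) < ℓ := (e i).2
      have h5 : (e' i : ℕ) < ℓ := (e' i).2
      apply Fin.ext
      have h6 : ℓ ∣ (ℓ - (e i : ℕ)) + (e' i : ℕ) := h3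
      obtain ⟨c, hc⟩ := h6
      have h7 : c ≤ 1 := by
        by_contra hc2
        have : 2 ≤ c := by omega
        have : ℓ * 2 ≤ ℓ * c := Nat.mul_le_mul_left ℓ this
        omega
      have h9 : 0 < c := by
        rcases Nat.eq_zero_or_pos c with h | h
        · subst h
          omega
        · exact h
      have : c = 1 := by omega
      subst this
      omega
    have h1 := Nat.card_le_card_of_injective φ hφ
    have h2 : Nat.card (I → Fin ℓ) = ℓ ^ Fintype.card I := by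
      simp [Nat.card_eq_fintype_card]
    rw [h2] at h1
    exact h1
  have hle : Fintype.card I ≤ r := (Nat.pow_le_pow_iff_right hℓ.one_lt).mp hcard
  have h9 : Fintype.card I * D ≤ r * D := Nat.mul_le_mul_right D hle
  omega

end Cfsg.Agent.Lib.TwoFactE
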