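import Mathlib
import Cfsg.Agent.Lib.TwoFactE

/-!
# Pieces: subgroups permuted by an elementary abelian 2-group
-/

set_option autoImplicit false
set_option linter.unusedSectionVars false
set_option linter.unusedVariables false

namespace Cfsg.Agent.Lib.TwoFactB

open Cfsg.Agent.Lib.TwoFactA Cfsg.Agent.Lib.TwoFactE

variable {Γ : Type*} [Group Γ]

/-- Conjugate of a subgroup. -/
def cj (b : Γ) (P : Subgroup Γ) : Subgroup Γ := P.map (MulAut.conj b).toMonoidHom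

theorem mem_cj {b x : Γ} {P : Subgroup Γ} : x ∈ cj b P ↔ b⁻¹ * x * b ∈ P := by
  constructor
  · rintro ⟨p, hp, rfl⟩
    simpa [mul_assoc] using hp
  · intro h
    refine ⟨_, h, ?_⟩
    simp [mul_assoc]

theorem conj_mem_cj {b p : Γ} {P : Subgroup Γ} (hp : p ∈ P) : b * p * b⁻¹ ∈ cj b P :=
  ⟨p, hp, by simp⟩

theorem cj_mul (a b : Γ) (P : Subgroup Γ) : cj (a * b) P = cj a (cj b P) := by
  ext x
  simp only [mem_cj, mul_inv_rev]
  have : b⁻¹ * (a⁻¹ * x * a) * b = b⁻¹ * a⁻¹ * x * (a * b) := by group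
  rw [this]

theorem cj_one (P : Subgroup Γ) : cj 1 P = P := by
  ext x
  simp [mem_cj]

theorem cj_self {a : Γ} (ha : a * a = 1) (P : Subgroup Γ) : cj a (cj a P) = P := by
  rw [← cj_mul, ha, cj_one]

/-- Commuting with a subgroup. -/
def CC (P : Subgroup Γ) (b : Γ) : Prop := ∀ u ∈ P, b * u = u * b

theorem CC.one (P : Subgroup Γ) : CC P (1 : Γ) := by intro u _; simp

theorem CC.mul {P : Subgroup Γ} {a b : Γ} (ha : CC P a) (hb : CC P b) : CC P (a * b) := by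
  intro u hu
  rw [mul_assoc, hb u hu, ← mul_assoc, ha u hu, mul_assoc]

theorem CC.inv {P : Subgroup Γ} {a : Γ} (ha : CC P a) : CC P a⁻¹ := by
  intro u hu
  have h : Commute a u := ha u hu
  exact h.inv_left.eq

theorem CC.pow {P : Subgroup Γ} {a : Γ} (ha : CC P a) (n : ℕ) : CC P (a ^ n) := by
  induction n with
  | zero => simpa using CC.one P
  | succ n ih => rw [pow_succ]; exact ih.mul ha

/-- The centralizing subgroup. -/
def cen (P : Subgroup Γ) : Subgroup Γ where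
  carrier := {b | CC P b}
  one_mem' := CC.one P
  mul_mem' := CC.mul
  inv_mem' := CC.inv

theorem mem_cen {P : Subgroup Γ} {b : Γ} : b ∈ cen P ↔ CC P b := Iff.rfl

/-- Quasisimplicity properties. -/
structure QS (P : Subgroup Γ) : Prop where
  nonab : ∃ x ∈ P, ¬ CC P x
  cen2 : ∀ x ∈ P, (∀ u ∈ P, CC P (x * u * x⁻¹ * u⁻¹)) → CC P x
  nor : ∀ N : Subgroup Γ, N ≤ P → (∀ p ∈ P, ∀ n ∈ N, p * n * p⁻¹ ∈ N) → (∀ n ∈ N, CC P (n * n)) →
    ∀ n ∈ N, CC P n

/-! ### Diagonals -/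

/-- The diagonal map. -/
def dl (a p : Γ) : Γ := p * (a * p * a⁻¹)

/-- The diagonal subgroup. -/
def DD (a : Γ) (P : Subgroup Γ) : Subgroup Γ := Subgroup.closure {g | ∃ p ∈ P, g = dl a p}

section diag

variable {a : Γ} {P : Subgroup Γ}

theorem dl_one : dl a (1 : Γ) = 1 := by simp [dl]

theorem dl_mul (hc : ∀ p ∈ P, ∀ q ∈ cj a P, p * q = q * p) {p q : Γ} (hp : p ∈ P) (hq : q ∈ P) :
    dl a (p * q) = dl a p * dl a q := by
  have h := hc q hq _ (conj_mem_cj (b := a) hp)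
  unfold dl
  have e1 : a * (p * q) * a⁻¹ = (a * p * a⁻¹) * (a * q * a⁻¹) := by group
  rw [e1]
  calc p * q * ((a * p * a⁻¹) * (a * q * a⁻¹)) = p * (q * (a * p * a⁻¹)) * (a * q * a⁻¹) := by
        simp only [mul_assoc]
    _ = p * ((a * p * a⁻¹) * q) * (a * q * a⁻¹) := by rw [h]
    _ = _ := by simp only [mul_assoc]

theorem dl_inv (hc : ∀ p ∈ P, ∀ q ∈ cj a P, p * q = q * p) {p : Γ} (hp : p ∈ P) :
    dl a p⁻¹ = (dl a p)⁻¹ := by
  apply eq_inv_of_mul_eq_one_left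
  rw [← dl_mul hc (P.inv_mem hp) hp]
  simp [dl_one]

theorem dl_pow (hc : ∀ p ∈ P, ∀ q ∈ cj a P, p * q = q * p) {p : Γ} (hp : p ∈ P) (n : ℕ) :
    dl a (p ^ n) = (dl a p) ^ n := by
  induction n with
  | zero => simp [dl_one]
  | succ n ih => rw [pow_succ, pow_succ, dl_mul hc (P.pow_mem hp n) hp, ih]

theorem mem_DD (hc : ∀ p ∈ P, ∀ q ∈ cj a P, p * q = q * p) {g : Γ} :
    g ∈ DD a P ↔ ∃ p ∈ P, g = dl a p := by
  constructor
  · intro h
    induction h using Subgroup.closure_induction with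
    | mem x hx => exact hx
    | one => exact ⟨1, P.one_mem, dl_one.symm⟩
    | mul x y _ _ hx hy =>
      obtain ⟨p, hp, rfl⟩ := hx
      obtain ⟨q, hq, rfl⟩ := hy
      exact ⟨p * q, P.mul_mem hp hq, (dl_mul hc hp hq).symm⟩
    | inv x _ hx =>
      obtain ⟨p, hp, rfl⟩ := hx
      exact ⟨p⁻¹, P.inv_mem hp, (dl_inv hc hp).symm⟩
  · intro h
    exact Subgroup.subset_closure h

theorem dl_mem (hp : ∀ p ∈ P, ∀ q ∈ cj a P, p * q = q * p) {x : Γ} (hx : x ∈ P) : dl a x ∈ DD a P :=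
  (mem_DD hp).mpr ⟨x, hx, rfl⟩

theorem dl_comm_a (ha : a * a = 1) (hc : ∀ p ∈ P, ∀ q ∈ cj a P, p * q = q * p) {p : Γ} (hp : p ∈ P) :
    a * dl a p = dl a p * a := by
  have ha' : a⁻¹ = a := inv_eq_of_mul_eq_one_left ha
  have h := hc p hp _ (conj_mem_cj (b := a) hp)
  unfold dl
  have e1 : a * p = (a * p * a⁻¹) * a := by group
  have e2 : a * (a * p * a⁻¹) = p * a := by
    rw [ha', ← mul_assoc, ← mul_assoc, ha, one_mul]
  calc a * (p * (a * p * a⁻¹)) = (a * p) * (a * p * a⁻¹) := by simp only [mul_assoc]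
    _ = (a * p * a⁻¹) * a * (a * p * a⁻¹) := by rw [← e1]
    _ = (a * p * a⁻¹) * (a * (a * p * a⁻¹)) := by rw [mul_assoc (a * p * a⁻¹)]
    _ = (a * p * a⁻¹) * (p * a) := by rw [e2]
    _ = ((a * p * a⁻¹) * p) * a := by simp only [mul_assoc]
    _ = _ := by rw [h]

theorem dl_conj {b p : Γ} (hab : a * b = b * a) : b * dl a p * b⁻¹ = dl a (b * p * b⁻¹) := by
  unfold dl
  have e1 : b * (p * (a * p * a⁻¹)) * b⁻¹ = (b * p * b⁻¹) * ((b * a) * p * (b * a)⁻¹) := by group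
  have e2 : a * (b * p * b⁻¹) * a⁻¹ = (a * b) * p * (a * b)⁻¹ := by group
  rw [e1, e2, hab]

theorem dl_swap (ha : a * a = 1) (hc : ∀ p ∈ P, ∀ q ∈ cj a P, p * q = q * p) {p : Γ} (hp : p ∈ P) :
    dl a (a * p * a⁻¹) = dl a p := by
  have ha' : a⁻¹ = a := inv_eq_of_mul_eq_one_left ha
  have h := hc p hp _ (conj_mem_cj (b := a) hp)
  unfold dl
  have e2 : a * (a * p * a⁻¹) * a⁻¹ = p := by
    rw [ha']
    calc a * (a * p * a) * a = (a * a) * p * (a * a) := by simp only [mul_assoc]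
      _ = p := by rw [ha]; simp
  rw [e2, h]

theorem DD_cj (ha : a * a = 1) (hc : ∀ p ∈ P, ∀ q ∈ cj a P, p * q = q * p) :
    DD a (cj a P) = DD a P := by
  unfold DD
  congr 1
  ext g
  constructor
  · rintro ⟨q, hq, rfl⟩
    have h1 := mem_cj.mp hq
    have h2 := dl_swap ha hc h1
    have e : a * (a⁻¹ * q * a) * a⁻¹ = q := by group
    rw [e] at h2
    exact ⟨_, h1, h2⟩
  · rintro ⟨p, hp, rfl⟩
    exact ⟨_, conj_mem_cj hp, (dl_swap ha hc hp).symm⟩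

theorem cc_dl_of (hc : ∀ p ∈ P, ∀ q ∈ cj a P, p * q = q * p) {x : Γ} (hx : x ∈ P) (h : CC P x) :
    CC (DD a P) (dl a x) := by
  intro g hg
  obtain ⟨v, hv, rfl⟩ := (mem_DD hc).mp hg
  rw [← dl_mul hc hx hv, ← dl_mul hc hv hx, h v hv]

theorem dl_eq_one_cc (hc : ∀ p ∈ P, ∀ q ∈ cj a P, p * q = q * p) {c : Γ} (hcP : c ∈ P)
    (h : dl a c = 1) : CC P c := by
  intro u hu
  have e : a * c * a⁻¹ = c⁻¹ := eq_inv_of_mul_eq_one_right h
  have h1 := hc u hu _ (conj_mem_cj (b := a) hcP)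
  rw [e] at h1
  have h2 : Commute u c⁻¹ := h1
  have h3 : Commute u c := by simpa using h2.inv_right
  exact h3.symm.eq

theorem of_cc_dl (hq : QS P) (hc : ∀ p ∈ P, ∀ q ∈ cj a P, p * q = q * p) {x : Γ} (hx : x ∈ P)
    (h : CC (DD a P) (dl a x)) : CC P x := by
  apply hq.cen2 x hx
  intro u hu
  apply dl_eq_one_cc hc (P.mul_mem (P.mul_mem (P.mul_mem hx hu) (P.inv_mem hx)) (P.inv_mem hu))
  rw [dl_mul hc (P.mul_mem (P.mul_mem hx hu) (P.inv_mem hx)) (P.inv_mem hu),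
    dl_mul hc (P.mul_mem hx hu) (P.inv_mem hx), dl_mul hc hx hu, dl_inv hc hx, dl_inv hc hu,
    h _ (dl_mem hc hu)]
  group

theorem cc_a_DD (ha : a * a = 1) (hc : ∀ p ∈ P, ∀ q ∈ cj a P, p * q = q * p) : CC (DD a P) a := by
  intro g hg
  obtain ⟨v, hv, rfl⟩ := (mem_DD hc).mp hg
  exact dl_comm_a ha hc hv

/-- The diagonal inherits quasisimplicity. -/
theorem qs_DD (hq : QS P) (hc : ∀ p ∈ P, ∀ q ∈ cj a P, p * q = q * p) : QS (DD a P) := by
  refine ⟨?_, ?_, ?_⟩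
  · obtain ⟨x, hx, hx2⟩ := hq.nonab
    exact ⟨dl a x, dl_mem hc hx, fun h => hx2 (of_cc_dl hq hc hx h)⟩
  · intro g hg h
    obtain ⟨x, hx, rfl⟩ := (mem_DD hc).mp hg
    apply cc_dl_of hc hx
    apply hq.cen2 x hx
    intro u hu
    have h1 := h _ (dl_mem hc hu)
    apply of_cc_dl hq hc (P.mul_mem (P.mul_mem (P.mul_mem hx hu) (P.inv_mem hx)) (P.inv_mem hu))
    rw [dl_mul hc (P.mul_mem (P.mul_mem hx hu) (P.inv_mem hx)) (P.inv_mem hu),
      dl_mul hc (P.mul_mem hx hu) (P.inv_mem hx), dl_mul hc hx hu, dl_inv hc hx, dl_inv hc hu]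
    exact h1
  · intro N hN hnor hsq
    let N' : Subgroup Γ :=
      { carrier := {p | p ∈ P ∧ dl a p ∈ N}
        one_mem' := ⟨P.one_mem, by rw [dl_one]; exact N.one_mem⟩
        mul_mem' := by
          rintro p q ⟨hp, hp2⟩ ⟨hq', hq2⟩
          exact ⟨P.mul_mem hp hq', by rw [dl_mul hc hp hq']; exact N.mul_mem hp2 hq2⟩
        inv_mem' := by
          rintro p ⟨hp, hp2⟩
          exact ⟨P.inv_mem hp, by rw [dl_inv hc hp]; exact N.inv_mem hp2⟩ }
    have h1 : ∀ n ∈ N', CC P n := by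
      apply hq.nor N' (fun p hp => hp.1)
      · rintro p hp n ⟨hn, hn2⟩
        refine ⟨P.mul_mem (P.mul_mem hp hn) (P.inv_mem hp), ?_⟩
        rw [dl_mul hc (P.mul_mem hp hn) (P.inv_mem hp), dl_mul hc hp hn, dl_inv hc hp]
        exact hnor _ (dl_mem hc hp) _ hn2
      · rintro n ⟨hn, hn2⟩
        apply of_cc_dl hq hc (P.mul_mem hn hn)
        rw [dl_mul hc hn hn]
        exact hsq _ hn2
    intro g hg
    obtain ⟨x, hx, rfl⟩ := (mem_DD hc).mp (hN hg)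
    exact cc_dl_of hc hx (h1 x ⟨hx, hg⟩)

end diag

/-! ### Action on subspaces -/

section action

variable {V : Type*} [AddCommGroup V] [Module (ZMod 2) V] [Finite V]
  (ρ : Γ →* Module.End (ZMod 2) V)

/-- Elements acting trivially. -/
def triv (U : Submodule (ZMod 2) V) : Subgroup Γ where
  carrier := {g | ∀ u ∈ U, ρ g u = u}
  one_mem' := by intro u _; simp
  mul_mem' := by
    intro x y hx hy w hw
    rw [map_mul]
    show ρ x (ρ y w) = w
    rw [hy w hw, hx w hw]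
  inv_mem' := by
    intro x hx w hw
    have h1 : ρ x⁻¹ (ρ x w) = w := by
      have : (ρ x⁻¹ * ρ x) w = w := by
        rw [← map_mul]; simp
      exact this
    rw [hx w hw] at h1
    exact h1

theorem mem_triv {U : Submodule (ZMod 2) V} {g : Γ} : g ∈ triv ρ U ↔ ∀ u ∈ U, ρ g u = u := Iff.rfl

theorem rho_mul_apply (x y : Γ) (v : V) : ρ (x * y) v = ρ x (ρ y v) := by
  rw [map_mul]; rfl

theorem rho_inv_apply (x : Γ) (v : V) : ρ x⁻¹ (ρ x v) = v := by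
  rw [← rho_mul_apply]; simp

theorem rho_apply_inv (x : Γ) (v : V) : ρ x (ρ x⁻¹ v) = v := by
  rw [← rho_mul_apply]; simp

theorem stb_inv [Finite Γ] {g : Γ} {W : Submodule (ZMod 2) V} (h : Stb (ρ g) W) : Stb (ρ g⁻¹) W := by
  have h1 : g⁻¹ = g ^ (orderOf g - 1) := by
    rw [inv_eq_iff_mul_eq_one, ← pow_succ', Nat.sub_add_cancel (orderOf_pos g), pow_orderOf_eq_one]
  rw [h1, map_pow]
  exact stb_pow h _

/-- A commutator of an element acting trivially acts trivially. -/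
theorem triv_comm [Finite Γ] {c u : Γ} {W : Submodule (ZMod 2) V} (hc : c ∈ triv ρ W)
    (hu : Stb (ρ u) W) : c * u * c⁻¹ * u⁻¹ ∈ triv ρ W := by
  intro w hw
  have h1 : ρ u⁻¹ w ∈ W := stb_inv ρ hu w hw
  have h2 : ρ c⁻¹ (ρ u⁻¹ w) = ρ u⁻¹ w := (triv ρ W).inv_mem hc _ h1
  simp only [rho_mul_apply]
  rw [h2, rho_apply_inv]
  exact hc w hw

/-- Squares of elements trivial on the fixed points of an involution. -/
theorem fix_sq {a r : Γ} (ha : a * a = 1) (har : a * r = r * a) {W : Submodule (ZMod 2) V}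
    (hWa : Stb (ρ a) W) (hWr : Stb (ρ r) W) (hU : r ∈ triv ρ (W ⊓ fx (ρ a))) :
    r * r ∈ triv ρ W := by
  intro w hw
  have haa : ∀ v, ρ a (ρ a v) = v := by
    intro v
    rw [← rho_mul_apply, ha]; simp
  have hcm : ∀ v, ρ a (ρ r v) = ρ r (ρ a v) := by
    intro v
    rw [← rho_mul_apply, ← rho_mul_apply, har]
  have h1 : ρ a w + w ∈ W ⊓ fx (ρ a) := by
    refine ⟨W.add_mem (hWa w hw) hw, mem_fx.mpr ?_⟩
    rw [map_add, haa, add_comm]
  have h2 := hU _ h1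
  rw [map_add] at h2
  have h3 : ρ r w + w ∈ W ⊓ fx (ρ a) := by
    refine ⟨W.add_mem (hWr w hw) hw, mem_fx.mpr ?_⟩
    rw [map_add, hcm]
    apply eq_of_add2
    have e : ρ r (ρ a w) + ρ a w + (ρ r w + w) = (ρ r (ρ a w) + ρ r w) + (ρ a w + w) := by abel
    rw [e, h2, add2]
  have h4 := hU _ h3
  rw [map_add] at h4
  rw [rho_mul_apply]
  apply eq_of_add2
  have e : ρ r (ρ r w) + w = (ρ r (ρ r w) + ρ r w) + (ρ r w + w) := by
    have h5 : (ρ r (ρ r w) + ρ r w) + (ρ r w + w) = ρ r (ρ r w) + w + (ρ r w + ρ r w) := by abel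
    rw [h5, add2, add_zero]
  rw [e, h4, add2]

/-- The kernel of a `QS` group on a stable subspace is central if squares are. -/
theorem ker_persist [Finite Γ] {P : Subgroup Γ} (hq : QS P) {U : Submodule (ZMod 2) V}
    (hU : ∀ p ∈ P, Stb (ρ p) U) (hsq : ∀ n ∈ P, n ∈ triv ρ U → CC P (n * n)) :
    ∀ n ∈ P, n ∈ triv ρ U → CC P n := by
  intro n hn hn2
  refine hq.nor (P ⊓ triv ρ U) inf_le_left ?_ ?_ n ⟨hn, hn2⟩
  · rintro p hp m ⟨hm, hm2⟩
    refine ⟨P.mul_mem (P.mul_mem hp hm) (P.inv_mem hp), ?_⟩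
    intro u hu
    simp only [rho_mul_apply]
    rw [hm2 _ (hU _ (P.inv_mem hp) u hu), rho_apply_inv]
  · rintro m ⟨hm, hm2⟩
    exact hsq m hm hm2

/-- The kernel condition. -/
def KerC (W : Submodule (ZMod 2) V) (P : Subgroup Γ) : Prop := ∀ p ∈ P, p ∈ triv ρ W → CC P p

theorem kerC_fx [Finite Γ] {P : Subgroup Γ} (hq : QS P) {a : Γ} (ha : a * a = 1) (hPa : CC P a)
    {W : Submodule (ZMod 2) V} (hWa : Stb (ρ a) W) (hWP : ∀ p ∈ P, Stb (ρ p) W)
    (hK : KerC ρ W P) : KerC ρ (W ⊓ fx (ρ a)) P := by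
  apply ker_persist ρ hq
  · rintro p hp v ⟨hv, hv2⟩
    refine ⟨hWP p hp v hv, mem_fx.mpr ?_⟩
    rw [← rho_mul_apply, hPa p hp, rho_mul_apply, mem_fx.mp hv2]
  · intro n hn hn2
    have h1 := fix_sq ρ ha (hPa n hn) hWa (hWP n hn) hn2
    apply hq.cen2 _ (P.mul_mem hn hn)
    intro u hu
    apply hK _ _ (triv_comm ρ h1 (hWP u hu))
    exact P.mul_mem (P.mul_mem (P.mul_mem (P.mul_mem hn hn) hu) (P.inv_mem (P.mul_mem hn hn)))
      (P.inv_mem hu)

/-- Kernel on the fixed space for a diagonal. -/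
theorem kerC_DD [Finite Γ] {P : Subgroup Γ} (hq : QS P) {a : Γ} (ha : a * a = 1)
    (hc : ∀ p ∈ P, ∀ q ∈ cj a P, p * q = q * p)
    {W : Submodule (ZMod 2) V} (hWa : Stb (ρ a) W) (hWP : ∀ p ∈ P, Stb (ρ p) W)
    (hWQ : ∀ p ∈ cj a P, Stb (ρ p) W)
    (hK : KerC ρ W P) : KerC ρ (W ⊓ fx (ρ a)) (DD a P) := by
  have hstb : ∀ p ∈ P, Stb (ρ (dl a p)) W := by
    intro p hp w hw
    unfold dl
    rw [rho_mul_apply]
    exact hWP p hp _ (hWQ _ (conj_mem_cj hp) w hw)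
  apply ker_persist ρ (qs_DD hq hc)
  · intro g hg
    obtain ⟨p, hp, rfl⟩ := (mem_DD hc).mp hg
    rintro v ⟨hv, hv2⟩
    refine ⟨hstb p hp v hv, mem_fx.mpr ?_⟩
    rw [← rho_mul_apply, dl_comm_a ha hc hp, rho_mul_apply, mem_fx.mp hv2]
  · intro g hg hg2
    obtain ⟨p, hp, rfl⟩ := (mem_DD hc).mp hg
    have h1 := fix_sq ρ ha (dl_comm_a ha hc hp) hWa (hstb p hp) hg2
    rw [← dl_mul hc hp hp] at h1 ⊢
    apply cc_dl_of hc (P.mul_mem hp hp)
    apply hq.cen2 _ (P.mul_mem hp hp)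
    intro u hu
    have hcu : a * (p * p) * a⁻¹ * u = u * (a * (p * p) * a⁻¹) :=
      (hc u hu _ (conj_mem_cj (P.mul_mem hp hp))).symm
    have e : (p * p) * u * (p * p)⁻¹ * u⁻¹ =
        dl a (p * p) * u * (dl a (p * p))⁻¹ * u⁻¹ := by
      unfold dl
      generalize a * (p * p) * a⁻¹ = q at hcu
      have h3 : q⁻¹ * u = u * q⁻¹ := (Commute.inv_left (show Commute q u from hcu)).eq
      calc (p * p) * u * (p * p)⁻¹ * u⁻¹
          = (p * p) * u * (q * q⁻¹) * (p * p)⁻¹ * u⁻¹ := by simp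
        _ = (p * p) * (u * q) * q⁻¹ * (p * p)⁻¹ * u⁻¹ := by simp only [mul_assoc]
        _ = (p * p) * (q * u) * q⁻¹ * (p * p)⁻¹ * u⁻¹ := by rw [hcu]
        _ = _ := by group
    rw [e]
    apply hK
    · rw [← e]
      exact P.mul_mem (P.mul_mem (P.mul_mem (P.mul_mem hp hp) hu) (P.inv_mem (P.mul_mem hp hp)))
        (P.inv_mem hu)
    · exact triv_comm ρ h1 (hWP u hu)

end action

/-! ### Pieces -/

/-- Data of a quasisimple piece. -/
structure KP (A P : Subgroup Γ) (τ D : ℕ) : Prop where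
  qs : QS P
  k1 : ∀ T : Finset Γ, (∀ t ∈ T, t ∈ A ∧ cj t P = P) →
    (∀ s ∈ T, ∀ t ∈ T, s ≠ t → ¬ CC P (s * t⁻¹)) → T.card ≤ 2 ^ τ
  k2 : ∀ b ∈ A, cj b P = P → ¬ CC P b → ∃ x ∈ P, ∃ ℓ : ℕ, ℓ.Prime ∧ ℓ ≠ 2 ∧ Ord2 ℓ D ∧
    orderOf x = ℓ ∧ ¬ CC P x ∧ b * x * b⁻¹ = x⁻¹
  k3 : ∃ x ∈ P, ∃ ℓ : ℕ, ℓ.Prime ∧ ℓ ≠ 2 ∧ ℓ ≠ 3 ∧ orderOf x = ℓ ∧ ¬ CC P x
  h2 : 2 ≤ τ
  h4 : 4 * τ ≤ D + 1

theorem KP.mono {A B P : Subgroup Γ} {τ D : ℕ} (h : KP A P τ D) (hB : B ≤ A) : KP B P τ D :=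
  ⟨h.qs, fun T hT => h.k1 T (fun t ht => ⟨hB (hT t ht).1, (hT t ht).2⟩),
    fun b hb => h.k2 b (hB hb), h.k3, h.h2, h.h4⟩

theorem cc_conj {b y : Γ} {D : Subgroup Γ} (hD : cj b D = D) (h : CC D (b * y * b⁻¹)) : CC D y := by
  intro g hg
  have h1 : b * g * b⁻¹ ∈ D := by
    rw [← hD]
    exact conj_mem_cj hg
  have h2 := h _ h1
  have e1 : b * y * b⁻¹ * (b * g * b⁻¹) = b * (y * g) * b⁻¹ := by group
  have e2 : b * g * b⁻¹ * (b * y * b⁻¹) = b * (g * y) * b⁻¹ := by group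
  rw [e1, e2] at h2
  exact mul_left_cancel (mul_right_cancel h2)

/-- An element normalizing the diagonal normalizes `P` or swaps. -/
theorem norm_DD {a b : Γ} {P : Subgroup Γ} (hq : QS P) (ha : a * a = 1) (hab : a * b = b * a)
    (hc : ∀ p ∈ P, ∀ q ∈ cj a P, p * q = q * p)
    (hR : ∀ p ∈ P, ∀ q ∈ cj b P, cj b P ≠ P → p * q = q * p)
    (hR2 : ∀ p ∈ P, ∀ q ∈ cj a (cj b P), cj a (cj b P) ≠ P → p * q = q * p)
    (hbD : cj b (DD a P) = DD a P) : cj b P = P ∨ cj b P = cj a P := by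
  by_contra hcon
  push Not at hcon
  obtain ⟨h1, h2⟩ := hcon
  have h3 : cj a (cj b P) ≠ P := by
    intro h
    apply h2
    rw [← cj_self ha (cj b P), h]
  obtain ⟨x, hx, hx2⟩ := hq.nonab
  apply hx2
  apply of_cc_dl hq hc hx
  apply cc_conj hbD
  rw [dl_conj hab.symm.symm]
  have hr : b * x * b⁻¹ ∈ cj b P := conj_mem_cj hx
  have hm : dl a (b * x * b⁻¹) ∈ DD a P := by
    rw [← dl_conj hab, ← hbD]
    exact conj_mem_cj (dl_mem hc hx)
  obtain ⟨v, hv, hv2⟩ := (mem_DD hc).mp hm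
  rw [hv2]
  apply cc_dl_of hc hv
  intro u hu
  have e1 := hR u hu _ hr h1
  have e2 := hR2 u hu _ (conj_mem_cj hr) h3
  have e3 := hc u hu _ (conj_mem_cj (b := a) hv)
  -- `u` commutes with `dl a v`
  have e4 : u * dl a (b * x * b⁻¹) = dl a (b * x * b⁻¹) * u := by
    unfold dl
    generalize b * x * b⁻¹ = r at e1 e2
    generalize a * r * a⁻¹ = r' at e2
    calc u * (r * r') = (u * r) * r' := (mul_assoc _ _ _).symm
      _ = (r * u) * r' := by rw [e1]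
      _ = r * (u * r') := mul_assoc _ _ _
      _ = r * (r' * u) := by rw [e2]
      _ = _ := (mul_assoc _ _ _).symm
  rw [hv2] at e4
  unfold dl at e4
  have e5 : u * v * (a * v * a⁻¹) = v * u * (a * v * a⁻¹) := by
    calc u * v * (a * v * a⁻¹) = u * (v * (a * v * a⁻¹)) := by rw [mul_assoc]
      _ = v * (a * v * a⁻¹) * u := e4
      _ = v * ((a * v * a⁻¹) * u) := mul_assoc _ _ _
      _ = v * (u * (a * v * a⁻¹)) := by rw [e3]
      _ = _ := (mul_assoc _ _ _).symm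
  exact (mul_right_cancel e5).symm

theorem comm_of_inv {A : Subgroup Γ} (hA : ∀ a ∈ A, a * a = 1) {x y : Γ} (hx : x ∈ A) (hy : y ∈ A) :
    x * y = y * x := by
  have h1 := hA _ (A.mul_mem hx hy)
  have h2 := hA x hx
  have h3 := hA y hy
  have e1 : x⁻¹ = x := inv_eq_of_mul_eq_one_left h2
  have e2 : y⁻¹ = y := inv_eq_of_mul_eq_one_left h3
  have e3 : x * y = (x * y)⁻¹ := eq_inv_of_mul_eq_one_left h1
  rw [e3, mul_inv_rev, e1, e2]

theorem cc_D_of {a c : Γ} {P : Subgroup Γ} (hc : ∀ p ∈ P, ∀ q ∈ cj a P, p * q = q * p)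
    (hac : a * c = c * a) (h : CC P c) : CC (DD a P) c := by
  intro g hg
  obtain ⟨p, hp, rfl⟩ := (mem_DD hc).mp hg
  unfold dl
  have e1 : c * (a * p * a⁻¹) = (a * p * a⁻¹) * c := by
    have e2 : a⁻¹ * c = c * a⁻¹ := (Commute.inv_left (show Commute a c from hac)).eq
    calc c * (a * p * a⁻¹) = (c * a) * p * a⁻¹ := by simp only [mul_assoc]
      _ = a * (c * p) * a⁻¹ := by rw [← hac]; simp only [mul_assoc]
      _ = a * (p * c) * a⁻¹ := by rw [h p hp]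
      _ = a * p * (c * a⁻¹) := by simp only [mul_assoc]
      _ = a * p * (a⁻¹ * c) := by rw [e2]
      _ = _ := by simp only [mul_assoc]
  generalize a * p * a⁻¹ = q at e1
  calc c * (p * q) = (c * p) * q := (mul_assoc _ _ _).symm
    _ = (p * c) * q := by rw [h p hp]
    _ = p * (c * q) := mul_assoc _ _ _
    _ = p * (q * c) := by rw [e1]
    _ = _ := (mul_assoc _ _ _).symm

/-- The correction of an element swapping. -/
noncomputable def pr (a : Γ) (P : Subgroup Γ) (b : Γ) : Γ :=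
  by classical exact if cj b P = P then 1 else a

theorem pr_cc {a b : Γ} {P : Subgroup Γ} (hc : ∀ p ∈ P, ∀ q ∈ cj a P, p * q = q * p)
    (ha : a * a = 1) : CC (DD a P) (pr a P b) := by
  unfold pr
  split_ifs
  · exact CC.one _
  · exact cc_a_DD ha hc

theorem pr_mem {a b : Γ} {P A : Subgroup Γ} (ha : a ∈ A) : pr a P b ∈ A := by
  unfold pr
  split_ifs
  · exact A.one_mem
  · exact ha

theorem pr_norm {a b : Γ} {P : Subgroup Γ} (ha : a * a = 1) (h : cj b P = P ∨ cj b P = cj a P) :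
    cj (pr a P b * b) P = P := by
  unfold pr
  split_ifs with h1
  · rw [one_mul, h1]
  · rw [cj_mul, h.resolve_left h1, cj_self ha]

theorem pr_comm {a b : Γ} {P A : Subgroup Γ} (hA : ∀ a ∈ A, a * a = 1) (ha : a ∈ A) (hb : b ∈ A) :
    a * (pr a P b * b) = (pr a P b * b) * a :=
  comm_of_inv hA ha (A.mul_mem (pr_mem ha) hb)

/-- The diagonal is a piece of the same type. -/
theorem kp_DD {A A' P : Subgroup Γ} {a : Γ} {τ D : ℕ} (h : KP A P τ D)
    (hA : ∀ a ∈ A, a * a = 1) (haA : a ∈ A) (hA' : A' ≤ A) (haA' : a ∉ A')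
    (hc : ∀ p ∈ P, ∀ q ∈ cj a P, p * q = q * p)
    (hnorm : ∀ b ∈ A, cj b (DD a P) = DD a P → cj b P = P ∨ cj b P = cj a P) :
    KP A' (DD a P) τ D := by
  have ha := hA a haA
  have hq := h.qs
  have hexp : ∀ x ∈ P, ∀ ℓ : ℕ, ℓ.Prime → orderOf x = ℓ → ¬ CC P x →
      orderOf (dl a x) = ℓ ∧ ¬ CC (DD a P) (dl a x) := by
    intro x hx ℓ hℓ hord hnc
    haveI : Fact ℓ.Prime := ⟨hℓ⟩
    refine ⟨?_, fun h => hnc (of_cc_dl hq hc hx h)⟩
    apply orderOf_eq_prime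
    · rw [← dl_pow hc hx, ← hord, pow_orderOf_eq_one, dl_one]
    · intro h1
      exact hnc (dl_eq_one_cc hc hx h1)
  refine ⟨qs_DD hq hc, ?_, ?_, ?_, h.h2, h.h4⟩
  · -- `k1`
    classical
    intro T hT hT2
    have hinj : Set.InjOn (fun b => pr a P b * b) (T : Set Γ) := by
      intro s hs t ht hst
      by_contra hne
      have hs' := hA' (hT s hs).1
      have ht' := hA' (hT t ht).1
      have hst' : pr a P s * s = pr a P t * t := hst
      have key : ∀ (s t : Γ), s ∈ A' → t ∈ A' → s ≠ t → a * s ≠ t := by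
        intro s t hs ht hne h
        apply haA'
        have e : a = t * s⁻¹ := by rw [← h]; group
        rw [e]
        exact A'.mul_mem ht (A'.inv_mem hs)
      have hs3 : s ∈ A' := (hT s hs).1
      have ht3 : t ∈ A' := (hT t ht).1
      unfold pr at hst'
      split_ifs at hst' with h1 h2 h2
      · simp only [one_mul] at hst'
        exact hne hst'
      · rw [one_mul] at hst'
        exact key t s ht3 hs3 (Ne.symm hne) hst'.symm
      · rw [one_mul] at hst'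
        exact key s t hs3 ht3 hne hst'
      · exact hne (mul_left_cancel hst')
    have h1 := h.k1 (T.image (fun b => pr a P b * b)) ?_ ?_
    · rwa [Finset.card_image_of_injOn hinj] at h1
    · intro t ht
      obtain ⟨b, hb, rfl⟩ := Finset.mem_image.mp ht
      refine ⟨A.mul_mem (pr_mem haA) (hA' (hT b hb).1), ?_⟩
      exact pr_norm ha (hnorm b (hA' (hT b hb).1) (hT b hb).2)
    · intro s hs t ht hne hcc
      obtain ⟨s', hs', rfl⟩ := Finset.mem_image.mp hs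
      obtain ⟨t', ht', rfl⟩ := Finset.mem_image.mp ht
      have hne' : s' ≠ t' := by
        rintro rfl
        exact hne rfl
      apply hT2 s' hs' t' ht' hne'
      have h2 : CC (DD a P) ((pr a P s' * s') * (pr a P t' * t')⁻¹) := by
        apply cc_D_of hc _ hcc
        exact comm_of_inv hA haA (A.mul_mem (A.mul_mem (pr_mem haA) (hA' (hT s' hs').1))
          (A.inv_mem (A.mul_mem (pr_mem haA) (hA' (hT t' ht').1))))
      have e : s' * t'⁻¹ = (pr a P s')⁻¹ * ((pr a P s' * s') * (pr a P t' * t')⁻¹) * pr a P t' := by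
        group
      rw [e]
      exact ((pr_cc hc ha).inv.mul h2).mul (pr_cc hc ha)
  · -- `k2`
    intro b hb hbD hbc
    have hb' := hA' hb
    have hn := pr_norm (b := b) ha (hnorm b hb' hbD)
    have hnc : ¬ CC P (pr a P b * b) := by
      intro hcc
      apply hbc
      have h2 := cc_D_of hc (pr_comm hA haA hb') hcc
      have e : b = (pr a P b)⁻¹ * (pr a P b * b) := by group
      rw [e]
      exact (pr_cc hc ha).inv.mul h2
    obtain ⟨x, hx, ℓ, hℓ, hℓ2, hord2, hord, hxnc, hinv⟩ :=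
      h.k2 _ (A.mul_mem (pr_mem haA) hb') hn hnc
    obtain ⟨h5, h6⟩ := hexp x hx ℓ hℓ hord hxnc
    refine ⟨dl a x, dl_mem hc hx, ℓ, hℓ, hℓ2, hord2, h5, h6, ?_⟩
    have e1 : (pr a P b * b) * dl a x * (pr a P b * b)⁻¹ = (dl a x)⁻¹ := by
      rw [dl_conj (pr_comm hA haA hb'), hinv, dl_inv hc hx]
    have h7 : pr a P b * dl a x = dl a x * pr a P b := pr_cc hc ha _ (dl_mem hc hx)
    have h8 : (pr a P b)⁻¹ * (dl a x)⁻¹ = (dl a x)⁻¹ * (pr a P b)⁻¹ :=
      (Commute.inv_inv (show Commute (pr a P b) (dl a x) from h7)).eq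
    have e2 : b * dl a x * b⁻¹ = (pr a P b)⁻¹ * ((pr a P b * b) * dl a x * (pr a P b * b)⁻¹) * pr a P b := by
      group
    rw [e2, e1, h8]
    group
  · obtain ⟨x, hx, ℓ, hℓ, hℓ2, hℓ3, hord, hxnc⟩ := h.k3
    obtain ⟨h5, h6⟩ := hexp x hx ℓ hℓ hord hxnc
    exact ⟨dl a x, dl_mem hc hx, ℓ, hℓ, hℓ2, hℓ3, h5, h6⟩

end Cfsg.Agent.Lib.TwoFactB
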