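import Mathlib
import Cfsg.Agent.Lib.TwoFactB

/-!
# Pieces: the gains
-/

set_option autoImplicit false
set_option linter.unusedSectionVars false
set_option linter.unusedVariables false

namespace Cfsg.Agent.Lib.TwoFactB2

open Cfsg.Agent.Lib.TwoFactA Cfsg.Agent.Lib.TwoFactE Cfsg.Agent.Lib.TwoFactB

variable {Γ : Type*} [Group Γ] [Finite Γ]

/-- A cyclic piece. -/
def CycP (A P : Subgroup Γ) (y : Γ) (ℓ : ℕ) : Prop :=
  P = Subgroup.zpowers y ∧ ℓ.Prime ∧ ℓ ≠ 2 ∧ orderOf y = ℓ ∧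
    ∀ a ∈ A, a * y * a⁻¹ = y ∨ (a * y * a⁻¹ = y⁻¹ ∧ ℓ ≠ 3)

theorem CycP.mono {A B P : Subgroup Γ} {y : Γ} {ℓ : ℕ} (h : CycP A P y ℓ) (hB : B ≤ A) :
    CycP B P y ℓ :=
  ⟨h.1, h.2.1, h.2.2.1, h.2.2.2.1, fun a ha => h.2.2.2.2 a (hB ha)⟩

theorem cc_zpowers {y a : Γ} : CC (Subgroup.zpowers y) a ↔ a * y * a⁻¹ = y := by
  constructor
  · intro h
    rw [h y (Subgroup.mem_zpowers y)]
    simp
  · intro h u hu
    obtain ⟨k, rfl⟩ := Subgroup.mem_zpowers_iff.mp hu
    have h1 : Commute a y := by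
      show a * y = y * a
      rw [← mul_inv_eq_iff_eq_mul]
      exact h
    exact (h1.zpow_right k).eq

theorem CycP.norm {A P : Subgroup Γ} {y : Γ} {ℓ : ℕ} (h : CycP A P y ℓ) {a : Γ} (ha : a ∈ A) :
    cj a P = P := by
  have h0 := h.1
  subst h0
  apply le_antisymm
  · rintro _ ⟨u, hu, rfl⟩
    obtain ⟨k, rfl⟩ := Subgroup.mem_zpowers_iff.mp hu
    show a * y ^ k * a⁻¹ ∈ _
    rw [← conj_zpow]
    rcases h.2.2.2.2 a ha with h1 | ⟨h1, -⟩ <;> rw [h1]
    · exact Subgroup.zpow_mem_zpowers y k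
    · exact Subgroup.zpow_mem _ (Subgroup.inv_mem _ (Subgroup.mem_zpowers y)) k
  · rw [Subgroup.zpowers_le, mem_cj]
    -- `a⁻¹ y a` is a power of `y`
    have hfin : Subgroup.map (MulAut.conj a).toMonoidHom (Subgroup.zpowers y) ≤ Subgroup.zpowers y := by
      rintro _ ⟨u, hu, rfl⟩
      obtain ⟨k, rfl⟩ := Subgroup.mem_zpowers_iff.mp hu
      show a * y ^ k * a⁻¹ ∈ _
      rw [← conj_zpow]
      rcases h.2.2.2.2 a ha with h1 | ⟨h1, -⟩ <;> rw [h1]
      · exact Subgroup.zpow_mem_zpowers y k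
      · exact Subgroup.zpow_mem _ (Subgroup.inv_mem _ (Subgroup.mem_zpowers y)) k
    rcases h.2.2.2.2 a ha with h1 | ⟨h1, -⟩
    · have e : a⁻¹ * y * a = y := by
        nth_rw 1 [← h1]
        group
      rw [e]
      exact Subgroup.mem_zpowers y
    · have e : a⁻¹ * y * a = y⁻¹ := by
        have e2 : y = (a * y * a⁻¹)⁻¹ := by rw [h1, inv_inv]
        nth_rw 1 [e2]
        group
      rw [e]
      exact Subgroup.inv_mem _ (Subgroup.mem_zpowers y)

variable {V : Type*} [AddCommGroup V] [Module (ZMod 2) V] [Finite V]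
  (ρ : Γ →* Module.End (ZMod 2) V)

/-- A piece. -/
def Piece (W : Submodule (ZMod 2) V) (A P : Subgroup Γ) : Prop :=
  (∃ (y : Γ) (ℓ : ℕ), CycP A P y ℓ ∧ y ∉ triv ρ W) ∨ (∃ τ D : ℕ, KP A P τ D ∧ KerC ρ W P)

/-- Fixed space of a subgroup. -/
noncomputable def fxS (A : Subgroup Γ) : Submodule (ZMod 2) V := ⨅ a : A, fx (ρ (a : Γ))

theorem mem_fxS {A : Subgroup Γ} {v : V} : v ∈ fxS ρ A ↔ ∀ a ∈ A, ρ a v = v := by
  simp [fxS, Submodule.mem_iInf, mem_fx]

/-- The hypotheses of the induction. -/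
structure Setup (A : Subgroup Γ) (Ps : Set (Subgroup Γ)) (W : Submodule (ZMod 2) V) : Prop where
  inv : ∀ a ∈ A, a * a = 1
  stbA : ∀ a ∈ A, Stb (ρ a) W
  stbP : ∀ P ∈ Ps, ∀ p ∈ P, Stb (ρ p) W
  perm : ∀ a ∈ A, ∀ P ∈ Ps, cj a P ∈ Ps
  comm : ∀ P ∈ Ps, ∀ Q ∈ Ps, P ≠ Q → ∀ p ∈ P, ∀ q ∈ Q, p * q = q * p
  faith : ∀ a ∈ A, (∀ P ∈ Ps, CC P a) → a = 1
  piece : ∀ P ∈ Ps, Piece ρ W A P

theorem stb_fx {a b : Γ} (hab : a * b = b * a) {W : Submodule (ZMod 2) V} (hb : Stb (ρ b) W) :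
    Stb (ρ b) (W ⊓ fx (ρ a)) := by
  rintro v ⟨hv, hv2⟩
  refine ⟨hb v hv, mem_fx.mpr ?_⟩
  rw [← rho_mul_apply, hab, rho_mul_apply, mem_fx.mp hv2]

theorem rho_inv_one {a : Γ} (ha : a * a = 1) : ρ a * ρ a = 1 := by
  rw [← map_mul, ha, map_one]

theorem ord2_three {ℓ : ℕ} (hℓ : ℓ.Prime) (h3 : ℓ ≠ 3) : Ord2 ℓ 3 := by
  intro d hd hdvd
  by_contra hlt
  have h2 : d = 1 ∨ d = 2 := by omega
  rcases h2 with rfl | rfl
  · have : ℓ ∣ 1 := by simpa using hdvd
    exact hℓ.one_lt.ne' (Nat.dvd_one.mp this)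
  · have : ℓ ∣ 3 := by simpa using hdvd
    exact h3 ((Nat.prime_dvd_prime_iff_eq hℓ Nat.prime_three).mp this)

theorem rho_invert {a y : Γ} (h : a * y * a⁻¹ = y⁻¹) : ρ a * ρ y = ρ y⁻¹ * ρ a := by
  rw [← map_mul, ← map_mul, ← h]
  congr 1
  group

theorem y_pow_one {y : Γ} {ℓ : ℕ} (h : orderOf y = ℓ) : (ρ y) ^ ℓ = 1 := by
  rw [← map_pow, ← h, pow_orderOf_eq_one, map_one]

/-- The gain from an inverted element. -/
theorem gain_of_inv {a y : Γ} {ℓ D : ℕ} (hℓ : ℓ.Prime) (hℓ2 : ℓ ≠ 2) (hord : y ^ ℓ = 1)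
    (hD : Ord2 ℓ D) (ha : a * a = 1) (h : a * y * a⁻¹ = y⁻¹) {W : Submodule (ZMod 2) V}
    (hWa : Stb (ρ a) W) (hWy : Stb (ρ y) W) (hnt : y ∉ triv ρ W) :
    D ≤ 2 * (dm W - dm (W ⊓ fx (ρ a))) := by
  apply gain1 hℓ hℓ2 (f := ρ y) (g := ρ y⁻¹) (a := ρ a) _ hD (rho_inv_one ρ ha) (rho_invert ρ h)
    (by rw [← map_mul]; simp) (by rw [← map_mul]; simp) hWa hWy
  · intro hle
    exact hnt (fun w hw => mem_fx.mp (hle hw))
  · rw [← map_pow, hord, map_one]

/-- Persistence of pieces on fixed spaces. -/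
theorem piece_persist {W : Submodule (ZMod 2) V} {A A' P : Subgroup Γ} {a : Γ} (h : Piece ρ W A P)
    (hA' : A' ≤ A) (ha : a * a = 1) (hPa : CC P a) (hWa : Stb (ρ a) W) (hWP : ∀ p ∈ P, Stb (ρ p) W) :
    Piece ρ (W ⊓ fx (ρ a)) A' P := by
  rcases h with ⟨y, ℓ, hc, hy⟩ | ⟨τ, D, hk, hker⟩
  · refine Or.inl ⟨y, ℓ, hc.mono hA', ?_⟩
    intro hy2
    apply hy
    have hyP : y ∈ P := by
      rw [hc.1]; exact Subgroup.mem_zpowers y
    have h1 := fix_sq ρ ha (hPa y hyP) hWa (hWP y hyP) hy2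
    have hodd : Odd ℓ := hc.2.1.odd_of_ne_two hc.2.2.1
    obtain ⟨k, hk⟩ := hodd
    have e : y = (y * y) ^ (k + 1) := by
      rw [← pow_two, ← pow_mul]
      have e2 : 2 * (k + 1) = ℓ + 1 := by omega
      rw [e2, pow_succ, ← hc.2.2.2.1, pow_orderOf_eq_one, one_mul]
    rw [e]
    exact (triv ρ W).pow_mem h1 _
  · exact Or.inr ⟨τ, D, hk.mono hA', kerC_fx ρ hk.qs ha hPa hWa hWP hker⟩

/-- Numerical lemma. -/
theorem num_aux {τ D : ℕ} (h2 : 2 ≤ τ) (h4 : 4 * τ ≤ D + 1) (j : ℕ) :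
    4 * (j + 1 + τ) ≤ 2 ^ (j + 1) * D := by
  induction j with
  | zero => simp; omega
  | succ n ih =>
    have e : 2 ^ (n + 1 + 1) * D = 2 * (2 ^ (n + 1) * D) := by ring
    rw [e]
    omega

theorem num_gain {τ D k N g : ℕ} (h2 : 2 ≤ τ) (h4 : 4 * τ ≤ D + 1) (h1 : 2 ^ k ≤ 2 ^ τ * N)
    (h3 : N * D ≤ 2 * g) : 2 * k ≤ g := by
  have hN : 1 ≤ N := by
    rcases Nat.eq_zero_or_pos N with h | h
    · subst h
      have := Nat.one_le_two_pow (n := k)
      omega
    · exact h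
  by_cases hk : k ≤ τ
  · have : 1 * D ≤ N * D := Nat.mul_le_mul_right D hN
    omega
  · obtain ⟨j, rfl⟩ : ∃ j, k = τ + (j + 1) := ⟨k - τ - 1, by omega⟩
    rw [pow_add] at h1
    have h5 : 2 ^ (j + 1) ≤ N := Nat.le_of_mul_le_mul_left h1 (by positivity)
    have h6 := num_aux h2 h4 j
    have h7 : 2 ^ (j + 1) * D ≤ N * D := Nat.mul_le_mul_right D h5
    omega

/-- Gain for a cyclic piece. -/
theorem gainC {A P : Subgroup Γ} {y a : Γ} {ℓ : ℕ} {W : Submodule (ZMod 2) V} (hc : CycP A P y ℓ)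
    (hAi : ∀ a ∈ A, a * a = 1)
    (hy : y ∉ triv ρ W) (ha : a * a = 1) (haA : a ∈ A) (hnc : ¬ CC P a) (hWa : Stb (ρ a) W)
    (hWy : Stb (ρ y) W) {T : Finset Γ} (hT : ∀ t ∈ T, t ∈ A) {k : ℕ} (hTk : T.card = 2 ^ k)
    (hT2 : ∀ s ∈ T, ∀ t ∈ T, s ≠ t → ¬ CC P (s * t⁻¹)) :
    2 * k ≤ dm W - dm (W ⊓ fx (ρ a)) := by
  classical
  obtain ⟨h0, hℓ, hℓ2, hord, hact⟩ := hc
  subst h0
  have hinv : a * y * a⁻¹ = y⁻¹ ∧ ℓ ≠ 3 := by
    rcases hact a haA with h | h
    · exact absurd (cc_zpowers.mpr h) hnc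
    · exact h
  have key : ∀ s ∈ T, ∀ t ∈ T, s ≠ t → s * y * s⁻¹ ≠ t * y * t⁻¹ := by
    intro s hs t ht hne he
    apply hT2 s hs t ht hne
    rw [cc_zpowers]
    have e1 : s * t⁻¹ = t⁻¹ * s := comm_of_inv hAi (hT s hs) (A.inv_mem (hT t ht))
    have e : s * t⁻¹ * y * (s * t⁻¹)⁻¹ = t⁻¹ * (s * y * s⁻¹) * t := by
      rw [e1]; group
    rw [e, he]
    group
  have hcard : T.card ≤ 2 := by
    by_contra hgt
    push Not at hgt
    obtain ⟨s, hs, t, ht, u, hu, hst, hsu, htu⟩ := Finset.two_lt_card.mp hgt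
    have k1 := key s hs t ht hst
    have k2 := key s hs u hu hsu
    have k3 := key t ht u hu htu
    rcases hact s (hT s hs) with h1 | ⟨h1, -⟩ <;> rcases hact t (hT t ht) with h2 | ⟨h2, -⟩ <;>
      rcases hact u (hT u hu) with h3 | ⟨h3, -⟩ <;> simp_all
  have hk1 : k ≤ 1 := by
    by_contra h
    have : 2 ^ 2 ≤ 2 ^ k := Nat.pow_le_pow_right (by norm_num) (by omega)
    omega
  have hg := gain_of_inv ρ hℓ hℓ2 (by rw [← hord, pow_orderOf_eq_one]) (ord2_three hℓ hinv.2) ha hinv.1 hWa hWy hy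
  omega

/-- Existence of a transversal. -/
theorem exists_trans {A A₂ : Subgroup Γ} (hA : ∀ a ∈ A, a * a = 1) (hle : A₂ ≤ A) {n m : ℕ}
    (hn : Nat.card A = 2 ^ n) (hm : Nat.card A₂ = 2 ^ m) :
    m ≤ n ∧ ∃ T : Finset Γ, (∀ t ∈ T, t ∈ A) ∧ T.card = 2 ^ (n - m) ∧
      ∀ s ∈ T, ∀ t ∈ T, s ≠ t → s * t⁻¹ ∉ A₂ := by
  classical
  have hdvd : Nat.card A₂ ∣ Nat.card A := Subgroup.card_dvd_of_le hle
  rw [hn, hm] at hdvd
  have hmn : m ≤ n := (Nat.pow_dvd_pow_iff_le_right (by norm_num)).mp hdvd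
  refine ⟨hmn, ?_⟩
  let H : Subgroup A := A₂.subgroupOf A
  haveI : Fintype (A ⧸ H) := Fintype.ofFinite _
  let f : (A ⧸ H) → Γ := fun q => ((Quotient.out q : A) : Γ)
  have hfinj : Function.Injective f := by
    intro q q' h
    have h1 : (Quotient.out q : A) = Quotient.out q' := Subtype.ext h
    rw [← Quotient.out_eq q, ← Quotient.out_eq q', h1]
  refine ⟨Finset.univ.image f, ?_, ?_, ?_⟩
  · intro t ht
    obtain ⟨q, -, rfl⟩ := Finset.mem_image.mp ht
    exact (Quotient.out q : A).2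
  · rw [Finset.card_image_of_injective _ hfinj, Finset.card_univ, ← Nat.card_eq_fintype_card]
    have h1 := Subgroup.card_eq_card_quotient_mul_card_subgroup H
    have h2 : Nat.card H = Nat.card A₂ :=
      Nat.card_congr (Subgroup.subgroupOfEquivOfLe hle).toEquiv
    rw [h2, hn, hm] at h1
    have e : (2 : ℕ) ^ n = 2 ^ (n - m) * 2 ^ m := by
      rw [← pow_add, Nat.sub_add_cancel hmn]
    rw [e] at h1
    exact (Nat.eq_of_mul_eq_mul_right (by positivity) h1).symm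
  · intro s hs t ht hne hmem
    obtain ⟨q, -, rfl⟩ := Finset.mem_image.mp hs
    obtain ⟨q', -, rfl⟩ := Finset.mem_image.mp ht
    apply hne
    have hq : q = q' := by
      rw [← Quotient.out_eq q, ← Quotient.out_eq q']
      apply Quotient.sound'
      rw [QuotientGroup.leftRel_apply]
      show ((Quotient.out q : A) : Γ)⁻¹ * ((Quotient.out q' : A) : Γ) ∈ A₂
      have e1 := comm_of_inv hA (Quotient.out q : A).2 (A.inv_mem (Quotient.out q' : A).2)
      have e2 : ((Quotient.out q : A) : Γ)⁻¹ * ((Quotient.out q' : A) : Γ) =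
          (((Quotient.out q : A) : Γ) * ((Quotient.out q' : A) : Γ)⁻¹)⁻¹ := by
        have e3 := comm_of_inv hA (A.inv_mem (Quotient.out q : A).2) (Quotient.out q' : A).2
        rw [e3]
        group
      rw [e2]
      exact A₂.inv_mem hmem
    rw [hq]

/-- Existence of a complement to an element. -/
theorem exists_compl {A : Subgroup Γ} (hA : ∀ a ∈ A, a * a = 1) {a : Γ} (haA : a ∈ A) (ha1 : a ≠ 1) :
    ∃ A' : Subgroup Γ, A' ≤ A ∧ a ∉ A' ∧ Nat.card A = 2 * Nat.card A' := by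
  classical
  have hfin : Set.Finite {H : Subgroup Γ | H ≤ A ∧ a ∉ H} := Set.toFinite _
  have hne : {H : Subgroup Γ | H ≤ A ∧ a ∉ H}.Nonempty :=
    ⟨⊥, bot_le, by simpa using ha1⟩
  obtain ⟨H, hHm⟩ := hfin.exists_maximal hne
  obtain ⟨hH1, hH2⟩ := hHm.prop
  refine ⟨H, hH1, hH2, ?_⟩
  have hkey : ∀ b ∈ A, b ∉ H → a * b ∈ H := by
    intro b hb hbH
    by_contra hab
    have hbb := hA b hb
    let H' : Subgroup Γ :=
      { carrier := {x | x ∈ A ∧ (x ∈ H ∨ x * b ∈ H)}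
        one_mem' := ⟨A.one_mem, Or.inl H.one_mem⟩
        mul_mem' := by
          rintro x y ⟨hx, hx2⟩ ⟨hy, hy2⟩
          refine ⟨A.mul_mem hx hy, ?_⟩
          rcases hx2 with hx2 | hx2 <;> rcases hy2 with hy2 | hy2
          · exact Or.inl (H.mul_mem hx2 hy2)
          · right
            rw [mul_assoc]
            exact H.mul_mem hx2 hy2
          · right
            have e : x * y * b = (x * b) * y := by
              rw [mul_assoc, comm_of_inv hA hy hb, mul_assoc]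
            rw [e]
            exact H.mul_mem hx2 hy2
          · left
            have e : x * y = (x * b) * (y * b) := by
              have e2 : x * b * (y * b) = x * (b * y) * b := by simp only [mul_assoc]
              rw [e2, comm_of_inv hA hb hy, mul_assoc, mul_assoc, hbb, mul_one]
            rw [e]
            exact H.mul_mem hx2 hy2
        inv_mem' := by
          rintro x ⟨hx, hx2⟩
          rw [show x⁻¹ = x from inv_eq_of_mul_eq_one_left (hA x hx)]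
          exact ⟨hx, hx2⟩ }
    have h1 : H' ≤ A := fun x hx => hx.1
    have h2 : a ∉ H' := by
      rintro ⟨-, h | h⟩
      · exact hH2 h
      · exact hab h
    have h3 := hHm.le_of_ge (y := H') ⟨h1, h2⟩ (fun x hx => ⟨hH1 hx, Or.inl hx⟩)
    have h4 : b ∈ H' := ⟨hb, Or.inr (by rw [hbb]; exact H.one_mem)⟩
    exact hbH (h3 h4)
  have hidx : (H.subgroupOf A).index = 2 := by
    rw [Subgroup.index_eq_two_iff]
    refine ⟨⟨a, haA⟩, ?_⟩
    rintro ⟨b, hb⟩
    simp only [Subgroup.mem_subgroupOf, Subgroup.coe_mul]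
    by_cases hbH : b ∈ H
    · right
      refine ⟨hbH, ?_⟩
      intro h
      apply hH2
      have e : a = b⁻¹ * (b * a) := by group
      rw [e]
      exact H.mul_mem (H.inv_mem hbH) h
    · left
      refine ⟨?_, hbH⟩
      have e := comm_of_inv hA hb haA
      rw [e]
      exact hkey b hb hbH
  have h1 := Subgroup.card_mul_index (H.subgroupOf A)
  have h2 : Nat.card (H.subgroupOf A) = Nat.card H :=
    Nat.card_congr (Subgroup.subgroupOfEquivOfLe hH1).toEquiv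
  rw [h2, hidx] at h1
  omega

/-- The gain from a commutative subgroup. -/
theorem gain_sub {G : Subgroup Γ} (hcomm : ∀ x ∈ G, ∀ y ∈ G, x * y = y * x) {ℓ D : ℕ}
    (hℓ : ℓ.Prime) (hℓ2 : ℓ ≠ 2) (hG : ∀ g ∈ G, g ^ ℓ = 1) (hD : Ord2 ℓ D) {a : Γ} (ha : a * a = 1)
    (hinv : ∀ g ∈ G, a * g * a⁻¹ = g⁻¹) {W : Submodule (ZMod 2) V} (hW : ∀ g ∈ G, Stb (ρ g) W)
    (hWa : Stb (ρ a) W) {I : Type*} [Fintype I] (X : I → Γ) (hX : ∀ i, X i ∈ G)
    (C : I → Subgroup Γ) (hXC : ∀ i j, i ≠ j → X j ∈ C i)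
    (hind0 : ∀ i e, ∀ r ∈ C i, (X i) ^ e * r ∈ triv ρ W → ℓ ∣ e) :
    Fintype.card I * D ≤ 2 * (dm W - dm (W ⊓ fx (ρ a))) := by
  classical
  letI inst : CommGroup G :=
    { (inferInstance : Group G) with
      mul_comm := fun x y => Subtype.ext (hcomm x x.2 y y.2) }
  let ρE : G →* Module.End (ZMod 2) V := ρ.comp G.subtype
  let X' : I → G := fun i => ⟨X i, hX i⟩
  refine gainFam (ρ := ρE) (E := G) hℓ hℓ2 ?_ hD (rho_inv_one ρ ha) ?_ (W := W) ?_ hWa X' ?_
  · intro x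
    exact Subtype.ext (hG x x.2)
  · intro x
    exact rho_invert ρ (hinv x x.2)
  · intro x
    exact hW x x.2
  · intro e hmem i₀
    have hsplit : ∏ i, X' i ^ e i = X' i₀ ^ e i₀ * ∏ i ∈ Finset.univ.erase i₀, X' i ^ e i :=
      (Finset.mul_prod_erase _ _ (Finset.mem_univ i₀)).symm
    have hr : (∏ i ∈ Finset.univ.erase i₀, X' i ^ e i) ∈ (C i₀).subgroupOf G := by
      apply Subgroup.prod_mem
      intro j hj
      apply Subgroup.pow_mem
      rw [Subgroup.mem_subgroupOf]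
      exact hXC i₀ j (Finset.ne_of_mem_erase hj).symm
    apply hind0 i₀ (e i₀) _ hr
    rw [hsplit] at hmem
    exact hmem

theorem triv_conj {g α : Γ} {W : Submodule (ZMod 2) V} (hg : g ∈ triv ρ W) (hα : Stb (ρ α) W) :
    α⁻¹ * g * α ∈ triv ρ W := by
  intro w hw
  simp only [rho_mul_apply]
  rw [hg _ (hα w hw), rho_inv_apply]

theorem cc_conj_back {P : Subgroup Γ} {α r : Γ} (h : CC (cj α P) r) : CC P (α⁻¹ * r * α) := by
  intro v hv
  have h1 := h _ (conj_mem_cj (b := α) hv)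
  have e1 : α⁻¹ * r * α * v = α⁻¹ * (r * (α * v * α⁻¹)) * α := by group
  have e2 : v * (α⁻¹ * r * α) = α⁻¹ * ((α * v * α⁻¹) * r) * α := by group
  rw [e1, e2, h1]

/-- Gain for a quasisimple piece. -/
theorem gainK {A P : Subgroup Γ} {Ps : Set (Subgroup Γ)} {W : Submodule (ZMod 2) V} {a : Γ}
    {τ D : ℕ} (hS : Setup ρ A Ps W) (hP : P ∈ Ps) (hk : KP A P τ D) (hker : KerC ρ W P)
    (haA : a ∈ A) (hnorm : cj a P = P) (hnc : ¬ CC P a) {T : Finset Γ} (hT : ∀ t ∈ T, t ∈ A) {n : ℕ}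
    (hTk : T.card = 2 ^ n) (hT2 : ∀ s ∈ T, ∀ t ∈ T, s ≠ t → ¬ CC P (s * t⁻¹)) :
    2 * n ≤ dm W - dm (W ⊓ fx (ρ a)) := by
  classical
  obtain ⟨x, hx, ℓ, hℓ, hℓ2, hD, hord, hxnc, hinv⟩ := hk.k2 a haA hnorm hnc
  have hAi := hS.inv
  let O := T.image (fun t => cj t P)
  have hcount : T.card ≤ 2 ^ τ * O.card := by
    apply Finset.card_le_mul_card_image T (2 ^ τ)
    intro Q hQ
    obtain ⟨t₀, ht₀, rfl⟩ := Finset.mem_image.mp hQ
    have hinj : Function.Injective (fun t : Γ => t₀⁻¹ * t) := mul_right_injective _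
    rw [← Finset.card_image_of_injective _ hinj]
    apply hk.k1
    · intro t' ht'
      obtain ⟨t, ht, rfl⟩ := Finset.mem_image.mp ht'
      obtain ⟨ht1, ht2⟩ := Finset.mem_filter.mp ht
      refine ⟨A.mul_mem (A.inv_mem (hT _ ht₀)) (hT _ ht1), ?_⟩
      rw [cj_mul, ht2, ← cj_mul, inv_mul_cancel, cj_one]
    · intro s' hs' t' ht' hne
      obtain ⟨s, hs, rfl⟩ := Finset.mem_image.mp hs'
      obtain ⟨t, ht, rfl⟩ := Finset.mem_image.mp ht'
      have hst : s ≠ t := by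
        rintro rfl
        exact hne rfl
      have e : t₀⁻¹ * s * (t₀⁻¹ * t)⁻¹ = s * t⁻¹ := by
        have hs1 := hT s (Finset.mem_filter.mp hs).1
        have ht1 := hT t (Finset.mem_filter.mp ht).1
        have e2 := comm_of_inv hAi (A.inv_mem (hT _ ht₀)) (A.mul_mem hs1 (A.inv_mem ht1))
        have e3 : t₀⁻¹ * s * (t₀⁻¹ * t)⁻¹ = (t₀⁻¹ * (s * t⁻¹)) * t₀ := by group
        rw [e3, e2]
        group
      rw [e]
      exact hT2 s (Finset.mem_filter.mp hs).1 t (Finset.mem_filter.mp ht).1 hst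
  have hpick : ∀ i : O, ∃ t, t ∈ T ∧ cj t P = (i : Subgroup Γ) := by
    intro i
    obtain ⟨t, ht, h⟩ := Finset.mem_image.mp i.2
    exact ⟨t, ht, h⟩
  choose α hα hα2 using hpick
  let X : O → Γ := fun i => α i * x * (α i)⁻¹
  have hXm : ∀ i : O, X i ∈ (i : Subgroup Γ) := by
    intro i
    rw [← hα2 i]
    exact conj_mem_cj hx
  have hPs : ∀ i : O, (i : Subgroup Γ) ∈ Ps := by
    intro i
    rw [← hα2 i]
    exact hS.perm _ (hT _ (hα i)) P hP
  have hgen : ∀ u ∈ Set.range X, ∀ v ∈ Set.range X, u * v = v * u := by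
    rintro _ ⟨i, rfl⟩ _ ⟨j, rfl⟩
    by_cases hij : i = j
    · rw [hij]
    · exact hS.comm _ (hPs i) _ (hPs j) (fun h => hij (Subtype.ext h)) _ (hXm i) _ (hXm j)
  let G : Subgroup Γ := Subgroup.closure (Set.range X)
  have hcomm : ∀ x ∈ G, ∀ y ∈ G, x * y = y * x := by
    intro x hx y hy
    exact congrArg Subtype.val ((Subgroup.closureCommGroupOfComm hgen).mul_comm ⟨x, hx⟩ ⟨y, hy⟩)
  have hxl : x ^ ℓ = 1 := by rw [← hord, pow_orderOf_eq_one]
  have hGl : ∀ g ∈ G, g ^ ℓ = 1 := by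
    intro g hg
    induction hg using Subgroup.closure_induction with
    | mem u hu =>
      obtain ⟨i, rfl⟩ := hu
      show (α i * x * (α i)⁻¹) ^ ℓ = 1
      rw [conj_pow, hxl]
      simp
    | one => simp
    | mul u v hu hv ihu ihv =>
      have h1 : Commute u v := hcomm u hu v hv
      rw [h1.mul_pow, ihu, ihv, one_mul]
    | inv u hu ih => rw [inv_pow, ih, inv_one]
  have hGinv : ∀ g ∈ G, a * g * a⁻¹ = g⁻¹ := by
    intro g hg
    induction hg using Subgroup.closure_induction with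
    | mem u hu =>
      obtain ⟨i, rfl⟩ := hu
      show a * (α i * x * (α i)⁻¹) * a⁻¹ = (α i * x * (α i)⁻¹)⁻¹
      have h1 := comm_of_inv hAi haA (hT _ (hα i))
      have e : a * (α i * x * (α i)⁻¹) * a⁻¹ = (a * α i) * x * (a * α i)⁻¹ := by group
      have e2 : (α i * a) * x * (α i * a)⁻¹ = α i * (a * x * a⁻¹) * (α i)⁻¹ := by group
      rw [e, h1, e2, hinv]
      group
    | one => simp
    | mul u v hu hv ihu ihv =>
      have e : a * (u * v) * a⁻¹ = (a * u * a⁻¹) * (a * v * a⁻¹) := by group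
      rw [e, ihu, ihv, mul_inv_rev, ← mul_inv_rev, ← mul_inv_rev, hcomm u hu v hv]
    | inv u hu ih =>
      have e : a * u⁻¹ * a⁻¹ = (a * u * a⁻¹)⁻¹ := by group
      rw [e, ih]
  have hGW : ∀ g ∈ G, Stb (ρ g) W := by
    intro g hg
    induction hg using Subgroup.closure_induction with
    | mem u hu =>
      obtain ⟨i, rfl⟩ := hu
      exact hS.stbP _ (hPs i) _ (hXm i)
    | one => intro w hw; simpa using hw
    | mul u v hu hv ihu ihv =>
      intro w hw
      rw [rho_mul_apply]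
      exact ihu _ (ihv w hw)
    | inv u hu ih => exact stb_inv ρ ih
  have hfin := gain_sub ρ hcomm hℓ hℓ2 hGl hD (hAi a haA) hGinv hGW (hS.stbA a haA) X
    (fun i => Subgroup.subset_closure ⟨i, rfl⟩) (fun i => cen (i : Subgroup Γ))
    (by
      intro i j hij u hu
      exact hS.comm _ (hPs j) _ (hPs i) (fun h => hij (Subtype.ext h.symm)) _ (hXm j) _ hu)
    (by
      intro i e r hr hmem
      by_contra hnd
      set β := α i with hβ
      have hβA : β ∈ A := hT _ (hα i)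
      have h1 := triv_conj ρ hmem (hS.stbA _ hβA)
      have hr2 := cc_conj_back (P := P) (α := β) (r := r) (by rw [hα2 i]; exact hr)
      have e1 : β⁻¹ * ((X i) ^ e * r) * β = x ^ e * (β⁻¹ * r * β) := by
        show β⁻¹ * ((β * x * β⁻¹) ^ e * r) * β = _
        rw [conj_pow]
        group
      rw [e1] at h1
      have hcop : e.Coprime (orderOf x) := by
        rw [hord]
        exact ((Nat.Prime.coprime_iff_not_dvd hℓ).mpr hnd).symm
      obtain ⟨m, hm⟩ := exists_pow_eq_self_of_coprime hcop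
      apply hxnc
      rw [← hm]
      apply CC.pow
      apply hk.qs.cen2 _ (P.pow_mem hx e)
      intro v hv
      have h2 := triv_comm ρ h1 (hS.stbP P hP v hv)
      have e2 : x ^ e * (β⁻¹ * r * β) * v * (x ^ e * (β⁻¹ * r * β))⁻¹ * v⁻¹ =
          x ^ e * v * (x ^ e)⁻¹ * v⁻¹ := by
        generalize β⁻¹ * r * β = z at hr2
        have e3 := hr2 v hv
        calc x ^ e * z * v * (x ^ e * z)⁻¹ * v⁻¹ = x ^ e * (z * v) * z⁻¹ * (x ^ e)⁻¹ * v⁻¹ := by
              group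
          _ = x ^ e * (v * z) * z⁻¹ * (x ^ e)⁻¹ * v⁻¹ := by rw [e3]
          _ = _ := by group
      rw [e2] at h2
      apply hker _ _ h2
      exact P.mul_mem (P.mul_mem (P.mul_mem (P.pow_mem hx e) hv) (P.inv_mem (P.pow_mem hx e))) (P.inv_mem hv))
  rw [Fintype.card_coe] at hfin
  exact num_gain hk.h2 hk.h4 (by rw [← hTk]; exact hcount) hfin

/-- The support. -/
def Supp (Ps : Set (Subgroup Γ)) (a : Γ) : Set (Subgroup Γ) := {P | P ∈ Ps ∧ ¬ CC P a}

theorem cc_cj_of {a b : Γ} {S : Subgroup Γ} (h : CC S a) (hab : a * b = b * a) : CC (cj b S) a := by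
  intro u hu
  have h1 := h _ (mem_cj.mp hu)
  have e1 : a * u = b * (a * (b⁻¹ * u * b)) * b⁻¹ := by
    have e2 : b * a = a * b := hab.symm
    calc a * u = a * b * (b⁻¹ * u * b) * b⁻¹ := by group
      _ = b * a * (b⁻¹ * u * b) * b⁻¹ := by rw [hab]
      _ = _ := by group
  have e3 : u * a = b * ((b⁻¹ * u * b) * a) * b⁻¹ := by
    calc u * a = b * (b⁻¹ * u * b) * b⁻¹ * a := by group
      _ = b * (b⁻¹ * u * b) * (b⁻¹ * a * b) * b⁻¹ := by group
      _ = b * (b⁻¹ * u * b) * a * b⁻¹ := by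
        have : b⁻¹ * a * b = a := by
          rw [mul_assoc, hab]
          group
        rw [this]
      _ = _ := by group
  rw [e1, e3, h1]

theorem supp_perm {Ps : Set (Subgroup Γ)} {a b : Γ} (hab : a * b = b * a) (hb : b * b = 1)
    (hperm : ∀ P ∈ Ps, cj b P ∈ Ps) {P : Subgroup Γ} (hP : P ∈ Supp Ps a) : cj b P ∈ Supp Ps a := by
  refine ⟨hperm P hP.1, fun h => hP.2 ?_⟩
  have := cc_cj_of h hab
  rwa [cj_self hb] at this

theorem dm_fix_mono {W : Submodule (ZMod 2) V} {A A' : Subgroup Γ} {a : Γ} (haA : a ∈ A) (hA' : A' ≤ A) :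
    dm (W ⊓ fxS ρ A) ≤ dm ((W ⊓ fx (ρ a)) ⊓ fxS ρ A') := by
  apply Submodule.finrank_mono
  rintro v ⟨h1, h2⟩
  have h3 := (mem_fxS ρ).mp h2
  exact ⟨⟨h1, mem_fx.mpr (h3 a haA)⟩, (mem_fxS ρ).mpr (fun b hb => h3 b (hA' hb))⟩

/-- The induction statement. -/
def TT (ρ : Γ →* Module.End (ZMod 2) V) (n : ℕ) : Prop :=
  ∀ (A : Subgroup Γ) (Ps : Set (Subgroup Γ)) (W : Submodule (ZMod 2) V), Setup ρ A Ps W →
    Nat.card A = 2 ^ n → 2 * n + dm (W ⊓ fxS ρ A) ≤ dm W

/-- The first step: centralizing. -/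
theorem step1 {A P : Subgroup Γ} {Ps : Set (Subgroup Γ)} {W : Submodule (ZMod 2) V} {a : Γ} {n : ℕ}
    (ih : ∀ m < n, TT ρ m) (hS : Setup ρ A Ps W) (hn : Nat.card A = 2 ^ n) (haA : a ∈ A)
    (hmin : ∀ b ∈ A, b ≠ 1 → (Supp Ps a).ncard ≤ (Supp Ps b).ncard)
    (hP : P ∈ Supp Ps a) (hnorm : cj a P = P) :
    2 * n + dm (W ⊓ fxS ρ A) ≤ dm W := by
  classical
  have hAi := hS.inv
  have ha := hAi a haA
  have hWa := hS.stbA a haA
  let A₂ : Subgroup Γ := A ⊓ cen P
  have hA₂ : A₂ ≤ A := inf_le_left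
  let Ps' : Set (Subgroup Γ) := Ps \ Supp Ps a
  have hcc : ∀ S ∈ Ps', CC S a := by
    intro S hS'
    by_contra h
    exact hS'.2 ⟨hS'.1, h⟩
  have hdvd : Nat.card A₂ ∣ 2 ^ n := by
    rw [← hn]
    exact Subgroup.card_dvd_of_le hA₂
  obtain ⟨m, -, hm⟩ := (Nat.dvd_prime_pow Nat.prime_two).mp hdvd
  obtain ⟨hmn, T, hT, hTk, hT2⟩ := exists_trans hAi hA₂ hn hm
  have hT2' : ∀ s ∈ T, ∀ t ∈ T, s ≠ t → ¬ CC P (s * t⁻¹) := by
    intro s hs t ht hne hcc
    exact hT2 s hs t ht hne ⟨A.mul_mem (hT s hs) (A.inv_mem (hT t ht)), hcc⟩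
  have hmlt : m < n := by
    rcases hmn.lt_or_eq with h | h
    · exact h
    · exfalso
      subst h
      have hc : Nat.card A₂ = Nat.card A := by rw [hm, hn]
      have : A₂ = A := Subgroup.eq_of_le_of_card_ge hA₂ hc.ge
      have h1 : a ∈ A₂ := by rw [this]; exact haA
      exact hP.2 h1.2
  have hS' : Setup ρ A₂ Ps' (W ⊓ fx (ρ a)) := by
    refine ⟨fun b hb => hAi b (hA₂ hb), ?_, ?_, ?_, ?_, ?_, ?_⟩
    · intro b hb
      exact stb_fx ρ (comm_of_inv hAi haA (hA₂ hb)) (hS.stbA b (hA₂ hb))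
    · intro S hS2 p hp
      exact stb_fx ρ (hcc S hS2 p hp) (hS.stbP S hS2.1 p hp)
    · intro b hb S hS2
      refine ⟨hS.perm b (hA₂ hb) S hS2.1, fun h => ?_⟩
      exact h.2 (cc_cj_of (hcc S hS2) (comm_of_inv hAi haA (hA₂ hb)))
    · intro S hS2 Q hQ2 hne
      exact hS.comm S hS2.1 Q hQ2.1 hne
    · intro b hb hall
      by_contra hb1
      have h1 := hmin b (hA₂ hb) hb1
      have hsub : Supp Ps b ⊂ Supp Ps a := by
        refine ⟨?_, ?_⟩
        · intro S hS2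
          refine ⟨hS2.1, fun h => ?_⟩
          exact hS2.2 (hall S ⟨hS2.1, fun h2 => h2.2 h⟩)
        · intro hsub
          have := hsub hP
          exact this.2 hb.2
      have := Set.ncard_lt_ncard hsub (Set.toFinite _)
      omega
    · intro S hS2
      exact piece_persist ρ (hS.piece S hS2.1) hA₂ ha (hcc S hS2) hWa (hS.stbP S hS2.1)
  have h1 := ih m hmlt A₂ Ps' _ hS' hm
  have h2 := dm_fix_mono (W := W) ρ haA hA₂
  have h3 : 2 * (n - m) ≤ dm W - dm (W ⊓ fx (ρ a)) := by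
    rcases hS.piece P hP.1 with ⟨y, ℓ, hc, hy⟩ | ⟨τ, D, hk, hker⟩
    · have hyP : y ∈ P := by
        rw [hc.1]; exact Subgroup.mem_zpowers y
      exact gainC ρ hc hAi hy ha haA hP.2 hWa (hS.stbP P hP.1 y hyP) hT hTk hT2'
    · exact gainK ρ hS hP.1 hk hker haA hnorm hP.2 hT hTk hT2'
  have h4 := dm_inf_le_left W (fx (ρ a))
  omega

/-- Conjugates of diagonals. -/
theorem cj_DD {a b : Γ} {P : Subgroup Γ} (hab : a * b = b * a) : cj b (DD a P) = DD a (cj b P) := by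
  unfold DD cj
  rw [MonoidHom.map_closure]
  congr 1
  ext g
  constructor
  · rintro ⟨_, ⟨p, hp, rfl⟩, rfl⟩
    refine ⟨b * p * b⁻¹, ⟨p, hp, rfl⟩, ?_⟩
    exact dl_conj hab
  · rintro ⟨_, ⟨p, hp, rfl⟩, rfl⟩
    refine ⟨dl a p, ⟨p, hp, rfl⟩, ?_⟩
    exact dl_conj hab

/-- The second step: diagonals. -/
theorem step2 {A : Subgroup Γ} {Ps : Set (Subgroup Γ)} {W : Submodule (ZMod 2) V} {a : Γ} {n : ℕ}
    (ih : ∀ m < n, TT ρ m) (hS : Setup ρ A Ps W) (hn : Nat.card A = 2 ^ n) (haA : a ∈ A) (ha1 : a ≠ 1)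
    (hmin : ∀ b ∈ A, b ≠ 1 → (Supp Ps a).ncard ≤ (Supp Ps b).ncard)
    (hnorm : ∀ P ∈ Supp Ps a, cj a P ≠ P) :
    2 * n + dm (W ⊓ fxS ρ A) ≤ dm W := by
  classical
  have hAi := hS.inv
  have ha := hAi a haA
  have hWa := hS.stbA a haA
  obtain ⟨A', hA', haA', hcard⟩ := exists_compl hAi haA ha1
  have hcm : ∀ b ∈ A, a * b = b * a := fun b hb => comm_of_inv hAi haA hb
  -- pieces in the support are quasisimple
  have hKP : ∀ P ∈ Supp Ps a, ∃ τ D : ℕ, KP A P τ D ∧ KerC ρ W P := by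
    intro P hP
    rcases hS.piece P hP.1 with ⟨y, ℓ, hc, hy⟩ | h
    · exact absurd (hc.norm haA) (hnorm P hP)
    · exact h
  have hQ : ∀ P ∈ Supp Ps a, cj a P ∈ Ps := fun P hP => hS.perm a haA P hP.1
  have hQs : ∀ P ∈ Supp Ps a, cj a P ∈ Supp Ps a :=
    fun P hP => supp_perm (hcm a haA) ha (hS.perm a haA) hP
  have hc : ∀ P ∈ Supp Ps a, ∀ p ∈ P, ∀ q ∈ cj a P, p * q = q * p := by
    intro P hP
    exact hS.comm P hP.1 _ (hQ P hP) (hnorm P hP).symm
  have hnormD : ∀ P ∈ Supp Ps a, ∀ b ∈ A, cj b (DD a P) = DD a P → cj b P = P ∨ cj b P = cj a P := by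
    intro P hP b hb hbD
    obtain ⟨τ, D, hk, -⟩ := hKP P hP
    have hR : cj b P ∈ Ps := hS.perm b hb P hP.1
    apply norm_DD hk.qs ha (hcm b hb) (hc P hP) _ _ hbD
    · intro p hp q hq hne
      exact hS.comm P hP.1 _ hR hne.symm p hp q hq
    · intro p hp q hq hne
      exact hS.comm P hP.1 _ (hS.perm a haA _ hR) hne.symm p hp q hq
  let Ps' : Set (Subgroup Γ) := (Ps \ Supp Ps a) ∪ (DD a '' Supp Ps a)
  have hcc : ∀ S, S ∈ Ps → S ∉ Supp Ps a → CC S a := by
    intro S hS' hS2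
    by_contra h
    exact hS2 ⟨hS', h⟩
  have hstbD : ∀ P ∈ Supp Ps a, ∀ p ∈ P, Stb (ρ (dl a p)) W := by
    intro P hP p hp w hw
    unfold dl
    rw [rho_mul_apply]
    exact hS.stbP P hP.1 p hp _ (hS.stbP _ (hQ P hP) _ (conj_mem_cj hp) w hw)
  have hne : (Supp Ps a).Nonempty := by
    by_contra hem
    apply ha1
    apply hS.faith a haA
    intro P hP
    by_contra h
    exact hem ⟨P, hP, h⟩
  -- the setup
  have hS' : Setup ρ A' Ps' (W ⊓ fx (ρ a)) := by
    refine ⟨fun b hb => hAi b (hA' hb), ?_, ?_, ?_, ?_, ?_, ?_⟩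
    · intro b hb
      exact stb_fx ρ (hcm b (hA' hb)) (hS.stbA b (hA' hb))
    · rintro S (hS2 | ⟨P, hP, rfl⟩) p hp
      · exact stb_fx ρ (hcc S hS2.1 hS2.2 p hp) (hS.stbP S hS2.1 p hp)
      · obtain ⟨q, hq, rfl⟩ := (mem_DD (hc P hP)).mp hp
        exact stb_fx ρ (dl_comm_a ha (hc P hP) hq) (hstbD P hP q hq)
    · rintro b hb S (hS2 | ⟨P, hP, rfl⟩)
      · left
        refine ⟨hS.perm b (hA' hb) S hS2.1, fun h => ?_⟩
        exact h.2 (cc_cj_of (hcc S hS2.1 hS2.2) (hcm b (hA' hb)))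
      · right
        refine ⟨cj b P, supp_perm (hcm b (hA' hb)) (hAi b (hA' hb)) (hS.perm b (hA' hb)) hP, ?_⟩
        exact (cj_DD (hcm b (hA' hb))).symm
    · rintro S (hS2 | ⟨P, hP, rfl⟩) R (hR2 | ⟨P', hP', rfl⟩) hne' p hp q hq
      · exact hS.comm S hS2.1 R hR2.1 hne' p hp q hq
      · obtain ⟨r, hr, rfl⟩ := (mem_DD (hc P' hP')).mp hq
        have h1 : S ≠ P' := fun h => hS2.2 (h ▸ hP')
        have h2 : S ≠ cj a P' := fun h => hS2.2 (h ▸ hQs P' hP')
        have e1 := hS.comm S hS2.1 P' hP'.1 h1 p hp r hr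
        have e2 := hS.comm S hS2.1 _ (hQ P' hP') h2 p hp _ (conj_mem_cj (b := a) hr)
        unfold dl
        generalize a * r * a⁻¹ = r' at e2
        calc p * (r * r') = (p * r) * r' := (mul_assoc _ _ _).symm
          _ = (r * p) * r' := by rw [e1]
          _ = r * (p * r') := mul_assoc _ _ _
          _ = r * (r' * p) := by rw [e2]
          _ = _ := (mul_assoc _ _ _).symm
      · obtain ⟨r, hr, rfl⟩ := (mem_DD (hc P hP)).mp hp
        have h1 : R ≠ P := fun h => hR2.2 (h ▸ hP)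
        have h2 : R ≠ cj a P := fun h => hR2.2 (h ▸ hQs P hP)
        have e1 := hS.comm R hR2.1 P hP.1 h1 q hq r hr
        have e2 := hS.comm R hR2.1 _ (hQ P hP) h2 q hq _ (conj_mem_cj (b := a) hr)
        unfold dl
        generalize a * r * a⁻¹ = r' at e2
        symm
        calc q * (r * r') = (q * r) * r' := (mul_assoc _ _ _).symm
          _ = (r * q) * r' := by rw [e1]
          _ = r * (q * r') := mul_assoc _ _ _
          _ = r * (r' * q) := by rw [e2]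
          _ = _ := (mul_assoc _ _ _).symm
      · obtain ⟨r, hr, rfl⟩ := (mem_DD (hc P hP)).mp hp
        obtain ⟨s, hs, rfl⟩ := (mem_DD (hc P' hP')).mp hq
        have h1 : P ≠ P' := fun h => hne' (by rw [h])
        have h2 : P ≠ cj a P' := fun h => hne' (by rw [h, DD_cj ha (hc P' hP')])
        have h3 : cj a P ≠ P' := fun h => hne' (by rw [← h, DD_cj ha (hc P hP)])
        have h4 : cj a P ≠ cj a P' := fun h => h1 (by
          rw [← cj_self ha P, h, cj_self ha])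
        have e1 := hS.comm P hP.1 P' hP'.1 h1 r hr s hs
        have e2 := hS.comm P hP.1 _ (hQ P' hP') h2 r hr _ (conj_mem_cj (b := a) hs)
        have e3 := hS.comm _ (hQ P hP) P' hP'.1 h3 _ (conj_mem_cj (b := a) hr) s hs
        have e4 := hS.comm _ (hQ P hP) _ (hQ P' hP') h4 _ (conj_mem_cj (b := a) hr) _ (conj_mem_cj (b := a) hs)
        unfold dl
        generalize a * r * a⁻¹ = r' at e2 e3 e4
        generalize a * s * a⁻¹ = s' at e2 e3 e4
        have c1 : Commute r s := e1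
        have c2 : Commute r s' := e2
        have c3 : Commute r' s := e3
        have c4 : Commute r' s' := e4
        exact ((c1.mul_right c2).mul_left (c3.mul_right c4)).eq
    · -- faithfulness
      intro b hb hall
      by_contra hb1
      have hbA := hA' hb
      have h1 := hmin b hbA hb1
      have hsub : Supp Ps b ⊆ Supp Ps a := by
        intro S hS2
        refine ⟨hS2.1, fun h => ?_⟩
        exact hS2.2 (hall S (Or.inl ⟨hS2.1, fun h2 => h2.2 h⟩))
      have heq : Supp Ps b = Supp Ps a := Set.eq_of_subset_of_ncard_le hsub h1 (Set.toFinite _)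
      apply haA'
      -- `a * b` centralizes everything
      have hab1 : a * b = 1 := by
        apply hS.faith _ (A.mul_mem haA hbA)
        intro P hP
        by_cases hPa : P ∈ Supp Ps a
        · -- `b` normalizes the diagonal
          obtain ⟨τ, D, hk, -⟩ := hKP P hPa
          have hDb : CC (DD a P) b := hall _ (Or.inr ⟨P, hPa, rfl⟩)
          have hbD : cj b (DD a P) = DD a P := by
            apply le_antisymm
            · rintro _ ⟨g, hg, rfl⟩
              show b * g * b⁻¹ ∈ _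
              rw [hDb g hg]
              simpa using hg
            · intro g hg
              refine ⟨g, hg, ?_⟩
              show b * g * b⁻¹ = g
              rw [hDb g hg]
              simp
          have hn := hnormD P hPa b hbA hbD
          have hn2 := pr_norm (b := b) ha hn
          have hcD : CC (DD a P) (pr a P b * b) := (pr_cc (hc P hPa) ha).mul hDb
          have hcP : CC P (pr a P b * b) := by
            by_contra hnc
            obtain ⟨x, hx, ℓ, hℓ, hℓ2, -, hord, hxnc, hinv⟩ :=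
              hk.k2 _ (A.mul_mem (pr_mem haA) hbA) hn2 hnc
            have e1 := dl_conj (a := a) (b := pr a P b * b) (p := x) (pr_comm hAi haA hbA)
            rw [hinv, dl_inv (hc P hPa) hx, hcD _ (dl_mem (hc P hPa) hx)] at e1
            have e2 : dl a x = (dl a x)⁻¹ := by
              rw [← e1]
              exact (mul_inv_cancel_right _ _).symm
            have e3 : dl a (x * x) = 1 := by
              rw [dl_mul (hc P hPa) hx hx]
              nth_rw 1 [e2]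
              simp
            have h5 := dl_eq_one_cc (hc P hPa) (P.mul_mem hx hx) e3
            apply hxnc
            have hodd : Odd ℓ := hℓ.odd_of_ne_two hℓ2
            obtain ⟨k, hk'⟩ := hodd
            have e4 : x = (x * x) ^ (k + 1) := by
              rw [← pow_two, ← pow_mul]
              have e5 : 2 * (k + 1) = ℓ + 1 := by omega
              rw [e5, pow_succ, ← hord, pow_orderOf_eq_one, one_mul]
            rw [e4]
            exact h5.pow _
          have hPb : P ∈ Supp Ps b := by rw [heq]; exact hPa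
          unfold pr at hcP
          split_ifs at hcP with h3
          · rw [one_mul] at hcP
            exact absurd hcP hPb.2
          · exact hcP
        · have h2 : CC P a := hcc P hP hPa
          have h3 : CC P b := hall P (Or.inl ⟨hP, hPa⟩)
          exact h2.mul h3
      have e : a = b := by
        have e2 : a = b⁻¹ := eq_inv_of_mul_eq_one_left hab1
        rw [e2]
        exact inv_eq_of_mul_eq_one_left (hAi b hbA)
      rw [e]
      exact hb
    · rintro S (hS2 | ⟨P, hP, rfl⟩)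
      · exact piece_persist ρ (hS.piece S hS2.1) hA' ha (hcc S hS2.1 hS2.2) hWa (hS.stbP S hS2.1)
      · obtain ⟨τ, D, hk, hker⟩ := hKP P hP
        refine Or.inr ⟨τ, D, kp_DD hk hAi haA hA' haA' (hc P hP) (hnormD P hP), ?_⟩
        exact kerC_DD ρ hk.qs ha (hc P hP) hWa (hS.stbP P hP.1) (hS.stbP _ (hQ P hP)) hker
  -- application of the induction hypothesis
  have hn1 : 1 ≤ n := by
    rcases Nat.eq_zero_or_pos n with h | h
    · subst h
      have h1 : Nat.card A' = 0 := by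
        have : Nat.card A = 1 := by simpa using hn
        omega
      have h2 : 0 < Nat.card A' := Nat.card_pos
      omega
    · exact h
  have hcard' : Nat.card A' = 2 ^ (n - 1) := by
    have e : (2 : ℕ) ^ n = 2 * 2 ^ (n - 1) := by
      rw [← pow_succ', Nat.sub_add_cancel hn1]
    rw [hn, e] at hcard
    omega
  have h1 := ih (n - 1) (by omega) A' Ps' _ hS' hcard'
  have h2 := dm_fix_mono (W := W) ρ haA hA'
  -- the gain
  have h3 : 2 ≤ dm W - dm (W ⊓ fx (ρ a)) := by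
    obtain ⟨P, hP⟩ := hne
    obtain ⟨τ, D, hk, hker⟩ := hKP P hP
    obtain ⟨x, hx, ℓ, hℓ, hℓ2, hℓ3, hord, hxnc⟩ := hk.k3
    have hcP := hc P hP
    have hxl : x ^ ℓ = 1 := by rw [← hord, pow_orderOf_eq_one]
    have ha' : a⁻¹ = a := inv_eq_of_mul_eq_one_left ha
    have hcom : x * (a * x * a⁻¹)⁻¹ = (a * x * a⁻¹)⁻¹ * x := by
      have h5 : Commute x (a * x * a⁻¹) := hcP x hx _ (conj_mem_cj hx)
      exact h5.inv_right.eq
    set z := x * (a * x * a⁻¹)⁻¹ with hz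
    have hz1 : z ^ ℓ = 1 := by
      have h5 : Commute x (a * x * a⁻¹)⁻¹ := hcom
      rw [hz, h5.mul_pow, inv_pow, conj_pow, hxl]
      simp
    have hzi : a * z * a⁻¹ = z⁻¹ := by
      rw [hz]
      have e : a * (x * (a * x * a⁻¹)⁻¹) * a⁻¹ = (a * x * a⁻¹) * (a * (a * x * a⁻¹)⁻¹ * a⁻¹) := by group
      have e2 : a * (a * x * a⁻¹)⁻¹ * a⁻¹ = x⁻¹ := by
        rw [ha']
        have e3 : a * (a * x * a)⁻¹ * a = (a * a) * x⁻¹ * (a * a) := by
          rw [mul_inv_rev, mul_inv_rev, ha']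
          simp only [mul_assoc]
        rw [e3, ha]
        simp
      rw [e, e2, mul_inv_rev, inv_inv]
    have hzW : Stb (ρ z) W := by
      intro w hw
      rw [hz, rho_mul_apply]
      apply hS.stbP P hP.1 x hx
      exact hS.stbP _ (hQ P hP) _ ((cj a P).inv_mem (conj_mem_cj hx)) w hw
    have hznt : z ∉ triv ρ W := by
      intro hzt
      apply hxnc
      apply hk.qs.cen2 x hx
      intro u hu
      have h5 := triv_comm ρ hzt (hS.stbP P hP.1 u hu)
      have h6 : z * u * z⁻¹ * u⁻¹ = x * u * x⁻¹ * u⁻¹ := by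
        rw [hz]
        have h7 : (a * x * a⁻¹)⁻¹ * u = u * (a * x * a⁻¹)⁻¹ := by
          have h8 : Commute u (a * x * a⁻¹)⁻¹ :=
            (hcP u hu _ ((cj a P).inv_mem (conj_mem_cj hx)))
          exact h8.eq.symm
        generalize (a * x * a⁻¹)⁻¹ = q at h7
        calc x * q * u * (x * q)⁻¹ * u⁻¹ = x * (q * u) * q⁻¹ * x⁻¹ * u⁻¹ := by group
          _ = x * (u * q) * q⁻¹ * x⁻¹ * u⁻¹ := by rw [h7]
          _ = _ := by group
      rw [h6] at h5
      apply hker _ _ h5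
      exact P.mul_mem (P.mul_mem (P.mul_mem hx hu) (P.inv_mem hx)) (P.inv_mem hu)
    have h5 := gain_of_inv ρ hℓ hℓ2 hz1 (ord2_three hℓ hℓ3) ha hzi hWa hzW hznt
    omega
  have h4 := dm_inf_le_left W (fx (ρ a))
  omega

/-- The main theorem on pieces. -/
theorem main_pieces (n : ℕ) : TT ρ n := by
  induction n using Nat.strong_induction_on with
  | _ n ih =>
  intro A Ps W hS hn
  classical
  by_cases hA : A = ⊥
  · subst hA
    have h1 : n = 0 := by
      have h2 : (2 : ℕ) ^ n = 1 := by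
        rw [← hn]
        simp
      exact Nat.pow_eq_one.mp h2 |>.resolve_left (by norm_num)
    subst h1
    simpa using dm_inf_le_left W (fxS ρ ⊥)
  · -- a minimal support element
    have hex : {a : Γ | a ∈ A ∧ a ≠ 1}.Nonempty := by
      obtain ⟨a, ha⟩ := (Subgroup.ne_bot_iff_exists_ne_one (H := A)).mp hA
      exact ⟨(a : Γ), a.2, fun h1 => ha (Subtype.ext h1)⟩
    obtain ⟨a, ⟨haA, ha1⟩, hmin⟩ := Set.exists_min_image _ (fun a => (Supp Ps a).ncard) (Set.toFinite _) hex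
    have hmin' : ∀ b ∈ A, b ≠ 1 → (Supp Ps a).ncard ≤ (Supp Ps b).ncard :=
      fun b hb hb1 => hmin b ⟨hb, hb1⟩
    by_cases hcase : ∃ P ∈ Supp Ps a, cj a P = P
    · obtain ⟨P, hP, hnorm⟩ := hcase
      exact step1 ρ ih hS hn haA hmin' hP hnorm
    · push Not at hcase
      exact step2 ρ ih hS hn haA ha1 hmin' hcase

end Cfsg.Agent.Lib.TwoFactB2
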