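import Mathlib
import Cfsg.Prelude.Def_LocalEven
import Cfsg.Prelude.Def_CaseTheorems
import Cfsg.Agent.Lib.TwoFactB2
import Cfsg.Agent.Lib.LocalCore
import Cfsg.Agent.Lib.InvolvesAPI
import Cfsg.Agent.Lib.ThreeTransS3

/-!
# Quasisimple groups and the interface of the two families
-/

set_option autoImplicit false
set_option linter.unusedSectionVars false
set_option linter.unusedVariables false

open scoped commutatorElement

namespace Cfsg.Agent.Lib.TwoFactC1

open Cfsg Cfsg.Agent.Lib.TwoFactA Cfsg.Agent.Lib.TwoFactB Cfsg.Agent.Lib.TwoFactB2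
open Cfsg.Agent.Lib.LocalCore Cfsg.Agent.Lib.InvolvesAPI

/-- A section given by an inverted element of order three. -/
theorem S3_of_inverted {G : Type*} [Group G] {d r : G} (hd : d * d = 1) (hr1 : r ≠ 1) (hr3 : r ^ 3 = 1)
    (hinv : d * r * d⁻¹ = r⁻¹) : Involves (Equiv.Perm (Fin 3)) G := by
  have hd' : d⁻¹ = d := inv_eq_of_mul_eq_one_left hd
  rw [hd'] at hinv
  have he : (d * r) * (d * r) = 1 := by
    rw [← mul_assoc, hinv, inv_mul_cancel]
  have e1 : r * d = d * r⁻¹ := by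
    have h1 : d * r⁻¹ * d = r := by
      have h2 : (d * r * d)⁻¹ = r := by rw [hinv, inv_inv]
      rw [mul_inv_rev, mul_inv_rev, hd', ← mul_assoc] at h2
      exact h2
    calc r * d = (d * r⁻¹ * d) * d := by rw [h1]
      _ = d * r⁻¹ * (d * d) := by simp only [mul_assoc]
      _ = _ := by rw [hd, mul_one]
  have e2 : r⁻¹ = r * r := by
    rw [inv_eq_iff_mul_eq_one, ← mul_assoc, ← pow_two, ← pow_succ]
    exact hr3
  have hb : d * (d * r) * d = (d * r) * d * (d * r) := by
    have e3 : d * (d * r) * d = r * d := by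
      rw [← mul_assoc, hd, one_mul]
    have e4 : (d * r) * d * (d * r) = d * (r * r) := by
      calc (d * r) * d * (d * r) = d * r * (d * d) * r := by simp only [mul_assoc]
        _ = _ := by rw [hd, mul_one, mul_assoc]
    rw [e3, e4, e1, e2]
  have hd1 : d ≠ 1 := by
    rintro rfl
    apply hr1
    have h1 : r = r⁻¹ := by simpa using hinv
    have h2 : r * r = 1 := by
      nth_rw 1 [h1]
      simp
    have h3 : r ^ 3 = r * (r * r) := by
      rw [pow_succ, pow_two, mul_assoc]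
    rw [h3, h2, mul_one] at hr3
    exact hr3
  have hne : d ≠ d * r := by
    intro h
    apply hr1
    simpa using h.symm
  obtain ⟨e1⟩ := Cfsg.Agent.Lib.ThreeTransS3.nonempty_dihedral_equiv_perm
  let e2 := Cfsg.Agent.Lib.ThreeTransS3.closureEquiv hd he hb hd1 hne
  exact involves_of_surj _ (e2.symm.trans e1).toMonoidHom (e2.symm.trans e1).surjective

/-- A section of a subgroup. -/
theorem S3_of_section {Γ : Type*} [Group Γ] {M C : Subgroup Γ} (hn : (C.subgroupOf M).Normal)
    {b v : Γ} (hb : b ∈ M) (hv : v ∈ M) (hbb : b * b ∈ C) (hvC : v ∉ C) (hv3 : v ^ 3 ∈ C)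
    (hinv : b * v * b⁻¹ * v ∈ C) : Involves (Equiv.Perm (Fin 3)) Γ := by
  haveI := hn
  let π := QuotientGroup.mk' (C.subgroupOf M)
  have hq : ∀ x : M, (x : Γ) ∈ C → π x = 1 := by
    intro x hx
    exact (QuotientGroup.eq_one_iff x).mpr hx
  let d := π ⟨b, hb⟩
  let r := π ⟨v, hv⟩
  have h1 : d * d = 1 := by
    show π _ * π _ = 1
    rw [← map_mul]
    exact hq _ hbb
  have h2 : r ≠ 1 := by
    intro h
    exact hvC ((QuotientGroup.eq_one_iff (⟨v, hv⟩ : M)).mp h)
  have h3 : r ^ 3 = 1 := by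
    show (π _) ^ 3 = 1
    rw [← map_pow]
    exact hq _ hv3
  have h4 : d * r * d⁻¹ = r⁻¹ := by
    have h5 : d * r * d⁻¹ * r = 1 := by
      show π _ * π _ * (π _)⁻¹ * π _ = 1
      rw [← map_inv, ← map_mul, ← map_mul, ← map_mul]
      exact hq _ hinv
    exact eq_inv_of_mul_eq_one_left h5
  exact Involves.trans (S3_of_inverted h1 h2 h3 h4)
    (involves_of_quotient M (C.subgroupOf M) (MulEquiv.refl _))

section abstract

variable {Y : Type*} [Group Y]

theorem center_bar (hq : IsQuasisimple Y) {x : Y} (h : ∀ u : Y, ⁅x, u⁆ ∈ Subgroup.center Y) :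
    x ∈ Subgroup.center Y := by
  have hs := hq.2
  let π := QuotientGroup.mk' (Subgroup.center Y)
  have hcen : π x ∈ Subgroup.center (Y ⧸ Subgroup.center Y) := by
    rw [Subgroup.mem_center_iff]
    intro z
    obtain ⟨u, rfl⟩ := QuotientGroup.mk'_surjective _ z
    have h1 : π ⁅x, u⁆ = 1 := (QuotientGroup.eq_one_iff _).mpr (h u)
    rw [map_commutatorElement, commutatorElement_eq_one_iff_mul_comm] at h1
    exact h1.symm
  rcases (inferInstance : (Subgroup.center (Y ⧸ Subgroup.center Y)).Normal).eq_bot_or_eq_top with hb | ht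
  · rw [hb] at hcen
    exact (QuotientGroup.eq_one_iff x).mp hcen
  · exfalso
    apply qs_center_ne_top hq
    have h2 : commutator Y ≤ Subgroup.center Y := by
      rw [commutator_def, Subgroup.commutator_le]
      intro a _ b _
      have h3 : π a ∈ Subgroup.center (Y ⧸ Subgroup.center Y) := by rw [ht]; trivial
      have h4 := Subgroup.mem_center_iff.mp h3 (π b)
      have h5 : π ⁅a, b⁆ = 1 := by
        rw [map_commutatorElement, commutatorElement_eq_one_iff_mul_comm]
        exact h4.symm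
      exact (QuotientGroup.eq_one_iff _).mp h5
    rw [qs_commutator hq] at h2
    exact top_le_iff.mp h2

/-- Normal subgroups with central squares. -/
theorem sq_central (hq : IsQuasisimple Y) (N : Subgroup Y) [N.Normal]
    (h : ∀ n ∈ N, n * n ∈ Subgroup.center Y) : N ≤ Subgroup.center Y := by
  rcases qs_normal hq N with ht | hc
  · exfalso
    apply qs_center_ne_top hq
    rw [eq_top_iff]
    intro x _
    apply center_bar hq
    intro u
    have hall : ∀ y : Y, y * y ∈ Subgroup.center Y := fun y => h y (by rw [ht]; trivial)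
    let π := QuotientGroup.mk' (Subgroup.center Y)
    have h1 : ∀ z : Y ⧸ Subgroup.center Y, z * z = 1 := by
      intro z
      obtain ⟨y, rfl⟩ := QuotientGroup.mk'_surjective _ z
      rw [← map_mul]
      exact (QuotientGroup.eq_one_iff _).mpr (hall y)
    have h2 : π x * π u = π u * π x :=
      comm_of_inv (A := ⊤) (fun a _ => h1 a) (x := π x) (y := π u) trivial trivial
    have h3 : π ⁅x, u⁆ = 1 := by
      rw [map_commutatorElement, commutatorElement_eq_one_iff_mul_comm]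
      exact h2
    exact (QuotientGroup.eq_one_iff _).mp h3
  · exact hc

/-- Coprimality of the centre: the transfer argument. -/
theorem coprime_center [Finite Y] (hperf : commutator Y = ⊤) {ℓ : ℕ} (hℓ : ℓ.Prime)
    (hcyc : ∀ Q : Subgroup (Y ⧸ Subgroup.center Y), IsPGroup ℓ Q → IsCyclic Q) :
    ¬ ℓ ∣ Nat.card (Subgroup.center Y) := by
  classical
  haveI : Fact ℓ.Prime := ⟨hℓ⟩
  intro hdvd
  obtain ⟨z, hz⟩ := exists_prime_orderOf_dvd_card' (G := Subgroup.center Y) ℓ hdvd
  have hz' : orderOf (z : Y) = ℓ := by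
    rw [Subgroup.orderOf_coe]
    exact hz
  have hpz : IsPGroup ℓ (Subgroup.zpowers (z : Y)) := by
    rw [IsPGroup.iff_card, Nat.card_zpowers, hz']
    exact ⟨1, (pow_one ℓ).symm⟩
  obtain ⟨Q, hQ⟩ := hpz.exists_le_sylow
  let P : Subgroup Y := (Q : Subgroup Y)
  have hzP : (z : Y) ∈ P := hQ (Subgroup.mem_zpowers _)
  let π := QuotientGroup.mk' (Subgroup.center Y)
  have hQ2 : IsPGroup ℓ (P.map π) := Q.isPGroup'.map π
  haveI : IsCyclic (P.map π) := hcyc _ hQ2
  let f : P →* P.map π := π.subgroupMap P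
  have hker : f.ker ≤ Subgroup.center P := by
    intro x hx
    rw [MonoidHom.mem_ker] at hx
    have h1 : π (x : Y) = 1 := congrArg Subtype.val hx
    have h2 : (x : Y) ∈ Subgroup.center Y := (QuotientGroup.eq_one_iff _).mp h1
    rw [Subgroup.mem_center_iff]
    intro y
    exact Subtype.ext ((Subgroup.mem_center_iff.mp h2 (y : Y)))
  have hcomm : ∀ a b : P, a * b = b * a := commutative_of_cyclic_center_quotient f hker
  letI inst : CommGroup P := { (inferInstance : Group P) with mul_comm := hcomm }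
  let ϕ : P →* P := MonoidHom.id P
  have h1 := MonoidHom.transfer_eq_pow (H := P) ϕ (z : Y) (by
    intro k g₀ _
    have h3 : (z : Y) ^ k ∈ Subgroup.center Y := Subgroup.pow_mem _ z.2 k
    have h4 := Subgroup.mem_center_iff.mp h3 g₀
    rw [mul_assoc, ← h4]
    group)
  have h2 : MonoidHom.transfer ϕ (z : Y) = 1 := by
    have h3 : commutator Y ≤ (MonoidHom.transfer ϕ).ker := by
      rw [commutator_def, Subgroup.commutator_le]
      intro a _ b _
      rw [MonoidHom.mem_ker, map_commutatorElement, commutatorElement_eq_one_iff_mul_comm]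
      exact mul_comm _ _
    rw [hperf] at h3
    exact h3 trivial
  rw [h2] at h1
  have h3 : (z : Y) ^ P.index = 1 := by
    have h4 := congrArg (Subtype.val) h1
    exact h4.symm
  have h4 : ℓ ∣ P.index := by
    rw [← hz']
    exact orderOf_dvd_of_pow_eq_one h3
  exact Q.not_dvd_index h4

/-- Lifting an element inverted in the central quotient. -/
theorem lift_inv [Finite Y] (hperf : commutator Y = ⊤) {ℓ : ℕ} (hℓ : ℓ.Prime)
    (hcyc : ∀ Q : Subgroup (Y ⧸ Subgroup.center Y), IsPGroup ℓ Q → IsCyclic Q)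
    {xb : Y ⧸ Subgroup.center Y} (hx : orderOf xb = ℓ) {u : Y}
    (hinv : (QuotientGroup.mk' (Subgroup.center Y) u) * xb * (QuotientGroup.mk' (Subgroup.center Y) u)⁻¹ = xb⁻¹) :
    ∃ x : Y, orderOf x = ℓ ∧ u * x * u⁻¹ = x⁻¹ ∧ x ∉ Subgroup.center Y := by
  classical
  haveI : Fact ℓ.Prime := ⟨hℓ⟩
  have hnd := coprime_center hperf hℓ hcyc
  let π := QuotientGroup.mk' (Subgroup.center Y)
  obtain ⟨g, rfl⟩ := QuotientGroup.mk'_surjective _ xb
  set m := Nat.card (Subgroup.center Y) with hm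
  have hcen : ∀ c : Y, c ∈ Subgroup.center Y → c ^ m = 1 := by
    intro c hc
    have := pow_card_eq_one' (x := (⟨c, hc⟩ : Subgroup.center Y))
    exact congrArg Subtype.val this
  have hgl : g ^ ℓ ∈ Subgroup.center Y := by
    apply (QuotientGroup.eq_one_iff _).mp
    show π (g ^ ℓ) = 1
    rw [map_pow]
    rw [← hx]
    exact pow_orderOf_eq_one _
  have hxl : (g ^ m) ^ ℓ = 1 := by
    rw [← pow_mul, mul_comm, pow_mul]
    exact hcen _ hgl
  have hnotZ : g ^ m ∉ Subgroup.center Y := by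
    intro h
    have h1 : π (g ^ m) = 1 := (QuotientGroup.eq_one_iff _).mpr h
    rw [map_pow] at h1
    have h2 : orderOf (π g) ∣ m := orderOf_dvd_of_pow_eq_one h1
    rw [show orderOf (π g) = ℓ from hx] at h2
    exact hnd h2
  refine ⟨g ^ m, ?_, ?_, hnotZ⟩
  · apply orderOf_eq_prime hxl
    intro h
    apply hnotZ
    rw [h]
    exact Subgroup.one_mem _
  · -- the correction term
    have h1 : π (u * g ^ m * u⁻¹ * g ^ m) = 1 := by
      have e : π (u * g * u⁻¹) = (π g)⁻¹ := by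
        rw [map_mul, map_mul, map_inv]
        exact hinv
      have e2 : u * g ^ m * u⁻¹ = (u * g * u⁻¹) ^ m := (conj_pow).symm
      rw [map_mul, e2, map_pow, e, map_pow, inv_pow, inv_mul_cancel]
    have h2 : u * g ^ m * u⁻¹ * g ^ m ∈ Subgroup.center Y := (QuotientGroup.eq_one_iff _).mp h1
    set w := u * g ^ m * u⁻¹ * g ^ m with hw
    have h3 : u * g ^ m * u⁻¹ = w * (g ^ m)⁻¹ := by
      rw [hw]
      group
    have h4 : (u * g ^ m * u⁻¹) ^ ℓ = 1 := by
      rw [conj_pow, hxl]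
      simp
    have hcm : Commute w (g ^ m)⁻¹ := Subgroup.mem_center_iff.mp h2 _ |>.symm
    rw [h3, hcm.mul_pow, inv_pow, hxl, inv_one, mul_one] at h4
    have h5 : orderOf w ∣ ℓ := orderOf_dvd_of_pow_eq_one h4
    have h6 : orderOf w ∣ m := orderOf_dvd_of_pow_eq_one (hcen w h2)
    have h7 : orderOf w = 1 := by
      rcases (Nat.dvd_prime hℓ).mp h5 with h | h
      · exact h
      · rw [h] at h6
        exact absurd h6 hnd
    have h8 : w = 1 := orderOf_eq_one_iff.mp h7
    rw [h3, h8, one_mul]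

end abstract

/-- Interface of the quotient groups of components. -/
structure XD (X : Type*) [Group X] (τ D : ℕ) : Prop where
  ea : ∀ H : Subgroup X, (∀ x ∈ H, x * x = 1) → Nat.card H ≤ 2 ^ τ
  inv : ∀ t : X, orderOf t = 2 → ∃ (x : X) (ℓ : ℕ), ℓ.Prime ∧ ℓ ≠ 2 ∧ Ord2 ℓ D ∧ orderOf x = ℓ ∧
    t * x * t⁻¹ = x⁻¹ ∧ ∀ Q : Subgroup X, IsPGroup ℓ Q → IsCyclic Q
  inn : ∀ β : X ≃* X, (∀ x, β (β x) = x) → (∃ x, β x ≠ x) → (∀ y, orderOf y = 3 → β y ≠ y⁻¹) →
    ∃ t, orderOf t = 2 ∧ ∀ x, β x = t * x * t⁻¹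
  invo : ∃ t : X, orderOf t = 2
  h2 : 2 ≤ τ
  h4 : 4 * τ ≤ D + 1

section comp

variable {Γ : Type*} [Group Γ] [Finite Γ] {K : Subgroup Γ}

/-- From `CC` to the centre. -/
theorem cc_iff_center {u : K} : CC K (u : Γ) ↔ u ∈ Subgroup.center K := by
  rw [Subgroup.mem_center_iff]
  constructor
  · intro h v
    exact Subtype.ext (h v v.2).symm
  · intro h v hv
    exact (congrArg Subtype.val (h ⟨v, hv⟩)).symm

theorem qs_of_isQuasisimple (hq : IsQuasisimple K) : QS K := by
  refine ⟨?_, ?_, ?_⟩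
  · by_contra hcon
    push Not at hcon
    apply qs_not_comm hq
    refine ⟨⟨fun a b => Subtype.ext (hcon a a.2 b b.2)⟩⟩
  · intro x hx h
    have h1 : (⟨x, hx⟩ : K) ∈ Subgroup.center K := by
      apply center_bar hq
      intro u
      rw [← cc_iff_center]
      exact h u u.2
    exact cc_iff_center.mpr h1
  · intro N hN hnor hsq n hn
    haveI hnr : (N.subgroupOf K).Normal := by
      constructor
      intro m hm g
      exact hnor g g.2 m hm
    have h1 : N.subgroupOf K ≤ Subgroup.center K := by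
      apply sq_central hq
      intro m hm
      rw [← cc_iff_center]
      exact hsq m hm
    exact cc_iff_center.mpr (h1 (show (⟨n, hN hn⟩ : K) ∈ N.subgroupOf K from hn))

/-- Conjugation on the subgroup. -/
def Kn (b : Γ) (h : cj b K = K) : K ≃* K where
  toFun p := ⟨b * p * b⁻¹, h.le (conj_mem_cj p.2)⟩
  invFun p := ⟨b⁻¹ * p * b, mem_cj.mp (h.ge p.2)⟩
  left_inv p := by
    apply Subtype.ext
    simp [mul_assoc]
  right_inv p := by
    apply Subtype.ext
    simp [mul_assoc]
  map_mul' p q := by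
    apply Subtype.ext
    simp [mul_assoc]

theorem Kn_val (b : Γ) (h : cj b K = K) (p : K) : (Kn b h p : Γ) = b * p * b⁻¹ := rfl

theorem Kn_center (b : Γ) (h : cj b K = K) :
    (Subgroup.center K).map (Kn b h).toMonoidHom = Subgroup.center K :=
  Subgroup.characteristic_iff_map_eq.mp inferInstance (Kn b h)

/-- The action on the central quotient. -/
noncomputable def bet (b : Γ) (h : cj b K = K) : (K ⧸ Subgroup.center K) ≃* (K ⧸ Subgroup.center K) :=
  QuotientGroup.congr (Subgroup.center K) (Subgroup.center K) (Kn b h) (Kn_center b h)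

theorem bet_mk (b : Γ) (h : cj b K = K) (p : K) :
    bet b h (QuotientGroup.mk' _ p) = QuotientGroup.mk' _ (Kn b h p) := rfl

/-- Elements trivial on the central quotient centralize. -/
theorem cc_of_triv (hq : IsQuasisimple K) {c : Γ} (h : cj c K = K)
    (ht : ∀ p : K, (Kn c h p) * p⁻¹ ∈ Subgroup.center K) : CC K c := by
  let φ : K →* Subgroup.center K :=
    { toFun := fun p => ⟨(Kn c h p) * p⁻¹, ht p⟩
      map_one' := by
        apply Subtype.ext
        simp
      map_mul' := by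
        intro p q
        apply Subtype.ext
        show Kn c h (p * q) * (p * q)⁻¹ = Kn c h p * p⁻¹ * (Kn c h q * q⁻¹)
        have h1 := Subgroup.mem_center_iff.mp (ht q) p⁻¹
        rw [map_mul, mul_inv_rev]
        calc Kn c h p * Kn c h q * (q⁻¹ * p⁻¹) = Kn c h p * ((Kn c h q * q⁻¹) * p⁻¹) := by group
          _ = Kn c h p * (p⁻¹ * (Kn c h q * q⁻¹)) := by rw [h1]
          _ = _ := by group }
  have h1 : commutator K ≤ φ.ker := by
    rw [commutator_def, Subgroup.commutator_le]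
    intro a _ b _
    rw [MonoidHom.mem_ker, map_commutatorElement, commutatorElement_eq_one_iff_mul_comm]
    exact Subtype.ext (Subgroup.mem_center_iff.mp (φ a).2 (φ b : K)).symm
  rw [qs_commutator hq] at h1
  intro u hu
  have h2 : φ ⟨u, hu⟩ = 1 := h1 trivial
  have h3 : (Kn c h ⟨u, hu⟩ : Γ) * u⁻¹ = 1 :=
    congrArg (fun z : Subgroup.center K => ((z : K) : Γ)) h2
  rw [Kn_val] at h3
  have h4 : c * u * c⁻¹ = u := by
    have := mul_inv_eq_one.mp h3
    exact this
  calc c * u = c * u * c⁻¹ * c := by group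
    _ = u * c := by rw [h4]

/-- The normalizer as a subgroup. -/
def Nrm (K : Subgroup Γ) : Subgroup Γ where
  carrier := {b | cj b K = K}
  one_mem' := cj_one K
  mul_mem' := by
    intro a b ha hb
    show cj (a * b) K = K
    rw [cj_mul, hb, ha]
  inv_mem' := by
    intro a ha
    show cj a⁻¹ K = K
    conv_lhs => rw [← (show cj a K = K from ha)]
    rw [← cj_mul, inv_mul_cancel, cj_one]

/-- Order three elements inverted on the quotient give `S₃`. -/
theorem not_inverted (hq : IsQuasisimple K) (hS : ¬ Involves (Equiv.Perm (Fin 3)) Γ) {b : Γ}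
    (h : cj b K = K) (hb : b * b = 1) (y : K ⧸ Subgroup.center K) (hy : orderOf y = 3) :
    bet b h y ≠ y⁻¹ := by
  intro hinv
  apply hS
  obtain ⟨v, rfl⟩ := QuotientGroup.mk'_surjective _ y
  let M := Nrm K
  let C : Subgroup Γ := M ⊓ cen K
  have hKM : ∀ p ∈ K, p ∈ M := by
    intro p hp
    apply le_antisymm
    · rintro _ ⟨u, hu, rfl⟩
      exact K.mul_mem (K.mul_mem hp hu) (K.inv_mem hp)
    · intro u hu
      rw [mem_cj]
      exact K.mul_mem (K.mul_mem (K.inv_mem hp) hu) hp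
  have hn : (C.subgroupOf M).Normal := by
    constructor
    intro n hn g
    rw [Subgroup.mem_subgroupOf] at hn ⊢
    refine ⟨(M.mul_mem (M.mul_mem g.2 n.2) (M.inv_mem g.2)), ?_⟩
    intro u hu
    have hg : cj (g : Γ) K = K := g.2
    have h1 : (g : Γ)⁻¹ * u * g ∈ K := by
      rw [← hg] at hu
      exact mem_cj.mp hu
    have h2 := hn.2 _ h1
    have e1 : (g : Γ) * n * (g : Γ)⁻¹ * u = g * (n * ((g : Γ)⁻¹ * u * g)) * (g : Γ)⁻¹ := by group
    have e2 : u * ((g : Γ) * n * (g : Γ)⁻¹) = g * (((g : Γ)⁻¹ * u * g) * n) * (g : Γ)⁻¹ := by group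
    show (g : Γ) * n * (g : Γ)⁻¹ * u = u * ((g : Γ) * n * (g : Γ)⁻¹)
    rw [e1, e2, h2]
  have hZC : ∀ z : K, z ∈ Subgroup.center K → (z : Γ) ∈ C := by
    intro z hz
    exact ⟨hKM z z.2, cc_iff_center.mpr hz⟩
  refine S3_of_section hn (b := b) (v := (v : Γ)) h (hKM v v.2) ?_ ?_ ?_ ?_
  · rw [hb]
    exact C.one_mem
  · rintro ⟨-, h2⟩
    have h3 : v ∈ Subgroup.center K := cc_iff_center.mp h2
    have h4 : QuotientGroup.mk' (Subgroup.center K) v = 1 := (QuotientGroup.eq_one_iff _).mpr h3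
    rw [h4, orderOf_one] at hy
    omega
  · have h3 : (QuotientGroup.mk' (Subgroup.center K) v) ^ 3 = 1 := by
      rw [← hy]
      exact pow_orderOf_eq_one _
    rw [← map_pow] at h3
    exact hZC (v ^ 3) ((QuotientGroup.eq_one_iff _).mp h3)
  · rw [bet_mk] at hinv
    have h3 : QuotientGroup.mk' (Subgroup.center K) (Kn b h v * v) = 1 := by
      rw [map_mul, hinv, inv_mul_cancel]
    exact hZC _ ((QuotientGroup.eq_one_iff _).mp h3)

theorem mem_Nrm_of_mem {p : Γ} (hp : p ∈ K) : cj p K = K := by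
  apply le_antisymm
  · rintro _ ⟨u, hu, rfl⟩
    exact K.mul_mem (K.mul_mem hp hu) (K.inv_mem hp)
  · intro u hu
    rw [mem_cj]
    exact K.mul_mem (K.mul_mem (K.inv_mem hp) hu) hp

/-- Involutions normalizing act as inner automorphisms. -/
theorem inner_of_inv {τ D : ℕ} (hq : IsQuasisimple K) (hS : ¬ Involves (Equiv.Perm (Fin 3)) Γ)
    (hX : XD (K ⧸ Subgroup.center K) τ D) {b : Γ} (hb : b * b = 1) (h : cj b K = K) :
    ∃ u : K, CC K ((u : Γ)⁻¹ * b) ∧
      (¬ CC K b → orderOf (QuotientGroup.mk' (Subgroup.center K) u) = 2) := by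
  by_cases hβ : ∃ x, bet b h x ≠ x
  · have hbb : ∀ x, bet b h (bet b h x) = x := by
      intro x
      obtain ⟨p, rfl⟩ := QuotientGroup.mk'_surjective _ x
      rw [bet_mk, bet_mk]
      congr 1
      apply Subtype.ext
      rw [Kn_val, Kn_val]
      have hbi : b⁻¹ = b := inv_eq_of_mul_eq_one_left hb
      rw [hbi]
      calc b * (b * (p : Γ) * b) * b = (b * b) * p * (b * b) := by simp only [mul_assoc]
        _ = p := by rw [hb]; simp
    obtain ⟨t, ht, hβt⟩ := hX.inn (bet b h) hbb hβ (fun y hy => not_inverted hq hS h hb y hy)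
    obtain ⟨u, rfl⟩ := QuotientGroup.mk'_surjective _ t
    refine ⟨u, ?_, fun _ => ht⟩
    have h' : cj ((u : Γ)⁻¹ * b) K = K := by
      rw [cj_mul, h]
      exact (Nrm K).inv_mem (mem_Nrm_of_mem u.2)
    apply cc_of_triv hq h'
    intro p
    apply (QuotientGroup.eq_one_iff _).mp
    show QuotientGroup.mk' (Subgroup.center K) _ = 1
    have e : Kn _ h' p = u⁻¹ * Kn b h p * u := by
      apply Subtype.ext
      rw [Kn_val]
      show (u : Γ)⁻¹ * b * p * ((u : Γ)⁻¹ * b)⁻¹ = (u : Γ)⁻¹ * (b * p * b⁻¹) * u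
      group
    rw [e, map_mul, map_mul, map_mul, map_inv, map_inv, ← bet_mk, hβt]
    group
  · push Not at hβ
    refine ⟨1, ?_, ?_⟩
    · have e : ((1 : K) : Γ)⁻¹ * b = b := by simp
      rw [e]
      apply cc_of_triv hq h
      intro p
      apply (QuotientGroup.eq_one_iff _).mp
      show QuotientGroup.mk' (Subgroup.center K) _ = 1
      rw [map_mul, map_inv, ← bet_mk, hβ]
      group
    · intro hnc
      exfalso
      apply hnc
      apply cc_of_triv hq h
      intro p
      apply (QuotientGroup.eq_one_iff _).mp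
      show QuotientGroup.mk' (Subgroup.center K) _ = 1
      rw [map_mul, map_inv, ← bet_mk, hβ]
      group

/-- Lifting for components. -/
theorem comp_lift {τ D : ℕ} (hq : IsQuasisimple K) (hX : XD (K ⧸ Subgroup.center K) τ D)
    {u : K} (ht : orderOf (QuotientGroup.mk' (Subgroup.center K) u) = 2) :
    ∃ x ∈ K, ∃ ℓ : ℕ, ℓ.Prime ∧ ℓ ≠ 2 ∧ Ord2 ℓ D ∧ orderOf x = ℓ ∧ ¬ CC K x ∧
      (u : Γ) * x * (u : Γ)⁻¹ = x⁻¹ := by
  obtain ⟨xb, ℓ, hℓ, hℓ2, hD, hord, hinv, hcyc⟩ := hX.inv _ ht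
  obtain ⟨x, h1, h2, h3⟩ := lift_inv (qs_commutator hq) hℓ hcyc hord hinv
  refine ⟨x, x.2, ℓ, hℓ, hℓ2, hD, ?_, ?_, ?_⟩
  · rw [Subgroup.orderOf_coe]
    exact h1
  · intro h
    exact h3 (cc_iff_center.mp h)
  · exact congrArg Subtype.val h2

/-- A component with the interface gives a piece. -/
theorem kp_of_qs {A : Subgroup Γ} {τ D : ℕ} (hq : IsQuasisimple K)
    (hS : ¬ Involves (Equiv.Perm (Fin 3)) Γ) (hX : XD (K ⧸ Subgroup.center K) τ D)
    (hA : ∀ a ∈ A, a * a = 1) : KP A K τ D := by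
  classical
  have hinner := fun {b : Γ} => inner_of_inv hq hS hX (b := b)
  refine ⟨qs_of_isQuasisimple hq, ?_, ?_, ?_, hX.h2, hX.h4⟩
  · -- the bound
    intro T hT hT2
    let π := QuotientGroup.mk' (Subgroup.center K)
    let H' : Subgroup (K ⧸ Subgroup.center K) :=
      { carrier := {xb | ∃ b ∈ A, ∃ u : K, π u = xb ∧ cj b K = K ∧ CC K ((u : Γ)⁻¹ * b)}
        one_mem' := ⟨1, A.one_mem, 1, map_one π, cj_one K, by simpa using CC.one K⟩
        mul_mem' := by
          rintro _ _ ⟨b₁, hb₁, u₁, rfl, h₁, hc₁⟩ ⟨b₂, hb₂, u₂, rfl, h₂, hc₂⟩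
          refine ⟨b₁ * b₂, A.mul_mem hb₁ hb₂, u₁ * u₂, map_mul π _ _, ?_, ?_⟩
          · rw [cj_mul, h₂, h₁]
          · have e : ((u₁ * u₂ : K) : Γ)⁻¹ * (b₁ * b₂) =
                (u₂ : Γ)⁻¹ * (((u₁ : Γ)⁻¹ * b₁) * (u₂ : Γ)) * ((u₂ : Γ)⁻¹ * b₂) := by
              simp only [Subgroup.coe_mul]
              group
            rw [e, hc₁ _ u₂.2]
            have e2 : (u₂ : Γ)⁻¹ * ((u₂ : Γ) * ((u₁ : Γ)⁻¹ * b₁)) * ((u₂ : Γ)⁻¹ * b₂) =
                ((u₁ : Γ)⁻¹ * b₁) * ((u₂ : Γ)⁻¹ * b₂) := by group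
            rw [e2]
            exact hc₁.mul hc₂
        inv_mem' := by
          rintro _ ⟨b, hb, u, rfl, h, hc⟩
          refine ⟨b⁻¹, A.inv_mem hb, u⁻¹, map_inv π _, (Nrm K).inv_mem h, ?_⟩
          have e : ((u⁻¹ : K) : Γ)⁻¹ * b⁻¹ = (u : Γ) * ((u : Γ)⁻¹ * b)⁻¹ * (u : Γ)⁻¹ := by
            simp only [Subgroup.coe_inv]
            group
          rw [e]
          have h1 := hc.inv (u : Γ)⁻¹ (K.inv_mem u.2)
          rw [mul_assoc, h1]
          have e2 : (u : Γ) * ((u : Γ)⁻¹ * ((u : Γ)⁻¹ * b)⁻¹) = ((u : Γ)⁻¹ * b)⁻¹ := by group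
          rw [e2]
          exact hc.inv }
    have hexp : ∀ x ∈ H', x * x = 1 := by
      rintro _ ⟨b, hb, u, rfl, h, hc⟩
      have hbb := hA b hb
      set c := (u : Γ)⁻¹ * b with hcdef
      have e1 : b = u * c := by rw [hcdef]; group
      have e2 : (u : Γ) * u * (c * c) = 1 := by
        have h1 : (u : Γ) * c * ((u : Γ) * c) = 1 := by rw [← e1]; exact hbb
        have h2 := hc u u.2
        calc (u : Γ) * u * (c * c) = u * (u * c) * c := by group
          _ = u * (c * u) * c := by rw [h2]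
          _ = (u : Γ) * c * ((u : Γ) * c) := by group
          _ = 1 := h1
      have e3 : (u : Γ) * u = (c * c)⁻¹ := eq_inv_of_mul_eq_one_left e2
      rw [← map_mul]
      apply (QuotientGroup.eq_one_iff _).mpr
      rw [← cc_iff_center]
      show CC K ((u : Γ) * u)
      rw [e3]
      exact (hc.mul hc).inv
    have hcard := hX.ea H' hexp
    have hpick : ∀ t : T, ∃ u : K, CC K ((u : Γ)⁻¹ * t) := by
      intro t
      obtain ⟨u, hu, -⟩ := hinner (hA t (hT t t.2).1) (hT t t.2).2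
      exact ⟨u, hu⟩
    choose U hU using hpick
    let f : T → H' := fun t => ⟨π (U t), t, (hT t t.2).1, U t, rfl, (hT t t.2).2, hU t⟩
    have hf : Function.Injective f := by
      intro s t hst
      by_contra hne
      have hne' : (s : Γ) ≠ t := fun h => hne (Subtype.ext h)
      apply hT2 s s.2 t t.2 hne'
      have h1 : π (U s) = π (U t) := congrArg Subtype.val hst
      have h2 : (U s) * (U t)⁻¹ ∈ Subgroup.center K := by
        apply (QuotientGroup.eq_one_iff _).mp
        show π _ = 1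
        rw [map_mul, map_inv, h1, mul_inv_cancel]
      have h3 : CC K (((U s) * (U t)⁻¹ : K) : Γ) := cc_iff_center.mpr h2
      set c := ((U s : Γ))⁻¹ * s with hc
      set d := ((U t : Γ))⁻¹ * t with hd
      have hcc : CC K c := hU s
      have hdd : CC K d := hU t
      have e : (s : Γ) * (t : Γ)⁻¹ = (((U s) * (U t)⁻¹ : K) : Γ) * (((U t : Γ)) * (c * d⁻¹) * ((U t : Γ))⁻¹) := by
        rw [hc, hd]
        simp only [Subgroup.coe_mul, Subgroup.coe_inv]
        group
      rw [e]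
      apply h3.mul
      have h4 := (hcc.mul hdd.inv) _ (U t).2
      rw [← h4]
      have e2 : (U t : Γ) * (c * d⁻¹) * (U t : Γ)⁻¹ = (c * d⁻¹) * (U t : Γ) * (U t : Γ)⁻¹ := by rw [h4]
      rw [show (c * d⁻¹) * (U t : Γ) * (U t : Γ)⁻¹ = (c * d⁻¹) by group]
      exact hcc.mul hdd.inv
    have h5 := Nat.card_le_card_of_injective f hf
    have h6 : Nat.card T = T.card := by simp
    rw [h6] at h5
    exact h5.trans hcard
  · intro b hb h hnc
    obtain ⟨u, hu, hu2⟩ := hinner (hA b hb) h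
    obtain ⟨x, hx, ℓ, hℓ, hℓ2, hD, hord, hxnc, hinv⟩ := comp_lift hq hX (hu2 hnc)
    refine ⟨x, hx, ℓ, hℓ, hℓ2, hD, hord, hxnc, ?_⟩
    set c := (u : Γ)⁻¹ * b with hc
    have e1 : b = u * c := by rw [hc]; group
    have h2 := hu x hx
    have e2 : b * x * b⁻¹ = (u : Γ) * (c * x) * c⁻¹ * (u : Γ)⁻¹ := by
      rw [e1]
      group
    rw [e2, h2]
    have e3 : (u : Γ) * (x * c) * c⁻¹ * (u : Γ)⁻¹ = (u : Γ) * x * (u : Γ)⁻¹ := by group
    rw [e3, hinv]
  · obtain ⟨t, ht⟩ := hX.invo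
    obtain ⟨u, rfl⟩ := QuotientGroup.mk'_surjective _ t
    obtain ⟨x, hx, ℓ, hℓ, hℓ2, hD, hord, hxnc, hinv⟩ := comp_lift hq hX ht
    refine ⟨x, hx, ℓ, hℓ, hℓ2, ?_, hord, hxnc⟩
    rintro rfl
    have h1 := hD 2 (by norm_num) (by norm_num)
    have h2 := hX.h2
    have h3 := hX.h4
    omega

end comp

end Cfsg.Agent.Lib.TwoFactC1
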