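import Mathlib
import Cfsg.Prelude.Def_LocalEven
import Cfsg.Agent.Lib.TwoFactC1
import Cfsg.Agent.Lib.PCore
import Cfsg.Agent.Lib.BenderPair

/-!
# Eigen elements in odd cores
-/

set_option autoImplicit false
set_option linter.unusedSectionVars false
set_option linter.unusedVariables false

open scoped commutatorElement

namespace Cfsg.Agent.Lib.TwoFactC2

open Cfsg Cfsg.Agent.Lib.TwoFactA Cfsg.Agent.Lib.TwoFactB Cfsg.Agent.Lib.TwoFactB2
open Cfsg.Agent.Lib.TwoFactC1 Cfsg.Agent.Lib.LocalCore Cfsg.Agent.Lib.InvolvesAPI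
open Cfsg.Agent.Lib.PCore

section eigen

variable {M : Type*} [CommGroup M] {ι : Type*}

/-- Simultaneous eigenvectors. -/
theorem eigen (φ : ι → M →* M) (hinv : ∀ i x, φ i (φ i x) = x)
    (hcomm : ∀ i j x, φ i (φ j x) = φ j (φ i x)) {p : ℕ} (hp : Odd p) {w₀ : M} (hw₀ : w₀ ≠ 1)
    (hw₀p : w₀ ^ p = 1) (J : Set ι) (hJ : ∀ j ∈ J, φ j w₀ = w₀⁻¹) (S : Finset ι) :
    ∃ w : M, w ≠ 1 ∧ w ^ p = 1 ∧ (∀ i ∈ S, φ i w = w ∨ φ i w = w⁻¹) ∧ ∀ j ∈ J, φ j w = w⁻¹ := by
  classical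
  induction S using Finset.induction_on with
  | empty => exact ⟨w₀, hw₀, hw₀p, by simp, hJ⟩
  | insert b S hb ih =>
    obtain ⟨w, h1, h2, h3, h4⟩ := ih
    have hsq : w * w ≠ 1 := by
      intro h
      apply h1
      obtain ⟨k, hk⟩ := hp
      have e : w ^ p = (w * w) ^ k * w := by
        rw [hk, pow_succ, pow_mul, pow_two]
      rw [h, one_pow, one_mul, h2] at e
      exact e.symm
    have hpb : (φ b w) ^ p = 1 := by rw [← map_pow, h2, map_one]
    have hplus : (w * φ b w) ^ p = 1 := by rw [mul_pow, h2, hpb, one_mul]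
    have hminus : (w * (φ b w)⁻¹) ^ p = 1 := by rw [mul_pow, inv_pow, h2, hpb, inv_one, one_mul]
    have hprod : (w * φ b w) * (w * (φ b w)⁻¹) = w * w := by
      rw [mul_mul_mul_comm, mul_inv_cancel, mul_one]
    by_cases hw : w * φ b w = 1
    · -- use the minus element
      have hne : w * (φ b w)⁻¹ ≠ 1 := by
        intro h
        rw [hw, h, one_mul] at hprod
        exact hsq hprod.symm
      refine ⟨_, hne, hminus, ?_, ?_⟩
      · intro i hi
        rcases Finset.mem_insert.mp hi with rfl | hi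
        · right
          rw [map_mul, map_inv, hinv, mul_inv_rev, inv_inv, mul_comm]
        · rcases h3 i hi with h | h
          · left
            rw [map_mul, map_inv, h, hcomm, h]
          · right
            rw [map_mul, map_inv, h, hcomm, h, map_inv, mul_inv_rev, mul_comm]
      · intro j hj
        rw [map_mul, map_inv, h4 j hj, hcomm, h4 j hj, map_inv, mul_inv_rev, mul_comm]
    · refine ⟨_, hw, hplus, ?_, ?_⟩
      · intro i hi
        rcases Finset.mem_insert.mp hi with rfl | hi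
        · left
          rw [map_mul, hinv, mul_comm]
        · rcases h3 i hi with h | h
          · left
            rw [map_mul, h, hcomm, h]
          · right
            rw [map_mul, h, hcomm, h, map_inv, mul_inv]
      · intro j hj
        rw [map_mul, h4 j hj, hcomm, h4 j hj, map_inv, mul_inv]

end eigen

section sub

variable {H : Type*} [Group H] {ι : Type*}

/-- Simultaneous eigenvectors in a commutative subgroup. -/
theorem eigenSub [Finite ι] {Z : Subgroup H} (hZ : ∀ x ∈ Z, ∀ y ∈ Z, x * y = y * x) (φ : ι → H →* H)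
    (hφZ : ∀ i, ∀ x ∈ Z, φ i x ∈ Z) (hinv : ∀ i x, φ i (φ i x) = x)
    (hcomm : ∀ i j x, φ i (φ j x) = φ j (φ i x)) {p : ℕ} (hp : Odd p) {w₀ : H} (hw₀Z : w₀ ∈ Z)
    (hw₀ : w₀ ≠ 1) (hw₀p : w₀ ^ p = 1) (J : Set ι) (hJ : ∀ j ∈ J, φ j w₀ = w₀⁻¹) :
    ∃ w ∈ Z, w ≠ 1 ∧ w ^ p = 1 ∧ (∀ i, φ i w = w ∨ φ i w = w⁻¹) ∧ ∀ j ∈ J, φ j w = w⁻¹ := by
  classical
  haveI := Fintype.ofFinite ι
  letI inst : CommGroup Z :=
    { (inferInstance : Group Z) with mul_comm := fun x y => Subtype.ext (hZ x x.2 y y.2) }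
  let φ' : ι → Z →* Z := fun i => ((φ i).comp Z.subtype).codRestrict Z (fun x => hφZ i x x.2)
  have hφ' : ∀ i (x : Z), ((φ' i x : Z) : H) = φ i x := fun i x => rfl
  obtain ⟨w, h1, h2, h3, h4⟩ := eigen φ' (fun i x => Subtype.ext (hinv i x))
    (fun i j x => Subtype.ext (hcomm i j x)) hp (w₀ := ⟨w₀, hw₀Z⟩)
    (fun h => hw₀ (congrArg Subtype.val h)) (Subtype.ext hw₀p) J
    (fun j hj => Subtype.ext (hJ j hj)) Finset.univ
  refine ⟨w, w.2, fun h => h1 (Subtype.ext h), congrArg Subtype.val h2, ?_, ?_⟩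
  · intro i
    rcases h3 i (Finset.mem_univ i) with h | h
    · exact Or.inl (congrArg Subtype.val h)
    · exact Or.inr (congrArg Subtype.val h)
  · intro j hj
    exact congrArg Subtype.val (h4 j hj)

end sub

section core

variable {Γ : Type*} [Group Γ] [Finite Γ]

/-- An element of a `p`-group with square one is trivial. -/
theorem eq_one_of_sq {R : Subgroup Γ} {p : ℕ} (hp : p.Prime) (hp2 : p ≠ 2) (hR : IsPGroup p R)
    {c : Γ} (hc : c ∈ R) (h : c * c = 1) : c = 1 := by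
  obtain ⟨k, hk⟩ := hR ⟨c, hc⟩
  have h1 : c ^ p ^ k = 1 := congrArg Subtype.val hk
  have h2 : orderOf c ∣ p ^ k := orderOf_dvd_of_pow_eq_one h1
  have h3 : orderOf c ∣ 2 := orderOf_dvd_of_pow_eq_one (by rw [pow_two, h])
  have hcop : Nat.Coprime (p ^ k) 2 := by
    apply Nat.Coprime.pow_left
    exact (Nat.coprime_primes hp Nat.prime_two).mpr hp2
  exact orderOf_eq_one_iff.mp (Nat.Coprime.eq_one_of_dvd (Nat.Coprime.coprime_dvd_left h2 hcop) h3)

/-- Thompson's lemma for an involution. -/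
theorem ab_inv {R B : Subgroup Γ} {p : ℕ} (hp : p.Prime) (hp2 : p ≠ 2) (hR : IsPGroup p R)
    (hBR : B ≤ R) (hCB : ∀ x ∈ R, CC B x → x ∈ B) {a : Γ} (ha : a * a = 1)
    (haR : ∀ x ∈ R, a * x * a⁻¹ ∈ R) (hab : ∀ x ∈ B, a * x * a⁻¹ = x) :
    ∀ x ∈ R, a * x * a⁻¹ = x := by
  classical
  haveI : Fact p.Prime := ⟨hp⟩
  let P : Subgroup Γ := R ⊓ cen (Subgroup.zpowers a)
  have hP : ∀ x, x ∈ P ↔ x ∈ R ∧ a * x * a⁻¹ = x := by
    intro x
    constructor
    · rintro ⟨h1, h2⟩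
      refine ⟨h1, ?_⟩
      have h3 : x * a = a * x := h2 a (Subgroup.mem_zpowers a)
      rw [← h3]
      group
    · rintro ⟨h1, h2⟩
      refine ⟨h1, ?_⟩
      intro u hu
      obtain ⟨k, rfl⟩ := Subgroup.mem_zpowers_iff.mp hu
      have h3 : Commute x a := by
        show x * a = a * x
        have : a * x = x * a := by
          rw [← mul_inv_eq_iff_eq_mul]
          exact h2
        exact this.symm
      exact (h3.zpow_right k).eq
  have hBP : B ≤ P := fun x hx => (hP x).mpr ⟨hBR hx, hab x hx⟩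
  by_contra hcon
  push Not at hcon
  obtain ⟨x₀, hx₀, hx₀2⟩ := hcon
  -- the normalizer condition in `R`
  haveI hnil : Group.IsNilpotent R := hR.isNilpotent
  have hlt : P.subgroupOf R < ⊤ := by
    rw [lt_top_iff_ne_top]
    intro h
    have h1 : (⟨x₀, hx₀⟩ : R) ∈ P.subgroupOf R := by rw [h]; trivial
    exact hx₀2 ((hP x₀).mp h1).2
  have hnc := (normalizerCondition_of_isNilpotent (G := R)) _ hlt
  obtain ⟨⟨r, hr⟩, hr1, hr2⟩ := SetLike.exists_of_lt hnc
  have hrP : r ∉ P := fun h => hr2 (show (⟨r, hr⟩ : R) ∈ P.subgroupOf R from h)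
  apply hrP
  refine (hP r).mpr ⟨hr, ?_⟩
  set c := a * r * a⁻¹ * r⁻¹ with hc
  have hra : a * r * a⁻¹ = c * r := by rw [hc]; group
  have hcR : c ∈ R := R.mul_mem (haR r hr) (R.inv_mem hr)
  -- `c` centralizes `P`
  have hcP : CC P c := by
    intro x hx
    have hxR := ((hP x).mp hx).1
    have hxfix := ((hP x).mp hx).2
    have hxr : r⁻¹ * x * r ∈ P := by
      have h1 := (Subgroup.mem_normalizer_iff.mp hr1
        ⟨r⁻¹ * x * r, R.mul_mem (R.mul_mem (R.inv_mem hr) hxR) hr⟩).mpr (by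
          show _ ∈ P
          have e : r * (r⁻¹ * x * r) * r⁻¹ = x := by group
          simpa [e] using hx)
      exact h1
    have h2 := ((hP _).mp hxr).2
    have e : a * (r⁻¹ * x * r) * a⁻¹ = (a * r * a⁻¹)⁻¹ * (a * x * a⁻¹) * (a * r * a⁻¹) := by group
    rw [e, hxfix, hra] at h2
    have h3 : (c * r)⁻¹ * x * (c * r) = r⁻¹ * (c⁻¹ * x * c) * r := by group
    rw [h3] at h2
    have h4 : c⁻¹ * x * c = x := by
      have h5 := congrArg (fun z => r * z * r⁻¹) h2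
      simpa [mul_assoc] using h5
    rw [mul_assoc, inv_mul_eq_iff_eq_mul] at h4
    exact h4.symm
  have hcB : c ∈ B := hCB c hcR (fun u hu => hcP u (hBP hu))
  have hcfix : a * c * a⁻¹ = c := hab c hcB
  have hsq : c * c = 1 := by
    have ha' : a⁻¹ = a := inv_eq_of_mul_eq_one_left ha
    have h1 : a * (a * r * a⁻¹) * a⁻¹ = r := by
      rw [ha']
      calc a * (a * r * a) * a = (a * a) * r * (a * a) := by simp only [mul_assoc]
        _ = r := by rw [ha]; simp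
    rw [hra] at h1
    have e : a * (c * r) * a⁻¹ = (a * c * a⁻¹) * (a * r * a⁻¹) := by group
    rw [e, hcfix, hra] at h1
    have h2 : c * c * r = r := by rw [mul_assoc]; exact h1
    exact mul_eq_right.mp h2
  have hc1 := eq_one_of_sq hp hp2 hR hcR hsq
  rw [hra, hc1, one_mul]

/-- Maximal invariant abelian subgroups are self centralizing. -/
theorem self_cent {A R B : Subgroup Γ} (hA : ∀ a ∈ A, a * a = 1) {p : ℕ} (hp : p.Prime) (hp2 : p ≠ 2)
    (hR : IsPGroup p R) (hAR : ∀ a ∈ A, ∀ x ∈ R, a * x * a⁻¹ ∈ R) (hBR : B ≤ R)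
    (hBc : ∀ x ∈ B, ∀ y ∈ B, x * y = y * x) (hBA : ∀ a ∈ A, ∀ x ∈ B, a * x * a⁻¹ ∈ B)
    (hmax : ∀ B' : Subgroup Γ, B' ≤ R → (∀ x ∈ B', ∀ y ∈ B', x * y = y * x) →
      (∀ a ∈ A, ∀ x ∈ B', a * x * a⁻¹ ∈ B') → B ≤ B' → B' ≤ B) :
    ∀ x ∈ R, CC B x → x ∈ B := by
  classical
  intro x₀ hx₀R hx₀C
  by_contra hx₀B
  haveI : Fact p.Prime := ⟨hp⟩
  let C : Subgroup Γ := R ⊓ cen B
  have hBC : B ≤ C := fun x hx => ⟨hBR hx, fun u hu => hBc x hx u hu⟩
  let B₁ : Subgroup C := B.subgroupOf C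
  haveI hB₁ : B₁.Normal := by
    constructor
    intro n hn g
    have h1 : (n : Γ) ∈ B := hn
    show ((g * n * g⁻¹ : C) : Γ) ∈ B
    have h2 : (g : Γ) * n = n * g := g.2.2 n h1
    have e : ((g * n * g⁻¹ : C) : Γ) = n := by
      simp only [Subgroup.coe_mul, Subgroup.coe_inv]
      rw [h2]
      group
    rw [e]
    exact h1
  let Q := C ⧸ B₁
  have hCp : IsPGroup p C := hR.to_le inf_le_left
  have hQp : IsPGroup p Q := hCp.to_quotient B₁
  have hQnt : Nontrivial Q := by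
    refine ⟨QuotientGroup.mk (⟨x₀, hx₀R, hx₀C⟩ : C), 1, ?_⟩
    intro h
    exact hx₀B ((QuotientGroup.eq_one_iff (⟨x₀, hx₀R, hx₀C⟩ : C)).mp h)
  have hZnt := hQp.center_nontrivial
  have hZp : IsPGroup p (Subgroup.center Q) := hQp.to_subgroup _
  have hdvd : p ∣ Nat.card (Subgroup.center Q) := by
    obtain ⟨k, hk⟩ := IsPGroup.iff_card.mp hZp
    have hk0 : k ≠ 0 := by
      rintro rfl
      have : Nat.card (Subgroup.center Q) = 1 := by simpa using hk
      exact (Finite.one_lt_card (α := Subgroup.center Q)).ne' this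
    rw [hk]
    exact dvd_pow_self p hk0
  obtain ⟨w₀, hw₀⟩ := exists_prime_orderOf_dvd_card' (G := Subgroup.center Q) p hdvd
  -- the action
  have hmemC : ∀ a ∈ A, ∀ g ∈ C, a * g * a⁻¹ ∈ C := by
    intro a ha g hg
    refine ⟨hAR a ha g hg.1, ?_⟩
    intro u hu
    have hai : a⁻¹ = a := inv_eq_of_mul_eq_one_left (hA a ha)
    have h1 : a * u * a⁻¹ ∈ B := hBA a ha u hu
    have h2 := hg.2 _ h1
    have e1 : a * g * a⁻¹ * u = a * (g * (a * u * a⁻¹)) * a⁻¹ := by
      rw [hai]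
      calc a * g * a * u = a * g * (a * u * (a * a)) := by rw [hA a ha, mul_one]; group
        _ = _ := by group
    have e2 : u * (a * g * a⁻¹) = a * ((a * u * a⁻¹) * g) * a⁻¹ := by
      rw [hai]
      calc u * (a * g * a) = (a * a) * u * (a * g * a) := by rw [hA a ha, one_mul]
        _ = _ := by group
    rw [e1, e2, h2]
  let cn : A → C →* C := fun a =>
    { toFun := fun g => ⟨(a : Γ) * g * (a : Γ)⁻¹, hmemC a a.2 g g.2⟩
      map_one' := by
        apply Subtype.ext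
        simp
      map_mul' := by
        intro g h
        apply Subtype.ext
        show (a : Γ) * ((g : Γ) * h) * (a : Γ)⁻¹ = (a : Γ) * g * (a : Γ)⁻¹ * ((a : Γ) * h * (a : Γ)⁻¹)
        group }
  have hcnB : ∀ a : A, B₁ ≤ B₁.comap (cn a) := by
    intro a g hg
    exact hBA a a.2 g hg
  let φ : A → Q →* Q := fun a => QuotientGroup.map B₁ B₁ (cn a) (hcnB a)
  have hφmk : ∀ (a : A) (g : C), φ a (QuotientGroup.mk g) = QuotientGroup.mk (cn a g) := fun a g => rfl
  have hinv : ∀ a x, φ a (φ a x) = x := by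
    intro a x
    obtain ⟨g, rfl⟩ := QuotientGroup.mk_surjective x
    rw [hφmk, hφmk]
    congr 1
    apply Subtype.ext
    show (a : Γ) * ((a : Γ) * g * (a : Γ)⁻¹) * (a : Γ)⁻¹ = g
    have hai : (a : Γ)⁻¹ = a := inv_eq_of_mul_eq_one_left (hA a a.2)
    rw [hai]
    calc (a : Γ) * ((a : Γ) * g * a) * a = ((a : Γ) * a) * g * ((a : Γ) * a) := by
          simp only [mul_assoc]
      _ = g := by rw [hA a a.2]; simp
  have hcomm : ∀ a b x, φ a (φ b x) = φ b (φ a x) := by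
    intro a b x
    obtain ⟨g, rfl⟩ := QuotientGroup.mk_surjective x
    rw [hφmk, hφmk, hφmk, hφmk]
    congr 1
    apply Subtype.ext
    show (a : Γ) * ((b : Γ) * g * (b : Γ)⁻¹) * (a : Γ)⁻¹ = (b : Γ) * ((a : Γ) * g * (a : Γ)⁻¹) * (b : Γ)⁻¹
    have h1 := comm_of_inv hA a.2 b.2
    have e1 : (a : Γ) * ((b : Γ) * g * (b : Γ)⁻¹) * (a : Γ)⁻¹ = ((a : Γ) * b) * g * ((a : Γ) * b)⁻¹ := by
      group
    have e2 : (b : Γ) * ((a : Γ) * g * (a : Γ)⁻¹) * (b : Γ)⁻¹ = ((b : Γ) * a) * g * ((b : Γ) * a)⁻¹ := by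
      group
    rw [e1, e2, h1]
  have hφZ : ∀ a, ∀ x ∈ Subgroup.center Q, φ a x ∈ Subgroup.center Q := by
    intro a x hx
    rw [Subgroup.mem_center_iff]
    intro y
    have h1 := Subgroup.mem_center_iff.mp hx (φ a y)
    have h2 := congrArg (φ a) h1
    rw [map_mul, map_mul, hinv] at h2
    exact h2
  obtain ⟨w, hwZ, hw1, -, hw3, -⟩ := eigenSub (Z := Subgroup.center Q)
    (fun x hx y hy => (Subgroup.mem_center_iff.mp hy x)) φ hφZ hinv hcomm
    (hp.odd_of_ne_two hp2) (w₀ := (w₀ : Q)) w₀.2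
    (by
      intro h
      have h1 : w₀ = 1 := Subtype.ext h
      rw [h1, orderOf_one] at hw₀
      exact hp.one_lt.ne hw₀)
    (by
      have := congrArg Subtype.val (show w₀ ^ p = 1 by rw [← hw₀]; exact pow_orderOf_eq_one _)
      exact this) ∅ (by simp)
  obtain ⟨z, rfl⟩ := QuotientGroup.mk_surjective w
  let B' : Subgroup Γ := Subgroup.closure ((B : Set Γ) ∪ {(z : Γ)})
  have hgen : ∀ u ∈ (B : Set Γ) ∪ {(z : Γ)}, ∀ v ∈ (B : Set Γ) ∪ {(z : Γ)}, u * v = v * u := by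
    rintro u (hu | rfl) v (hv | rfl)
    · exact hBc u hu v hv
    · exact (z.2.2 u hu).symm
    · exact z.2.2 v hv
    · rfl
  have hBB' : B ≤ B' := fun x hx => Subgroup.subset_closure (Or.inl hx)
  have hzB' : (z : Γ) ∈ B' := Subgroup.subset_closure (Or.inr rfl)
  have hle := hmax B' ?_ ?_ ?_ hBB'
  · apply hw1
    exact (QuotientGroup.eq_one_iff _).mpr (hle hzB')
  · rw [Subgroup.closure_le]
    rintro u (hu | rfl)
    · exact hBR hu
    · exact z.2.1
  · intro x hx y hy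
    exact congrArg Subtype.val ((Subgroup.closureCommGroupOfComm hgen).mul_comm ⟨x, hx⟩ ⟨y, hy⟩)
  · intro a ha x hx
    induction hx using Subgroup.closure_induction with
    | mem u hu =>
      rcases hu with hu | rfl
      · exact hBB' (hBA a ha u hu)
      · rcases hw3 ⟨a, ha⟩ with h | h
        · rw [hφmk] at h
          have h1 := QuotientGroup.eq.mp h
          have h2 : (z : Γ)⁻¹ * (a * z * a⁻¹) ∈ B := by
            have h3 : (cn ⟨a, ha⟩ z)⁻¹ * z ∈ B₁ := h1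
            have h4 : (((cn ⟨a, ha⟩ z)⁻¹ * z : C) : Γ) ∈ B := h3
            have h5 : (((cn ⟨a, ha⟩ z)⁻¹ * z : C) : Γ) = (a * z * a⁻¹)⁻¹ * z := rfl
            rw [h5] at h4
            have h6 := B.inv_mem h4
            simpa using h6
          have e : a * (z : Γ) * a⁻¹ = z * ((z : Γ)⁻¹ * (a * z * a⁻¹)) := by group
          rw [e]
          exact B'.mul_mem hzB' (hBB' h2)
        · rw [hφmk, ← QuotientGroup.mk_inv] at h
          have h1 := QuotientGroup.eq.mp h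
          have h4 : (((cn ⟨a, ha⟩ z)⁻¹ * z⁻¹ : C) : Γ) ∈ B := h1
          have h5 : (((cn ⟨a, ha⟩ z)⁻¹ * z⁻¹ : C) : Γ) = (a * z * a⁻¹)⁻¹ * (z : Γ)⁻¹ := rfl
          rw [h5] at h4
          have e : a * (z : Γ) * a⁻¹ = (z : Γ)⁻¹ * ((a * z * a⁻¹)⁻¹ * (z : Γ)⁻¹)⁻¹ := by group
          rw [e]
          exact B'.mul_mem (B'.inv_mem hzB') (B'.inv_mem (hBB' h4))
    | one => simp
    | mul u v _ _ hu hv =>
      have e : a * (u * v) * a⁻¹ = (a * u * a⁻¹) * (a * v * a⁻¹) := by group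
      rw [e]
      exact B'.mul_mem hu hv
    | inv u _ hu =>
      have e : a * u⁻¹ * a⁻¹ = (a * u * a⁻¹)⁻¹ := by group
      rw [e]
      exact B'.inv_mem hu

/-- A good abelian subgroup of the core. -/
theorem exists_B {A R : Subgroup Γ} (hA : ∀ a ∈ A, a * a = 1) {p : ℕ} (hp : p.Prime) (hp2 : p ≠ 2)
    (hR : IsPGroup p R) (hAR : ∀ a ∈ A, ∀ x ∈ R, a * x * a⁻¹ ∈ R) :
    ∃ B : Subgroup Γ, B ≤ R ∧ (∀ x ∈ B, ∀ y ∈ B, x * y = y * x) ∧
      (∀ a ∈ A, ∀ x ∈ B, a * x * a⁻¹ ∈ B) ∧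
      ∀ a ∈ A, (∀ x ∈ B, a * x * a⁻¹ = x) → ∀ x ∈ R, a * x * a⁻¹ = x := by
  classical
  let AIN : Set (Subgroup Γ) := {B | B ≤ R ∧ (∀ x ∈ B, ∀ y ∈ B, x * y = y * x) ∧
    ∀ a ∈ A, ∀ x ∈ B, a * x * a⁻¹ ∈ B}
  have hne : AIN.Nonempty := ⟨⊥, bot_le, by
    intro x hx y hy
    rw [Subgroup.mem_bot] at hx hy
    rw [hx, hy], by
    intro a _ x hx
    rw [Subgroup.mem_bot] at hx ⊢
    rw [hx]
    simp⟩
  obtain ⟨B, hB⟩ := (Set.toFinite AIN).exists_maximal hne
  obtain ⟨h1, h2, h3⟩ := hB.prop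
  refine ⟨B, h1, h2, h3, ?_⟩
  intro a ha hab
  apply ab_inv hp hp2 hR h1 _ (hA a ha) (hAR a ha) hab
  apply self_cent hA hp hp2 hR hAR h1 h2 h3
  intro B' h4 h5 h6 h7
  exact hB.le_of_ge ⟨h4, h5, h6⟩ h7

/-- Eigenelements. -/
theorem exists_eig {A B : Subgroup Γ} (hA : ∀ a ∈ A, a * a = 1) {p : ℕ} (hp : p.Prime) (hp2 : p ≠ 2)
    (hBp : IsPGroup p B) (hBc : ∀ x ∈ B, ∀ y ∈ B, x * y = y * x)
    (hBA : ∀ a ∈ A, ∀ x ∈ B, a * x * a⁻¹ ∈ B) {a₀ b : Γ} (ha₀ : a₀ ∈ A) (hb : b ∈ B)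
    (hne : a₀ * b * a₀⁻¹ ≠ b) :
    ∃ y ∈ B, orderOf y = p ∧ (∀ a ∈ A, a * y * a⁻¹ = y ∨ a * y * a⁻¹ = y⁻¹) ∧
      a₀ * y * a₀⁻¹ = y⁻¹ := by
  classical
  haveI : Fact p.Prime := ⟨hp⟩
  have ha₀i : a₀⁻¹ = a₀ := inv_eq_of_mul_eq_one_left (hA a₀ ha₀)
  set t := b * (a₀ * b * a₀⁻¹)⁻¹ with ht
  have htB : t ∈ B := B.mul_mem hb (B.inv_mem (hBA a₀ ha₀ b hb))
  have ht1 : t ≠ 1 := by
    intro h
    apply hne
    have := mul_inv_eq_one.mp h
    exact this.symm
  have htinv : a₀ * t * a₀⁻¹ = t⁻¹ := by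
    have e : a₀ * t * a₀⁻¹ = (a₀ * b * a₀⁻¹) * (a₀ * (a₀ * b * a₀⁻¹)⁻¹ * a₀⁻¹) := by
      rw [ht]; group
    have e2 : a₀ * (a₀ * b * a₀⁻¹)⁻¹ * a₀⁻¹ = b⁻¹ := by
      rw [ha₀i]
      calc a₀ * (a₀ * b * a₀)⁻¹ * a₀ = a₀ * (a₀⁻¹ * b⁻¹ * a₀⁻¹) * a₀ := by group
        _ = b⁻¹ := by group
    rw [e, e2, ht, mul_inv_rev, inv_inv]
  -- a power of prime order
  obtain ⟨k, hk⟩ := hBp ⟨t, htB⟩
  have hk' : t ^ p ^ k = 1 := congrArg Subtype.val hk
  obtain ⟨m, -, hm⟩ := (Nat.dvd_prime_pow hp).mp (orderOf_dvd_of_pow_eq_one hk')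
  have hm0 : m ≠ 0 := by
    rintro rfl
    apply ht1
    rw [pow_zero] at hm
    exact orderOf_eq_one_iff.mp hm
  obtain ⟨n, rfl⟩ : ∃ n, m = n + 1 := ⟨m - 1, by omega⟩
  set t₁ := t ^ p ^ n with ht₁
  have ht₁p : t₁ ^ p = 1 := by
    rw [ht₁, ← pow_mul, ← pow_succ, ← hm, pow_orderOf_eq_one]
  have ht₁1 : t₁ ≠ 1 := by
    apply pow_ne_one_of_lt_orderOf
    · exact (pow_pos hp.pos n).ne'
    · rw [hm]
      exact Nat.pow_lt_pow_right hp.one_lt (by omega)
  have ht₁B : t₁ ∈ B := B.pow_mem htB _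
  have ht₁inv : a₀ * t₁ * a₀⁻¹ = t₁⁻¹ := by
    rw [ht₁, ← conj_pow, htinv, inv_pow]
  let φ : A → Γ →* Γ := fun a => (MulAut.conj (a : Γ)).toMonoidHom
  have hφ : ∀ (a : A) x, φ a x = (a : Γ) * x * (a : Γ)⁻¹ := fun a x => rfl
  obtain ⟨y, hy, hy1, hyp, hy3, hy4⟩ := eigenSub (Z := B) hBc φ (fun a x hx => hBA a a.2 x hx)
    (by
      intro a x
      rw [hφ, hφ]
      have hai : (a : Γ)⁻¹ = a := inv_eq_of_mul_eq_one_left (hA a a.2)
      rw [hai]
      calc (a : Γ) * ((a : Γ) * x * a) * a = ((a : Γ) * a) * x * ((a : Γ) * a) := by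
            simp only [mul_assoc]
        _ = x := by rw [hA a a.2]; simp)
    (by
      intro a b x
      rw [hφ, hφ, hφ, hφ]
      have h1 := comm_of_inv hA a.2 b.2
      have e1 : (a : Γ) * ((b : Γ) * x * (b : Γ)⁻¹) * (a : Γ)⁻¹ = ((a : Γ) * b) * x * ((a : Γ) * b)⁻¹ := by
        group
      have e2 : (b : Γ) * ((a : Γ) * x * (a : Γ)⁻¹) * (b : Γ)⁻¹ = ((b : Γ) * a) * x * ((b : Γ) * a)⁻¹ := by
        group
      rw [e1, e2, h1])
    (hp.odd_of_ne_two hp2) ht₁B ht₁1 ht₁p {⟨a₀, ha₀⟩} (by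
      intro j hj
      rw [Set.mem_singleton_iff] at hj
      subst hj
      exact ht₁inv)
  refine ⟨y, hy, orderOf_eq_prime hyp hy1, ?_, hy4 _ rfl⟩
  intro a ha
  exact hy3 ⟨a, ha⟩

/-- The core theorem, relative to the interface. -/
theorem core_of_XD {V : Type*} [AddCommGroup V] [Module (ZMod 2) V] [Finite V]
    (ρ : Γ →* Module.End (ZMod 2) V) (hinj : Function.Injective ρ) (hO : pCore 2 Γ = ⊥)
    (hS : ¬ Involves (Equiv.Perm (Fin 3)) Γ)
    (hXD : ∀ K : Subgroup Γ, IsComponent K → ∃ τ D : ℕ, XD (K ⧸ Subgroup.center K) τ D)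
    (A : Subgroup Γ) (hA : ∀ a ∈ A, a * a = 1) (n : ℕ) (hn : Nat.card A = 2 ^ n) :
    2 * n + dm ((⊤ : Submodule (ZMod 2) V) ⊓ fxS ρ A) ≤ dm (⊤ : Submodule (ZMod 2) V) := by
  classical
  -- good abelian subgroups
  have hcore : ∀ p : ℕ, ∃ B : Subgroup Γ, p.Prime → p ≠ 2 → (B ≤ pCore p Γ ∧
      (∀ x ∈ B, ∀ y ∈ B, x * y = y * x) ∧ (∀ a ∈ A, ∀ x ∈ B, a * x * a⁻¹ ∈ B) ∧
      ∀ a ∈ A, (∀ x ∈ B, a * x * a⁻¹ = x) → ∀ x ∈ pCore p Γ, a * x * a⁻¹ = x) := by
    intro p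
    by_cases hp : p.Prime
    · by_cases hp2 : p ≠ 2
      · haveI : Fact p.Prime := ⟨hp⟩
        obtain ⟨B, hB⟩ := exists_B hA hp hp2 (isPGroup_pCore (G := Γ) p)
          (fun a _ x hx => (inferInstance : (pCore p Γ).Normal).conj_mem x hx a)
        exact ⟨B, fun _ _ => hB⟩
      · exact ⟨⊥, fun _ h => absurd h hp2⟩
    · exact ⟨⊥, fun h => absurd h hp⟩
  choose B hB using hcore
  let Eig : Set (Subgroup Γ) := {P | ∃ (p : ℕ) (y : Γ), p.Prime ∧ p ≠ 2 ∧ orderOf y = p ∧ y ∈ B p ∧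
    (∀ a ∈ A, a * y * a⁻¹ = y ∨ a * y * a⁻¹ = y⁻¹) ∧ P = Subgroup.zpowers y}
  let Ps : Set (Subgroup Γ) := {K | IsComponent K} ∪ Eig
  have hcycp : ∀ (p : ℕ) (y : Γ), p.Prime → p ≠ 2 → orderOf y = p →
      (∀ a ∈ A, a * y * a⁻¹ = y ∨ a * y * a⁻¹ = y⁻¹) → CycP A (Subgroup.zpowers y) y p := by
    intro p y hp hp2 hord h
    refine ⟨rfl, hp, hp2, hord, ?_⟩
    intro a ha
    rcases h a ha with h1 | h1
    · exact Or.inl h1
    · right
      refine ⟨h1, ?_⟩
      rintro rfl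
      apply hS
      refine S3_of_section (M := ⊤) (C := ⊥) ?_ (b := a) (v := y) trivial trivial ?_ ?_ ?_ ?_
      · constructor
        intro n hn g
        rw [Subgroup.mem_subgroupOf, Subgroup.mem_bot] at hn ⊢
        simp [hn]
      · rw [hA a ha]
        exact Subgroup.one_mem _
      · rw [Subgroup.mem_bot]
        rintro rfl
        rw [orderOf_one] at hord
        omega
      · rw [Subgroup.mem_bot, ← hord]
        exact pow_orderOf_eq_one y
      · rw [Subgroup.mem_bot, h1, inv_mul_cancel]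
  have hcp : ∀ {p : ℕ}, p.Prime → p ≠ 2 → ∀ {y : Γ}, y ∈ B p → y ∈ pCore p Γ := by
    intro p hp hp2 y hy
    exact (hB p hp hp2).1 hy
  have hnormO : ∀ (a : Γ) (p : ℕ), ∀ x ∈ pCore p Γ, a * x * a⁻¹ ∈ pCore p Γ := by
    intro a p x hx
    exact (inferInstance : (pCore p Γ).Normal).conj_mem x hx a
  have hSetup : Setup ρ A Ps ⊤ := by
    refine ⟨hA, fun _ _ _ _ => trivial, fun _ _ _ _ _ _ => trivial, ?_, ?_, ?_, ?_⟩
    · -- permutation
      rintro a ha P (hP | ⟨p, y, hp, hp2, hord, hy, hact, rfl⟩)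
      · left
        exact comp_conj hP a
      · right
        rw [(hcycp p y hp hp2 hord hact).norm ha]
        exact ⟨p, y, hp, hp2, hord, hy, hact, rfl⟩
    · -- commuting
      have hKO : ∀ (K : Subgroup Γ), IsComponent K → ∀ (p : ℕ), p.Prime → ∀ u ∈ K, ∀ v ∈ pCore p Γ,
          u * v = v * u := by
        intro K hK p hp u hu v hv
        haveI : Fact p.Prime := ⟨hp⟩
        exact (commutator_eq_bot_iff_elementwise.mp (comp_commute_pCore p hK)) u hu v hv
      have hOO : ∀ (p q : ℕ) (y z : Γ), p.Prime → p ≠ 2 → q.Prime → q ≠ 2 → y ∈ B p → z ∈ B q →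
          y * z = z * y := by
        intro p q y z hp hp2 hq hq2 hy hz
        by_cases hpq : p = q
        · subst hpq
          exact (hB p hp hp2).2.1 y hy z hz
        · haveI : Fact p.Prime := ⟨hp⟩
          haveI : Fact q.Prime := ⟨hq⟩
          have hdis : Disjoint (pCore p Γ) (pCore q Γ) :=
            IsPGroup.disjoint_of_ne p q hpq _ _ (isPGroup_pCore p) (isPGroup_pCore q)
          exact Subgroup.commute_of_normal_of_disjoint _ _ inferInstance inferInstance hdis y z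
            (hcp hp hp2 hy) (hcp hq hq2 hz)
      rintro P (hP | ⟨p, y, hp, hp2, hord, hy, hact, rfl⟩) Q (hQ | ⟨q, z, hq, hq2, hord2, hz, hact2, rfl⟩) hne u hu v hv
      · exact (commutator_eq_bot_iff_elementwise.mp (comp_commute_of_ne hP hQ hne)) u hu v hv
      · obtain ⟨k, rfl⟩ := Subgroup.mem_zpowers_iff.mp hv
        exact hKO P hP q hq u hu _ (Subgroup.zpow_mem _ (hcp hq hq2 hz) k)
      · obtain ⟨k, rfl⟩ := Subgroup.mem_zpowers_iff.mp hu
        exact (hKO Q hQ p hp v hv _ (Subgroup.zpow_mem _ (hcp hp hp2 hy) k)).symm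
      · obtain ⟨k, rfl⟩ := Subgroup.mem_zpowers_iff.mp hu
        obtain ⟨m, rfl⟩ := Subgroup.mem_zpowers_iff.mp hv
        have h1 : Commute y z := hOO p q y z hp hp2 hq hq2 hy hz
        exact (h1.zpow_zpow k m).eq
    · -- faithfulness
      intro a ha hall
      have hai := hA a ha
      have hcomp : ∀ K : Subgroup Γ, IsComponent K → CC K a := fun K hK => hall K (Or.inl hK)
      have hcoreC : ∀ p : ℕ, p.Prime → ∀ x ∈ pCore p Γ, a * x = x * a := by
        intro p hp x hx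
        by_cases hp2 : p = 2
        · subst hp2
          rw [hO, Subgroup.mem_bot] at hx
          rw [hx]
          simp
        · haveI : Fact p.Prime := ⟨hp⟩
          obtain ⟨h1, h2, h3, h4⟩ := hB p hp hp2
          have hBtriv : ∀ u ∈ B p, a * u * a⁻¹ = u := by
            intro u hu
            by_contra hne
            obtain ⟨y, hy, hord, hact, hinv⟩ := exists_eig hA hp hp2
              ((isPGroup_pCore (G := Γ) p).to_le h1) h2 h3 ha hu hne
            have h5 : CC (Subgroup.zpowers y) a := hall _ (Or.inr ⟨p, y, hp, hp2, hord, hy, hact, rfl⟩)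
            have h6 : a * y * a⁻¹ = y := cc_zpowers.mp h5
            rw [h6] at hinv
            have h7 : y * y = 1 := by
              nth_rw 1 [hinv]
              simp
            have h8 := eq_one_of_sq hp hp2 (isPGroup_pCore (G := Γ) p) (hcp hp hp2 hy) h7
            rw [h8, orderOf_one] at hord
            exact hp.one_lt.ne hord
          have h5 := h4 a ha hBtriv x hx
          have e : a * x = a * x * a⁻¹ * a := by group
          rw [e, h5]
      have hFs : generalizedFittingSubgroup Γ ≤ Subgroup.centralizer {a} := by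
        apply sup_le
        · apply sSup_le
          intro K hK u hu
          rw [Subgroup.mem_centralizer_singleton_iff]
          exact (hcomp K hK u hu).symm
        · rw [fittingSubgroup_eq_iSup_pCore]
          apply iSup_le
          intro p u hu
          rw [Subgroup.mem_centralizer_singleton_iff]
          exact (hcoreC p p.2 u hu).symm
      have hacen : a ∈ Subgroup.centralizer (generalizedFittingSubgroup Γ : Set Γ) := by
        rw [Subgroup.mem_centralizer_iff]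
        intro g hg
        have := hFs hg
        rw [Subgroup.mem_centralizer_singleton_iff] at this
        exact this
      have haF := Cfsg.Agent.Lib.BenderPair.cen_fstar_le_fitting hacen
      haveI : Fact (Nat.Prime 2) := ⟨Nat.prime_two⟩
      have haO : a ∈ pCore 2 Γ :=
        Cfsg.Agent.Lib.BenderPair.mem_pCore_of_mem_fitting haF (k := 1) (by rw [pow_one, pow_two, hai])
      rw [hO, Subgroup.mem_bot] at haO
      exact haO
    · -- pieces
      rintro P (hP | ⟨p, y, hp, hp2, hord, hy, hact, rfl⟩)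
      · right
        obtain ⟨τ, D, hX⟩ := hXD P hP
        refine ⟨τ, D, kp_of_qs hP.2 hS hX hA, ?_⟩
        intro u hu hu2
        have h1 : ρ u = 1 := by
          ext v
          exact hu2 v trivial
        have h2 : u = 1 := hinj (by rw [h1, map_one])
        rw [h2]
        exact CC.one P
      · left
        refine ⟨y, p, hcycp p y hp hp2 hord hact, ?_⟩
        intro hu2
        have h1 : ρ y = 1 := by
          ext v
          exact hu2 v trivial
        have h2 : y = 1 := hinj (by rw [h1, map_one])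
        rw [h2, orderOf_one] at hord
        exact hp.one_lt.ne hord
  exact main_pieces ρ n A Ps ⊤ hSetup hn

end core

end Cfsg.Agent.Lib.TwoFactC2
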