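import Mathlib

/-!
Primitive groups of degree `2p`: tools.  A fixed point free element of order `p` in a transitive
group of degree `2p` gives a two by two matrix representation over `ℂ` of the invariant rational
matrices.  Everything is elementary; the only deep input is the irreducibility of the cyclotomic
polynomial.
-/

set_option autoImplicit false
set_option linter.unusedSectionVars false

namespace Cfsg.Agent.Lib.TwoP

open Matrix Finset Polynomial

section cyclo

variable (p : ℕ) [hp : Fact p.Prime]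

/-- A primitive `p`-th root of unity. -/
noncomputable def zeta : ℂ := Complex.exp (2 * Real.pi * Complex.I / p)

theorem zeta_prim : IsPrimitiveRoot (zeta p) p :=
  Complex.isPrimitiveRoot_exp p hp.out.ne_zero

/-- The additive character of `ZMod p` attached to `zeta p`. -/
noncomputable def psi (j : ZMod p) : ℂ := zeta p ^ j.val

theorem psi_zero : psi p 0 = 1 := by simp [psi, ZMod.val_zero]

theorem psi_add (i j : ZMod p) : psi p (i + j) = psi p i * psi p j := by
  unfold psi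
  rw [ZMod.val_add, ← pow_add]
  exact (pow_eq_pow_mod _ (zeta_prim p).pow_eq_one).symm

theorem sum_zmod_val {M : Type*} [AddCommMonoid M] (g : ℕ → M) :
    ∑ j : ZMod p, g j.val = ∑ i ∈ range p, g i := by
  refine Finset.sum_nbij' (fun j => j.val) (fun i => (i : ZMod p)) ?_ ?_ ?_ ?_ ?_
  · intro j _
    exact Finset.mem_range.2 (ZMod.val_lt j)
  · intro i _
    exact Finset.mem_univ _
  · intro j _
    exact ZMod.natCast_zmod_val j
  · intro i hi
    exact ZMod.val_cast_of_lt (Finset.mem_range.1 hi)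
  · intro j _
    rfl

theorem sum_psi : ∑ j, psi p j = 0 := by
  unfold psi
  rw [sum_zmod_val p (fun i => zeta p ^ i)]
  exact (zeta_prim p).geom_sum_eq_zero hp.out.one_lt

/-- Rational coefficient vectors killed by the evaluation at `zeta p` are constant. -/
theorem const_of_ev_zero (f : ZMod p → ℚ) (h : ∑ j, (f j : ℂ) * psi p j = 0) (j : ZMod p) :
    f j = f 0 := by
  classical
  have hp1 := hp.out
  let g : ℚ[X] := ∑ i ∈ range p, C (f (i : ZMod p)) * X ^ i
  have hg : aeval (zeta p) g = 0 := by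
    have h1 : aeval (zeta p) g = ∑ i ∈ range p, (f (i : ZMod p) : ℂ) * zeta p ^ i := by
      simp only [g, map_sum, map_mul, aeval_C, map_pow, aeval_X]
      refine Finset.sum_congr rfl fun i _ => ?_
      simp
    rw [h1, ← sum_zmod_val p (fun i => (f (i : ZMod p) : ℂ) * zeta p ^ i)]
    simp only [ZMod.natCast_zmod_val]
    exact h
  have hcoef : ∀ i, i < p → g.coeff i = f (i : ZMod p) := by
    intro i hi
    simp only [g, finsetSum_coeff, coeff_C_mul, coeff_X_pow]
    rw [Finset.sum_eq_single i]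
    · simp
    · intro b _ hb
      rw [if_neg (Ne.symm hb), mul_zero]
    · intro hi'
      exact absurd (Finset.mem_range.2 hi) hi'
  have hdvd : cyclotomic p ℚ ∣ g := by
    rw [cyclotomic_eq_minpoly_rat (zeta_prim p) hp1.pos]
    exact minpoly.dvd ℚ (zeta p) hg
  have hval : ∀ i, i < p → f (i : ZMod p) = f 0 := by
    by_cases hg0 : g = 0
    · intro i hi
      have h1 := hcoef i hi
      have h2 := hcoef 0 hp1.pos
      rw [hg0] at h1 h2
      simp only [coeff_zero, Nat.cast_zero] at h1 h2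
      rw [← h1, h2]
    · obtain ⟨q, hq⟩ := hdvd
      have hq0 : q ≠ 0 := by
        rintro rfl
        exact hg0 (by rw [hq, mul_zero])
      have hΦ : cyclotomic p ℚ ≠ 0 := cyclotomic_ne_zero p ℚ
      have hdeg := natDegree_mul hΦ hq0
      rw [← hq, natDegree_cyclotomic, Nat.totient_prime hp1] at hdeg
      have hle : g.natDegree ≤ p - 1 := by
        refine natDegree_sum_le_of_forall_le _ _ fun i hi => ?_
        refine (natDegree_C_mul_X_pow_le _ _).trans ?_
        have := Finset.mem_range.1 hi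
        omega
      have hq1 : q.natDegree = 0 := by omega
      obtain ⟨c, rfl⟩ : ∃ c, q = C c := ⟨_, eq_C_of_natDegree_eq_zero hq1⟩
      have hcy : ∀ i, i < p → g.coeff i = c := by
        intro i hi
        rw [hq, cyclotomic_prime, mul_comm, coeff_C_mul, finsetSum_coeff]
        rw [Finset.sum_eq_single i]
        · simp
        · intro b _ hb
          rw [coeff_X_pow, if_neg (Ne.symm hb)]
        · intro hi'
          exact absurd (Finset.mem_range.2 hi) hi'
      intro i hi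
      have h1 := hcoef i hi
      have h2 := hcoef 0 hp1.pos
      rw [hcy i hi] at h1
      rw [hcy 0 hp1.pos] at h2
      simp only [Nat.cast_zero] at h2
      rw [← h1, h2]
  have := hval j.val (ZMod.val_lt j)
  rwa [ZMod.natCast_zmod_val] at this

end cyclo

section twobytwo

theorem trace_two (M : Matrix (Fin 2) (Fin 2) ℂ) : M.trace = M 0 0 + M 1 1 := by
  simp [Matrix.trace, Fin.sum_univ_two]

/-- The trace of a two by two idempotent. -/
theorem idem_trace (M : Matrix (Fin 2) (Fin 2) ℂ) (h : M * M = M) :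
    M.trace = 0 ∨ M.trace = 1 ∨ M.trace = 2 := by
  have h00 := congrFun (congrFun h 0) 0
  have h01 := congrFun (congrFun h 0) 1
  have h10 := congrFun (congrFun h 1) 0
  have h11 := congrFun (congrFun h 1) 1
  simp only [Matrix.mul_apply, Fin.sum_univ_two] at h00 h01 h10 h11
  rw [trace_two]
  by_cases h1 : M 0 0 + M 1 1 = 1
  · exact Or.inr (Or.inl h1)
  -- otherwise off diagonal vanishes
  have hb : M 0 1 = 0 := by
    have : M 0 1 * (M 0 0 + M 1 1 - 1) = 0 := by linear_combination h01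
    rcases mul_eq_zero.1 this with h2 | h2
    · exact h2
    · exact absurd (sub_eq_zero.1 h2) h1
  have hc : M 1 0 = 0 := by
    have : M 1 0 * (M 0 0 + M 1 1 - 1) = 0 := by linear_combination h10
    rcases mul_eq_zero.1 this with h2 | h2
    · exact h2
    · exact absurd (sub_eq_zero.1 h2) h1
  rw [hb] at h00
  have ha : M 0 0 = 0 ∨ M 0 0 = 1 := by
    have : M 0 0 * (M 0 0 - 1) = 0 := by linear_combination h00
    rcases mul_eq_zero.1 this with h2 | h2
    · exact Or.inl h2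
    · exact Or.inr (sub_eq_zero.1 h2)
  have hd : M 1 1 = 0 ∨ M 1 1 = 1 := by
    have : M 1 1 * (M 1 1 - 1) = 0 := by
      rw [hc, zero_mul, zero_add] at h11
      linear_combination h11
    rcases mul_eq_zero.1 this with h2 | h2
    · exact Or.inl h2
    · exact Or.inr (sub_eq_zero.1 h2)
  rcases ha with ha | ha <;> rcases hd with hd | hd <;> rw [ha, hd] <;> norm_num

/-- A rank one idempotent absorbs. -/
theorem rank_one_sandwich (F X : Matrix (Fin 2) (Fin 2) ℂ) (h : F * F = F) (ht : F.trace = 1) :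
    F * X * F = (F * X).trace • F := by
  have h00 := congrFun (congrFun h 0) 0
  simp only [Matrix.mul_apply, Fin.sum_univ_two] at h00
  rw [trace_two] at ht
  have hd : F 1 1 = 1 - F 0 0 := by linear_combination ht
  have hbc : F 0 1 * F 1 0 = F 0 0 * F 1 1 := by
    rw [hd]
    linear_combination h00
  ext i j
  fin_cases i <;> fin_cases j <;>
    simp only [Matrix.mul_apply, Fin.sum_univ_two, Matrix.smul_apply, smul_eq_mul, trace_two,
      Fin.zero_eta, Fin.mk_one, Fin.isValue]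
  · linear_combination (X 1 1) * hbc
  · linear_combination (- X 0 1) * hbc
  · linear_combination (- X 1 0) * hbc
  · linear_combination (X 0 0) * hbc

end twobytwo

section blocks

variable {p : ℕ} [hp : Fact p.Prime] {Ω : Type*} [Fintype Ω] [DecidableEq Ω]
  (φ : ZMod p × Fin 2 ≃ Ω)

/-- Invariance under the shift. -/
def ShiftInv (A : Matrix Ω Ω ℚ) : Prop :=
  ∀ (c i : ZMod p) (e : Fin 2) (j : ZMod p) (f : Fin 2),
    A (φ (i + c, e)) (φ (j + c, f)) = A (φ (i, e)) (φ (j, f))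

/-- The blocks of a matrix. -/
def bl (A : Matrix Ω Ω ℚ) (e f : Fin 2) (j : ZMod p) : ℚ := A (φ (0, e)) (φ (j, f))

theorem ShiftInv.apply {φ : ZMod p × Fin 2 ≃ Ω} {A : Matrix Ω Ω ℚ} (h : ShiftInv φ A) (i : ZMod p)
    (e : Fin 2) (j : ZMod p) (f : Fin 2) :
    A (φ (i, e)) (φ (j, f)) = bl φ A e f (j - i) := by
  unfold bl
  have := h i 0 e (j - i) f
  simpa using this

/-- Evaluation at the root of unity. -/
noncomputable def ev (f : ZMod p → ℚ) : ℂ := ∑ j, (f j : ℂ) * psi p j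

/-- The two by two matrix attached to a matrix. -/
noncomputable def Mm (A : Matrix Ω Ω ℚ) : Matrix (Fin 2) (Fin 2) ℂ := fun e f => ev (bl φ A e f)

theorem ev_add (f g : ZMod p → ℚ) : ev (fun j => f j + g j) = ev f + ev g := by
  unfold ev
  rw [← Finset.sum_add_distrib]
  refine Finset.sum_congr rfl fun j _ => ?_
  push_cast
  ring

theorem ev_smul (c : ℚ) (f : ZMod p → ℚ) : ev (fun j => c * f j) = (c : ℂ) * ev f := by
  unfold ev
  rw [Finset.mul_sum]
  refine Finset.sum_congr rfl fun j _ => ?_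
  push_cast
  ring

theorem ev_delta (c : ℚ) : ev (fun j : ZMod p => if j = 0 then c else 0) = (c : ℂ) := by
  unfold ev
  rw [Finset.sum_eq_single 0]
  · simp [psi_zero]
  · intro b _ hb
    simp [hb]
  · simp

theorem ev_const (c : ℚ) : ev (fun _ : ZMod p => c) = 0 := by
  unfold ev
  rw [← Finset.mul_sum, sum_psi, mul_zero]

/-- Functions killed by `ev` are constant. -/
theorem const_of_ev (f : ZMod p → ℚ) (h : ev f = 0) (j : ZMod p) : f j = f 0 :=
  const_of_ev_zero p f h j

theorem ev_mul (f g : ZMod p → ℚ) :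
    ev (fun j => ∑ i, f i * g (j - i)) = ev f * ev g := by
  unfold ev
  rw [Finset.sum_mul_sum]
  have h1 : ∀ j, (((∑ i, f i * g (j - i) : ℚ)) : ℂ) * psi p j =
      ∑ i, ((f i : ℂ) * psi p i) * ((g (j - i) : ℂ) * psi p (j - i)) := by
    intro j
    push_cast
    rw [Finset.sum_mul]
    refine Finset.sum_congr rfl fun i _ => ?_
    have : psi p j = psi p i * psi p (j - i) := by
      rw [← psi_add]
      congr 1
      ring
    rw [this]
    ring
  simp only [h1]
  rw [Finset.sum_comm]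
  refine Finset.sum_congr rfl fun i _ => ?_
  exact Equiv.sum_comp (Equiv.subRight i) (fun l => (f i : ℂ) * psi p i * ((g l : ℂ) * psi p l))

theorem bl_mul {φ : ZMod p × Fin 2 ≃ Ω} {A B : Matrix Ω Ω ℚ} (hB : ShiftInv φ B) (e f : Fin 2)
    (j : ZMod p) :
    bl φ (A * B) e f j = ∑ g : Fin 2, ∑ i, bl φ A e g i * bl φ B g f (j - i) := by
  unfold bl
  rw [Matrix.mul_apply, ← Equiv.sum_comp φ, Fintype.sum_prod_type, Finset.sum_comm]
  refine Finset.sum_congr rfl fun g _ => Finset.sum_congr rfl fun i _ => ?_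
  rw [hB.apply]
  rfl

theorem Mm_mul {φ : ZMod p × Fin 2 ≃ Ω} {A B : Matrix Ω Ω ℚ} (hB : ShiftInv φ B) :
    Mm φ (A * B) = Mm φ A * Mm φ B := by
  ext e f
  rw [Matrix.mul_apply]
  unfold Mm
  have h0 : bl φ (A * B) e f = fun j => ∑ g : Fin 2, ∑ i, bl φ A e g i * bl φ B g f (j - i) :=
    funext (bl_mul hB e f)
  have h1 : ev (fun j => ∑ g : Fin 2, ∑ i, bl φ A e g i * bl φ B g f (j - i)) =
      ∑ g : Fin 2, ev (fun j => ∑ i, bl φ A e g i * bl φ B g f (j - i)) := by
    simp only [Fin.sum_univ_two]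
    exact ev_add _ _
  show ev (bl φ (A * B) e f) = _
  rw [h0, h1]
  refine Finset.sum_congr rfl fun g _ => ?_
  exact ev_mul _ _

theorem Mm_add (A B : Matrix Ω Ω ℚ) : Mm φ (A + B) = Mm φ A + Mm φ B := by
  ext e f
  exact ev_add _ _

theorem Mm_smul (c : ℚ) (A : Matrix Ω Ω ℚ) : Mm φ (c • A) = (c : ℂ) • Mm φ A := by
  ext e f
  exact ev_smul c _

theorem Mm_one : Mm φ (1 : Matrix Ω Ω ℚ) = 1 := by
  ext e f
  show ev (bl φ 1 e f) = _
  have h1 : bl φ 1 e f = fun j => if j = 0 then (if e = f then (1 : ℚ) else 0) else 0 := by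
    funext j
    unfold bl
    rw [Matrix.one_apply]
    have : φ (0, e) = φ (j, f) ↔ j = 0 ∧ e = f := by
      rw [φ.injective.eq_iff, Prod.mk.injEq]
      exact ⟨fun h => ⟨h.1.symm, h.2⟩, fun h => ⟨h.1.symm, h.2⟩⟩
    simp only [this]
    by_cases hj : j = 0 <;> by_cases hef : e = f <;> simp [hj, hef]
  rw [h1, ev_delta, Matrix.one_apply]
  split_ifs <;> simp

/-- The all-one matrix. -/
def Jm (Ω : Type*) : Matrix Ω Ω ℚ := fun _ _ => 1

theorem Mm_J : Mm φ (Jm Ω) = 0 := by
  ext e f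
  exact ev_const 1

/-- The trace function of a matrix. -/
def Tr (A : Matrix Ω Ω ℚ) (j : ZMod p) : ℚ := bl φ A 0 0 j + bl φ A 1 1 j

theorem trace_Mm (A : Matrix Ω Ω ℚ) : (Mm φ A).trace = ev (Tr φ A) := by
  rw [trace_two]
  exact (ev_add _ _).symm

end blocks

section group

variable {p : ℕ} [hp : Fact p.Prime] {Ω : Type*} [Fintype Ω] [DecidableEq Ω]
  {φ : ZMod p × Fin 2 ≃ Ω} {G : Type*} [Group G] [MulAction G Ω]

/-- Matrices invariant under the group. -/
def IsInv (G : Type*) [Group G] [MulAction G Ω] (A : Matrix Ω Ω ℚ) : Prop :=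
  ∀ (g : G) (x y : Ω), A (g • x) (g • y) = A x y

theorem IsInv.add {A B : Matrix Ω Ω ℚ} (hA : IsInv G A) (hB : IsInv G B) : IsInv G (A + B) :=
  fun g x y => by simp [hA g x y, hB g x y]

theorem IsInv.smul {A : Matrix Ω Ω ℚ} (c : ℚ) (hA : IsInv G A) : IsInv G (c • A) :=
  fun g x y => by simp [hA g x y]

theorem IsInv.one : IsInv G (1 : Matrix Ω Ω ℚ) := fun g x y => by
  simp [Matrix.one_apply]

theorem IsInv.J : IsInv G (Jm Ω) := fun _ _ _ => rfl

theorem IsInv.transpose {A : Matrix Ω Ω ℚ} (hA : IsInv G A) : IsInv G Aᵀ := fun g x y => by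
  simp [hA g y x]

theorem IsInv.mul {A B : Matrix Ω Ω ℚ} (hA : IsInv G A) (hB : IsInv G B) : IsInv G (A * B) := by
  intro g x y
  simp only [Matrix.mul_apply]
  rw [← Equiv.sum_comp (MulAction.toPerm g)]
  refine Finset.sum_congr rfl fun z _ => ?_
  simp only [MulAction.toPerm_apply]
  rw [hA g x z, hB g z y]

theorem IsInv.sum_row {A : Matrix Ω Ω ℚ} (hA : IsInv G A) [MulAction.IsPretransitive G Ω]
    (x y : Ω) : ∑ w, A x w = ∑ w, A y w := by
  obtain ⟨g, rfl⟩ := MulAction.exists_smul_eq G x y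
  rw [← Equiv.sum_comp (MulAction.toPerm g) (fun w => A (g • x) w)]
  refine Finset.sum_congr rfl fun z _ => ?_
  simp only [MulAction.toPerm_apply]
  rw [hA g x z]

theorem IsInv.sum_col {A : Matrix Ω Ω ℚ} (hA : IsInv G A) [MulAction.IsPretransitive G Ω]
    (x y : Ω) : ∑ w, A w x = ∑ w, A w y := by
  have := hA.transpose.sum_row x y
  simpa using this

theorem IsInv.col_eq_row {A : Matrix Ω Ω ℚ} (hA : IsInv G A) [MulAction.IsPretransitive G Ω]
    (x y : Ω) : ∑ w, A w x = ∑ w, A y w := by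
  classical
  have hne : (Fintype.card Ω : ℚ) ≠ 0 := by
    have : Nonempty Ω := ⟨x⟩
    exact_mod_cast Fintype.card_ne_zero
  have h1 : ∑ z, ∑ w, A z w = (Fintype.card Ω : ℚ) * ∑ w, A y w := by
    simp only [fun z => hA.sum_row z y]
    simp
  have h2 : ∑ w, ∑ z, A z w = (Fintype.card Ω : ℚ) * ∑ w, A w x := by
    simp only [fun w => hA.sum_col w x]
    simp
  have h3 : ∑ z, ∑ w, A z w = ∑ w, ∑ z, A z w := Finset.sum_comm
  rw [h3, h2] at h1
  exact mul_left_cancel₀ hne h1

variable (φ)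

/-- The sign function of the two orbits. -/
def uu (x : Ω) : ℚ := if (φ.symm x).2 = 0 then 1 else -1

theorem uu_zero (i : ZMod p) : uu φ (φ (i, 0)) = 1 := by simp [uu]

theorem uu_one (i : ZMod p) : uu φ (φ (i, 1)) = -1 := by simp [uu]

theorem uu_sq (x : Ω) : uu φ x * uu φ x = 1 := by
  unfold uu
  split_ifs <;> norm_num

theorem sum_phi {M : Type*} [AddCommMonoid M] (f : Ω → M) :
    ∑ x, f x = ∑ i : ZMod p, (f (φ (i, 0)) + f (φ (i, 1))) := by
  rw [← Equiv.sum_comp φ, Fintype.sum_prod_type]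
  refine Finset.sum_congr rfl fun i _ => ?_
  rw [Fin.sum_univ_two]

theorem sum_uu : ∑ x, uu φ x = 0 := by
  rw [sum_phi φ]
  refine Finset.sum_eq_zero fun i _ => ?_
  rw [uu_zero, uu_one]
  norm_num

theorem card_Omega (φ : ZMod p × Fin 2 ≃ Ω) : Fintype.card Ω = 2 * p := by
  rw [← Fintype.card_congr φ, Fintype.card_prod, ZMod.card, Fintype.card_fin, mul_comm]

/-- The base point. -/
def x0 : Ω := φ (0, 0)

/-- Row sum. -/
def nn (A : Matrix Ω Ω ℚ) : ℚ := ∑ w, A (x0 φ) w

/-- The eigenvalue on the sign vector. -/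
def rr (A : Matrix Ω Ω ℚ) : ℚ := ∑ w, A (x0 φ) w * uu φ w

variable {φ}

theorem IsInv.shift {a : G} (ha : ∀ i e, a • φ (i, e) = φ (i + 1, e)) {A : Matrix Ω Ω ℚ}
    (hA : IsInv G A) : ShiftInv φ A := by
  have h1 : ∀ (k : ℕ) i e, a ^ k • φ (i, e) = φ (i + k, e) := by
    intro k
    induction k with
    | zero => intro i e; simp
    | succ k ih =>
      intro i e
      rw [pow_succ', mul_smul, ih, ha]
      congr 2
      push_cast
      ring
  intro c i e j f
  have h2 := hA (a ^ c.val) (φ (i, e)) (φ (j, f))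
  rw [h1, h1] at h2
  rw [ZMod.natCast_zmod_val] at h2
  exact h2

theorem uu_shift {a : G} (ha : ∀ i e, a • φ (i, e) = φ (i + 1, e)) (x : Ω) :
    uu φ (a • x) = uu φ x := by
  obtain ⟨⟨i, e⟩, rfl⟩ := φ.surjective x
  rw [ha]
  simp [uu]

/-- The sign vector is an eigenvector of all invariant matrices. -/
theorem mulVec_uu [MulAction.IsPretransitive G Ω] {a : G} (ha : ∀ i e, a • φ (i, e) = φ (i + 1, e))
    {A : Matrix Ω Ω ℚ} (hA : IsInv G A) (x : Ω) :
    ∑ w, A x w * uu φ w = rr φ A * uu φ x := by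
  have hsh := hA.shift ha
  -- the function is invariant under the shift
  have hinv : ∀ y, ∑ w, A (a • y) w * uu φ w = ∑ w, A y w * uu φ w := by
    intro y
    rw [← Equiv.sum_comp (MulAction.toPerm a)]
    refine Finset.sum_congr rfl fun z _ => ?_
    simp only [MulAction.toPerm_apply]
    rw [hA a y z, uu_shift ha]
  have hpow : ∀ (k : ℕ) (y : Ω), ∑ w, A (a ^ k • y) w * uu φ w = ∑ w, A y w * uu φ w := by
    intro k
    induction k with
    | zero => intro y; simp
    | succ k ih =>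
      intro y
      rw [pow_succ', mul_smul, hinv, ih]
  have h1 : ∀ (k : ℕ) i e, a ^ k • φ (i, e) = φ (i + k, e) := by
    intro k
    induction k with
    | zero => intro i e; simp
    | succ k ih =>
      intro i e
      rw [pow_succ', mul_smul, ih, ha]
      congr 2
      push_cast
      ring
  have hconst : ∀ i e, ∑ w, A (φ (i, e)) w * uu φ w = ∑ w, A (φ (0, e)) w * uu φ w := by
    intro i e
    have := hpow i.val (φ (0, e))
    rw [h1, zero_add, ZMod.natCast_zmod_val] at this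
    exact this
  -- total sum vanishes
  have htot : ∑ x, ∑ w, A x w * uu φ w = 0 := by
    rw [Finset.sum_comm]
    have : ∀ w, ∑ x, A x w * uu φ w = (∑ z, A (x0 φ) z) * uu φ w := by
      intro w
      rw [← Finset.sum_mul, hA.col_eq_row]
    simp only [this]
    rw [← Finset.mul_sum, sum_uu, mul_zero]
  rw [sum_phi φ] at htot
  simp only [hconst] at htot
  rw [Finset.sum_const, Finset.card_univ, ZMod.card, nsmul_eq_mul] at htot
  have hp0 : (p : ℚ) ≠ 0 := by exact_mod_cast hp.out.ne_zero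
  have h2 := (mul_eq_zero.1 htot).resolve_left hp0
  obtain ⟨⟨i, e⟩, rfl⟩ := φ.surjective x
  rw [hconst]
  have he : ∀ e : Fin 2, e = 0 ∨ e = 1 := by
    intro e
    fin_cases e <;> simp
  rcases he e with rfl | rfl
  · rw [uu_zero, mul_one]
    rfl
  · rw [uu_one]
    have : ∑ w, A (φ (0, 0)) w * uu φ w = rr φ A := rfl
    rw [this] at h2
    linarith

theorem nn_eq [MulAction.IsPretransitive G Ω] {A : Matrix Ω Ω ℚ} (hA : IsInv G A) (x : Ω) :
    ∑ w, A x w = nn φ A := hA.sum_row x _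

theorem nn_eq_col [MulAction.IsPretransitive G Ω] {A : Matrix Ω Ω ℚ} (hA : IsInv G A) (x : Ω) :
    ∑ w, A w x = nn φ A := hA.col_eq_row x _

theorem rr_add (A B : Matrix Ω Ω ℚ) : rr φ (A + B) = rr φ A + rr φ B := by
  unfold rr
  rw [← Finset.sum_add_distrib]
  refine Finset.sum_congr rfl fun w _ => ?_
  simp [add_mul]

theorem rr_smul (c : ℚ) (A : Matrix Ω Ω ℚ) : rr φ (c • A) = c * rr φ A := by
  unfold rr
  rw [Finset.mul_sum]
  refine Finset.sum_congr rfl fun w _ => ?_
  simp [mul_assoc]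

theorem nn_add (A B : Matrix Ω Ω ℚ) : nn φ (A + B) = nn φ A + nn φ B := by
  unfold nn
  rw [← Finset.sum_add_distrib]
  simp

theorem nn_smul (c : ℚ) (A : Matrix Ω Ω ℚ) : nn φ (c • A) = c * nn φ A := by
  unfold nn
  rw [Finset.mul_sum]
  simp

theorem rr_mul [MulAction.IsPretransitive G Ω] {a : G} (ha : ∀ i e, a • φ (i, e) = φ (i + 1, e))
    {A B : Matrix Ω Ω ℚ} (hB : IsInv G B) :
    rr φ (A * B) = rr φ A * rr φ B := by
  have h1 : rr φ (A * B) = ∑ z, A (x0 φ) z * ∑ w, B z w * uu φ w := by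
    unfold rr
    simp only [Matrix.mul_apply, Finset.sum_mul, Finset.mul_sum]
    rw [Finset.sum_comm]
    refine Finset.sum_congr rfl fun z _ => Finset.sum_congr rfl fun w _ => ?_
    ring
  rw [h1]
  simp only [mulVec_uu ha hB]
  have h2 : ∀ z, A (x0 φ) z * (rr φ B * uu φ z) = rr φ B * (A (x0 φ) z * uu φ z) := by
    intro z
    ring
  simp only [h2]
  rw [← Finset.mul_sum]
  show rr φ B * rr φ A = _
  ring

theorem nn_mul [MulAction.IsPretransitive G Ω] {A B : Matrix Ω Ω ℚ}
    (hB : IsInv G B) : nn φ (A * B) = nn φ A * nn φ B := by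
  unfold nn
  simp only [Matrix.mul_apply]
  rw [Finset.sum_comm]
  simp only [← Finset.mul_sum, fun z => hB.sum_row z (x0 φ)]
  rw [← Finset.sum_mul]

theorem sum_uu_sq : ∑ x, uu φ x * uu φ x = 2 * p := by
  simp only [uu_sq]
  simp [card_Omega φ]

theorem rr_transpose [MulAction.IsPretransitive G Ω] {a : G}
    (ha : ∀ i e, a • φ (i, e) = φ (i + 1, e)) {A : Matrix Ω Ω ℚ} (hA : IsInv G A) :
    rr φ Aᵀ = rr φ A := by
  have h1 : ∑ x, uu φ x * ∑ w, A x w * uu φ w = rr φ A * (2 * p) := by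
    simp only [mulVec_uu ha hA]
    rw [← sum_uu_sq (φ := φ), Finset.mul_sum]
    refine Finset.sum_congr rfl fun x _ => ?_
    ring
  have h2 : ∑ x, uu φ x * ∑ w, Aᵀ x w * uu φ w = rr φ Aᵀ * (2 * p) := by
    simp only [mulVec_uu ha hA.transpose]
    rw [← sum_uu_sq (φ := φ), Finset.mul_sum]
    refine Finset.sum_congr rfl fun x _ => ?_
    ring
  have h3 : ∑ x, uu φ x * ∑ w, Aᵀ x w * uu φ w = ∑ x, uu φ x * ∑ w, A x w * uu φ w := by
    simp only [Finset.mul_sum, Matrix.transpose_apply]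
    rw [Finset.sum_comm]
    refine Finset.sum_congr rfl fun x _ => Finset.sum_congr rfl fun w _ => ?_
    ring
  have hp0 : (2 * p : ℚ) ≠ 0 := by
    have : (p : ℚ) ≠ 0 := by exact_mod_cast hp.out.ne_zero
    positivity
  rw [h2, h1] at h3
  exact mul_right_cancel₀ hp0 h3

end group

section average

variable {p : ℕ} [hp : Fact p.Prime] {Ω : Type*} [Fintype Ω] [DecidableEq Ω]
  {φ : ZMod p × Fin 2 ≃ Ω} {G : Type*} [Group G] [Fintype G] [MulAction G Ω]

variable (φ G) in
/-- The average of the rank one matrix of the sign vector. -/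
noncomputable def E1 : Matrix Ω Ω ℚ :=
  fun x y => (Fintype.card G : ℚ)⁻¹ * ∑ g : G, uu φ (g • x) * uu φ (g • y)

theorem E1_inv : IsInv G (E1 φ G) := by
  intro h x y
  unfold E1
  congr 1
  rw [← Equiv.sum_comp (Equiv.mulRight h⁻¹)]
  refine Finset.sum_congr rfl fun g _ => ?_
  simp [mul_smul]

theorem E1_symm : (E1 φ G)ᵀ = E1 φ G := by
  ext x y
  simp only [E1, Matrix.transpose_apply]
  congr 1
  refine Finset.sum_congr rfl fun g _ => ?_
  ring

theorem card_G_ne : (Fintype.card G : ℚ) ≠ 0 := by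
  exact_mod_cast Fintype.card_ne_zero

theorem E1_diag (x : Ω) : E1 φ G x x = 1 := by
  unfold E1
  simp only [uu_sq]
  simp

theorem abs_uu (x : Ω) : uu φ x = 1 ∨ uu φ x = -1 := by
  unfold uu
  split_ifs <;> simp

theorem E1_le_one (x y : Ω) : E1 φ G x y ≤ 1 := by
  unfold E1
  have h1 : ∑ g : G, uu φ (g • x) * uu φ (g • y) ≤ ∑ _g : G, (1 : ℚ) := by
    refine Finset.sum_le_sum fun g _ => ?_
    rcases abs_uu (φ := φ) (g • x) with h | h <;> rcases abs_uu (φ := φ) (g • y) with h' | h' <;>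
      rw [h, h'] <;> norm_num
  have h2 : (0 : ℚ) < Fintype.card G := by exact_mod_cast Fintype.card_pos
  rw [inv_mul_le_iff₀ h2]
  simpa using h1

theorem neg_one_le_E1 (x y : Ω) : -1 ≤ E1 φ G x y := by
  unfold E1
  have h1 : ∑ _g : G, (-1 : ℚ) ≤ ∑ g : G, uu φ (g • x) * uu φ (g • y) := by
    refine Finset.sum_le_sum fun g _ => ?_
    rcases abs_uu (φ := φ) (g • x) with h | h <;> rcases abs_uu (φ := φ) (g • y) with h' | h' <;>
      rw [h, h'] <;> norm_num
  have h2 : (0 : ℚ) < Fintype.card G := by exact_mod_cast Fintype.card_pos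
  rw [le_inv_mul_iff₀ h2]
  simpa using h1

/-- If the average is one, then the signs agree for all `g`. -/
theorem sign_eq_of_E1 {x y : Ω} (h : E1 φ G x y = 1) (g : G) : uu φ (g • x) = uu φ (g • y) := by
  classical
  by_contra hne
  have hterm : uu φ (g • x) * uu φ (g • y) = -1 := by
    rcases abs_uu (φ := φ) (g • x) with h1 | h1 <;> rcases abs_uu (φ := φ) (g • y) with h2 | h2 <;>
      rw [h1, h2] at hne ⊢ <;> first | exact absurd rfl hne | norm_num
  have h2 : (0 : ℚ) < Fintype.card G := by exact_mod_cast Fintype.card_pos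
  have h3 : ∑ k : G, uu φ (k • x) * uu φ (k • y) < ∑ _k : G, (1 : ℚ) := by
    refine Finset.sum_lt_sum (fun k _ => ?_) ⟨g, Finset.mem_univ _, by rw [hterm]; norm_num⟩
    rcases abs_uu (φ := φ) (k • x) with h | h <;> rcases abs_uu (φ := φ) (k • y) with h' | h' <;>
      rw [h, h'] <;> norm_num
  have h4 : ∑ k : G, uu φ (k • x) * uu φ (k • y) = Fintype.card G := by
    have := h
    unfold E1 at this
    field_simp [card_G_ne (G := G)] at this
    linarith
  rw [h4] at h3
  simp at h3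

/-- The sign of the second entry is opposite if the average is `-1`. -/
theorem sign_neg_of_E1 {x y : Ω} (h : E1 φ G x y = -1) (g : G) :
    uu φ (g • x) = - uu φ (g • y) := by
  classical
  by_contra hne
  have hterm : uu φ (g • x) * uu φ (g • y) = 1 := by
    rcases abs_uu (φ := φ) (g • x) with h1 | h1 <;> rcases abs_uu (φ := φ) (g • y) with h2 | h2
    · rw [h1, h2]; norm_num
    · rw [h1, h2] at hne; exact absurd (by norm_num) hne
    · rw [h1, h2] at hne; exact absurd (by norm_num) hne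
    · rw [h1, h2]; norm_num
  have h2 : (0 : ℚ) < Fintype.card G := by exact_mod_cast Fintype.card_pos
  have h3 : ∑ _k : G, (-1 : ℚ) < ∑ k : G, uu φ (k • x) * uu φ (k • y) := by
    refine Finset.sum_lt_sum (fun k _ => ?_) ⟨g, Finset.mem_univ _, by rw [hterm]; norm_num⟩
    rcases abs_uu (φ := φ) (k • x) with h | h <;> rcases abs_uu (φ := φ) (k • y) with h' | h' <;>
      rw [h, h'] <;> norm_num
  have h4 : ∑ k : G, uu φ (k • x) * uu φ (k • y) = -(Fintype.card G) := by
    have := h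
    unfold E1 at this
    field_simp [card_G_ne (G := G)] at this
    linarith
  rw [h4] at h3
  simp at h3

variable [MulAction.IsPretransitive G Ω] {a : G}

theorem E1_mul (ha : ∀ i e, a • φ (i, e) = φ (i + 1, e)) {A : Matrix Ω Ω ℚ} (hA : IsInv G A) :
    E1 φ G * A = rr φ A • E1 φ G := by
  ext x y
  simp only [Matrix.mul_apply, Matrix.smul_apply, smul_eq_mul, E1]
  have h1 : ∀ g : G, ∑ w, uu φ (g • w) * A w y = rr φ A * uu φ (g • y) := by
    intro g
    have h2 : ∀ w, uu φ (g • w) * A w y = Aᵀ (g • y) (g • w) * uu φ (g • w) := by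
      intro w
      rw [Matrix.transpose_apply, hA g w y, mul_comm]
    simp only [h2]
    have h3 : ∑ x, Aᵀ (g • y) (g • x) * uu φ (g • x) = ∑ x, Aᵀ (g • y) x * uu φ x :=
      Equiv.sum_comp (MulAction.toPerm g) (fun w => Aᵀ (g • y) w * uu φ w)
    rw [h3, mulVec_uu ha hA.transpose, rr_transpose ha hA]
  calc ∑ w, ((Fintype.card G : ℚ)⁻¹ * ∑ g : G, uu φ (g • x) * uu φ (g • w)) * A w y
      = (Fintype.card G : ℚ)⁻¹ * ∑ g : G, uu φ (g • x) * ∑ w, uu φ (g • w) * A w y := by
        simp only [Finset.mul_sum, Finset.sum_mul]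
        rw [Finset.sum_comm]
        refine Finset.sum_congr rfl fun g _ => Finset.sum_congr rfl fun w _ => ?_
        ring
    _ = rr φ A * ((Fintype.card G : ℚ)⁻¹ * ∑ g : G, uu φ (g • x) * uu φ (g • y)) := by
        simp only [h1, Finset.mul_sum]
        refine Finset.sum_congr rfl fun g _ => ?_
        ring

theorem mul_E1 (ha : ∀ i e, a • φ (i, e) = φ (i + 1, e)) {A : Matrix Ω Ω ℚ} (hA : IsInv G A) :
    A * E1 φ G = rr φ A • E1 φ G := by
  have h1 := E1_mul ha hA.transpose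
  have h2 := congrArg Matrix.transpose h1
  rw [Matrix.transpose_mul, Matrix.transpose_transpose, E1_symm, Matrix.transpose_smul, E1_symm,
    rr_transpose ha hA] at h2
  exact h2

theorem nn_E1 : nn φ (E1 φ G) = 0 := by
  unfold nn E1
  rw [← Finset.mul_sum]
  rw [Finset.sum_comm]
  have h : ∀ g : G, ∑ w, uu φ (g • x0 φ) * uu φ (g • w) = 0 := by
    intro g
    have h3 : ∑ x, uu φ (g • x) = ∑ x, uu φ x := Equiv.sum_comp (MulAction.toPerm g) (uu φ)
    rw [← Finset.mul_sum, h3, sum_uu, mul_zero]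
  simp only [h]
  simp

variable (φ G) in
/-- The value `ℓ`. -/
noncomputable def ell : ℚ := rr φ (E1 φ G)

theorem E1_sq (ha : ∀ i e, a • φ (i, e) = φ (i + 1, e)) :
    E1 φ G * E1 φ G = ell φ G • E1 φ G := E1_mul ha E1_inv

theorem ell_eq (ha : ∀ i e, a • φ (i, e) = φ (i + 1, e)) (x : Ω) :
    ell φ G = ∑ w, E1 φ G x w * E1 φ G x w := by
  have h1 := congrFun (congrFun (E1_sq (G := G) (φ := φ) ha) x) x
  simp only [Matrix.mul_apply, Matrix.smul_apply, smul_eq_mul, E1_diag, mul_one] at h1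
  rw [← h1]
  refine Finset.sum_congr rfl fun w _ => ?_
  have := congrFun (congrFun (E1_symm (G := G) (φ := φ)) w) x
  rw [Matrix.transpose_apply] at this
  rw [← this]

theorem one_le_ell (ha : ∀ i e, a • φ (i, e) = φ (i + 1, e)) : 1 ≤ ell φ G := by
  classical
  rw [ell_eq ha (x0 φ)]
  have h : E1 φ G (x0 φ) (x0 φ) * E1 φ G (x0 φ) (x0 φ) = 1 := by
    rw [E1_diag]
    norm_num
  rw [← h]
  exact Finset.single_le_sum (f := fun w => E1 φ G (x0 φ) w * E1 φ G (x0 φ) w)
    (fun w _ => mul_self_nonneg _) (Finset.mem_univ (x0 φ))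

variable (φ G) in
/-- The idempotent. -/
noncomputable def Eid : Matrix Ω Ω ℚ := (ell φ G)⁻¹ • E1 φ G

theorem ell_ne (ha : ∀ i e, a • φ (i, e) = φ (i + 1, e)) : ell φ G ≠ 0 := by
  have := one_le_ell (φ := φ) (G := G) ha
  linarith

theorem Eid_inv : IsInv G (Eid φ G) := E1_inv.smul _

theorem Eid_symm : (Eid φ G)ᵀ = Eid φ G := by
  unfold Eid
  rw [Matrix.transpose_smul, E1_symm]

theorem Eid_mul (ha : ∀ i e, a • φ (i, e) = φ (i + 1, e)) {A : Matrix Ω Ω ℚ} (hA : IsInv G A) :
    Eid φ G * A = rr φ A • Eid φ G := by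
  unfold Eid
  rw [Matrix.smul_mul, E1_mul ha hA, smul_comm]

theorem mul_Eid (ha : ∀ i e, a • φ (i, e) = φ (i + 1, e)) {A : Matrix Ω Ω ℚ} (hA : IsInv G A) :
    A * Eid φ G = rr φ A • Eid φ G := by
  unfold Eid
  rw [Matrix.mul_smul, mul_E1 ha hA, smul_comm]

theorem rr_Eid (ha : ∀ i e, a • φ (i, e) = φ (i + 1, e)) : rr φ (Eid φ G) = 1 := by
  unfold Eid
  rw [rr_smul]
  exact inv_mul_cancel₀ (ell_ne ha)

theorem Eid_sq (ha : ∀ i e, a • φ (i, e) = φ (i + 1, e)) : Eid φ G * Eid φ G = Eid φ G := by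
  rw [Eid_mul ha Eid_inv, rr_Eid ha, one_smul]

theorem nn_Eid : nn φ (Eid φ G) = 0 := by
  unfold Eid
  rw [nn_smul, nn_E1, mul_zero]

theorem Eid_diag (x : Ω) : Eid φ G x x = (ell φ G)⁻¹ := by
  unfold Eid
  rw [Matrix.smul_apply, E1_diag, smul_eq_mul, mul_one]

end average

section sums

variable {p : ℕ} [hp : Fact p.Prime] {Ω : Type*} [Fintype Ω] [DecidableEq Ω]
  {φ : ZMod p × Fin 2 ≃ Ω} {G : Type*} [Group G] [MulAction G Ω]
  [MulAction.IsPretransitive G Ω] {a : G}

/-- Sum of the diagonal blocks. -/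
theorem sum_bl_zero {A : Matrix Ω Ω ℚ} :
    nn φ A = ∑ j, bl φ A 0 0 j + ∑ j, bl φ A 0 1 j ∧ rr φ A = ∑ j, bl φ A 0 0 j - ∑ j, bl φ A 0 1 j := by
  unfold nn rr bl
  rw [sum_phi φ, sum_phi φ]
  constructor
  · rw [Finset.sum_add_distrib]
    rfl
  · simp only [uu_zero, uu_one, mul_one, mul_neg]
    rw [Finset.sum_add_distrib, Finset.sum_neg_distrib, sub_eq_add_neg]
    rfl

theorem sum_bl_one (ha : ∀ i e, a • φ (i, e) = φ (i + 1, e)) {A : Matrix Ω Ω ℚ} (hA : IsInv G A) :
    nn φ A = ∑ j, bl φ A 1 1 j + ∑ j, bl φ A 1 0 j ∧ rr φ A = ∑ j, bl φ A 1 1 j - ∑ j, bl φ A 1 0 j := by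
  have h1 := nn_eq (φ := φ) hA (φ (0, 1))
  have h2 := mulVec_uu (φ := φ) ha hA (φ (0, 1))
  rw [uu_one, sum_phi φ] at h2
  rw [sum_phi φ] at h1
  simp only [uu_zero, uu_one, mul_one, mul_neg] at h2
  rw [Finset.sum_add_distrib] at h1 h2
  constructor
  · rw [← h1, add_comm]
    rfl
  · have h3 : - rr φ A = ∑ i, A (φ (0, 1)) (φ (i, 0)) + ∑ i, -A (φ (0, 1)) (φ (i, 1)) := h2.symm
    rw [Finset.sum_neg_distrib] at h3
    show rr φ A = ∑ i, A (φ (0, 1)) (φ (i, 1)) - ∑ i, A (φ (0, 1)) (φ (i, 0))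
    linarith

/-- The sum of the trace function. -/
theorem sum_Tr (ha : ∀ i e, a • φ (i, e) = φ (i + 1, e)) {A : Matrix Ω Ω ℚ} (hA : IsInv G A) :
    ∑ j, Tr φ A j = nn φ A + rr φ A := by
  unfold Tr
  rw [Finset.sum_add_distrib]
  obtain ⟨h1, h2⟩ := sum_bl_zero (φ := φ) (A := A)
  obtain ⟨h3, h4⟩ := sum_bl_one (φ := φ) ha hA
  linarith

/-- The sum of a diagonal block. -/
theorem sum_bl_00 {A : Matrix Ω Ω ℚ} : 2 * ∑ j, bl φ A 0 0 j = nn φ A + rr φ A := by
  obtain ⟨h1, h2⟩ := sum_bl_zero (φ := φ) (A := A)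
  linarith

theorem sum_bl_11 (ha : ∀ i e, a • φ (i, e) = φ (i + 1, e)) {A : Matrix Ω Ω ℚ} (hA : IsInv G A) :
    2 * ∑ j, bl φ A 1 1 j = nn φ A + rr φ A := by
  obtain ⟨h3, h4⟩ := sum_bl_one (φ := φ) ha hA
  linarith

end sums

section tri

variable {p : ℕ} [hp : Fact p.Prime] {Ω : Type*} [Fintype Ω] [DecidableEq Ω]
  {φ : ZMod p × Fin 2 ≃ Ω} {G : Type*} [Group G] [Fintype G] [MulAction G Ω]
  [MulAction.IsPretransitive G Ω] {a : G}

theorem ev_sub (f g : ZMod p → ℚ) : ev (fun j => f j - g j) = ev f - ev g := by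
  unfold ev
  rw [← Finset.sum_sub_distrib]
  refine Finset.sum_congr rfl fun j _ => ?_
  push_cast
  ring

theorem Tr_Eid_zero : Tr φ (Eid φ G) 0 = 2 * (ell φ G)⁻¹ := by
  unfold Tr bl
  rw [Eid_diag, Eid_diag]
  ring

theorem p_ne : (p : ℚ) ≠ 0 := by exact_mod_cast hp.out.ne_zero

/-- The trichotomy for the idempotent. -/
theorem tri (ha : ∀ i e, a • φ (i, e) = φ (i + 1, e)) :
    (ell φ G = 2 * p ∧ ∀ j, j ≠ 0 → Tr φ (Eid φ G) j = (p : ℚ)⁻¹) ∨
    (ell φ G = 2 ∧ ∀ j, j ≠ 0 → Tr φ (Eid φ G) j = 0) ∨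
    (2 * (p : ℚ) * (ell φ G)⁻¹ = 2 * p - 1) := by
  classical
  have hEs : ShiftInv φ (Eid φ G) := (Eid_inv (G := G) (φ := φ)).shift ha
  have hid : Mm φ (Eid φ G) * Mm φ (Eid φ G) = Mm φ (Eid φ G) := by
    rw [← Mm_mul hEs, Eid_sq ha]
  have htr := idem_trace _ hid
  rw [trace_Mm] at htr
  have hsum := sum_Tr (φ := φ) ha (Eid_inv (G := G) (φ := φ))
  rw [nn_Eid, rr_Eid ha, zero_add] at hsum
  have hp0 : (p : ℚ) ≠ 0 := p_ne
  -- common part
  have key : ∀ t : ℚ, ev (Tr φ (Eid φ G)) = (t : ℂ) →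
      (∀ j, j ≠ 0 → Tr φ (Eid φ G) j = 2 * (ell φ G)⁻¹ - t) ∧ p * (2 * (ell φ G)⁻¹ - t) + t = 1 := by
    intro t ht
    have h1 : ev (fun j => Tr φ (Eid φ G) j - (if j = 0 then t else 0)) = 0 := by
      rw [ev_sub, ev_delta, ht, sub_self]
    have h2 := const_of_ev _ h1
    simp only [if_true, Tr_Eid_zero] at h2
    have h3 : ∀ j, j ≠ 0 → Tr φ (Eid φ G) j = 2 * (ell φ G)⁻¹ - t := by
      intro j hj
      have := h2 j
      rw [if_neg hj, sub_zero] at this
      exact this
    refine ⟨h3, ?_⟩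
    have h4 : ∑ j : ZMod p, Tr φ (Eid φ G) j =
        ∑ j : ZMod p, ((2 * (ell φ G)⁻¹ - t) + (if j = 0 then t else 0)) := by
      refine Finset.sum_congr rfl fun j _ => ?_
      by_cases hj : j = 0
      · subst hj
        rw [if_pos rfl, Tr_Eid_zero]
        ring
      · rw [if_neg hj, h3 j hj, add_zero]
    rw [hsum, Finset.sum_add_distrib, Finset.sum_const, Finset.card_univ, ZMod.card, nsmul_eq_mul,
      Finset.sum_ite_eq' Finset.univ (0 : ZMod p) (fun _ => t), if_pos (Finset.mem_univ _)] at h4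
    exact h4.symm
  rcases htr with h0 | h1 | h2
  · -- t = 0
    obtain ⟨h3, h4⟩ := key 0 (by rw [h0]; simp)
    left
    have hl := ell_ne (φ := φ) (G := G) ha
    have h5 : 2 * (ell φ G)⁻¹ = (p : ℚ)⁻¹ := by
      field_simp
      field_simp at h4
      linarith
    refine ⟨?_, fun j hj => ?_⟩
    · field_simp at h5
      linarith
    · rw [h3 j hj, sub_zero, h5]
  · -- t = 1
    obtain ⟨h3, h4⟩ := key 1 (by rw [h1]; simp)
    right; left
    have hl := ell_ne (φ := φ) (G := G) ha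
    have h5 : 2 * (ell φ G)⁻¹ - 1 = 0 := by
      have : (p : ℚ) * (2 * (ell φ G)⁻¹ - 1) = 0 := by linarith
      exact (mul_eq_zero.1 this).resolve_left hp0
    refine ⟨?_, fun j hj => ?_⟩
    · field_simp at h5
      linarith
    · rw [h3 j hj, h5]
  · -- t = 2
    obtain ⟨h3, h4⟩ := key 2 (by rw [h2]; simp)
    right; right
    linarith

/-- Branch `ℓ = 2p`: the sign vector is `G`-eigen on one orbit. -/
theorem branch_zero (ha : ∀ i e, a • φ (i, e) = φ (i + 1, e)) (hl : ell φ G = 2 * p)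
    (h : ∀ j, j ≠ 0 → Tr φ (Eid φ G) j = (p : ℚ)⁻¹) : ¬ MulAction.IsPreprimitive G Ω := by
  classical
  intro hprim
  have hE1s : ShiftInv φ (E1 φ G) := (E1_inv (G := G) (φ := φ)).shift ha
  have hone : ∀ j : ZMod p, E1 φ G (φ (0, 0)) (φ (j, 0)) = 1 := by
    intro j
    by_cases hj : j = 0
    · subst hj
      exact E1_diag _
    · have h1 := h j hj
      unfold Tr bl Eid at h1
      simp only [Matrix.smul_apply, smul_eq_mul] at h1
      rw [hl] at h1
      have hp0 : (p : ℚ) ≠ 0 := p_ne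
      have h2 : E1 φ G (φ (0, 0)) (φ (j, 0)) + E1 φ G (φ (0, 1)) (φ (j, 1)) = 2 := by
        field_simp at h1
        linarith
      have h3 := E1_le_one (φ := φ) (G := G) (φ (0, 0)) (φ (j, 0))
      have h4 := E1_le_one (φ := φ) (G := G) (φ (0, 1)) (φ (j, 1))
      linarith
  have hsign : ∀ (g : G) (i j : ZMod p), uu φ (g • φ (i, 0)) = uu φ (g • φ (j, 0)) := by
    intro g i j
    apply sign_eq_of_E1 (G := G)
    rw [hE1s.apply, ]
    exact hone _
  let B : Set Ω := {x | uu φ x = 1}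
  have hmem : ∀ x, x ∈ B ↔ ∃ i, x = φ (i, 0) := by
    intro x
    constructor
    · intro hx
      obtain ⟨⟨i, e⟩, rfl⟩ := φ.surjective x
      have he : ∀ e : Fin 2, e = 0 ∨ e = 1 := by
        intro e
        fin_cases e <;> simp
      rcases he e with rfl | rfl
      · exact ⟨i, rfl⟩
      · have : uu φ (φ (i, 1)) = 1 := hx
        rw [uu_one] at this
        norm_num at this
    · rintro ⟨i, rfl⟩
      exact uu_zero φ i
  have hB : MulAction.IsBlock G B := by
    rw [MulAction.isBlock_iff_smul_eq_or_disjoint]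
    intro g
    by_cases hint : ∃ i j, g • φ (i, 0) = φ (j, 0)
    · left
      obtain ⟨i, j, hij⟩ := hint
      ext y
      rw [Set.mem_smul_set_iff_inv_smul_mem]
      constructor
      · intro hy
        obtain ⟨l, hl⟩ := (hmem _).1 hy
        have h1 := hsign g l i
        rw [hij, uu_zero, ← hl, smul_inv_smul] at h1
        exact h1
      · intro hy
        obtain ⟨l, rfl⟩ := (hmem _).1 hy
        have h1 := hsign g⁻¹ l j
        rw [← hij, inv_smul_smul, uu_zero] at h1
        exact h1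
    · right
      rw [Set.disjoint_left]
      intro y hy hy2
      obtain ⟨x, hx, rfl⟩ := hy
      obtain ⟨i, rfl⟩ := (hmem _).1 hx
      obtain ⟨j, hj⟩ := (hmem _).1 hy2
      exact hint ⟨i, j, hj⟩
  have htriv := hprim.isTrivialBlock_of_isBlock hB
  rcases htriv with h1 | h1
  · have hne : (φ (0, 0)) ≠ φ (1, 0) := by
      intro h2
      have := φ.injective h2
      simp only [Prod.mk.injEq, and_true] at this
      exact zero_ne_one this
    exact hne (h1 ((hmem _).2 ⟨0, rfl⟩) ((hmem _).2 ⟨1, rfl⟩))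
  · have : φ (0, 1) ∈ B := by rw [h1]; exact Set.mem_univ _
    have h2 : uu φ (φ (0, 1)) = 1 := this
    rw [uu_one] at h2
    norm_num at h2

/-- The orbit indicator matrix of a pair. -/
noncomputable def orbInd (G : Type*) [Group G] [MulAction G Ω] (x y : Ω) : Matrix Ω Ω ℚ := by
  classical
  exact fun z w => if ∃ g : G, g • x = z ∧ g • y = w then 1 else 0

theorem orbInd_inv (x y : Ω) : IsInv G (orbInd G x y) := by
  intro g z w
  unfold orbInd
  have : (∃ h : G, h • x = g • z ∧ h • y = g • w) ↔ ∃ h : G, h • x = z ∧ h • y = w := by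
    constructor
    · rintro ⟨h, h1, h2⟩
      refine ⟨g⁻¹ * h, ?_, ?_⟩
      · rw [mul_smul, h1, inv_smul_smul]
      · rw [mul_smul, h2, inv_smul_smul]
    · rintro ⟨h, h1, h2⟩
      exact ⟨g * h, by rw [mul_smul, h1], by rw [mul_smul, h2]⟩
  by_cases hh : ∃ h : G, h • x = z ∧ h • y = w
  · rw [if_pos hh, if_pos (this.2 hh)]
  · rw [if_neg hh, if_neg (fun h' => hh (this.1 h'))]

theorem orbInd_self (x y : Ω) : orbInd G x y x y = 1 := by
  unfold orbInd
  rw [if_pos ⟨1, one_smul _ _, one_smul _ _⟩]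

theorem orbInd_eq_one {x y z w : Ω} (h : orbInd G x y z w = 1) : ∃ g : G, g • x = z ∧ g • y = w := by
  unfold orbInd at h
  by_contra hcon
  rw [if_neg hcon] at h
  exact zero_ne_one h

/-- Branch `ℓ⁻¹ = 1 - 1/2p`: two-transitivity. -/
theorem branch_two (ha : ∀ i e, a • φ (i, e) = φ (i + 1, e))
    (hl : 2 * (p : ℚ) * (ell φ G)⁻¹ = 2 * p - 1) : MulAction.IsMultiplyPretransitive G Ω 2 := by
  classical
  have hcard : (Fintype.card Ω : ℚ) = 2 * p := by
    rw [card_Omega φ]
    push_cast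
    ring
  have hp0 : (p : ℚ) ≠ 0 := p_ne
  have hpp : (0 : ℚ) < p := by exact_mod_cast hp.out.pos
  have hs1 : (ell φ G)⁻¹ = 1 - (2 * (p : ℚ))⁻¹ := by
    have h2p : (2 * (p : ℚ)) ≠ 0 := by positivity
    have h3 : (ell φ G)⁻¹ = (2 * (p : ℚ) - 1) / (2 * (p : ℚ)) := by
      rw [eq_div_iff h2p]
      linarith
    rw [h3]
    field_simp
  -- entries of the idempotent
  have hEE : ∀ x y, Eid φ G x y = (if x = y then 1 else 0) - (2 * (p : ℚ))⁻¹ := by
    intro x
    have h1 : ∑ y, Eid φ G x y * Eid φ G x y = (ell φ G)⁻¹ := by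
      have := congrFun (congrFun (Eid_sq (G := G) (φ := φ) ha) x) x
      rw [Matrix.mul_apply, Eid_diag] at this
      rw [← this]
      refine Finset.sum_congr rfl fun w _ => ?_
      have h3 : Eid φ G x w = Eid φ G w x := congrFun (congrFun (Eid_symm (G := G) (φ := φ)) w) x
      rw [← h3]
    have h2 : ∑ y, Eid φ G x y = 0 := by
      rw [nn_eq (φ := φ) (Eid_inv (G := G) (φ := φ)) x, nn_Eid]
    have h3 : ∑ y, (Eid φ G x y - ((if x = y then 1 else 0) - (2 * (p : ℚ))⁻¹)) ^ 2 = 0 := by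
      have h4 : ∀ y, (Eid φ G x y - ((if x = y then 1 else 0) - (2 * (p : ℚ))⁻¹)) ^ 2 =
          Eid φ G x y * Eid φ G x y - 2 * (if x = y then Eid φ G x y else 0) +
            2 * (2 * (p : ℚ))⁻¹ * Eid φ G x y + (if x = y then 1 else 0) * (1 - 2 * (2 * (p : ℚ))⁻¹) +
            ((2 * (p : ℚ))⁻¹) ^ 2 := by
        intro y
        by_cases hxy : x = y
        · simp only [if_pos hxy]
          ring
        · simp only [if_neg hxy]
          ring
      simp only [h4]
      rw [Finset.sum_add_distrib, Finset.sum_add_distrib, Finset.sum_add_distrib, Finset.sum_sub_distrib,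
        h1, ← Finset.mul_sum, ← Finset.mul_sum, h2, ← Finset.sum_mul, Finset.sum_ite_eq, Finset.sum_ite_eq,
        if_pos (Finset.mem_univ _), if_pos (Finset.mem_univ _), Eid_diag, Finset.sum_const,
        Finset.card_univ, nsmul_eq_mul, hcard, hs1]
      field_simp
      ring
    intro y
    have h5 := (Finset.sum_eq_zero_iff_of_nonneg (fun y _ => sq_nonneg _)).1 h3 y (Finset.mem_univ _)
    have h6 := pow_eq_zero_iff (two_ne_zero) |>.1 h5
    linarith
  rw [MulAction.is_two_pretransitive_iff]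
  intro x y z w hxy hzw
  -- apply to the orbit indicator
  have hoff : ∀ (A : Matrix Ω Ω ℚ), IsInv G A → ∀ x y, x ≠ y →
      A x y = (2 * (p : ℚ))⁻¹ * (nn φ A - rr φ A) := by
    intro A hA x y hxy
    have h1 := congrFun (congrFun (mul_Eid (φ := φ) ha hA) x) y
    rw [Matrix.mul_apply, Matrix.smul_apply, smul_eq_mul, hEE x y, if_neg hxy] at h1
    simp only [hEE] at h1
    have h2 : ∑ w, A x w * ((if w = y then 1 else 0) - (2 * (p : ℚ))⁻¹) =
        A x y - (2 * (p : ℚ))⁻¹ * nn φ A := by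
      simp only [mul_sub, mul_ite, mul_one, mul_zero]
      rw [Finset.sum_sub_distrib, Finset.sum_ite_eq', if_pos (Finset.mem_univ _),
        ← Finset.sum_mul, nn_eq (φ := φ) hA x]
      ring
    rw [h2] at h1
    linarith
  have hA := orbInd_inv (G := G) x y
  have h1 := hoff _ hA x y hxy
  have h2 := hoff _ hA z w hzw
  rw [orbInd_self] at h1
  obtain ⟨g, hg1, hg2⟩ := orbInd_eq_one (G := G) (x := x) (y := y) (z := z) (w := w) (by rw [h2, ← h1])
  exact ⟨g, hg1, hg2⟩

end tri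

end Cfsg.Agent.Lib.TwoP
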