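import Mathlib
import Cfsg.Agent.Lib.TwoP

set_option autoImplicit false
set_option linter.unusedSectionVars false

namespace Cfsg.Agent.Lib.TwoP

open Finset Matrix
open scoped Pointwise

theorem combi {𝕆 𝕁 : Type*} [Fintype 𝕆] [DecidableEq 𝕆] [Fintype 𝕁] (O₁ O₂ : 𝕁 → 𝕆) (n r : 𝕆 → ℤ)
    (hn : ∀ O, 2 ≤ n O)
    (hα₁ : ∀ O, 2 * (((univ.filter fun j => O₁ j = O).card : ℕ) : ℤ) = n O + r O)
    (hα₂ : ∀ O, 2 * (((univ.filter fun j => O₂ j = O).card : ℕ) : ℤ) = n O + r O)
    (hm : ∀ O, ∑ j, ((if O₁ j = O then (1 : ℤ) else 0) + (if O₂ j = O then 1 else 0)) ^ 2 =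
      2 * n O - 2 * r O ^ 2)
    (he : ∀ j, r (O₁ j) * n (O₂ j) + r (O₂ j) * n (O₁ j) = 0)
    (hs : ∑ O, r O = -1) :
    ∃ (Op Om : 𝕆) (a : ℤ), 1 ≤ a ∧ r Op = a ∧ n Op = a * (2 * a + 1) ∧ r Om = -1 - a ∧
      n Om = (a + 1) * (2 * a + 1) ∧ (∃ j, O₁ j = Op) ∧
      (∀ O, O ≠ Op → O ≠ Om → r O = 0 ∧ ∀ j, O₁ j = O ↔ O₂ j = O) := by
  classical
  -- the number of doubly covered elements
  let c : 𝕆 → ℕ := fun O => (univ.filter fun j => O₁ j = O ∧ O₂ j = O).card
  let al : 𝕆 → ℕ := fun O => (univ.filter fun j => O₁ j = O).card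
  let al2 : 𝕆 → ℕ := fun O => (univ.filter fun j => O₂ j = O).card
  have hal : ∀ O, (al O : ℤ) = al2 O := by
    intro O
    have h1 := hα₁ O
    have h2 := hα₂ O
    show (((univ.filter fun j => O₁ j = O).card : ℕ) : ℤ) = _
    show _ = (((univ.filter fun j => O₂ j = O).card : ℕ) : ℤ)
    linarith
  have heq1 : ∀ O, n O = r O + 2 * r O ^ 2 + 2 * (c O : ℤ) := by
    intro O
    have h1 := hm O
    have h2 : ∀ j, ((if O₁ j = O then (1 : ℤ) else 0) + (if O₂ j = O then 1 else 0)) ^ 2 =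
        (if O₁ j = O then (1 : ℤ) else 0) + (if O₂ j = O then 1 else 0) +
          2 * (if O₁ j = O ∧ O₂ j = O then 1 else 0) := by
      intro j
      by_cases h3 : O₁ j = O <;> by_cases h4 : O₂ j = O <;> simp [h3, h4]
    simp only [h2] at h1
    rw [Finset.sum_add_distrib, Finset.sum_add_distrib, ← Finset.mul_sum, Finset.sum_boole,
      Finset.sum_boole, Finset.sum_boole] at h1
    have h5 := hα₁ O
    have h6 := hα₂ O
    have h7 : (((univ.filter fun j => O₁ j = O ∧ O₂ j = O).card : ℕ) : ℤ) = c O := rfl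
    rw [h7] at h1
    linarith
  have hnpos : ∀ O, n O ≠ 0 := fun O => by
    have := hn O
    omega
  have hc0 : ∀ O, r O ≠ 0 → c O = 0 := by
    intro O hr
    by_contra hne
    obtain ⟨j, hj⟩ := Finset.card_pos.1 (Nat.pos_of_ne_zero hne)
    obtain ⟨h1, h2⟩ := (Finset.mem_filter.1 hj).2
    have h3 := he j
    rw [h1, h2] at h3
    have h4 : 2 * (r O * n O) = 0 := by linarith
    have h5 : r O * n O = 0 := by linarith
    rcases mul_eq_zero.1 h5 with h6 | h6
    · exact hr h6
    · exact hnpos O h6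
  have heq2 : ∀ O, r O ≠ 0 → n O = r O * (2 * r O + 1) := by
    intro O hr
    have := heq1 O
    rw [hc0 O hr] at this
    push_cast at this
    linarith
  have hsign : ∀ O, r O ≠ 0 → 1 ≤ r O ∨ r O ≤ -2 := by
    intro O hr
    have h1 := hn O
    rw [heq2 O hr] at h1
    by_contra hcon
    push Not at hcon
    have h2 : r O = -1 ∨ r O = 0 := by
      obtain ⟨h3, h4⟩ := hcon
      omega
    rcases h2 with h2 | h2
    · rw [h2] at h1
      norm_num at h1
    · exact hr h2
  have hrel : ∀ j, r (O₁ j) ≠ 0 → r (O₁ j) + r (O₂ j) + 1 = 0 ∧ r (O₂ j) ≠ 0 := by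
    intro j hr
    have h1 := he j
    have hr' : r (O₂ j) ≠ 0 := by
      intro h0
      rw [h0, zero_mul, add_zero] at h1
      rcases mul_eq_zero.1 h1 with h2 | h2
      · exact hr h2
      · exact hnpos _ h2
    refine ⟨?_, hr'⟩
    rw [heq2 _ hr, heq2 _ hr'] at h1
    have h3 : r (O₁ j) * r (O₂ j) * (2 * (r (O₁ j) + r (O₂ j) + 1)) = 0 := by linarith
    rcases mul_eq_zero.1 h3 with h4 | h4
    · rcases mul_eq_zero.1 h4 with h5 | h5
      · exact absurd h5 hr
      · exact absurd h5 hr'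
    · linarith
  have hrel' : ∀ j, r (O₂ j) ≠ 0 → r (O₁ j) ≠ 0 := by
    intro j hr h0
    have h1 := he j
    rw [h0, zero_mul, zero_add] at h1
    rcases mul_eq_zero.1 h1 with h2 | h2
    · exact hr h2
    · exact hnpos _ h2
  have hal_val : ∀ O, r O ≠ 0 → (al O : ℤ) = r O * (r O + 1) := by
    intro O hr
    have h1 := hα₁ O
    rw [heq2 O hr] at h1
    have h2 : (((univ.filter fun j => O₁ j = O).card : ℕ) : ℤ) = al O := rfl
    rw [h2] at h1
    linarith
  have hal_pos : ∀ O, r O ≠ 0 → 0 < al O := by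
    intro O hr
    have h1 := hal_val O hr
    have h2 : 0 < r O * (r O + 1) := by
      rcases hsign O hr with h3 | h3 <;> nlinarith
    omega
  -- the two sets
  let P : Finset 𝕆 := univ.filter fun O => 1 ≤ r O
  let Q : Finset 𝕆 := univ.filter fun O => r O ≤ -2
  let J : Finset 𝕁 := univ.filter fun j => 1 ≤ r (O₁ j)
  have hJ2 : ∀ j, j ∈ J ↔ r (O₂ j) ≤ -2 := by
    intro j
    simp only [J, Finset.mem_filter, Finset.mem_univ, true_and]
    constructor
    · intro h1
      have h2 := (hrel j (by omega)).1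
      omega
    · intro h1
      have h2 := hrel' j (by omega)
      have h3 := (hrel j h2).1
      omega
  -- summation over the fibres
  have hfib1 : ∀ g : 𝕆 → ℚ, ∑ j ∈ J, g (O₁ j) / (al (O₁ j) : ℚ) = ∑ O ∈ P, g O := by
    intro g
    have hmaps : ∀ j ∈ J, O₁ j ∈ P := by
      intro j hj
      simp only [J, Finset.mem_filter, Finset.mem_univ, true_and] at hj
      simp only [P, Finset.mem_filter, Finset.mem_univ, true_and]
      exact hj
    rw [← Finset.sum_fiberwise_of_maps_to hmaps]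
    refine Finset.sum_congr rfl fun O hO => ?_
    have hO1 : 1 ≤ r O := by simpa [P] using hO
    have h1 : (J.filter fun j => O₁ j = O) = univ.filter fun j => O₁ j = O := by
      ext j
      simp only [J, Finset.mem_filter, Finset.mem_univ, true_and]
      constructor
      · exact fun h => h.2
      · intro h
        exact ⟨by rw [h]; exact hO1, h⟩
    rw [h1]
    have h2 : ∀ j ∈ (univ.filter fun j => O₁ j = O), g (O₁ j) / (al (O₁ j) : ℚ) = g O / (al O : ℚ) := by
      intro j hj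
      rw [(Finset.mem_filter.1 hj).2]
    rw [Finset.sum_congr rfl h2, Finset.sum_const, nsmul_eq_mul]
    have h3 : (0 : ℚ) < al O := by
      exact_mod_cast hal_pos O (by omega)
    have h4 : ((univ.filter fun j => O₁ j = O).card : ℚ) = al O := rfl
    rw [h4]
    field_simp
  have hfib2 : ∀ g : 𝕆 → ℚ, ∑ j ∈ J, g (O₂ j) / (al (O₂ j) : ℚ) = ∑ O ∈ Q, g O := by
    intro g
    have hmaps : ∀ j ∈ J, O₂ j ∈ Q := by
      intro j hj
      simp only [Q, Finset.mem_filter, Finset.mem_univ, true_and]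
      exact (hJ2 j).1 hj
    rw [← Finset.sum_fiberwise_of_maps_to hmaps]
    refine Finset.sum_congr rfl fun O hO => ?_
    have hO1 : r O ≤ -2 := by simpa [Q] using hO
    have h1 : (J.filter fun j => O₂ j = O) = univ.filter fun j => O₂ j = O := by
      ext j
      simp only [Finset.mem_filter, Finset.mem_univ, true_and]
      constructor
      · exact fun h => h.2
      · intro h
        exact ⟨(hJ2 j).2 (by rw [h]; exact hO1), h⟩
    rw [h1]
    have h2 : ∀ j ∈ (univ.filter fun j => O₂ j = O), g (O₂ j) / (al (O₂ j) : ℚ) = g O / (al O : ℚ) := by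
      intro j hj
      rw [(Finset.mem_filter.1 hj).2]
    rw [Finset.sum_congr rfl h2, Finset.sum_const, nsmul_eq_mul]
    have h3 : (0 : ℚ) < al O := by
      exact_mod_cast hal_pos O (by omega)
    have h4 : ((univ.filter fun j => O₂ j = O).card : ℚ) = al2 O := rfl
    have h5 : (al2 O : ℚ) = al O := by
      have := hal O
      exact_mod_cast this.symm
    rw [h4, h5]
    field_simp
  -- the denominators agree
  have hden : ∀ j ∈ J, (al (O₂ j) : ℚ) = al (O₁ j) := by
    intro j hj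
    have h1 : 1 ≤ r (O₁ j) := by simpa [J] using hj
    have h2 := (hrel j (by omega))
    have h3 := hal_val _ h2.2
    have h4 := hal_val _ (show r (O₁ j) ≠ 0 by omega)
    have h5 : (al (O₂ j) : ℤ) = al (O₁ j) := by
      rw [h3, h4]
      have h6 : r (O₂ j) = -1 - r (O₁ j) := by linarith [h2.1]
      rw [h6]
      ring
    exact_mod_cast h5
  have hPQ : (P.card : ℚ) = Q.card := by
    have h1 := hfib1 (fun _ => 1)
    have h2 := hfib2 (fun _ => 1)
    simp only [Finset.sum_const, nsmul_eq_mul, mul_one] at h1 h2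
    rw [← h1, ← h2]
    refine Finset.sum_congr rfl fun j hj => ?_
    rw [hden j hj]
  have hsum : (∑ O ∈ P, (r O : ℚ)) + ∑ O ∈ Q, (r O : ℚ) = -(P.card : ℚ) := by
    have h1 := hfib1 (fun O => (r O : ℚ))
    have h2 := hfib2 (fun O => (r O : ℚ))
    have h3 := hfib1 (fun _ => 1)
    simp only [Finset.sum_const, nsmul_eq_mul, mul_one] at h3
    rw [← h1, ← h2, ← h3, ← Finset.sum_add_distrib, ← Finset.sum_neg_distrib]
    refine Finset.sum_congr rfl fun j hj => ?_
    rw [hden j hj, ← add_div, ← neg_div]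
    congr 1
    have h4 : 1 ≤ r (O₁ j) := by simpa [J] using hj
    have h5 := (hrel j (by omega)).1
    have h6 : ((r (O₁ j) + r (O₂ j) + 1 : ℤ) : ℚ) = 0 := by rw [h5]; simp
    push_cast at h6
    linarith
  have htotal : (∑ O, (r O : ℚ)) = (∑ O ∈ P, (r O : ℚ)) + ∑ O ∈ Q, (r O : ℚ) := by
    rw [Finset.sum_filter, Finset.sum_filter, ← Finset.sum_add_distrib]
    refine Finset.sum_congr rfl fun O _ => ?_
    by_cases hr : r O = 0
    · have h1 : ¬ (1 ≤ r O) := by omega
      have h2 : ¬ (r O ≤ -2) := by omega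
      rw [if_neg h1, if_neg h2, hr]
      simp
    · rcases hsign O hr with h1 | h1
      · have h2 : ¬ (r O ≤ -2) := by omega
        rw [if_pos h1, if_neg h2, add_zero]
      · have h2 : ¬ (1 ≤ r O) := by omega
        rw [if_neg h2, if_pos h1, zero_add]
  have hs' : (∑ O, (r O : ℚ)) = -1 := by
    have := congrArg (fun z : ℤ => (z : ℚ)) hs
    simpa using this
  have hPc : P.card = 1 := by
    rw [htotal, hsum] at hs'
    have : (P.card : ℚ) = 1 := by linarith
    exact_mod_cast this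
  have hQc : Q.card = 1 := by
    have : (Q.card : ℚ) = 1 := by
      rw [← hPQ, hPc]
      simp
    exact_mod_cast this
  obtain ⟨Op, hOp⟩ := Finset.card_eq_one.1 hPc
  obtain ⟨Om, hOm⟩ := Finset.card_eq_one.1 hQc
  have hOpm : ∀ O, 1 ≤ r O → O = Op := by
    intro O hO
    have : O ∈ P := by simpa [P] using hO
    rw [hOp] at this
    simpa using this
  have hOmm : ∀ O, r O ≤ -2 → O = Om := by
    intro O hO
    have : O ∈ Q := by simpa [Q] using hO
    rw [hOm] at this
    simpa using this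
  have hr1 : 1 ≤ r Op := by
    have : Op ∈ P := by rw [hOp]; simp
    simpa [P] using this
  obtain ⟨j, hj⟩ : ∃ j, O₁ j = Op := by
    have := hal_pos Op (by omega)
    obtain ⟨j, hj⟩ := Finset.card_pos.1 this
    exact ⟨j, (Finset.mem_filter.1 hj).2⟩
  have hOm2 : O₂ j = Om := by
    apply hOmm
    have h1 := (hrel j (by rw [hj]; omega)).1
    rw [hj] at h1
    omega
  have hrm : r Om = -1 - r Op := by
    have h1 := (hrel j (by rw [hj]; omega)).1
    rw [hj, hOm2] at h1
    linarith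
  refine ⟨Op, Om, r Op, hr1, rfl, heq2 Op (by omega), hrm, ?_, ⟨j, hj⟩, ?_⟩
  · rw [heq2 Om (by omega), hrm]
    ring
  · intro O h1 h2
    have hr0 : r O = 0 := by
      by_contra hr
      rcases hsign O hr with h3 | h3
      · exact h1 (hOpm O h3)
      · exact h2 (hOmm O h3)
    refine ⟨hr0, ?_⟩
    -- equality of the fibres
    have h3 := heq1 O
    rw [hr0] at h3
    have h4 : (n O : ℤ) = 2 * c O := by linarith
    have h5 : al O = c O := by
      have h6 := hα₁ O
      rw [hr0] at h6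
      have h7 : (((univ.filter fun j => O₁ j = O).card : ℕ) : ℤ) = al O := rfl
      rw [h7] at h6
      have : (al O : ℤ) = c O := by linarith
      exact_mod_cast this
    have h8 : al2 O = c O := by
      have h6 := hal O
      have : (al2 O : ℤ) = c O := by
        rw [← h6]
        exact_mod_cast h5
      exact_mod_cast this
    have hsub1 : (univ.filter fun j => O₁ j = O ∧ O₂ j = O) = univ.filter fun j => O₁ j = O := by
      apply Finset.eq_of_subset_of_card_le
      · intro j hj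
        simp only [Finset.mem_filter, Finset.mem_univ, true_and] at hj ⊢
        exact hj.1
      · exact le_of_eq h5
    have hsub2 : (univ.filter fun j => O₁ j = O ∧ O₂ j = O) = univ.filter fun j => O₂ j = O := by
      apply Finset.eq_of_subset_of_card_le
      · intro j hj
        simp only [Finset.mem_filter, Finset.mem_univ, true_and] at hj ⊢
        exact hj.2
      · exact le_of_eq h8
    intro j
    have hA := Finset.ext_iff.1 hsub1 j
    have hB := Finset.ext_iff.1 hsub2 j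
    simp only [Finset.mem_filter, Finset.mem_univ, true_and] at hA hB
    constructor
    · intro h
      exact (hA.2 h).2
    · intro h
      exact (hB.2 h).1


section star

variable {p : ℕ} [hp : Fact p.Prime] {Ω : Type*} [Fintype Ω] [DecidableEq Ω]
  {φ : ZMod p × Fin 2 ≃ Ω} {G : Type*} [Group G] [Fintype G] [MulAction G Ω]
  [MulAction.IsPretransitive G Ω] {a : G}

theorem trace_Eid (hl : ell φ G = 2) (hT : ∀ j, j ≠ 0 → Tr φ (Eid φ G) j = 0) :
    (Mm φ (Eid φ G)).trace = 1 := by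
  rw [trace_Mm]
  have h1 : Tr φ (Eid φ G) = fun j => if j = 0 then (1 : ℚ) else 0 := by
    funext j
    by_cases hj : j = 0
    · subst hj
      rw [Tr_Eid_zero, hl, if_pos rfl]
      norm_num
    · rw [hT j hj, if_neg hj]
  rw [h1, ev_delta]
  simp

/-- Every invariant matrix acts on the two eigenlines by scalars. -/
theorem star_formula (ha : ∀ i e, a • φ (i, e) = φ (i + 1, e)) (hl : ell φ G = 2)
    (hT : ∀ j, j ≠ 0 → Tr φ (Eid φ G) j = 0) {A : Matrix Ω Ω ℚ} (hA : IsInv G A) :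
    Mm φ A = (rr φ A : ℂ) • Mm φ (Eid φ G) +
      ((Mm φ A).trace - (rr φ A : ℂ)) • (1 - Mm φ (Eid φ G)) := by
  have hEs : ShiftInv φ (Eid φ G) := (Eid_inv (G := G) (φ := φ)).shift ha
  have hAs : ShiftInv φ A := hA.shift ha
  set P := Mm φ (Eid φ G) with hP
  set M := Mm φ A with hM
  set r : ℂ := (rr φ A : ℂ) with hr
  have hPP : P * P = P := by
    rw [hP, ← Mm_mul hEs, Eid_sq ha]
  have hMP : M * P = r • P := by
    rw [hP, hM, ← Mm_mul hEs, mul_Eid ha hA, Mm_smul]
  have hPM : P * M = r • P := by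
    rw [hP, hM, ← Mm_mul hAs, Eid_mul ha hA, Mm_smul]
  have htP : P.trace = 1 := trace_Eid hl hT
  have hFF : (1 - P) * (1 - P) = 1 - P := by
    rw [mul_sub, mul_one, sub_mul, one_mul, hPP, sub_self, sub_zero]
  have htF : (1 - P).trace = 1 := by
    rw [Matrix.trace_sub, htP, Matrix.trace_one]
    simp
    norm_num
  have h1 := rank_one_sandwich (1 - P) M hFF htF
  have h2 : (1 - P) * M = M - r • P := by
    rw [sub_mul, one_mul, hPM]
  have h3 : ((1 - P) * M).trace = M.trace - r := by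
    rw [h2, Matrix.trace_sub, Matrix.trace_smul, htP, smul_eq_mul, mul_one]
  have h4 : (1 - P) * M * (1 - P) = M - r • P := by
    rw [h2, sub_mul, mul_sub, mul_one, hMP, smul_mul_assoc, mul_sub, mul_one, hPP]
    simp
  rw [h4, h3] at h1
  rw [← h1]
  abel

/-- Reversal of the trace function under transposition. -/
theorem Tr_transpose (ha : ∀ i e, a • φ (i, e) = φ (i + 1, e)) {A : Matrix Ω Ω ℚ} (hA : IsInv G A)
    (i : ZMod p) : Tr φ Aᵀ (-i) = Tr φ A i := by
  have hAs : ShiftInv φ A := hA.shift ha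
  unfold Tr bl
  simp only [Matrix.transpose_apply]
  rw [hAs.apply, hAs.apply]
  unfold bl
  simp

/-- The moment identity. -/
theorem moment (ha : ∀ i e, a • φ (i, e) = φ (i + 1, e)) (hl : ell φ G = 2)
    (hT : ∀ j, j ≠ 0 → Tr φ (Eid φ G) j = 0) {A : Matrix Ω Ω ℚ} (hA : IsInv G A)
    (h0 : ∀ x, A x x = 0) (hsq : ∀ x y, A x y * A x y = A x y) :
    ∑ i, (Tr φ A i) ^ 2 = 2 * nn φ A - 2 * (rr φ A) ^ 2 := by
  classical
  have hEs : ShiftInv φ (Eid φ G) := (Eid_inv (G := G) (φ := φ)).shift ha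
  have hAs : ShiftInv φ A := hA.shift ha
  have hBinv := hA.transpose
  have hBs : ShiftInv φ Aᵀ := hBinv.shift ha
  set r : ℚ := rr φ A with hr
  have hrB : rr φ Aᵀ = r := rr_transpose ha hA
  have hnB : nn φ Aᵀ = nn φ A := by
    unfold nn
    simp only [Matrix.transpose_apply]
    rw [hA.col_eq_row]
  -- the two formulas
  have hstA := star_formula ha hl hT hA
  have hstB := star_formula ha hl hT hBinv
  rw [hrB] at hstB
  set P := Mm φ (Eid φ G) with hP
  have hPP : P * P = P := by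
    rw [hP, ← Mm_mul hEs, Eid_sq ha]
  have htP : P.trace = 1 := trace_Eid hl hT
  have hPF : P * (1 - P) = 0 := by rw [mul_sub, mul_one, hPP, sub_self]
  have hFP : (1 - P) * P = 0 := by rw [sub_mul, one_mul, hPP, sub_self]
  have hFF : (1 - P) * (1 - P) = 1 - P := by
    rw [mul_sub, mul_one, hFP, sub_zero]
  have htF : (1 - P).trace = 1 := by
    rw [Matrix.trace_sub, htP, Matrix.trace_one]
    simp
    norm_num
  set x : ℂ := (Mm φ A).trace - (r : ℂ) with hx
  set y : ℂ := (Mm φ Aᵀ).trace - (r : ℂ) with hy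
  have hprod : Mm φ (A * Aᵀ) = ((r : ℂ) * r) • P + (x * y) • (1 - P) := by
    rw [Mm_mul hBs, hstA, hstB]
    simp only [add_mul, mul_add, smul_mul_assoc, mul_smul_comm, hPP, hPF, hFP, hFF, smul_zero,
      zero_add, add_zero, smul_smul]
    rw [mul_comm y x]
  have htr : ev (Tr φ (A * Aᵀ)) = (r : ℂ) * r + x * y := by
    rw [← trace_Mm, hprod, Matrix.trace_add, Matrix.trace_smul, Matrix.trace_smul, htP, htF]
    simp
  -- the auxiliary functions
  let D : (Matrix Ω Ω ℚ) → ZMod p → ℚ := fun B j => Tr φ B j - (if j = 0 then r else 0)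
  have hevD : ∀ B, ev (D B) = (Mm φ B).trace - (r : ℂ) := by
    intro B
    show ev (fun j => Tr φ B j - (if j = 0 then r else 0)) = _
    rw [ev_sub, ev_delta, trace_Mm]
  let f : ZMod p → ℚ := fun j =>
    Tr φ (A * Aᵀ) j - (if j = 0 then r * r else 0) - ∑ i, D A i * D Aᵀ (j - i)
  have hev : ev f = 0 := by
    show ev (fun j => (Tr φ (A * Aᵀ) j - (if j = 0 then r * r else 0)) -
      ∑ i, D A i * D Aᵀ (j - i)) = 0
    rw [ev_sub, ev_sub, ev_delta (p := p), ev_mul, hevD, hevD, htr]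
    push_cast
    ring
  have hc := const_of_ev f hev
  have hsD : ∀ B, IsInv G B → rr φ B = r → ∑ j, D B j = nn φ B := by
    intro B hB hrB
    show ∑ j, (Tr φ B j - (if j = 0 then r else 0)) = _
    rw [Finset.sum_sub_distrib, sum_Tr ha hB, hrB, Finset.sum_ite_eq', if_pos (Finset.mem_univ _)]
    ring
  have hsumf : ∑ j, f j = 0 := by
    show ∑ j, (Tr φ (A * Aᵀ) j - (if j = 0 then r * r else 0) - ∑ i, D A i * D Aᵀ (j - i)) = 0
    rw [Finset.sum_sub_distrib, Finset.sum_sub_distrib, sum_Tr ha (hA.mul hBinv),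
      Finset.sum_ite_eq', if_pos (Finset.mem_univ _), rr_mul ha hBinv, nn_mul hBinv, hrB, hnB]
    have h1 : ∑ j : ZMod p, ∑ i, D A i * D Aᵀ (j - i) = (∑ i, D A i) * ∑ j, D Aᵀ j := by
      rw [Finset.sum_comm, Finset.sum_mul]
      refine Finset.sum_congr rfl fun i _ => ?_
      rw [Finset.mul_sum]
      exact Equiv.sum_comp (Equiv.subRight i) (fun l => D A i * D Aᵀ l)
    rw [h1, hsD A hA rfl, hsD Aᵀ hBinv hrB, hnB]
    ring
  have hf0 : f 0 = 0 := by
    have h1 : ∑ j, f j = (p : ℚ) * f 0 := by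
      simp only [hc]
      simp [ZMod.card]
    rw [hsumf] at h1
    exact ((mul_eq_zero.1 h1.symm).resolve_left (p_ne (p := p)))
  -- evaluate at `0`
  have hD : ∀ i, D Aᵀ (0 - i) = D A i := by
    intro i
    show Tr φ Aᵀ (0 - i) - (if 0 - i = 0 then r else 0) = Tr φ A i - (if i = 0 then r else 0)
    rw [zero_sub, Tr_transpose ha hA]
    simp
  have hf0' : f 0 = Tr φ (A * Aᵀ) 0 - r * r - ∑ i, D A i * D A i := by
    show Tr φ (A * Aᵀ) 0 - (if (0 : ZMod p) = 0 then r * r else 0) - ∑ i, D A i * D Aᵀ (0 - i) = _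
    simp only [hD, if_true]
  have hsumD : ∑ i, D A i * D A i = ∑ i, (Tr φ A i) ^ 2 + r * r := by
    have h1 : ∀ i, D A i * D A i = (Tr φ A i) ^ 2 + (if i = 0 then r * r else 0) := by
      intro i
      show (Tr φ A i - (if i = 0 then r else 0)) * (Tr φ A i - (if i = 0 then r else 0)) = _
      by_cases hi : i = 0
      · subst hi
        have : Tr φ A 0 = 0 := by
          unfold Tr bl
          rw [h0, h0, add_zero]
        rw [this]
        simp
      · simp [hi, sq]
    simp only [h1]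
    rw [Finset.sum_add_distrib, Finset.sum_ite_eq', if_pos (Finset.mem_univ _)]
  have hTr0 : Tr φ (A * Aᵀ) 0 = 2 * nn φ A := by
    unfold Tr bl
    simp only [Matrix.mul_apply, Matrix.transpose_apply]
    simp only [hsq]
    rw [nn_eq (φ := φ) hA, nn_eq (φ := φ) hA]
    ring
  rw [hf0', hsumD, hTr0] at hf0
  rw [sq r]
  linarith

end star

section orbitals

variable {p : ℕ} [hp : Fact p.Prime] {Ω : Type*} [Fintype Ω] [DecidableEq Ω]
  {φ : ZMod p × Fin 2 ≃ Ω} {G : Type*} [Group G] [MulAction G Ω]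

/-- Orbitals. -/
abbrev Orbl (G Ω : Type*) [Group G] [MulAction G Ω] := MulAction.orbitRel.Quotient G (Ω × Ω)

variable (G) in
/-- The orbital of a pair. -/
def oo (x y : Ω) : Orbl G Ω := Quotient.mk'' (x, y)

theorem oo_eq_iff {x y x' y' : Ω} : oo G x y = oo G x' y' ↔ ∃ g : G, g • x' = x ∧ g • y' = y := by
  unfold oo
  rw [Quotient.eq'', MulAction.orbitRel_apply, MulAction.mem_orbit_iff]
  simp [Prod.ext_iff]

theorem oo_smul (g : G) (x y : Ω) : oo G (g • x) (g • y) = oo G x y :=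
  oo_eq_iff.2 ⟨g, rfl, rfl⟩

theorem exists_rep (O : Orbl G Ω) : ∃ x y, oo G x y = O := by
  induction O using Quotient.inductionOn' with
  | h z => exact ⟨z.1, z.2, rfl⟩

variable [MulAction.IsPretransitive G Ω]

theorem oo_diag (x y : Ω) : oo G x x = oo G y y := by
  obtain ⟨g, rfl⟩ := MulAction.exists_smul_eq G y x
  rw [oo_smul]

theorem eq_of_oo_diag {x y z : Ω} (h : oo G x y = oo G z z) : x = y := by
  obtain ⟨g, h1, h2⟩ := oo_eq_iff.1 h
  rw [← h1, h2]

theorem exists_row (O : Orbl G Ω) (x : Ω) : ∃ y, oo G x y = O := by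
  obtain ⟨x', y', rfl⟩ := exists_rep O
  obtain ⟨g, rfl⟩ := MulAction.exists_smul_eq G x' x
  exact ⟨g • y', oo_smul _ _ _⟩

open scoped Classical in
/-- The orbital matrix. -/
noncomputable def Ao (O : Orbl G Ω) : Matrix Ω Ω ℚ := fun x y => if oo G x y = O then 1 else 0

theorem Ao_inv (O : Orbl G Ω) : IsInv G (Ao O) := by
  intro g x y
  unfold Ao
  rw [oo_smul]

theorem Ao_sq (O : Orbl G Ω) (x y : Ω) : Ao O x y * Ao O x y = Ao O x y := by
  unfold Ao
  split_ifs <;> norm_num

theorem Ao_diag {O : Orbl G Ω} {z : Ω} (hO : O ≠ oo G z z) (x : Ω) : Ao O x x = 0 := by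
  unfold Ao
  rw [if_neg]
  intro h
  rw [oo_diag x z] at h
  exact hO h.symm

open scoped Classical in
variable (G φ) in
/-- Entries of the diagonal block. -/
noncomputable def al (O : Orbl G Ω) : ℕ :=
  (univ.filter fun j : ZMod p => oo G (φ (0, 0)) (φ (j, 0)) = O).card

open scoped Classical in
variable (G φ) in
/-- Entries of the off-diagonal block. -/
noncomputable def be (O : Orbl G Ω) : ℕ :=
  (univ.filter fun j : ZMod p => oo G (φ (0, 0)) (φ (j, 1)) = O).card

open scoped Classical in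
variable (G φ) in
/-- Entries of the other diagonal block. -/
noncomputable def al2 (O : Orbl G Ω) : ℕ :=
  (univ.filter fun j : ZMod p => oo G (φ (0, 1)) (φ (j, 1)) = O).card

variable (G φ) in
/-- Valency of an orbital. -/
noncomputable def nz (O : Orbl G Ω) : ℤ := (al φ G O : ℤ) + be φ G O

variable (G φ) in
/-- The eigenvalue of an orbital on the sign vector. -/
noncomputable def rz (O : Orbl G Ω) : ℤ := (al φ G O : ℤ) - be φ G O

theorem sum_bl_Ao_00 (O : Orbl G Ω) : ∑ j, bl φ (Ao O) 0 0 j = al φ G O := by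
  classical
  unfold bl Ao al
  rw [Finset.sum_boole]

theorem sum_bl_Ao_01 (O : Orbl G Ω) : ∑ j, bl φ (Ao O) 0 1 j = be φ G O := by
  classical
  unfold bl Ao be
  rw [Finset.sum_boole]

theorem sum_bl_Ao_11 (O : Orbl G Ω) : ∑ j, bl φ (Ao O) 1 1 j = al2 φ G O := by
  classical
  unfold bl Ao al2
  rw [Finset.sum_boole]

theorem nn_Ao (O : Orbl G Ω) : nn φ (Ao O) = nz φ G O := by
  rw [(sum_bl_zero (φ := φ) (A := Ao O)).1, sum_bl_Ao_00, sum_bl_Ao_01]
  simp [nz]

theorem rr_Ao (O : Orbl G Ω) : rr φ (Ao O) = rz φ G O := by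
  rw [(sum_bl_zero (φ := φ) (A := Ao O)).2, sum_bl_Ao_00, sum_bl_Ao_01]
  simp [rz]

theorem two_al (O : Orbl G Ω) : 2 * (al φ G O : ℤ) = nz φ G O + rz φ G O := by
  unfold nz rz
  ring

theorem two_al2 {a : G} (ha : ∀ i e, a • φ (i, e) = φ (i + 1, e)) (O : Orbl G Ω) :
    2 * (al2 φ G O : ℤ) = nz φ G O + rz φ G O := by
  have h1 := sum_bl_11 (φ := φ) ha (Ao_inv O)
  rw [sum_bl_Ao_11, nn_Ao, rr_Ao] at h1
  exact_mod_cast h1

/-- Existence of a neighbour of the base point gives positivity. -/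
theorem nz_pos (O : Orbl G Ω) : 1 ≤ nz φ G O := by
  classical
  obtain ⟨y, hy⟩ := exists_row O (φ (0, 0))
  obtain ⟨⟨j, e⟩, rfl⟩ := φ.surjective y
  have he : ∀ e : Fin 2, e = 0 ∨ e = 1 := by
    intro e
    fin_cases e <;> simp
  unfold nz
  rcases he e with rfl | rfl
  · have : 0 < al φ G O := Finset.card_pos.2 ⟨j, by simp [hy]⟩
    have h2 : (0 : ℤ) ≤ be φ G O := by positivity
    omega
  · have : 0 < be φ G O := Finset.card_pos.2 ⟨j, by simp [hy]⟩
    have h2 : (0 : ℤ) ≤ al φ G O := by positivity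
    omega

/-- Row sums count neighbours. -/
theorem sum_row_Ao (O : Orbl G Ω) (x : Ω) : ∑ w, Ao O x w = nz φ G O := by
  rw [nn_eq (φ := φ) (Ao_inv O) x, nn_Ao]

theorem sum_col_Ao (O : Orbl G Ω) (x : Ω) : ∑ w, Ao O w x = nz φ G O := by
  rw [nn_eq_col (φ := φ) (Ao_inv O) x, nn_Ao]

theorem uniq_row {O : Orbl G Ω} (h1 : nz φ G O = 1) {x y y' : Ω} (hy : oo G x y = O)
    (hy' : oo G x y' = O) : y = y' := by
  classical
  by_contra hne
  have h2 := sum_row_Ao (φ := φ) O x
  rw [h1] at h2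
  have hA : ∀ w, w = y ∨ w = y' → Ao O x w = 1 := by
    rintro w (rfl | rfl)
    · simp [Ao, hy]
    · simp [Ao, hy']
  have h3 : ∑ w ∈ ({y, y'} : Finset Ω), Ao O x w ≤ ∑ w, Ao O x w := by
    refine Finset.sum_le_sum_of_subset_of_nonneg (Finset.subset_univ _) fun w _ _ => ?_
    unfold Ao
    split_ifs <;> norm_num
  rw [Finset.sum_pair hne, hA y (Or.inl rfl), hA y' (Or.inr rfl), h2] at h3
  norm_num at h3

theorem uniq_col {O : Orbl G Ω} (h1 : nz φ G O = 1) {x x' y : Ω} (hx : oo G x y = O)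
    (hx' : oo G x' y = O) : x = x' := by
  classical
  by_contra hne
  have h2 := sum_col_Ao (φ := φ) O y
  rw [h1] at h2
  have hA : ∀ w, w = x ∨ w = x' → Ao O w y = 1 := by
    rintro w (rfl | rfl)
    · simp [Ao, hx]
    · simp [Ao, hx']
  have h3 : ∑ w ∈ ({x, x'} : Finset Ω), Ao O w y ≤ ∑ w, Ao O w y := by
    refine Finset.sum_le_sum_of_subset_of_nonneg (Finset.subset_univ _) fun w _ _ => ?_
    unfold Ao
    split_ifs <;> norm_num
  rw [Finset.sum_pair hne, hA x (Or.inl rfl), hA x' (Or.inr rfl), h2] at h3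
  norm_num at h3

variable [Fintype G] {a : G}

/-- The entries of the average on an orbital. -/
theorem E1_value (ha : ∀ i e, a • φ (i, e) = φ (i + 1, e)) {O : Orbl G Ω} {x y : Ω}
    (h : oo G x y = O) : (nz φ G O : ℚ) * E1 φ G x y = rz φ G O := by
  classical
  have h1 := congrFun (congrFun (E1_mul (φ := φ) ha (Ao_inv O).transpose) x) x
  rw [Matrix.mul_apply, Matrix.smul_apply, smul_eq_mul, E1_diag, mul_one,
    rr_transpose ha (Ao_inv O), rr_Ao] at h1
  simp only [Matrix.transpose_apply] at h1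
  rw [← h1, ← sum_row_Ao (φ := φ) O x, Finset.sum_mul]
  refine Finset.sum_congr rfl fun w _ => ?_
  by_cases hw : oo G x w = O
  · obtain ⟨g, hg1, hg2⟩ := oo_eq_iff.1 (hw.trans h.symm)
    have h2 := E1_inv (φ := φ) g x y
    rw [hg1, hg2] at h2
    rw [h2, mul_comm]
  · simp [Ao, hw]

/-- Orbitals have valency at least two. -/
theorem two_le_nz (hprim : MulAction.IsPreprimitive G Ω)
    (ha : ∀ i e, a • φ (i, e) = φ (i + 1, e)) (hl : ell φ G = 2) {O : Orbl G Ω} {z : Ω}
    (hO : O ≠ oo G z z) : 2 ≤ nz φ G O := by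
  classical
  by_contra hcon
  have hn1 : nz φ G O = 1 := by
    have := nz_pos (φ := φ) O
    omega
  -- the rational eigenvalue is a sign
  have hr : (rz φ G O) = 1 ∨ rz φ G O = -1 := by
    have h1 : (al φ G O : ℤ) + be φ G O = 1 := hn1
    unfold rz
    omega
  have hval : ∀ {x y : Ω}, oo G x y = O → E1 φ G x y = rz φ G O := by
    intro x y h
    have := E1_value (φ := φ) ha h
    rw [hn1] at this
    simpa using this
  have hsq : ∀ {x y : Ω}, oo G x y = O → E1 φ G x y * E1 φ G x y = 1 := by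
    intro x y h
    rw [hval h]
    rcases hr with hr | hr <;> rw [hr] <;> norm_num
  have hne0 : ∀ {x y : Ω}, oo G x y = O → x ≠ y := by
    intro x y h hxy
    subst hxy
    exact hO (h.symm.trans (oo_diag _ _))
  -- row supports
  have hsupp : ∀ {x y w : Ω}, E1 φ G x y * E1 φ G x y = 1 → x ≠ y → w ≠ x → w ≠ y → E1 φ G x w = 0 := by
    intro x y w h1 hxy hwx hwy
    have h2 := ell_eq (φ := φ) (G := G) ha x
    rw [hl] at h2
    have h3 : ∑ v ∈ ({x, y, w} : Finset Ω), E1 φ G x v * E1 φ G x v ≤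
        ∑ v, E1 φ G x v * E1 φ G x v := by
      refine Finset.sum_le_sum_of_subset_of_nonneg (Finset.subset_univ _) fun v _ _ => ?_
      exact mul_self_nonneg _
    rw [Finset.sum_insert (by simp [hxy, hwx.symm]), Finset.sum_pair hwy.symm, ← h2, E1_diag, h1] at h3
    have h4 : E1 φ G x w * E1 φ G x w ≤ 0 := by linarith
    have h5 := mul_self_nonneg (E1 φ G x w)
    exact mul_self_eq_zero.1 (le_antisymm h4 h5)
  obtain ⟨y₀, hy₀⟩ := exists_row O (φ (0, 0))
  set x₀ := φ (0, 0) with hx₀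
  have hxy := hne0 hy₀
  -- involution
  obtain ⟨y₁, hy₁⟩ := exists_row O y₀
  have hy₁x : y₁ = x₀ := by
    by_contra hne
    have hne2 : y₁ ≠ y₀ := fun h => hne0 hy₁ h.symm
    have hsymm : E1 φ G y₀ x₀ = E1 φ G x₀ y₀ := congrFun (congrFun (E1_symm (φ := φ) (G := G)) x₀) y₀
    have h1 : E1 φ G y₀ x₀ * E1 φ G y₀ x₀ = 1 := by
      rw [hsymm]
      exact hsq hy₀
    have h2 := hsupp h1 hxy.symm hne2 hne
    have h3 := hsq hy₁
    rw [h2] at h3
    norm_num at h3
  rw [hy₁x] at hy₁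
  -- the block
  let B : Set Ω := {x₀, y₀}
  have hB : MulAction.IsBlock G B := by
    rw [MulAction.isBlock_iff_smul_eq_or_disjoint]
    intro g
    have hg1 : oo G (g • x₀) (g • y₀) = O := by rw [oo_smul]; exact hy₀
    have hg2 : oo G (g • y₀) (g • x₀) = O := by rw [oo_smul]; exact hy₁
    have hgB : g • B = {g • x₀, g • y₀} := by
      simp [B, Set.smul_set_insert]
    rw [hgB]
    by_cases hc : g • x₀ = x₀ ∨ g • x₀ = y₀ ∨ g • y₀ = x₀ ∨ g • y₀ = y₀
    · left
      have hcases : (g • x₀ = x₀ ∧ g • y₀ = y₀) ∨ (g • x₀ = y₀ ∧ g • y₀ = x₀) := by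
        rcases hc with h | h | h | h
        · left
          refine ⟨h, ?_⟩
          rw [h] at hg1
          exact uniq_row (φ := φ) hn1 hg1 hy₀
        · right
          refine ⟨h, ?_⟩
          rw [h] at hg1
          exact uniq_row (φ := φ) hn1 hg1 hy₁
        · right
          refine ⟨?_, h⟩
          rw [h] at hg2
          exact uniq_row (φ := φ) hn1 hg2 hy₀
        · left
          refine ⟨?_, h⟩
          rw [h] at hg1
          exact uniq_col (φ := φ) hn1 hg1 hy₀
      rcases hcases with ⟨h1, h2⟩ | ⟨h1, h2⟩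
      · rw [h1, h2]
      · rw [h1, h2]
        exact Set.pair_comm _ _
    · right
      push Not at hc
      obtain ⟨h1, h2, h3, h4⟩ := hc
      rw [Set.disjoint_left]
      rintro v (rfl | rfl) (h5 | h5)
      · exact h1 h5
      · exact h2 h5
      · exact h3 h5
      · exact h4 h5
  have htriv := hprim.isTrivialBlock_of_isBlock hB
  rcases htriv with h1 | h1
  · exact hxy (h1 (by simp [B]) (by simp [B]))
  · have h2 : Set.ncard B ≤ 2 := by
      simp only [B]
      exact Set.ncard_insert_le _ _ |>.trans (by simp)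
    rw [h1] at h2
    have h3 : Set.ncard (Set.univ : Set Ω) = 2 * p := by
      rw [Set.ncard_univ, Nat.card_eq_fintype_card, card_Omega φ]
    rw [h3] at h2
    have := hp.out.two_le
    omega

end orbitals

section branchone

variable {p : ℕ} [hp : Fact p.Prime] {Ω : Type*} [Fintype Ω] [DecidableEq Ω]
  {φ : ZMod p × Fin 2 ≃ Ω} {G : Type*} [Group G] [Fintype G] [MulAction G Ω]
  [MulAction.IsPretransitive G Ω] {a : G}

theorem card_subtype_ne (P : ZMod p → Prop) [DecidablePred P] (h0 : ¬ P 0) :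
    (univ.filter fun j : {j : ZMod p // j ≠ 0} => P j.1).card = (univ.filter P).card := by
  refine Finset.card_bij (fun j _ => j.1) ?_ ?_ ?_
  · intro j hj
    simpa using hj
  · intro j _ k _ h
    exact Subtype.ext h
  · intro k hk
    have hk' : P k := by simpa using hk
    refine ⟨⟨k, fun h => h0 (h ▸ hk')⟩, ?_, rfl⟩
    simpa using hk'

/-- The main branch: rank three. -/
theorem branch_one (hprim : MulAction.IsPreprimitive G Ω)
    (ha : ∀ i e, a • φ (i, e) = φ (i + 1, e)) (hl : ell φ G = 2)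
    (hT : ∀ j, j ≠ 0 → Tr φ (Eid φ G) j = 0) :
    ∃ (A : ℕ) (Op Om : Orbl G Ω), 0 < A ∧ p = 2 * A ^ 2 + 2 * A + 1 ∧ Op ≠ Om ∧
      Op ≠ oo G (φ (0, 0)) (φ (0, 0)) ∧ Om ≠ oo G (φ (0, 0)) (φ (0, 0)) ∧
      (∀ O, O = oo G (φ (0, 0)) (φ (0, 0)) ∨ O = Op ∨ O = Om) ∧
      nz φ G Op = (A : ℤ) * (2 * A + 1) ∧ nz φ G Om = ((A : ℤ) + 1) * (2 * A + 1) := by
  classical
  let _ : Fintype (Orbl G Ω) := Fintype.ofFinite _
  set d : Orbl G Ω := oo G (φ (0, 0)) (φ (0, 0)) with hd
  have hnd : ∀ {x y : Ω}, x ≠ y → oo G x y ≠ d := fun hxy h => hxy (eq_of_oo_diag h)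
  have hO1 : ∀ j : {j : ZMod p // j ≠ 0}, oo G (φ (0, 0)) (φ (j.1, 0)) ≠ d := by
    intro j
    apply hnd
    intro h
    have := φ.injective h
    simp only [Prod.mk.injEq, and_true] at this
    exact j.2 this.symm
  have hO2 : ∀ j : {j : ZMod p // j ≠ 0}, oo G (φ (0, 1)) (φ (j.1, 1)) ≠ d := by
    intro j
    apply hnd
    intro h
    have := φ.injective h
    simp only [Prod.mk.injEq, and_true] at this
    exact j.2 this.symm
  let O₁ : {j : ZMod p // j ≠ 0} → {O : Orbl G Ω // O ≠ d} := fun j => ⟨_, hO1 j⟩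
  let O₂ : {j : ZMod p // j ≠ 0} → {O : Orbl G Ω // O ≠ d} := fun j => ⟨_, hO2 j⟩
  let n : {O : Orbl G Ω // O ≠ d} → ℤ := fun O => nz φ G O.1
  let r : {O : Orbl G Ω // O ≠ d} → ℤ := fun O => rz φ G O.1
  have h00 : ∀ O : {O : Orbl G Ω // O ≠ d}, oo G (φ (0, 0)) (φ ((0 : ZMod p), 0)) ≠ O.1 :=
    fun O h => O.2 h.symm
  have h01 : ∀ O : {O : Orbl G Ω // O ≠ d}, oo G (φ (0, 1)) (φ ((0 : ZMod p), 1)) ≠ O.1 :=
    fun O h => O.2 (h.symm.trans (oo_diag _ _))
  have hnO : ∀ O : {O : Orbl G Ω // O ≠ d}, 2 ≤ n O := fun O => two_le_nz hprim ha hl O.2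
  have hα₁ : ∀ O, 2 * (((univ.filter fun j => O₁ j = O).card : ℕ) : ℤ) = n O + r O := by
    intro O
    have h1 : (univ.filter fun j => O₁ j = O) =
        univ.filter fun j : {j : ZMod p // j ≠ 0} => oo G (φ (0, 0)) (φ (j.1, 0)) = O.1 := by
      ext j
      simp [O₁, Subtype.ext_iff]
    rw [h1, card_subtype_ne (fun j => oo G (φ (0, 0)) (φ (j, 0)) = O.1) (h00 O)]
    exact two_al O.1
  have hα₂ : ∀ O, 2 * (((univ.filter fun j => O₂ j = O).card : ℕ) : ℤ) = n O + r O := by
    intro O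
    have h1 : (univ.filter fun j => O₂ j = O) =
        univ.filter fun j : {j : ZMod p // j ≠ 0} => oo G (φ (0, 1)) (φ (j.1, 1)) = O.1 := by
      ext j
      simp [O₂, Subtype.ext_iff]
    rw [h1, card_subtype_ne (fun j => oo G (φ (0, 1)) (φ (j, 1)) = O.1) (h01 O)]
    exact two_al2 ha O.1
  have hm : ∀ O, ∑ j, ((if O₁ j = O then (1 : ℤ) else 0) + (if O₂ j = O then 1 else 0)) ^ 2 =
      2 * n O - 2 * r O ^ 2 := by
    intro O
    have hmom := moment ha hl hT (Ao_inv O.1)
      (Ao_diag (z := φ (0, 0)) O.2) (Ao_sq O.1)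
    rw [nn_Ao, rr_Ao, Fintype.sum_eq_add_sum_subtype_ne _ (0 : ZMod p)] at hmom
    have h0 : Tr φ (Ao O.1) 0 = 0 := by
      unfold Tr bl Ao
      rw [if_neg (h00 O), if_neg (h01 O), add_zero]
    rw [h0] at hmom
    have h1 : ∀ j : {j : ZMod p // j ≠ 0}, (Tr φ (Ao O.1) j.1) ^ 2 =
        ((((if O₁ j = O then (1 : ℤ) else 0) + (if O₂ j = O then 1 else 0)) ^ 2 : ℤ) : ℚ) := by
      intro j
      unfold Tr bl Ao
      have e1 : O₁ j = O ↔ oo G (φ (0, 0)) (φ (j.1, 0)) = O.1 := Subtype.ext_iff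
      have e2 : O₂ j = O ↔ oo G (φ (0, 1)) (φ (j.1, 1)) = O.1 := Subtype.ext_iff
      by_cases h3 : O₁ j = O <;> by_cases h4 : O₂ j = O <;>
        simp [h3, h4, e1.1, e2.1, e1.not.1, e2.not.1] <;> norm_num
    simp only [h1] at hmom
    have hfin : ((∑ j, ((if O₁ j = O then (1 : ℤ) else 0) + (if O₂ j = O then 1 else 0)) ^ 2 : ℤ) : ℚ)
        = ((2 * n O - 2 * r O ^ 2 : ℤ) : ℚ) := by
      push_cast at hmom ⊢
      simp only [n, r]
      rw [← hmom]
      ring
    exact_mod_cast hfin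
  have he : ∀ j, r (O₁ j) * n (O₂ j) + r (O₂ j) * n (O₁ j) = 0 := by
    intro j
    have h1 := hT j.1 j.2
    unfold Tr bl Eid at h1
    simp only [Matrix.smul_apply, smul_eq_mul] at h1
    rw [hl] at h1
    have h2 : E1 φ G (φ (0, 0)) (φ (j.1, 0)) + E1 φ G (φ (0, 1)) (φ (j.1, 1)) = 0 := by
      linarith
    have h3 := E1_value (φ := φ) ha (rfl : oo G (φ (0, 0)) (φ (j.1, 0)) = _)
    have h4 := E1_value (φ := φ) ha (rfl : oo G (φ (0, 1)) (φ (j.1, 1)) = _)
    have h5 : ((r (O₁ j) * n (O₂ j) + r (O₂ j) * n (O₁ j) : ℤ) : ℚ) = 0 := by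
      show (((rz φ G (oo G (φ (0, 0)) (φ (j.1, 0)))) * (nz φ G (oo G (φ (0, 1)) (φ (j.1, 1)))) +
        (rz φ G (oo G (φ (0, 1)) (φ (j.1, 1)))) * (nz φ G (oo G (φ (0, 0)) (φ (j.1, 0)))) : ℤ) : ℚ) = 0
      push_cast
      rw [← h3, ← h4]
      have h6 : E1 φ G (φ (0, 1)) (φ (j.1, 1)) = - E1 φ G (φ (0, 0)) (φ (j.1, 0)) := by linarith
      rw [h6]
      ring
    exact_mod_cast h5
  -- sums over all orbitals
  have hsal : ∑ O, (al φ G O : ℤ) = p := by
    have := Finset.card_eq_sum_card_fiberwise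
      (f := fun j : ZMod p => oo G (φ (0, 0)) (φ (j, 0))) (s := univ) (t := univ)
      (fun _ _ => Finset.mem_univ _)
    rw [Finset.card_univ, ZMod.card] at this
    have h3 : ∑ O, al φ G O = p := this.symm
    exact_mod_cast h3
  have hsbe : ∑ O, (be φ G O : ℤ) = p := by
    have := Finset.card_eq_sum_card_fiberwise
      (f := fun j : ZMod p => oo G (φ (0, 0)) (φ (j, 1))) (s := univ) (t := univ)
      (fun _ _ => Finset.mem_univ _)
    rw [Finset.card_univ, ZMod.card] at this
    have h3 : ∑ O, be φ G O = p := this.symm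
    exact_mod_cast h3
  have hald : al φ G d = 1 := by
    unfold al
    rw [Finset.card_eq_one]
    refine ⟨0, ?_⟩
    ext j
    simp only [Finset.mem_filter, Finset.mem_univ, true_and, Finset.mem_singleton]
    constructor
    · intro h
      have := eq_of_oo_diag h
      have h2 := φ.injective this
      simp only [Prod.mk.injEq, and_true] at h2
      exact h2.symm
    · rintro rfl
      rfl
  have hbed : be φ G d = 0 := by
    unfold be
    rw [Finset.card_eq_zero, Finset.filter_eq_empty_iff]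
    intro j _ h
    have := eq_of_oo_diag h
    have h2 := φ.injective this
    simp only [Prod.mk.injEq] at h2
    exact absurd h2.2 (by decide)
  have hrd : rz φ G d = 1 := by
    unfold rz
    rw [hald, hbed]
    simp
  have hnd' : nz φ G d = 1 := by
    unfold nz
    rw [hald, hbed]
    simp
  have hs : ∑ O, r O = -1 := by
    have h1 : ∑ O, rz φ G O = 0 := by
      unfold rz
      rw [Finset.sum_sub_distrib, hsal, hsbe, sub_self]
    rw [Fintype.sum_eq_add_sum_subtype_ne _ d, hrd] at h1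
    show ∑ O : {O : Orbl G Ω // O ≠ d}, rz φ G O.1 = -1
    linarith
  have hsn : ∑ O, nz φ G O = 2 * p := by
    unfold nz
    rw [Finset.sum_add_distrib, hsal, hsbe]
    ring
  obtain ⟨Op, Om, c, hc1, hrp, hnp, hrm, hnm, ⟨j₀, hj₀⟩, hrest⟩ :=
    combi O₁ O₂ n r hnO hα₁ hα₂ hm he hs
  have hne : Op ≠ Om := by
    intro h
    rw [h] at hrp
    omega
  -- elimination of the remaining orbitals
  have helim : ∀ O : {O : Orbl G Ω // O ≠ d}, O = Op ∨ O = Om := by
    intro O
    by_contra hcon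
    push Not at hcon
    obtain ⟨hr0, hfib⟩ := hrest O hcon.1 hcon.2
    have hstar := star_formula ha hl hT (Ao_inv O.1)
    have hrr : rr φ (Ao O.1) = 0 := by
      rw [rr_Ao]
      have : rz φ G O.1 = 0 := hr0
      rw [this]
      simp
    rw [hrr] at hstar
    set S : ZMod p → ℚ := bl φ (Ao O.1) 0 0 with hS
    have hS11 : bl φ (Ao O.1) 1 1 = S := by
      funext j
      simp only [hS]
      unfold bl Ao
      by_cases hj : j = 0
      · subst hj
        rw [if_neg (h00 O), if_neg (h01 O)]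
      · have h1 := hfib ⟨j, hj⟩
        have e1 : O₁ ⟨j, hj⟩ = O ↔ oo G (φ (0, 0)) (φ (j, 0)) = O.1 := Subtype.ext_iff
        have e2 : O₂ ⟨j, hj⟩ = O ↔ oo G (φ (0, 1)) (φ (j, 1)) = O.1 := Subtype.ext_iff
        by_cases h3 : oo G (φ (0, 0)) (φ (j, 0)) = O.1
        · rw [if_pos h3, if_pos (e2.1 (h1.1 (e1.2 h3)))]
        · rw [if_neg h3, if_neg (fun h4 => h3 (e1.1 (h1.2 (e2.2 h4))))]
    have hM00 : Mm φ (Ao O.1) 0 0 = ev S := rfl
    have hM11 : Mm φ (Ao O.1) 1 1 = ev S := by
      show ev (bl φ (Ao O.1) 1 1) = _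
      rw [hS11]
    have htau : (Mm φ (Ao O.1)).trace = 2 * ev S := by
      rw [trace_two, hM00, hM11]
      ring
    have hentry := congrFun (congrFun hstar 0) 0
    rw [hM00] at hentry
    simp only [Matrix.add_apply, Matrix.smul_apply, Matrix.sub_apply, smul_eq_mul, htau] at hentry
    simp only [Rat.cast_zero, zero_mul, zero_add, sub_zero, Matrix.one_apply_eq] at hentry
    by_cases hev : ev S = 0
    · -- then `S` vanishes
      have h1 := const_of_ev S hev
      have h2 : ∑ j, S j = 0 := by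
        refine Finset.sum_eq_zero fun j _ => ?_
        rw [h1 j]
        simp only [hS]
        unfold bl Ao
        rw [if_neg (h00 O)]
      rw [sum_bl_Ao_00] at h2
      have h3 : al φ G O.1 = 0 := by exact_mod_cast h2
      have h4 := two_al (φ := φ) O.1
      rw [h3] at h4
      have h5 := hnO O
      have h6 : rz φ G O.1 = 0 := hr0
      have h7 : nz φ G O.1 = n O := rfl
      rw [h6, h7] at h4
      simp only [Nat.cast_zero, mul_zero, add_zero] at h4
      omega
    · -- then the `0,0` entry of the idempotent is `1/2`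
      have hP : Mm φ (Eid φ G) 0 0 = 1 / 2 := by
        have h1 : ev S * (2 * (1 - Mm φ (Eid φ G) 0 0) - 1) = 0 := by linear_combination -hentry
        have h2 := (mul_eq_zero.1 h1).resolve_left hev
        linear_combination (-1 / 2) * h2
      have h2 : ev (fun j => bl φ (Eid φ G) 0 0 j - (if j = 0 then (1 / 2 : ℚ) else 0)) = 0 := by
        rw [ev_sub, ev_delta]
        have : ev (bl φ (Eid φ G) 0 0) = 1 / 2 := hP
        rw [this]
        push_cast
        ring
      have h3 := const_of_ev _ h2 j₀.1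
      rw [if_neg j₀.2, if_pos rfl, sub_zero] at h3
      have h4 : bl φ (Eid φ G) 0 0 0 = 1 / 2 := by
        unfold bl
        rw [Eid_diag, hl]
        norm_num
      rw [h4, sub_self] at h3
      have h5 : E1 φ G (φ (0, 0)) (φ (j₀.1, 0)) = 0 := by
        unfold bl Eid at h3
        simp only [Matrix.smul_apply, smul_eq_mul, hl] at h3
        linarith
      have h6 := E1_value (φ := φ) ha (rfl : oo G (φ (0, 0)) (φ (j₀.1, 0)) = _)
      rw [h5, mul_zero] at h6
      have h7 : oo G (φ (0, 0)) (φ (j₀.1, 0)) = Op.1 := congrArg Subtype.val hj₀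
      rw [h7] at h6
      have h8 : rz φ G Op.1 = c := hrp
      rw [h8] at h6
      have h9 : c = 0 := by exact_mod_cast h6.symm
      omega
  -- counting
  have hprimeeq : (2 * p : ℤ) = 1 + c * (2 * c + 1) + (c + 1) * (2 * c + 1) := by
    rw [← hsn, Fintype.sum_eq_add_sum_subtype_ne _ d, hnd']
    have huniv : (univ : Finset {O : Orbl G Ω // O ≠ d}) = {Op, Om} := by
      ext O
      simp only [Finset.mem_univ, Finset.mem_insert, Finset.mem_singleton, true_iff]
      exact helim O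
    rw [huniv, Finset.sum_pair hne]
    have e1 : nz φ G Op.1 = c * (2 * c + 1) := hnp
    have e2 : nz φ G Om.1 = (c + 1) * (2 * c + 1) := hnm
    rw [e1, e2]
    ring
  have hc0 : (c.toNat : ℤ) = c := Int.toNat_of_nonneg (by omega)
  refine ⟨c.toNat, Op.1, Om.1, by omega, ?_, fun h => hne (Subtype.ext h), Op.2, Om.2, ?_, ?_, ?_⟩
  · have h1 : (p : ℤ) = 2 * (c.toNat : ℤ) ^ 2 + 2 * (c.toNat : ℤ) + 1 := by
      rw [hc0]
      nlinarith
    exact_mod_cast h1
  · intro O
    by_cases hO : O = d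
    · exact Or.inl hO
    · right
      rcases helim ⟨O, hO⟩ with h | h
      · left
        exact congrArg Subtype.val h
      · right
        exact congrArg Subtype.val h
  · rw [hc0]
    exact hnp
  · rw [hc0]
    exact hnm

/-- The main dichotomy for a transitive group with a fixed point free element of prime order `p`
and two cycles. -/
theorem main_dichotomy (hprim : MulAction.IsPreprimitive G Ω)
    (ha : ∀ i e, a • φ (i, e) = φ (i + 1, e)) :
    MulAction.IsMultiplyPretransitive G Ω 2 ∨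
    ∃ (A : ℕ) (Op Om : Orbl G Ω), 0 < A ∧ p = 2 * A ^ 2 + 2 * A + 1 ∧ Op ≠ Om ∧
      Op ≠ oo G (φ (0, 0)) (φ (0, 0)) ∧ Om ≠ oo G (φ (0, 0)) (φ (0, 0)) ∧
      (∀ O, O = oo G (φ (0, 0)) (φ (0, 0)) ∨ O = Op ∨ O = Om) ∧
      nz φ G Op = (A : ℤ) * (2 * A + 1) ∧ nz φ G Om = ((A : ℤ) + 1) * (2 * A + 1) := by
  rcases tri (φ := φ) (G := G) ha with ⟨h1, h2⟩ | ⟨h1, h2⟩ | h
  · exact absurd hprim (branch_zero ha h1 h2)
  · exact Or.inr (branch_one hprim ha h1 h2)
  · exact Or.inl (branch_two ha h)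

end branchone


end Cfsg.Agent.Lib.TwoP
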