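import Mathlib

/-!
# Abstract lemmas for the minimal index of `PSU₃(q)`

A Fisher type inequality for two-transitive actions, conjugacy of two involutions whose product has
odd order, and a transitivity criterion.
-/

set_option autoImplicit false
set_option linter.unusedSectionVars false
set_option linter.unusedVariables false

namespace Cfsg.Agent.Lib.U3Min

section Fisher

variable {G X : Type*} [Group G] [Finite G] [MulAction G X] [Finite X]

/-- Fisher's inequality: a proper non-empty `K`-invariant subset of a two-transitive `G`-set gives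
`|X| ≤ |G : K|`. -/
theorem fisher (h2 : ∀ a b c d : X, a ≠ b → c ≠ d → ∃ g : G, g • a = c ∧ g • b = d)
    (K : Subgroup G) (O : Set X) (hKO : ∀ k ∈ K, ∀ x, k • x ∈ O ↔ x ∈ O) {a b : X} (ha : a ∈ O)
    (hb : b ∉ O) : Nat.card X ≤ K.index := by
  classical
  letI : Fintype G := Fintype.ofFinite G
  letI : Fintype X := Fintype.ofFinite X
  letI : Fintype (G ⧸ K) := Fintype.ofFinite _
  have hab : a ≠ b := fun h => hb (h ▸ ha)
  let S : (X → ℚ) → G → ℚ := fun f g => ∑ x, if g⁻¹ • x ∈ O then f x else 0
  have hS : ∀ f (g : G) (k : G), k ∈ K → S f (g * k) = S f g := by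
    intro f g k hk
    apply Finset.sum_congr rfl
    intro x _
    have : (g * k)⁻¹ • x ∈ O ↔ g⁻¹ • x ∈ O := by
      rw [mul_inv_rev, mul_smul]
      exact hKO _ (K.inv_mem hk) _
    simp only [this]
  let Φ : (X → ℚ) →ₗ[ℚ] ((G ⧸ K) → ℚ) :=
    { toFun := fun f ζ => S f (Quotient.out ζ)
      map_add' := by
        intro f f'
        funext ζ
        simp only [S, Pi.add_apply, ← Finset.sum_add_distrib]
        apply Finset.sum_congr rfl
        intro x _
        split_ifs <;> simp
      map_smul' := by
        intro c f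
        funext ζ
        simp only [S, Pi.smul_apply, smul_eq_mul, RingHom.id_apply, Finset.mul_sum]
        apply Finset.sum_congr rfl
        intro x _
        split_ifs <;> simp }
  have hΦ : Function.Injective Φ := by
    rw [← LinearMap.ker_eq_bot, LinearMap.ker_eq_bot']
    intro f hf
    have h0 : ∀ g : G, S f g = 0 := by
      intro g
      have h1 : (Quotient.out (g : G ⧸ K))⁻¹ * g ∈ K := by
        rw [← QuotientGroup.eq]
        exact QuotientGroup.out_eq' _
      have h2 := hS f (Quotient.out (g : G ⧸ K)) _ h1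
      rw [mul_inv_cancel_left] at h2
      rw [h2]
      exact congrFun hf (g : G ⧸ K)
    -- the counting function
    let N : X → X → ℕ := fun x y => (Finset.univ.filter fun g : G => g⁻¹ • x ∈ O ∧ g⁻¹ • y ∈ O).card
    have hN : ∀ (h : G) x y, N (h • x) (h • y) = N x y := by
      intro h x y
      apply Finset.card_bij (fun g _ => h⁻¹ * g)
      · intro g hg
        simp only [Finset.mem_filter, Finset.mem_univ, true_and] at hg ⊢
        simpa [mul_smul] using hg
      · intro g _ g' _ hh
        exact mul_left_cancel hh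
      · intro g hg
        refine ⟨h * g, ?_, by simp⟩
        simp only [Finset.mem_filter, Finset.mem_univ, true_and] at hg ⊢
        simpa [mul_smul] using hg
    have hNoff : ∀ x y, x ≠ y → N x y = N a b := by
      intro x y hxy
      obtain ⟨h, h1, h3⟩ := h2 a b x y hab hxy
      rw [← h1, ← h3, hN]
    have hNon : ∀ x, N x x = N a a := by
      intro x
      obtain ⟨y, hy⟩ : ∃ y, x ≠ y := by
        by_cases h : x = a
        · exact ⟨b, h ▸ hab⟩
        · exact ⟨a, h⟩
      obtain ⟨h, h1, -⟩ := h2 a b x y hab hy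
      rw [← h1, hN]
    have hlt : N a b < N a a := by
      apply Finset.card_lt_card
      rw [Finset.ssubset_iff_of_subset]
      · refine ⟨1, ?_, ?_⟩
        · simpa using ha
        · simp [hb]
      · intro g hg
        simp only [Finset.mem_filter, Finset.mem_univ, true_and] at hg ⊢
        exact ⟨hg.1, hg.1⟩
    have hsum : ∑ g : G, (S f g) ^ 2 = ∑ x, ∑ y, f x * f y * (N x y : ℚ) := by
      have h3 : ∀ g : G, (S f g) ^ 2 = ∑ x, ∑ y,
          f x * f y * (if g⁻¹ • x ∈ O ∧ g⁻¹ • y ∈ O then (1 : ℚ) else 0) := by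
        intro g
        rw [pow_two, Finset.sum_mul_sum]
        apply Finset.sum_congr rfl
        intro x _
        apply Finset.sum_congr rfl
        intro y _
        by_cases h4 : g⁻¹ • x ∈ O <;> by_cases h5 : g⁻¹ • y ∈ O <;> simp [h4, h5]
      simp_rw [h3]
      rw [Finset.sum_comm]
      apply Finset.sum_congr rfl
      intro x _
      rw [Finset.sum_comm]
      apply Finset.sum_congr rfl
      intro y _
      rw [← Finset.mul_sum]
      congr 1
      rw [Finset.sum_boole]
    obtain ⟨A, hA⟩ : ∃ A : ℚ, A = (N a b : ℚ) := ⟨_, rfl⟩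
    obtain ⟨R, hR⟩ : ∃ R : ℚ, R = (N a a : ℚ) := ⟨_, rfl⟩
    have hA0 : 0 ≤ A := by rw [hA]; exact Nat.cast_nonneg _
    have hval : ∀ x y, (N x y : ℚ) = A + (if x = y then (R - A) else 0) := by
      intro x y
      by_cases hxy : x = y
      · subst hxy
        rw [if_pos rfl, hNon x, hR]
        ring
      · rw [if_neg hxy, hNoff x y hxy, hA]
        ring
    have hexp : ∑ x, ∑ y, f x * f y * (N x y : ℚ) = A * (∑ x, f x) ^ 2 + (R - A) * ∑ x, f x ^ 2 := by
      simp_rw [hval, mul_add, Finset.sum_add_distrib]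
      congr 1
      · rw [pow_two, Finset.sum_mul_sum, Finset.mul_sum]
        apply Finset.sum_congr rfl
        intro x _
        rw [Finset.mul_sum]
        apply Finset.sum_congr rfl
        intro y _
        ring
      · rw [Finset.mul_sum]
        apply Finset.sum_congr rfl
        intro x _
        rw [Finset.sum_eq_single x]
        · rw [if_pos rfl]
          ring
        · intro y _ hy
          rw [if_neg (Ne.symm hy), mul_zero]
        · intro h
          exact absurd (Finset.mem_univ x) h
    have h00 : A * (∑ x, f x) ^ 2 + (R - A) * ∑ x, f x ^ 2 = 0 := by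
      rw [← hexp, ← hsum]
      simp [h0]
    have hpos : (0 : ℚ) < R - A := by
      have : A < R := by
        rw [hA, hR]
        exact_mod_cast hlt
      linarith
    have h5 : ∑ x, f x ^ 2 = 0 := by
      have h6 : (0 : ℚ) ≤ A * (∑ x, f x) ^ 2 := mul_nonneg hA0 (sq_nonneg _)
      have h7 : (0 : ℚ) ≤ ∑ x, f x ^ 2 := Finset.sum_nonneg fun x _ => sq_nonneg _
      have h8 : (R - A) * ∑ x, f x ^ 2 = 0 := by
        have := mul_nonneg hpos.le h7
        linarith
      exact (mul_eq_zero.1 h8).resolve_left hpos.ne'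
    funext x
    have h6 := (Finset.sum_eq_zero_iff_of_nonneg (fun x _ => sq_nonneg (f x))).1 h5 x (Finset.mem_univ x)
    simpa using h6
  have h9 := LinearMap.finrank_le_finrank_of_injective hΦ
  rw [Module.finrank_fintype_fun_eq_card, Module.finrank_fintype_fun_eq_card] at h9
  rw [Nat.card_eq_fintype_card, Subgroup.index, Nat.card_eq_fintype_card]
  exact h9

end Fisher

section Dih

variable {G : Type*} [Group G]

/-- Two involutions whose product has odd order are conjugate by a power of the product. -/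
lemma dihedral_conj {s t : G} (hs : s * s = 1) (ht : t * t = 1) (hodd : Odd (orderOf (s * t))) :
    ∃ k : ℕ, (s * t) ^ k * t * ((s * t) ^ k)⁻¹ = s := by
  obtain ⟨m, hm⟩ := hodd
  set w := s * t with hw
  have hsi : s⁻¹ = s := inv_eq_of_mul_eq_one_left hs
  have hti : t⁻¹ = t := inv_eq_of_mul_eq_one_left ht
  have h1 : t * w * t⁻¹ = w⁻¹ := by
    rw [hw, mul_inv_rev, hsi, hti]
    calc t * (s * t) * t = t * s * (t * t) := by group
      _ = t * s := by rw [ht, mul_one]
  have h2 : ∀ k : ℕ, t * w ^ k * t⁻¹ = (w⁻¹) ^ k := by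
    intro k
    rw [← h1]
    simp [conj_pow]
  refine ⟨m + 1, ?_⟩
  have h3 : w ^ (2 * (m + 1)) = w := by
    have h4 : 2 * (m + 1) = orderOf w + 1 := by omega
    rw [h4, pow_succ, pow_orderOf_eq_one, one_mul]
  have h5 : w ^ (m + 1) * t = t * (w⁻¹) ^ (m + 1) := by
    rw [← h2]
    simp only [mul_assoc, hti, ht, mul_one]
    rw [← mul_assoc, ← mul_assoc, ht, one_mul]
  calc w ^ (m + 1) * t * (w ^ (m + 1))⁻¹ = t * ((w⁻¹) ^ (m + 1) * (w ^ (m + 1))⁻¹) := by
        rw [h5, mul_assoc]
    _ = t * (w ^ (2 * (m + 1)))⁻¹ := by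
        congr 1
        have e : w ^ (2 * (m + 1)) = w ^ (m + 1) * w ^ (m + 1) := by rw [two_mul, pow_add]
        rw [e, inv_pow, mul_inv_rev]
    _ = s := by
        rw [h3, hw, mul_inv_rev, hsi, hti, ← mul_assoc, ht, one_mul]

end Dih

section Trans

variable {G Ω : Type*} [Group G] [MulAction G Ω] [Finite Ω]

/-- If every point is the unique fixed point of an element of prime exponent, the action is
transitive. -/
theorem trans_of_unique_fix (p : ℕ) [Fact p.Prime]
    (h : ∀ ω : Ω, ∃ g : G, g ^ p = 1 ∧ ∀ ω', g • ω' = ω' ↔ ω' = ω) (a b : Ω) : ∃ g : G, g • a = b := by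
  classical
  by_contra hcon
  push Not at hcon
  letI : Fintype Ω := Fintype.ofFinite Ω
  let O := MulAction.orbit G b
  letI : Fintype O := Fintype.ofFinite _
  have haO : a ∉ O := by
    rintro ⟨g, hg⟩
    have hg' : g • b = a := hg
    apply hcon g⁻¹
    rw [← hg', inv_smul_smul]
  let fE : G → Function.End O := fun g x => ⟨g • x.1, MulAction.smul_orbit_subset g b ⟨x.1, x.2, rfl⟩⟩
  have hpow : ∀ (g : G) (k : ℕ) (x : O), (((fE g) ^ k) x).1 = g ^ k • x.1 := by
    intro g k x
    induction k with
    | zero => simp [Function.End.one_def]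
    | succ k ih =>
      rw [pow_succ']
      show g • (((fE g) ^ k) x).1 = _
      rw [ih, pow_succ', mul_smul]
  have key : ∀ g : G, g ^ p = 1 → (fE g) ^ p ^ 1 = 1 := by
    intro g hg
    rw [pow_one]
    funext x
    apply Subtype.ext
    rw [hpow, hg, one_smul]
    rfl
  obtain ⟨ga, hga, hfa⟩ := h a
  obtain ⟨gb, hgb, hfb⟩ := h b
  let bO : O := ⟨b, MulAction.mem_orbit_self b⟩
  have h1 := Equiv.Perm.card_fixedPoints_modEq (key ga hga)
  have h3 := Equiv.Perm.card_fixedPoints_modEq (key gb hgb)
  have hp := (Fact.out : p.Prime)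
  have hfix1 : Fintype.card (Function.fixedPoints (fE ga)) = 0 := by
    rw [Fintype.card_eq_zero_iff]
    refine ⟨fun x => haO ?_⟩
    have hx : ga • x.1.1 = x.1.1 := congrArg Subtype.val x.2
    rw [← (hfa _).1 hx]
    exact x.1.2
  have hfix2 : Fintype.card (Function.fixedPoints (fE gb)) = 1 := by
    rw [Fintype.card_eq_one_iff]
    refine ⟨⟨bO, Subtype.ext ((hfb b).2 rfl)⟩, ?_⟩
    intro x
    apply Subtype.ext
    apply Subtype.ext
    exact (hfb _).1 (congrArg Subtype.val x.2)
  rw [hfix1] at h1
  rw [hfix2] at h3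
  have h4 : (0 : ℕ) ≡ 1 [MOD p] := h1.symm.trans h3
  have h5 : p ∣ 1 := (Nat.modEq_zero_iff_dvd.1 h4.symm)
  exact hp.one_lt.ne' (Nat.dvd_one.1 h5)

end Trans

end Cfsg.Agent.Lib.U3Min
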