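import Mathlib
import Cfsg.Agent.Lib.PGLMaxA
import Cfsg.Agent.Lib.U3MinA

/-!
# Dickson's list for a permutation group with few fixed points inside `PSL₂`
-/

set_option autoImplicit false
set_option linter.unusedSectionVars false
set_option linter.unusedVariables false

namespace Cfsg.Agent.Lib.U3Min

open Matrix Subgroup
open Cfsg.Agent.Lib.SL2Core Cfsg.Agent.Lib.PSL2Max Cfsg.Agent.Lib.PGLMaxA Cfsg.Agent.Lib.PSL2Coat
  Cfsg.Agent.Lib.PSL2Lat Cfsg.Agent.Lib.PSL2LatOdd Cfsg.Agent.Lib.DicksonMat Cfsg.Agent.Lib.DicksonAbs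
  Cfsg.Agent.Lib.DicksonStruct Cfsg.Agent.Lib.DicksonTT Cfsg.Agent.Lib.PSL2Sub Cfsg.Agent.Lib.DicksonRed
  Cfsg.Agent.Lib.PSL2Cnt

section Dick

variable {F : Type*} [Field F] [Fintype F] (p : ℕ) [hp : Fact p.Prime] [CharP F p]

/-- Dickson's list, in the form used here. -/
theorem dickson_wrap (H : Subgroup (PSL2 F)) :
    IsCyclic H ∨ (∃ k : ℕ, Nonempty (H ≃* DihedralGroup k)) ∨
    ((∀ u v : H, ∃ n : ℕ, (u * v * u⁻¹ * v⁻¹) ^ (p ^ n) = 1) ∧ (∀ u v : H, u ^ p = 1 → v ^ p = 1 → u * v = v * u)) ∨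
    Nonempty (H ≃* alternatingGroup (Fin 4)) ∨ Nonempty (H ≃* Equiv.Perm (Fin 4)) ∨
    Nonempty (H ≃* alternatingGroup (Fin 5)) ∨
    (∃ e : ℕ, 1 ≤ e ∧ (Nat.gcd 2 (p ^ e - 1) * Nat.card H = p ^ e * ((p ^ e) ^ 2 - 1) ∨
      Nat.card H = p ^ e * ((p ^ e) ^ 2 - 1))) := by
  classical
  have hpp := hp.out
  rcases Cfsg.Agent.S0799.result (F := F) (q := Fintype.card F) rfl p H with
    ⟨k, -, ⟨h1, -⟩ | ⟨⟨e⟩⟩⟩ | ⟨P, K, hK, ⟨f⟩⟩ | ⟨⟨e⟩⟩ | ⟨⟨e⟩⟩ | ⟨⟨e⟩⟩ | ⟨K, _, _, m, hm, hiso⟩
  · left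
    exact h1
  · right; left
    exact ⟨k, ⟨e⟩⟩
  · right; right; left
    constructor
    · intro u v
      have h1 := comm_mem_sylow P (hK (f u).2) (hK (f v).2)
      obtain ⟨n, hn⟩ := P.isPGroup' ⟨_, h1⟩
      refine ⟨n, ?_⟩
      apply f.injective
      apply Subtype.ext
      have h2 := congrArg Subtype.val hn
      simpa [map_mul, map_inv, map_pow] using h2
    · intro u v hu hv
      have h3 : ((f u : K) : PSL2 F) ^ p = 1 := by
        have := congrArg (fun z => ((f z : K) : PSL2 F)) hu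
        simpa [map_pow] using this
      have h4 : ((f v : K) : PSL2 F) ^ p = 1 := by
        have := congrArg (fun z => ((f z : K) : PSL2 F)) hv
        simpa [map_pow] using this
      have h5 := sylow_comm P (mem_sylow_of_pow_eq_one P (hK (f u).2) h3) (mem_sylow_of_pow_eq_one P (hK (f v).2) h4)
      apply f.injective
      apply Subtype.ext
      simpa [map_mul] using h5
  · right; right; right; left
    exact ⟨e⟩
  · right; right; right; right; left
    exact ⟨e⟩
  · right; right; right; right; right; left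
    exact ⟨e⟩
  · right; right; right; right; right; right
    obtain ⟨f, hf1, hf⟩ : ∃ f : ℕ, 1 ≤ f ∧ Fintype.card F = p ^ f := by
      obtain ⟨n, -, hn⟩ := FiniteField.card F p
      exact ⟨n, n.2, hn⟩
    have hx1 : 1 < Fintype.card K := Fintype.one_lt_card
    have hm' : Fintype.card K ^ m = p ^ f := by
      rw [hm, hf]
    obtain ⟨e, hxe, he, hem⟩ := exists_exponent hpp hm' hx1 (by omega)
    refine ⟨e, he, ?_⟩
    rcases hiso with ⟨⟨e'⟩⟩ | ⟨⟨e'⟩⟩
    · left
      have h1 := card_PSL2_form (K := K)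
      rw [Nat.card_congr e'.toEquiv, ← hxe, h1]
    · right
      rw [Nat.card_congr e'.toEquiv, card_PGL2_form (K := K), hxe]

end Dick

section Perm

variable {Ω : Type*} [Finite Ω] (W : Subgroup (Equiv.Perm Ω))

/-- A commutative subgroup with a large orbit is not larger than the set. -/
lemma card_le_of_comm (hfix : ∀ w ∈ W, w ≠ 1 → ∀ a b c : Ω, a ≠ b → a ≠ c → b ≠ c → w a = a → w b = b → w c = c → False)
    (C : Subgroup (Equiv.Perm Ω)) (hCW : C ≤ W) (hcomm : ∀ x ∈ C, ∀ y ∈ C, x * y = y * x) (a : Ω)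
    (h3 : 2 < (Set.range fun c : C => (c : Equiv.Perm Ω) a).ncard) : Nat.card C ≤ Nat.card Ω := by
  classical
  refine Nat.card_le_card_of_injective (fun c : C => (c : Equiv.Perm Ω) a) ?_
  intro c c' h
  by_contra hne
  obtain ⟨x, y, z, ⟨c₁, hc₁⟩, ⟨c₂, hc₂⟩, ⟨c₃, hc₃⟩, hxy, hxz, hyz⟩ := (Set.two_lt_ncard_iff (Set.toFinite _)).1 h3
  have hd : ((c' : Equiv.Perm Ω)⁻¹ * c) a = a := by
    have h' : (c : Equiv.Perm Ω) a = (c' : Equiv.Perm Ω) a := h
    rw [Equiv.Perm.mul_apply, h']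
    simp
  have hmem : (c' : Equiv.Perm Ω)⁻¹ * c ∈ C := C.mul_mem (C.inv_mem c'.2) c.2
  have hfx : ∀ t : C, ((c' : Equiv.Perm Ω)⁻¹ * c) ((t : Equiv.Perm Ω) a) = (t : Equiv.Perm Ω) a := by
    intro t
    rw [← Equiv.Perm.mul_apply, hcomm _ hmem _ t.2, Equiv.Perm.mul_apply, hd]
  refine hfix _ (hCW hmem) ?_ x y z hxy hxz hyz ?_ ?_ ?_
  · intro h1
    apply hne
    apply Subtype.ext
    have h2 : (c' : Equiv.Perm Ω)⁻¹ * c = 1 := h1
    exact (inv_mul_eq_one.1 h2).symm
  · rw [← hc₁]; exact hfx c₁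
  · rw [← hc₂]; exact hfx c₂
  · rw [← hc₃]; exact hfx c₃

theorem list_perm {F : Type*} [Field F] [Fintype F] (p : ℕ) [hp : Fact p.Prime] [CharP F p]
    (H : Subgroup (PSL2 F)) (e : W ≃* H) (htr : ∀ a b : Ω, ∃ w ∈ W, w a = b)
    (hfix : ∀ w ∈ W, w ≠ 1 → ∀ a b c : Ω, a ≠ b → a ≠ c → b ≠ c → w a = a → w b = b → w c = c → False)
    (h5 : 5 ≤ Nat.card Ω) :
    Nat.card W ≤ 2 * Nat.card Ω ∨ Nat.card W = 12 ∨ Nat.card W = 24 ∨ Nat.card W = 60 ∨
    ((∀ u v : W, ∃ n : ℕ, (u * v * u⁻¹ * v⁻¹) ^ (p ^ n) = 1) ∧ (∀ u v : W, u ^ p = 1 → v ^ p = 1 → u * v = v * u)) ∨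
    (∃ e : ℕ, 1 ≤ e ∧ (Nat.gcd 2 (p ^ e - 1) * Nat.card W = p ^ e * ((p ^ e) ^ 2 - 1) ∨
      Nat.card W = p ^ e * ((p ^ e) ^ 2 - 1))) := by
  classical
  letI : Fintype Ω := Fintype.ofFinite Ω
  have hne : Nonempty Ω := by
    apply Nat.card_pos_iff.1 (by omega) |>.1
  obtain ⟨a⟩ := hne
  have hcardeq : Nat.card W = Nat.card H := Nat.card_congr e.toEquiv
  rcases dickson_wrap p H with h | ⟨k, ⟨d⟩⟩ | ⟨h1, h2⟩ | ⟨⟨d⟩⟩ | ⟨⟨d⟩⟩ | ⟨⟨d⟩⟩ | ⟨e', he', h⟩
  · -- cyclic
    left
    haveI : IsCyclic W := isCyclic_of_injective e.toMonoidHom e.injective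
    have hc : ∀ x ∈ W, ∀ y ∈ W, x * y = y * x := by
      intro x hx y hy
      have := (IsCyclic.isMulCommutative (α := W)).is_comm.comm ⟨x, hx⟩ ⟨y, hy⟩
      exact congrArg Subtype.val this
    have h3 : 2 < (Set.range fun c : W => (c : Equiv.Perm Ω) a).ncard := by
      have h4 : (Set.range fun c : W => (c : Equiv.Perm Ω) a) = Set.univ := by
        ext b
        simp only [Set.mem_range, Set.mem_univ, iff_true]
        obtain ⟨w, hw, hb⟩ := htr a b
        exact ⟨⟨w, hw⟩, hb⟩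
      rw [h4, Set.ncard_univ]
      omega
    have := card_le_of_comm W hfix W le_rfl hc a h3
    omega
  · -- dihedral
    left
    let d' : W ≃* DihedralGroup k := e.trans d
    let ρ : Equiv.Perm Ω := (d'.symm (DihedralGroup.r 1)).1
    let σ : Equiv.Perm Ω := (d'.symm (DihedralGroup.sr 0)).1
    have hρW : ρ ∈ W := (d'.symm (DihedralGroup.r 1)).2
    let C : Subgroup (Equiv.Perm Ω) := Subgroup.zpowers ρ
    have hCW : C ≤ W := (Subgroup.zpowers_le).2 hρW
    have hcardW : Nat.card W = 2 * k := by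
      rw [Nat.card_congr d'.toEquiv, DihedralGroup.nat_card]
    have hk : k ≠ 0 := by
      rintro rfl
      have h0 : Nat.card W ≠ 0 := Nat.card_pos.ne'
      exact h0 (by rw [hcardW])
    have hCk : Nat.card C = k := by
      rw [Nat.card_zpowers]
      have h1 : orderOf ρ = orderOf (d'.symm (DihedralGroup.r 1)) := by
        exact Subgroup.orderOf_coe _
      rw [h1, MulEquiv.orderOf_eq]
      exact DihedralGroup.orderOf_r_one
    have hc : ∀ x ∈ C, ∀ y ∈ C, x * y = y * x := by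
      rintro _ ⟨i, rfl⟩ _ ⟨j, rfl⟩
      simp only
      rw [← _root_.zpow_add, ← _root_.zpow_add, add_comm]
    have h3 : 2 < (Set.range fun c : C => (c : Equiv.Perm Ω) a).ncard := by
      by_contra hle
      push Not at hle
      set O := (Set.range fun c : C => (c : Equiv.Perm Ω) a) with hO
      have hcov : (Set.univ : Set Ω) = O ∪ (σ '' O) := by
        ext b
        simp only [Set.mem_univ, true_iff]
        obtain ⟨w, hw, hb⟩ := htr a b
        haveI : NeZero k := ⟨hk⟩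
        have hd := d'.symm_apply_apply ⟨w, hw⟩
        have hpw : ∀ i : ZMod k, ((d'.symm (DihedralGroup.r i)).1 : Equiv.Perm Ω) = ρ ^ i.val := by
          intro i
          have h7 : (DihedralGroup.r 1 : DihedralGroup k) ^ i.val = DihedralGroup.r i := by
            rw [DihedralGroup.r_one_pow, ZMod.natCast_zmod_val]
          rw [← h7, map_pow]
          rfl
        rcases hx : d' ⟨w, hw⟩ with i | i
        · left
          rw [hx] at hd
          have h8 : w = ρ ^ i.val := by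
            rw [← hpw i, hd]
          refine ⟨⟨w, ?_⟩, hb⟩
          rw [h8]
          exact Subgroup.pow_mem _ (Subgroup.mem_zpowers ρ) _
        · right
          rw [hx] at hd
          have h9 : DihedralGroup.sr i = (DihedralGroup.sr 0 : DihedralGroup k) * DihedralGroup.r i := by
            rw [DihedralGroup.sr_mul_r, zero_add]
          rw [h9, map_mul] at hd
          have h8 : w = σ * ρ ^ i.val := by
            have h10 := congrArg Subtype.val hd
            rw [← hpw i]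
            exact h10.symm
          refine ⟨ρ ^ i.val • a, ⟨⟨ρ ^ i.val, Subgroup.pow_mem _ (Subgroup.mem_zpowers ρ) _⟩, rfl⟩, ?_⟩
          rw [← hb, h8]
          rfl
      have hcard : Nat.card Ω ≤ O.ncard + (σ '' O).ncard := by
        rw [← Set.ncard_univ, hcov]
        exact Set.ncard_union_le _ _
      have h6 : (σ '' O).ncard ≤ O.ncard := Set.ncard_image_le (Set.toFinite _)
      omega
    have := card_le_of_comm W hfix C hCW hc a h3
    omega
  · -- Borel type
    right; right; right; right; left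
    constructor
    · intro u v
      obtain ⟨n, hn⟩ := h1 (e u) (e v)
      refine ⟨n, e.injective ?_⟩
      simpa [map_mul, map_inv, map_pow] using hn
    · intro u v hu hv
      refine e.injective ?_
      have := h2 (e u) (e v) (by rw [← map_pow, hu, map_one]) (by rw [← map_pow, hv, map_one])
      simpa [map_mul] using this
  · right; left
    rw [Nat.card_congr (e.trans d).toEquiv, Nat.card_eq_fintype_card]
    decide +kernel
  · right; right; left
    rw [Nat.card_congr (e.trans d).toEquiv, Nat.card_perm]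
    simp [Nat.factorial]
  · right; right; right; left
    rw [Nat.card_congr (e.trans d).toEquiv, Nat.card_eq_fintype_card]
    decide +kernel
  · right; right; right; right; right
    refine ⟨e', he', ?_⟩
    rw [hcardeq]
    exact h

end Perm

end Cfsg.Agent.Lib.U3Min
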