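import Mathlib
import Cfsg.Agent.Lib.PSUIdxQ
import Cfsg.Agent.Lib.U3MinB

/-!
# `SU₃(q)`: the stabiliser of an isotropic point and two-transitivity
-/

set_option autoImplicit false
set_option linter.unusedSectionVars false
set_option linter.unusedVariables false

namespace Cfsg.Agent.Lib.U3Min

open Matrix Cfsg Cfsg.Agent.Lib.HermForm Cfsg.Agent.Lib.FFNorm Cfsg.Agent.Lib.UnitaryE
  Cfsg.Agent.Lib.UnitarySU Cfsg.Agent.Lib.SUMinDeg Cfsg.Agent.Lib.PSUIdx
open Cfsg.Agent.Lib.PSU35A (cj mem_cj)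

variable {F : Type*} [Field F] [Fintype F] {q : ℕ}

section Basic

variable (hF : Fintype.card F = q ^ 2)
include hF

lemma card_G3 : Nat.card (SU (1 + 2) F q) = q ^ 3 * (q ^ 2 - 1) * (q ^ 3 + 1) := by
  have hq := two_le hF
  have h := card_SU hF (1 + 2) (by norm_num)
  have h1 : ((1 + 2) * (1 + 2 - 1) / 2 : ℕ) = 3 := by norm_num
  rw [h1] at h
  simp only [Finset.prod_range_succ, Finset.prod_range_zero, one_mul] at h
  norm_num at h
  have h2 : (q + 1) * Nat.card (SU (1 + 2) F q) = (q + 1) * (q ^ 3 * (q ^ 2 - 1) * (q ^ 3 + 1)) := by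
    rw [h]
    ring
  exact Nat.eq_of_mul_eq_mul_left (by omega) h2

lemma index_stab {x : Fin (1 + 2) → F} (hx0 : x ≠ 0) (hxx : hermForm (1 + 2) F q x x = 0) :
    (stabV x : Subgroup (SU (1 + 2) F q)).index = (q ^ 3 + 1) * (q ^ 2 - 1) := by
  have h1 := index_stabV hF (n := 1 + 2) (by norm_num) (u := x) ⟨hxx, hx0⟩
  rw [card_IsoV_odd hF (1 + 2) (by decide)] at h1
  exact h1

/-- The vector stabiliser of an isotropic vector has `q³` elements. -/
lemma card_stab {x : Fin (1 + 2) → F} (hx0 : x ≠ 0) (hxx : hermForm (1 + 2) F q x x = 0) :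
    Nat.card (stabV x : Subgroup (SU (1 + 2) F q)) = q ^ 3 := by
  have hq := two_le hF
  have h1 := Subgroup.card_mul_index (stabV x : Subgroup (SU (1 + 2) F q))
  rw [index_stab hF hx0 hxx, card_G3 hF] at h1
  have h2 : 0 < q ^ 2 - 1 := by
    have : 1 < q ^ 2 := Nat.one_lt_pow (by norm_num) (by omega)
    omega
  have h3 : Nat.card (stabV x : Subgroup (SU (1 + 2) F q)) * ((q ^ 3 + 1) * (q ^ 2 - 1)) =
      q ^ 3 * ((q ^ 3 + 1) * (q ^ 2 - 1)) := by
    rw [h1]
    ring
  exact Nat.eq_of_mul_eq_mul_right (by positivity) h3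

variable {α β : F} (hα : α ^ q * α = -1) (hβ : β + β ^ q = -1)
include hα

lemma vE_ne' : vE (e := 1) α ≠ 0 := vE_ne hF hα

/-- The stabiliser of `v` is the root group `Q`. -/
lemma stab_eq_QQ : (stabV (vE (e := 1) α) : Subgroup (SU (1 + 2) F q)) = QQ hF hα 1 := by
  symm
  apply Subgroup.eq_of_le_of_card_ge (QQ_le_stab hF hα)
  rw [card_stab hF (vE_ne' hF hα) (vE_iso hF hα), card_QQ hF hα]
  apply le_of_eq
  ring

lemma mem_QQ_iff {g : SU (1 + 2) F q} : g ∈ QQ hF hα 1 ↔ act g (vE α) = vE α := by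
  rw [← stab_eq_QQ hF hα]
  rfl

/-- The Borel group. -/
abbrev Bo (α : F) : Subgroup (SU (1 + 2) F q) := BorN (vE (e := 1) α)

/-- The multiplier of an element of the Borel group. -/
def cc (α : F) (g : SU (1 + 2) F q) : F := act g (vE (e := 1) α) 0

omit hF hα in
lemma act_Bo {g : SU (1 + 2) F q} (hg : g ∈ Bo (q := q) α) : act g (vE α) = cc α g • vE α := by
  obtain ⟨c, hc, h⟩ := hg
  have : cc α g = c := by
    show act g (vE (e := 1) α) 0 = c
    rw [h]
    simp [vE_zero]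
  rw [this, h]

omit hF hα in
lemma cc_eq {g : SU (1 + 2) F q} {c : F} (h : act g (vE (e := 1) α) = c • vE α) : cc α g = c := by
  show act g (vE (e := 1) α) 0 = c
  rw [h]
  simp [vE_zero]

omit hF hα in
lemma cc_ne {g : SU (1 + 2) F q} (hg : g ∈ Bo (q := q) α) : cc α g ≠ 0 := by
  obtain ⟨c, hc, h⟩ := hg
  rw [cc_eq h]
  exact hc

omit hF hα in
lemma cc_mul {g g' : SU (1 + 2) F q} (hg : g ∈ Bo (q := q) α) (hg' : g' ∈ Bo (q := q) α) :
    cc α (g * g') = cc α g * cc α g' := by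
  apply cc_eq
  rw [act_mul, act_Bo hg', act_smul, act_Bo hg, smul_smul, mul_comm]

omit hF hα in
lemma cc_one : cc α (1 : SU (1 + 2) F q) = 1 := by
  apply cc_eq
  rw [act_one, one_smul]

/-- The multiplier as a homomorphism on a subgroup of the Borel group. -/
noncomputable def ccH (α : F) : Bo (q := q) α →* Fˣ where
  toFun g := Units.mk0 (cc α g.1) (cc_ne g.2)
  map_one' := by
    apply Units.ext
    exact cc_one
  map_mul' g g' := by
    apply Units.ext
    exact cc_mul g.2 g'.2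

omit hF hα in
lemma ccH_val (g : Bo (q := q) α) : ((ccH α g : Fˣ) : F) = cc α g.1 := rfl

/-- Elements with multiplier one are in `Q`. -/
lemma mem_QQ_of_cc {g : SU (1 + 2) F q} (hg : g ∈ Bo (q := q) α) (h1 : cc α g = 1) : g ∈ QQ hF hα 1 := by
  rw [mem_QQ_iff hF hα, act_Bo hg, h1, one_smul]

lemma QQ_le_Bo : QQ hF hα 1 ≤ Bo (q := q) α := by
  intro g hg
  exact ⟨1, one_ne_zero, by rw [one_smul]; exact (mem_QQ_iff hF hα).1 hg⟩

lemma cc_QQ {g : SU (1 + 2) F q} (hg : g ∈ QQ hF hα 1) : cc α g = 1 := by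
  apply cc_eq
  rw [one_smul]
  exact (mem_QQ_iff hF hα).1 hg

end Basic

section Torus

variable (hF : Fintype.card F = q ^ 2) {α β : F} (hα : α ^ q * α = -1) (hβ : β + β ^ q = -1)
include hF hα hβ

/-- The torus element with a given multiplier. -/
lemma exists_D {a : F} (ha : a ≠ 0) :
    ∃ D : SU (1 + 2) F q, IsScale (e := 1) α D a (a ^ q * a⁻¹) ∧ act D (wE α β) = (a ^ q)⁻¹ • wE α β := by
  classical
  have hq := two_le hF
  have hv := vE_iso (e := 1) hF hα
  have hw := wE_iso (e := 1) hF hα hβ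
  have hvw := vE_wE (e := 1) (b := β) hF hα
  have haq0 : a ^ q ≠ 0 := pow_ne_zero _ ha
  set b : F := (a ^ q)⁻¹ with hb
  set ν : F := a ^ q * a⁻¹ with hνd
  have hν : ν * ν ^ q = 1 := by
    rw [hνd, mul_pow, pow_pow_self hF, inv_pow]
    field_simp
  have hdet : a * (a ^ q)⁻¹ * ν = 1 := by
    rw [hνd]
    field_simp
  have hab : a * b ^ q = 1 := by
    rw [hb, inv_pow, pow_pow_self hF]
    exact mul_inv_cancel₀ ha
  have hba : b * a ^ q = 1 := by
    rw [hb]
    exact inv_mul_cancel₀ haq0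
  have hν0 : ν ≠ 0 := by
    rintro h0
    rw [h0, zero_mul] at hν
    exact zero_ne_one hν
  let d : Fin (1 + 2) → F := Function.update 1 2 ν
  have hd : ∀ l, Cfsg.Agent.Lib.HermCount.nrm q (d l) = 1 := by
    intro l
    by_cases hl : l = 2
    · subst hl
      have h2 : d 2 = ν := by simp [d]
      rw [h2]
      exact hν
    · simp only [d, Function.update_of_ne hl, Pi.one_apply]
      simp [Cfsg.Agent.Lib.HermCount.nrm]
  have hdetM : (Dm q (vE α) (wE α β) a b * Matrix.diagonal d).det = 1 := by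
    rw [Matrix.det_mul, Dm_det hF hv hw hvw, Matrix.det_diagonal]
    have h1 : ∏ l, d l = ν := by
      rw [Finset.prod_eq_single (2 : Fin (1 + 2))]
      · simp [d]
      · intro l _ hl
        simp [d, Function.update_of_ne hl]
      · simp
    rw [h1]
    exact hdet
  have hiso : ∀ x y : Fin (1 + 2) → F, hermForm (1 + 2) F q ((Dm q (vE α) (wE α β) a b * Matrix.diagonal d) *ᵥ x)
      ((Dm q (vE α) (wE α β) a b * Matrix.diagonal d) *ᵥ y) = hermForm (1 + 2) F q x y := by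
    intro x y
    rw [← Matrix.mulVec_mulVec, ← Matrix.mulVec_mulVec, Dm_unitary hF hv hw hvw hab hba, diagonal_unitary hd]
  have hdx : ∀ x : Fin (1 + 2) → F, x 2 = 0 → Matrix.diagonal d *ᵥ x = x := by
    intro x hx
    funext l
    rw [Matrix.mulVec_diagonal]
    by_cases hl : l = 2
    · subst hl
      rw [hx, mul_zero]
    · simp [d, Function.update_of_ne hl]
  refine ⟨SUofMatrix _ hdetM hiso, ⟨ha, hν0, hν, ?_, ?_⟩, ?_⟩
  · change (Dm q (vE α) (wE α β) a b * Matrix.diagonal d) *ᵥ vE α = a • vE α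
    have hv2 : vE (e := 1) α 2 = 0 := by
      show vv α 0 1 2 = 0
      exact vv_other (by decide) (by decide)
    rw [← Matrix.mulVec_mulVec, hdx _ hv2, Dm_mulVec, hvw, hv]
    simp only [mul_one, mul_zero, zero_smul, add_zero]
    module
  · intro u
    change (Dm q (vE α) (wE α β) a b * Matrix.diagonal d) *ᵥ inc u = inc (ν • u)
    have h1 : Matrix.diagonal d *ᵥ inc u = inc (ν • u) := by
      funext k
      rw [Matrix.mulVec_diagonal]
      refine Fin.cases ?_ (fun j => ?_) k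
      · simp [inc]
      · refine Fin.cases ?_ (fun t => ?_) j
        · simp [inc]
        · have ht : t = 0 := Subsingleton.elim _ _
          subst ht
          show d 2 * u 0 = ν * u 0
          simp [d]
    rw [← Matrix.mulVec_mulVec, h1, Dm_mulVec, inc_wE hF, inc_vE hF]
    simp
  · change (Dm q (vE α) (wE α β) a b * Matrix.diagonal d) *ᵥ wE α β = b • wE α β
    have hw2 : wE (e := 1) α β 2 = 0 := by
      show ww α β 0 1 2 = 0
      exact ww_other (by decide) (by decide)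
    rw [← Matrix.mulVec_mulVec, hdx _ hw2, Dm_mulVec, hw, wE_vE hF hα]
    simp only [mul_one, mul_zero, zero_smul, add_zero]
    module

/-- Decomposition of an element of the Borel group. -/
lemma Bo_dec {g : SU (1 + 2) F q} (hg : g ∈ Bo (q := q) α) :
    ∃ (y D : SU (1 + 2) F q), y ∈ QQ hF hα 1 ∧ IsScale (e := 1) α D (cc α g) ((cc α g) ^ q * (cc α g)⁻¹) ∧
      act D (wE α β) = ((cc α g) ^ q)⁻¹ • wE α β ∧ g = y * D := by
  obtain ⟨D, hD, hw⟩ := exists_D hF hα hβ (cc_ne hg)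
  refine ⟨g * D⁻¹, D, ?_, hD, hw, by group⟩
  rw [mem_QQ_iff hF hα, act_mul]
  have h1 : act D⁻¹ (vE α) = (cc α g)⁻¹ • vE α := hD.inv.hv
  rw [h1, act_smul, act_Bo hg, smul_smul, inv_mul_cancel₀ (cc_ne hg), one_smul]

/-- The multiplier map is onto. -/
lemma ccH_surj : Function.Surjective (ccH (q := q) α) := by
  intro t
  obtain ⟨D, hD, -⟩ := exists_D hF hα hβ t.ne_zero
  refine ⟨⟨D, t, t.ne_zero, hD.hv⟩, ?_⟩
  apply Units.ext
  exact cc_eq hD.hv

/-- The order of the Borel group. -/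
lemma card_Bo : Nat.card (Bo (q := q) α) = q ^ 3 * (q ^ 2 - 1) := by
  classical
  have h1 := Subgroup.card_mul_index (ccH (q := q) α).ker
  rw [Subgroup.index_ker, MonoidHom.range_eq_top.2 (ccH_surj hF hα hβ)] at h1
  have h2 : Nat.card (ccH (q := q) α).ker = q ^ 3 := by
    rw [← card_stab hF (vE_ne' hF hα) (vE_iso hF hα)]
    apply Nat.card_congr
    refine ⟨fun g => ⟨g.1.1, ?_⟩, fun g => ⟨⟨g.1, ?_⟩, ?_⟩, fun g => rfl, fun g => rfl⟩
    · have h3 := g.2
      rw [MonoidHom.mem_ker] at h3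
      have h4 : cc α g.1.1 = 1 := by
        have := congrArg (fun t : Fˣ => (t : F)) h3
        simpa [ccH_val] using this
      have := mem_QQ_of_cc hF hα g.1.2 h4
      rwa [← stab_eq_QQ hF hα] at this
    · exact ⟨1, one_ne_zero, by rw [one_smul]; exact g.2⟩
    · rw [MonoidHom.mem_ker]
      apply Units.ext
      show cc α g.1 = 1
      apply cc_eq
      rw [one_smul]
      exact g.2
  rw [h2] at h1
  have h5 : Nat.card (⊤ : Subgroup Fˣ) = q ^ 2 - 1 := by
    rw [Nat.card_congr Subgroup.topEquiv.toEquiv, Nat.card_eq_fintype_card, Fintype.card_units, hF]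
  rw [h5] at h1
  exact h1.symm

/-- The centre of `Q` and conjugation by a torus element. -/
lemma conj_Bo {g : SU (1 + 2) F q} (hg : g ∈ Bo (q := q) α) {u : Fin 1 → F} {s : F} (h : Gd q u s) :
    ∃ s' : F, Gd q (((cc α g) ^ q * ((cc α g) ^ q * (cc α g)⁻¹)) • u) s' ∧
      g * EE hF α u s * g⁻¹ = EE hF α (((cc α g) ^ q * ((cc α g) ^ q * (cc α g)⁻¹)) • u) s' ∧
      (u = 0 → s' = cc α g * (cc α g) ^ q * s) := by
  obtain ⟨y, D, hy, hD, -, hgD⟩ := Bo_dec hF hα hβ hg
  obtain ⟨u₀, s₀, h₀, rfl⟩ := hy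
  set c := cc α g with hc
  have h1 := conj_scale hF hα hD h
  have h2 := Gd_scale hF hD.hb (a := c) h
  refine ⟨(hermForm 1 F q u₀ ((c ^ q * (c ^ q * c⁻¹)) • u) - hermForm 1 F q ((c ^ q * (c ^ q * c⁻¹)) • u) u₀)
    + c * c ^ q * s, Gd_trace hF (trace_zero_kappa hF _ _) h2, ?_, ?_⟩
  · rw [hgD]
    calc EE hF α u₀ s₀ * D * EE hF α u s * (EE hF α u₀ s₀ * D)⁻¹
        = EE hF α u₀ s₀ * (D * EE hF α u s * D⁻¹) * (EE hF α u₀ s₀)⁻¹ := by group
      _ = _ := by
        rw [h1, EE_conj hF hα h₀ h2]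
  · rintro rfl
    simp [hermForm_zero_left, hermForm_zero_right hF]

end Torus

end Cfsg.Agent.Lib.U3Min
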