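import Mathlib
import Cfsg.Agent.Lib.U3MinC

/-!
# `SU₃(q)`: subgroups of small index are transitive on points; the numerical data
-/

set_option autoImplicit false
set_option linter.unusedSectionVars false
set_option linter.unusedVariables false

namespace Cfsg.Agent.Lib.U3Min

open Matrix Cfsg Cfsg.Agent.Lib.HermForm Cfsg.Agent.Lib.FFNorm Cfsg.Agent.Lib.UnitaryE
  Cfsg.Agent.Lib.UnitarySU Cfsg.Agent.Lib.SUMinDeg Cfsg.Agent.Lib.PSUIdx
open Cfsg.Agent.Lib.PSU35A (cj mem_cj)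

variable {F : Type*} [Field F] [Fintype F] {q : ℕ}

section Move

variable (hF : Fintype.card F = q ^ 2) {α β : F} (hα : α ^ q * α = -1) (hβ : β + β ^ q = -1)
include hF hα hβ

lemma index_Bo : (Bo (q := q) α).index = q ^ 3 + 1 :=
  index_Bor3 hF (vE_ne' hF hα) (vE_iso hF hα)

/-- Herm form of the third coordinates. -/
lemma herm_one_self (u : Fin 1 → F) : hermForm 1 F q u u = u 0 * u 0 ^ q := by
  simp [hermForm]

/-- Expansion of the norm in the frame. -/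
lemma herm_dec (s t : F) (u : Fin 1 → F) :
    hermForm (1 + 2) F q (s • vE α + t • wE α β + inc u) (s • vE α + t • wE α β + inc u) =
      s * t ^ q + t * s ^ q + hermForm 1 F q u u := by
  have hv := vE_iso (e := 1) hF hα
  have hw := wE_iso (e := 1) hF hα hβ
  have hvw := vE_wE (e := 1) (b := β) hF hα
  have hwv := wE_vE (e := 1) (b := β) hF hα
  simp only [hermForm_add_left, hermForm_add_right hF, hermForm_smul_left, hermForm_smul_right, hv, hw, hvw, hwv,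
    herm_inc hF, inc_vE hF, inc_wE hF, vE_inc hF, wE_inc hF]
  ring

/-- A vector not proportional to `v` has nonzero product with `v`. -/
lemma herm_ne_of_not_prop {z : Fin (1 + 2) → F} (hz0 : z ≠ 0) (hzz : hermForm (1 + 2) F q z z = 0)
    (hnp : ∀ c : F, z ≠ c • vE α) : hermForm (1 + 2) F q z (vE α) ≠ 0 := by
  intro h0
  have hd := decomp hF hα hβ z
  rw [h0, zero_smul, add_zero] at hd
  set s := hermForm (1 + 2) F q z (wE α β)
  set u := rest α β q z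
  have h1 : hermForm (1 + 2) F q z z = hermForm 1 F q u u := by
    have h2 := herm_dec hF hα hβ s 0 u
    rw [zero_smul, add_zero, ← hd] at h2
    rw [h2, zero_pow (by have := two_le hF; omega)]
    ring
  rw [hzz, herm_one_self hF hα hβ] at h1
  have hu : u 0 = 0 := by
    rcases mul_eq_zero.1 h1.symm with h | h
    · exact h
    · exact pow_eq_zero_iff (by have := two_le hF; omega) |>.1 h
  have hu0 : u = 0 := by
    funext i
    have : i = 0 := Subsingleton.elim _ _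
    rw [this, hu]
    rfl
  apply hnp s
  rw [hd, hu0, inc_zero, add_zero]

lemma exists_Q_move {g : SU (1 + 2) F q} (hg : g ∉ Bo (q := q) α) :
    ∃ y ∈ QQ hF hα 1, ∃ κ : F, κ ≠ 0 ∧ act g (vE α) = κ • act y (wE α β) := by
  set z := act g (vE (e := 1) α) with hz
  have hz0 : z ≠ 0 := act_ne_zero hF g (vE_ne' hF hα)
  have hzz : hermForm (1 + 2) F q z z = 0 := by
    rw [hz, herm_act]
    exact vE_iso hF hα
  have hnp : ∀ c : F, z ≠ c • vE α := by
    intro c hc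
    apply hg
    refine ⟨c, ?_, hc⟩
    rintro rfl
    rw [zero_smul] at hc
    exact hz0 hc
  set κ := hermForm (1 + 2) F q z (vE α) with hκ
  have hκ0 : κ ≠ 0 := herm_ne_of_not_prop hF hα hβ hz0 hzz hnp
  set z' := κ⁻¹ • z with hz'
  have hz'v : hermForm (1 + 2) F q z' (vE α) = 1 := by
    rw [hz', hermForm_smul_left, ← hκ, inv_mul_cancel₀ hκ0]
  have hd := decomp hF hα hβ z'
  rw [hz'v, one_smul] at hd
  set s := hermForm (1 + 2) F q z' (wE α β)
  set u := rest α β q z'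
  have hG : Gd q u s := by
    unfold Gd
    have h2 := herm_dec hF hα hβ s 1 u
    rw [one_smul, ← hd] at h2
    have h3 : hermForm (1 + 2) F q z' z' = 0 := by
      rw [hz', hermForm_smul_left, hermForm_smul_right, hzz]
      ring
    rw [h3, one_pow] at h2
    linear_combination -h2
  refine ⟨EE hF α u s, ⟨u, s, hG, rfl⟩, κ, hκ0, ?_⟩
  rw [act_EE_wE hF hα hG]
  have h4 : z = κ • z' := by
    rw [hz', smul_smul, mul_inv_cancel₀ hκ0, one_smul]
  rw [h4, hd]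
  congr 1
  abel

/-- Two-transitivity of the action on points, in terms of double cosets. -/
lemma exists_Bo_move {r r' : SU (1 + 2) F q} (hr : r ∉ Bo (q := q) α) (hr' : r' ∉ Bo (q := q) α) :
    ∃ b ∈ Bo (q := q) α, r'⁻¹ * b * r ∈ Bo (q := q) α := by
  obtain ⟨y, hy, κ, hκ, h1⟩ := exists_Q_move hF hα hβ hr
  obtain ⟨y', hy', κ', hκ', h2⟩ := exists_Q_move hF hα hβ hr'
  refine ⟨y' * y⁻¹, (Bo (q := q) α).mul_mem (QQ_le_Bo hF hα hy') ((Bo (q := q) α).inv_mem (QQ_le_Bo hF hα hy)), ?_⟩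
  refine ⟨κ * κ'⁻¹, mul_ne_zero hκ (inv_ne_zero hκ'), ?_⟩
  rw [act_mul, act_mul, h1, act_smul, act_mul, act_inv_act hF, ← smul_smul]
  have h3 : act y' (wE α β) = κ'⁻¹ • act r' (vE α) := by
    rw [h2, smul_smul, inv_mul_cancel₀ hκ', one_smul]
  rw [h3, act_smul, act_smul, act_inv_act hF]

/-- A subgroup is transitive on points if it complements the Borel group. -/
def IsTr (α : F) (K : Subgroup (SU (1 + 2) F q)) : Prop :=
  ∀ g : SU (1 + 2) F q, ∃ k ∈ K, k⁻¹ * g ∈ Bo (q := q) α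

/-- Fisher's inequality applied to the points. -/
theorem isTr_of_index_lt {K : Subgroup (SU (1 + 2) F q)} (hK : K.index < q ^ 3 + 1) : IsTr α K := by
  classical
  by_contra hcon
  unfold IsTr at hcon
  push Not at hcon
  obtain ⟨g, hg⟩ := hcon
  let X := SU (1 + 2) F q ⧸ Bo (q := q) α
  have h2 : ∀ a b c d : X, a ≠ b → c ≠ d → ∃ t : SU (1 + 2) F q, t • a = c ∧ t • b = d := by
    intro a b c d hab hcd
    obtain ⟨g₁, rfl⟩ := QuotientGroup.mk_surjective a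
    obtain ⟨g₂, rfl⟩ := QuotientGroup.mk_surjective b
    obtain ⟨h₁, rfl⟩ := QuotientGroup.mk_surjective c
    obtain ⟨h₂, rfl⟩ := QuotientGroup.mk_surjective d
    have h3 : g₁⁻¹ * g₂ ∉ Bo (q := q) α := fun h => hab (QuotientGroup.eq.2 h)
    have h4 : h₁⁻¹ * h₂ ∉ Bo (q := q) α := fun h => hcd (QuotientGroup.eq.2 h)
    obtain ⟨b₀, hb₀, hb⟩ := exists_Bo_move hF hα hβ h3 h4
    refine ⟨h₁ * b₀ * g₁⁻¹, ?_, ?_⟩
    · show (((h₁ * b₀ * g₁⁻¹) * g₁ : SU (1 + 2) F q) : X) = (h₁ : X)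
      rw [inv_mul_cancel_right]
      apply QuotientGroup.eq.2
      have : (h₁ * b₀)⁻¹ * h₁ = b₀⁻¹ := by group
      rw [this]
      exact (Bo (q := q) α).inv_mem hb₀
    · show (((h₁ * b₀ * g₁⁻¹) * g₂ : SU (1 + 2) F q) : X) = (h₂ : X)
      apply QuotientGroup.eq.2
      have h5 := (Bo (q := q) α).inv_mem hb
      have : (h₁ * b₀ * g₁⁻¹ * g₂)⁻¹ * h₂ = ((h₁⁻¹ * h₂)⁻¹ * b₀ * (g₁⁻¹ * g₂))⁻¹ := by group
      rw [this]
      exact h5
  let O : Set X := (fun k : SU (1 + 2) F q => (k : X)) '' (K : Set (SU (1 + 2) F q))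
  have hO : ∀ k ∈ K, ∀ x : X, k • x ∈ O ↔ x ∈ O := by
    intro k hk x
    constructor
    · rintro ⟨k', hk', h⟩
      refine ⟨k⁻¹ * k', K.mul_mem (K.inv_mem hk) hk', ?_⟩
      have h5 := congrArg (fun z : X => k⁻¹ • z) h
      simp only [inv_smul_smul] at h5
      rw [← h5]
      rfl
    · rintro ⟨k', hk', rfl⟩
      exact ⟨k * k', K.mul_mem hk hk', rfl⟩
  have ha : ((1 : SU (1 + 2) F q) : X) ∈ O := ⟨1, K.one_mem, rfl⟩
  have hb : (g : X) ∉ O := by
    rintro ⟨k, hk, h⟩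
    exact hg k hk (QuotientGroup.eq.1 h)
  have h6 := fisher h2 K O hO ha hb
  have h7 : Nat.card X = q ^ 3 + 1 := index_Bo hF hα hβ
  omega

variable {K : Subgroup (SU (1 + 2) F q)}

/-- The orbit of the point has `q³ + 1` elements. -/
lemma relIndex_of_isTr (hT : IsTr α K) : (Bo (q := q) α).relIndex K = q ^ 3 + 1 := by
  classical
  have h1 := card_orbit_eq (Bo (q := q) α) K (fun g : SU (1 + 2) F q => (g : SU (1 + 2) F q ⧸ Bo (q := q) α))
    (fun g g' => QuotientGroup.eq)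
  rw [← h1, ← index_Bo hF hα hβ, Subgroup.index]
  have h2 : ((fun g : SU (1 + 2) F q => (g : SU (1 + 2) F q ⧸ Bo (q := q) α)) '' (K : Set (SU (1 + 2) F q))) = Set.univ := by
    ext x
    simp only [Set.mem_univ, iff_true]
    obtain ⟨g, rfl⟩ := QuotientGroup.mk_surjective x
    obtain ⟨k, hk, h⟩ := hT g
    exact ⟨k, hk, QuotientGroup.eq.2 h⟩
  rw [h2]
  exact Nat.card_univ

lemma index_of_isTr (hT : IsTr α K) : K.index = K.relIndex (Bo (q := q) α) := by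
  have h1 := relIndex_swap (Bo (q := q) α) K
  rw [relIndex_of_isTr hF hα hβ hT, index_Bo hF hα hβ] at h1
  exact Nat.eq_of_mul_eq_mul_left (show 0 < q ^ 3 + 1 from Nat.succ_pos _) (by rw [h1]; ring)

/-- The main numerical relation. -/
lemma index_mul_of_isTr (hT : IsTr α K) :
    K.index * Nat.card (K.subgroupOf (Bo (q := q) α)) = q ^ 3 * (q ^ 2 - 1) := by
  rw [index_of_isTr hF hα hβ hT, ← card_Bo hF hα hβ, mul_comm]
  exact Subgroup.card_mul_index (K.subgroupOf (Bo (q := q) α))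

/-- The order of `K`. -/
lemma card_of_isTr (hT : IsTr α K) :
    Nat.card K = Nat.card (K.subgroupOf (Bo (q := q) α)) * (q ^ 3 + 1) := by
  have h1 := Subgroup.card_mul_index ((Bo (q := q) α).subgroupOf K)
  have h2 : ((Bo (q := q) α).subgroupOf K).index = q ^ 3 + 1 := relIndex_of_isTr hF hα hβ hT
  rw [h2] at h1
  rw [← h1]
  congr 1
  exact Nat.card_congr ⟨fun g => ⟨⟨g.1.1, g.2⟩, g.1.2⟩, fun g => ⟨⟨g.1.1, g.2⟩, g.1.2⟩, fun _ => rfl, fun _ => rfl⟩

/-- A point of the orbit: an element of `K` moving `v` to a multiple of a given isotropic vector. -/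
lemma exists_mem_move (hT : IsTr α K) {x : Fin (1 + 2) → F} (hx0 : x ≠ 0) (hxx : hermForm (1 + 2) F q x x = 0) :
    ∃ k ∈ K, ∃ κ : F, κ ≠ 0 ∧ act k (vE α) = κ • x := by
  obtain ⟨g, hg⟩ := exists_act_eq hF (n := 1 + 2) (by norm_num) (vE_iso hF hα) (vE_ne' hF hα) hxx hx0
  obtain ⟨k, hk, hb⟩ := hT g
  refine ⟨k, hk, (cc α (k⁻¹ * g))⁻¹, inv_ne_zero (cc_ne hb), ?_⟩
  have h1 := act_Bo hb
  rw [act_mul, hg] at h1
  have h2 : x = cc α (k⁻¹ * g) • act k (vE α) := by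
    rw [← act_smul, ← h1, act_act_inv' hF]
  have h3 : (cc α (k⁻¹ * g))⁻¹ • x = act k (vE α) := by
    conv_lhs => rw [h2]
    rw [smul_smul, inv_mul_cancel₀ (cc_ne hb), one_smul]
  exact h3.symm

/-- Transfer of transvections along `K`. -/
lemma tau_transfer {x : Fin (1 + 2) → F} {k : SU (1 + 2) F q} {κ : F} (hk : k ∈ K) (hκ : κ ≠ 0)
    (hkx : act k (vE α) = κ • x) {s : F} (hs : s ∈ ZZ hF hα K) :
    s + s ^ q = 0 ∧ tau hF x (κ * κ ^ q * s) ∈ K := by
  obtain ⟨hs1, hs2⟩ := hs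
  refine ⟨hs1, ?_⟩
  have h1 := K.mul_mem (K.mul_mem hk hs2) (K.inv_mem hk)
  have hg := good_tau (n := 1 + 2) hF (vE_iso (e := 1) hF hα) hs1
  have h2 := conj_mkE hF k hg
  have h3 : EE (e := 1) hF α 0 s = mkE hF (vE α) 0 s := by
    rw [EE, inc_zero]
  rw [h3, h2, mul_inv_cancel_right, hkx, act_zero] at h1
  have hg' : Good q (κ • x) (0 : Fin (1 + 2) → F) s := by
    have := hg
    refine ⟨?_, hermForm_zero_left _, hg.2.2⟩
    rw [← hkx, herm_act]
    exact hg.1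
  rw [mkE_smul hF hκ hg', smul_zero] at h1
  exact h1

end Move

section Data

variable (hF : Fintype.card F = q ^ 2) {α β : F} (hα : α ^ q * α = -1) (hβ : β + β ^ q = -1)
  {K : Subgroup (SU (1 + 2) F q)}

/-- The multipliers of the elements of `K` fixing the point. -/
noncomputable def TT1 (α : F) (K : Subgroup (SU (1 + 2) F q)) : Subgroup Fˣ :=
  (K.subgroupOf (Bo (q := q) α)).map (ccH α)

omit hF hα hβ in
lemma mem_TT1 {t : Fˣ} : t ∈ TT1 α K ↔ ∃ g ∈ K, g ∈ Bo (q := q) α ∧ cc α g = (t : F) := by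
  constructor
  · rintro ⟨g, hg, rfl⟩
    exact ⟨g.1, hg, g.2, rfl⟩
  · rintro ⟨g, hg, hB, h⟩
    exact ⟨⟨g, hB⟩, hg, Units.ext h⟩

include hF hα

/-- The order of `K ∩ Q`. -/
lemma card_QQ_inf : Nat.card (K.subgroupOf (QQ hF hα 1)) = Nat.card (YY hF hα K) * Nat.card (ZZ hF hα K) := by
  classical
  apply le_antisymm (card_inf_le hF hα)
  rw [← Nat.card_prod]
  have hw : ∀ u : YY hF hα K, ∃ s, Gd q u.1 s ∧ EE hF α u.1 s ∈ K := fun u => u.2
  choose s₁ hs₁ hs₁' using hw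
  refine Nat.card_le_card_of_injective (fun x => ⟨⟨EE hF α x.1.1 (x.2.1 + s₁ x.1),
    ⟨_, _, Gd_trace hF x.2.2.1 (hs₁ x.1), rfl⟩⟩, ?_⟩) ?_
  · show EE hF α x.1.1 (x.2.1 + s₁ x.1) ∈ K
    rw [← EE_tau_mul hF hα x.2.2.1 (hs₁ x.1)]
    exact K.mul_mem x.2.2.2 (hs₁' x.1)
  · rintro ⟨u, c⟩ ⟨u', c'⟩ h
    have h1 := congrArg (fun z => z.1.1) h
    obtain ⟨h2, h3⟩ := EE_inj hF hα (Gd_trace hF c.2.1 (hs₁ u)) (Gd_trace hF c'.2.1 (hs₁ u')) h1
    have h4 : u = u' := Subtype.ext h2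
    subst h4
    have h5 : c = c' := Subtype.ext (add_right_cancel h3)
    rw [h5]

/-- The order of `K ∩ B`. -/
lemma card_Bo_inf : Nat.card (K.subgroupOf (Bo (q := q) α)) =
    Nat.card (TT1 α K) * Nat.card (K.subgroupOf (QQ hF hα 1)) := by
  classical
  let f : K.subgroupOf (Bo (q := q) α) →* Fˣ := (ccH α).comp (K.subgroupOf (Bo (q := q) α)).subtype
  have h1 := Subgroup.card_mul_index f.ker
  rw [Subgroup.index_ker] at h1
  have h2 : f.range = TT1 α K := by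
    rw [MonoidHom.range_comp, Subgroup.range_subtype]
    rfl
  rw [h2] at h1
  have h3 : Nat.card f.ker = Nat.card (K.subgroupOf (QQ hF hα 1)) := by
    apply Nat.card_congr
    refine ⟨fun g => ⟨⟨g.1.1.1, ?_⟩, g.1.2⟩, fun g => ⟨⟨⟨g.1.1, QQ_le_Bo hF hα g.1.2⟩, g.2⟩, ?_⟩, fun g => rfl, fun g => rfl⟩
    · apply mem_QQ_of_cc hF hα g.1.1.2
      have h4 := g.2
      rw [MonoidHom.mem_ker] at h4
      have h5 := congrArg (fun t : Fˣ => (t : F)) h4
      exact h5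
    · rw [MonoidHom.mem_ker]
      apply Units.ext
      exact cc_QQ hF hα g.1.2
  rw [← h1, h3, mul_comm]

include hβ

lemma YY_T {t : Fˣ} (ht : t ∈ TT1 α K) {u : Fin 1 → F} (hu : u ∈ YY hF hα K) :
    (((t : F) ^ q * ((t : F) ^ q * (t : F)⁻¹)) • u) ∈ YY hF hα K := by
  obtain ⟨g, hg, hB, hc⟩ := mem_TT1.1 ht
  obtain ⟨s, h, hm⟩ := hu
  obtain ⟨s', h1, h2, -⟩ := conj_Bo hF hα hβ hB h
  rw [hc] at h1 h2
  refine ⟨s', h1, ?_⟩
  rw [← h2]
  exact K.mul_mem (K.mul_mem hg hm) (K.inv_mem hg)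

lemma ZZ_T {t : Fˣ} (ht : t ∈ TT1 α K) {s : F} (hs : s ∈ ZZ hF hα K) :
    (t : F) * (t : F) ^ q * s ∈ ZZ hF hα K := by
  obtain ⟨g, hg, hB, hc⟩ := mem_TT1.1 ht
  obtain ⟨h0, hm⟩ := hs
  have hG := Gd_zero (e := 1) hF h0
  obtain ⟨s', h1, h2, h3⟩ := conj_Bo hF hα hβ hB hG
  rw [hc] at h1 h2 h3
  rw [h3 rfl, smul_zero] at h2
  rw [h3 rfl, smul_zero] at h1
  constructor
  · unfold Gd at h1
    rw [hermForm_zero_left, add_zero] at h1
    exact h1
  · rw [← h2]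
    exact K.mul_mem (K.mul_mem hg hm) (K.inv_mem hg)

/-- The order of `K ∩ B`, in terms of the three parameters. -/
lemma card_Bo_inf' : Nat.card (K.subgroupOf (Bo (q := q) α)) =
    Nat.card (TT1 α K) * (Nat.card (YY hF hα K) * Nat.card (ZZ hF hα K)) := by
  rw [card_Bo_inf hF hα, card_QQ_inf hF hα]

lemma card_TT1_dvd : Nat.card (TT1 α K) ∣ q ^ 2 - 1 := by
  classical
  have h := Subgroup.card_subgroup_dvd_card (TT1 α K)
  rwa [Nat.card_eq_fintype_card (α := Fˣ), Fintype.card_units, hF] at h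

/-- A proper transitive subgroup has few transvections. -/
lemma two_mul_card_ZZ (h3 : 3 ≤ q) (hT : IsTr α K) (hK : K ≠ ⊤) : 2 * Nat.card (ZZ hF hα K) ≤ q := by
  obtain ⟨x, c, hx0, hxx, hc, hcK⟩ := exists_missing hF (n := 1 + 2) (by norm_num) (by omega) hK
  obtain ⟨k, hk, κ, hκ, hkx⟩ := exists_mem_move hF hα hβ hT hx0 hxx
  have hκq : (κ * κ ^ q) ^ q = κ * κ ^ q := by
    rw [mul_pow, pow_pow_self hF]
    ring
  have hκ0 : κ * κ ^ q ≠ 0 := mul_ne_zero hκ (pow_ne_zero _ hκ)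
  have hc' : (κ * κ ^ q)⁻¹ * c + ((κ * κ ^ q)⁻¹ * c) ^ q = 0 := by
    rw [mul_pow, inv_pow, hκq]
    linear_combination (κ * κ ^ q)⁻¹ * hc
  apply two_mul_card_ZZ_le hF hα hc' (c := (κ * κ ^ q)⁻¹ * c)
  intro hm
  have hmem : (κ * κ ^ q)⁻¹ * c ∈ ZZ hF hα K := ⟨hc', hm⟩
  have h1 := (tau_transfer hF hα hβ hk hκ hkx hmem).2
  rw [← mul_assoc, mul_inv_cancel₀ hκ0, one_mul] at h1
  exact hcK h1

end Data

end Cfsg.Agent.Lib.U3Min
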