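import Mathlib
import Cfsg.Agent.Lib.U3MinD

/-!
# `SU₃(q)`: the structure of `K ∩ Q`
-/

set_option autoImplicit false
set_option linter.unusedSectionVars false
set_option linter.unusedVariables false

namespace Cfsg.Agent.Lib.U3Min

open Matrix Cfsg Cfsg.Agent.Lib.HermForm Cfsg.Agent.Lib.FFNorm Cfsg.Agent.Lib.UnitaryE
  Cfsg.Agent.Lib.UnitarySU Cfsg.Agent.Lib.SUMinDeg Cfsg.Agent.Lib.PSUIdx
open Cfsg.Agent.Lib.PSU35A (cj mem_cj)

variable {F : Type*} [Field F] [Fintype F] {q : ℕ}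

section YStruct

variable (hF : Fintype.card F = q ^ 2) {α β : F} (hα : α ^ q * α = -1) (hβ : β + β ^ q = -1)
  {K : Subgroup (SU (1 + 2) F q)}

omit hF in
lemma herm_one (u u' : Fin 1 → F) : hermForm 1 F q u u' = u 0 * u' 0 ^ q := by
  simp [hermForm]

omit hF in
lemma ext_one {u u' : Fin 1 → F} (h : u 0 = u' 0) : u = u' := by
  funext i
  have : i = 0 := Subsingleton.elim _ _
  rw [this, h]

/-- The pairing on `F`. -/
def Pr (q : ℕ) (a b : F) : Prop := a * b ^ q = b * a ^ q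

include hF

lemma pq_ne {a : F} (ha : a ≠ 0) : a * a ^ q ≠ 0 := mul_ne_zero ha (pow_ne_zero _ ha)

/-- If two vectors of `F` are `F_q`-proportional to a nonzero vector, they are proportional. -/
lemma Pr_trans {a b c : F} (hb : b ≠ 0) (h1 : Pr q a b) (h2 : Pr q c b) : Pr q a c := by
  unfold Pr at *
  have hbq : b ^ q ≠ 0 := pow_ne_zero _ hb
  have : (a * c ^ q - c * a ^ q) * (b * b ^ q) = 0 := by
    linear_combination (c ^ q * b) * h1 - (a ^ q * b) * h2
  have h3 := (mul_eq_zero.1 this).resolve_right (pq_ne hF hb)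
  linear_combination h3

lemma Pr_sub {a a' b : F} (h1 : Pr q a b) (h2 : Pr q a' b) : Pr q (a - a') b := by
  unfold Pr at *
  rw [sub_pow_q hF]
  linear_combination h1 - h2

include hα

lemma comm_mem {u u' : Fin 1 → F} (hu : u ∈ YY hF hα K) (hu' : u' ∈ YY hF hα K) :
    u 0 * u' 0 ^ q - u' 0 * u 0 ^ q ∈ ZZ hF hα K := by
  have := comm_mem_ZZ hF hα hu hu'
  rwa [herm_one, herm_one] at this

/-- Non-proportional elements of `Y` force `|Y| ≤ |Z|²`. -/
lemma card_Y_le_sq {u₀ u₁ : Fin 1 → F} (hu₀ : u₀ ∈ YY hF hα K) (hu₁ : u₁ ∈ YY hF hα K)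
    (hnp : ¬ Pr q (u₀ 0) (u₁ 0)) : Nat.card (YY hF hα K) ≤ Nat.card (ZZ hF hα K) ^ 2 := by
  classical
  have hu₀0 : u₀ 0 ≠ 0 := by
    intro h
    apply hnp
    unfold Pr
    rw [h, zero_pow (by have := two_le hF; omega)]
    ring
  have hu₁0 : u₁ 0 ≠ 0 := by
    intro h
    apply hnp
    unfold Pr
    rw [h, zero_pow (by have := two_le hF; omega)]
    ring
  rw [pow_two, ← Nat.card_prod]
  refine Nat.card_le_card_of_injective (fun u : YY hF hα K =>
    (⟨_, comm_mem hF hα hu₀ u.2⟩, ⟨_, comm_mem hF hα hu₁ u.2⟩)) ?_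
  intro u u' h
  have h1 := congrArg (fun x => x.1.1) h
  have h2 := congrArg (fun x => x.2.1) h
  simp only at h1 h2
  apply Subtype.ext
  apply ext_one
  by_contra hne
  have hw : u.1 0 - u'.1 0 ≠ 0 := sub_ne_zero.2 hne
  apply hnp
  have e1 : Pr q (u₀ 0) (u.1 0 - u'.1 0) := by
    unfold Pr
    rw [sub_pow_q hF]
    linear_combination h1
  have e2 : Pr q (u₁ 0) (u.1 0 - u'.1 0) := by
    unfold Pr
    rw [sub_pow_q hF]
    linear_combination h2
  exact Pr_trans hF hw e1 e2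

/-- All elements of `Y` are proportional to a nonzero one: `|Y|` divides `q`. -/
lemma card_Y_dvd {u₀ : Fin 1 → F} (hu₀ : u₀ 0 ≠ 0) (hall : ∀ u ∈ YY hF hα K, Pr q (u 0) (u₀ 0)) :
    Nat.card (YY hF hα K) ∣ q := by
  classical
  let Fq : AddSubgroup F :=
    { carrier := {x | x ^ q = x}
      add_mem' := by
        intro a b ha hb
        show (a + b) ^ q = a + b
        rw [add_pow_q hF, show a ^ q = a from ha, show b ^ q = b from hb]
      zero_mem' := zero_pow (by have := two_le hF; omega)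
      neg_mem' := by
        intro a ha
        show (-a) ^ q = -a
        rw [neg_pow_q hF, show a ^ q = a from ha] }
  have hFq : Nat.card Fq = q := Cfsg.Agent.Lib.HermLines.card_fixed hF
  let ψ : (Fin 1 → F) →+ F :=
    { toFun := fun u => u 0 * (u₀ 0)⁻¹
      map_zero' := by simp
      map_add' := by
        intro a b
        simp [add_mul] }
  have hψ : Function.Injective ψ := by
    intro a b h
    apply ext_one
    exact mul_right_cancel₀ (inv_ne_zero hu₀) h
  have h1 : Nat.card ((YY hF hα K).map ψ) = Nat.card (YY hF hα K) :=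
    Nat.card_congr (Equiv.ofBijective (fun x : YY hF hα K => (⟨ψ x.1, x.1, x.2, rfl⟩ : (YY hF hα K).map ψ))
      ⟨fun a b h => Subtype.ext (hψ (congrArg Subtype.val h)),
        by rintro ⟨_, u, hu, rfl⟩; exact ⟨⟨u, hu⟩, rfl⟩⟩).symm
  rw [← h1]
  have h9 : Nat.card ((YY hF hα K).map ψ) ∣ Nat.card Fq := by
    apply AddSubgroup.card_dvd_of_le
    rintro _ ⟨u, hu, rfl⟩
    show (u 0 * (u₀ 0)⁻¹) ^ q = u 0 * (u₀ 0)⁻¹
    have h2 := hall u hu
    unfold Pr at h2
    have hq0 : (u₀ 0) ^ q ≠ 0 := pow_ne_zero _ hu₀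
    rw [mul_pow, inv_pow]
    field_simp
    linear_combination -h2
  rwa [hFq] at h9

include hβ

/-- The multipliers when `Y` is a nonzero set of proportional elements. -/
lemma T_pow {u₀ : Fin 1 → F} (hu₀ : u₀ ∈ YY hF hα K) (hu₀0 : u₀ 0 ≠ 0)
    (hall : ∀ u ∈ YY hF hα K, Pr q (u 0) (u₀ 0)) {t : Fˣ} (ht : t ∈ TT1 α K) :
    t ^ (3 * (q - 1)) = 1 := by
  have hq := two_le hF
  have h1 := hall _ (YY_T hF hα hβ ht hu₀)
  unfold Pr at h1
  simp only [Pi.smul_apply, smul_eq_mul] at h1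
  set a := (t : F) with ha
  have ha0 : a ≠ 0 := t.ne_zero
  set C := a ^ q with hC
  have hC0 : C ≠ 0 := pow_ne_zero _ ha0
  have hCq : C ^ q = a := pow_pow_self hF a
  set x := u₀ 0 with hx
  have hx0 : x * x ^ q ≠ 0 := pq_ne hF hu₀0
  have h2 : (C * (C * a⁻¹) * x) ^ q = a * (a * C⁻¹) * x ^ q := by
    rw [mul_pow, mul_pow, mul_pow, inv_pow, hCq]
  rw [h2] at h1
  have h3 : C * C * C = a * a * a := by
    have h4 : (C * (C * a⁻¹) - a * (a * C⁻¹)) * (x * x ^ q) = 0 := by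
      linear_combination h1
    have h5 := sub_eq_zero.1 ((mul_eq_zero.1 h4).resolve_right hx0)
    have h6 : C * (C * a⁻¹) * (a * C) = C * C * C := by field_simp
    have h7 : a * (a * C⁻¹) * (a * C) = a * a * a := by field_simp
    rw [← h6, ← h7, h5]
  have h6 : a ^ (3 * (q - 1)) = 1 := by
    have h7 : a ^ (3 * q) = a ^ 3 := by
      calc a ^ (3 * q) = (a ^ q) ^ 3 := by ring
        _ = C * C * C := by rw [← hC]; ring
        _ = a * a * a := h3
        _ = a ^ 3 := by ring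
    have h8 : a ^ (3 * (q - 1)) * a ^ 3 = 1 * a ^ 3 := by
      rw [← pow_add, one_mul, ← h7]
      congr 1
      omega
    exact mul_right_cancel₀ (pow_ne_zero _ ha0) h8
  apply Units.ext
  rw [Units.val_pow_eq_pow_val, Units.val_one]
  exact h6

omit hβ

/-- In characteristic two, and if `Z` is trivial, `Y` is trivial. -/
lemma Y_trivial_of_two (h2 : (2 : F) = 0) (hZ : ∀ s ∈ ZZ hF hα K, s = 0) {u : Fin 1 → F}
    (hu : u ∈ YY hF hα K) : u = 0 := by
  have h1 := hZ _ (norm_mem_ZZ hF hα h2 hu)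
  rw [herm_one] at h1
  apply ext_one
  rcases mul_eq_zero.1 h1 with h | h
  · exact h
  · exact pow_eq_zero_iff (by have := two_le hF; omega) |>.1 h

/-- In characteristic two, the norm on a set of proportional elements of `Y` is injective. -/
lemma card_Y_le_Z_two (h2 : (2 : F) = 0) {u₀ : Fin 1 → F} (hu₀0 : u₀ 0 ≠ 0)
    (hall : ∀ u ∈ YY hF hα K, Pr q (u 0) (u₀ 0)) : Nat.card (YY hF hα K) ≤ Nat.card (ZZ hF hα K) := by
  classical
  refine Nat.card_le_card_of_injective (fun u : YY hF hα K => (⟨_, norm_mem_ZZ hF hα h2 u.2⟩ : ZZ hF hα K)) ?_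
  intro u u' h
  have h1 := congrArg Subtype.val h
  simp only [herm_one] at h1
  apply Subtype.ext
  apply ext_one
  have hP : Pr q (u.1 0) (u'.1 0) := Pr_trans hF hu₀0 (hall _ u.2) (hall _ u'.2)
  unfold Pr at hP
  have h3 : (u.1 0 - u'.1 0) * (u.1 0 - u'.1 0) ^ q = 0 := by
    rw [sub_pow_q hF]
    linear_combination h1 - hP + (u'.1 0 * u'.1 0 ^ q - u'.1 0 * u.1 0 ^ q) * h2
  rcases mul_eq_zero.1 h3 with h | h
  · exact sub_eq_zero.1 h
  · exact sub_eq_zero.1 (pow_eq_zero_iff (by have := two_le hF; omega) |>.1 h)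

include hβ

/-- The orbit congruence for `Y`. -/
lemma card_Y_mod {t : Fˣ} (ht : t ∈ TT1 α K) (ℓ : ℕ) [hℓ : Fact ℓ.Prime]
    (h1 : ((t : F) ^ q * ((t : F) ^ q * (t : F)⁻¹)) ≠ 1)
    (h2 : ((t : F) ^ q * ((t : F) ^ q * (t : F)⁻¹)) ^ ℓ = 1) :
    Nat.card (YY hF hα K) ≡ 1 [MOD ℓ] := by
  classical
  set μ := ((t : F) ^ q * ((t : F) ^ q * (t : F)⁻¹)) with hμ
  letI : Fintype (YY hF hα K) := Fintype.ofFinite _
  let f : Function.End (YY hF hα K) := fun u => ⟨μ • u.1, YY_T hF hα hβ ht u.2⟩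
  have hpow : ∀ (k : ℕ) (u : YY hF hα K), ((f ^ k) u).1 = μ ^ k • u.1 := by
    intro k u
    induction k with
    | zero => simp [Function.End.one_def]
    | succ k ih =>
      rw [pow_succ']
      show μ • ((f ^ k) u).1 = _
      rw [ih, smul_smul, pow_succ']
  have hf : f ^ ℓ ^ 1 = 1 := by
    rw [pow_one]
    funext u
    apply Subtype.ext
    rw [hpow, h2, one_smul]
    rfl
  have h3 := Equiv.Perm.card_fixedPoints_modEq hf
  have h4 : Fintype.card (Function.fixedPoints f) = 1 := by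
    rw [Fintype.card_eq_one_iff]
    refine ⟨⟨0, ?_⟩, ?_⟩
    · apply Subtype.ext
      show μ • (0 : Fin 1 → F) = 0
      rw [smul_zero]
    · rintro ⟨u, hu⟩
      apply Subtype.ext
      apply Subtype.ext
      have h5 : μ • u.1 = u.1 := congrArg Subtype.val hu
      have h6 := congrFun h5 0
      simp only [Pi.smul_apply, smul_eq_mul] at h6
      have h7 : (μ - 1) * u.1 0 = 0 := by linear_combination h6
      have h8 := (mul_eq_zero.1 h7).resolve_left (sub_ne_zero.2 h1)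
      exact ext_one h8
  rw [h4] at h3
  rw [Nat.card_eq_fintype_card]
  exact h3

end YStruct

end Cfsg.Agent.Lib.U3Min
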