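import Mathlib
import Cfsg.Agent.Lib.U3MinE

/-!
# `SU₃(q)`: the stabiliser of a non-degenerate line and its action on the isotropic points
-/

set_option autoImplicit false
set_option linter.unusedSectionVars false
set_option linter.unusedVariables false
set_option linter.style.haveILetI false

namespace Cfsg.Agent.Lib.U3Min

open Matrix Cfsg Cfsg.Agent.Lib.HermForm Cfsg.Agent.Lib.FFNorm Cfsg.Agent.Lib.UnitaryE
  Cfsg.Agent.Lib.UnitarySU Cfsg.Agent.Lib.SUMinDeg Cfsg.Agent.Lib.PSUIdx Cfsg.Agent.Lib.SL2Core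
open Cfsg.Agent.Lib.PSU35A (cj mem_cj)

variable {F : Type*} [Field F] [Fintype F] {q : ℕ}

/-- The third basis vector. -/
def dd (F : Type*) [Field F] : Fin (1 + 2) → F := inc (fun _ => 1)

lemma dd_zero : dd F 0 = 0 := rfl
lemma dd_one : dd F 1 = 0 := rfl
lemma dd_two : dd F 2 = 1 := rfl

lemma vE_two (β : F) : vE (e := 1) β 2 = 0 := by
  show vv β 0 1 2 = 0
  exact vv_other (by decide) (by decide)

lemma act_apply (g : SU (1 + 2) F q) (x : Fin (1 + 2) → F) (i : Fin (1 + 2)) :
    act g x i = g.1.1 i 0 * x 0 + g.1.1 i 1 * x 1 + g.1.1 i 2 * x 2 := by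
  show ((g.1.1 : Matrix (Fin (1 + 2)) (Fin (1 + 2)) F) *ᵥ x) i = _
  simp [Matrix.mulVec, dotProduct, Fin.sum_univ_three]

lemma entry_eq (g : SU (1 + 2) F q) (i : Fin (1 + 2)) : act g (dd F) i = g.1.1 i 2 := by
  rw [act_apply, dd_zero, dd_one, dd_two]
  ring

/-- The stabiliser of the third basis line. -/
abbrev SLd (F : Type*) [Field F] [Fintype F] (q : ℕ) : Subgroup (SU (1 + 2) F q) := BorN (dd F)

section Line

variable (hF : Fintype.card F = q ^ 2)
include hF

lemma herm_dd (x : Fin (1 + 2) → F) : hermForm (1 + 2) F q x (dd F) = x 2 := by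
  have hq := two_le hF
  have h : hermForm (1 + 2) F q x (dd F) = x 0 * dd F 0 ^ q + x 1 * dd F 1 ^ q + x 2 * dd F 2 ^ q := by
    simp [hermForm, Fin.sum_univ_three]
  rw [h, dd_zero, dd_one, dd_two, zero_pow (by omega), one_pow]
  ring

lemma herm_dd_self : hermForm (1 + 2) F q (dd F) (dd F) = 1 := by
  rw [herm_dd hF, dd_two]

lemma third_zero {g : SU (1 + 2) F q} (hg : g ∈ SLd F q) {x : Fin (1 + 2) → F} (hx : x 2 = 0) :
    act g x 2 = 0 := by
  obtain ⟨c, hc, h⟩ := hg
  have h1 := herm_act g x (dd F)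
  rw [h, hermForm_smul_right, herm_dd hF, herm_dd hF, hx] at h1
  exact (mul_eq_zero.1 h1).resolve_left (pow_ne_zero _ hc)

/-- The isotropic points on the line. -/
abbrev Om (F : Type*) [Field F] (q : ℕ) := {β : F // β ^ q * β = -1}

lemma card_Om : Nat.card (Om F q) = q + 1 := by
  have h := card_norm_eq hF (μ := (-1 : F)) (neg_ne_zero.2 one_ne_zero) (by rw [neg_pow_q hF, one_pow])
  rw [← h]
  apply Nat.card_congr
  refine Equiv.subtypeEquivRight ?_
  intro x
  rw [pow_succ]

lemma pt_iso (β : Om F q) : hermForm (1 + 2) F q (vE (e := 1) β.1) (vE β.1) = 0 := vE_iso hF β.2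

lemma pt_ne (β : Om F q) : vE (e := 1) β.1 ≠ 0 := vE_ne' hF β.2

lemma herm_coords (x y : Fin (1 + 2) → F) :
    hermForm (1 + 2) F q x y = x 0 * y 0 ^ q + x 1 * y 1 ^ q + x 2 * y 2 ^ q := by
  simp [hermForm, Fin.sum_univ_three]

lemma act_pt_zero {g : SU (1 + 2) F q} (hg : g ∈ SLd F q) (β : Om F q) : act g (vE β.1) 0 ≠ 0 := by
  have hq := two_le hF
  intro h0
  have h2 := third_zero hF hg (vE_two β.1)
  have h3 := herm_act g (vE (e := 1) β.1) (vE β.1)
  rw [pt_iso hF, herm_coords hF, h0, h2, zero_pow (by omega)] at h3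
  simp only [mul_zero, zero_add, add_zero] at h3
  have h4 : act g (vE (e := 1) β.1) 1 = 0 := by
    rcases mul_eq_zero.1 h3 with h | h
    · exact h
    · exact pow_eq_zero_iff (by omega) |>.1 h
  apply act_ne_zero hF g (pt_ne hF β)
  funext i
  fin_cases i
  · exact h0
  · exact h4
  · exact h2

/-- The action on the points. -/
noncomputable def smulOm {g : SU (1 + 2) F q} (hg : g ∈ SLd F q) (β : Om F q) : Om F q :=
  ⟨act g (vE β.1) 1 / act g (vE β.1) 0, by
    have hq := two_le hF
    have h0 := act_pt_zero hF hg β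
    have h2 := third_zero hF hg (vE_two β.1)
    have h3 := herm_act g (vE (e := 1) β.1) (vE β.1)
    rw [pt_iso hF, herm_coords hF, h2, zero_pow (by omega)] at h3
    simp only [mul_zero, add_zero] at h3
    rw [div_pow]
    have h5 : (act g (vE (e := 1) β.1) 0) ^ q ≠ 0 := pow_ne_zero _ h0
    field_simp
    linear_combination h3⟩

omit hF in
lemma vE_coord (β : F) : vE (e := 1) β 1 = β := by
  rw [vE_one]

lemma act_smulOm {g : SU (1 + 2) F q} (hg : g ∈ SLd F q) (β : Om F q) :
    act g (vE β.1) = act g (vE β.1) 0 • vE (smulOm hF hg β).1 := by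
  have h0 := act_pt_zero hF hg β
  funext i
  fin_cases i
  · show act g (vE β.1) 0 = act g (vE β.1) 0 * vE (e := 1) (smulOm hF hg β).1 0
    rw [vE_zero, mul_one]
  · show act g (vE β.1) 1 = act g (vE β.1) 0 * vE (e := 1) (smulOm hF hg β).1 1
    rw [vE_coord]
    show _ = _ * (act g (vE β.1) 1 / act g (vE β.1) 0)
    field_simp
  · show act g (vE β.1) 2 = act g (vE β.1) 0 * vE (e := 1) (smulOm hF hg β).1 2
    rw [vE_two, mul_zero]
    exact third_zero hF hg (vE_two β.1)

lemma smulOm_eq {g : SU (1 + 2) F q} (hg : g ∈ SLd F q) {β β' : Om F q} {κ : F}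
    (h : act g (vE β.1) = κ • vE β'.1) : smulOm hF hg β = β' := by
  have h0 := act_pt_zero hF hg β
  apply Subtype.ext
  show act g (vE β.1) 1 / act g (vE β.1) 0 = β'.1
  rw [h] at h0 ⊢
  have h1 : vE (e := 1) β'.1 0 = 1 := vE_zero
  have h2 : vE (e := 1) β'.1 1 = β'.1 := vE_one
  simp only [Pi.smul_apply, smul_eq_mul, h1, h2, mul_one] at h0 ⊢
  field_simp

lemma smulOm_mul {g h : SU (1 + 2) F q} (hg : g ∈ SLd F q) (hh : h ∈ SLd F q) (β : Om F q) :
    smulOm hF ((SLd F q).mul_mem hg hh) β = smulOm hF hg (smulOm hF hh β) := by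
  have h1 := act_smulOm hF hh β
  have h2 := act_smulOm hF hg (smulOm hF hh β)
  generalize act h (vE β.1) 0 = c1 at h1
  generalize act g (vE (smulOm hF hh β).1) 0 = c2 at h2
  apply smulOm_eq hF _ (κ := c1 * c2)
  rw [act_mul, h1, act_smul, h2, smul_smul]

lemma smulOm_one (β : Om F q) : smulOm hF (SLd F q).one_mem β = β := by
  apply smulOm_eq hF _ (κ := 1)
  rw [act_one, one_smul]

/-- The permutation representation. -/
noncomputable def piOm (hF : Fintype.card F = q ^ 2) : SLd F q →* Equiv.Perm (Om F q) where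
  toFun g :=
    { toFun := smulOm hF g.2
      invFun := smulOm hF ((SLd F q).inv_mem g.2)
      left_inv := by
        intro β
        rw [← smulOm_mul hF]
        simp only [inv_mul_cancel]
        exact smulOm_one hF β
      right_inv := by
        intro β
        rw [← smulOm_mul hF]
        simp only [mul_inv_cancel]
        exact smulOm_one hF β }
  map_one' := by
    ext β
    exact congrArg Subtype.val (smulOm_one hF β)
  map_mul' := by
    intro g h
    ext β
    exact congrArg Subtype.val (smulOm_mul hF g.2 h.2 β)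

lemma piOm_apply (g : SLd F q) (β : Om F q) : piOm hF g β = smulOm hF g.2 β := rfl

lemma piOm_eq {g : SLd F q} {β β' : Om F q} {κ : F}
    (h : act g.1 (vE β.1) = κ • vE β'.1) : piOm hF g β = β' := smulOm_eq hF g.2 h

lemma piOm_spec (g : SLd F q) (β : Om F q) :
    ∃ κ : F, κ ≠ 0 ∧ act g.1 (vE β.1) = κ • vE (piOm hF g β).1 :=
  ⟨_, act_pt_zero hF g.2 β, act_smulOm hF g.2 β⟩

end Line

end Cfsg.Agent.Lib.U3Min
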