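import Mathlib
import Cfsg.Agent.Lib.U3MinF
import Cfsg.Agent.Lib.U3MinB

/-!
# `SU₃(q)`: the stabiliser of a non-degenerate line maps to `PSL₂(q²)`
-/

set_option autoImplicit false
set_option linter.unusedSectionVars false
set_option linter.unusedVariables false
set_option linter.style.haveILetI false

namespace Cfsg.Agent.Lib.U3Min

open Matrix Cfsg Cfsg.Agent.Lib.HermForm Cfsg.Agent.Lib.FFNorm Cfsg.Agent.Lib.UnitaryE
  Cfsg.Agent.Lib.UnitarySU Cfsg.Agent.Lib.SUMinDeg Cfsg.Agent.Lib.PSUIdx Cfsg.Agent.Lib.SL2Core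

variable {F : Type*} [Field F] [Fintype F] {q : ℕ}

lemma entry_mul (g h : SU (1 + 2) F q) (i j : Fin (1 + 2)) :
    (g * h).1.1 i j = g.1.1 i 0 * h.1.1 0 j + g.1.1 i 1 * h.1.1 1 j + g.1.1 i 2 * h.1.1 2 j := by
  show ((g.1.1 : Matrix (Fin (1 + 2)) (Fin (1 + 2)) F) * h.1.1) i j = _
  simp [Matrix.mul_apply, Fin.sum_univ_three]

section Block

variable (hF : Fintype.card F = q ^ 2)
include hF

lemma col_two {g : SU (1 + 2) F q} (hg : g ∈ SLd F q) {i : Fin (1 + 2)} (hi : i ≠ 2) :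
    g.1.1 i 2 = 0 := by
  obtain ⟨c, hc, h⟩ := hg
  rw [← entry_eq, h]
  fin_cases i
  · show c * dd F 0 = 0
    rw [dd_zero, mul_zero]
  · show c * dd F 1 = 0
    rw [dd_one, mul_zero]
  · exact absurd rfl hi

lemma row_two {g : SU (1 + 2) F q} (hg : g ∈ SLd F q) {j : Fin (1 + 2)} (hj : j ≠ 2) :
    g.1.1 2 j = 0 := by
  have h := third_zero hF hg (x := Pi.single j 1) (by simp [Pi.single_apply, hj.symm])
  rw [act_apply] at h
  fin_cases j
  · simpa using h
  · simpa using h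
  · exact absurd rfl hj

lemma corner_norm {g : SU (1 + 2) F q} (hg : g ∈ SLd F q) : g.1.1 2 2 ^ q * g.1.1 2 2 = 1 := by
  obtain ⟨c, hc, h⟩ := id hg
  have h1 := herm_act g (dd F) (dd F)
  rw [h, hermForm_smul_right, hermForm_smul_left, herm_dd_self hF] at h1
  have h2 : g.1.1 2 2 = c := by
    rw [← entry_eq, h]
    show c * dd F 2 = c
    rw [dd_two, mul_one]
  rw [h2]
  linear_combination h1

end Block

/-- The upper-left block. -/
def MMb (g : SU (1 + 2) F q) : Matrix (Fin 2) (Fin 2) F :=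
  !![g.1.1 0 0, g.1.1 0 1; g.1.1 1 0, g.1.1 1 1]

section Hom

variable (hF : Fintype.card F = q ^ 2)

/-- The block map as a monoid homomorphism. -/
noncomputable def MMh : SLd F q →* Matrix (Fin 2) (Fin 2) F where
  toFun g := MMb g.1
  map_one' := by
    ext i j
    fin_cases i <;> fin_cases j <;> simp [MMb, Matrix.one_apply] <;> rfl
  map_mul' := by
    intro g h
    ext i j
    have h1 : ∀ j : Fin (1 + 2), j ≠ 2 → h.1.1.1 2 j = 0 := fun j hj => row_two hF h.2 hj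
    have h01 : h.1.1.1 2 0 = 0 := h1 0 (by decide)
    have h02 : h.1.1.1 2 1 = 0 := h1 1 (by decide)
    have key : ∀ i j : Fin (1 + 2), (g.1 * h.1).1.1 i j = g.1.1.1 i 0 * h.1.1.1 0 j + g.1.1.1 i 1 * h.1.1.1 1 j +
        g.1.1.1 i 2 * h.1.1.1 2 j := entry_mul _ _
    have hm : ∀ (A B : Matrix (Fin 2) (Fin 2) F) (i j : Fin 2), (A * B) i j = A i 0 * B 0 j + A i 1 * B 1 j := by
      intro A B i j
      simp [Matrix.mul_apply, Fin.sum_univ_two]
    rw [hm]
    fin_cases i <;> fin_cases j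
    · show (g.1 * h.1).1.1 0 0 = g.1.1.1 0 0 * h.1.1.1 0 0 + g.1.1.1 0 1 * h.1.1.1 1 0
      rw [key, h01]; ring
    · show (g.1 * h.1).1.1 0 1 = g.1.1.1 0 0 * h.1.1.1 0 1 + g.1.1.1 0 1 * h.1.1.1 1 1
      rw [key, h02]; ring
    · show (g.1 * h.1).1.1 1 0 = g.1.1.1 1 0 * h.1.1.1 0 0 + g.1.1.1 1 1 * h.1.1.1 1 0
      rw [key, h01]; ring
    · show (g.1 * h.1).1.1 1 1 = g.1.1.1 1 0 * h.1.1.1 0 1 + g.1.1.1 1 1 * h.1.1.1 1 1
      rw [key, h02]; ring

/-- The block map into `GL₂`. -/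
noncomputable def rhoGL : SLd F q →* GL (Fin 2) F := MonoidHom.toHomUnits (MMh hF)

lemma rhoGL_val (g : SLd F q) : (rhoGL hF g : Matrix (Fin 2) (Fin 2) F) = MMb g.1 := rfl

include hF in
lemma det_MMb (g : SLd F q) : (MMb g.1).det * g.1.1.1 2 2 = 1 := by
  have h := g.1.1.2
  have h0 : g.1.1.1 0 2 = 0 := col_two hF g.2 (by decide)
  have h1 : g.1.1.1 1 2 = 0 := col_two hF g.2 (by decide)
  have h2 : g.1.1.1 2 0 = 0 := row_two hF g.2 (by decide)
  have h3 : g.1.1.1 2 1 = 0 := row_two hF g.2 (by decide)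
  have h4 : (g.1.1.1 : Matrix (Fin (1 + 2)) (Fin (1 + 2)) F).det =
      g.1.1.1 0 0 * g.1.1.1 1 1 * g.1.1.1 2 2 - g.1.1.1 0 0 * g.1.1.1 1 2 * g.1.1.1 2 1 -
      g.1.1.1 0 1 * g.1.1.1 1 0 * g.1.1.1 2 2 + g.1.1.1 0 1 * g.1.1.1 1 2 * g.1.1.1 2 0 +
      g.1.1.1 0 2 * g.1.1.1 1 0 * g.1.1.1 2 1 - g.1.1.1 0 2 * g.1.1.1 1 1 * g.1.1.1 2 0 :=
    Matrix.det_fin_three _
  rw [h, h0, h1, h2, h3] at h4
  have h5 : (MMb g.1).det = g.1.1.1 0 0 * g.1.1.1 1 1 - g.1.1.1 0 1 * g.1.1.1 1 0 := by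
    rw [Matrix.det_fin_two]
    rfl
  rw [h5]
  linear_combination -h4

include hF in
lemma isSquare_det (g : SLd F q) : IsSquare (MMb g.1).det := by
  classical
  have h1 := det_MMb hF g
  have h2 := corner_norm hF g.2
  set c := g.1.1.1 2 2 with hc
  set δ := (MMb g.1).det with hδ
  have hδ0 : δ ≠ 0 := left_ne_zero_of_mul_eq_one h1
  by_cases h2F : ringChar F = 2
  · exact FiniteField.isSquare_of_char_two h2F δ
  · rw [FiniteField.isSquare_iff h2F hδ0]
    have hq0 : Odd q := by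
      have h3 : Fintype.card F % 2 ≠ 0 := fun h => h2F (FiniteField.even_card_iff_char_two.2 h)
      rw [hF] at h3
      by_contra hq
      rw [Nat.not_odd_iff_even] at hq
      obtain ⟨m, rfl⟩ := hq
      apply h3
      have : (m + m) ^ 2 = 2 * (2 * (m * m)) := by ring
      omega
    obtain ⟨m, rfl⟩ := hq0
    have h4 : Fintype.card F / 2 = (2 * m + 1 + 1) * m := by
      rw [hF]
      have : (2 * m + 1) ^ 2 = 2 * ((2 * m + 1 + 1) * m) + 1 := by ring
      omega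
    rw [h4, pow_mul]
    have h5 : δ ^ (2 * m + 1 + 1) = 1 := by
      have h6 : c ^ (2 * m + 1 + 1) = 1 := by
        rw [pow_succ]
        exact h2
      have h7 : (δ * c) ^ (2 * m + 1 + 1) = 1 := by
        rw [h1, one_pow]
      rw [mul_pow, h6, mul_one] at h7
      exact h7
    rw [h5, one_pow]

/-- The projective image. -/
noncomputable def rhoPGL : SLd F q →* ProjGenLinGroup (Fin 2) F :=
  ProjGenLinGroup.mk.comp (rhoGL hF)

include hF in
lemma rhoPGL_mem (g : SLd F q) :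
    rhoPGL hF g ∈ (ProjectiveSpecialLinearGroup.toPGL (n := Fin 2) (R := F)).range := by
  obtain ⟨e, he⟩ := isSquare_det hF g
  have hd0 : (MMb g.1).det ≠ 0 := left_ne_zero_of_mul_eq_one (det_MMb hF g)
  have he0 : e ≠ 0 := by
    rintro rfl
    rw [mul_zero] at he
    exact hd0 he
  have hdet : ((e⁻¹) • (MMb g.1)).det = 1 := by
    rw [Matrix.det_smul, Fintype.card_fin, he]
    field_simp
  let y : Matrix.SpecialLinearGroup (Fin 2) F := ⟨(e⁻¹) • (MMb g.1), hdet⟩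
  refine ⟨(y : ProjectiveSpecialLinearGroup (Fin 2) F), ?_⟩
  rw [ProjectiveSpecialLinearGroup.toPGL_mk]
  show ProjGenLinGroup.mk _ = ProjGenLinGroup.mk _
  rw [ProjGenLinGroup.mk_eq_mk_iff]
  refine ⟨Units.mk0 e he0, ?_⟩
  apply Units.ext
  ext i j
  have h1 : ((rhoGL hF g : GL (Fin 2) F) : Matrix (Fin 2) (Fin 2) F) = MMb g.1 := rfl
  rw [h1]
  fin_cases i <;> fin_cases j <;> simp [y, he0, Matrix.SpecialLinearGroup.toGL, Matrix.mul_apply, Fin.sum_univ_two] <;> field_simp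

/-- The homomorphism to `PSL₂`. -/
noncomputable def rhoP : SLd F q →* PSL2 F :=
  (MonoidHom.ofInjective (ProjectiveSpecialLinearGroup.toPGL_injective (n := Fin 2) (R := F))).symm.toMonoidHom.comp
    ((rhoPGL hF).codRestrict _ (rhoPGL_mem hF))

/-- The scalar block condition. -/
def IsScal (g : SU (1 + 2) F q) : Prop :=
  g.1.1 0 1 = 0 ∧ g.1.1 1 0 = 0 ∧ g.1.1 0 0 = g.1.1 1 1

lemma rhoP_eq_one_iff (g : SLd F q) : rhoP hF g = 1 ↔ IsScal g.1 := by
  have h1 : rhoP hF g = 1 ↔ rhoPGL hF g = 1 := by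
    constructor
    · intro h
      have h2 : ((rhoPGL hF).codRestrict _ (rhoPGL_mem hF)) g = 1 := by
        have h3 : (MonoidHom.ofInjective (ProjectiveSpecialLinearGroup.toPGL_injective (n := Fin 2) (R := F))).symm
            (((rhoPGL hF).codRestrict _ (rhoPGL_mem hF)) g) = 1 := h
        simpa using h3
      exact congrArg Subtype.val h2
    · intro h
      have h2 : ((rhoPGL hF).codRestrict _ (rhoPGL_mem hF)) g = 1 := Subtype.ext h
      show (MonoidHom.ofInjective (ProjectiveSpecialLinearGroup.toPGL_injective (n := Fin 2) (R := F))).symm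
            (((rhoPGL hF).codRestrict _ (rhoPGL_mem hF)) g) = 1
      rw [h2, map_one]
  rw [h1]
  show ProjGenLinGroup.mk (rhoGL hF g) = 1 ↔ _
  rw [ProjGenLinGroup.mk_eq_one, GeneralLinearGroup.center_eq_range_scalar]
  constructor
  · rintro ⟨u, hu⟩
    have h2 : MMb g.1 = Matrix.scalar (Fin 2) (u : F) := by
      have h3 := congrArg (fun z : GL (Fin 2) F => (z : Matrix (Fin 2) (Fin 2) F)) hu
      have h4 : ((rhoGL hF g : GL (Fin 2) F) : Matrix (Fin 2) (Fin 2) F) = Matrix.scalar (Fin 2) (u : F) := by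
        simpa using h3.symm
      exact h4
    have h00 : g.1.1.1 0 0 = u := by simpa [MMb] using congrFun (congrFun h2 0) 0
    have h01 : g.1.1.1 0 1 = 0 := by simpa [MMb] using congrFun (congrFun h2 0) 1
    have h10 : g.1.1.1 1 0 = 0 := by simpa [MMb] using congrFun (congrFun h2 1) 0
    have h11 : g.1.1.1 1 1 = u := by simpa [MMb] using congrFun (congrFun h2 1) 1
    exact ⟨h01, h10, h00.trans h11.symm⟩
  · rintro ⟨h01, h10, h00⟩
    have hdet := det_MMb hF g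
    have h0 : g.1.1.1 0 0 ≠ 0 := by
      intro h
      have h5 : (MMb g.1).det = g.1.1.1 0 0 * g.1.1.1 1 1 - g.1.1.1 0 1 * g.1.1.1 1 0 := by
        rw [Matrix.det_fin_two]
        rfl
      rw [h5, h, h01] at hdet
      simp at hdet
    refine ⟨Units.mk0 _ h0, ?_⟩
    apply Units.ext
    ext i j
    have h1 : ((rhoGL hF g : GL (Fin 2) F) : Matrix (Fin 2) (Fin 2) F) = MMb g.1 := rfl
    rw [h1]
    fin_cases i <;> fin_cases j <;> simp [MMb, h01, h10, h00]

include hF in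
lemma fix_eq (g : SLd F q) {β : Om F q} (h : piOm hF g β = β) :
    g.1.1.1 1 0 + g.1.1.1 1 1 * β.1 = (g.1.1.1 0 0 + g.1.1.1 0 1 * β.1) * β.1 := by
  obtain ⟨κ, hκ, hh⟩ := piOm_spec hF g β
  rw [h] at hh
  have h0 := congrFun hh 0
  have h1 := congrFun hh 1
  rw [act_apply] at h0 h1
  simp only [Pi.smul_apply, smul_eq_mul] at h0 h1
  have e0 : vE (e := 1) β.1 0 = 1 := vE_zero
  have e1 : vE (e := 1) β.1 1 = β.1 := vE_one
  have e2 := vE_two β.1
  rw [e0, e1, e2] at h0 h1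
  rw [mul_zero, add_zero, mul_one, mul_one] at h0
  rw [mul_zero, add_zero, mul_one] at h1
  rw [h1, h0]

include hF in
/-- An element fixing three points acts as a scalar on the plane. -/
lemma isScal_of_fix (g : SLd F q) {a b c : Om F q} (hab : a ≠ b) (hac : a ≠ c) (hbc : b ≠ c)
    (ha : piOm hF g a = a) (hb : piOm hF g b = b) (hc : piOm hF g c = c) : IsScal g.1 := by
  have h1 := fix_eq hF g ha
  have h2 := fix_eq hF g hb
  have h3 := fix_eq hF g hc
  have hab' : a.1 - b.1 ≠ 0 := sub_ne_zero.2 (fun h => hab (Subtype.ext h))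
  have hac' : a.1 - c.1 ≠ 0 := sub_ne_zero.2 (fun h => hac (Subtype.ext h))
  have hbc' : b.1 - c.1 ≠ 0 := sub_ne_zero.2 (fun h => hbc (Subtype.ext h))
  set A := g.1.1.1 0 0
  set B := g.1.1.1 0 1
  set C := g.1.1.1 1 0
  set D := g.1.1.1 1 1
  have h4 : D = A + B * (a.1 + b.1) := by
    apply mul_right_cancel₀ hab'
    linear_combination h1 - h2
  have h5 : D = A + B * (a.1 + c.1) := by
    apply mul_right_cancel₀ hac'
    linear_combination h1 - h3
  have hB : B = 0 := by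
    apply mul_right_cancel₀ hbc'
    rw [zero_mul]
    linear_combination h5 - h4
  have hD : D = A := by rw [h4, hB]; ring
  have hC : C = 0 := by
    rw [hB, hD] at h1
    linear_combination h1
  exact ⟨hB, hC, hD.symm⟩

include hF in
lemma piOm_of_scal (g : SLd F q) (h : IsScal g.1) : piOm hF g = 1 := by
  obtain ⟨h01, h10, h00⟩ := h
  ext β
  apply congrArg Subtype.val
  apply piOm_eq hF (κ := g.1.1.1 0 0)
  funext i
  have e0 : vE (e := 1) β.1 0 = 1 := vE_zero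
  have e1 : vE (e := 1) β.1 1 = β.1 := vE_one
  have e2 := vE_two β.1
  rw [act_apply, e0, e1, e2]
  simp only [Pi.smul_apply, smul_eq_mul]
  fin_cases i
  · show g.1.1.1 0 0 * 1 + g.1.1.1 0 1 * β.1 + g.1.1.1 0 2 * 0 = g.1.1.1 0 0 * vE (e := 1) β.1 0
    rw [h01, e0]; ring
  · show g.1.1.1 1 0 * 1 + g.1.1.1 1 1 * β.1 + g.1.1.1 1 2 * 0 = g.1.1.1 0 0 * vE (e := 1) β.1 1
    rw [h10, e1, h00]; ring
  · show g.1.1.1 2 0 * 1 + g.1.1.1 2 1 * β.1 + g.1.1.1 2 2 * 0 = g.1.1.1 0 0 * vE (e := 1) β.1 2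
    rw [e2, row_two hF g.2 (by decide), row_two hF g.2 (by decide)]; ring

include hF in
lemma piOm_eq_one_iff (hq : 2 ≤ q) (g : SLd F q) : piOm hF g = 1 ↔ IsScal g.1 := by
  classical
  refine ⟨fun h => ?_, piOm_of_scal hF g⟩
  letI : Fintype (Om F q) := Fintype.ofFinite _
  have hc : 2 < Fintype.card (Om F q) := by
    rw [← Nat.card_eq_fintype_card, card_Om hF]
    omega
  obtain ⟨a, b, c, hab, hac, hbc⟩ := Fintype.two_lt_card_iff.1 hc
  exact isScal_of_fix hF g hab hac hbc (by rw [h]; rfl) (by rw [h]; rfl) (by rw [h]; rfl)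

include hF in
lemma ker_piOm_eq (hq : 2 ≤ q) : (piOm hF).ker = (rhoP hF).ker := by
  ext g
  rw [MonoidHom.mem_ker, MonoidHom.mem_ker, piOm_eq_one_iff hF hq, rhoP_eq_one_iff]

end Hom

/-- Images of a subgroup under homomorphisms with the same kernel are isomorphic. -/
lemma map_equiv_of_ker_eq {G A B : Type*} [Group G] [Group A] [Group B] (φ : G →* A) (ψ : G →* B)
    (h : φ.ker = ψ.ker) (K0 : Subgroup G) : Nonempty (K0.map φ ≃* K0.map ψ) := by
  have hk : (φ.comp K0.subtype).ker = (ψ.comp K0.subtype).ker := by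
    ext x
    have h1 : (x : G) ∈ φ.ker ↔ (x : G) ∈ ψ.ker := by rw [h]
    simpa [MonoidHom.mem_ker] using h1
  have h1 : (φ.comp K0.subtype).range = K0.map φ := by
    rw [MonoidHom.range_comp, Subgroup.range_subtype]
  have h2 : (ψ.comp K0.subtype).range = K0.map ψ := by
    rw [MonoidHom.range_comp, Subgroup.range_subtype]
  exact ⟨(MulEquiv.subgroupCongr h1.symm).trans
    ((QuotientGroup.quotientKerEquivRange (φ.comp K0.subtype)).symm.trans
      ((QuotientGroup.quotientMulEquivOfEq hk).trans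
        ((QuotientGroup.quotientKerEquivRange (ψ.comp K0.subtype)).trans (MulEquiv.subgroupCongr h2))))⟩

section List

variable (hF : Fintype.card F = q ^ 2)
include hF

lemma fix_W {W : Subgroup (Equiv.Perm (Om F q))} (hW : W ≤ (piOm hF).range) :
    ∀ w ∈ W, w ≠ 1 → ∀ a b c : Om F q, a ≠ b → a ≠ c → b ≠ c → w a = a → w b = b → w c = c → False := by
  intro w hw hne a b c hab hac hbc ha hb hc
  obtain ⟨g, rfl⟩ := hW hw
  exact hne (piOm_of_scal hF g (isScal_of_fix hF g hab hac hbc ha hb hc))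

/-- Dickson's list for the image of a subgroup of the stabiliser of a line acting on the points. -/
theorem list_SLd (p : ℕ) [hp : Fact p.Prime] [CharP F p] (hq : 4 ≤ q) (K0 : Subgroup (SLd F q))
    (htr : ∀ a b : Om F q, ∃ g ∈ K0, piOm hF g a = b) :
    Nat.card (K0.map (piOm hF)) ≤ 2 * (q + 1) ∨ Nat.card (K0.map (piOm hF)) = 12 ∨
    Nat.card (K0.map (piOm hF)) = 24 ∨ Nat.card (K0.map (piOm hF)) = 60 ∨
    ((∀ u v : K0.map (piOm hF), ∃ n : ℕ, (u * v * u⁻¹ * v⁻¹) ^ (p ^ n) = 1) ∧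
      (∀ u v : K0.map (piOm hF), u ^ p = 1 → v ^ p = 1 → u * v = v * u)) ∨
    (∃ e : ℕ, 1 ≤ e ∧ (Nat.gcd 2 (p ^ e - 1) * Nat.card (K0.map (piOm hF)) = p ^ e * ((p ^ e) ^ 2 - 1) ∨
      Nat.card (K0.map (piOm hF)) = p ^ e * ((p ^ e) ^ 2 - 1))) := by
  obtain ⟨e⟩ := map_equiv_of_ker_eq (piOm hF) (rhoP hF) (ker_piOm_eq hF (by omega)) K0
  have h := list_perm (K0.map (piOm hF)) p (K0.map (rhoP hF)) e
    (by
      intro a b
      obtain ⟨g, hg, hb⟩ := htr a b
      exact ⟨piOm hF g, ⟨g, hg, rfl⟩, hb⟩)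
    (fix_W hF (by rintro _ ⟨g, _, rfl⟩; exact ⟨g, rfl⟩))
    (by rw [card_Om hF]; omega)
  rwa [card_Om hF] at h

end List

end Cfsg.Agent.Lib.U3Min
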