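import Mathlib
import Cfsg.Agent.Lib.U3MinG

/-!
# `SU₃(q)`: the subgroup `K ∩ SLd` and its action on the points of the line
-/

set_option autoImplicit false
set_option linter.unusedSectionVars false
set_option linter.unusedVariables false
set_option linter.style.haveILetI false

namespace Cfsg.Agent.Lib.U3Min

open Matrix Cfsg Cfsg.Agent.Lib.HermForm Cfsg.Agent.Lib.FFNorm Cfsg.Agent.Lib.UnitaryE
  Cfsg.Agent.Lib.UnitarySU Cfsg.Agent.Lib.SUMinDeg Cfsg.Agent.Lib.PSUIdx Cfsg.Agent.Lib.SL2Core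

variable {F : Type*} [Field F] [Fintype F] {q : ℕ}

section Tau

variable (hF : Fintype.card F = q ^ 2)
include hF

lemma wE_two (α β : F) : wE (e := 1) α β 2 = 0 := by
  show ww α β 0 1 2 = 0
  exact ww_other (by decide) (by decide)

lemma herm_dd_vE (β : F) : hermForm (1 + 2) F q (dd F) (vE (e := 1) β) = 0 := by
  have hq := two_le hF
  rw [herm_coords hF, dd_zero, dd_one, vE_two, zero_pow (by omega)]
  ring

lemma tau_mem_SLd {β : F} (hβ : hermForm (1 + 2) F q (vE (e := 1) β) (vE β) = 0) {s : F} (hs : s + s ^ q = 0) :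
    tau hF (vE (e := 1) β) s ∈ SLd F q := by
  refine ⟨1, one_ne_zero, ?_⟩
  rw [act_tau hF hβ hs, herm_dd_vE hF, mul_zero, zero_smul, add_zero, one_smul]

/-- The form on the points. -/
lemma herm_pts (a b : Om F q) :
    hermForm (1 + 2) F q (vE (e := 1) a.1) (vE b.1) = 1 + a.1 * b.1 ^ q := by
  have hq := two_le hF
  rw [herm_coords hF]
  have e0 : ∀ x : F, vE (e := 1) x 0 = 1 := fun x => vE_zero
  have e1 : ∀ x : F, vE (e := 1) x 1 = x := fun x => vE_one
  rw [e0, e0, e1, e1, vE_two, one_pow]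
  ring

lemma herm_pts_ne {a b : Om F q} (h : a ≠ b) :
    hermForm (1 + 2) F q (vE (e := 1) a.1) (vE b.1) ≠ 0 := by
  rw [herm_pts hF]
  intro h0
  apply h
  apply Subtype.ext
  have h1 := b.2
  linear_combination (a.1) * h1 - (b.1) * h0

/-- The transvection as an element of the line stabiliser. -/
noncomputable def tauP (β : Om F q) {s : F} (hs : s + s ^ q = 0) : SLd F q :=
  ⟨tau hF (vE (e := 1) β.1) s, tau_mem_SLd hF (pt_iso hF β) hs⟩

lemma act_tauP (β : Om F q) {s : F} (hs : s + s ^ q = 0) (x : Fin (1 + 2) → F) :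
    act (tauP hF β hs).1 x = x + (s * hermForm (1 + 2) F q x (vE β.1)) • vE β.1 :=
  act_tau hF (pt_iso hF β) hs x

lemma piOm_tauP_self (β : Om F q) {s : F} (hs : s + s ^ q = 0) : piOm hF (tauP hF β hs) β = β := by
  apply piOm_eq hF (κ := 1)
  rw [act_tauP, pt_iso hF, mul_zero, zero_smul, add_zero, one_smul]

lemma piOm_tauP_ne {β β' : Om F q} {s : F} (hs : s + s ^ q = 0) (hs0 : s ≠ 0) (hne : β' ≠ β) :
    piOm hF (tauP hF β hs) β' ≠ β' := by
  intro h
  obtain ⟨κ, hκ, hh⟩ := piOm_spec hF (tauP hF β hs) β'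
  rw [h, act_tauP] at hh
  have h0 := congrFun hh 0
  have h1 := congrFun hh 1
  have e0 : ∀ x : F, vE (e := 1) x 0 = 1 := fun x => vE_zero
  have e1 : ∀ x : F, vE (e := 1) x 1 = x := fun x => vE_one
  simp only [Pi.add_apply, Pi.smul_apply, smul_eq_mul, e0, e1] at h0 h1
  set H := s * hermForm (1 + 2) F q (vE (e := 1) β'.1) (vE β.1) with hH
  have h2 : H * (β.1 - β'.1) = 0 := by
    rw [← h0.trans (mul_one κ)] at h1
    linear_combination h1
  have h3 : β.1 - β'.1 ≠ 0 := sub_ne_zero.2 (fun h => hne (Subtype.ext h.symm))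
  have h4 := (mul_eq_zero.1 h2).resolve_right h3
  exact (mul_ne_zero hs0 (herm_pts_ne hF hne)) h4

lemma natCast_pow_q (n : ℕ) : ((n : F)) ^ q = (n : F) := by
  induction n with
  | zero => simp [zero_pow (show q ≠ 0 by have := two_le hF; omega)]
  | succ m ihm =>
    push_cast
    rw [add_pow_q hF, one_pow, ihm]

lemma exists_other (x : Om F q) : ∃ y : Om F q, y ≠ x := by
  have h : 1 < Nat.card (Om F q) := by
    rw [card_Om hF]
    have := two_le hF
    omega
  haveI := Finite.one_lt_card_iff_nontrivial.1 h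
  exact exists_ne x

lemma tauP_pow {β : Om F q} {s : F} (hs : s + s ^ q = 0) (p : ℕ) [CharP F p] :
    tauP hF β hs ^ p = 1 := by
  have key : ∀ n : ℕ, (tauP hF β hs).1 ^ n = tau hF (vE (e := 1) β.1) ((n : F) * s) := by
    intro n
    induction n with
    | zero =>
      rw [pow_zero, Nat.cast_zero, zero_mul]
      exact (tau_zero hF _ (pt_iso hF β)).symm
    | succ n ih =>
      have hn : ((n : F) * s) + ((n : F) * s) ^ q = 0 := by
        rw [mul_pow, natCast_pow_q hF]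
        linear_combination (n : F) * hs
      rw [pow_succ, ih, Nat.cast_succ, add_mul, one_mul]
      exact (tau_add hF (pt_iso hF β) hn hs).symm
  apply Subtype.ext
  show (tauP hF β hs).1 ^ p = 1
  rw [key, CharP.cast_eq_zero, zero_mul]
  exact tau_zero hF _ (pt_iso hF β)

end Tau

section Trans

variable (hF : Fintype.card F = q ^ 2) {α β : F} (hα : α ^ q * α = -1) (hβ : β + β ^ q = -1)
  {K : Subgroup (SU (1 + 2) F q)}

/-- The trace of `K` on the line stabiliser. -/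
abbrev K0 (K : Subgroup (SU (1 + 2) F q)) : Subgroup (SLd F q) := K.subgroupOf (SLd F q)

include hF hα hβ

lemma exists_tauP_mem (hT : IsTr α K) {s₀ : F} (hs : s₀ ∈ ZZ hF hα K) (hs0 : s₀ ≠ 0) (x : Om F q) :
    ∃ (s : F) (hs' : s + s ^ q = 0), s ≠ 0 ∧ tauP hF x hs' ∈ K0 K := by
  obtain ⟨k, hk, κ, hκ, h⟩ := exists_mem_move hF hα hβ hT (pt_ne hF x) (pt_iso hF x)
  obtain ⟨h1, h2⟩ := tau_transfer hF hα hβ hk hκ h hs
  have h3 : (κ * κ ^ q) ^ q = κ * κ ^ q := by
    rw [mul_pow, pow_pow_self hF]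
    ring
  refine ⟨κ * κ ^ q * s₀, ?_, mul_ne_zero (pq_ne hF hκ) hs0, h2⟩
  rw [mul_pow, h3]
  linear_combination (κ * κ ^ q) * h1

/-- If `K` contains a transvection, `K ∩ SLd` is transitive on the points. -/
theorem trans_of_ZZ (p : ℕ) [Fact p.Prime] [CharP F p] (hT : IsTr α K) {s₀ : F}
    (hs : s₀ ∈ ZZ hF hα K) (hs0 : s₀ ≠ 0) (a b : Om F q) :
    ∃ g ∈ K0 K, piOm hF g a = b := by
  let W : Subgroup (Equiv.Perm (Om F q)) := (K0 K).map (piOm hF)
  have h := trans_of_unique_fix (G := W) (Ω := Om F q) p (by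
    intro ω
    obtain ⟨s, hs', hs1, hm⟩ := exists_tauP_mem hF hα hβ hT hs hs0 ω
    refine ⟨⟨piOm hF (tauP hF ω hs'), ⟨_, hm, rfl⟩⟩, ?_, ?_⟩
    · apply Subtype.ext
      show piOm hF (tauP hF ω hs') ^ p = 1
      rw [← map_pow, tauP_pow hF hs' p, map_one]
    · intro ω'
      constructor
      · intro hfix
        by_contra hne
        exact piOm_tauP_ne hF hs' hs1 hne hfix
      · rintro rfl
        exact piOm_tauP_self hF ω' hs') a b
  obtain ⟨⟨_, g, hg, rfl⟩, hb⟩ := h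
  exact ⟨g, hg, hb⟩

end Trans

section PermCount

/-- The order of a transitive permutation group. -/
lemma card_of_trans {Ω : Type*} [Finite Ω] (W R : Subgroup (Equiv.Perm Ω)) (a : Ω)
    (htr : ∀ b, ∃ w ∈ W, w a = b) (hR : ∀ w, w ∈ R ↔ w ∈ W ∧ w a = a) :
    Nat.card W = Nat.card Ω * Nat.card R := by
  classical
  let S : Subgroup W := MulAction.stabilizer W a
  have h1 : S.index = Nat.card Ω := by
    rw [MulAction.index_stabilizer]
    have h2 : MulAction.orbit W a = Set.univ := by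
      ext b
      simp only [Set.mem_univ, iff_true]
      obtain ⟨w, hw, hb⟩ := htr b
      exact ⟨⟨w, hw⟩, hb⟩
    rw [h2, Set.ncard_univ]
  have h2 : Nat.card S = Nat.card R := by
    apply Nat.card_congr
    refine ⟨fun x => ⟨x.1.1, (hR _).2 ⟨x.1.2, x.2⟩⟩, fun x => ⟨⟨x.1, ((hR _).1 x.2).1⟩, ((hR _).1 x.2).2⟩,
      fun x => rfl, fun x => rfl⟩
  rw [← Subgroup.card_mul_index S, h1, h2, mul_comm]

/-- Subgroups of a cyclic group of exponent dividing `n` have order dividing `n`. -/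
lemma card_dvd_of_pow_eq_one {C : Type*} [Group C] [IsCyclic C] [Finite C] (H : Subgroup C) (n : ℕ)
    (h : ∀ x ∈ H, x ^ n = 1) : Nat.card H ∣ n := by
  obtain ⟨g, hg⟩ := IsCyclic.exists_generator (α := H)
  have h1 : orderOf g = Nat.card H := orderOf_eq_card_of_forall_mem_zpowers hg
  rw [← h1]
  apply orderOf_dvd_of_pow_eq_one
  apply Subtype.ext
  simpa using h g.1 g.2

end PermCount

section Count

variable (hF : Fintype.card F = q ^ 2) {α β : F} (hα : α ^ q * α = -1) (hβ : β + β ^ q = -1)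
  {K : Subgroup (SU (1 + 2) F q)}

/-- `K ∩ SLd` as a subgroup of the whole group. -/
abbrev Kp (K : Subgroup (SU (1 + 2) F q)) : Subgroup (SU (1 + 2) F q) := K ⊓ SLd F q

/-- The action of `K ∩ SLd ∩ B` on the points. -/
noncomputable def fBo (hF : Fintype.card F = q ^ 2) (α : F) (K : Subgroup (SU (1 + 2) F q)) :
    (Kp K).subgroupOf (Bo (q := q) α) →* Equiv.Perm (Om F q) :=
  (piOm hF).comp (MonoidHom.codRestrict
    ((Bo (q := q) α).subtype.comp ((Kp K).subgroupOf (Bo (q := q) α)).subtype) (SLd F q)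
    (fun g => (Subgroup.mem_subgroupOf.1 g.2).2))

lemma fBo_apply (g : (Kp K).subgroupOf (Bo (q := q) α)) :
    fBo hF α K g = piOm hF ⟨g.1.1, (Subgroup.mem_subgroupOf.1 g.2).2⟩ := rfl

include hF hα

/-- An element of `Q` fixing the third basis vector has no `Y`-part. -/
lemma u_zero_of_SLd {u : Fin 1 → F} {s : F} (h : Gd q u s) (hm : EE hF α u s ∈ SLd F q) : u = 0 := by
  have hq := two_le hF
  obtain ⟨c, hc, h1⟩ := hm
  rw [act_EE hF hα h] at h1
  have e0 : vE (e := 1) α 0 = 1 := vE_zero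
  have hd0 : hermForm (1 + 2) F q (dd F) (vE (e := 1) α) = 0 := herm_dd_vE hF α
  rw [hd0, zero_smul, add_zero] at h1
  have h2 := congrFun h1 0
  simp only [Pi.sub_apply, Pi.smul_apply, smul_eq_mul, e0, mul_one, dd_zero, mul_zero, zero_sub] at h2
  have h3 : hermForm (1 + 2) F q (dd F) (inc u) = u 0 ^ q := by
    rw [herm_coords hF, dd_zero, dd_one, dd_two]
    have : inc u 2 = u 0 := rfl
    rw [this]
    ring
  rw [h3] at h2
  apply ext_one
  have h4 : u 0 ^ q = 0 := by simpa using h2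
  simpa using (pow_eq_zero_iff (by omega)).1 h4

lemma YY_Kp {u : Fin 1 → F} (hu : u ∈ YY hF hα (Kp K)) : u = 0 := by
  obtain ⟨s, h, hm⟩ := hu
  exact u_zero_of_SLd hF hα h hm.2

lemma card_YY_Kp : Nat.card (YY hF hα (Kp K)) = 1 := by
  rw [Nat.card_eq_one_iff_unique]
  refine ⟨⟨?_⟩, ⟨⟨0, (YY hF hα (Kp K)).zero_mem⟩⟩⟩
  rintro ⟨a, ha⟩ ⟨b, hb⟩
  apply Subtype.ext
  show a = b
  rw [YY_Kp hF hα ha, YY_Kp hF hα hb]

lemma ZZ_Kp : ZZ hF hα (Kp K) = ZZ hF hα K := by
  ext s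
  constructor
  · rintro ⟨h1, h2⟩
    exact ⟨h1, h2.1⟩
  · rintro ⟨h1, h2⟩
    refine ⟨h1, h2, ?_⟩
    rw [EE_zero_eq_tau hF hα]
    exact tau_mem_SLd hF (vE_iso hF hα) h1

include hβ

lemma card_Kp_Bo : Nat.card ((Kp K).subgroupOf (Bo (q := q) α)) =
    Nat.card (TT1 α (Kp K)) * Nat.card (ZZ hF hα K) := by
  rw [card_Bo_inf' hF hα hβ, card_YY_Kp hF hα, ZZ_Kp hF hα, one_mul]

/-- Elements of the kernel act as scalars on the line. -/
lemma ker_scal {g : (Kp K).subgroupOf (Bo (q := q) α)} (hg : g ∈ (fBo hF α K).ker) :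
    IsScal g.1.1 ∧ (cc α g.1.1) ^ (q + 1) = 1 := by
  have hq := two_le hF
  have h1 : IsScal g.1.1 := by
    have h2 : piOm hF ⟨g.1.1, (Subgroup.mem_subgroupOf.1 g.2).2⟩ = 1 := hg
    exact (piOm_eq_one_iff hF hq _).1 h2
  refine ⟨h1, ?_⟩
  obtain ⟨h01, h10, h00⟩ := h1
  have hS : g.1.1 ∈ SLd F q := (Subgroup.mem_subgroupOf.1 g.2).2
  have hsc : ∀ x : Fin (1 + 2) → F, x 2 = 0 → act g.1.1 x = g.1.1.1.1 0 0 • x := by
    intro x hx
    funext i
    rw [act_apply, hx, mul_zero, add_zero]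
    simp only [Pi.smul_apply, smul_eq_mul]
    fin_cases i
    · show g.1.1.1.1 0 0 * x 0 + g.1.1.1.1 0 1 * x 1 = g.1.1.1.1 0 0 * x 0
      rw [h01]; ring
    · show g.1.1.1.1 1 0 * x 0 + g.1.1.1.1 1 1 * x 1 = g.1.1.1.1 0 0 * x 1
      rw [h10, h00]; ring
    · show g.1.1.1.1 2 0 * x 0 + g.1.1.1.1 2 1 * x 1 = g.1.1.1.1 0 0 * x 2
      rw [row_two hF hS (by decide), row_two hF hS (by decide), hx]; ring
  have h2 := hsc (vE α) (vE_two α)
  have h3 := hsc (wE α β) (wE_two hF α β)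
  have h4 : cc α g.1.1 = g.1.1.1.1 0 0 := cc_eq h2
  rw [h4, pow_succ]
  have h5 := herm_act g.1.1 (vE α) (wE α β)
  rw [h2, h3, hermForm_smul_left, hermForm_smul_right, vE_wE hF hα] at h5
  linear_combination h5

/-- The order of the kernel of the action divides the exponent of the multipliers. -/
lemma card_ker_dvd_aux (n : ℕ) (hn : ∀ g : (Kp K).subgroupOf (Bo (q := q) α), g ∈ (fBo hF α K).ker →
    (cc α g.1.1) ^ n = 1) : Nat.card (fBo hF α K).ker ∣ n := by
  let θ : (fBo hF α K).ker →* Fˣ :=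
    (ccH α).comp (((Kp K).subgroupOf (Bo (q := q) α)).subtype.comp (fBo hF α K).ker.subtype)
  have hθ : Function.Injective θ := by
    rw [injective_iff_map_eq_one]
    rintro ⟨g, hg⟩ h1
    have h2 : cc α g.1.1 = 1 := congrArg (fun t : Fˣ => (t : F)) h1
    have h3 : g.1.1 ∈ QQ hF hα 1 := mem_QQ_of_cc hF hα g.1.2 h2
    obtain ⟨u, s, hG, he⟩ := h3
    have hS : g.1.1 ∈ SLd F q := (Subgroup.mem_subgroupOf.1 g.2).2
    have hu : u = 0 := u_zero_of_SLd hF hα hG (he ▸ hS)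
    subst hu
    have hs0 : s + s ^ q = 0 := by
      have := hG
      unfold Gd at this
      rwa [hermForm_zero_left, add_zero] at this
    have hker := (ker_scal hF hα hβ hg).1
    obtain ⟨h01, h10, h00⟩ := hker
    by_contra hne
    have hs : s ≠ 0 := by
      rintro rfl
      apply hne
      apply Subtype.ext
      apply Subtype.ext
      apply Subtype.ext
      show g.1.1 = 1
      rw [← he, EE_zero hF hα]
    have hg1 : piOm hF ⟨g.1.1, hS⟩ = 1 := hg
    have hg2 : (⟨g.1.1, hS⟩ : SLd F q) = tauP hF ⟨α, hα⟩ hs0 := by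
      apply Subtype.ext
      show g.1.1 = tau hF (vE (e := 1) α) s
      rw [← he, EE_zero_eq_tau hF hα]
    rw [hg2] at hg1
    obtain ⟨y, hy⟩ := exists_other hF (⟨α, hα⟩ : Om F q)
    apply piOm_tauP_ne hF hs0 hs hy
    rw [hg1]
    rfl
  have h1 : Nat.card (fBo hF α K).ker = Nat.card θ.range :=
    Nat.card_congr (MonoidHom.ofInjective hθ).toEquiv
  rw [h1]
  apply card_dvd_of_pow_eq_one
  rintro _ ⟨⟨g, hg⟩, rfl⟩
  apply Units.ext
  rw [Units.val_pow_eq_pow_val, Units.val_one]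
  exact hn g hg

lemma card_ker_dvd_succ : Nat.card (fBo hF α K).ker ∣ q + 1 :=
  card_ker_dvd_aux hF hα hβ _ (fun g hg => (ker_scal hF hα hβ hg).2)

lemma card_ker_dvd_T (n : ℕ) (hn : ∀ x ∈ TT1 α (Kp K), x ^ n = 1) : Nat.card (fBo hF α K).ker ∣ n := by
  apply card_ker_dvd_aux hF hα hβ
  intro g hg
  have h1 : ccH α g.1 ∈ TT1 α (Kp K) := ⟨g, g.2, rfl⟩
  have h2 := hn _ h1
  have h3 := congrArg (fun t : Fˣ => (t : F)) h2
  simpa [ccH_val] using h3

/-- The order of the image. -/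
lemma card_range_mul : Nat.card (fBo hF α K).range * Nat.card (fBo hF α K).ker =
    Nat.card (TT1 α (Kp K)) * Nat.card (ZZ hF hα K) := by
  rw [← card_Kp_Bo hF hα hβ, mul_comm]
  have h1 := Subgroup.card_mul_index (fBo hF α K).ker
  rw [Subgroup.index_ker] at h1
  exact h1

/-- The order of the permutation group. -/
lemma card_W_eq (htr : ∀ b : Om F q, ∃ g ∈ K0 K, piOm hF g ⟨α, hα⟩ = b) :
    Nat.card ((K0 K).map (piOm hF)) = (q + 1) * Nat.card (fBo hF α K).range := by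
  rw [← card_Om hF]
  apply card_of_trans _ _ ⟨α, hα⟩
  · intro b
    obtain ⟨g, hg, hb⟩ := htr b
    exact ⟨_, ⟨g, hg, rfl⟩, hb⟩
  · intro w
    constructor
    · rintro ⟨g, rfl⟩
      have h1 := Subgroup.mem_subgroupOf.1 g.2
      refine ⟨⟨⟨g.1.1, h1.2⟩, h1.1, rfl⟩, ?_⟩
      obtain ⟨c, hc, h2⟩ := g.1.2
      exact piOm_eq hF (β' := ⟨α, hα⟩) (g := ⟨g.1.1, h1.2⟩) h2
    · rintro ⟨⟨g, hg, rfl⟩, hb⟩
      obtain ⟨κ, hκ, h⟩ := piOm_spec hF g ⟨α, hα⟩
      rw [hb] at h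
      refine ⟨⟨⟨g.1, κ, hκ, h⟩, Subgroup.mem_subgroupOf.2 ⟨hg, g.2⟩⟩, rfl⟩

end Count

end Cfsg.Agent.Lib.U3Min
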