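import Mathlib

/-!
# Numerical lemmas for the minimal index of `PSU₃(q)`
-/

set_option autoImplicit false
set_option linter.unusedSectionVars false
set_option linter.unusedVariables false

namespace Cfsg.Agent.Lib.U3Min

/-- `p^f + 1 ∣ p^(2e) - 1` forces `e ≥ f`. -/
lemma le_of_succ_dvd {p e f : ℕ} (hp : 2 ≤ p) (he : 1 ≤ e) (h : p ^ f + 1 ∣ (p ^ e) ^ 2 - 1) : f ≤ e := by
  by_contra hlt
  push Not at hlt
  have h2e : (p ^ e) ^ 2 = p ^ (2 * e) := by rw [← pow_mul, mul_comm]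
  rw [h2e] at h
  have hpos : 1 < p ^ (2 * e) := Nat.one_lt_pow (by omega) (by omega)
  rcases le_or_gt (2 * e) f with h1 | h1
  · have h3 : p ^ (2 * e) ≤ p ^ f := Nat.pow_le_pow_right (by omega) h1
    have h4 := Nat.le_of_dvd (by omega) h
    omega
  · -- `f < 2e < 2f`
    obtain ⟨g, hg⟩ : ∃ g, 2 * e = g + f := ⟨2 * e - f, by omega⟩
    have hg1 : g < f := by omega
    have h5 : p ^ (2 * e) = p ^ g * p ^ f := by rw [hg, pow_add]
    have hgpos : 1 ≤ p ^ g := Nat.one_le_pow _ _ (by omega)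
    have hfpos : 1 ≤ p ^ f := Nat.one_le_pow _ _ (by omega)
    have h6 : p ^ f + 1 ∣ p ^ g + 1 := by
      have h7 : p ^ (2 * e) - 1 + (p ^ g + 1) = p ^ g * (p ^ f + 1) := by
        rw [h5]
        have : 1 ≤ p ^ g * p ^ f := Nat.mul_pos hgpos hfpos
        rw [mul_add]
        omega
      have h8 : p ^ f + 1 ∣ p ^ (2 * e) - 1 + (p ^ g + 1) := by
        rw [h7]
        exact Dvd.intro_left _ rfl
      exact (Nat.dvd_add_right h).1 h8
    have h9 := Nat.le_of_dvd (by omega) h6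
    have h10 : p ^ g < p ^ f := Nat.pow_lt_pow_right (by omega) hg1
    omega

/-- The alternating case of the list. -/
lemma num_alt {q a N : ℕ} (hq : 4 ≤ q) (ha : 1 < a) (h2a : 2 * a ≤ q) (hdvd : a ∣ q)
    (hN : N = 12 ∨ N = 24 ∨ N = 60) (h : (q + 1) * a ∣ N) : a = 2 ∨ (q = 9 ∧ a = 3) := by
  have hpos : 0 < N := by rcases hN with rfl | rfl | rfl <;> norm_num
  have h1 := Nat.le_of_dvd hpos h
  have h2 : N ≤ 60 := by rcases hN with rfl | rfl | rfl <;> norm_num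
  have h3 : (q + 1) * 2 ≤ 60 := by nlinarith
  have h4 : q ≤ 29 := by omega
  have h5 : a ≤ 14 := by omega
  interval_cases q <;> interval_cases a <;> first | omega | (rcases hN with rfl | rfl | rfl <;> revert h hdvd <;> decide) 

/-- The `PSL₂` case of the list. -/
lemma num_psl {p f e q a r i t W : ℕ} (hp : p.Prime) (hf : 1 ≤ f) (he : 1 ≤ e) (hq : q = p ^ f)
    (hW : W = (q + 1) * r) (hr : r * i = t * a) (ht : t ∣ q ^ 2 - 1)
    (h : Nat.gcd 2 (p ^ e - 1) * W = p ^ e * ((p ^ e) ^ 2 - 1) ∨ W = p ^ e * ((p ^ e) ^ 2 - 1)) :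
    q ∣ a := by
  have hp2 := hp.two_le
  set P := p ^ e with hP
  have hP1 : 1 ≤ P := Nat.one_le_pow _ _ (by omega)
  have hq1 : Nat.Coprime q (q + 1) := by simp
  have hpq1 : Nat.Coprime p (q + 1) := by
    rw [hq]
    have hd : p ∣ p ^ f := dvd_pow_self p (by omega)
    rw [Nat.Prime.coprime_iff_not_dvd hp]
    intro h1
    have h2 : p ∣ 1 := (Nat.dvd_add_right hd).1 h1
    exact hp.one_lt.ne' (Nat.dvd_one.1 h2)
  have hPq1 : Nat.Coprime P (q + 1) := Nat.Coprime.pow_left _ hpq1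
  have h1 : P ∣ W ∧ W ∣ Nat.gcd 2 (P - 1) * W ∧ (Nat.gcd 2 (P - 1) * W = P * (P ^ 2 - 1) ∨ W = P * (P ^ 2 - 1)) := by
    refine ⟨?_, Dvd.intro_left _ rfl, h⟩
    rcases h with h | h
    · have h2 : P ∣ Nat.gcd 2 (P - 1) * W := by
        rw [h]
        exact Dvd.intro _ rfl
      have h3 : Nat.Coprime P (Nat.gcd 2 (P - 1)) := by
        have h4 : Nat.Coprime P (P - 1) := by
          rw [Nat.coprime_self_sub_right hP1]
          simp
        exact Nat.Coprime.coprime_dvd_right (Nat.gcd_dvd_right _ _) h4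
      exact h3.dvd_of_dvd_mul_left h2
    · rw [h]
      exact Dvd.intro _ rfl
  obtain ⟨hPW, -, h2⟩ := h1
  have h3 : (q + 1) ∣ P * (P ^ 2 - 1) := by
    rcases h2 with h2 | h2
    · rw [← h2, hW]
      exact Dvd.dvd.mul_left (Dvd.intro _ rfl) _
    · rw [← h2, hW]
      exact Dvd.intro _ rfl
  have h4 : (q + 1) ∣ P ^ 2 - 1 := hPq1.symm.dvd_of_dvd_mul_left h3
  have h5 : f ≤ e := by
    rw [hq] at h4
    exact le_of_succ_dvd hp.two_le he h4
  have h6 : q ∣ P := by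
    rw [hq, hP]
    exact pow_dvd_pow _ h5
  have h7 : q ∣ r := by
    have h8 : q ∣ (q + 1) * r := by
      rw [← hW]
      exact h6.trans hPW
    exact hq1.dvd_of_dvd_mul_left h8
  have h9 : q ∣ t * a := by
    rw [← hr]
    exact h7.trans (Dvd.intro _ rfl)
  have h10 : Nat.Coprime q t := by
    have h11 : Nat.Coprime q (q ^ 2 - 1) := by
      have hq2 : 1 ≤ q ^ 2 := Nat.one_le_pow _ _ (by rw [hq]; exact Nat.pos_of_ne_zero (by positivity))
      have h12 : Nat.Coprime (q ^ 2) (q ^ 2 - 1) := by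
        rw [Nat.coprime_self_sub_right hq2]
        simp
      exact Nat.Coprime.coprime_dvd_left (Dvd.intro_left _ (pow_two q).symm) h12
    exact Nat.Coprime.coprime_dvd_right ht h11
  exact h10.dvd_of_dvd_mul_left h9

/-- `K` has many elements in `B`. -/
lemma num_bound {m X q : ℕ} (hq : 2 ≤ q) (hm : m < q ^ 3 + 1) (h : m * X = q ^ 3 * (q ^ 2 - 1)) :
    q ^ 2 - 1 ≤ X := by
  by_contra hlt
  push Not at hlt
  have h1 : 0 < q ^ 3 := by positivity
  have h2 : m * X ≤ q ^ 3 * X := Nat.mul_le_mul_right _ (by omega)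
  have h3 : q ^ 3 * X < q ^ 3 * (q ^ 2 - 1) := Nat.mul_lt_mul_of_pos_left hlt h1
  omega

/-- The case `a = 2`. -/
lemma num_two {q t y f : ℕ} (hq : q = 2 ^ f) (hq4 : 4 ≤ q) (ht : t ∣ q + 1) (hy : y ≤ 4)
    (h : q ^ 2 - 1 ≤ t * (y * 2)) (h5 : (q = 4 → 5 ∣ t → y ≡ 1 [MOD 5])) : q = 8 ∧ t = 9 ∧ y = 4 := by
  have h1 : t ≤ q + 1 := Nat.le_of_dvd (by omega) ht
  have h2 : q ^ 2 - 1 ≤ (q + 1) * (4 * 2) := h.trans (Nat.mul_le_mul h1 (by omega))
  have h3 : q ≤ 9 := by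
    by_contra hc
    push Not at hc
    have h4 : (q + 1) * 9 ≤ q ^ 2 - 1 := by
      have h6 : q ^ 2 = (q + 1) * (q - 1) + 1 := by
        obtain ⟨w, rfl⟩ : ∃ w, q = w + 1 := ⟨q - 1, by omega⟩
        simp only [Nat.add_sub_cancel]
        ring
      have h7 : (q + 1) * 9 ≤ (q + 1) * (q - 1) := Nat.mul_le_mul_left _ (by omega)
      omega
    omega
  have hf : f ≤ 3 := by
    by_contra hc
    push Not at hc
    have : 2 ^ 4 ≤ 2 ^ f := Nat.pow_le_pow_right (by norm_num) hc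
    omega
  interval_cases f
  · omega
  · omega
  · -- q = 4
    subst hq
    have hd : t = 1 ∨ t = 5 := by
      have ht5 : t ∈ Nat.divisors 5 := by simp [Nat.mem_divisors]; exact ht
      have key : ∀ t ∈ Nat.divisors 5, t = 1 ∨ t = 5 := by decide
      exact key t ht5
    exfalso
    rcases hd with rfl | rfl
    · omega
    · have := h5 rfl (dvd_refl _)
      unfold Nat.ModEq at this
      have hy2 : y ≠ 1 := by
        rintro rfl
        omega
      interval_cases y <;> omega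
  · -- q = 8
    subst hq
    have hd : t = 1 ∨ t = 3 ∨ t = 9 := by
      have ht9 : t ∈ Nat.divisors 9 := by simp [Nat.mem_divisors]; exact ht
      have key : ∀ t ∈ Nat.divisors 9, t = 1 ∨ t = 3 ∨ t = 9 := by decide
      exact key t ht9
    rcases hd with rfl | rfl | rfl
    · omega
    · omega
    · refine ⟨rfl, rfl, ?_⟩
      omega

/-- The case `q = 9`, `a = 3`. -/
lemma num_three {t y : ℕ} (ht : t ∣ 20) (hy : y ∣ 81) (hy9 : y ≤ 9)
    (h : 80 ≤ t * (y * 3)) (h5 : 5 ∣ t → y ≡ 1 [MOD 5]) : t = 4 ∧ y = 9 := by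
  have ht20 : t ∈ Nat.divisors 20 := by simp [Nat.mem_divisors]; exact ht
  have hy81 : y ∈ Nat.divisors 81 := by simp [Nat.mem_divisors]; exact hy
  revert ht20 hy81 ht hy hy9 h h5
  have key : ∀ t ∈ Nat.divisors 20, ∀ y ∈ Nat.divisors 81, y ≤ 9 → 80 ≤ t * (y * 3) → (5 ∣ t → y % 5 = 1 % 5) →
      t = 4 ∧ y = 9 := by decide +kernel
  intro ht hy hy9 h h5 h1 h2
  exact key t h1 y h2 hy9 h h5

lemma sq_sub_one_eq {q : ℕ} (hq : 1 ≤ q) : q ^ 2 - 1 = (q + 1) * (q - 1) := by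
  obtain ⟨w, rfl⟩ : ∃ w, q = w + 1 := ⟨q - 1, by omega⟩
  simp only [Nat.add_sub_cancel]
  have : (w + 1) ^ 2 = (w + 1 + 1) * w + 1 := by ring
  omega

/-- The numerical consequence of a non-trivial proportional `Y`. -/
lemma num_y_big {q y t : ℕ} (hq : 3 ≤ q) (hodd : Odd q) (hy : y ∣ q) (hy1 : y ≠ 1) (ht1 : t ∣ 3 * (q - 1))
    (ht2 : t ∣ q ^ 2 - 1) (hb : q ^ 2 - 1 ≤ t * y) : y = q ∧ 3 ∣ q + 1 ∧ q ≤ t ∧ 3 * (q - 1) ≤ 2 * t := by
  have hsq := sq_sub_one_eq (q := q) (by omega)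
  have hq1 : q ^ 2 - 1 + 1 = q * q := by
    have : q ^ 2 = q * q := pow_two q
    have : 1 ≤ q * q := Nat.mul_pos (by omega) (by omega)
    omega
  have htle : t ≤ 3 * (q - 1) := Nat.le_of_dvd (by omega) ht1
  have hyq : y = q := by
    by_contra hne
    obtain ⟨k, hk⟩ := hy
    have hk1 : k ≠ 1 := by
      rintro rfl
      omega
    have hk0 : k ≠ 0 := by
      rintro rfl
      omega
    have hk2 : k ≠ 2 := by
      rintro rfl
      rw [hk] at hodd
      exact (Nat.not_even_iff_odd.2 hodd) (by simp [Nat.even_mul])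
    have hk3 : 3 ≤ k := by omega
    have h1 : t * y * 3 ≤ 3 * (q - 1) * y * k := by
      calc t * y * 3 ≤ 3 * (q - 1) * y * 3 := by
            apply Nat.mul_le_mul_right
            exact Nat.mul_le_mul_right _ htle
        _ ≤ 3 * (q - 1) * y * k := Nat.mul_le_mul_left _ hk3
    have h2 : 3 * (q - 1) * y * k = 3 * ((q - 1) * q) := by
      rw [hk]
      ring
    have h3 : (q - 1) * q + q = q * q := by
      obtain ⟨w, rfl⟩ : ∃ w, q = w + 1 := ⟨q - 1, by omega⟩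
      simp only [Nat.add_sub_cancel]
      ring
    omega
  subst hyq
  have hlt : y - 1 < t := by
    by_contra hc
    push Not at hc
    have h1 : t * y ≤ (y - 1) * y := Nat.mul_le_mul_right _ hc
    have h3 : (y - 1) * y + y = y * y := by
      obtain ⟨w, rfl⟩ : ∃ w, y = w + 1 := ⟨y - 1, by omega⟩
      simp only [Nat.add_sub_cancel]
      ring
    omega
  have hqt : y ≤ t := by omega
  obtain ⟨s, hs⟩ := ht1
  have hs2 : s ≤ 2 := by
    by_contra hc
    push Not at hc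
    have : t * 3 ≤ t * s := Nat.mul_le_mul_left _ hc
    omega
  have hs0 : s ≠ 0 := by
    rintro rfl
    omega
  have h3t : 3 * (y - 1) ≤ 2 * t := by
    rw [hs, mul_comm 2 t]
    exact Nat.mul_le_mul_left _ hs2
  refine ⟨rfl, ?_, hqt, h3t⟩
  by_contra h3
  have hc3 : Nat.Coprime 3 (y + 1) := (Nat.Prime.coprime_iff_not_dvd Nat.prime_three).2 h3
  have hd : t ∣ Nat.gcd (3 * (y - 1)) ((y + 1) * (y - 1)) := Nat.dvd_gcd ⟨s, hs⟩ (by rw [← hsq]; exact ht2)
  rw [Nat.gcd_mul_right, hc3, one_mul] at hd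
  have := Nat.le_of_dvd (by omega) hd
  omega

/-- The order of the kernel. -/
lemma num_ker_six {q i : ℕ} (hq : 1 ≤ q) (h1 : i ∣ q + 1) (h2 : i ∣ 3 * (q - 1)) : i ∣ 6 := by
  have h3 : i ∣ 3 * (q + 1) := Dvd.dvd.mul_left h1 _
  have h4 := Nat.dvd_sub h3 h2
  have h5 : 3 * (q + 1) - 3 * (q - 1) = 6 := by omega
  rwa [h5] at h4

lemma num_W_big {q t r i W : ℕ} (hq : 1 ≤ q) (hW : W = (q + 1) * r) (hr : r * i = t) (hi : i ∣ 6)
    (ht : 3 * (q - 1) ≤ 2 * t) : q ^ 2 - 1 ≤ 4 * W := by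
  have hi6 : i ≤ 6 := Nat.le_of_dvd (by norm_num) hi
  have h1 : t ≤ r * 6 := by
    rw [← hr]
    exact Nat.mul_le_mul_left _ hi6
  rw [sq_sub_one_eq hq, hW]
  have h2 : q - 1 ≤ 4 * r := by omega
  calc (q + 1) * (q - 1) ≤ (q + 1) * (4 * r) := Nat.mul_le_mul_left _ h2
    _ = 4 * ((q + 1) * r) := by ring

lemma num_W_small {q t r i W : ℕ} (hq : 1 ≤ q) (hW : W = (q + 1) * r) (hr : r * i = t) (hi : i ∣ q + 1)
    (ht : t = q ^ 2 - 1) : q ^ 2 - 1 ≤ W := by
  have hi1 : i ≤ q + 1 := Nat.le_of_dvd (by omega) hi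
  rw [sq_sub_one_eq hq] at ht
  have h1 : (q + 1) * (q - 1) ≤ (q + 1) * r := by
    rw [← ht, ← hr, mul_comm (q + 1) r]
    exact Nat.mul_le_mul_left _ hi1
  rw [sq_sub_one_eq hq, hW]
  exact h1

lemma num_big_le {q W : ℕ} (hq : 4 ≤ q) (hodd : Odd q) (h5 : q ≠ 5) (h3 : 3 ∣ q + 1) (hW : q ^ 2 - 1 ≤ 4 * W)
    (h : W ≤ 2 * (q + 1)) : False := by
  rw [sq_sub_one_eq (by omega)] at hW
  have h1 : (q + 1) * (q - 1) ≤ (q + 1) * 8 := by
    calc (q + 1) * (q - 1) ≤ 4 * W := hW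
      _ ≤ 4 * (2 * (q + 1)) := Nat.mul_le_mul_left _ h
      _ = (q + 1) * 8 := by ring
  have h2 : q - 1 ≤ 8 := Nat.le_of_mul_le_mul_left h1 (by omega)
  have h4 : q ≤ 9 := by omega
  interval_cases q <;> first | omega | (revert hodd; decide)

lemma num_big_alt {q W : ℕ} (hq : 4 ≤ q) (hodd : Odd q) (h5 : q ≠ 5) (h3 : 3 ∣ q + 1) (hW : q ^ 2 - 1 ≤ 4 * W)
    (h : W = 12 ∨ W = 24 ∨ W = 60) : q = 11 := by
  have h1 : W ≤ 60 := by omega
  have h2 : q ^ 2 - 1 ≤ 240 := by omega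
  have h4 : q ≤ 15 := by
    by_contra hc
    push Not at hc
    have : 16 * 16 ≤ q * q := Nat.mul_le_mul hc hc
    have : q ^ 2 = q * q := pow_two q
    omega
  interval_cases q <;> first | omega | (revert hodd; decide)

lemma num_small_le {q W : ℕ} (hq : 4 ≤ q) (hW : q ^ 2 - 1 ≤ W) (h : W ≤ 2 * (q + 1)) : False := by
  rw [sq_sub_one_eq (by omega)] at hW
  have h1 : (q + 1) * (q - 1) ≤ (q + 1) * 2 := by
    calc (q + 1) * (q - 1) ≤ W := hW
      _ ≤ 2 * (q + 1) := h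
      _ = (q + 1) * 2 := by ring
  have h2 : q - 1 ≤ 2 := Nat.le_of_mul_le_mul_left h1 (by omega)
  omega

lemma num_small_alt {q W : ℕ} (hq : 4 ≤ q) (hodd : Odd q) (h5 : q ≠ 5) (hW : q ^ 2 - 1 ≤ W) (hd : (q + 1) ∣ W)
    (h : W = 12 ∨ W = 24 ∨ W = 60) : False := by
  have h1 : W ≤ 60 := by omega
  have h4 : q ≤ 7 := by
    by_contra hc
    push Not at hc
    have : 8 * 8 ≤ q * q := Nat.mul_le_mul hc hc
    have : q ^ 2 = q * q := pow_two q
    omega
  interval_cases q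
  · revert hodd; decide
  · exact h5 rfl
  · revert hodd; decide
  · rcases h with rfl | rfl | rfl <;> omega

lemma num_eleven {t : ℕ} (ht1 : t ∣ 30) (h2 : 2 ∣ t) (h3 : 11 ≤ t) : t = 30 := by
  have ht : t ∈ Nat.divisors 30 := by simp [Nat.mem_divisors]; exact ht1
  have key : ∀ t ∈ Nat.divisors 30, 2 ∣ t → 11 ≤ t → t = 30 := by decide +kernel
  exact key t ht h2 h3

end Cfsg.Agent.Lib.U3Min
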