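import Mathlib
import Cfsg.Agent.Lib.U3MinH
import Cfsg.Agent.Lib.U3MinN

/-!
# `SU₃(q)`: subgroups of small index containing a transvection
-/

set_option autoImplicit false
set_option linter.unusedSectionVars false
set_option linter.unusedVariables false
set_option linter.style.haveILetI false

namespace Cfsg.Agent.Lib.U3Min

open Matrix Cfsg Cfsg.Agent.Lib.HermForm Cfsg.Agent.Lib.FFNorm Cfsg.Agent.Lib.UnitaryE
  Cfsg.Agent.Lib.UnitarySU Cfsg.Agent.Lib.SUMinDeg Cfsg.Agent.Lib.PSUIdx Cfsg.Agent.Lib.SL2Core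

variable {F : Type*} [Field F] [Fintype F] {q : ℕ}

lemma finset_card_le (A : AddSubgroup F) (S : Finset F) (h : ∀ x ∈ S, x ∈ A) : S.card ≤ Nat.card A := by
  classical
  have h1 : Nat.card (S : Set F) = S.card := by
    rw [Nat.card_eq_fintype_card]
    simp
  rw [← h1]
  exact Nat.card_le_card_of_injective (fun x : (S : Set F) => (⟨x.1, h x.1 x.2⟩ : A))
    (fun x y hxy => Subtype.ext (congrArg (fun z : A => z.1) hxy))

lemma mem_of_card_two (A : AddSubgroup F) (h2 : Nat.card A = 2) {s₀ x : F} (hs : s₀ ∈ A) (hs0 : s₀ ≠ 0)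
    (hx : x ∈ A) : x = 0 ∨ x = s₀ := by
  classical
  by_contra hc
  push Not at hc
  have h1 := finset_card_le A {0, s₀, x} (by
    intro y hy
    simp only [Finset.mem_insert, Finset.mem_singleton] at hy
    rcases hy with rfl | rfl | rfl
    · exact A.zero_mem
    · exact hs
    · exact hx)
  rw [Finset.card_insert_of_notMem (by simp [hs0.symm, hc.1.symm]), Finset.card_insert_of_notMem (by simp [hc.2.symm]),
    Finset.card_singleton, h2] at h1
  omega

lemma mem_of_card_three (A : AddSubgroup F) (h3 : Nat.card A = 3) {s₀ x : F} (hs : s₀ ∈ A) (hs0 : s₀ ≠ 0)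
    (h2 : (2 : F) ≠ 0) (hx : x ∈ A) : x = 0 ∨ x = s₀ ∨ x = -s₀ := by
  classical
  by_contra hc
  push Not at hc
  have hne : -s₀ ≠ s₀ := by
    intro h
    have : (2 : F) * s₀ = 0 := by linear_combination -h
    exact (mul_ne_zero h2 hs0) this
  have h1 := finset_card_le A {0, s₀, -s₀, x} (by
    intro y hy
    simp only [Finset.mem_insert, Finset.mem_singleton] at hy
    rcases hy with rfl | rfl | rfl | rfl
    · exact A.zero_mem
    · exact hs
    · exact A.neg_mem hs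
    · exact hx)
  rw [Finset.card_insert_of_notMem (by
      simp only [Finset.mem_insert, Finset.mem_singleton, not_or]
      exact ⟨hs0.symm, fun h => hs0 (by linear_combination h), hc.1.symm⟩),
    Finset.card_insert_of_notMem (by
      simp only [Finset.mem_insert, Finset.mem_singleton, not_or]
      exact ⟨hne.symm, hc.2.1.symm⟩),
    Finset.card_insert_of_notMem (by
      simp only [Finset.mem_singleton]
      exact hc.2.2.symm),
    Finset.card_singleton, h3] at h1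
  omega

section Z

variable (hF : Fintype.card F = q ^ 2) {α β : F} (hα : α ^ q * α = -1) (hβ : β + β ^ q = -1)
  {K : Subgroup (SU (1 + 2) F q)}

include hF hα

lemma card_ZZ_dvd : Nat.card (ZZ hF hα K) ∣ q := by
  have hle : ZZ hF hα K ≤ Tz hF := fun x hx => hx.1
  have h1 := AddSubgroup.card_dvd_of_le hle
  have h2 : Nat.card (Tz hF) = q := by
    rw [Nat.card_eq_fintype_card]
    exact card_Tz hF
  rwa [h2] at h1

lemma one_lt_card_ZZ {s₀ : F} (hs : s₀ ∈ ZZ hF hα K) (hs0 : s₀ ≠ 0) : 1 < Nat.card (ZZ hF hα K) := by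
  haveI : Nontrivial (ZZ hF hα K) :=
    ⟨⟨⟨s₀, hs⟩, ⟨0, (ZZ hF hα K).zero_mem⟩, fun h => hs0 (congrArg Subtype.val h)⟩⟩
  exact Finite.one_lt_card

lemma card_Y_dvd_sq : Nat.card (YY hF hα K) ∣ q ^ 2 := by
  have h1 := AddSubgroup.card_addSubgroup_dvd_card (YY hF hα K)
  have h2 : Nat.card (Fin 1 → F) = q ^ 2 := by
    rw [Nat.card_eq_fintype_card, Fintype.card_fun, hF]
    simp
  rwa [h2] at h1

/-- The three possible shapes of `Y`. -/
lemma Y_cases : Nat.card (YY hF hα K) = 1 ∨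
    (∃ u₀ ∈ YY hF hα K, u₀ 0 ≠ 0 ∧ ∀ u ∈ YY hF hα K, Pr q (u 0) (u₀ 0)) ∨
    (∃ u₀ ∈ YY hF hα K, ∃ u₁ ∈ YY hF hα K, ¬ Pr q (u₀ 0) (u₁ 0)) := by
  classical
  by_cases h : ∃ u₀ ∈ YY hF hα K, u₀ 0 ≠ 0
  · obtain ⟨u₀, hu, hu0⟩ := h
    by_cases h2 : ∀ u ∈ YY hF hα K, Pr q (u 0) (u₀ 0)
    · exact Or.inr (Or.inl ⟨u₀, hu, hu0, h2⟩)
    · push Not at h2
      obtain ⟨u₁, hu₁, h3⟩ := h2
      exact Or.inr (Or.inr ⟨u₁, hu₁, u₀, hu, h3⟩)
  · left
    push Not at h
    rw [Nat.card_eq_one_iff_unique]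
    refine ⟨⟨?_⟩, ⟨⟨0, (YY hF hα K).zero_mem⟩⟩⟩
    rintro ⟨a, ha⟩ ⟨b, hb⟩
    apply Subtype.ext
    apply ext_one
    show a 0 = b 0
    rw [h a ha, h b hb]

include hβ

/-- The basic data attached to a transitive subgroup. -/
lemma data_of_isTr (hT : IsTr α K) :
    K.index * (Nat.card (TT1 α K) * (Nat.card (YY hF hα K) * Nat.card (ZZ hF hα K))) = q ^ 3 * (q ^ 2 - 1) ∧
    Nat.card K = (Nat.card (TT1 α K) * (Nat.card (YY hF hα K) * Nat.card (ZZ hF hα K))) * (q ^ 3 + 1) := by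
  rw [← card_Bo_inf' hF hα hβ]
  exact ⟨index_mul_of_isTr hF hα hβ hT, card_of_isTr hF hα hβ hT⟩

/-- An orbit congruence. -/
lemma Y_mod (ℓ : ℕ) [hℓ : Fact ℓ.Prime] (hc : Nat.Coprime (2 * q - 1) ℓ) (hd : ℓ ∣ Nat.card (TT1 α K)) :
    Nat.card (YY hF hα K) ≡ 1 [MOD ℓ] := by
  classical
  have hq := two_le hF
  obtain ⟨x, hx⟩ := exists_prime_orderOf_dvd_card' ℓ hd
  have hx1 : ((x : Fˣ)) ^ ℓ = 1 := by
    rw [← hx]
    have := pow_orderOf_eq_one x
    exact congrArg Subtype.val this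
  have hxo : orderOf (x : Fˣ) = ℓ := by
    rw [← hx]
    exact Subgroup.orderOf_coe x
  have hμ : (((x : Fˣ) : F) ^ q * (((x : Fˣ) : F) ^ q * ((x : Fˣ) : F)⁻¹)) = (((x : Fˣ) ^ (2 * q - 1) : Fˣ) : F) := by
    have h0 := (x : Fˣ).ne_zero
    rw [Units.val_pow_eq_pow_val]
    obtain ⟨m, hm⟩ : ∃ m, q = m + 1 := ⟨q - 1, by omega⟩
    have h2 : 2 * q - 1 = q + m := by omega
    rw [h2, pow_add]
    have h3 : ((x : Fˣ) : F) ^ q * ((x : Fˣ) : F)⁻¹ = ((x : Fˣ) : F) ^ m := by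
      have h4 : ((x : Fˣ) : F) ^ q = ((x : Fˣ) : F) ^ m * ((x : Fˣ) : F) := by
        rw [← pow_succ, ← hm]
      rw [h4]
      field_simp
    rw [h3]
  apply card_Y_mod hF hα hβ x.2 ℓ
  · rw [hμ]
    intro h
    have h4 : (x : Fˣ) ^ (2 * q - 1) = 1 := Units.ext h
    have h5 := orderOf_dvd_of_pow_eq_one h4
    rw [hxo] at h5
    have h6 : ℓ ∣ 1 := by
      have := Nat.dvd_gcd h5 (dvd_refl ℓ)
      rwa [hc] at this
    exact hℓ.out.one_lt.ne' (Nat.dvd_one.1 h6)
  · rw [hμ, ← Units.val_pow_eq_pow_val, ← pow_mul, mul_comm, pow_mul, hx1, one_pow, Units.val_one]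

/-- The exponent of the multipliers when `|Z| = 2`. -/
lemma TT1_dvd_of_two (h2 : Nat.card (ZZ hF hα K) = 2) {s₀ : F} (hs : s₀ ∈ ZZ hF hα K) (hs0 : s₀ ≠ 0) :
    Nat.card (TT1 α K) ∣ q + 1 := by
  apply card_dvd_of_pow_eq_one
  intro x hx
  have h1 := ZZ_T hF hα hβ hx hs
  have h3 : ((x : F) * (x : F) ^ q) * s₀ ≠ 0 := mul_ne_zero (pq_ne hF x.ne_zero) hs0
  have h4 := (mem_of_card_two _ h2 hs hs0 h1).resolve_left h3
  have h5 : (x : F) * (x : F) ^ q = 1 := by
    apply mul_right_cancel₀ hs0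
    rw [h4, one_mul]
  apply Units.ext
  rw [Units.val_pow_eq_pow_val, Units.val_one, pow_succ]
  linear_combination h5

/-- The exponent of the multipliers when `|Z| = 3`. -/
lemma TT1_dvd_of_three (h3 : Nat.card (ZZ hF hα K) = 3) (h2 : (2 : F) ≠ 0) {s₀ : F} (hs : s₀ ∈ ZZ hF hα K) (hs0 : s₀ ≠ 0) :
    Nat.card (TT1 α K) ∣ 2 * (q + 1) := by
  apply card_dvd_of_pow_eq_one
  intro x hx
  have h1 := ZZ_T hF hα hβ hx hs
  have h4 : ((x : F) * (x : F) ^ q) * s₀ ≠ 0 := mul_ne_zero (pq_ne hF x.ne_zero) hs0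
  have h5 := (mem_of_card_three _ h3 hs hs0 h2 h1).resolve_left h4
  have h6 : ((x : F) * (x : F) ^ q) ^ 2 = 1 := by
    apply mul_right_cancel₀ hs0
    rcases h5 with h5 | h5
    · rw [pow_two, mul_assoc, h5, h5]
      ring
    · rw [pow_two, mul_assoc, h5, mul_neg, h5]
      ring
  apply Units.ext
  rw [Units.val_pow_eq_pow_val, Units.val_one, pow_mul, pow_succ]
  linear_combination h6

/-- A nonabelian configuration: two transvections do not commute on the points. -/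
lemma no_comm (p : ℕ) [Fact p.Prime] [CharP F p] (hT : IsTr α K) {s₀ : F} (hs : s₀ ∈ ZZ hF hα K) (hs0 : s₀ ≠ 0) :
    ¬ (∀ u v : (K0 K).map (piOm hF), u ^ p = 1 → v ^ p = 1 → u * v = v * u) := by
  intro hc
  let x : Om F q := ⟨α, hα⟩
  obtain ⟨y, hy⟩ := exists_other hF x
  obtain ⟨s₁, h1, hn1, hm1⟩ := exists_tauP_mem hF hα hβ hT hs hs0 x
  obtain ⟨s₂, h2, hn2, hm2⟩ := exists_tauP_mem hF hα hβ hT hs hs0 y
  have hp1 : piOm hF (tauP hF x h1) ^ p = 1 := by rw [← map_pow, tauP_pow hF h1 p, map_one]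
  have hp2 : piOm hF (tauP hF y h2) ^ p = 1 := by rw [← map_pow, tauP_pow hF h2 p, map_one]
  have h3 := hc ⟨_, ⟨_, hm1, rfl⟩⟩ ⟨_, ⟨_, hm2, rfl⟩⟩ (Subtype.ext hp1) (Subtype.ext hp2)
  have h4 := congrArg Subtype.val h3
  have h5 : piOm hF (tauP hF x h1) * piOm hF (tauP hF y h2) = piOm hF (tauP hF y h2) * piOm hF (tauP hF x h1) := h4
  have h6 := congrFun (congrArg (fun e : Equiv.Perm (Om F q) => (e : Om F q → Om F q)) h5) x
  simp only [Equiv.Perm.coe_mul, Function.comp_apply] at h6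
  rw [piOm_tauP_self hF x h1] at h6
  have h7 : piOm hF (tauP hF y h2) x = x := by
    by_contra hne
    exact piOm_tauP_ne hF h1 hn1 hne h6
  by_contra
  exact piOm_tauP_ne hF h2 hn2 hy.symm h7

/-- The list applied to a subgroup with a transvection. -/
theorem z_cases (p : ℕ) [hp : Fact p.Prime] [CharP F p] {f : ℕ} (hf : 1 ≤ f) (hqf : q = p ^ f) (hq3 : 3 ≤ q)
    (hK : K ≠ ⊤) (hi : K.index < q ^ 3 + 1) {s₀ : F} (hs : s₀ ∈ ZZ hF hα K) (hs0 : s₀ ≠ 0) :
    Nat.card (ZZ hF hα K) = 2 ∨ (q = 9 ∧ Nat.card (ZZ hF hα K) = 3) := by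
  have hT := isTr_of_index_lt hF hα hβ hi
  have h2a := two_mul_card_ZZ hF hα hβ hq3 hT hK
  have ha1 := one_lt_card_ZZ hF hα hs hs0
  have hdvd := card_ZZ_dvd (K := K) hF hα
  have hq4 : 4 ≤ q := by omega
  have htr := trans_of_ZZ hF hα hβ p hT hs hs0
  have hW := card_W_eq hF hα hβ (K := K) (htr ⟨α, hα⟩)
  have hR := card_range_mul hF hα hβ (K := K)
  have hi1 := card_ker_dvd_succ hF hα hβ (K := K)
  have ht := card_TT1_dvd hF hα hβ (K := Kp K)
  have hlist := list_SLd hF p hq4 (K0 K) htr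
  set W := Nat.card ((K0 K).map (piOm hF)) with hWd
  set r := Nat.card (fBo hF α K).range with hrd
  set i := Nat.card (fBo hF α K).ker with hid
  set t := Nat.card (TT1 α (Kp K)) with htd
  set a := Nat.card (ZZ hF hα K) with had
  have hr0 : 0 < r := Nat.card_pos
  have hcop : Nat.Coprime a i := Nat.Coprime.coprime_dvd_left hdvd (Nat.Coprime.coprime_dvd_right hi1 (by simp))
  have har : a ∣ r := by
    have h1 : a ∣ r * i := by
      rw [hR]
      exact Dvd.intro_left _ rfl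
    exact hcop.dvd_of_dvd_mul_right h1
  have hle : a ≤ r := Nat.le_of_dvd hr0 har
  have hdW : (q + 1) * a ∣ W := by
    rw [hW]
    exact Nat.mul_dvd_mul_left _ har
  rcases hlist with h | h | h | h | ⟨-, h⟩ | ⟨e, he, h⟩
  · left
    rw [hW] at h
    have : r ≤ 2 := by
      by_contra hc
      push Not at hc
      have : (q + 1) * 3 ≤ (q + 1) * r := Nat.mul_le_mul_left _ hc
      omega
    omega
  · exact num_alt hq4 ha1 h2a hdvd (Or.inl h) hdW
  · exact num_alt hq4 ha1 h2a hdvd (Or.inr (Or.inl h)) hdW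
  · exact num_alt hq4 ha1 h2a hdvd (Or.inr (Or.inr h)) hdW
  · exact absurd h (no_comm hF hα hβ p hT hs hs0)
  · exfalso
    have h3 := num_psl hp.out hf he hqf hW hR ht h
    have h4 := Nat.le_of_dvd (by omega) h3
    omega

/-- Subgroups of small index containing a transvection have one of two possible orders. -/
theorem z_big (p : ℕ) [hp : Fact p.Prime] [CharP F p] {f : ℕ} (hf : 1 ≤ f) (hqf : q = p ^ f) (hq3 : 3 ≤ q)
    (hK : K ≠ ⊤) (hi : K.index < q ^ 3 + 1) {s₀ : F} (hs : s₀ ∈ ZZ hF hα K) (hs0 : s₀ ≠ 0) :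
    (q = 8 ∧ Nat.card K = 36936) ∨ (q = 9 ∧ Nat.card K = 78840) := by
  haveI : Fact (Nat.Prime 5) := ⟨by norm_num⟩
  have hT := isTr_of_index_lt hF hα hβ hi
  obtain ⟨hd1, hd2⟩ := data_of_isTr (K := K) hF hα hβ hT
  have hbound := num_bound (by omega) hi hd1
  rcases z_cases hF hα hβ p hf hqf hq3 hK hi hs hs0 with h2 | ⟨rfl, h3⟩
  · -- `|Z| = 2`
    left
    have hneg : -s₀ = s₀ := by
      have h1 := mem_of_card_two _ h2 hs hs0 ((ZZ hF hα K).neg_mem hs)
      rcases h1 with h1 | h1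
      · exact absurd (neg_eq_zero.1 h1) hs0
      · exact h1
    have h20 : (2 : F) = 0 := by
      have : (2 : F) * s₀ = 0 := by linear_combination -hneg
      exact (mul_eq_zero.1 this).resolve_right hs0
    have hp2 : p = 2 := by
      have h4 : (((2 : ℕ) : F)) = 0 := by exact_mod_cast h20
      have h5 : p ∣ 2 := (CharP.cast_eq_zero_iff F p 2).1 h4
      exact (Nat.prime_dvd_prime_iff_eq hp.out Nat.prime_two).1 h5
    subst hp2
    have htd := TT1_dvd_of_two hF hα hβ h2 hs hs0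
    have hy : Nat.card (YY hF hα K) ≤ 4 := by
      rcases Y_cases (K := K) hF hα with h1 | ⟨u₀, hu, hu0, hall⟩ | ⟨u₀, hu₀, u₁, hu₁, hn⟩
      · omega
      · have := card_Y_le_Z_two hF hα h20 hu0 hall
        omega
      · have := card_Y_le_sq hF hα hu₀ hu₁ hn
        rw [h2] at this
        omega
    rw [h2] at hbound hd2
    have hq4 : 4 ≤ q := by
      have := card_ZZ_dvd (K := K) hF hα
      have h2a := two_mul_card_ZZ hF hα hβ hq3 hT hK
      omega
    obtain ⟨h8, h9, h4⟩ := num_two hqf hq4 htd hy hbound (by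
      intro h4 h5
      subst h4
      exact Y_mod hF hα hβ 5 (by norm_num) h5)
    refine ⟨h8, ?_⟩
    rw [hd2, h9, h4, h8]
    norm_num
  · -- `q = 9`, `|Z| = 3`
    right
    refine ⟨rfl, ?_⟩
    have hp3 : p = 3 := by
      have h1 : p ∣ 9 := by
        rw [hqf]
        exact dvd_pow_self p (by omega)
      have h2 : p ∣ 3 := by
        have h3 : (9 : ℕ) = 3 ^ 2 := by norm_num
        rw [h3] at h1
        exact hp.out.dvd_of_dvd_pow h1
      exact (Nat.prime_dvd_prime_iff_eq hp.out Nat.prime_three).1 h2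
    subst hp3
    have h20 : (2 : F) ≠ 0 := by
      intro h
      have h4 : (((3 : ℕ) : F)) = 0 := CharP.cast_eq_zero F 3
      push_cast at h4
      have : (1 : F) = 0 := by linear_combination h4 - h
      exact one_ne_zero this
    have htd := TT1_dvd_of_three hF hα hβ h3 h20 hs hs0
    have hy81 : Nat.card (YY hF hα K) ∣ 81 := card_Y_dvd_sq (q := 9) (K := K) hF hα
    have hy : Nat.card (YY hF hα K) ≤ 9 := by
      rcases Y_cases (K := K) hF hα with h1 | ⟨u₀, hu, hu0, hall⟩ | ⟨u₀, hu₀, u₁, hu₁, hn⟩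
      · omega
      · exact Nat.le_of_dvd (by norm_num) (card_Y_dvd hF hα hu0 hall)
      · have := card_Y_le_sq hF hα hu₀ hu₁ hn
        rw [h3] at this
        omega
    rw [h3] at hbound hd2
    obtain ⟨h4, h9⟩ := num_three htd hy81 hy hbound (fun h5 => Y_mod hF hα hβ 5 (by norm_num) h5)
    rw [hd2, h4, h9]
    norm_num

end Z

end Cfsg.Agent.Lib.U3Min
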