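import Mathlib
import Cfsg.Agent.Lib.U3MinI

/-!
# `SU₃(q)`: diagonal elements and their isotropic eigenvectors
-/

set_option autoImplicit false
set_option linter.unusedSectionVars false
set_option linter.unusedVariables false
set_option linter.style.haveILetI false

namespace Cfsg.Agent.Lib.U3Min

open Matrix Cfsg Cfsg.Agent.Lib.HermForm Cfsg.Agent.Lib.FFNorm Cfsg.Agent.Lib.UnitaryE
  Cfsg.Agent.Lib.UnitarySU Cfsg.Agent.Lib.SUMinDeg Cfsg.Agent.Lib.PSUIdx Cfsg.Agent.Lib.SL2Core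

variable {F : Type*} [Field F] [Fintype F] {q : ℕ}

section Eigen

variable (hF : Fintype.card F = q ^ 2) {α β : F} (hα : α ^ q * α = -1) (hβ : β + β ^ q = -1)

include hF hα hβ

/-- Uniqueness of the coordinates in the frame. -/
lemma frame_coef {s t s' t' : F} {u u' : Fin 1 → F}
    (h : s • vE (e := 1) α + t • wE α β + inc u = s' • vE α + t' • wE α β + inc u') :
    s = s' ∧ t = t' ∧ u = u' := by
  have hv := vE_iso (e := 1) hF hα
  have hw := wE_iso (e := 1) hF hα hβ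
  have hvw := vE_wE (e := 1) (b := β) hF hα
  have hwv := wE_vE (e := 1) (b := β) hF hα
  have hiv := inc_vE (e := 1) (α := α) hF
  have hiw := inc_wE (e := 1) (α := α) (b := β) hF
  have key1 : ∀ (a b : F) (c : Fin 1 → F), hermForm (1 + 2) F q (a • vE (e := 1) α + b • wE α β + inc c) (wE α β) = a := by
    intro a b c
    rw [hermForm_add_left, hermForm_add_left, hermForm_smul_left, hermForm_smul_left, hvw, hw, hiw]
    ring
  have key2 : ∀ (a b : F) (c : Fin 1 → F), hermForm (1 + 2) F q (a • vE (e := 1) α + b • wE α β + inc c) (vE α) = b := by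
    intro a b c
    rw [hermForm_add_left, hermForm_add_left, hermForm_smul_left, hermForm_smul_left, hv, hwv, hiv]
    ring
  have h1 : s = s' := by rw [← key1 s t u, h, key1]
  have h2 : t = t' := by rw [← key2 s t u, h, key2]
  subst h1 h2
  refine ⟨rfl, rfl, ?_⟩
  exact inc_injective (add_left_cancel h)

/-- Isotropic eigenvectors of a regular diagonal element. -/
lemma eigen_D {D : SU (1 + 2) F q} {c : F} (hD : IsScale (e := 1) α D c (c ^ q * c⁻¹))
    (hw : act D (wE α β) = (c ^ q)⁻¹ • wE α β) (hc1 : c * c ^ q ≠ 1) (hc2 : c ^ q * (c ^ q * c⁻¹) ≠ 1)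
    (hc3 : c * c ≠ c ^ q) {x : Fin (1 + 2) → F} (hx0 : x ≠ 0) (hxx : hermForm (1 + 2) F q x x = 0) {l : F}
    (hl : act D x = l • x) :
    (∃ κ : F, κ ≠ 0 ∧ x = κ • vE α ∧ l = c) ∨ (∃ κ : F, κ ≠ 0 ∧ x = κ • wE α β ∧ l = (c ^ q)⁻¹) := by
  have hq := two_le hF
  have hc0 : c ≠ 0 := hD.a0
  have hcq : c ^ q ≠ 0 := pow_ne_zero _ hc0
  have hd := decomp hF hα hβ x
  set s := hermForm (1 + 2) F q x (wE α β) with hs
  set t := hermForm (1 + 2) F q x (vE α) with ht
  set u := rest α β q x with hu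
  have h1 : act D x = (c * s) • vE (e := 1) α + ((c ^ q)⁻¹ * t) • wE α β + inc ((c ^ q * c⁻¹) • u) := by
    conv_lhs => rw [hd]
    rw [act_add, act_add, act_smul, act_smul, hD.hv, hw, hD.hi, smul_smul, smul_smul, mul_comm s, mul_comm t]
  have h2 : l • x = (l * s) • vE (e := 1) α + (l * t) • wE α β + inc (l • u) := by
    conv_lhs => rw [hd]
    rw [smul_add, smul_add, smul_smul, smul_smul, inc_smul]
  rw [hl, h2] at h1
  obtain ⟨e1, e2, e3⟩ := frame_coef hF hα hβ h1
  have e3' : l * u 0 = c ^ q * c⁻¹ * u 0 := by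
    have := congrFun e3 0
    simpa using this
  have hiso := herm_dec (α := α) (β := β) hF hα hβ s t u
  rw [← hd, hxx, herm_one_self hF hα hβ] at hiso
  have hu0 : u 0 = 0 := by
    by_contra hu0
    have hl1 : l = c ^ q * c⁻¹ := mul_right_cancel₀ hu0 e3'
    have hs0 : s = 0 := by
      by_contra hs0
      have hl2 : l = c := mul_right_cancel₀ hs0 (by linear_combination e1)
      apply hc3
      rw [hl1] at hl2
      field_simp at hl2
      linear_combination -hl2
    have ht0 : t = 0 := by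
      by_contra ht0
      have hl2 : l = (c ^ q)⁻¹ := mul_right_cancel₀ ht0 e2
      apply hc2
      rw [hl1] at hl2
      field_simp at hl2
      field_simp
      linear_combination hl2
    rw [hs0, ht0, zero_pow (by omega)] at hiso
    simp only [mul_zero, zero_mul, add_zero, zero_add] at hiso
    rcases mul_eq_zero.1 hiso.symm with h | h
    · exact hu0 h
    · exact hu0 ((pow_eq_zero_iff (by omega)).1 h)
  have hu1 : u = 0 := ext_one hu0
  rw [hu1, inc_zero, add_zero] at hd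
  by_cases hs0 : s = 0
  · right
    have ht0 : t ≠ 0 := by
      intro h
      apply hx0
      rw [hd, hs0, h, zero_smul, zero_smul, add_zero]
    refine ⟨t, ht0, ?_, ?_⟩
    · conv_lhs => rw [hd]
      rw [hs0, zero_smul, zero_add]
    · exact mul_right_cancel₀ ht0 e2
  · left
    have hl2 : l = c := mul_right_cancel₀ hs0 (by linear_combination e1)
    have ht0 : t = 0 := by
      by_contra ht0
      have hl3 : l = (c ^ q)⁻¹ := mul_right_cancel₀ ht0 e2
      apply hc1
      rw [hl2] at hl3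
      field_simp at hl3
      linear_combination hl3
    refine ⟨s, hs0, ?_, hl2⟩
    conv_lhs => rw [hd]
    rw [ht0, zero_smul, add_zero]

/-- A regular diagonal element is conjugate in `Q` to all elements of its `Q`-coset. -/
lemma conj_D {D : SU (1 + 2) F q} (hD : D ∈ Bo (q := q) α)
    (hc1 : cc α D * (cc α D) ^ q ≠ 1) (hc2 : (cc α D) ^ q * ((cc α D) ^ q * (cc α D)⁻¹) ≠ 1)
    {E : SU (1 + 2) F q} (hE : E ∈ QQ hF hα 1) :
    ∃ y ∈ QQ hF hα 1, y * D * y⁻¹ = E * D := by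
  classical
  have hnorm : ∀ y ∈ QQ hF hα 1, D * y * D⁻¹ ∈ QQ hF hα 1 := by
    rintro _ ⟨u, s, h, rfl⟩
    obtain ⟨s', h1, h2, -⟩ := conj_Bo hF hα hβ hD h
    exact ⟨_, _, h1, h2.symm⟩
  let f : QQ hF hα 1 → QQ hF hα 1 := fun y =>
    ⟨y.1 * (D * y.1⁻¹ * D⁻¹), (QQ hF hα 1).mul_mem y.2 (hnorm _ ((QQ hF hα 1).inv_mem y.2))⟩
  have hf : Function.Injective f := by
    intro y y' h
    have h1 : y.1 * (D * y.1⁻¹ * D⁻¹) = y'.1 * (D * y'.1⁻¹ * D⁻¹) := congrArg Subtype.val h
    have h2 : (y'.1⁻¹ * y.1) * D = D * (y'.1⁻¹ * y.1) := by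
      have h3 : y.1 * D * y.1⁻¹ = y'.1 * D * y'.1⁻¹ := by
        have h4 := congrArg (fun z => z * D) h1
        simp only [mul_assoc, inv_mul_cancel, mul_one] at h4
        simpa only [mul_assoc] using h4
      have h5 : y'.1⁻¹ * (y.1 * D * y.1⁻¹) * y.1 = y'.1⁻¹ * (y'.1 * D * y'.1⁻¹) * y.1 := by rw [h3]
      simpa [mul_assoc] using h5
    obtain ⟨u, s, hG, he⟩ := (QQ hF hα 1).mul_mem ((QQ hF hα 1).inv_mem y'.2) y.2
    have h6 : D * EE hF α u s * D⁻¹ = EE hF α u s := by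
      rw [he, ← h2]
      simp
    obtain ⟨s', h7, h8, h9⟩ := conj_Bo hF hα hβ hD hG
    rw [h6] at h8
    obtain ⟨h10, h11⟩ := EE_inj hF hα hG h7 h8
    have hu : u = 0 := by
      apply ext_one
      have h12 := congrFun h10 0
      simp only [Pi.smul_apply, smul_eq_mul] at h12
      have h13 : ((cc α D) ^ q * ((cc α D) ^ q * (cc α D)⁻¹) - 1) * u 0 = 0 := by
        linear_combination -h12
      exact (mul_eq_zero.1 h13).resolve_left (sub_ne_zero.2 hc2)
    have hs : s = 0 := by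
      have h14 := h9 hu
      rw [h14] at h11
      have h15 : (cc α D * (cc α D) ^ q - 1) * s = 0 := by
        linear_combination -h11
      exact (mul_eq_zero.1 h15).resolve_left (sub_ne_zero.2 hc1)
    subst hu hs
    rw [EE_zero hF hα] at he
    apply Subtype.ext
    have h16 : y'.1⁻¹ * y.1 = 1 := he.symm
    exact (inv_mul_eq_one.1 h16).symm
  obtain ⟨y, hy⟩ := Finite.injective_iff_surjective.1 hf ⟨E, hE⟩
  refine ⟨y.1, y.2, ?_⟩
  have h1 : y.1 * (D * y.1⁻¹ * D⁻¹) = E := congrArg Subtype.val hy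
  rw [← h1]
  group

end Eigen

section Even

variable (hF : Fintype.card F = q ^ 2) {α β : F} (hα : α ^ q * α = -1) (hβ : β + β ^ q = -1)
  {K : Subgroup (SU (1 + 2) F q)}

include hF hα hβ

/-- Characteristic two: there is no subgroup of small index without transvections. -/
theorem even_case {f : ℕ} (hf : 1 ≤ f) (hqf : q = 2 ^ f) (h20 : (2 : F) = 0) (hq3 : 3 ≤ q)
    (hi : K.index < q ^ 3 + 1) (hZ : ∀ s ∈ ZZ hF hα K, s = 0) : False := by
  classical
  have hq4 : 4 ≤ q := by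
    have h1 : 2 ∣ q := by
      rw [hqf]
      exact dvd_pow_self 2 (by omega)
    omega
  have hT := isTr_of_index_lt hF hα hβ hi
  obtain ⟨hd1, hd2⟩ := data_of_isTr (K := K) hF hα hβ hT
  have hYY : ∀ u ∈ YY hF hα K, u = 0 := fun u hu => Y_trivial_of_two hF hα h20 hZ hu
  have hy : Nat.card (YY hF hα K) = 1 := by
    rw [Nat.card_eq_one_iff_unique]
    refine ⟨⟨?_⟩, ⟨⟨0, (YY hF hα K).zero_mem⟩⟩⟩
    rintro ⟨a, ha⟩ ⟨b, hb⟩
    apply Subtype.ext
    show a = b
    rw [hYY a ha, hYY b hb]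
  have ha : Nat.card (ZZ hF hα K) = 1 := by
    rw [Nat.card_eq_one_iff_unique]
    refine ⟨⟨?_⟩, ⟨⟨0, (ZZ hF hα K).zero_mem⟩⟩⟩
    rintro ⟨a, ha⟩ ⟨b, hb⟩
    apply Subtype.ext
    show a = b
    rw [hZ a ha, hZ b hb]
  rw [hy, ha, mul_one, mul_one] at hd1 hd2
  have hbound := num_bound (by omega) hi hd1
  have htd := card_TT1_dvd hF hα hβ (K := K)
  have hq2 : 0 < q ^ 2 - 1 := by
    have : 1 < q ^ 2 := Nat.one_lt_pow (by norm_num) (by omega)
    omega
  have ht : Nat.card (TT1 α K) = q ^ 2 - 1 := le_antisymm (Nat.le_of_dvd hq2 htd) hbound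
  have hcardU : Nat.card Fˣ = q ^ 2 - 1 := by
    rw [Nat.card_eq_fintype_card, Fintype.card_units, hF]
  have htop : TT1 α K = ⊤ := Subgroup.eq_top_of_card_eq _ (by rw [ht, hcardU])
  obtain ⟨c, hc⟩ := IsCyclic.exists_generator (α := Fˣ)
  have hordc : orderOf c = q ^ 2 - 1 := by
    rw [← hcardU]
    exact orderOf_eq_card_of_forall_mem_zpowers hc
  have hpow : ∀ n, 0 < n → n < q ^ 2 - 1 → (c : F) ^ n ≠ 1 := by
    intro n h0 hn h
    have h1 : c ^ n = 1 := Units.ext (by rw [Units.val_pow_eq_pow_val, h, Units.val_one])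
    exact pow_ne_one_of_lt_orderOf h0.ne' (by rw [hordc]; exact hn) h1
  have hlt : q + 1 < q ^ 2 - 1 ∧ 2 * q - 1 < q ^ 2 - 1 := by
    have : q ^ 2 = q * q := pow_two q
    have : 4 * q ≤ q * q := Nat.mul_le_mul_right _ hq4
    omega
  obtain ⟨g, hgK, hgB, hgc⟩ := mem_TT1.1 (htop ▸ Subgroup.mem_top c : c ∈ TT1 α K)
  have hc0 : (c : F) ≠ 0 := c.ne_zero
  have hcq0 : (c : F) ^ q ≠ 0 := pow_ne_zero _ hc0
  have hc1 : (c : F) * (c : F) ^ q ≠ 1 := by
    have := hpow (q + 1) (by omega) hlt.1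
    rwa [pow_succ, mul_comm] at this
  have hc2 : (c : F) ^ q * ((c : F) ^ q * (c : F)⁻¹) ≠ 1 := by
    have h1 := hpow (2 * q - 1) (by omega) hlt.2
    obtain ⟨m, hm⟩ : ∃ m, q = m + 1 := ⟨q - 1, by omega⟩
    have h2 : 2 * q - 1 = q + m := by omega
    have h3 : (c : F) ^ q = (c : F) ^ m * (c : F) := by
      rw [← pow_succ, ← hm]
    have h4 : (c : F) ^ q * (c : F)⁻¹ = (c : F) ^ m := by
      rw [h3]
      field_simp
    rwa [h4, ← pow_add, ← h2]
  have hc3 : (c : F) * (c : F) ≠ (c : F) ^ q := by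
    intro h
    have h1 := hpow (q - 2) (by omega) (by omega)
    apply h1
    have h2 : (c : F) ^ q = (c : F) ^ (q - 2) * ((c : F) * (c : F)) := by
      rw [← pow_two, ← pow_add]
      congr 1
      omega
    apply mul_right_cancel₀ (mul_ne_zero hc0 hc0)
    rw [one_mul, ← h2, h]
  obtain ⟨y₁, D, hy₁, hD, hwD, hgD⟩ := Bo_dec hF hα hβ hgB
  rw [hgc] at hD hwD
  have hccD : cc α D = (c : F) := cc_eq hD.hv
  have hDB : D ∈ Bo (q := q) α := ⟨_, hD.a0, hD.hv⟩
  obtain ⟨y, hyQ, hyD⟩ := conj_D hF hα hβ hDB (by rw [hccD]; exact hc1) (by rw [hccD]; exact hc2) hy₁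
  rw [← hyD] at hgD
  have hyv : act y (vE (e := 1) α) = vE α := (mem_QQ_iff hF hα).1 hyQ
  set z := act y (wE (e := 1) α β) with hz
  have hwv := wE_vE (e := 1) (b := β) hF hα
  have hvv := vE_iso (e := 1) hF hα
  have hzv : hermForm (1 + 2) F q z (vE α) = 1 := by
    rw [hz]
    conv_lhs => rw [← hyv]
    rw [herm_act, hwv]
  have hw0 : wE (e := 1) α β ≠ 0 := by
    intro h
    rw [h, hermForm_zero_left] at hwv
    exact zero_ne_one hwv
  have hz0 : z ≠ 0 := act_ne_zero hF y hw0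
  have hzz : hermForm (1 + 2) F q z z = 0 := by
    rw [hz, herm_act]
    exact wE_iso hF hα hβ
  have hnp : ∀ μ : F, z ≠ μ • vE α := by
    intro μ h
    rw [h, hermForm_smul_left, hvv, mul_zero] at hzv
    exact zero_ne_one hzv
  have hgz : act g z = ((c : F) ^ q)⁻¹ • z := by
    rw [hgD, act_mul, act_mul, hz, act_inv_act hF, hwD, act_smul]
  have hgv : act g (vE (e := 1) α) = (c : F) • vE α := by
    rw [← hgc]
    exact act_Bo hgB
  -- isotropic eigenvectors of `g`
  have heig : ∀ {x : Fin (1 + 2) → F} {l : F}, x ≠ 0 → hermForm (1 + 2) F q x x = 0 → act g x = l • x →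
      (∃ κ : F, κ ≠ 0 ∧ x = κ • vE α ∧ l = c) ∨ (∃ κ : F, κ ≠ 0 ∧ x = κ • z ∧ l = ((c : F) ^ q)⁻¹) := by
    intro x l hx0 hxx hl
    have h1 : act D (act y⁻¹ x) = l • act y⁻¹ x := by
      rw [← act_smul, ← hl, hgD]
      simp only [act_mul]
      rw [act_inv_act hF]
    have h2 : act y⁻¹ x ≠ 0 := act_ne_zero hF _ hx0
    have h3 : hermForm (1 + 2) F q (act y⁻¹ x) (act y⁻¹ x) = 0 := by
      rw [herm_act]
      exact hxx
    rcases eigen_D hF hα hβ hD hwD hc1 hc2 hc3 h2 h3 h1 with ⟨κ, hκ, h4, h5⟩ | ⟨κ, hκ, h4, h5⟩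
    · left
      refine ⟨κ, hκ, ?_, h5⟩
      rw [← act_act_inv' hF y x, h4, act_smul, hyv]
    · right
      refine ⟨κ, hκ, ?_, h5⟩
      rw [← act_act_inv' hF y x, h4, act_smul]
  -- injectivity of the multiplier on `K ∩ B`
  have hinj : ∀ x ∈ K, x ∈ Bo (q := q) α → cc α x = 1 → x = 1 := by
    intro x hxK hxB hx1
    obtain ⟨u, s, hG, he⟩ := mem_QQ_of_cc hF hα hxB hx1
    have hu : u = 0 := hYY u ⟨s, hG, by rw [he]; exact hxK⟩
    subst hu
    have hs0 : s + s ^ q = 0 := by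
      have := hG
      unfold Gd at this
      rwa [hermForm_zero_left, add_zero] at this
    have hs : s = 0 := hZ s ⟨hs0, by rw [he]; exact hxK⟩
    subst hs
    rw [← he, EE_zero hF hα]
  have hcomm : ∀ b ∈ K, b ∈ Bo (q := q) α → b * g = g * b := by
    intro b hbK hbB
    have h1 : (b * g) * (g * b)⁻¹ = 1 := by
      apply hinj
      · exact K.mul_mem (K.mul_mem hbK hgK) (K.inv_mem (K.mul_mem hgK hbK))
      · exact (Bo (q := q) α).mul_mem ((Bo (q := q) α).mul_mem hbB hgB)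
          ((Bo (q := q) α).inv_mem ((Bo (q := q) α).mul_mem hgB hbB))
      · have h2 := cc_mul (α := α) ((Bo (q := q) α).mul_mem ((Bo (q := q) α).mul_mem hbB hgB)
          ((Bo (q := q) α).inv_mem ((Bo (q := q) α).mul_mem hgB hbB))) ((Bo (q := q) α).mul_mem hgB hbB)
        rw [inv_mul_cancel_right, cc_mul hbB hgB, cc_mul hgB hbB] at h2
        have h3 : cc α g * cc α b ≠ 0 := mul_ne_zero (cc_ne hgB) (cc_ne hbB)
        apply mul_right_cancel₀ h3
        rw [one_mul, ← h2]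
        ring
    exact mul_inv_eq_one.1 h1
  -- elements of `K ∩ B` fix the second point
  have hfixz : ∀ b ∈ K, b ∈ Bo (q := q) α → ∃ κ : F, act b z = κ • z := by
    intro b hbK hbB
    have h1 : act g (act b z) = ((c : F) ^ q)⁻¹ • act b z := by
      rw [← act_mul, ← hcomm b hbK hbB, act_mul, hgz, act_smul]
    have h2 : act b z ≠ 0 := act_ne_zero hF _ hz0
    have h3 : hermForm (1 + 2) F q (act b z) (act b z) = 0 := by
      rw [herm_act]
      exact hzz
    rcases heig h2 h3 h1 with ⟨κ, hκ, -, h5⟩ | ⟨κ, hκ, h4, -⟩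
    · exfalso
      apply hc1
      conv_lhs => lhs; rw [← h5]
      exact inv_mul_cancel₀ hcq0
    · exact ⟨κ, h4⟩
  -- the swap
  obtain ⟨k, hk, κ, hκ, hkv⟩ := exists_mem_move hF hα hβ hT hz0 hzz
  have hkinv : act k⁻¹ (κ • z) = vE (e := 1) α := by rw [← hkv, act_inv_act hF]
  have hbk : k⁻¹ * g * k ∈ Bo (q := q) α := by
    refine ⟨((c : F) ^ q)⁻¹, inv_ne_zero hcq0, ?_⟩
    calc act (k⁻¹ * g * k) (vE α) = act k⁻¹ (act g (act k (vE α))) := by simp only [act_mul]
      _ = act k⁻¹ (act g (κ • z)) := by rw [hkv]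
      _ = act k⁻¹ (((c : F) ^ q)⁻¹ • (κ • z)) := by rw [act_smul, hgz, smul_comm]
      _ = ((c : F) ^ q)⁻¹ • vE α := by rw [act_smul, hkinv]
  obtain ⟨τ, hτ⟩ := hfixz _ (K.mul_mem (K.mul_mem (K.inv_mem hk) hgK) hk) hbk
  have hx : act g (act k z) = τ • act k z := by
    calc act g (act k z) = act (k * (k⁻¹ * g * k)) z := by
          rw [← act_mul]
          congr 1
          group
      _ = τ • act k z := by rw [act_mul, hτ, act_smul]
  have hx0 : act k z ≠ 0 := act_ne_zero hF _ hz0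
  have hxx : hermForm (1 + 2) F q (act k z) (act k z) = 0 := by
    rw [herm_act]
    exact hzz
  rcases heig hx0 hxx hx with ⟨κ', hκ', h4, -⟩ | ⟨κ', hκ', h4, -⟩
  · -- `k` swaps the two points
    have hkk : k * k ∈ Bo (q := q) α := by
      refine ⟨κ * κ', mul_ne_zero hκ hκ', ?_⟩
      rw [act_mul, hkv, act_smul, h4, smul_smul]
    have hodd : Odd (orderOf k) := by
      have h5 := Subgroup.orderOf_dvd_natCard K hk
      rw [hd2, ht] at h5
      have h6 : Even q := by
        rw [hqf]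
        exact (Nat.even_pow.2 ⟨even_two, by omega⟩)
      have h7 : Odd (q ^ 2 - 1) := by
        apply Nat.Even.sub_odd (Nat.one_le_pow _ _ (by omega)) (Nat.even_pow.2 ⟨h6, by norm_num⟩) odd_one
      have h8 : Odd (q ^ 3 + 1) := (Nat.even_pow.2 ⟨h6, by norm_num⟩).add_one
      exact Odd.of_dvd_nat (h7.mul h8) h5
    obtain ⟨m, hm⟩ := hodd
    have h5 : (k * k) ^ m * k = 1 := by
      rw [← pow_two, ← pow_mul, ← pow_succ, ← hm]
      exact pow_orderOf_eq_one k
    have h6 : k = ((k * k) ^ m)⁻¹ := eq_inv_of_mul_eq_one_right h5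
    have h7 : k ∈ Bo (q := q) α := by
      rw [h6]
      exact (Bo (q := q) α).inv_mem ((Bo (q := q) α).pow_mem hkk m)
    obtain ⟨c', hc', h8⟩ := h7
    rw [hkv] at h8
    apply hnp (κ⁻¹ * c')
    rw [← smul_smul, ← h8, smul_smul, inv_mul_cancel₀ hκ, one_smul]
  · -- the two points would be proportional
    have h5 : act k (κ' • vE (e := 1) α) = act k (κ • z) := by
      rw [act_smul, hkv, act_smul, h4, smul_comm]
    have h6 : κ' • vE (e := 1) α = κ • z := by
      have h7 := congrArg (act k⁻¹) h5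
      rwa [act_inv_act hF, act_inv_act hF] at h7
    apply hnp (κ⁻¹ * κ')
    rw [← smul_smul, h6, smul_smul, inv_mul_cancel₀ hκ, one_smul]

end Even

end Cfsg.Agent.Lib.U3Min
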