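import Mathlib
import Cfsg.Agent.Lib.U3MinJ

/-!
# `SU₃(q)`, `q` odd: involutions
-/

set_option autoImplicit false
set_option linter.unusedSectionVars false
set_option linter.unusedVariables false
set_option linter.style.haveILetI false

namespace Cfsg.Agent.Lib.U3Min

open Matrix Cfsg Cfsg.Agent.Lib.HermForm Cfsg.Agent.Lib.FFNorm Cfsg.Agent.Lib.UnitaryE
  Cfsg.Agent.Lib.UnitarySU Cfsg.Agent.Lib.SUMinDeg Cfsg.Agent.Lib.PSUIdx Cfsg.Agent.Lib.SL2Core

variable {F : Type*} [Field F] [Fintype F] {q : ℕ}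

/-- The standard involutions: `+1` on the third basis vector, `-1` on its orthogonal complement. -/
structure IsTau (t : SU (1 + 2) F q) : Prop where
  fix : act t (dd F) = dd F
  neg : ∀ x : Fin (1 + 2) → F, x 2 = 0 → act t x = -x

/-- Decomposition along the third basis vector. -/
lemma split_dd (x : Fin (1 + 2) → F) : x = (x - x 2 • dd F) + x 2 • dd F := by
  simp

lemma split_dd_two (x : Fin (1 + 2) → F) : (x - x 2 • dd F) 2 = 0 := by
  simp [dd_two]

namespace IsTau

variable {t : SU (1 + 2) F q} (ht : IsTau t)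
include ht

lemma act_eq (x : Fin (1 + 2) → F) : act t x = (2 * x 2) • dd F - x := by
  conv_lhs => rw [split_dd x]
  rw [act_add, ht.neg _ (split_dd_two x), act_smul, ht.fix]
  ext i
  simp only [Pi.add_apply, Pi.neg_apply, Pi.sub_apply, Pi.smul_apply, smul_eq_mul]
  ring

lemma mul_self : t * t = 1 := by
  apply ext_act
  intro x
  rw [act_mul, act_one]
  have h3 := ht.act_eq x
  have h4 : act t x 2 = x 2 := by
    rw [h3]
    simp only [Pi.sub_apply, Pi.smul_apply, smul_eq_mul, dd_two]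
    ring
  rw [ht.act_eq (act t x), h4, h3]
  ext i
  simp only [Pi.sub_apply, Pi.smul_apply, smul_eq_mul]
  ring

lemma fixed_eq {y : Fin (1 + 2) → F} (h2 : (2 : F) ≠ 0) (hy : act t y = y) : y = y 2 • dd F := by
  rw [ht.act_eq] at hy
  funext i
  have := congrFun hy i
  simp only [Pi.sub_apply, Pi.smul_apply, smul_eq_mul] at this ⊢
  apply mul_left_cancel₀ h2
  linear_combination -this

/-- An element commuting with `t` stabilises the line. -/
lemma mem_SLd_of_comm (hF : Fintype.card F = q ^ 2) (h2 : (2 : F) ≠ 0) {g : SU (1 + 2) F q} (h : g * t = t * g) : g ∈ SLd F q := by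
  have h1 : act t (act g (dd F)) = act g (dd F) := by
    rw [← act_mul, ← h, act_mul, ht.fix]
  have h3 := ht.fixed_eq h2 h1
  refine ⟨act g (dd F) 2, ?_, h3⟩
  intro h0
  rw [h0, zero_smul] at h3
  have hne : dd F ≠ 0 := by
    intro h
    have := congrFun h 2
    rw [dd_two] at this
    exact one_ne_zero this
  exact act_ne_zero hF g hne h3

lemma act_pt (β : Om F q) : act t (vE (e := 1) β.1) = -vE β.1 := ht.neg _ (vE_two β.1)

lemma mem_Bo (β : F) (hβ : vE (e := 1) β 2 = 0) : t ∈ Bo (q := q) β :=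
  ⟨-1, neg_ne_zero.2 one_ne_zero, by rw [ht.neg _ hβ, neg_one_smul]⟩

lemma mem_SLd : t ∈ SLd F q := ⟨1, one_ne_zero, by rw [ht.fix, one_smul]⟩

end IsTau

section Conj

variable (hF : Fintype.card F = q ^ 2)
include hF

/-- A non-trivial involution has an anisotropic fixed vector (`q` odd). -/
lemma exists_fixed_aniso (h2 : (2 : F) ≠ 0) {t : SU (1 + 2) F q} (ht : t * t = 1) :
    ∃ y : Fin (1 + 2) → F, act t y = y ∧ hermForm (1 + 2) F q y y ≠ 0 := by
  by_contra hcon
  push Not at hcon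
  have htt : ∀ x, act t (act t x) = x := by
    intro x
    rw [← act_mul, ht, act_one]
  let P : (Fin (1 + 2) → F) → (Fin (1 + 2) → F) := fun a => a + act t a
  have hP : ∀ a, act t (P a) = P a := by
    intro a
    show act t (a + act t a) = a + act t a
    rw [act_add, htt]
    exact add_comm _ _
  have hPP : ∀ a, hermForm (1 + 2) F q (P a) (P a) = 0 := fun a => hcon _ (hP a)
  have hPadd : ∀ a b, P (a + b) = P a + P b := by
    intro a b
    show (a + b) + act t (a + b) = (a + act t a) + (b + act t b)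
    rw [act_add]
    abel
  have hPsmul : ∀ (c : F) a, P (c • a) = c • P a := by
    intro c a
    show c • a + act t (c • a) = c • (a + act t a)
    rw [act_smul, smul_add]
  have hpol : ∀ a b, hermForm (1 + 2) F q (P a) (P b) + hermForm (1 + 2) F q (P b) (P a) = 0 := by
    intro a b
    have h1 := hPP (a + b)
    have h3 : hermForm (1 + 2) F q (P a + P b) (P a + P b) = hermForm (1 + 2) F q (P a) (P a) +
        hermForm (1 + 2) F q (P a) (P b) + hermForm (1 + 2) F q (P b) (P a) + hermForm (1 + 2) F q (P b) (P b) := by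
      rw [hermForm_add_left, hermForm_add_right hF (P a), hermForm_add_right hF (P b)]
      ring
    rw [hPadd, h3, hPP a, hPP b] at h1
    linear_combination h1
  obtain ⟨ε, hε, hεq⟩ := exists_Tz_ne hF
  have hzero : ∀ a b, hermForm (1 + 2) F q (P a) (P b) = 0 := by
    intro a b
    have h1 := hpol (ε • a) b
    rw [hPsmul, hermForm_smul_left, hermForm_smul_right] at h1
    have h3 := hpol a b
    have h4 : ε ^ q = -ε := by linear_combination hεq
    rw [h4] at h1
    have h5 : ε * (2 * hermForm (1 + 2) F q (P a) (P b)) = 0 := by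
      linear_combination h1 + ε * h3
    exact (mul_eq_zero.1 ((mul_eq_zero.1 h5).resolve_left hε)).resolve_left h2
  have hperp : ∀ a b, hermForm (1 + 2) F q a (P b) = 0 := by
    intro a b
    have h1 := hzero a b
    have h3 : hermForm (1 + 2) F q (P a) (P b) = hermForm (1 + 2) F q a (P b) + hermForm (1 + 2) F q (act t a) (P b) :=
      hermForm_add_left _ _ _
    have h4 : hermForm (1 + 2) F q (act t a) (P b) = hermForm (1 + 2) F q a (P b) := by
      conv_lhs => rw [← hP b]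
      rw [herm_act]
    rw [h3, h4] at h1
    have h5 : (2 : F) * hermForm (1 + 2) F q a (P b) = 0 := by linear_combination h1
    exact (mul_eq_zero.1 h5).resolve_left h2
  have hPzero : ∀ b, P b = 0 := by
    intro b
    funext i
    have h1 := hperp (Pi.single i 1) b
    have h3 := hermForm_conj hF (P b) (Pi.single i 1)
    rw [h1, hermForm_single_right hF] at h3
    have hq := two_le hF
    exact (pow_eq_zero_iff (by omega)).1 h3
  have hneg : ∀ b, act t b = -b := by
    intro b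
    have := hPzero b
    exact (eq_neg_of_add_eq_zero_right this)
  -- the determinant
  have hdet := t.1.2
  have hm : (t.1.1 : Matrix (Fin (1 + 2)) (Fin (1 + 2)) F) = -1 := by
    apply eq_of_mulVec_eq
    intro x
    rw [Matrix.neg_mulVec, Matrix.one_mulVec]
    exact hneg x
  rw [hm, Matrix.det_neg] at hdet
  simp only [Fintype.card_fin, Matrix.det_one, mul_one] at hdet
  apply h2
  have h3 : ((-1 : F)) ^ (1 + 2) = -1 := by norm_num
  rw [h3] at hdet
  linear_combination -hdet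

/-- Every involution is conjugate to a standard one (`q` odd). -/
theorem exists_conj_tau (h2 : (2 : F) ≠ 0) {t : SU (1 + 2) F q} (ht : t * t = 1) (hne : t ≠ 1) :
    ∃ g : SU (1 + 2) F q, IsTau (g⁻¹ * t * g) := by
  have hq := two_le hF
  obtain ⟨y, hy, hN⟩ := exists_fixed_aniso hF h2 ht
  obtain ⟨c, hc0, hc⟩ := exists_norm_eq hF hN (hermForm_conj hF y y)
  have hy0 : c⁻¹ • y ≠ 0 := by
    intro h
    have h1 : y = 0 := by simpa [hc0] using h
    rw [h1, hermForm_zero_left] at hN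
    exact hN rfl
  have hdd0 : dd F ≠ 0 := by
    intro h
    have := congrFun h 2
    rw [dd_two] at this
    exact one_ne_zero this
  have hN1 : hermForm (1 + 2) F q (dd F) (dd F) = hermForm (1 + 2) F q (c⁻¹ • y) (c⁻¹ • y) := by
    rw [herm_dd_self hF, hermForm_smul_left, hermForm_smul_right, ← hc, inv_pow, pow_succ]
    field_simp
  obtain ⟨g, hg⟩ := lev_trans hF (n := 1 + 2) (by norm_num) hdd0 hy0 hN1
  refine ⟨g, ?_⟩
  have hfix : act (g⁻¹ * t * g) (dd F) = dd F := by
    rw [act_mul, act_mul, hg, act_smul, hy, ← hg, act_inv_act hF]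
  set s := g⁻¹ * t * g with hs
  have hss : s * s = 1 := by
    rw [hs]
    calc g⁻¹ * t * g * (g⁻¹ * t * g) = g⁻¹ * (t * t) * g := by group
      _ = 1 := by rw [ht]; group
  have hsne : s ≠ 1 := by
    intro h
    apply hne
    have : t = g * s * g⁻¹ := by rw [hs]; group
    rw [this, h]
    group
  have hS : s ∈ SLd F q := ⟨1, one_ne_zero, by rw [hfix, one_smul]⟩
  have h00 : s.1.1 2 2 = 1 := by
    rw [← entry_eq, hfix, dd_two]
  have hdet := det_MMb hF (⟨s, hS⟩ : SLd F q)
  have hdet' : (MMb s).det = 1 := by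
    have : (MMb s).det * s.1.1 2 2 = 1 := hdet
    rwa [h00, mul_one] at this
  have hMM : MMb s * MMb s = 1 := by
    have h1 := map_mul (MMh hF) (⟨s, hS⟩ : SLd F q) ⟨s, hS⟩
    have h3 : (⟨s, hS⟩ : SLd F q) * ⟨s, hS⟩ = 1 := Subtype.ext hss
    rw [h3, map_one] at h1
    exact h1.symm
  rw [Matrix.det_fin_two] at hdet'
  have e00 : MMb s 0 0 = s.1.1 0 0 := rfl
  have e01 : MMb s 0 1 = s.1.1 0 1 := rfl
  have e10 : MMb s 1 0 = s.1.1 1 0 := rfl
  have e11 : MMb s 1 1 = s.1.1 1 1 := rfl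
  rw [e00, e01, e10, e11] at hdet'
  have hm : ∀ i j : Fin 2, (MMb s * MMb s) i j = (1 : Matrix (Fin 2) (Fin 2) F) i j := by
    intro i j
    rw [hMM]
  have h1 := hm 0 0
  have h3 := hm 0 1
  have h4 := hm 1 0
  have h5 := hm 1 1
  simp only [Matrix.mul_apply, Fin.sum_univ_two, e00, e01, e10, e11] at h1 h3 h4 h5
  simp only [Matrix.one_apply] at h1 h3 h4 h5
  norm_num at h1 h3 h4 h5
  set a := s.1.1 0 0 with ha
  set b := s.1.1 0 1 with hb
  set c' := s.1.1 1 0 with hc'
  set d := s.1.1 1 1 with hd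
  have h6 : a * (a + d) = 2 := by linear_combination h1 + hdet'
  have h7 : a + d ≠ 0 := by
    intro h
    rw [h, mul_zero] at h6
    exact h2 h6.symm
  have hb0 : b = 0 := by
    have : b * (a + d) = 0 := by linear_combination h3
    exact (mul_eq_zero.1 this).resolve_right h7
  have hc0' : c' = 0 := by
    have : c' * (a + d) = 0 := by linear_combination h4
    exact (mul_eq_zero.1 this).resolve_right h7
  rw [hb0] at hdet' h1
  have ha0 : a ≠ 0 := by
    intro h
    rw [h] at hdet'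
    simp at hdet'
  have hd' : d = a := by
    apply mul_left_cancel₀ ha0
    linear_combination hdet' - h1
  have hcol : ∀ i : Fin (1 + 2), i ≠ 2 → s.1.1 i 2 = 0 := fun i hi => col_two hF hS hi
  have hrow : ∀ j : Fin (1 + 2), j ≠ 2 → s.1.1 2 j = 0 := fun j hj => row_two hF hS hj
  have h8 : (a - 1) * (a + 1) = 0 := by linear_combination h1
  rcases mul_eq_zero.1 h8 with h9 | h9
  · exfalso
    apply hsne
    have ha1 : a = 1 := sub_eq_zero.1 h9
    apply ext_act
    intro x
    rw [act_one]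
    funext i
    rw [act_apply]
    fin_cases i
    · show a * x 0 + b * x 1 + s.1.1 0 2 * x 2 = x 0
      rw [hcol 0 (by decide), hb0, ha1]
      ring
    · show c' * x 0 + d * x 1 + s.1.1 1 2 * x 2 = x 1
      rw [hcol 1 (by decide), hc0', hd', ha1]
      ring
    · show s.1.1 2 0 * x 0 + s.1.1 2 1 * x 1 + s.1.1 2 2 * x 2 = x 2
      rw [hrow 0 (by decide), hrow 1 (by decide), h00]
      ring
  · have ha1 : a = -1 := by linear_combination h9
    refine ⟨hfix, ?_⟩
    intro x hx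
    funext i
    rw [act_apply, hx, mul_zero, add_zero]
    fin_cases i
    · show a * x 0 + b * x 1 = - x 0
      rw [hb0, ha1]
      ring
    · show c' * x 0 + d * x 1 = - x 1
      rw [hc0', hd', ha1]
      ring
    · show s.1.1 2 0 * x 0 + s.1.1 2 1 * x 1 = - x 2
      rw [hrow 0 (by decide), hrow 1 (by decide), hx]
      ring

end Conj

section Witt

variable (hF : Fintype.card F = q ^ 2) {K : Subgroup (SU (1 + 2) F q)} {τ : SU (1 + 2) F q}
  (hτ : IsTau τ) (hτK : τ ∈ K)

include hF hτ hτK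

/-- A Witt-type lemma: moves between points of the line can be realised in the centraliser of `τ`. -/
lemma witt (hodd : Odd q) (h2 : (2 : F) ≠ 0) {x y : Fin (1 + 2) → F} (hx : x 2 = 0) (hy : y 2 = 0) (hy0 : y ≠ 0)
    (hyy : hermForm (1 + 2) F q y y = 0) {g : SU (1 + 2) F q} (hg : g ∈ K) {κ : F} (hκ : κ ≠ 0)
    (hgx : act g x = κ • y) : ∃ h ∈ K, h ∈ SLd F q ∧ act h x = κ • y := by
  have hτ2 := hτ.mul_self
  set τ' := g * τ * g⁻¹ with hτ'
  have hτ'K : τ' ∈ K := K.mul_mem (K.mul_mem hg hτK) (K.inv_mem hg)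
  have hτ'2 : τ' * τ' = 1 := by
    rw [hτ']
    calc g * τ * g⁻¹ * (g * τ * g⁻¹) = g * (τ * τ) * g⁻¹ := by group
      _ = 1 := by rw [hτ2]; group
  have hginv : act g⁻¹ y = κ⁻¹ • x := by
    have h1 : y = act g (κ⁻¹ • x) := by
      rw [act_smul, hgx, smul_smul, inv_mul_cancel₀ hκ, one_smul]
    conv_lhs => rw [h1]
    rw [act_inv_act hF]
  have hτ'y : act τ' y = -y := by
    rw [hτ', act_mul, act_mul, hginv, act_smul, hτ.neg x hx, smul_neg, ← neg_one_smul F, act_smul, act_smul, hgx,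
      smul_smul, smul_smul]
    have : (-1 * κ⁻¹ * κ : F) = -1 := by field_simp
    rw [this, neg_one_smul]
  set n := τ * τ' with hn
  have hny : act n y = y := by
    rw [hn, act_mul, hτ'y, ← neg_one_smul F, act_smul, hτ.neg y hy, smul_neg, neg_one_smul, neg_neg]
  have hnS : n ∈ (stabV y : Subgroup (SU (1 + 2) F q)) := hny
  have hnodd : Odd (orderOf n) := by
    have h1 := Subgroup.orderOf_dvd_natCard (stabV y : Subgroup (SU (1 + 2) F q)) hnS
    rw [card_stab hF hy0 hyy] at h1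
    exact Odd.of_dvd_nat (hodd.pow) h1
  obtain ⟨k, hk⟩ := dihedral_conj hτ2 hτ'2 hnodd
  refine ⟨n ^ k * g, K.mul_mem (K.pow_mem (K.mul_mem hτK hτ'K) k) hg, ?_, ?_⟩
  · apply hτ.mem_SLd_of_comm hF h2
    have h1 : (n ^ k * g) * τ * (n ^ k * g)⁻¹ = τ := by
      calc (n ^ k * g) * τ * (n ^ k * g)⁻¹ = n ^ k * (g * τ * g⁻¹) * (n ^ k)⁻¹ := by group
        _ = τ := hk
    calc (n ^ k * g) * τ = ((n ^ k * g) * τ * (n ^ k * g)⁻¹) * (n ^ k * g) := by group
      _ = τ * (n ^ k * g) := by rw [h1]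
  · rw [act_mul, hgx, act_smul]
    have h1 : n ^ k ∈ (stabV y : Subgroup (SU (1 + 2) F q)) := Subgroup.pow_mem _ hnS k
    have h3 : act (n ^ k) y = y := h1
    rw [h3]

variable {α β : F} (hα : α ^ q * α = -1) (hβ : β + β ^ q = -1)
include hα hβ

lemma trans_of_tau (hodd : Odd q) (h2 : (2 : F) ≠ 0) (hT : IsTr α K) (b : Om F q) :
    ∃ g ∈ K0 K, piOm hF g ⟨α, hα⟩ = b := by
  obtain ⟨k, hk, κ, hκ, hkv⟩ := exists_mem_move hF hα hβ hT (pt_ne hF b) (pt_iso hF b)
  obtain ⟨h, hhK, hhS, hh⟩ := witt hF hτ hτK hodd h2 (vE_two α) (vE_two b.1) (pt_ne hF b) (pt_iso hF b) hk hκ hkv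
  exact ⟨⟨h, hhS⟩, hhK, piOm_eq hF (β := ⟨α, hα⟩) (g := ⟨h, hhS⟩) hh⟩

lemma TT1_Kp (hodd : Odd q) (h2 : (2 : F) ≠ 0) : TT1 α (Kp K) = TT1 α K := by
  ext x
  rw [mem_TT1, mem_TT1]
  constructor
  · rintro ⟨g, hg, hB, h⟩
    exact ⟨g, hg.1, hB, h⟩
  · rintro ⟨g, hg, hB, h⟩
    have hgv := act_Bo hB
    rw [h] at hgv
    obtain ⟨k, hk, hkS, hkv⟩ := witt hF hτ hτK hodd h2 (vE_two α) (vE_two α) (vE_ne' hF hα) (vE_iso hF hα) hg
      x.ne_zero hgv
    exact ⟨k, ⟨hk, hkS⟩, ⟨_, x.ne_zero, hkv⟩, cc_eq hkv⟩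

lemma two_dvd_TT1 (h2 : (2 : F) ≠ 0) : 2 ∣ Nat.card (TT1 α K) := by
  classical
  have h1 : (-1 : Fˣ) ∈ TT1 α K := by
    rw [mem_TT1]
    have h3 : act τ (vE (e := 1) α) = (-1 : F) • vE α := by
      rw [hτ.neg _ (vE_two α), neg_one_smul]
    exact ⟨τ, hτK, ⟨_, neg_ne_zero.2 one_ne_zero, h3⟩, by rw [cc_eq h3]; simp⟩
  have h3 : orderOf (-1 : Fˣ) = 2 := by
    apply orderOf_eq_prime (by simp)
    intro h
    have h4 := congrArg (fun t : Fˣ => (t : F)) h
    simp only [Units.val_neg, Units.val_one] at h4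
    apply h2
    linear_combination -h4
  have h4 : orderOf (⟨-1, h1⟩ : TT1 α K) = 2 := by
    rw [← h3]
    exact Subgroup.orderOf_mk _ _
  rw [← h4]
  exact orderOf_dvd_natCard _

end Witt

section CommCase

variable {Ω : Type*} [Finite Ω] (W : Subgroup (Equiv.Perm Ω))

/-- If commutators are `p`-elements and `p` does not divide the order, a transitive group with few
fixed points is regular. -/
lemma le_of_comm_pow (p : ℕ) [hp : Fact p.Prime] (hc : Nat.Coprime p (Nat.card W))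
    (hfix : ∀ w ∈ W, w ≠ 1 → ∀ a b c : Ω, a ≠ b → a ≠ c → b ≠ c → w a = a → w b = b → w c = c → False)
    (htr : ∀ a b : Ω, ∃ w ∈ W, w a = b) (h3 : 2 < Nat.card Ω)
    (hcomm : ∀ u v : W, ∃ n : ℕ, (u * v * u⁻¹ * v⁻¹) ^ (p ^ n) = 1) : Nat.card W ≤ Nat.card Ω := by
  classical
  letI : Fintype Ω := Fintype.ofFinite Ω
  have hne : Nonempty Ω := by
    apply Nat.card_pos_iff.1 (by omega) |>.1
  obtain ⟨a⟩ := hne
  have hC : ∀ x ∈ W, ∀ y ∈ W, x * y = y * x := by
    intro x hx y hy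
    obtain ⟨n, hn⟩ := hcomm ⟨x, hx⟩ ⟨y, hy⟩
    set w : W := ⟨x, hx⟩ * ⟨y, hy⟩ * (⟨x, hx⟩ : W)⁻¹ * (⟨y, hy⟩ : W)⁻¹ with hw
    have h1 : orderOf w ∣ p ^ n := orderOf_dvd_of_pow_eq_one hn
    have h2 : orderOf w ∣ Nat.card W := orderOf_dvd_natCard w
    have h4 : Nat.Coprime (p ^ n) (Nat.card W) := Nat.Coprime.pow_left _ hc
    have h5 : orderOf w = 1 := Nat.dvd_one.1 (h4 ▸ Nat.dvd_gcd h1 h2)
    have h6 : w = 1 := orderOf_eq_one_iff.1 h5
    have h7 : x * y * x⁻¹ * y⁻¹ = 1 := congrArg Subtype.val h6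
    have h8 : x * y * x⁻¹ = y := mul_inv_eq_one.1 h7
    exact mul_inv_eq_iff_eq_mul.1 h8
  have h4 : 2 < (Set.range fun c : W => (c : Equiv.Perm Ω) a).ncard := by
    have h5 : (Set.range fun c : W => (c : Equiv.Perm Ω) a) = Set.univ := by
      ext b
      simp only [Set.mem_range, Set.mem_univ, iff_true]
      obtain ⟨w, hw, hb⟩ := htr a b
      exact ⟨⟨w, hw⟩, hb⟩
    rw [h5, Set.ncard_univ]
    exact h3
  exact card_le_of_comm W hfix W le_rfl hC a h4

end CommCase

end Cfsg.Agent.Lib.U3Min
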