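import Mathlib
import Cfsg.Agent.Lib.U3MinL

/-!
# `SU₃(q)`, `q` odd: subgroups of small index containing a standard involution and no transvection
-/

set_option autoImplicit false
set_option linter.unusedSectionVars false
set_option linter.unusedVariables false
set_option linter.style.haveILetI false

namespace Cfsg.Agent.Lib.U3Min

open Matrix Cfsg Cfsg.Agent.Lib.HermForm Cfsg.Agent.Lib.FFNorm Cfsg.Agent.Lib.UnitaryE
  Cfsg.Agent.Lib.UnitarySU Cfsg.Agent.Lib.SUMinDeg Cfsg.Agent.Lib.PSUIdx Cfsg.Agent.Lib.SL2Core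

variable {F : Type*} [Field F] [Fintype F] {q : ℕ}

lemma num_cop {p f q r : ℕ} (hp : p.Prime) (hf : 1 ≤ f) (hq : q = p ^ f) (hr : r ∣ q ^ 2 - 1) :
    Nat.Coprime p ((q + 1) * r) := by
  have hd : p ∣ q := by
    rw [hq]
    exact dvd_pow_self p (by omega)
  have hq0 : 0 < q := by
    rw [hq]
    exact pow_pos hp.pos f
  have h1 : ¬ p ∣ q + 1 := by
    intro h
    have h2 : p ∣ 1 := (Nat.dvd_add_right hd).1 h
    exact hp.one_lt.ne' (Nat.dvd_one.1 h2)
  have h2 : ¬ p ∣ r := by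
    intro h
    have h3 : p ∣ q ^ 2 - 1 := h.trans hr
    have h4 : p ∣ q ^ 2 := hd.trans (Dvd.intro _ (pow_two q).symm)
    have h5 : q ^ 2 - 1 + 1 = q ^ 2 := by
      have : 0 < q ^ 2 := by positivity
      omega
    have h6 : p ∣ 1 := by
      rw [← h5] at h4
      exact (Nat.dvd_add_right h3).1 h4
    exact hp.one_lt.ne' (Nat.dvd_one.1 h6)
  rw [Nat.Prime.coprime_iff_not_dvd hp]
  intro h
  rcases (Nat.Prime.dvd_mul hp).1 h with h | h
  · exact h1 h
  · exact h2 h

section Odd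

variable (hF : Fintype.card F = q ^ 2) {α β : F} (hα : α ^ q * α = -1) (hβ : β + β ^ q = -1)
  {K : Subgroup (SU (1 + 2) F q)} {τ : SU (1 + 2) F q}

include hF hα hβ

/-- The odd case without transvections. -/
theorem odd_case (p : ℕ) [hp : Fact p.Prime] [CharP F p] {f : ℕ} (hf : 1 ≤ f) (hqf : q = p ^ f) (hodd : Odd q)
    (h2 : (2 : F) ≠ 0) (hq3 : 3 ≤ q) (h5 : q ≠ 5) (hi : K.index < q ^ 3 + 1) (hZ : ∀ s ∈ ZZ hF hα K, s = 0)
    (hτ : IsTau τ) (hτK : τ ∈ K) : (q = 3 ∧ Nat.card K = 224) ∨ (q = 11 ∧ Nat.card K = 439560) := by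
  classical
  have hT := isTr_of_index_lt hF hα hβ hi
  obtain ⟨hd1, hd2⟩ := data_of_isTr (K := K) hF hα hβ hT
  have ha : Nat.card (ZZ hF hα K) = 1 := by
    rw [Nat.card_eq_one_iff_unique]
    refine ⟨⟨?_⟩, ⟨⟨0, (ZZ hF hα K).zero_mem⟩⟩⟩
    rintro ⟨a, ha⟩ ⟨b, hb⟩
    apply Subtype.ext
    show a = b
    rw [hZ a ha, hZ b hb]
  rw [ha, mul_one] at hd1 hd2
  have hb := num_bound (by omega) hi hd1
  have htd := card_TT1_dvd hF hα hβ (K := K)
  have h2t := two_dvd_TT1 hF hτ hτK hα hβ h2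
  have htr0 := trans_of_tau hF hτ hτK hα hβ hodd h2 hT
  have htr : ∀ a b : Om F q, ∃ g ∈ K0 K, piOm hF g a = b := by
    intro a b
    obtain ⟨g₁, hg₁, h1⟩ := htr0 a
    obtain ⟨g₂, hg₂, h3⟩ := htr0 b
    refine ⟨g₂ * g₁⁻¹, (K0 K).mul_mem hg₂ ((K0 K).inv_mem hg₁), ?_⟩
    rw [map_mul, map_inv, Equiv.Perm.mul_apply]
    have h4 : (piOm hF g₁)⁻¹ a = ⟨α, hα⟩ := by
      rw [Equiv.Perm.inv_eq_iff_eq]
      exact h1.symm
    rw [h4, h3]
  have hW := card_W_eq hF hα hβ (K := K) htr0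
  have hR := card_range_mul hF hα hβ (K := K)
  rw [TT1_Kp hF hτ hτK hα hβ hodd h2, ha, mul_one] at hR
  have hi1 := card_ker_dvd_succ hF hα hβ (K := K)
  have hKT : TT1 α (Kp K) = TT1 α K := TT1_Kp hF hτ hτK hα hβ hodd h2
  have htrW : ∀ a b : Om F q, ∃ w ∈ (K0 K).map (piOm hF), w a = b := by
    intro a b
    obtain ⟨g, hg, h1⟩ := htr a b
    exact ⟨_, ⟨g, hg, rfl⟩, h1⟩
  have hfixW := fix_W hF (W := (K0 K).map (piOm hF)) (by rintro _ ⟨g, _, rfl⟩; exact ⟨g, rfl⟩)
  have hcard3 : 2 < Nat.card (Om F q) := by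
    rw [card_Om hF]
    omega
  have hcomm := fun hc => le_of_comm_pow ((K0 K).map (piOm hF)) p hc hfixW htrW hcard3
  rw [card_Om hF] at hcomm
  have hlist : 4 ≤ q → _ := fun hq4 => list_SLd hF p hq4 (K0 K) htr
  set W := Nat.card ((K0 K).map (piOm hF)) with hWd
  set r := Nat.card (fBo hF α K).range with hrd
  set i := Nat.card (fBo hF α K).ker with hid
  set t := Nat.card (TT1 α K) with htd'
  set y := Nat.card (YY hF hα K) with hyd
  have hrt : r ∣ q ^ 2 - 1 := (Dvd.intro _ hR).trans htd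
  have hcop : Nat.Coprime p W := by
    rw [hW]
    exact num_cop hp.out hf hqf hrt
  by_cases hy1 : y = 1
  · -- `Y` trivial
    rw [hy1, mul_one] at hb hd2
    have hq2 : 0 < q ^ 2 - 1 := by
      have : 1 < q ^ 2 := Nat.one_lt_pow (by norm_num) (by omega)
      omega
    have ht : t = q ^ 2 - 1 := le_antisymm (Nat.le_of_dvd hq2 htd) hb
    by_cases hq3' : q = 3
    · left
      refine ⟨hq3', ?_⟩
      rw [hd2, ht, hq3']
      norm_num
    · exfalso
      have hq4 : 4 ≤ q := by omega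
      have hWs := num_W_small (by omega) hW hR hi1 ht
      have hdW : (q + 1) ∣ W := by
        rw [hW]
        exact Dvd.intro _ rfl
      rcases hlist hq4 with h | h | h | h | ⟨h, -⟩ | ⟨e, he, h⟩
      · exact num_small_le hq4 hWs h
      · exact num_small_alt hq4 hodd h5 hWs hdW (Or.inl h)
      · exact num_small_alt hq4 hodd h5 hWs hdW (Or.inr (Or.inl h))
      · exact num_small_alt hq4 hodd h5 hWs hdW (Or.inr (Or.inr h))
      · have := hcomm hcop h
        exact num_small_le hq4 hWs (by omega)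
      · have h3 := num_psl hp.out hf he hqf hW (by rw [hR, mul_one]) htd h
        have := Nat.le_of_dvd (by norm_num) h3
        omega
  · -- `Y` non-trivial
    right
    have hshape : ∃ u₀ ∈ YY hF hα K, u₀ 0 ≠ 0 ∧ ∀ u ∈ YY hF hα K, Pr q (u 0) (u₀ 0) := by
      rcases Y_cases (K := K) hF hα with h1 | h1 | ⟨u₀, hu₀, u₁, hu₁, hn⟩
      · exact absurd h1 hy1
      · exact h1
      · exfalso
        apply hn
        have := hZ _ (comm_mem hF hα hu₀ hu₁)
        unfold Pr
        linear_combination this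
    obtain ⟨u₀, hu₀, hu0, hall⟩ := hshape
    have hyq : y ∣ q := card_Y_dvd hF hα hu0 hall
    have hTp : ∀ x ∈ TT1 α K, x ^ (3 * (q - 1)) = 1 := fun x hx => T_pow hF hα hβ hu₀ hu0 hall hx
    have ht1 : t ∣ 3 * (q - 1) := card_dvd_of_pow_eq_one _ _ hTp
    obtain ⟨h7, h8, h9, h10⟩ := num_y_big hq3 hodd hyq hy1 ht1 htd hb
    have hq4 : 4 ≤ q := by
      by_contra hc
      have : q = 3 := by omega
      rw [this] at h8
      omega
    have hi6 : i ∣ 6 := by
      apply num_ker_six (q := q) (by omega) hi1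
      apply card_ker_dvd_T hF hα hβ
      rw [hKT]
      exact hTp
    have hWb := num_W_big (by omega) hW hR hi6 h10
    have hq11 : q = 11 := by
      rcases hlist hq4 with h | h | h | h | ⟨h, -⟩ | ⟨e, he, h⟩
      · exact (num_big_le hq4 hodd h5 h8 hWb h).elim
      · exact num_big_alt hq4 hodd h5 h8 hWb (Or.inl h)
      · exact num_big_alt hq4 hodd h5 h8 hWb (Or.inr (Or.inl h))
      · exact num_big_alt hq4 hodd h5 h8 hWb (Or.inr (Or.inr h))
      · have := hcomm hcop h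
        exact (num_big_le hq4 hodd h5 h8 hWb (by omega)).elim
      · have h3 := num_psl hp.out hf he hqf hW (by rw [hR, mul_one]) htd h
        have := Nat.le_of_dvd (by norm_num) h3
        omega
    refine ⟨hq11, ?_⟩
    have ht30 : t = 30 := by
      apply num_eleven _ h2t
      · rw [← hq11]
        exact h9
      · rw [hq11] at ht1
        exact ht1
    rw [hd2, ht30, h7, hq11]
    norm_num

end Odd

end Cfsg.Agent.Lib.U3Min
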