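import Mathlib
import Cfsg.Agent.Lib.U3MinM

/-!
# `SU₃(q)`: the possible orders of subgroups of small index
-/

set_option autoImplicit false
set_option linter.unusedSectionVars false
set_option linter.unusedVariables false
set_option linter.style.haveILetI false

namespace Cfsg.Agent.Lib.U3Min

open Matrix Cfsg Cfsg.Agent.Lib.HermForm Cfsg.Agent.Lib.FFNorm Cfsg.Agent.Lib.UnitaryE
  Cfsg.Agent.Lib.UnitarySU Cfsg.Agent.Lib.SUMinDeg Cfsg.Agent.Lib.PSUIdx Cfsg.Agent.Lib.SL2Core
open Cfsg.Agent.Lib.PSU35A (cj mem_cj)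

variable {F : Type*} [Field F] [Fintype F] {q : ℕ}

lemma card_cj {G : Type*} [Group G] (g : G) (K : Subgroup G) : Nat.card (cj g K) = Nat.card K :=
  Nat.card_congr (K.equivMapOfInjective _ (MulAut.conj g).injective).toEquiv.symm

lemma index_cj {G : Type*} [Group G] (g : G) (K : Subgroup G) : (cj g K).index = K.index :=
  Subgroup.index_map_of_bijective (MulAut.conj g).bijective K

lemma cj_ne_top {G : Type*} [Group G] [Finite G] (g : G) {K : Subgroup G} (hK : K ≠ ⊤) : cj g K ≠ ⊤ := by
  intro h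
  apply hK
  rw [eq_top_iff]
  intro x _
  have h1 : g * x * g⁻¹ ∈ cj g K := by rw [h]; trivial
  rw [mem_cj] at h1
  simpa [mul_assoc] using h1

/-- The frame exists. -/
lemma exists_frame (hF : Fintype.card F = q ^ 2) : ∃ α β : F, α ^ q * α = -1 ∧ β + β ^ q = -1 := by
  obtain ⟨α, -, hα⟩ := exists_norm_eq hF (μ := (-1 : F)) (neg_ne_zero.2 one_ne_zero) (by rw [neg_pow_q hF, one_pow])
  obtain ⟨β, hβ⟩ := exists_trace_eq hF (t := (-1 : F)) (by rw [neg_pow_q hF, one_pow])
  exact ⟨α, β, by rw [← hα, pow_succ], hβ⟩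

variable (hF : Fintype.card F = q ^ 2) {K : Subgroup (SU (1 + 2) F q)}

include hF

/-- The possible orders of a proper subgroup of small index. -/
theorem bad_card (h3 : 3 ≤ q) (h5 : q ≠ 5) (hK : K ≠ ⊤) (hi : K.index < q ^ 3 + 1) :
    (q = 3 ∧ Nat.card K = 224) ∨ (q = 8 ∧ Nat.card K = 36936) ∨ (q = 9 ∧ Nat.card K = 78840) ∨
    (q = 11 ∧ Nat.card K = 439560) := by
  classical
  obtain ⟨p, f, hpp, hch, hqf⟩ := exists_char_pow hF
  haveI : Fact p.Prime := ⟨hpp⟩
  have hf : 1 ≤ f := by
    by_contra hc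
    have : f = 0 := by omega
    rw [this, pow_zero] at hqf
    omega
  obtain ⟨α, β, hα, hβ⟩ := exists_frame hF
  by_cases hZ : ∃ s ∈ ZZ hF hα K, s ≠ 0
  · obtain ⟨s, hs, hs0⟩ := hZ
    rcases z_big hF hα hβ p hf hqf h3 hK hi hs hs0 with h | h
    · exact Or.inr (Or.inl h)
    · exact Or.inr (Or.inr (Or.inl h))
  · push Not at hZ
    by_cases h20 : (2 : F) = 0
    · exfalso
      have hp2 : p = 2 := by
        have h4 : (((2 : ℕ) : F)) = 0 := by exact_mod_cast h20
        have h6 : p ∣ 2 := (CharP.cast_eq_zero_iff F p 2).1 h4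
        exact (Nat.prime_dvd_prime_iff_eq hpp Nat.prime_two).1 h6
      subst hp2
      exact even_case hF hα hβ hf hqf h20 h3 hi hZ
    · have hodd : Odd q := by
        rw [hqf]
        apply Odd.pow
        apply hpp.odd_of_ne_two
        rintro rfl
        apply h20
        have h4 : (((2 : ℕ) : F)) = 0 := CharP.cast_eq_zero F 2
        exact_mod_cast h4
      have hT := isTr_of_index_lt hF hα hβ hi
      have hcard := (data_of_isTr (K := K) hF hα hβ hT).2
      have hev : 2 ∣ Nat.card K := by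
        rw [hcard]
        apply Dvd.dvd.mul_left
        have h6 : Odd (q ^ 3) := hodd.pow
        exact (h6.add_one).two_dvd
      haveI : Fact (Nat.Prime 2) := ⟨Nat.prime_two⟩
      obtain ⟨t, ht⟩ := exists_prime_orderOf_dvd_card' 2 hev
      have ht1 : (t : SU (1 + 2) F q) * t = 1 := by
        have h6 := pow_orderOf_eq_one t
        rw [ht, pow_two] at h6
        exact congrArg Subtype.val h6
      have ht2 : (t : SU (1 + 2) F q) ≠ 1 := by
        intro h
        have h6 : t = 1 := Subtype.ext h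
        rw [h6, orderOf_one] at ht
        omega
      obtain ⟨g, hg⟩ := exists_conj_tau hF h20 ht1 ht2
      set K' := cj g⁻¹ K with hK'
      have hτK : g⁻¹ * t * g ∈ K' := by
        rw [hK', mem_cj]
        simpa [mul_assoc] using t.2
      have hK'0 : K' ≠ ⊤ := cj_ne_top _ hK
      have hi' : K'.index < q ^ 3 + 1 := by
        rw [hK', index_cj]
        exact hi
      have hc' : Nat.card K' = Nat.card K := card_cj _ _
      by_cases hZ' : ∃ s ∈ ZZ hF hα K', s ≠ 0
      · obtain ⟨s, hs, hs0⟩ := hZ'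
        rw [← hc']
        rcases z_big hF hα hβ p hf hqf h3 hK'0 hi' hs hs0 with h | h
        · exact Or.inr (Or.inl h)
        · exact Or.inr (Or.inr (Or.inl h))
      · push Not at hZ'
        rw [← hc']
        rcases odd_case hF hα hβ p hf hqf hodd h20 h3 h5 hi' hZ' hg hτK with h | h
        · exact Or.inl h
        · exact Or.inr (Or.inr (Or.inr h))

end Cfsg.Agent.Lib.U3Min
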