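import Mathlib
import Cfsg.Agent.Lib.U3MinO

/-!
# `SU₃(q)`: elements of large prime order
-/

set_option autoImplicit false
set_option linter.unusedSectionVars false
set_option linter.unusedVariables false
set_option linter.style.haveILetI false

namespace Cfsg.Agent.Lib.U3Min

open Matrix Cfsg Cfsg.Agent.Lib.HermForm Cfsg.Agent.Lib.FFNorm Cfsg.Agent.Lib.UnitaryE
  Cfsg.Agent.Lib.UnitarySU Cfsg.Agent.Lib.SUMinDeg Cfsg.Agent.Lib.PSUIdx Cfsg.Agent.Lib.SL2Core

variable {F : Type*} [Field F] [Fintype F] {q : ℕ}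

lemma det_sub_one_of_trace (M : Matrix (Fin 3) (Fin 3) F) (hdet : M.det = 1)
    (htr : (Matrix.adjugate M).trace = M.trace) : (M - 1).det = 0 := by
  rw [Matrix.det_fin_three] at hdet ⊢
  rw [Matrix.adjugate_fin_three] at htr
  simp only [Matrix.trace, Fin.sum_univ_three, Matrix.diag_apply] at htr
  simp [Matrix.one_apply] at htr ⊢
  linear_combination hdet - htr

section Prime

variable (hF : Fintype.card F = q ^ 2) {r : ℕ} [hr : Fact r.Prime] (hr1 : ¬ r ∣ q)
  (hr2 : Nat.Coprime r (q ^ 2 - 1)) (hr3 : q + 1 < r) {x : SU (1 + 2) F q}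

include hF

lemma act_pow_eig {z : Fin (1 + 2) → F} {l : F} (h : act x z = l • z) (n : ℕ) :
    act (x ^ n) z = l ^ n • z := by
  induction n with
  | zero => simp [act_one]
  | succ n ih =>
    rw [pow_succ, act_mul, h, act_smul, ih, smul_smul, pow_succ, mul_comm]

lemma one_of_pow_eig {z : Fin (1 + 2) → F} {l : F} (hz0 : z ≠ 0) (h : act x z = l • z) {n : ℕ} (hn : x ^ n = 1) :
    l ^ n = 1 := by
  have h1 := act_pow_eig hF h n
  rw [hn, act_one] at h1
  by_contra hne
  apply hz0
  have h2 : (l ^ n - 1) • z = 0 := by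
    rw [sub_smul, ← h1, one_smul, sub_self]
  exact (smul_eq_zero.1 h2).resolve_left (sub_ne_zero.2 hne)

include hr1 hr2

/-- Elements of large prime order have no isotropic eigenvector. -/
lemma no_eig (hx : x ^ r = 1) (hx1 : x ≠ 1) {z : Fin (1 + 2) → F} (hz0 : z ≠ 0)
    (hzz : hermForm (1 + 2) F q z z = 0) {l : F} (h : act x z = l • z) : False := by
  have hl0 : l ≠ 0 := by
    rintro rfl
    rw [zero_smul] at h
    exact act_ne_zero hF x hz0 h
  have h1 := one_of_pow_eig hF hz0 h hx
  have h2 : l ^ (q ^ 2 - 1) = 1 := by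
    rw [← hF]
    exact FiniteField.pow_card_sub_one_eq_one l hl0
  have h3 : l = 1 := by
    have h7 := Nat.dvd_gcd (orderOf_dvd_of_pow_eq_one h1) (orderOf_dvd_of_pow_eq_one h2)
    rw [hr2] at h7
    exact orderOf_eq_one_iff.1 (Nat.dvd_one.1 h7)
  rw [h3, one_smul] at h
  have h4 : x ∈ (stabV z : Subgroup (SU (1 + 2) F q)) := h
  have h5 := Subgroup.orderOf_dvd_natCard _ h4
  rw [card_stab hF hz0 hzz] at h5
  have h6 : orderOf x = r := orderOf_eq_prime hx hx1
  rw [h6] at h5
  exact hr1 (hr.out.dvd_of_dvd_pow h5)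

include hr3

/-- Elements of large prime order have no fixed vector. -/
lemma no_fix (hx : x ^ r = 1) (hx1 : x ≠ 1) {y : Fin (1 + 2) → F} (hy0 : y ≠ 0) (hy : act x y = y) : False := by
  classical
  by_cases hN : hermForm (1 + 2) F q y y = 0
  · exact no_eig hF hr1 hr2 hx hx1 hy0 hN (l := 1) (by rw [one_smul]; exact hy)
  · obtain ⟨c, hc0, hc⟩ := exists_norm_eq hF hN (hermForm_conj hF y y)
    have hy0' : c⁻¹ • y ≠ 0 := by
      intro h
      have h1 : y = 0 := by simpa [hc0] using h
      exact hy0 h1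
    have hdd0 : dd F ≠ 0 := by
      intro h
      have := congrFun h 2
      rw [dd_two] at this
      exact one_ne_zero this
    have hN1 : hermForm (1 + 2) F q (dd F) (dd F) = hermForm (1 + 2) F q (c⁻¹ • y) (c⁻¹ • y) := by
      rw [herm_dd_self hF, hermForm_smul_left, hermForm_smul_right, ← hc, inv_pow, pow_succ]
      field_simp
    obtain ⟨g, hg⟩ := lev_trans hF (n := 1 + 2) (by norm_num) hdd0 hy0' hN1
    set x' := g⁻¹ * x * g with hx'
    have hfix : act x' (dd F) = dd F := by
      rw [hx', act_mul, act_mul, hg, act_smul, hy, ← hg, act_inv_act hF]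
    have hS : x' ∈ SLd F q := ⟨1, one_ne_zero, by rw [hfix, one_smul]⟩
    have hx'r : x' ^ r = 1 := by
      have h9 : g⁻¹ * x * g = g⁻¹ * x * g⁻¹⁻¹ := by rw [inv_inv]
      rw [hx', h9, conj_pow, hx]
      group
    letI : Fintype (Om F q) := Fintype.ofFinite _
    let f : Function.End (Om F q) := fun β => piOm hF ⟨x', hS⟩ β
    have hf : f ^ r ^ 1 = 1 := by
      rw [pow_one]
      have h1 : piOm hF ⟨x', hS⟩ ^ r = 1 := by
        rw [← map_pow]
        have h2 : (⟨x', hS⟩ : SLd F q) ^ r = 1 := Subtype.ext hx'r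
        rw [h2, map_one]
      have h3 : ∀ n : ℕ, ∀ β, (f ^ n) β = (piOm hF ⟨x', hS⟩ ^ n) β := by
        intro n β
        induction n generalizing β with
        | zero => rfl
        | succ n ih =>
          rw [pow_succ, pow_succ]
          show (f ^ n) (f β) = _
          rw [ih]
          rfl
      funext β
      rw [h3, h1]
      rfl
    have h4 := Equiv.Perm.card_fixedPoints_modEq hf
    have h5 : Fintype.card (Function.fixedPoints f) ≠ 0 := by
      intro h0
      rw [h0, ← Nat.card_eq_fintype_card, card_Om hF] at h4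
      have h6 : r ∣ q + 1 := (Nat.modEq_zero_iff_dvd).1 h4
      have := Nat.le_of_dvd (by omega) h6
      omega
    obtain ⟨⟨β, hβ⟩⟩ := Fintype.card_pos_iff.1 (Nat.pos_of_ne_zero h5)
    obtain ⟨κ, hκ, hh⟩ := piOm_spec hF (⟨x', hS⟩ : SLd F q) β
    have hβ' : piOm hF ⟨x', hS⟩ β = β := hβ
    rw [hβ'] at hh
    have h7 : act x (act g (vE β.1)) = κ • act g (vE β.1) := by
      have hh' : act x' (vE (e := 1) β.1) = κ • vE β.1 := hh
      rw [← act_smul, ← hh', hx']
      simp only [act_mul]
      rw [act_act_inv' hF]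
    apply no_eig hF hr1 hr2 hx hx1 (act_ne_zero hF g (pt_ne hF β)) _ h7
    rw [herm_act]
    exact pt_iso hF β

/-- Elements of large prime order are not inverted. -/
lemma no_inversion (hx : x ^ r = 1) (hx1 : x ≠ 1) {t : SU (1 + 2) F q} (h : t * x * t⁻¹ = x⁻¹) : False := by
  have hdet : (x.1.1 : Matrix (Fin (1 + 2)) (Fin (1 + 2)) F).det = 1 := x.1.2
  have h1 : (x⁻¹).1.1 = Matrix.adjugate (x.1.1 : Matrix (Fin (1 + 2)) (Fin (1 + 2)) F) :=
    Matrix.SpecialLinearGroup.coe_inv x.1
  have h2 : ((t * x * t⁻¹).1.1 : Matrix (Fin (1 + 2)) (Fin (1 + 2)) F) = t.1.1 * x.1.1 * (t⁻¹).1.1 := rfl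
  have h3 : ((t⁻¹).1.1 : Matrix (Fin (1 + 2)) (Fin (1 + 2)) F) * t.1.1 = 1 := by
    have : ((t⁻¹ * t).1.1 : Matrix (Fin (1 + 2)) (Fin (1 + 2)) F) = 1 := by
      rw [inv_mul_cancel]
      rfl
    exact this
  have h4 : Matrix.trace (Matrix.adjugate (x.1.1 : Matrix (Fin (1 + 2)) (Fin (1 + 2)) F)) =
      Matrix.trace (x.1.1 : Matrix (Fin (1 + 2)) (Fin (1 + 2)) F) := by
    rw [← h1, ← h, h2, Matrix.trace_mul_comm, ← Matrix.mul_assoc, h3, Matrix.one_mul]
  have h5 := det_sub_one_of_trace (x.1.1 : Matrix (Fin 3) (Fin 3) F) hdet h4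
  obtain ⟨v, hv0, hv⟩ := Matrix.exists_mulVec_eq_zero_iff.2 h5
  apply no_fix hF hr1 hr2 hr3 hx hx1 hv0
  rw [Matrix.sub_mulVec, Matrix.one_mulVec, sub_eq_zero] at hv
  exact hv

omit hr1 hr2 hr3 in
lemma iso_perp_prop {z z' : Fin (1 + 2) → F} (hz0 : z ≠ 0) (hzz : hermForm (1 + 2) F q z z = 0)
    (hz'z' : hermForm (1 + 2) F q z' z' = 0) (hperp : hermForm (1 + 2) F q z' z = 0) : ∃ μ : F, z' = μ • z := by
  obtain ⟨α, β, hα, hβ⟩ := exists_frame hF
  obtain ⟨g, hg⟩ := exists_act_eq hF (n := 1 + 2) (by norm_num) (vE_iso hF hα) (vE_ne' hF hα) hzz hz0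
  by_cases hz'0 : z' = 0
  · exact ⟨0, by rw [hz'0, zero_smul]⟩
  by_contra hcon
  push Not at hcon
  have h1 : act g⁻¹ z' ≠ 0 := act_ne_zero hF _ hz'0
  have h2 : hermForm (1 + 2) F q (act g⁻¹ z') (act g⁻¹ z') = 0 := by
    rw [herm_act]
    exact hz'z'
  apply herm_ne_of_not_prop hF hα hβ h1 h2
  · intro c h3
    apply hcon c
    rw [← act_act_inv' hF g z', h3, act_smul, hg]
  · have h3 : hermForm (1 + 2) F q (act g⁻¹ z') (vE α) = hermForm (1 + 2) F q (act g (act g⁻¹ z')) (act g (vE α)) := by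
      rw [herm_act]
    rw [h3, act_act_inv' hF, hg]
    exact hperp

/-- Elements of large prime order do not commute with an involution. -/
lemma no_comm_inv (hx : x ^ r = 1) (hx1 : x ≠ 1) {t : SU (1 + 2) F q} (ht : t * t = 1) (hne : t ≠ 1)
    (hc : t * x = x * t) : False := by
  by_cases h2 : (2 : F) = 0
  · -- characteristic two
    have htt : ∀ a, act t (act t a) = a := by
      intro a
      rw [← act_mul, ht, act_one]
    let P : (Fin (1 + 2) → F) → (Fin (1 + 2) → F) := fun a => act t a + a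
    have hperp : ∀ a b, hermForm (1 + 2) F q (P a) (P b) = 0 := by
      intro a b
      have h3 : hermForm (1 + 2) F q a (act t b) = hermForm (1 + 2) F q (act t a) b := by
        conv_rhs => rw [← htt b]
        rw [herm_act]
      show hermForm (1 + 2) F q (act t a + a) (act t b + b) = 0
      rw [hermForm_add_left, hermForm_add_right hF, hermForm_add_right hF, herm_act, h3]
      linear_combination (hermForm (1 + 2) F q (act t a) b + hermForm (1 + 2) F q a b) * h2
    obtain ⟨a, ha⟩ : ∃ a, P a ≠ 0 := by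
      by_contra hcon
      push Not at hcon
      apply hne
      apply ext_act
      intro a
      rw [act_one]
      have h3 := hcon a
      have h4 : act t a + a = 0 := h3
      funext i
      have h5 := congrFun h4 i
      simp only [Pi.add_apply, Pi.zero_apply] at h5
      linear_combination h5 - a i * h2
    have hPx : act x (P a) = P (act x a) := by
      show act x (act t a + a) = act t (act x a) + act x a
      rw [act_add, ← act_mul, ← act_mul, hc]
    obtain ⟨μ, hμ⟩ := iso_perp_prop hF (z := P a) (z' := act x (P a)) ha (hperp a a) (by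
      rw [herm_act]
      exact hperp a a) (by
      rw [hPx]
      exact hperp _ a)
    exact no_eig hF hr1 hr2 hx hx1 ha (hperp a a) hμ
  · -- odd characteristic
    obtain ⟨g, hg⟩ := exists_conj_tau hF h2 ht hne
    set x' := g⁻¹ * x * g with hx'
    have hc' : x' * (g⁻¹ * t * g) = (g⁻¹ * t * g) * x' := by
      rw [hx']
      calc g⁻¹ * x * g * (g⁻¹ * t * g) = g⁻¹ * (x * t) * g := by group
        _ = g⁻¹ * (t * x) * g := by rw [hc]
        _ = _ := by group
    obtain ⟨l, hl0, hl⟩ := hg.mem_SLd_of_comm hF h2 hc'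
    have hx'r : x' ^ r = 1 := by
      have h9 : g⁻¹ * x * g = g⁻¹ * x * g⁻¹⁻¹ := by rw [inv_inv]
      rw [hx', h9, conj_pow, hx]
      group
    have hx'1 : x' ≠ 1 := by
      intro h
      apply hx1
      have h9 : x = g * x' * g⁻¹ := by rw [hx']; group
      rw [h9, h]
      group
    have hdd0 : dd F ≠ 0 := by
      intro h
      have := congrFun h 2
      rw [dd_two] at this
      exact one_ne_zero this
    have h3 := one_of_pow_eig hF hdd0 hl hx'r
    have hS : x' ∈ SLd F q := ⟨l, hl0, hl⟩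
    have h4 := corner_norm hF hS
    have h5 : x'.1.1 2 2 = l := by
      rw [← entry_eq, hl]
      show l * dd F 2 = l
      rw [dd_two, mul_one]
    rw [h5, ← pow_succ] at h4
    have hcop : Nat.Coprime r (q + 1) := by
      rw [Nat.Prime.coprime_iff_not_dvd hr.out]
      intro h
      have := Nat.le_of_dvd (by omega) h
      omega
    have h6 : l = 1 := by
      have h7 := Nat.dvd_gcd (orderOf_dvd_of_pow_eq_one h3) (orderOf_dvd_of_pow_eq_one h4)
      rw [hcop] at h7
      exact orderOf_eq_one_iff.1 (Nat.dvd_one.1 h7)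
    apply no_fix hF hr1 hr2 hr3 hx'r hx'1 hdd0
    rw [hl, h6, one_smul]

/-- No involution normalises the cyclic group generated by an element of large prime order. -/
lemma no_inv_normal (hx : x ^ r = 1) (hx1 : x ≠ 1) {t : SU (1 + 2) F q} (ht : t * t = 1) (hne : t ≠ 1) {k : ℕ}
    (h : t * x * t⁻¹ = x ^ k) : False := by
  have htinv : t⁻¹ = t := inv_eq_of_mul_eq_one_left ht
  have hord : orderOf x = r := orderOf_eq_prime hx hx1
  have h1 : x = x ^ (k * k) := by
    have h2 : t * (t * x * t⁻¹) * t⁻¹ = x := by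
      rw [htinv]
      calc t * (t * x * t) * t = (t * t) * x * (t * t) := by group
        _ = x := by rw [ht]; group
    rw [h, ← conj_pow, h, ← pow_mul] at h2
    exact h2.symm
  have h3 : k * k ≡ 1 [MOD r] := by
    have h4 : x ^ (k * k) = x ^ 1 := by rw [pow_one, ← h1]
    rw [pow_eq_pow_iff_modEq, hord] at h4
    exact h4
  have h5 : ((k : ZMod r)) * k = 1 := by
    have := (ZMod.natCast_eq_natCast_iff _ _ _).2 h3
    push_cast at this
    exact this
  rcases mul_self_eq_one_iff.1 h5 with h6 | h6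
  · have h7 : x ^ k = x := by
      have h8 : k ≡ 1 [MOD r] := by
        apply (ZMod.natCast_eq_natCast_iff _ _ _).1
        rw [h6]
        simp
      have h9 := (pow_eq_pow_iff_modEq (x := x) (n := k) (m := 1)).2 (by rw [hord]; exact h8)
      rwa [pow_one] at h9
    rw [h7] at h
    apply no_comm_inv hF hr1 hr2 hr3 hx hx1 ht hne
    have h9 := congrArg (fun z => z * t) h
    simp only [inv_mul_cancel_right] at h9
    exact h9
  · have h7 : x ^ k = x⁻¹ := by
      have h8 : r ∣ k + 1 := by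
        rw [← ZMod.natCast_eq_zero_iff]
        push_cast
        rw [h6]
        ring
      obtain ⟨m, hm⟩ := h8
      have h9 : x ^ (k + 1) = 1 := by rw [hm, pow_mul, hx, one_pow]
      exact eq_inv_of_mul_eq_one_left (by rw [← pow_succ]; exact h9)
    rw [h7] at h
    exact no_inversion hF hr1 hr2 hr3 hx hx1 h

end Prime

end Cfsg.Agent.Lib.U3Min
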