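import Mathlib

/-!
# Sylow counting lemmas
-/

set_option autoImplicit false
set_option linter.unusedSectionVars false
set_option linter.unusedVariables false
set_option linter.style.haveILetI false

namespace Cfsg.Agent.Lib.U3Min

section Sylow

variable {G : Type*} [Group G] [Finite G] (r : ℕ) [hr : Fact r.Prime]

lemma card_sylow_prime (hd : r ∣ Nat.card G) (hnd : ¬ r ^ 2 ∣ Nat.card G) (P : Sylow r G) : Nat.card P = r := by
  rw [Sylow.card_eq_multiplicity]
  have h0 : Nat.card G ≠ 0 := Nat.card_pos.ne'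
  have h1 : 1 ≤ (Nat.card G).factorization r :=
    (hr.out.pow_dvd_iff_le_factorization h0).1 (by simpa using hd)
  have h2 : ¬ 2 ≤ (Nat.card G).factorization r := fun h =>
    hnd ((hr.out.pow_dvd_iff_le_factorization h0).2 h)
  have h3 : (Nat.card G).factorization r = 1 := by omega
  rw [h3, pow_one]

/-- Numerical data for Sylow subgroups of prime order with odd normaliser. -/
theorem sylow_data (hnot : ∀ x : G, orderOf x = r → ∀ t : G, t * t = 1 → t ≠ 1 → ∀ k : ℕ, t * x * t⁻¹ ≠ x ^ k)
    (hd : r ∣ Nat.card G) (hnd : ¬ r ^ 2 ∣ Nat.card G) {e : ℕ} (he : 2 ^ e ∣ Nat.card G) :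
    2 ^ e ∣ Nat.card (Sylow r G) ∧ Nat.card (Sylow r G) * r ∣ Nat.card G ∧ Nat.card (Sylow r G) ≡ 1 [MOD r] := by
  classical
  haveI : Fact (Nat.Prime 2) := ⟨Nat.prime_two⟩
  obtain ⟨P⟩ : Nonempty (Sylow r G) := inferInstance
  have hP := card_sylow_prime r hd hnd P
  have hn : Nat.card (Sylow r G) = (Subgroup.normalizer (P : Set G)).index := Sylow.card_eq_index_normalizer P
  have hmul : Nat.card (Subgroup.normalizer (P : Set G)) * Nat.card (Sylow r G) = Nat.card G := by
    rw [hn]
    exact Subgroup.card_mul_index _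
  -- the generator
  haveI : IsCyclic P := isCyclic_of_prime_card hP
  obtain ⟨x, hx⟩ := IsCyclic.exists_generator (α := P)
  have hxo : orderOf (x : G) = r := by
    rw [Subgroup.orderOf_coe]
    exact (orderOf_eq_card_of_forall_mem_zpowers hx).trans hP
  have hodd : ¬ 2 ∣ Nat.card (Subgroup.normalizer (P : Set G)) := by
    intro h2
    obtain ⟨t, ht⟩ := exists_prime_orderOf_dvd_card' 2 h2
    have ht1 : (t : G) * t = 1 := by
      have h6 := pow_orderOf_eq_one t
      rw [ht, pow_two] at h6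
      exact congrArg Subtype.val h6
    have ht2 : (t : G) ≠ 1 := by
      intro h
      have h6 : t = 1 := Subtype.ext h
      rw [h6, orderOf_one] at ht
      omega
    have hmem : (t : G) * x * (t : G)⁻¹ ∈ (P : Subgroup G) := (Subgroup.mem_normalizer_iff.1 t.2 x).1 x.2
    obtain ⟨m, hm⟩ := hx ⟨_, hmem⟩
    have hm' : (x : G) ^ m = (t : G) * x * (t : G)⁻¹ := by
      have := congrArg Subtype.val hm
      simpa using this
    obtain ⟨k, hk⟩ : ∃ k : ℕ, (x : G) ^ m = (x : G) ^ k := by
      have h8 : (x : G) ∈ Subgroup.zpowers (x : G) := Subgroup.mem_zpowers _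
      have h9 : (x : G) ^ m ∈ Submonoid.powers (x : G) := by
        rw [mem_powers_iff_mem_zpowers]
        exact ⟨m, rfl⟩
      obtain ⟨k, hk⟩ := h9
      exact ⟨k, hk.symm⟩
    exact hnot _ hxo _ ht1 ht2 k (by rw [← hm', hk])
  have hcop : Nat.Coprime (2 ^ e) (Nat.card (Subgroup.normalizer (P : Set G))) :=
    Nat.Coprime.pow_left _ ((Nat.Prime.coprime_iff_not_dvd Nat.prime_two).2 hodd)
  refine ⟨?_, ?_, card_sylow_modEq_one r G⟩
  · apply hcop.dvd_of_dvd_mul_left
    rw [hmul]
    exact he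
  · have h7 : Nat.card P ∣ Nat.card (Subgroup.normalizer (P : Set G)) :=
      Subgroup.card_dvd_of_le (Subgroup.le_normalizer)
    rw [hP] at h7
    rw [← hmul, mul_comm (Nat.card (Subgroup.normalizer (P : Set G)))]
    exact mul_dvd_mul_left _ h7

/-- The number of elements of prime order, when the Sylow subgroups have prime order. -/
theorem card_order_prime (hd : r ∣ Nat.card G) (hnd : ¬ r ^ 2 ∣ Nat.card G) :
    Nat.card {g : G // orderOf g = r} = (r - 1) * Nat.card (Sylow r G) := by
  classical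
  letI : Fintype (Sylow r G) := Fintype.ofFinite _
  have hP := card_sylow_prime r hd hnd
  have h1 : ∀ P : Sylow r G, Nat.card {x : P // x ≠ 1} = r - 1 := by
    intro P
    have h2 : Nat.card {x : P // x = 1} + Nat.card {x : P // x ≠ 1} = Nat.card P := by
      rw [← Nat.card_sum]
      exact Nat.card_congr (Equiv.sumCompl (fun x : P => x = 1))
    have h3 : Nat.card {x : P // x = 1} = 1 := by
      rw [Nat.card_eq_one_iff_unique]
      exact ⟨⟨fun a b => Subtype.ext (a.2.trans b.2.symm)⟩, ⟨⟨1, rfl⟩⟩⟩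
    rw [h3, hP P] at h2
    omega
  have h2 : Nat.card (Σ P : Sylow r G, {x : P // x ≠ 1}) = (r - 1) * Nat.card (Sylow r G) := by
    rw [Nat.card_sigma]
    simp only [h1]
    rw [Finset.sum_const, Finset.card_univ, smul_eq_mul, mul_comm, Nat.card_eq_fintype_card]
  rw [← h2]
  have hgen : ∀ (P : Sylow r G) (x : P), x ≠ 1 → orderOf (x : G) = r := by
    intro P x hx
    have h3 : orderOf x ∣ Nat.card P := orderOf_dvd_natCard x
    rw [hP P] at h3
    rw [Subgroup.orderOf_coe]
    rcases (Nat.dvd_prime hr.out).1 h3 with h4 | h4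
    · exact absurd (orderOf_eq_one_iff.1 h4) hx
    · exact h4
  apply Nat.card_congr
  symm
  refine Equiv.ofBijective (fun z => ⟨(z.2.1 : G), hgen z.1 z.2.1 z.2.2⟩) ⟨?_, ?_⟩
  · rintro ⟨P, ⟨x, hx⟩⟩ ⟨P', ⟨x', hx'⟩⟩ h
    have h3 : (x : G) = x' := congrArg Subtype.val h
    have h4 : (P : Subgroup G) = Subgroup.zpowers (x : G) := by
      symm
      apply Subgroup.eq_of_le_of_card_ge
      · rw [Subgroup.zpowers_le]
        exact x.2
      · rw [hP P, Nat.card_zpowers, hgen P x hx]
    have h5 : (P' : Subgroup G) = Subgroup.zpowers (x : G) := by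
      symm
      apply Subgroup.eq_of_le_of_card_ge
      · rw [Subgroup.zpowers_le, h3]
        exact x'.2
      · rw [hP P', Nat.card_zpowers, hgen P x hx]
    have h6 : P = P' := Sylow.ext (h4.trans h5.symm)
    subst h6
    have h7 : x = x' := Subtype.ext h3
    subst h7
    rfl
  · rintro ⟨g, hg⟩
    have hpg : IsPGroup r (Subgroup.zpowers g) := by
      apply IsPGroup.of_card (n := 1)
      rw [Nat.card_zpowers, hg, pow_one]
    obtain ⟨P, hP'⟩ := hpg.exists_le_sylow
    have hgP : g ∈ P := hP' (Subgroup.mem_zpowers g)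
    refine ⟨⟨P, ⟨⟨g, hgP⟩, ?_⟩⟩, rfl⟩
    intro h
    have h3 : g = 1 := congrArg Subtype.val h
    rw [h3, orderOf_one] at hg
    exact hr.out.one_lt.ne hg

end Sylow

end Cfsg.Agent.Lib.U3Min
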