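import Mathlib
import Cfsg.Agent.Lib.U3MinP
import Cfsg.Agent.Lib.U3MinQ

/-!
# `SU₃(q)`: no proper subgroup of small index (`q ≠ 5`)
-/

set_option autoImplicit false
set_option linter.unusedSectionVars false
set_option linter.unusedVariables false
set_option linter.style.haveILetI false

namespace Cfsg.Agent.Lib.U3Min

open Matrix Cfsg Cfsg.Agent.Lib.HermForm Cfsg.Agent.Lib.FFNorm Cfsg.Agent.Lib.UnitaryE
  Cfsg.Agent.Lib.UnitarySU Cfsg.Agent.Lib.SUMinDeg Cfsg.Agent.Lib.PSUIdx Cfsg.Agent.Lib.SL2Core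

variable {F : Type*} [Field F] [Fintype F] {q : ℕ}

section R

variable (hF : Fintype.card F = q ^ 2) {K : Subgroup (SU (1 + 2) F q)}

include hF

lemma hnot_K (r : ℕ) [hr : Fact r.Prime] (hr1 : ¬ r ∣ q) (hr2 : Nat.Coprime r (q ^ 2 - 1)) (hr3 : q + 1 < r) :
    ∀ x : K, orderOf x = r → ∀ t : K, t * t = 1 → t ≠ 1 → ∀ k : ℕ, t * x * t⁻¹ ≠ x ^ k := by
  intro x hx t ht ht1 k h
  have h1 : (x : SU (1 + 2) F q) ^ r = 1 := by
    have := pow_orderOf_eq_one x
    rw [hx] at this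
    exact congrArg Subtype.val this
  have h2 : (x : SU (1 + 2) F q) ≠ 1 := by
    intro h0
    have h3 : x = 1 := Subtype.ext h0
    rw [h3, orderOf_one] at hx
    exact hr.out.one_lt.ne hx
  exact no_inv_normal hF hr1 hr2 hr3 h1 h2 (t := t.1) (congrArg Subtype.val ht)
    (fun h0 => ht1 (Subtype.ext h0)) (k := k) (congrArg Subtype.val h)

/-- The case `q = 3`. -/
lemma no_224 (hq : q = 3) (hc : Nat.card K = 224) : False := by
  subst hq
  haveI : Fact (Nat.Prime 7) := ⟨by norm_num⟩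
  obtain ⟨h1, h2, h3⟩ := sylow_data 7 (hnot_K hF 7 (by norm_num) (by norm_num) (by norm_num))
    (by rw [hc]; norm_num) (by rw [hc]; norm_num) (e := 5) (by rw [hc]; norm_num)
  rw [hc] at h2
  have h4 : Nat.card (Sylow 7 K) ∣ 32 := by
    have : Nat.card (Sylow 7 K) * 7 ∣ 32 * 7 := h2
    exact Nat.dvd_of_mul_dvd_mul_right (by norm_num) this
  have h5 : Nat.card (Sylow 7 K) = 32 := Nat.dvd_antisymm h4 (by simpa using h1)
  rw [h5] at h3
  exact absurd h3 (by decide)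

lemma no_36936 (hq : q = 8) (hc : Nat.card K = 36936) : False := by
  subst hq
  haveI : Fact (Nat.Prime 19) := ⟨by norm_num⟩
  obtain ⟨h1, h2, h3⟩ := sylow_data 19 (hnot_K hF 19 (by norm_num) (by norm_num) (by norm_num))
    (by rw [hc]; norm_num) (by rw [hc]; norm_num) (e := 3) (by rw [hc]; norm_num)
  rw [hc] at h2
  have h4 : Nat.card (Sylow 19 K) ∣ 1944 := by
    have : Nat.card (Sylow 19 K) * 19 ∣ 1944 * 19 := h2
    exact Nat.dvd_of_mul_dvd_mul_right (by norm_num) this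
  have h5 : Nat.card (Sylow 19 K) ∈ Nat.divisors 1944 := by
    simp [Nat.mem_divisors]; exact h4
  have key : ∀ n ∈ Nat.divisors 1944, 2 ^ 3 ∣ n → n ≡ 1 [MOD 19] → False := by decide +kernel
  exact key _ h5 h1 h3

lemma no_78840 (hq : q = 9) (hc : Nat.card K = 78840) : False := by
  subst hq
  haveI : Fact (Nat.Prime 73) := ⟨by norm_num⟩
  obtain ⟨h1, h2, h3⟩ := sylow_data 73 (hnot_K hF 73 (by norm_num) (by norm_num) (by norm_num))
    (by rw [hc]; norm_num) (by rw [hc]; norm_num) (e := 3) (by rw [hc]; norm_num)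
  rw [hc] at h2
  have h4 : Nat.card (Sylow 73 K) ∣ 1080 := by
    have : Nat.card (Sylow 73 K) * 73 ∣ 1080 * 73 := h2
    exact Nat.dvd_of_mul_dvd_mul_right (by norm_num) this
  have h5 : Nat.card (Sylow 73 K) ∈ Nat.divisors 1080 := by
    simp [Nat.mem_divisors]; exact h4
  have key : ∀ n ∈ Nat.divisors 1080, 2 ^ 3 ∣ n → n ≡ 1 [MOD 73] → False := by decide +kernel
  exact key _ h5 h1 h3

lemma sylow37 (hq : q = 11) (hc : Nat.card K = 439560) : Nat.card (Sylow 37 K) = 3960 := by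
  subst hq
  haveI : Fact (Nat.Prime 37) := ⟨by norm_num⟩
  obtain ⟨h1, h2, h3⟩ := sylow_data 37 (hnot_K hF 37 (by norm_num) (by norm_num) (by norm_num))
    (by rw [hc]; norm_num) (by rw [hc]; norm_num) (e := 3) (by rw [hc]; norm_num)
  rw [hc] at h2
  have h4 : Nat.card (Sylow 37 K) ∣ 11880 := by
    have : Nat.card (Sylow 37 K) * 37 ∣ 11880 * 37 := h2
    exact Nat.dvd_of_mul_dvd_mul_right (by norm_num) this
  have h5 : Nat.card (Sylow 37 K) ∈ Nat.divisors 11880 := by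
    simp [Nat.mem_divisors]; exact h4
  have key : ∀ n ∈ Nat.divisors 11880, 2 ^ 3 ∣ n → n ≡ 1 [MOD 37] → n = 3960 := by decide +kernel
  exact key _ h5 h1 h3

end R

end Cfsg.Agent.Lib.U3Min
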