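import Mathlib
import Cfsg.Agent.Lib.U3MinR

/-!
# `SU₃(11)`: counting elements in a putative subgroup of order 439560
-/

set_option autoImplicit false
set_option linter.unusedSectionVars false
set_option linter.unusedVariables false
set_option linter.style.haveILetI false

namespace Cfsg.Agent.Lib.U3Min

open Matrix Cfsg Cfsg.Agent.Lib.HermForm Cfsg.Agent.Lib.FFNorm Cfsg.Agent.Lib.UnitaryE
  Cfsg.Agent.Lib.UnitarySU Cfsg.Agent.Lib.SUMinDeg Cfsg.Agent.Lib.PSUIdx Cfsg.Agent.Lib.SL2Core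

variable {F : Type*} [Field F] [Fintype F] {q : ℕ}

section Pts

variable (hF : Fintype.card F = q ^ 2) {α β : F} (hα : α ^ q * α = -1) (hβ : β + β ^ q = -1)
  {K : Subgroup (SU (1 + 2) F q)}

include hF hα hβ

/-- A `p`-element fixes an isotropic vector. -/
lemma exists_fix_of_pow (ℓ : ℕ) [hℓ : Fact ℓ.Prime] (hd : ℓ ∣ q) (hc : Nat.Coprime ℓ (q ^ 2 - 1))
    {u : SU (1 + 2) F q} (hu : u ^ ℓ = 1) : ∃ g : SU (1 + 2) F q, act u (act g (vE α)) = act g (vE α) := by
  classical
  letI : Fintype (SU (1 + 2) F q ⧸ Bo (q := q) α) := Fintype.ofFinite _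
  let f : Function.End (SU (1 + 2) F q ⧸ Bo (q := q) α) := fun c => u • c
  have hf : f ^ ℓ ^ 1 = 1 := by
    rw [pow_one]
    have h3 : ∀ n : ℕ, ∀ c, (f ^ n) c = u ^ n • c := by
      intro n c
      induction n generalizing c with
      | zero =>
        rw [pow_zero, pow_zero, one_smul]
        rfl
      | succ n ih =>
        rw [pow_succ, pow_succ]
        show (f ^ n) (u • c) = _
        rw [ih, mul_smul]
    funext c
    rw [h3, hu, one_smul]
    rfl
  have h4 := Equiv.Perm.card_fixedPoints_modEq hf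
  have h5 : Fintype.card (Function.fixedPoints f) ≠ 0 := by
    intro h0
    rw [h0, ← Nat.card_eq_fintype_card] at h4
    have h6 : Nat.card (SU (1 + 2) F q ⧸ Bo (q := q) α) = q ^ 3 + 1 := index_Bo hF hα hβ
    rw [h6] at h4
    have h7 : ℓ ∣ q ^ 3 + 1 := (Nat.modEq_zero_iff_dvd).1 h4
    have h8 : ℓ ∣ q ^ 3 := hd.trans (dvd_pow_self q (by norm_num))
    have h9 : ℓ ∣ 1 := (Nat.dvd_add_right h8).1 h7
    exact hℓ.out.one_lt.ne' (Nat.dvd_one.1 h9)
  obtain ⟨⟨c, hcf⟩⟩ := Fintype.card_pos_iff.1 (Nat.pos_of_ne_zero h5)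
  obtain ⟨g, rfl⟩ := QuotientGroup.mk_surjective c
  refine ⟨g, ?_⟩
  have h6 : ((u * g : SU (1 + 2) F q) : SU (1 + 2) F q ⧸ Bo (q := q) α) = (g : SU (1 + 2) F q ⧸ Bo (q := q) α) := hcf
  rw [QuotientGroup.eq] at h6
  have h7 : g⁻¹ * u * g ∈ Bo (q := q) α := by
    have h8 := (Bo (q := q) α).inv_mem h6
    have h9 : ((u * g)⁻¹ * g)⁻¹ = g⁻¹ * u * g := by group
    rwa [h9] at h8
  obtain ⟨l, hl0, hl⟩ := h7
  have h10 : (g⁻¹ * u * g) ^ ℓ = 1 := by
    have h9 : g⁻¹ * u * g = g⁻¹ * u * g⁻¹⁻¹ := by rw [inv_inv]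
    rw [h9, conj_pow, hu]
    group
  have h11 := one_of_pow_eig hF (vE_ne' hF hα) hl h10
  have h12 : l ^ (q ^ 2 - 1) = 1 := by
    rw [← hF]
    exact FiniteField.pow_card_sub_one_eq_one l hl0
  have h13 : l = 1 := by
    have h7 := Nat.dvd_gcd (orderOf_dvd_of_pow_eq_one h11) (orderOf_dvd_of_pow_eq_one h12)
    rw [hc] at h7
    exact orderOf_eq_one_iff.1 (Nat.dvd_one.1 h7)
  rw [h13, one_smul] at hl
  calc act u (act g (vE α)) = act g (act (g⁻¹ * u * g) (vE α)) := by
        simp only [act_mul]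
        rw [act_act_inv' hF]
    _ = act g (vE α) := by rw [hl]

/-- A non-trivial element of `Q` fixes only one isotropic point. -/
lemma unique_fix_QQ {y : SU (1 + 2) F q} (hy : y ∈ QQ hF hα 1) (hy1 : y ≠ 1) {x : Fin (1 + 2) → F} (hx0 : x ≠ 0)
    (hxx : hermForm (1 + 2) F q x x = 0) (hfix : act y x = x) : ∃ c : F, x = c • vE α := by
  by_contra hcon
  push Not at hcon
  have h1 := herm_ne_of_not_prop hF hα hβ hx0 hxx hcon
  obtain ⟨u, s, hG, rfl⟩ := hy
  rw [act_EE hF hα hG] at hfix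
  set A := hermForm (1 + 2) F q x (vE α) with hA
  set B := hermForm (1 + 2) F q x (inc u) with hB
  have h2 : A • (inc u + s • vE α) = B • vE α := by
    have h3 : x + A • (inc u + s • vE α) - B • vE α - x = x - x := by rw [hfix]
    rw [sub_self] at h3
    have h4 : A • (inc u + s • vE α) - B • vE α = 0 := by
      rw [← h3]
      abel
    exact sub_eq_zero.1 h4
  have h3 : inc (A • u) = (B - A * s) • vE (e := 1) α := by
    rw [inc_smul, sub_smul, ← h2, smul_add, smul_smul]
    abel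
  have h4 : (B - A * s) = 0 := by
    have h5 := congrFun h3 0
    have e0 : vE (e := 1) α 0 = 1 := vE_zero
    simp only [inc_zero₀, Pi.smul_apply, smul_eq_mul, e0, mul_one] at h5
    exact h5.symm
  rw [h4, zero_smul] at h3
  have h5 : inc (A • u) = inc 0 := by rw [h3, inc_zero]
  have h6 := inc_injective h5
  have hu0 : u = 0 := by
    have h7 := congrFun h6 0
    simp only [Pi.smul_apply, smul_eq_mul, Pi.zero_apply] at h7
    apply ext_one
    exact (mul_eq_zero.1 h7).resolve_left h1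
  subst hu0
  have hB0 : B = 0 := by
    rw [hB, inc_zero, hermForm_zero_right hF]
  rw [hB0, zero_sub] at h4
  have hs0 : s = 0 := by
    have := neg_eq_zero.1 h4
    exact (mul_eq_zero.1 this).resolve_left h1
  subst hs0
  exact hy1 (EE_zero hF hα)

/-- The number of Sylow subgroups for the characteristic is at least the number of points. -/
lemma sylow_char_le (ℓ : ℕ) [hℓ : Fact ℓ.Prime] (hd : ℓ ∣ q) (hc : Nat.Coprime ℓ (q ^ 2 - 1))
    (hKd : ℓ ∣ Nat.card K) (hKn : ¬ ℓ ^ 2 ∣ Nat.card K) (hT : IsTr α K) : q ^ 3 + 1 ∣ Nat.card (Sylow ℓ K) := by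
  classical
  obtain ⟨P⟩ : Nonempty (Sylow ℓ K) := inferInstance
  have hP := card_sylow_prime ℓ hKd hKn P
  haveI : IsCyclic P := isCyclic_of_prime_card hP
  obtain ⟨x, hx⟩ := IsCyclic.exists_generator (α := P)
  have hxo : orderOf (x : K) = ℓ := by
    rw [Subgroup.orderOf_coe]
    exact (orderOf_eq_card_of_forall_mem_zpowers hx).trans hP
  have hxG : ((x : K) : SU (1 + 2) F q) ^ ℓ = 1 := by
    have := pow_orderOf_eq_one (x : K)
    rw [hxo] at this
    exact congrArg Subtype.val this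
  obtain ⟨g, hg⟩ := exists_fix_of_pow hF hα hβ ℓ hd hc hxG
  have hz0 : act g (vE (e := 1) α) ≠ 0 := act_ne_zero hF g (vE_ne' hF hα)
  have hzz : hermForm (1 + 2) F q (act g (vE (e := 1) α)) (act g (vE α)) = 0 := by
    rw [herm_act]
    exact vE_iso hF hα
  obtain ⟨k, hk, κ, hκ, hkv⟩ := exists_mem_move hF hα hβ hT hz0 hzz
  let kK : K := ⟨k, hk⟩
  set u : K := kK⁻¹ * x * kK with hu
  have huv : act (u : SU (1 + 2) F q) (vE α) = vE α := by
    show act (k⁻¹ * ((x : K) : SU (1 + 2) F q) * k) (vE α) = vE α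
    rw [act_mul, act_mul, hkv, act_smul, hg, ← hkv, act_inv_act hF]
  have huo : orderOf u = ℓ := by
    rw [← hxo, hu]
    have h1 : kK⁻¹ * (x : K) * kK = kK⁻¹ * (x : K) * kK⁻¹⁻¹ := by rw [inv_inv]
    rw [h1, ← MulAut.conj_apply, MulEquiv.orderOf_eq]
  have hu1 : u ≠ 1 := by
    intro h
    rw [h, orderOf_one] at huo
    exact hℓ.out.one_lt.ne huo
  have hpg : IsPGroup ℓ (Subgroup.zpowers u) := by
    apply IsPGroup.of_card (n := 1)
    rw [Nat.card_zpowers, huo, pow_one]
  obtain ⟨Q, hQ⟩ := hpg.exists_le_sylow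
  have hQeq : (Q : Subgroup K) = Subgroup.zpowers u := by
    symm
    apply Subgroup.eq_of_le_of_card_ge hQ
    rw [card_sylow_prime ℓ hKd hKn Q, Nat.card_zpowers, huo]
  have hle : Subgroup.normalizer (Q : Set K) ≤ (Bo (q := q) α).subgroupOf K := by
    intro m hm
    have h1 : m * u * m⁻¹ ∈ (Q : Subgroup K) := (Subgroup.mem_normalizer_iff.1 hm u).1 (hQ (Subgroup.mem_zpowers u))
    rw [hQeq] at h1
    have h2 : m * u * m⁻¹ ∈ Submonoid.powers u := by
      rw [mem_powers_iff_mem_zpowers]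
      exact h1
    obtain ⟨j, hj⟩ := h2
    have h3 : act ((m * u * m⁻¹ : K) : SU (1 + 2) F q) (vE α) = vE α := by
      rw [← hj]
      have h4 : ∀ n : ℕ, act ((u ^ n : K) : SU (1 + 2) F q) (vE (e := 1) α) = vE α := by
        intro n
        induction n with
        | zero => simp [act_one]
        | succ n ih =>
          rw [pow_succ]
          show act (((u ^ n : K) : SU (1 + 2) F q) * (u : SU (1 + 2) F q)) (vE α) = vE α
          rw [act_mul, huv, ih]
      exact h4 j
    have h5 : act (u : SU (1 + 2) F q) (act ((m⁻¹ : K) : SU (1 + 2) F q) (vE α)) =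
        act ((m⁻¹ : K) : SU (1 + 2) F q) (vE α) := by
      have h6 : (u : SU (1 + 2) F q) * ((m⁻¹ : K) : SU (1 + 2) F q) =
          ((m⁻¹ : K) : SU (1 + 2) F q) * ((m * u * m⁻¹ : K) : SU (1 + 2) F q) := by
        show (u : SU (1 + 2) F q) * (m : SU (1 + 2) F q)⁻¹ =
          (m : SU (1 + 2) F q)⁻¹ * ((m : SU (1 + 2) F q) * u * (m : SU (1 + 2) F q)⁻¹)
        group
      rw [← act_mul, h6, act_mul, h3]
    have huQ : (u : SU (1 + 2) F q) ∈ QQ hF hα 1 := (mem_QQ_iff hF hα).2 huv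
    obtain ⟨c, hc'⟩ := unique_fix_QQ hF hα hβ huQ (fun h => hu1 (Subtype.ext h))
      (act_ne_zero hF _ (vE_ne' hF hα)) (by rw [herm_act]; exact vE_iso hF hα) h5
    have hc0 : c ≠ 0 := by
      rintro rfl
      rw [zero_smul] at hc'
      exact act_ne_zero hF _ (vE_ne' hF hα) hc'
    have h7 : (m⁻¹ : K).1 ∈ Bo (q := q) α := ⟨c, hc0, hc'⟩
    have h8 : (m : SU (1 + 2) F q) ∈ Bo (q := q) α := by
      have h9 := (Bo (q := q) α).inv_mem h7
      simpa using h9
    exact h8
  have h1 := Subgroup.index_dvd_of_le hle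
  have h2 : ((Bo (q := q) α).subgroupOf K).index = q ^ 3 + 1 := relIndex_of_isTr hF hα hβ hT
  rw [h2] at h1
  rw [Sylow.card_eq_index_normalizer Q]
  exact h1

end Pts

section Count

variable {G : Type*} [Group G] [Finite G]

/-- The counting contradiction. -/
lemma count_contra {z : G} (hz : ∀ x : G, x * z = z * x) (hz3 : orderOf z = 3) (hc : Nat.card G = 439560)
    (h37 : Nat.card {g : G // orderOf g = 37} = 142560) (h11 : 13320 ≤ Nat.card {g : G // orderOf g = 11}) : False := by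
  classical
  let φ : (Fin 3 × {g : G // orderOf g = 37}) ⊕ {g : G // orderOf g = 11} → G := fun w =>
    match w with
    | Sum.inl (i, x) => x.1 * z ^ (i : ℕ)
    | Sum.inr y => y.1
  have hzpow : z ^ 3 = 1 := by rw [← hz3]; exact pow_orderOf_eq_one z
  have hcomm : ∀ (x : G) (n : ℕ), Commute x (z ^ n) := fun x n => Commute.pow_right (hz x) n
  have hφ : Function.Injective φ := by
    rintro (⟨i, x⟩ | y) (⟨j, x'⟩ | y') h
    · have h1 : x.1 * z ^ (i : ℕ) = x'.1 * z ^ (j : ℕ) := h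
      have h2 : (x.1 * z ^ (i : ℕ)) ^ 37 = (x'.1 * z ^ (j : ℕ)) ^ 37 := by rw [h1]
      rw [(hcomm _ _).mul_pow, (hcomm _ _).mul_pow] at h2
      have hx : x.1 ^ 37 = 1 := by
        have := pow_orderOf_eq_one x.1
        rwa [x.2] at this
      have hx' : x'.1 ^ 37 = 1 := by
        have := pow_orderOf_eq_one x'.1
        rwa [x'.2] at this
      rw [hx, hx', one_mul, one_mul] at h2
      have h3 : ∀ k : ℕ, (z ^ k) ^ 37 = z ^ k := by
        intro k
        calc (z ^ k) ^ 37 = (z ^ 3) ^ (12 * k) * z ^ k := by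
              rw [← pow_mul, ← pow_mul, ← pow_add]
              congr 1
              ring
          _ = z ^ k := by rw [hzpow, one_pow, one_mul]
      rw [h3, h3] at h2
      have h4 : (i : ℕ) = j := by
        have h5 := (pow_eq_pow_iff_modEq (x := z)).1 h2
        rw [hz3] at h5
        exact Nat.ModEq.eq_of_lt_of_lt h5 i.2 j.2
      have h6 : i = j := Fin.ext h4
      subst h6
      have h7 : x = x' := Subtype.ext (mul_right_cancel h1)
      rw [h7]
    · exfalso
      have h1 : x.1 * z ^ (i : ℕ) = y'.1 := h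
      have h2 : y'.1 ^ 11 = 1 := by
        have := pow_orderOf_eq_one y'.1
        rwa [y'.2] at this
      rw [← h1, (hcomm _ _).mul_pow] at h2
      have h3 : (x.1 ^ 11 * (z ^ (i : ℕ)) ^ 11) ^ 3 = 1 := by rw [h2, one_pow]
      have h4 : Commute (x.1 ^ 11) ((z ^ (i : ℕ)) ^ 11) := by
        rw [← pow_mul]
        exact hcomm _ _
      rw [h4.mul_pow, ← pow_mul, ← pow_mul] at h3
      have h5 : (z ^ (i : ℕ)) ^ (11 * 3) = 1 := by
        rw [← pow_mul]
        have : (i : ℕ) * (11 * 3) = 3 * ((i : ℕ) * 11) := by ring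
        rw [this, pow_mul, hzpow, one_pow]
      rw [h5, mul_one] at h3
      have h6 := orderOf_dvd_of_pow_eq_one h3
      rw [x.2] at h6
      omega
    · exfalso
      have h1 : x'.1 * z ^ (j : ℕ) = y.1 := h.symm
      have h2 : y.1 ^ 11 = 1 := by
        have := pow_orderOf_eq_one y.1
        rwa [y.2] at this
      rw [← h1, (hcomm _ _).mul_pow] at h2
      have h3 : (x'.1 ^ 11 * (z ^ (j : ℕ)) ^ 11) ^ 3 = 1 := by rw [h2, one_pow]
      have h4 : Commute (x'.1 ^ 11) ((z ^ (j : ℕ)) ^ 11) := by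
        rw [← pow_mul]
        exact hcomm _ _
      rw [h4.mul_pow, ← pow_mul, ← pow_mul] at h3
      have h5 : (z ^ (j : ℕ)) ^ (11 * 3) = 1 := by
        rw [← pow_mul]
        have : (j : ℕ) * (11 * 3) = 3 * ((j : ℕ) * 11) := by ring
        rw [this, pow_mul, hzpow, one_pow]
      rw [h5, mul_one] at h3
      have h6 := orderOf_dvd_of_pow_eq_one h3
      rw [x'.2] at h6
      omega
    · have h1 : y.1 = y'.1 := h
      rw [Subtype.ext h1]
  have h1 := Nat.card_le_card_of_injective φ hφ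
  rw [Nat.card_sum, Nat.card_prod, hc, h37, Nat.card_eq_fintype_card (α := Fin 3), Fintype.card_fin] at h1
  omega

end Count

section Final

variable (hF : Fintype.card F = q ^ 2) {K : Subgroup (SU (1 + 2) F q)}

include hF

/-- No subgroup of small index of order `439560` containing the centre. -/
lemma no_439560 (hq : q = 11) (hc : Nat.card K = 439560) (hZK : Subgroup.center (SU (1 + 2) F q) ≤ K)
    (hi : K.index < q ^ 3 + 1) : False := by
  subst hq
  classical
  haveI : Fact (Nat.Prime 37) := ⟨by norm_num⟩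
  haveI : Fact (Nat.Prime 11) := ⟨by norm_num⟩
  haveI : Fact (Nat.Prime 3) := ⟨by norm_num⟩
  obtain ⟨α, β, hα, hβ⟩ := exists_frame hF
  have hT := isTr_of_index_lt hF hα hβ hi
  have hn37 := sylow37 (K := K) hF rfl hc
  have h37 := card_order_prime (G := K) 37 (by rw [hc]; norm_num) (by rw [hc]; norm_num)
  rw [hn37] at h37
  have h11 := card_order_prime (G := K) 11 (by rw [hc]; norm_num) (by rw [hc]; norm_num)
  have hs := sylow_char_le (K := K) hF hα hβ 11 (by norm_num) (by norm_num) (by rw [hc]; norm_num)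
    (by rw [hc]; norm_num) hT
  have hs' : 11 ^ 3 + 1 ≤ Nat.card (Sylow 11 K) := Nat.le_of_dvd Nat.card_pos hs
  have hcenter : Nat.card (Subgroup.center (SU (1 + 2) F 11)) = 3 := by
    rw [card_center_SU hF (by norm_num)]
    norm_num
  obtain ⟨z, hz⟩ := exists_prime_orderOf_dvd_card' 3 (G := Subgroup.center (SU (1 + 2) F 11)) (by rw [hcenter])
  let z' : K := ⟨z.1, hZK z.2⟩
  have hz3 : orderOf z' = 3 := by
    rw [← hz]
    have h1 : orderOf z' = orderOf (z'.1) := (Subgroup.orderOf_coe z').symm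
    have h2 : orderOf z = orderOf z.1 := (Subgroup.orderOf_coe z).symm
    rw [h1, h2]
  apply count_contra (G := K) (z := z') _ hz3 hc (by rw [h37]) (by rw [h11]; omega)
  intro x
  apply Subtype.ext
  show x.1 * z.1 = z.1 * x.1
  exact (Subgroup.mem_center_iff.1 z.2) x.1

/-- The main theorem: `SU₃(q)`, `q ≠ 5`, has no proper subgroup of index smaller than `q³ + 1`
containing its centre. -/
theorem no_small_index (h3 : 3 ≤ q) (h5 : q ≠ 5) (hK : K ≠ ⊤) (hZK : Subgroup.center (SU (1 + 2) F q) ≤ K)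
    (hi : K.index < q ^ 3 + 1) : False := by
  rcases bad_card hF h3 h5 hK hi with ⟨h1, h2⟩ | ⟨h1, h2⟩ | ⟨h1, h2⟩ | ⟨h1, h2⟩
  · exact no_224 hF h1 h2
  · exact no_36936 hF h1 h2
  · exact no_78840 hF h1 h2
  · exact no_439560 hF h1 h2 hZK hi

end Final

end Cfsg.Agent.Lib.U3Min
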