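import Mathlib

/-!
# Homomorphisms from permutation graphs; central quotients
-/

set_option autoImplicit false

namespace Cfsg.Agent.Lib.U42Abs

variable {H₁ H₂ X : Type*} [Group H₁] [Group H₂] {n : ℕ}

/-- The graph subgroup: pairs of a group element and a permutation of indices compatible with the action. -/
def graphS (ρ : H₁ × H₂ → X → X) (ρ_one : ∀ x, ρ 1 x = x) (ρ_mul : ∀ g h x, ρ (g * h) x = ρ g (ρ h x))
    (S : Fin n → X) : Subgroup ((H₁ × H₂) × Equiv.Perm (Fin n)) where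
  carrier := {c | ∀ i, S (c.2 i) = ρ c.1 (S i)}
  mul_mem' := by
    intro a b ha hb i
    have h1 := ha (b.2 i)
    have h2 := hb i
    show S (a.2 (b.2 i)) = ρ (a.1 * b.1) (S i)
    rw [h1, h2, ρ_mul]
  one_mem' := by
    intro i
    show S i = ρ 1 (S i)
    rw [ρ_one]
  inv_mem' := by
    intro c hc i
    show S (c.2⁻¹ i) = ρ c.1⁻¹ (S i)
    have h1 : S (c.2 (c.2⁻¹ i)) = ρ c.1 (S (c.2⁻¹ i)) := hc (c.2⁻¹ i)
    have h2 : c.2 (c.2⁻¹ i) = i := by simp
    rw [h2] at h1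
    rw [h1, ← ρ_mul, inv_mul_cancel, ρ_one]

theorem exists_graph_hom [Finite H₁] [Finite H₂] (ρ : H₁ × H₂ → X → X) (ρ_one : ∀ x, ρ 1 x = x)
    (ρ_mul : ∀ g h x, ρ (g * h) x = ρ g (ρ h x)) (S : Fin n → X) (hS : Function.Injective S)
    (P₁ P₂ : Equiv.Perm (Fin n)) (c₁ c₂ : H₁ × H₂)
    (h₁ : ∀ i, S (P₁ i) = ρ c₁ (S i)) (h₂ : ∀ i, S (P₂ i) = ρ c₂ (S i))
    (B : Set (Fin n)) (hB : ∀ (s : H₁) (b : Fin n), b ∈ B → ρ (s, 1) (S b) = S b)
    (hrig : ∀ x ∈ Subgroup.closure ({P₁, P₂} : Set (Equiv.Perm (Fin n))), (∀ b ∈ B, x b = b) → x = 1)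
    (hfaith : ∀ s : H₁, (∀ i, ρ (s, 1) (S i) = S i) → s = 1)
    (hcard : Nat.card H₂ ≤ Nat.card (Subgroup.closure ({P₁, P₂} : Set (Equiv.Perm (Fin n))))) :
    ∃ ψ : H₂ →* H₁, ψ c₁.2 = c₁.1 ∧ ψ c₂.2 = c₂.1 := by
  classical
  set C : Subgroup ((H₁ × H₂) × Equiv.Perm (Fin n)) :=
    Subgroup.closure {(c₁, P₁), (c₂, P₂)} with hC
  have hCR : C ≤ graphS ρ ρ_one ρ_mul S := by
    rw [hC, Subgroup.closure_le]
    rintro c (rfl | rfl)
    · exact h₁
    · exact h₂
  have hsnd : C.map (MonoidHom.snd (H₁ × H₂) (Equiv.Perm (Fin n))) =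
      Subgroup.closure ({P₁, P₂} : Set (Equiv.Perm (Fin n))) := by
    rw [hC, MonoidHom.map_closure]
    congr 1
    ext x
    simp [eq_comm]
  -- the projection to `H₂`
  let π : C →* H₂ := (MonoidHom.snd H₁ H₂).comp ((MonoidHom.fst (H₁ × H₂) (Equiv.Perm (Fin n))).comp C.subtype)
  have hπ : Function.Injective π := by
    rw [injective_iff_map_eq_one]
    rintro ⟨⟨⟨s, t⟩, x⟩, hc⟩ h
    have ht : t = 1 := h
    subst ht
    have hinv : ∀ i, S (x i) = ρ (s, 1) (S i) := hCR hc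
    have hx : x ∈ Subgroup.closure ({P₁, P₂} : Set (Equiv.Perm (Fin n))) := by
      rw [← hsnd]
      exact ⟨_, hc, rfl⟩
    have hx1 : x = 1 := hrig x hx (fun b hb => hS ((hinv b).trans (hB s b hb)))
    subst hx1
    have hs : s = 1 := hfaith s (fun i => (hinv i).symm)
    subst hs
    rfl
  have hcard2 : Nat.card (Subgroup.closure ({P₁, P₂} : Set (Equiv.Perm (Fin n)))) ≤ Nat.card C := by
    rw [← hsnd]
    exact Nat.card_le_card_of_surjective _ (MonoidHom.subgroupMap_surjective _ C)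
  have hπb : Function.Bijective π := by
    exact hπ.bijective_of_nat_card_le (hcard.trans hcard2)
  let e : C ≃* H₂ := MulEquiv.ofBijective π hπb
  let ψ : H₂ →* H₁ := ((MonoidHom.fst H₁ H₂).comp ((MonoidHom.fst (H₁ × H₂) (Equiv.Perm (Fin n))).comp C.subtype)).comp e.symm.toMonoidHom
  refine ⟨ψ, ?_, ?_⟩
  · have hm : ((c₁, P₁) : (H₁ × H₂) × Equiv.Perm (Fin n)) ∈ C := Subgroup.subset_closure (by simp)
    have h3 : e ⟨_, hm⟩ = c₁.2 := rfl
    show (e.symm c₁.2 : C).1.1.1 = c₁.1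
    rw [← h3, MulEquiv.symm_apply_apply]
  · have hm : ((c₂, P₂) : (H₁ × H₂) × Equiv.Perm (Fin n)) ∈ C := Subgroup.subset_closure (by simp)
    have h3 : e ⟨_, hm⟩ = c₂.2 := rfl
    show (e.symm c₂.2 : C).1.1.1 = c₂.1
    rw [← h3, MulEquiv.symm_apply_apply]

theorem quot_equiv [Finite H₁] [Finite H₂] (hs : IsSimpleGroup (H₂ ⧸ Subgroup.center H₂))
    (ψ : H₂ →* H₁) (a b : H₂) (hab : ψ a * ψ b ≠ ψ b * ψ a)
    (hZ : Nat.card (Subgroup.center H₂) = 2) (hc : 2 * Nat.card H₁ = Nat.card H₂) :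
    Nonempty ((H₂ ⧸ Subgroup.center H₂) ≃* H₁) := by
  classical
  set Z := Subgroup.center H₂ with hZdef
  set N := ψ.ker with hN
  have hnorm : ((N.map (QuotientGroup.mk' Z))).Normal :=
    Subgroup.Normal.map inferInstance _ (QuotientGroup.mk'_surjective Z)
  have hNZ : N ≤ Z := by
    rcases hs.eq_bot_or_eq_top_of_normal _ hnorm with h | h
    · intro n hn
      have h1 : QuotientGroup.mk' Z n ∈ N.map (QuotientGroup.mk' Z) := ⟨n, hn, rfl⟩
      rw [h, Subgroup.mem_bot] at h1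
      exact (QuotientGroup.eq_one_iff n).1 h1
    · exfalso
      have hdec : ∀ g : H₂, ∃ z ∈ Z, ψ g = ψ z := by
        intro g
        have h1 : QuotientGroup.mk' Z g ∈ N.map (QuotientGroup.mk' Z) := by rw [h]; trivial
        obtain ⟨n, hn, hng⟩ := h1
        have h2 : n⁻¹ * g ∈ Z := QuotientGroup.eq.1 hng
        refine ⟨n⁻¹ * g, h2, ?_⟩
        have hn' : ψ n = 1 := hn
        rw [map_mul, map_inv, hn', inv_one, one_mul]
      obtain ⟨z, hz, hza⟩ := hdec a
      obtain ⟨w, hw, hwb⟩ := hdec b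
      apply hab
      rw [hza, hwb, ← map_mul, ← map_mul]
      congr 1
      exact (Subgroup.mem_center_iff.1 hz w).symm
  have hmul := Subgroup.card_mul_index N
  have hidx : N.index = Nat.card ψ.range := Subgroup.index_ker ψ
  have hrle : Nat.card ψ.range ≤ Nat.card H₁ := Subgroup.card_le_card_group _
  have hpos : 0 < Nat.card H₂ := Nat.card_pos
  have hNle : Nat.card N ≤ 2 := by
    rw [← hZ]
    exact Subgroup.card_le_of_le hNZ
  have hNdvd : Nat.card N ∣ 2 := by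
    rw [← hZ]
    exact Subgroup.card_dvd_of_le hNZ
  have hNge : 2 ≤ Nat.card N := by
    by_contra hlt
    have h1 : Nat.card N ≤ 1 := by omega
    rw [hidx] at hmul
    have h2 : Nat.card H₂ ≤ 1 * Nat.card H₁ := by
      rw [← hmul]
      exact Nat.mul_le_mul h1 hrle
    omega
  have hN2 : Nat.card N = 2 := by omega
  have hNZeq : N = Z := Subgroup.eq_of_le_of_card_ge hNZ (by rw [hZ, hN2])
  have hsurj : Function.Surjective ψ := by
    have h1 : Nat.card ψ.range = Nat.card H₁ := by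
      rw [hidx, hN2] at hmul
      omega
    have h2 : ψ.range = ⊤ := by
      apply Subgroup.eq_top_of_card_eq
      exact h1
    exact MonoidHom.range_eq_top.1 h2
  exact ⟨(QuotientGroup.quotientMulEquivOfEq hNZeq.symm).trans (QuotientGroup.quotientKerEquivOfSurjective ψ hsurj)⟩

end Cfsg.Agent.Lib.U42Abs
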