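import Mathlib
import Cfsg.Agent.Lib.U42Chain

/-!
# Matrices for `SU_4(2)` and `Sp_4(3)` and their action on `120 + 80` vectors
-/

set_option autoImplicit false
set_option maxRecDepth 100000

namespace Cfsg.Agent.Lib.U42Mat

open Matrix Cfsg.Agent.Lib.PermChain Cfsg.Agent.Lib.U42Chain

/-- The quadratic `X² + X + 1` is irreducible modulo two. -/
instance factK4 : Fact (∀ r : ZMod 2, r ^ 2 ≠ 1 + 1 * r) := ⟨by decide⟩

/-- The field with four elements. -/
abbrev K4 := QuadraticAlgebra (ZMod 2) 1 1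

instance fintypeK4 : Fintype K4 := Fintype.ofEquiv _ (QuadraticAlgebra.equivProd 1 1).symm

theorem card_K4 : Fintype.card K4 = 2 ^ 2 := by
  rw [Fintype.card_congr (QuadraticAlgebra.equivProd (R := ZMod 2) 1 1), Fintype.card_prod, ZMod.card]
  rfl

/-- Elements of `K4` from their codes. -/
def f4 (c : ℕ) : K4 := ⟨((c % 2 : ℕ) : ZMod 2), ((c / 2 : ℕ) : ZMod 2)⟩

/-- Elements of `ZMod 3` from their codes. -/
def f3 (c : ℕ) : ZMod 3 := ((c % 4 : ℕ) : ZMod 3)

/-- The unitary space. -/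
abbrev V1 := Fin 4 → K4
/-- The symplectic space. -/
abbrev V2 := Fin 2 ⊕ Fin 2 → ZMod 3

/-- Unitary generator. -/
def A1 : Matrix (Fin 4) (Fin 4) K4 := !![f4 3, f4 1, f4 2, f4 0; f4 3, f4 1, f4 0, f4 1; f4 0, f4 1, f4 2, f4 1; f4 3, f4 0, f4 2, f4 1]
/-- Unitary generator. -/
def A2 : Matrix (Fin 4) (Fin 4) K4 := !![f4 3, f4 0, f4 0, f4 0; f4 0, f4 3, f4 0, f4 0; f4 0, f4 0, f4 3, f4 0; f4 0, f4 0, f4 0, f4 1]
/-- Symplectic generator. -/
def B1 : Matrix (Fin 2 ⊕ Fin 2) (Fin 2 ⊕ Fin 2) (ZMod 3) := fromBlocks !![f3 0, f3 0; f3 0, f3 1] !![f3 1, f3 0; f3 1, f3 0] !![f3 2, f3 0; f3 0, f3 2] !![f3 0, f3 2; f3 2, f3 1]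
/-- Symplectic generator. -/
def B2 : Matrix (Fin 2 ⊕ Fin 2) (Fin 2 ⊕ Fin 2) (ZMod 3) := fromBlocks !![f3 1, f3 0; f3 0, f3 1] !![f3 1, f3 2; f3 2, f3 1] !![f3 0, f3 0; f3 0, f3 0] !![f3 1, f3 0; f3 0, f3 1]

/-- Codes of the vectors. -/
def tb : List ℕ := [64,128,192,16,32,48,4,84,148,212,100,164,228,116,180,244,8,88,152,216,104,168,232,120,184,248,12,92,156,220,108,172,236,124,188,252,1,81,145,209,97,161,225,113,177,241,69,133,197,21,37,53,73,137,201,25,41,57,77,141,205,29,45,61,2,82,146,210,98,162,226,114,178,242,70,134,198,22,38,54,74,138,202,26,42,58,78,142,206,30,46,62,3,83,147,211,99,163,227,115,179,243,71,135,199,23,39,55,75,139,203,27,43,59,79,143,207,31,47,63,64,128,16,80,144,32,96,160,4,68,132,20,84,148,36,100,164,8,72,136,24,88,152,40,104,168,1,65,129,17,81,145,33,97,161,5,69,133,21,85,149,37,101,165,9,73,137,25,89,153,41,105,169,2,66,130,18,82,146,34,98,162,6,70,134,22,86,150,38,102,166,10,74,138,26,90,154,42,106,170]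

/-- Unitary vector from a code. -/
def vec1 (c : ℕ) : V1 := fun j => f4 ((c >>> (2 * j.val)) % 4)
/-- Symplectic vector from a code. -/
def vec2 (c : ℕ) : V2 := Sum.elim (fun j => f3 ((c >>> (2 * j.val)) % 4)) (fun j => f3 ((c >>> (2 * (2 + j.val))) % 4))

/-- The enumeration of the points. -/
def S (i : Fin 200) : V1 ⊕ V2 :=
  if i.val < 120 then Sum.inl (vec1 (tb.getD i.val 0)) else Sum.inr (vec2 (tb.getD i.val 0))

/-- The action of a pair of matrices. -/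
def act (M : Matrix (Fin 4) (Fin 4) K4 × Matrix (Fin 2 ⊕ Fin 2) (Fin 2 ⊕ Fin 2) (ZMod 3)) : V1 ⊕ V2 → V1 ⊕ V2 :=
  Sum.map (fun v => M.1 *ᵥ v) (fun w => M.2 *ᵥ w)

/-- Equality test on the disjoint union. -/
def eqB : V1 ⊕ V2 → V1 ⊕ V2 → Bool
  | Sum.inl a, Sum.inl b => decide (a = b)
  | Sum.inr a, Sum.inr b => decide (a = b)
  | _, _ => false

theorem eqB_eq : ∀ {x y : V1 ⊕ V2}, eqB x y = true → x = y := by
  rintro (a | a) (b | b) h
  · rw [of_decide_eq_true h]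
  · exact absurd h (by simp [eqB])
  · exact absurd h (by simp [eqB])
  · rw [of_decide_eq_true h]

theorem rep1 (i : Fin 200) : S (P1 i) = act (A1, B1) (S i) := by
  have h : ∀ i : Fin 200, eqB (S (P1 i)) (act (A1, B1) (S i)) = true := by decide +kernel
  exact eqB_eq (h i)
theorem rep2 (i : Fin 200) : S (P2 i) = act (A2, B2) (S i) := by
  have h : ∀ i : Fin 200, eqB (S (P2 i)) (act (A2, B2) (S i)) = true := by decide +kernel
  exact eqB_eq (h i)
theorem S_inj : ∀ i j : Fin 200, S i = S j → i = j := by decide +kernel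

theorem det_A1 : A1.det = 1 := by decide +kernel
theorem det_A2 : A2.det = 1 := by decide +kernel
theorem her_A1 : A1ᵀ * A1.map (fun x => x ^ 2) = 1 := by decide +kernel
theorem her_A2 : A2ᵀ * A2.map (fun x => x ^ 2) = 1 := by decide +kernel
theorem sp_B1 : B1 * J (Fin 2) (ZMod 3) * B1ᵀ = J (Fin 2) (ZMod 3) := by decide +kernel
theorem sp_B2 : B2 * J (Fin 2) (ZMod 3) * B2ᵀ = J (Fin 2) (ZMod 3) := by decide +kernel
theorem A_ne : A1 * A2 ≠ A2 * A1 := by decide +kernel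

theorem add_sq_K4 : ∀ x y : K4, (x + y) ^ 2 = x ^ 2 + y ^ 2 := by decide +kernel

theorem S_e (j : Fin 4) : S (![36, 6, 3, 0] j) = Sum.inl (Pi.single j 1) := by
  have h : ∀ j : Fin 4, eqB (S (![36, 6, 3, 0] j)) (Sum.inl (Pi.single j 1)) = true := by decide +kernel
  exact eqB_eq (h j)
theorem S_b : ∀ b ∈ ({120, 128, 122, 146} : Finset (Fin 200)), ∃ w, S b = Sum.inr w := by
  intro b hb
  refine ⟨vec2 (tb.getD b.val 0), ?_⟩
  have h : ∀ b ∈ ({120, 128, 122, 146} : Finset (Fin 200)), ¬ b.val < 120 := by decide +kernel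
  exact if_neg (h b hb)

end Cfsg.Agent.Lib.U42Mat
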