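import Mathlib
import Cfsg.Agent.Lib.F4K
import Cfsg.Agent.Lib.U62Data
import Cfsg.Agent.Lib.UnitarySimple
import Cfsg.Agent.Lib.UnitaryIso

/-!
# `SU₆(2)` acting on the `693` isotropic points of the Hermitian variety.
-/

set_option autoImplicit false
set_option maxRecDepth 100000
set_option linter.unusedSectionVars false

namespace Cfsg.Agent.Lib.U62A

open Cfsg Matrix
open Cfsg.Agent.Lib.F4K Cfsg.Agent.Lib.U62Data Cfsg.Agent.Lib.UnitaryBasic Cfsg.Agent.Lib.UnitaryTv
open Cfsg.Agent.Lib.UnitaryGen Cfsg.Agent.Lib.UnitarySimple Cfsg.Agent.Lib.UnitaryPerfect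

/-- The natural module. -/
abbrev V : Type := Fin 6 → K4

/-- The Hermitian form. -/
abbrev herm (u v : V) : K4 := hermForm 6 K4 2 u v

/-- The group. -/
abbrev G : Type := SU 6 K4 2

/-- The matrix of an element. -/
def mat (g : G) : Matrix (Fin 6) (Fin 6) K4 := g.1.1

@[simp] lemma mat_mul (g h : G) : mat (g * h) = mat g * mat h := rfl
@[simp] lemma mat_one : mat (1 : G) = 1 := rfl

lemma mat_inv_mul (g : G) : mat g⁻¹ * mat g = 1 := by
  rw [← mat_mul, inv_mul_cancel, mat_one]

lemma mat_mul_inv (g : G) : mat g * mat g⁻¹ = 1 := by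
  rw [← mat_mul, mul_inv_cancel, mat_one]

lemma herm_mat (g : G) (u v : V) : herm (mat g *ᵥ u) (mat g *ᵥ v) = herm u v := g.2 u v

lemma hF : Fintype.card K4 = 2 ^ 2 := K4.card_K4

lemma herm_smul_l (c : K4) (u v : V) : herm (c • u) v = c * herm u v := herm_smul_left c u v

lemma herm_smul_r (c : K4) (u v : V) : herm u (c • v) = c ^ 2 * herm u v := herm_smul_right c u v

lemma herm_inv_r (g : G) (u v : V) : herm (mat g *ᵥ u) v = herm u (mat g⁻¹ *ᵥ v) := by
  have h := herm_mat g u (mat g⁻¹ *ᵥ v)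
  rw [Matrix.mulVec_mulVec, mat_mul_inv, Matrix.one_mulVec] at h
  exact h

lemma mat_mulVec_ne_zero (g : G) {v : V} (hv : v ≠ 0) : mat g *ᵥ v ≠ 0 := by
  intro h
  apply hv
  have h2 := congrArg (fun x => mat g⁻¹ *ᵥ x) h
  simpa [Matrix.mulVec_mulVec, mat_inv_mul] using h2

/-- Elements are determined by the action. -/
lemma G_ext {g h : G} (e : ∀ x : V, mat g *ᵥ x = mat h *ᵥ x) : g = h := by
  apply Subtype.ext
  apply Subtype.ext
  apply Matrix.mulVec_injective
  funext x
  exact e x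

/-- The first nonzero coordinate. -/
def lead (v : V) : K4 :=
  if v 0 ≠ 0 then v 0 else if v 1 ≠ 0 then v 1 else if v 2 ≠ 0 then v 2 else if v 3 ≠ 0 then v 3 else
    if v 4 ≠ 0 then v 4 else v 5

/-- The normal form of a vector. -/
def nf (v : V) : V := (lead v)⁻¹ • v

lemma lead_smul {c : K4} (hc : c ≠ 0) (v : V) : lead (c • v) = c * lead v := by
  simp only [lead, Pi.smul_apply, smul_eq_mul, mul_ne_zero_iff, hc, ne_eq, not_false_eq_true,
    true_and]
  split_ifs <;> rfl

lemma lead_ne_zero {v : V} (hv : v ≠ 0) : lead v ≠ 0 := by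
  intro h
  apply hv
  unfold lead at h
  split_ifs at h with h0 h1 h2 h3 h4
  · exact absurd h h0
  · exact absurd h h1
  · exact absurd h h2
  · exact absurd h h3
  · exact absurd h h4
  · funext i
    fin_cases i
    · simpa using h0
    · simpa using h1
    · simpa using h2
    · simpa using h3
    · simpa using h4
    · simpa using h

lemma nf_smul {c : K4} (hc : c ≠ 0) (v : V) : nf (c • v) = nf v := by
  unfold nf
  rw [lead_smul hc, smul_smul, mul_inv, mul_comm c⁻¹, mul_assoc, inv_mul_cancel₀ hc, mul_one]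

lemma nf_ne_zero {v : V} (hv : v ≠ 0) : nf v ≠ 0 := by
  unfold nf
  intro h
  have h2 := (smul_eq_zero.mp h).resolve_left (inv_ne_zero (lead_ne_zero hv))
  exact hv h2

lemma nf_nf {v : V} (hv : v ≠ 0) : nf (nf v) = nf v :=
  nf_smul (inv_ne_zero (lead_ne_zero hv)) v

lemma herm_nf_self {v : V} (hv : herm v v = 0) : herm (nf v) (nf v) = 0 := by
  unfold nf
  rw [herm_smul_l, herm_smul_r, hv]
  simp

/-- The isotropic points, in normal form. -/
def Pt : Type := {v : V // v ≠ 0 ∧ herm v v = 0 ∧ nf v = v}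

instance : Finite Pt := inferInstanceAs (Finite {v : V // v ≠ 0 ∧ herm v v = 0 ∧ nf v = v})

/-- The action on points. -/
def ptAct (g : G) (x : Pt) : Pt :=
  ⟨nf (mat g *ᵥ x.1), nf_ne_zero (mat_mulVec_ne_zero g x.2.1),
    herm_nf_self (by rw [herm_mat]; exact x.2.2.1), nf_nf (mat_mulVec_ne_zero g x.2.1)⟩

instance : MulAction G Pt where
  smul := ptAct
  one_smul x := by
    apply Subtype.ext
    show nf (mat (1 : G) *ᵥ x.1) = x.1
    rw [mat_one, Matrix.one_mulVec]
    exact x.2.2.2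
  mul_smul a b x := by
    apply Subtype.ext
    show nf (mat (a * b) *ᵥ x.1) = nf (mat a *ᵥ nf (mat b *ᵥ x.1))
    have h : nf (mat b *ᵥ x.1) = (lead (mat b *ᵥ x.1))⁻¹ • (mat b *ᵥ x.1) := rfl
    rw [mat_mul, h, Matrix.mulVec_smul,
      nf_smul (inv_ne_zero (lead_ne_zero (mat_mulVec_ne_zero b x.2.1))), Matrix.mulVec_mulVec]

lemma smul_val (g : G) (x : Pt) : (g • x).1 = nf (mat g *ᵥ x.1) := rfl

/-! ### Data -/

/-- Elements from their codes. -/
def c4 (n : ℕ) : K4 := (⟨Nat.mod n 4, Nat.mod_lt _ (by decide)⟩ : Fin 4)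

/-- The coordinates of the points. -/
def pc (i k : ℕ) : K4 := c4 (Nat.land (Nat.shiftRight ptP (Nat.add (Nat.mul 12 i) (Nat.mul 2 k))) 3)

/-- The points. -/
def pt (i : Fin 693) : V := ![pc i 0, pc i 1, pc i 2, pc i 3, pc i 4, pc i 5]

/-- The code of a vector. -/
def code (v : V) : ℕ :=
  Nat.add (v 0).1 (Nat.mul 4 (Nat.add (v 1).1 (Nat.mul 4 (Nat.add (v 2).1 (Nat.mul 4 (Nat.add (v 3).1 (Nat.mul 4
    (Nat.add (v 4).1 (Nat.mul 4 (v 5).1)))))))))

/-- The number of a point from its code. -/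
def look (n : ℕ) : Fin 693 := ⟨Nat.mod (Nat.land (Nat.shiftRight lookP (Nat.mul 10 n)) 1023) 693, Nat.mod_lt _ (by decide)⟩

theorem pt_iso : ∀ i : Fin 693, herm (pt i) (pt i) = 0 := by decide +kernel

theorem pt_ne_zero : ∀ i : Fin 693, pt i ≠ 0 := by decide +kernel

theorem pt_lead : ∀ i : Fin 693, lead (pt i) = 1 := by decide +kernel

theorem pt_left : ∀ i : Fin 693, look (code (pt i)) = i := by decide +kernel

theorem pt_inj : Function.Injective pt := by
  intro i j h
  rw [← pt_left i, ← pt_left j, h]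

theorem cover1 : ∀ b c d e f : K4, herm ![1, b, c, d, e, f] ![1, b, c, d, e, f] = 0 →
    pt (look (code ![1, b, c, d, e, f])) = ![1, b, c, d, e, f] := by decide +kernel

theorem cover2 : ∀ c d e f : K4, herm ![0, 1, c, d, e, f] ![0, 1, c, d, e, f] = 0 →
    pt (look (code ![0, 1, c, d, e, f])) = ![0, 1, c, d, e, f] := by decide +kernel

theorem cover3 : ∀ d e f : K4, herm ![0, 0, 1, d, e, f] ![0, 0, 1, d, e, f] = 0 →
    pt (look (code ![0, 0, 1, d, e, f])) = ![0, 0, 1, d, e, f] := by decide +kernel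

theorem cover4 : ∀ e f : K4, herm ![0, 0, 0, 1, e, f] ![0, 0, 0, 1, e, f] = 0 →
    pt (look (code ![0, 0, 0, 1, e, f])) = ![0, 0, 0, 1, e, f] := by decide +kernel

theorem cover5 : ∀ f : K4, herm ![0, 0, 0, 0, 1, f] ![0, 0, 0, 0, 1, f] = 0 →
    pt (look (code ![0, 0, 0, 0, 1, f])) = ![0, 0, 0, 0, 1, f] := by decide +kernel

theorem not_iso6 : herm ![0, 0, 0, 0, 0, 1] ![0, 0, 0, 0, 0, 1] ≠ 0 := by decide +kernel

lemma nf_pt (i : Fin 693) : nf (pt i) = pt i := by
  unfold nf
  rw [pt_lead, inv_one, one_smul]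

/-- The point with a given index. -/
def ptE (i : Fin 693) : Pt := ⟨pt i, pt_ne_zero i, pt_iso i, nf_pt i⟩

lemma lead_eq_one {v : V} (hv : v ≠ 0) (hn : nf v = v) : lead v = 1 := by
  have h1 : lead (nf v) = (lead v)⁻¹ * lead v := lead_smul (inv_ne_zero (lead_ne_zero hv)) v
  rw [inv_mul_cancel₀ (lead_ne_zero hv), hn] at h1
  exact h1

lemma vec6 (v : V) : v = ![v 0, v 1, v 2, v 3, v 4, v 5] := by
  funext i
  fin_cases i <;> rfl

/-- A vector with leading coordinate one is of one of six shapes. -/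
lemma lead_one_cases {v : V} (h : lead v = 1) :
    v = ![1, v 1, v 2, v 3, v 4, v 5] ∨ v = ![0, 1, v 2, v 3, v 4, v 5] ∨ v = ![0, 0, 1, v 3, v 4, v 5] ∨
      v = ![0, 0, 0, 1, v 4, v 5] ∨ v = ![0, 0, 0, 0, 1, v 5] ∨ v = ![0, 0, 0, 0, 0, 1] := by
  unfold lead at h
  split_ifs at h with h0 h1 h2 h3 h4
  · left
    conv_lhs => rw [vec6 v, h]
  · right; left
    have h0' : v 0 = 0 := by simpa using h0
    conv_lhs => rw [vec6 v, h, h0']
  · right; right; left
    have h0' : v 0 = 0 := by simpa using h0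
    have h1' : v 1 = 0 := by simpa using h1
    conv_lhs => rw [vec6 v, h, h0', h1']
  · right; right; right; left
    have h0' : v 0 = 0 := by simpa using h0
    have h1' : v 1 = 0 := by simpa using h1
    have h2' : v 2 = 0 := by simpa using h2
    conv_lhs => rw [vec6 v, h, h0', h1', h2']
  · right; right; right; right; left
    have h0' : v 0 = 0 := by simpa using h0
    have h1' : v 1 = 0 := by simpa using h1
    have h2' : v 2 = 0 := by simpa using h2
    have h3' : v 3 = 0 := by simpa using h3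
    conv_lhs => rw [vec6 v, h, h0', h1', h2', h3']
  · right; right; right; right; right
    have h0' : v 0 = 0 := by simpa using h0
    have h1' : v 1 = 0 := by simpa using h1
    have h2' : v 2 = 0 := by simpa using h2
    have h3' : v 3 = 0 := by simpa using h3
    have h4' : v 4 = 0 := by simpa using h4
    conv_lhs => rw [vec6 v, h, h0', h1', h2', h3', h4']

lemma ptE_bij : Function.Bijective ptE := by
  constructor
  · intro i j hij
    exact pt_inj (congrArg Subtype.val hij)
  · intro x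
    obtain ⟨v, hv, hiso, hn⟩ := x
    have hl := lead_eq_one hv hn
    have : ∃ i, pt i = v := by
      rcases lead_one_cases hl with h | h | h | h | h | h
      · rw [h] at hiso ⊢
        exact ⟨_, cover1 _ _ _ _ _ hiso⟩
      · rw [h] at hiso ⊢
        exact ⟨_, cover2 _ _ _ _ hiso⟩
      · rw [h] at hiso ⊢
        exact ⟨_, cover3 _ _ _ hiso⟩
      · rw [h] at hiso ⊢
        exact ⟨_, cover4 _ _ hiso⟩
      · rw [h] at hiso ⊢
        exact ⟨_, cover5 _ hiso⟩
      · rw [h] at hiso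
        exact absurd hiso not_iso6
    obtain ⟨i, hi⟩ := this
    exact ⟨i, Subtype.ext hi⟩

/-- Indices and points. -/
noncomputable def eE : Fin 693 ≃ Pt := Equiv.ofBijective ptE ptE_bij

lemma eE_val (i : Fin 693) : (eE i).1 = pt i := rfl

/-- The action on the indices. -/
noncomputable def iota0 : G →* Equiv.Perm (Fin 693) :=
  (eE.symm.permCongrHom).toMonoidHom.comp (MulAction.toPermHom G Pt)

lemma iota0_apply (s : G) (j : Fin 693) : iota0 s j = eE.symm (s • eE j) := rfl

lemma pt_iota0 (s : G) (j : Fin 693) : pt (iota0 s j) = nf (mat s *ᵥ pt j) := by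
  rw [iota0_apply, ← eE_val, Equiv.apply_symm_apply]
  rfl

lemma iota0_of {s : G} {j j' : Fin 693} (h : nf (mat s *ᵥ pt j) = pt j') : iota0 s j = j' :=
  pt_inj ((pt_iota0 s j).trans h)

end Cfsg.Agent.Lib.U62A
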