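import Mathlib
import Cfsg.Agent.Lib.U62A1

/-!
# `PSU₆(2)` embeds in the permutations of the `693` isotropic points, and a subgroup of `SU₆(2)` containing six
explicit transvections is everything.
-/

set_option autoImplicit false
set_option maxRecDepth 100000
set_option linter.unusedSectionVars false

namespace Cfsg.Agent.Lib.U62A

open Cfsg Matrix
open Cfsg.Agent.Lib.F4K Cfsg.Agent.Lib.U62Data Cfsg.Agent.Lib.UnitaryBasic Cfsg.Agent.Lib.UnitaryTv
open Cfsg.Agent.Lib.UnitaryGen Cfsg.Agent.Lib.UnitarySimple Cfsg.Agent.Lib.UnitaryPerfect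

/-! ### Transvections -/

/-- The parameter of the transvections. -/
def c0 : K4 := 1

theorem c0_tr : c0 ^ 2 + c0 = 0 := by decide +kernel

theorem c0_ne : c0 ≠ 0 := by decide +kernel

theorem tr_mul : ∀ c κ : K4, c ^ 2 + c = 0 → (c * κ * κ ^ 2) ^ 2 + c * κ * κ ^ 2 = 0 := by decide +kernel

theorem tr_cases : ∀ c : K4, c ^ 2 + c = 0 → c ≠ 0 → c = c0 := by decide +kernel

theorem cube_one : ∀ κ : K4, κ ≠ 0 → κ * κ ^ 2 = 1 := by decide +kernel

/-- The transvection as an element of `G`. -/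
noncomputable def tvG (c : K4) (u : V) (hc : c ^ 2 + c = 0) (hu : herm u u = 0) : G :=
  (isoSU 6 K4 2).symm ⟨tv hF c u hc hu, detU_of_isTv (tv_isTv hF c u hc hu)⟩

lemma tvG_apply (c : K4) (u : V) (hc : c ^ 2 + c = 0) (hu : herm u u = 0) (x : V) :
    mat (tvG c u hc hu) *ᵥ x = x + (c * herm x u) • u := by
  have h := isoSU_apply (tvG c u hc hu) x
  rw [tvG, MulEquiv.apply_symm_apply] at h
  exact h.symm

/-- The transvection at a point. -/
noncomputable def T (j : Fin 693) : G := tvG c0 (pt j) c0_tr (pt_iso j)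

theorem T_apply (j : Fin 693) (x : V) : mat (T j) *ᵥ x = x + (c0 * herm x (pt j)) • pt j := tvG_apply _ _ _ _ _

lemma conj_aux (x n : V) (κ : K4) (hκ : κ ≠ 0) : (c0 * herm x (κ • n)) • (κ • n) = (c0 * herm x n) • n := by
  rw [herm_smul_r, smul_smul]
  have h3 := cube_one κ hκ
  have e : c0 * (κ ^ 2 * herm x n) * κ = (κ * κ ^ 2) * (c0 * herm x n) := by ring
  rw [e, h3, one_mul]

lemma conj_apply (w : G) (b : Fin 693) (x : V) :
    mat (w * T b * w⁻¹) *ᵥ x = x + (c0 * herm x (mat w *ᵥ pt b)) • (mat w *ᵥ pt b) := by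
  have e1 : mat (w * T b * w⁻¹) = mat w * (mat (T b) * mat w⁻¹) := by
    rw [mat_mul, mat_mul, mul_assoc]
  rw [e1, ← Matrix.mulVec_mulVec, ← Matrix.mulVec_mulVec, T_apply, Matrix.mulVec_add, Matrix.mulVec_smul,
    Matrix.mulVec_mulVec, mat_mul_inv, Matrix.one_mulVec, herm_inv_r, inv_inv]

/-- Conjugates of transvections. -/
theorem T_conj (w : G) (b : Fin 693) : w * T b * w⁻¹ = T (iota0 w b) := by
  have hy0 : mat w *ᵥ pt b ≠ 0 := mat_mulVec_ne_zero w (pt_ne_zero b)
  have hn : pt (iota0 w b) = nf (mat w *ᵥ pt b) := pt_iota0 w b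
  have hl := lead_ne_zero hy0
  have hyn : mat w *ᵥ pt b = lead (mat w *ᵥ pt b) • pt (iota0 w b) := by
    rw [hn]
    show _ = _ • ((lead (mat w *ᵥ pt b))⁻¹ • (mat w *ᵥ pt b))
    rw [smul_smul, mul_inv_cancel₀ hl, one_smul]
  apply G_ext
  intro x
  rw [conj_apply, T_apply, ← conj_aux x (pt (iota0 w b)) _ hl, ← hyn]

/-! ### The closure -/

/-- The parents and the depth. -/
def parN (j : ℕ) : ℕ := Nat.land (Nat.shiftRight parP (Nat.mul 26 j)) (Nat.sub (2 ^ 26) 1)

/-- The first parent. -/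
def parA (j : Fin 693) : Fin 693 := ⟨Nat.mod (Nat.land (parN j) 1023) 693, Nat.mod_lt _ (by decide)⟩

/-- The second parent. -/
def parB (j : Fin 693) : Fin 693 := ⟨Nat.mod (Nat.land (Nat.shiftRight (parN j) 10) 1023) 693, Nat.mod_lt _ (by decide)⟩

/-- The depth. -/
def depN (j : Fin 693) : ℕ := Nat.shiftRight (parN j) 20

/-- The six points. -/
def gen (i : Fin 6) : Fin 693 :=
  ⟨Nat.mod (if i.1 = 0 then gen0 else if i.1 = 1 then gen1 else if i.1 = 2 then gen2 else if i.1 = 3 then gen3 else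
    if i.1 = 4 then gen4 else gen5) 693, Nat.mod_lt _ (by decide)⟩

theorem tree_ok : ∀ j : Fin 693, (∃ i : Fin 6, gen i = j) ∨ (Nat.blt (depN (parA j)) (depN j) = true ∧
    Nat.blt (depN (parB j)) (depN j) = true ∧
    nf (pt (parB j) + (c0 * herm (pt (parB j)) (pt (parA j))) • pt (parA j)) = pt j) := by
  decide +kernel

/-- A subgroup containing the six transvections contains all of them. -/
theorem all_T {S : Subgroup G} (h : ∀ i : Fin 6, T (gen i) ∈ S) (j : Fin 693) : T j ∈ S := by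
  suffices H : ∀ n : ℕ, ∀ j : Fin 693, depN j = n → T j ∈ S from H _ j rfl
  intro n
  induction n using Nat.strong_induction_on with
  | _ n ih =>
    intro j hj
    rcases tree_ok j with ⟨i, rfl⟩ | ⟨h1, h2, h3⟩
    · exact h i
    · have e1 : depN (parA j) < n := by
        rw [← hj]
        simpa [Nat.blt_eq] using h1
      have e2 : depN (parB j) < n := by
        rw [← hj]
        simpa [Nat.blt_eq] using h2
      have hA := ih _ e1 (parA j) rfl
      have hB := ih _ e2 (parB j) rfl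
      have e3 : iota0 (T (parA j)) (parB j) = j := by
        apply iota0_of
        rw [T_apply]
        exact h3
      rw [← e3, ← T_conj]
      exact S.mul_mem (S.mul_mem hA hB) (S.inv_mem hA)

/-- Every transvection is one of those. -/
theorem isTv_mem {S : Subgroup G} (hT : ∀ j : Fin 693, T j ∈ S) (s : G)
    (hs : IsTv ((isoSU 6 K4 2 s : SUU 6 K4 2) : U 6 K4 2)) : s ∈ S := by
  classical
  obtain ⟨c, u, hc, hu, hx⟩ := hs
  have hx' : ∀ x : V, mat s *ᵥ x = x + (c * herm x u) • u := fun x => (isoSU_apply s x).symm.trans (hx x)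
  by_cases hu0 : u = 0
  · have : s = 1 := G_ext fun x => by
      rw [hx', hu0, smul_zero, add_zero, mat_one, Matrix.one_mulVec]
    rw [this]
    exact S.one_mem
  by_cases hc0 : c = 0
  · have : s = 1 := G_ext fun x => by
      rw [hx', hc0, zero_mul, zero_smul, add_zero, mat_one, Matrix.one_mulVec]
    rw [this]
    exact S.one_mem
  have hnu : nf u ≠ 0 := nf_ne_zero hu0
  let p : Pt := ⟨nf u, hnu, herm_nf_self hu, nf_nf hu0⟩
  set j : Fin 693 := eE.symm p with hj
  have hv : pt j = nf u := by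
    rw [← eE_val, hj, Equiv.apply_symm_apply]
  have hl := lead_ne_zero hu0
  set κ : K4 := lead u with hκ
  have hu' : u = κ • pt j := by
    rw [hv]
    show u = κ • (κ⁻¹ • u)
    rw [smul_smul, mul_inv_cancel₀ hl, one_smul]
  set c' : K4 := c * κ * κ ^ 2 with hc'
  have hc'tr : c' ^ 2 + c' = 0 := tr_mul c κ hc
  have hc'0 : c' ≠ 0 := mul_ne_zero (mul_ne_zero hc0 hl) (pow_ne_zero _ hl)
  have hs' : ∀ x : V, mat s *ᵥ x = x + (c' * herm x (pt j)) • pt j := by
    intro x
    rw [hx', hu', herm_smul_r, smul_smul, hc']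
    congr 2
    ring
  have : s = T j := G_ext fun x => by
    rw [hs', T_apply, tr_cases c' hc'tr hc'0]
  rw [this]
  exact hT j

/-- A subgroup containing the six transvections is everything. -/
theorem all_mem {S : Subgroup G} (h : ∀ i : Fin 6, T (gen i) ∈ S) (s : G) : s ∈ S := by
  have hT := all_T h
  let S' : Subgroup (U 6 K4 2) := (S.map (isoSU 6 K4 2).toMonoidHom).map (SUU 6 K4 2).subtype
  have hle : TvG 6 K4 2 ≤ S' := by
    refine (Subgroup.closure_le _).2 ?_
    intro t ht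
    have ht1 : t ∈ SUU 6 K4 2 := mem_SUU.2 (detU_of_isTv ht)
    refine ⟨(isoSU 6 K4 2) ((isoSU 6 K4 2).symm ⟨t, ht1⟩), ⟨_, ?_, rfl⟩, ?_⟩
    · apply isTv_mem hT
      rw [MulEquiv.apply_symm_apply]
      exact ht
    · rw [MulEquiv.apply_symm_apply]
      rfl
  have hg := Cfsg.Agent.Lib.UnitaryIso.gen hF 6 (by norm_num) ((isoSU 6 K4 2 s : SUU 6 K4 2) : U 6 K4 2)
    (mem_SUU.1 (isoSU 6 K4 2 s).2)
  obtain ⟨y, ⟨s₂, hs₂, rfl⟩, e⟩ := hle hg
  have e2 : (isoSU 6 K4 2).toMonoidHom s₂ = isoSU 6 K4 2 s := Subtype.ext e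
  have e3 : s₂ = s := (isoSU 6 K4 2).injective e2
  rw [← e3]
  exact hs₂

/-! ### The permutations -/

/-- The permutations of the indices, as numbers. -/
def piN (P j : ℕ) : ℕ := Nat.land (Nat.shiftRight P (Nat.mul 10 j)) 1023

/-- The permutations of the indices. -/
def piF (P : ℕ) (j : Fin 693) : Fin 693 := ⟨Nat.mod (piN P j) 693, Nat.mod_lt _ (by decide)⟩

/-- The tables. -/
def Qt (i : Fin 6) : ℕ :=
  if i.1 = 0 then Q0 else if i.1 = 1 then Q1 else if i.1 = 2 then Q2 else if i.1 = 3 then Q3 else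
    if i.1 = 4 then Q4 else Q5

theorem T_act : ∀ (i : Fin 6) (j : Fin 693), nf (pt j + (c0 * herm (pt j) (pt (gen i))) • pt (gen i)) =
    pt (piF (Qt i) j) := by decide +kernel

theorem iota_T (i : Fin 6) (j : Fin 693) : iota0 (T (gen i)) j = piF (Qt i) j := by
  apply iota0_of
  rw [T_apply]
  exact T_act i j

theorem T_moves : iota0 (T (gen 0)) ≠ 1 := by
  intro h
  have h2 : ∀ j : Fin 693, piF (Qt 0) j = j := by
    intro j
    have h3 := Equiv.congr_fun h j
    rw [iota_T, Equiv.Perm.one_apply] at h3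
    exact h3
  have h4 : ¬ ∀ j : Fin 693, piF (Qt 0) j = j := by decide +kernel
  exact h4 h2

/-! ### The center -/

theorem some_ne : ∀ j : Fin 693, herm ![1, 0, 0, 0, 0, 0] (pt j) ≠ 0 ∨ herm ![0, 1, 0, 0, 0, 0] (pt j) ≠ 0 ∨
    herm ![0, 0, 1, 0, 0, 0] (pt j) ≠ 0 ∨ herm ![0, 0, 0, 1, 0, 0] (pt j) ≠ 0 ∨
    herm ![0, 0, 0, 0, 1, 0] (pt j) ≠ 0 ∨ herm ![0, 0, 0, 0, 0, 1] (pt j) ≠ 0 := by decide +kernel

theorem exists_ne_form (j : Fin 693) : ∃ x : V, herm x (pt j) ≠ 0 := by
  rcases some_ne j with h | h | h | h | h | h <;> exact ⟨_, h⟩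

/-- The center acts trivially on the points. -/
theorem center_le : Subgroup.center G ≤ iota0.ker := by
  intro z hz
  rw [MonoidHom.mem_ker]
  refine Equiv.ext fun j => ?_
  rw [Equiv.Perm.one_apply]
  apply iota0_of
  set u := pt j with hu
  have huu : herm u u = 0 := pt_iso j
  let T : G := tvG c0 u c0_tr huu
  have hcomm : z * T = T * z := (Subgroup.mem_center_iff.1 hz T).symm
  obtain ⟨x, hx⟩ := exists_ne_form j
  have h1 := congrArg (fun g : G => mat g *ᵥ x) hcomm
  simp only [mat_mul, ← Matrix.mulVec_mulVec] at h1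
  rw [tvG_apply, tvG_apply, Matrix.mulVec_add, Matrix.mulVec_smul, add_right_inj] at h1
  set a := c0 * herm x u with ha
  have ha0 : a ≠ 0 := mul_ne_zero c0_ne hx
  set b := c0 * herm (mat z *ᵥ x) u with hb
  have h2 : mat z *ᵥ u = (a⁻¹ * b) • u := by
    rw [mul_smul, ← h1, smul_smul, inv_mul_cancel₀ ha0, one_smul]
  have h3 : a⁻¹ * b ≠ 0 := by
    intro h
    rw [h, zero_smul] at h2
    exact mat_mulVec_ne_zero z (pt_ne_zero j) h2
  rw [h2, nf_smul h3, hu, nf_pt]

/-- The map from the projective group. -/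
noncomputable def iota : PSU 6 K4 2 →* Equiv.Perm (Fin 693) :=
  QuotientGroup.lift (Subgroup.center G) iota0 center_le

theorem iota_mk (s : G) : iota (QuotientGroup.mk s) = iota0 s := rfl

theorem iota_inj : Function.Injective iota := by
  haveI : IsSimpleGroup (PSU 6 K4 2) := isSimple_PSU hF (by norm_num) (by norm_num)
  rw [← MonoidHom.ker_eq_bot_iff]
  rcases IsSimpleGroup.eq_bot_or_eq_top_of_normal iota.ker inferInstance with h | h
  · exact h
  · exfalso
    apply T_moves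
    have h1 : (QuotientGroup.mk (T (gen 0)) : PSU 6 K4 2) ∈ iota.ker := by
      rw [h]
      exact Subgroup.mem_top _
    exact h1

theorem card_PSU : Nat.card (PSU 6 K4 2) = 9196830720 := by
  have h := Cfsg.Agent.Lib.UnitarySU.card_PSU hF 6 (by norm_num)
  have h2 : (∏ i ∈ Finset.range 6, (if Even i then 2 ^ (i + 1) + 1 else 2 ^ (i + 1) - 1)) = 2525985 := by
    decide +kernel
  rw [h2] at h
  norm_num at h
  omega

end Cfsg.Agent.Lib.U62A
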