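import Mathlib
import Cfsg.Agent.Lib.U62Data
import Cfsg.Agent.Lib.U62A2
import Cfsg.Agent.Lib.CoConf
import Cfsg.Agent.Lib.CoVec

/-!
# The stabilizer of two minimal vectors of the lattice permutes `693` sets of vectors as `PSU(6, 2)`.
-/

set_option autoImplicit false
set_option maxRecDepth 100000

open Cfsg Cfsg.Agent.Lib.Leech Cfsg.Agent.Lib.Co0Mono Cfsg.Agent.Lib.Co0Frame
open Cfsg.Agent.Lib.U62Data Cfsg.Agent.Lib.CoVec
open Cfsg.Agent.Lib.U62A (piF piN iota0 T gen Qt iota_T all_mem iota iota_mk iota_inj card_PSU)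
open Cfsg.Agent.Lib.Golay (decode isM24 decode_mem_M24 reduce)

namespace Cfsg.Agent.Lib.U62B

/-! ### The vectors -/

/-- The code of a vector. -/
def yN (i : ℕ) : ℕ := Nat.land (Nat.shiftRight yP (Nat.mul 192 i)) (Nat.sub (2 ^ 192) 1)

theorem y_ok : ∀ i : Fin 891, memL (yN i) = true ∧ Nat.blt (yN i) (2 ^ 192) = true ∧ Nat.ble (sqN (yN i)) 2000 = true := by
  decide +kernel

theorem lt_of_blt {a b : ℕ} (h : Nat.blt a b = true) : a < b := by simpa [Nat.blt_eq] using h

theorem st_of {n : ℕ} (h1 : memL n = true) (h2 : Nat.blt n (2 ^ 192) = true) (h3 : Nat.ble (sqN n) 2000 = true) : St n := by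
  refine ⟨lt_of_blt h2, mem_of_memL h1, ?_⟩
  rw [sqNorm_dec]
  exact_mod_cast Nat.le_of_ble_eq_true h3

theorem y_st (i : Fin 891) : St (yN i) := st_of (y_ok i).1 (y_ok i).2.1 (y_ok i).2.2

/-- The vectors. -/
def yV (i : Fin 891) : leechLattice := (y_st i).vec

theorem y_mono : ∀ i : Fin 890, Nat.blt (yN i.1) (yN (i.1 + 1)) = true := by decide +kernel

theorem yN_strict : StrictMono fun i : Fin 891 => yN i := by
  refine Fin.strictMono_iff_lt_succ.2 fun i => ?_
  exact lt_of_blt (y_mono i)

theorem yV_inj : Function.Injective yV := by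
  intro i j h
  apply yN_strict.injective
  have h1 : dec (yN i) = dec (yN j) := congrArg Subtype.val h
  exact dec_injOn (y_st i).1 (y_st j).1 h1

theorem v_ok : memL vT = true ∧ Nat.blt vT (2 ^ 192) = true ∧ sqN vT = 32 := by decide +kernel
theorem w_ok : memL wT = true ∧ Nat.blt wT (2 ^ 192) = true ∧ sqN wT = 32 := by decide +kernel

theorem st_of' {n k : ℕ} (h1 : memL n = true) (h2 : Nat.blt n (2 ^ 192) = true) (h3 : sqN n = k) (hk : k ≤ 2000) : St n := by
  refine ⟨lt_of_blt h2, mem_of_memL h1, ?_⟩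
  rw [sqNorm_dec, h3]
  exact_mod_cast hk

theorem v_st : St vT := st_of' v_ok.1 v_ok.2.1 v_ok.2.2 (by norm_num)
theorem w_st : St wT := st_of' w_ok.1 w_ok.2.1 w_ok.2.2 (by norm_num)

/-- A minimal vector. -/
def vV : leechLattice := v_st.vec
/-- A second minimal vector. -/
def wV : leechLattice := w_st.vec

theorem norm_vV : sqNorm (vV : GolayPt → ℤ) = 32 := by
  show sqNorm (dec vT) = 32
  rw [sqNorm_dec, v_ok.2.2]
  rfl

theorem norm_wV : sqNorm (wV : GolayPt → ℤ) = 32 := by
  show sqNorm (dec wT) = 32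
  rw [sqNorm_dec, w_ok.2.2]
  rfl

/-! ### The stabilizer -/

/-- The stabilizer of the two vectors. -/
noncomputable abbrev S0 : Subgroup Co0 :=
  MulAction.stabilizer Co0 vV ⊓ MulAction.stabilizer Co0 wV

theorem fix_of {g : Co0} {f : ℕ → ℕ} (hf : ActsOn g f) {n : ℕ} (hn : St n) (h : f n = n) : g • hn.vec = hn.vec := by
  apply Subtype.ext
  have h1 := (hf n hn).2
  rw [h] at h1
  exact h1

theorem mem_S0 {g : Co0} {f : ℕ → ℕ} (hf : ActsOn g f) (h1 : f vT = vT) (h2 : f wT = wT) : g ∈ S0 :=
  ⟨fix_of hf v_st h1, fix_of hf w_st h2⟩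

/-! ### The family -/

/-- A member of a set of the family. -/
def spN (j k : ℕ) : ℕ := Nat.land (Nat.shiftRight spQ (Nat.mul 10 (Nat.add (Nat.mul 27 j) k))) 1023

/-- The members of a set of the family. -/
def spE (j : ℕ) : List ℕ := (List.range 27).map (spN j)

theorem spE_lt : ∀ j : Fin 693, (spE j).all (Nat.blt · 891) = true := by decide +kernel

theorem spE_lt' {j : Fin 693} {n : ℕ} (h : n ∈ spE j) : n < 891 :=
  lt_of_blt (List.all_eq_true.1 (spE_lt j) n h)

theorem spE_nodup : ∀ j : Fin 693, (spE j).Nodup := by decide +kernel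

/-- A set of the family, by numbers. -/
def II (j : Fin 693) : Finset (Fin 891) := Finset.univ.filter fun b => b.val ∈ spE j

theorem mem_II {j : Fin 693} {b : Fin 891} : b ∈ II j ↔ b.val ∈ spE j := by
  simp [II]

attribute [local irreducible] II

theorem image_II (j : Fin 693) : (II j).image Fin.val = (spE j).toFinset := by
  ext n
  simp only [Finset.mem_image, List.mem_toFinset, mem_II]
  constructor
  · rintro ⟨b, hb, rfl⟩
    exact hb
  · intro h
    exact ⟨⟨n, spE_lt' h⟩, h, rfl⟩

theorem card_II (j : Fin 693) : (II j).card = 27 := by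
  have h1 : ((II j).image Fin.val).card = (II j).card := Finset.card_image_of_injective _ Fin.val_injective
  rw [← h1, image_II, List.toFinset_card_of_nodup (spE_nodup j)]
  simp [spE]

/-- A sum determining the set. -/
def key (j : ℕ) : ℕ := ((spE j).map fun n => n ^ 3).sum

theorem key_mono : ∀ j : Fin 692, Nat.blt (key j.1) (key (j.1 + 1)) = true := by decide +kernel

theorem key_strict : StrictMono fun j : Fin 693 => key j := by
  refine Fin.strictMono_iff_lt_succ.2 fun i => ?_
  exact lt_of_blt (key_mono i)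

theorem key_eq (j : Fin 693) : ∑ b ∈ II j, (b.val : ℕ) ^ 3 = key j := by
  have h1 : ∑ n ∈ (II j).image Fin.val, n ^ 3 = ∑ b ∈ II j, (b.val : ℕ) ^ 3 :=
    Finset.sum_image (fun a _ b _ h => Fin.val_injective h)
  rw [← h1, image_II]
  exact List.sum_toFinset _ (spE_nodup j)

theorem II_inj {j k : Fin 693} (h : II j = II k) : j = k := by
  have h1 : key j = key k := by
    rw [← key_eq, ← key_eq, h]
  exact key_strict.injective h1

open Classical in
/-- A set of the family. -/
noncomputable def Sp (j : Fin 693) : Finset leechLattice := (II j).image yV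

theorem Sp_inj {j k : Fin 693} (h : Sp j = Sp k) : j = k :=
  II_inj (Finset.image_injective yV_inj h)

open Classical in
theorem card_Sp (j : Fin 693) : (Sp j).card = 27 := by
  unfold Sp
  rw [Finset.card_image_of_injective _ yV_inj, card_II]

open Classical in
/-- A permutation mapping the members of one set into another. -/
theorem image_of {a : Equiv.Perm leechLattice} {j j' : Fin 693} (h : ∀ b ∈ Sp j, a b ∈ Sp j') :
    (Sp j).image a = Sp j' := by
  apply Finset.eq_of_subset_of_card_le
  · intro b hb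
    obtain ⟨c, hc, rfl⟩ := Finset.mem_image.1 hb
    exact h c hc
  · rw [Finset.card_image_of_injective _ a.injective, card_Sp, card_Sp]

attribute [local irreducible] Sp

/-! ### The stabilizer of the family -/

open Classical in
/-- The permutation preserves the family. -/
def Pres (a : Equiv.Perm leechLattice) : Prop := ∀ j : Fin 693, ∃ j' : Fin 693, (Sp j).image a = Sp j'

open Classical in
theorem Pres_inv {a : Equiv.Perm leechLattice} (h : Pres a) : Pres a⁻¹ := by
  choose f hf using h
  have hinj : Function.Injective f := by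
    intro j k e
    apply Sp_inj
    have h1 : (Sp j).image a = (Sp k).image a := by rw [hf, hf, e]
    exact Finset.image_injective a.injective h1
  have hs : Function.Surjective f := Finite.surjective_of_injective hinj
  intro j
  obtain ⟨k, rfl⟩ := hs j
  refine ⟨k, ?_⟩
  rw [← hf, Finset.image_image]
  have : (⇑a⁻¹ ∘ ⇑a) = id := by
    funext x
    simp
  rw [this, Finset.image_id]

open Classical in
/-- The elements of the stabilizer of the two vectors preserving the family. -/
noncomputable def HH : Subgroup Co0 where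
  carrier := {a | a ∈ S0 ∧ Pres (a : Equiv.Perm leechLattice)}
  mul_mem' := by
    rintro a b ⟨h1, h2⟩ ⟨h3, h4⟩
    refine ⟨S0.mul_mem h1 h3, ?_⟩
    intro j
    obtain ⟨k, hk⟩ := h4 j
    obtain ⟨l, hl⟩ := h2 k
    refine ⟨l, ?_⟩
    rw [← hl, ← hk, Finset.image_image]
    rfl
  one_mem' := by
    refine ⟨S0.one_mem, fun j => ⟨j, ?_⟩⟩
    show (Sp j).image (⇑(1 : Equiv.Perm leechLattice)) = Sp j
    have : ⇑(1 : Equiv.Perm leechLattice) = id := rfl
    rw [this, Finset.image_id]
  inv_mem' := by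
    rintro a ⟨h1, h2⟩
    exact ⟨S0.inv_mem h1, Pres_inv h2⟩

open Classical in
/-- The action on the family. -/
noncomputable def fB (a : HH) (j : Fin 693) : Fin 693 := Classical.choose (a.2.2 j)

open Classical in
theorem fB_spec (a : HH) (j : Fin 693) : (Sp j).image ((a : Co0) : Equiv.Perm leechLattice) = Sp (fB a j) :=
  Classical.choose_spec (a.2.2 j)

open Classical in
theorem fB_of {a : HH} {j j' : Fin 693} (h : (Sp j).image ((a : Co0) : Equiv.Perm leechLattice) = Sp j') : fB a j = j' :=
  Sp_inj (by rw [← fB_spec, h])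

open Classical in
theorem fB_mul (a b : HH) (j : Fin 693) : fB (a * b) j = fB a (fB b j) := by
  apply fB_of
  rw [← fB_spec a, ← fB_spec b, Finset.image_image]
  rfl

open Classical in
theorem fB_one (j : Fin 693) : fB 1 j = j := by
  apply fB_of
  show (Sp j).image (⇑(1 : Equiv.Perm leechLattice)) = Sp j
  have : ⇑(1 : Equiv.Perm leechLattice) = id := rfl
  rw [this, Finset.image_id]

/-- The map to the permutations of the family. -/
noncomputable def rhoB : HH →* Equiv.Perm (Fin 693) where
  toFun a := ⟨fB a, fB a⁻¹, fun j => by rw [← fB_mul, inv_mul_cancel, fB_one],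
    fun j => by rw [← fB_mul, mul_inv_cancel, fB_one]⟩
  map_one' := Equiv.ext fB_one
  map_mul' a b := Equiv.ext (fB_mul a b)

theorem rhoB_apply (a : HH) (j : Fin 693) : rhoB a j = fB a j := rfl

/-! ### Explicit elements -/

theorem red0 : reduce 0 = 0 := by decide +kernel

/-- A permutation of the coordinates. -/
noncomputable def mo (c : ℕ) (h : isM24 c = true) : Co0 :=
  monoCo0 (ofMask_mem_codeSets (m := 0) (by norm_num) red0) (decode_mem_M24 h)

theorem mo_acts {c : ℕ} (h : isM24 c = true) : ActsOn (mo c h) (actMono c 0) :=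
  actMono_spec h (by norm_num) red0

/-- The tables. -/
def aL (i : Fin 6) : ℕ := if i.1 = 0 then a0 else if i.1 = 1 then a1 else if i.1 = 2 then a2 else if i.1 = 3 then a3 else
  if i.1 = 4 then a4 else a5

/-- The tables. -/
def bL (i : Fin 6) : ℕ := if i.1 = 0 then b0 else if i.1 = 1 then b1 else if i.1 = 2 then b2 else if i.1 = 3 then b3 else
  if i.1 = 4 then b4 else b5

/-- The tables. -/
def mL (i : Fin 6) : ℕ := if i.1 = 0 then m0 else if i.1 = 1 then m1 else if i.1 = 2 then m2 else if i.1 = 3 then m3 else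
  if i.1 = 4 then m4 else m5

/-- The tables. -/
def tL (i : Fin 6) : ℕ := if i.1 = 0 then tau0 else if i.1 = 1 then tau1 else if i.1 = 2 then tau2 else if i.1 = 3 then tau3 else
  if i.1 = 4 then tau4 else tau5

theorem m_ok : ∀ i : Fin 6, isM24 (aL i) = true ∧ isM24 (bL i) = true ∧ reduce (mL i) = 0 ∧ Nat.blt (mL i) (2 ^ 24) = true := by
  decide +kernel

theorem id_ok : isM24 idC = true := by decide +kernel

theorem mL_lt (i : Fin 6) : mL i < 2 ^ 24 := lt_of_blt (m_ok i).2.2.2

/-- The sign change. -/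
noncomputable def sC (i : Fin 6) : Co0 :=
  monoCo0 (ofMask_mem_codeSets (mL_lt i) (m_ok i).2.2.1) (decode_mem_M24 id_ok)

theorem sC_acts (i : Fin 6) : ActsOn (sC i) (actMono idC (mL i)) :=
  actMono_spec id_ok (mL_lt i) (m_ok i).2.2.1

/-- A word with two `xi`. -/
noncomputable def wd (i : Fin 6) : Co0 :=
  mo (aL i) (m_ok i).1 * xiCo0 * sC i * xiCo0 * mo (bL i) (m_ok i).2.1

/-- The action of the word on codes. -/
def fw (i : Fin 6) (n : ℕ) : ℕ := actMono (aL i) 0 (actXi (actMono idC (mL i) (actXi (actMono (bL i) 0 n))))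

theorem wd_acts (i : Fin 6) : ActsOn (wd i) (fw i) :=
  (((((mo_acts _).mul actXi_acts).mul (sC_acts i)).mul actXi_acts).mul (mo_acts _))

/-- A table of numbers below `891`. -/
def tauN (P i : ℕ) : ℕ := Nat.land (Nat.shiftRight P (Nat.mul 10 i)) 1023

/-- The check on the vectors. -/
def chkV (k : Fin 6) (i : Fin 891) : Bool :=
  Nat.blt (tauN (tL k) i) 891 && Nat.beq (fw k (yN i)) (yN (tauN (tL k) i))

/-- The check on the family. -/
def chkF (k : Fin 6) (j : Fin 693) : Bool :=
  (spE j).all fun n => (spE (piF (Qt k) j)).any fun m => Nat.beq m (tauN (tL k) n)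

open Classical in
theorem image_gen (k : Fin 6) (h1 : ∀ i, chkV k i = true) (h2 : ∀ j, chkF k j = true) (j : Fin 693) :
    (Sp j).image ((wd k : Co0) : Equiv.Perm leechLattice) = Sp (piF (Qt k) j) := by
  have hf := wd_acts k
  have hv : ∀ i : Fin 891, ∃ h : tauN (tL k) i < 891, ((wd k : Co0) : Equiv.Perm leechLattice) (yV i) = yV ⟨tauN (tL k) i, h⟩ := by
    intro i
    have h3 := h1 i
    simp only [chkV, Bool.and_eq_true] at h3
    refine ⟨lt_of_blt h3.1, Subtype.ext ?_⟩
    have h4 := (hf _ (y_st i)).2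
    rw [Nat.eq_of_beq_eq_true h3.2] at h4
    exact h4
  refine image_of (a := ((wd k : Co0) : Equiv.Perm leechLattice)) (j := j) (j' := piF (Qt k) j) ?_
  intro w hw
  have hmem : ∀ {k : Fin 693} {w : leechLattice}, w ∈ Sp k ↔ ∃ i ∈ II k, yV i = w := by
    intro k w
    unfold Sp
    simp only [Finset.mem_image]
  obtain ⟨i, hi, rfl⟩ := hmem.1 hw
  obtain ⟨h5, h6⟩ := hv i
  rw [h6]
  refine hmem.2 ⟨⟨tauN (tL k) i, h5⟩, mem_II.2 ?_, rfl⟩
  have h7 := List.all_eq_true.1 (h2 j) i (mem_II.1 hi)
  obtain ⟨m, hm, h8⟩ := List.any_eq_true.1 h7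
  have e8' := Nat.eq_of_beq_eq_true h8
  show tauN (tL k) i ∈ _
  rw [← e8']
  exact hm

theorem fix_ok : ∀ k : Fin 6, Nat.beq (fw k vT) vT = true ∧ Nat.beq (fw k wT) wT = true := by decide +kernel

theorem wd_S (k : Fin 6) : wd k ∈ S0 :=
  mem_S0 (wd_acts k) (Nat.eq_of_beq_eq_true (fix_ok k).1) (Nat.eq_of_beq_eq_true (fix_ok k).2)

theorem v0 : ∀ i, chkV 0 i = true := by decide +kernel
theorem v1 : ∀ i, chkV 1 i = true := by decide +kernel
theorem v2 : ∀ i, chkV 2 i = true := by decide +kernel
theorem v3 : ∀ i, chkV 3 i = true := by decide +kernel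
theorem v4 : ∀ i, chkV 4 i = true := by decide +kernel
theorem v5 : ∀ i, chkV 5 i = true := by decide +kernel
theorem f0 : ∀ j, chkF 0 j = true := by decide +kernel
theorem f1 : ∀ j, chkF 1 j = true := by decide +kernel
theorem f2 : ∀ j, chkF 2 j = true := by decide +kernel
theorem f3 : ∀ j, chkF 3 j = true := by decide +kernel
theorem f4 : ∀ j, chkF 4 j = true := by decide +kernel
theorem f5 : ∀ j, chkF 5 j = true := by decide +kernel

theorem vv (k : Fin 6) : ∀ i, chkV k i = true := by
  fin_cases k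
  · exact v0
  · exact v1
  · exact v2
  · exact v3
  · exact v4
  · exact v5

theorem ff (k : Fin 6) : ∀ i, chkF k i = true := by
  fin_cases k
  · exact f0
  · exact f1
  · exact f2
  · exact f3
  · exact f4
  · exact f5

/-- The generators. -/
noncomputable def bH (k : Fin 6) : HH := ⟨wd k, wd_S k, fun j => ⟨_, image_gen k (vv k) (ff k) j⟩⟩

theorem rhoB_b (k : Fin 6) : rhoB (bH k) = iota0 (T (gen k)) := Equiv.ext fun j => by
  rw [rhoB_apply, iota_T]
  exact fB_of (image_gen k (vv k) (ff k) j)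

theorem iota0_mem (s : Cfsg.Agent.Lib.U62A.G) : iota0 s ∈ rhoB.range := by
  have h : s ∈ (rhoB.range).comap iota0 := by
    refine all_mem (fun k => ?_) s
    exact ⟨bH k, rhoB_b k⟩
  exact h

theorem iota_le : iota.range ≤ rhoB.range := by
  rintro _ ⟨x, rfl⟩
  obtain ⟨s, rfl⟩ := QuotientGroup.mk_surjective x
  rw [iota_mk]
  exact iota0_mem s

theorem card_iota_range : Nat.card iota.range = 9196830720 := by
  rw [← card_PSU]
  exact (Nat.card_congr (MonoidHom.ofInjective iota_inj).toEquiv).symm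

end Cfsg.Agent.Lib.U62B
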