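import Mathlib
import Cfsg.Agent.Lib.U62B
import Cfsg.Agent.Lib.CoCensus
import Cfsg.Agent.Lib.CoFib
import Cfsg.Agent.Lib.Co0Order
import Cfsg.Agent.Lib.Co0Trans
import Cfsg.Agent.Lib.Co0Pair
import Cfsg.Agent.Lib.SUTransfer

/-!
# The stabilizer of two minimal vectors of the lattice of inner product `-16` is `PSU(6, 2)`.
-/

set_option autoImplicit false

open Cfsg Cfsg.Agent.Lib.Leech Cfsg.Agent.Lib.Co0Mono Cfsg.Agent.Lib.Co0Frame
open Cfsg.Agent.Lib.CoVec Cfsg.Agent.Lib.U62B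
open Cfsg.Agent.Lib.U62A (iota iota_inj card_PSU)
open Cfsg.Agent.Lib.F4K (K4)

namespace Cfsg.Agent.Lib.U62C

theorem card_step {G α : Type*} [Group G] [Finite G] [MulAction G α] (A : Subgroup G) (w : α) (Ω : Set α)
    (htrans : ∀ y ∈ Ω, ∃ g ∈ A, g • w = y) : Nat.card ↥(A ⊓ MulAction.stabilizer G w) * Ω.ncard ≤ Nat.card A := by
  have h1 : (MulAction.stabilizer A w).index = (MulAction.orbit A w).ncard := MulAction.index_stabilizer _ _
  have h2 := Subgroup.card_mul_index (MulAction.stabilizer A w)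
  have e : Nat.card (MulAction.stabilizer A w) = Nat.card ↥(A ⊓ MulAction.stabilizer G w) :=
    Nat.card_congr ⟨fun x => ⟨x.1.1, x.1.2, x.2⟩, fun y => ⟨⟨y.1, y.2.1⟩, y.2.2⟩, fun _ => rfl, fun _ => rfl⟩
  have hsub : Ω ⊆ MulAction.orbit A w := by
    intro y hy
    obtain ⟨g, hg, rfl⟩ := htrans y hy
    exact ⟨⟨g, hg⟩, rfl⟩
  have hfin : (MulAction.orbit A w).Finite := Set.finite_range _
  have h3 := Set.ncard_le_ncard hsub hfin
  rw [← h2, e, h1]
  exact Nat.mul_le_mul_left _ h3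

theorem arith2 (a b : ℕ) (h1 : a * 4600 ≤ b) (h2 : b * 196560 ≤ 8315553613086720000) : a ≤ 9196830720 := by
  omega

/-- The order of the stabilizer of two vectors. -/
theorem card_le (v w : ↥leechLattice) (hv : sqNorm (v : GolayPt → ℤ) = 32) (hw : sqNorm (w : GolayPt → ℤ) = 32)
    (hd : dotInt (v : GolayPt → ℤ) (w : GolayPt → ℤ) = -16) :
    Nat.card ↥(MulAction.stabilizer Co0 v ⊓ MulAction.stabilizer Co0 w) ≤ 9196830720 := by
  have h0 := card_step (⊤ : Subgroup Co0) v (Cfsg.Agent.Lib.CoConf.DS []) (by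
    intro y hy
    obtain ⟨g, hg⟩ := Cfsg.Agent.Lib.Co0Trans.trans32 v y hv hy.1
    exact ⟨g, Subgroup.mem_top _, hg⟩)
  rw [top_inf_eq, Subgroup.card_top, Cfsg.Agent.Lib.CoConf.ncard_nil, Cfsg.Agent.Lib.Co0Order.card_Co0] at h0
  have h1 := card_step (MulAction.stabilizer Co0 v) w (Cfsg.Agent.Lib.CoConf.DS [(v, -16)]) (by
    intro y hy
    have hy2 := Cfsg.Agent.Lib.CoConf.mem_DS_cons.1 hy
    obtain ⟨g, h2, h3⟩ := Cfsg.Agent.Lib.Co0Pair.pairM16 hv hv hw hy2.1.1 hd hy2.2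
    exact ⟨g, h2, h3⟩)
  have hc : (Cfsg.Agent.Lib.CoConf.DS [(v, -16)]).ncard = 4600 := by
    rw [Cfsg.Agent.Lib.CoConf.ncard_DS_single]
    exact (Cfsg.Agent.Lib.CoCensus.census v hv).1
  rw [hc] at h1
  exact arith2 _ _ h1 h0

/-! ### The standard pair -/

theorem dot_vw : dotInt (vV : GolayPt → ℤ) (wV : GolayPt → ℤ) = -16 :=
  Cfsg.Agent.Lib.CoConf.dot_code (by decide +kernel)

theorem arith (k r h s : ℕ) (h2 : k * r = h) (h1 : h ≤ s) (hS : s ≤ 9196830720) (h3 : 9196830720 ≤ r) (h4 : 1 ≤ k) :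
    r = 9196830720 ∧ k = 1 ∧ h = s := by
  have h5 : r ≤ k * r := Nat.le_mul_of_pos_left _ h4
  have h6 : r = 9196830720 := by omega
  subst h6
  have h7 : k = 1 := by omega
  subst h7
  exact ⟨rfl, rfl, by omega⟩

/-- The stabilizer of the standard pair. -/
theorem S0_iso : Nonempty (S0 ≃* PSU 6 K4 2) := by
  have hS : Nat.card S0 ≤ 9196830720 := card_le vV wV norm_vV norm_wV dot_vw
  have hle : HH ≤ S0 := fun a ha => ha.1
  have h1 : Nat.card HH ≤ Nat.card S0 := Subgroup.card_le_of_le hle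
  have h2 := Subgroup.card_mul_index rhoB.ker
  rw [Subgroup.index_ker rhoB] at h2
  have h3 : 9196830720 ≤ Nat.card rhoB.range := by
    have h5 := Subgroup.card_le_of_le iota_le
    rw [card_iota_range] at h5
    exact h5
  have h4 : 1 ≤ Nat.card rhoB.ker := Nat.card_pos
  obtain ⟨h5, h6, h7⟩ := arith _ _ _ _ h2 h1 hS h3 h4
  have hk : rhoB.ker = ⊥ := Subgroup.eq_bot_of_card_eq _ h6
  have hinj : Function.Injective rhoB := (MonoidHom.ker_eq_bot_iff _).1 hk
  have hHH : HH = S0 := by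
    apply Subgroup.eq_of_le_of_card_ge hle
    exact h7.ge
  have hr : iota.range = rhoB.range := by
    apply Subgroup.eq_of_le_of_card_ge iota_le
    rw [h5, card_iota_range]
  exact ⟨(MulEquiv.subgroupCongr hHH.symm).trans ((MonoidHom.ofInjective hinj).trans
    ((MulEquiv.subgroupCongr hr.symm).trans (MonoidHom.ofInjective iota_inj).symm))⟩

theorem conj_iso {G α : Type*} [Group G] [MulAction G α] (k : G) (u v : α) :
    Nonempty (↥(MulAction.stabilizer G u ⊓ MulAction.stabilizer G v) ≃*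
      ↥(MulAction.stabilizer G (k • u) ⊓ MulAction.stabilizer G (k • v))) := by
  have hinj : Function.Injective (MulAut.conj k).toMonoidHom := (MulAut.conj k).injective
  have e : MulAction.stabilizer G (k • u) ⊓ MulAction.stabilizer G (k • v) =
      (MulAction.stabilizer G u ⊓ MulAction.stabilizer G v).map (MulAut.conj k).toMonoidHom := by
    rw [Subgroup.map_inf _ _ _ hinj, MulAction.stabilizer_smul_eq_stabilizer_map_conj,
      MulAction.stabilizer_smul_eq_stabilizer_map_conj]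
  exact ⟨((MulAut.conj k).subgroupMap _).trans (MulEquiv.subgroupCongr e.symm)⟩

/-- `PSU` over isomorphic fields. -/
theorem psu_congr {F K : Type*} [Field F] [Field K] (φ : F ≃+* K) (n q : ℕ) : Nonempty (PSU n F q ≃* PSU n K q) := by
  let e : SU n F q ≃* SU n K q := Cfsg.Agent.Lib.SUTransfer.suEquiv φ
  have he : (Subgroup.center (SU n F q)).map e.toMonoidHom = Subgroup.center (SU n K q) := by
    ext y
    constructor
    · rintro ⟨a, ha, rfl⟩
      rw [Subgroup.mem_center_iff]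
      intro g
      obtain ⟨g', rfl⟩ := e.surjective g
      show e g' * e a = e a * e g'
      rw [← map_mul, ← map_mul, Subgroup.mem_center_iff.1 ha g']
    · intro hy
      refine ⟨e.symm y, ?_, e.apply_symm_apply y⟩
      rw [SetLike.mem_coe, Subgroup.mem_center_iff]
      intro g
      apply e.injective
      rw [map_mul, map_mul, e.apply_symm_apply]
      exact Subgroup.mem_center_iff.1 hy _
  exact ⟨QuotientGroup.congr _ _ e he⟩

/-- The main theorem. -/
theorem main (v w : ↥leechLattice) (hv : sqNorm (v : GolayPt → ℤ) = 32) (hw : sqNorm (w : GolayPt → ℤ) = 32)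
    (hd : dotInt (v : GolayPt → ℤ) (w : GolayPt → ℤ) = -16) (F : Type) [Field F] [Fintype F] (hF : Fintype.card F = 4) :
    Nonempty (↥(MulAction.stabilizer Co0 v ⊓ MulAction.stabilizer Co0 w) ≃* PSU 6 F 2) := by
  obtain ⟨g, hg⟩ := Cfsg.Agent.Lib.Co0Trans.trans32 v vV hv norm_vV
  have h1 : sqNorm ((g • w : leechLattice) : GolayPt → ℤ) = 32 := by
    rw [Cfsg.Agent.Lib.CoConf.norm_smul]
    exact hw
  have h2 : dotInt (vV : GolayPt → ℤ) ((g • w : leechLattice) : GolayPt → ℤ) = -16 := by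
    rw [← hg, Cfsg.Agent.Lib.CoConf.dot_smul]
    exact hd
  obtain ⟨g', g1, g2⟩ := Cfsg.Agent.Lib.Co0Pair.pairM16 norm_vV norm_vV h1 norm_wV h2 dot_vw
  obtain ⟨e1⟩ := conj_iso (g' * g) v w
  have h3 : (g' * g) • v = vV := by
    rw [mul_smul, hg]
    exact g1
  have h4 : (g' * g) • w = wV := by
    rw [mul_smul]
    exact g2
  rw [h3, h4] at e1
  obtain ⟨e2⟩ := S0_iso
  have hc : Fintype.card K4 = Fintype.card F := by
    rw [hF]
    exact Cfsg.Agent.Lib.F4K.K4.card_K4
  obtain ⟨e3⟩ := psu_congr (FiniteField.ringEquivOfCardEq hc) 6 2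
  exact ⟨e1.trans (e2.trans e3)⟩

end Cfsg.Agent.Lib.U62C
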