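import Mathlib
import Cfsg.Agent.Lib.U6BrD46
import Cfsg.Agent.Lib.UnitarySU

/-!
# The permutation group of degree 1365 and the special unitary group in dimension six over the field with four elements
-/

set_option autoImplicit false
set_option maxRecDepth 100000

namespace Cfsg.Agent.Lib.U6Bridge46

open Cfsg Cfsg.Agent.Lib.PermCode46 Cfsg.Agent.Lib.U6Data46 Cfsg.Agent.Lib.U6BrD46 Cfsg.Agent.Lib.UnitarySU
open Cfsg.Agent.Lib.SchurCoset46 (lett evW lett_even lett_odd map_evW map_lett)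
open scoped Matrix

/-! ### The field -/

/-- The description of the field with four elements. -/
structure W4 (F : Type*) [Field F] where
  w : F
  hw : w * w = w + 1
  h2 : (2 : F) = 0
  hall : ∀ x : F, x = 0 ∨ x = 1 ∨ x = w ∨ x = w + 1

section Field

variable {F : Type*} [Field F]

theorem exists_W4 [Fintype F] (hF : Fintype.card F = 4) : Nonempty (W4 F) := by
  classical
  have h2 : (2 : F) = 0 := by
    have h1 : ((Fintype.card F : ℕ) : F) = 0 := FiniteField.cast_card_eq_zero F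
    rw [hF] at h1
    have h3 : (2 : F) * 2 = 0 := by
      have : (2 : F) * 2 = ((4 : ℕ) : F) := by norm_num
      rw [this, h1]
    simpa using h3
  have hadd : ∀ x : F, x + x = 0 := by
    intro x
    have : x + x = 2 * x := by ring
    rw [this, h2, zero_mul]
  have hneg : ∀ x y : F, x + y = 0 → x = y := by
    intro x y h
    have h3 : x + y + y = y := by rw [h, zero_add]
    rwa [add_assoc, hadd, add_zero] at h3
  obtain ⟨w, hw0, hw1⟩ : ∃ w : F, w ≠ 0 ∧ w ≠ 1 := by
    by_contra hcon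
    push_neg at hcon
    have hs : (Finset.univ : Finset F) ⊆ {0, 1} := by
      intro x _
      by_cases hx : x = 0
      · simp [hx]
      · simp [hcon x hx]
    have h3 := Finset.card_le_card hs
    rw [Finset.card_univ, hF] at h3
    have h4 : ({0, 1} : Finset F).card ≤ 2 := Finset.card_le_two
    omega
  have hp : ∀ x : F, x ^ 4 = x := by
    intro x
    have h := FiniteField.pow_card x
    rwa [hF] at h
  have hw : w * w = w + 1 := by
    have h3 : w * ((w + 1) * (w * w + w + 1)) = 0 := by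
      have h4 := hp w
      have e : w * ((w + 1) * (w * w + w + 1)) = (w ^ 4 + w) + 2 * (w ^ 3 + w ^ 2) := by ring
      rw [e, h2, zero_mul, add_zero, h4, hadd]
    have h5 : w + 1 ≠ 0 := fun h => hw1 (hneg _ _ h)
    have h6 : w * w + w + 1 = 0 := by
      rcases mul_eq_zero.mp h3 with h | h
      · exact absurd h hw0
      · rcases mul_eq_zero.mp h with h | h
        · exact absurd h h5
        · exact h
    exact hneg _ _ (by rw [add_assoc] at h6; exact h6)
  refine ⟨⟨w, hw, h2, fun x => ?_⟩⟩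
  have h3 : x * ((x + 1) * ((x + w) * (x + w + 1))) = 0 := by
    have e : x * ((x + 1) * ((x + w) * (x + w + 1))) = (x ^ 4 + x) + 2 * (x ^ 3 + x ^ 3 * w + x ^ 2 * w - x) +
        x * (x + 1) * (w * w + w + 1) := by ring
    rw [e, h2, zero_mul, add_zero, hp, hadd, zero_add, hw]
    have : w + 1 + w + 1 = 2 * (w + 1) := by ring
    rw [this, h2, zero_mul, mul_zero]
  rcases mul_eq_zero.mp h3 with h | h
  · exact Or.inl h
  · rcases mul_eq_zero.mp h with h | h
    · exact Or.inr (Or.inl (hneg _ _ h))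
    · rcases mul_eq_zero.mp h with h | h
      · exact Or.inr (Or.inr (Or.inl (hneg _ _ h)))
      · exact Or.inr (Or.inr (Or.inr (hneg _ _ (by rw [add_assoc] at h; exact h))))

variable (W : W4 F)

include W in
theorem W4.add_self (x : F) : x + x = 0 := by
  have : x + x = 2 * x := by ring
  rw [this, W.h2, zero_mul]

theorem W4.w_ne_zero : W.w ≠ 0 := by
  intro h
  have h1 := W.hw
  rw [h, mul_zero, zero_add] at h1
  exact one_ne_zero h1.symm

theorem W4.w_ne_one : W.w ≠ 1 := by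
  intro h
  have h1 := W.hw
  rw [h, mul_one, W.add_self] at h1
  exact one_ne_zero h1

theorem W4.w1_ne_zero : W.w + 1 ≠ 0 := by
  intro h
  have h3 : W.w + 1 + 1 = 1 := by rw [h, zero_add]
  rw [add_assoc, W.add_self, add_zero] at h3
  exact W.w_ne_one h3

theorem W4.w_w1 : W.w * (W.w + 1) = 1 := by
  rw [mul_add, W.hw, mul_one, add_assoc, add_comm 1 W.w, ← add_assoc, W.add_self, zero_add]

theorem W4.w1_w : (W.w + 1) * W.w = 1 := by rw [mul_comm, W.w_w1]

theorem W4.w1_w1 : (W.w + 1) * (W.w + 1) = W.w := by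
  rw [mul_add, W.w1_w, mul_one, ← add_assoc, add_comm 1 W.w, add_assoc, W.add_self, add_zero]

/-- The element of a digit. -/
def el (d : ℕ) : F :=
  if d = 0 then 0 else if d = 1 then 1 else if d = 2 then W.w else W.w + 1

theorem el_0 : el W 0 = 0 := rfl
theorem el_1 : el W 1 = 1 := rfl
theorem el_2 : el W 2 = W.w := rfl
theorem el_3 : el W 3 = W.w + 1 := rfl

theorem el_inj {a b : ℕ} (ha : a < 4) (hb : b < 4) (h : el W a = el W b) : a = b := by
  have h1 := W.w_ne_zero
  have h2 := W.w_ne_one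
  have h3 := W.w1_ne_zero
  have h4 : W.w + 1 ≠ W.w := by
    intro h
    have h5 : W.w + 1 + W.w = W.w + W.w := by rw [h]
    rw [W.add_self, add_comm W.w 1, add_assoc, W.add_self, add_zero] at h5
    exact one_ne_zero h5
  have h5 : W.w + 1 ≠ 1 := by
    intro h
    have h6 : W.w + 1 + 1 = 1 + 1 := by rw [h]
    rw [add_assoc, W.add_self, add_zero] at h6
    exact h1 h6
  interval_cases a <;> interval_cases b <;> first
    | rfl
    | (exfalso
       simp only [el_0, el_1, el_2, el_3] at h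
       first
         | exact h1 h
         | exact h1 h.symm
         | exact h2 h
         | exact h2 h.symm
         | exact h3 h
         | exact h3 h.symm
         | exact h4 h
         | exact h4 h.symm
         | exact h5 h
         | exact h5 h.symm
         | exact one_ne_zero h
         | exact one_ne_zero h.symm)

theorem mulD_table : ∀ a, a < 4 → ∀ b, b < 4 → mulD a b = [0,0,0,0,0,1,2,3,0,2,3,1,0,3,1,2].getD (4 * a + b) 0 := by decide

theorem el_mul {a b : ℕ} (ha : a < 4) (hb : b < 4) : el W (mulD a b) = el W a * el W b := by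
  rw [mulD_table a ha b hb]
  interval_cases a <;> interval_cases b <;> simp only [Nat.reduceMul, Nat.reduceAdd, List.getD_cons_zero, List.getD_cons_succ, el_0, el_1, el_2, el_3, zero_mul, mul_zero, one_mul, mul_one, W.hw, W.w_w1, W.w1_w, W.w1_w1]

theorem xor_table : ∀ a, a < 4 → ∀ b, b < 4 → a ^^^ b = [0,1,2,3,1,0,3,2,2,3,0,1,3,2,1,0].getD (4 * a + b) 0 := by decide

theorem el_xor {a b : ℕ} (ha : a < 4) (hb : b < 4) : el W (a ^^^ b) = el W a + el W b := by
  rw [xor_table a ha b hb]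
  have h1 := W.add_self W.w
  have h2 := W.add_self (1 : F)
  have h3 := W.add_self (W.w + 1)
  have h4 : W.w + (W.w + 1) = 1 := by rw [← add_assoc, h1, zero_add]
  have h5 : W.w + 1 + W.w = 1 := by rw [add_comm, h4]
  have h6 : (1 : F) + (W.w + 1) = W.w := by rw [add_comm, add_assoc, h2, add_zero]
  have h7 : W.w + 1 + 1 = W.w := by rw [add_assoc, h2, add_zero]
  interval_cases a <;> interval_cases b <;> simp only [Nat.reduceMul, Nat.reduceAdd, List.getD_cons_zero, List.getD_cons_succ, el_0, el_1, el_2, el_3, zero_add, add_zero, h1, h2, h3, h4, h5, h6, h7, add_comm (1 : F) W.w]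

theorem mulD_lt (a b : ℕ) : mulD a b < 4 := by
  show Nat.land _ 3 < 4
  exact Nat.lt_succ_of_le Nat.and_le_right

theorem dg_lt (n j : ℕ) : dg n j < 4 := by
  show Nat.land _ 3 < 4
  exact Nat.lt_succ_of_le Nat.and_le_right

theorem xor_lt {a b : ℕ} (ha : a < 4) (hb : b < 4) : a ^^^ b < 4 := Nat.xor_lt_two_pow (n := 2) ha hb

include W in
theorem W4.sq_sq (x : F) : (x ^ 2) ^ 2 = x := by
  rcases W.hall x with h | h | h | h <;> rw [h]
  · norm_num
  · norm_num
  · rw [pow_two W.w, W.hw, pow_two, W.w1_w1]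
  · rw [pow_two (W.w + 1), W.w1_w1, pow_two, W.hw]

include W in
theorem W4.add_sq (x y : F) : (x + y) ^ 2 = x ^ 2 + y ^ 2 := by
  have : (x + y) ^ 2 = x ^ 2 + y ^ 2 + 2 * (x * y) := by ring
  rw [this, W.h2, zero_mul, add_zero]

/-! ### Vectors -/

/-- The vector of a code. -/
def vN (n : ℕ) : Fin 6 → F := fun j => el W (dg n j)

theorem dg_eq (n j : ℕ) : dg n j = n / 4 ^ j % 4 := by
  show Nat.land (Nat.shiftRight n (Nat.mul 2 j)) 3 = _
  have e : (Nat.land (Nat.shiftRight n (Nat.mul 2 j)) 3) = (n >>> (2 * j)) &&& (2 ^ 2 - 1) := rfl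
  rw [e, Nat.and_two_pow_sub_one_eq_mod, Nat.shiftRight_eq_div_pow, pow_mul]
  norm_num

theorem mk6_eq (a0 a1 a2 a3 a4 a5 : ℕ) :
    mk6 a0 a1 a2 a3 a4 a5 = a0 + 4 * (a1 + 4 * (a2 + 4 * (a3 + 4 * (a4 + 4 * a5)))) := rfl

theorem dg_mk6 {a : ℕ → ℕ} (ha : ∀ j, a j < 4) {j : ℕ} (hj : j < 6) :
    dg (mk6 (a 0) (a 1) (a 2) (a 3) (a 4) (a 5)) j = a j := by
  rw [dg_eq, mk6_eq]
  have h0 := ha 0
  have h1 := ha 1
  have h2 := ha 2
  have h3 := ha 3
  have h4 := ha 4
  have h5 := ha 5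
  interval_cases j <;> norm_num <;> omega

theorem mk6_lt {a : ℕ → ℕ} (ha : ∀ j, a j < 4) : mk6 (a 0) (a 1) (a 2) (a 3) (a 4) (a 5) < 4096 := by
  rw [mk6_eq]
  have h0 := ha 0
  have h1 := ha 1
  have h2 := ha 2
  have h3 := ha 3
  have h4 := ha 4
  have h5 := ha 5
  omega

theorem dg_scl (c m : ℕ) {j : ℕ} (hj : j < 6) : dg (scl c m) j = mulD c (dg m j) :=
  dg_mk6 (a := fun j => mulD c (dg m j)) (fun _ => mulD_lt _ _) hj

theorem scl_lt (c m : ℕ) : scl c m < 4096 := mk6_lt (a := fun j => mulD c (dg m j)) (fun _ => mulD_lt _ _)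

theorem vN_scl {c : ℕ} (hc : c < 4) (m : ℕ) : vN W (scl c m) = el W c • vN W m := by
  funext j
  simp only [vN, Pi.smul_apply, smul_eq_mul]
  rw [dg_scl c m j.2, el_mul W hc (dg_lt _ _)]

theorem dg_xor (a b j : ℕ) : dg (a ^^^ b) j = dg a j ^^^ dg b j := by
  show Nat.land (Nat.shiftRight (a ^^^ b) (Nat.mul 2 j)) 3 =
    (Nat.land (Nat.shiftRight a (Nat.mul 2 j)) 3) ^^^ (Nat.land (Nat.shiftRight b (Nat.mul 2 j)) 3)
  have e : ∀ x s, Nat.land (Nat.shiftRight x s) 3 = (x >>> s) &&& 3 := fun _ _ => rfl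
  rw [e, e, e]
  apply Nat.eq_of_testBit_eq
  intro i
  simp only [Nat.testBit_and, Nat.testBit_xor, Nat.testBit_shiftRight]
  cases (3 : ℕ).testBit i <;> simp

theorem vN_xor (a b : ℕ) : vN W (a ^^^ b) = vN W a + vN W b := by
  funext j
  simp only [vN, Pi.add_apply]
  rw [dg_xor, el_xor W (dg_lt _ _) (dg_lt _ _)]

theorem xor_lt' {a b : ℕ} (ha : a < 4096) (hb : b < 4096) : a ^^^ b < 4096 := Nat.xor_lt_two_pow (n := 12) ha hb

theorem hT_lt (n m j : ℕ) : hT n m j < 4 := mulD_lt _ _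

theorem el_hT (n m j : ℕ) : el W (hT n m j) = el W (dg n j) * (el W (dg m j)) ^ 2 := by
  rw [hT, el_mul W (dg_lt _ _) (mulD_lt _ _), el_mul W (dg_lt _ _) (dg_lt _ _), pow_two]

theorem hD_lt (n m : ℕ) : hD n m < 4 :=
  xor_lt (hT_lt _ _ _) (xor_lt (hT_lt _ _ _) (xor_lt (hT_lt _ _ _) (xor_lt (hT_lt _ _ _) (xor_lt (hT_lt _ _ _) (hT_lt _ _ _)))))

theorem el_hD (n m : ℕ) : el W (hD n m) = hermForm 6 F 2 (vN W n) (vN W m) := by
  have e : hD n m = hT n m 0 ^^^ (hT n m 1 ^^^ (hT n m 2 ^^^ (hT n m 3 ^^^ (hT n m 4 ^^^ hT n m 5)))) := rfl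
  rw [e, el_xor W (hT_lt _ _ _) (xor_lt (hT_lt _ _ _) (xor_lt (hT_lt _ _ _) (xor_lt (hT_lt _ _ _) (xor_lt (hT_lt _ _ _) (hT_lt _ _ _))))),
    el_xor W (hT_lt _ _ _) (xor_lt (hT_lt _ _ _) (xor_lt (hT_lt _ _ _) (xor_lt (hT_lt _ _ _) (hT_lt _ _ _)))),
    el_xor W (hT_lt _ _ _) (xor_lt (hT_lt _ _ _) (xor_lt (hT_lt _ _ _) (hT_lt _ _ _))),
    el_xor W (hT_lt _ _ _) (xor_lt (hT_lt _ _ _) (hT_lt _ _ _)), el_xor W (hT_lt _ _ _) (hT_lt _ _ _)]
  simp only [el_hT, hermForm, Fin.sum_univ_six, vN]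
  simp only [Fin.isValue, Fin.val_zero, Fin.val_one, Fin.val_two]
  have h3 : ((3 : Fin 6) : ℕ) = 3 := rfl
  have h4 : ((4 : Fin 6) : ℕ) = 4 := rfl
  have h5 : ((5 : Fin 6) : ℕ) = 5 := rfl
  rw [h3, h4, h5]
  ring

/-! ### Codes of vectors -/

open Classical in
/-- The digit of an element. -/
noncomputable def dgF (x : F) : ℕ := if x = 0 then 0 else if x = 1 then 1 else if x = W.w then 2 else 3

theorem dgF_lt (x : F) : dgF W x < 4 := by
  unfold dgF
  split_ifs <;> omega

theorem el_dgF (x : F) : el W (dgF W x) = x := by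
  unfold dgF
  rcases W.hall x with h | h | h | h
  · rw [if_pos h, el_0, h]
  · by_cases h0 : x = 0
    · rw [if_pos h0, el_0, h0]
    · rw [if_neg h0, if_pos h, el_1, h]
  · by_cases h0 : x = 0
    · rw [if_pos h0, el_0, h0]
    · rw [if_neg h0]
      by_cases h1 : x = 1
      · rw [if_pos h1, el_1, h1]
      · rw [if_neg h1, if_pos h, el_2, h]
  · by_cases h0 : x = 0
    · rw [if_pos h0, el_0, h0]
    · rw [if_neg h0]
      by_cases h1 : x = 1
      · rw [if_pos h1, el_1, h1]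
      · rw [if_neg h1]
        by_cases h2 : x = W.w
        · rw [if_pos h2, el_2, h2]
        · rw [if_neg h2, el_3, h]

theorem dgF_el {d : ℕ} (hd : d < 4) : dgF W (el W d) = d :=
  el_inj W (dgF_lt W _) hd (el_dgF W _)

/-- The code of a vector. -/
noncomputable def cdv (v : Fin 6 → F) : ℕ :=
  mk6 (dgF W (v 0)) (dgF W (v 1)) (dgF W (v 2)) (dgF W (v 3)) (dgF W (v 4)) (dgF W (v 5))

/-- The digits of a vector. -/
noncomputable def dgs (v : Fin 6 → F) (j : ℕ) : ℕ := if h : j < 6 then dgF W (v ⟨j, h⟩) else 0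

theorem dgs_lt (v : Fin 6 → F) (j : ℕ) : dgs W v j < 4 := by
  unfold dgs
  split_ifs
  · exact dgF_lt W _
  · omega

theorem cdv_lt (v : Fin 6 → F) : cdv W v < 4096 := mk6_lt (a := dgs W v) (dgs_lt W v)

theorem vN_cdv (v : Fin 6 → F) : vN W (cdv W v) = v := by
  funext j
  have h : dg (cdv W v) j = dgs W v j := dg_mk6 (a := dgs W v) (dgs_lt W v) j.2
  simp only [vN]
  rw [h, dgs, dif_pos j.2, el_dgF]

theorem cdv_vN {n : ℕ} (hn : n < 4096) : cdv W (vN W n) = n := by
  have e : ∀ j : Fin 6, dgF W (vN W n j) = dg n j := fun j => dgF_el W (dg_lt _ _)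
  rw [cdv, e, e, e, e, e, e, mk6_eq]
  simp only [Fin.isValue, Fin.val_zero, Fin.val_one, Fin.val_two]
  have h3 : ((3 : Fin 6) : ℕ) = 3 := rfl
  have h4 : ((4 : Fin 6) : ℕ) = 4 := rfl
  have h5 : ((5 : Fin 6) : ℕ) = 5 := rfl
  rw [h3, h4, h5, dg_eq, dg_eq, dg_eq, dg_eq, dg_eq, dg_eq]
  norm_num
  omega

theorem vN_zero : vN W 0 = 0 := by
  funext j
  simp only [vN, Pi.zero_apply]
  rw [dg_eq]
  simp [el_0]

theorem tp_lt {n : ℕ} (hn : n < 4096) : tp n < 1365 := by
  have h := chk_code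
  rw [List.all_eq_true] at h
  have h1 := h n (List.mem_range.mpr hn)
  simp only [Bool.and_eq_true, Nat.blt_eq] at h1
  exact h1.1

theorem sc_spec {n : ℕ} (hn : n < 4096) (h0 : n ≠ 0) : 0 < sc n ∧ scl (sc n) (rep (tp n)) = n := by
  have h := chk_code
  rw [List.all_eq_true] at h
  have h1 := h n (List.mem_range.mpr hn)
  simp only [Bool.and_eq_true, Bool.or_eq_true, Nat.blt_eq] at h1
  rcases h1.2 with h2 | h2
  · exact absurd (Nat.eq_of_beq_eq_true h2) h0
  · exact ⟨h2.1, Nat.eq_of_beq_eq_true h2.2⟩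

theorem sc_lt (n : ℕ) : sc n < 4 := by
  show Nat.land _ 3 < 4
  exact Nat.lt_succ_of_le Nat.and_le_right

theorem rep_spec {p : ℕ} (hp : p < 1365) : rep p < 4096 ∧ 0 < rep p ∧ ∀ c, 0 < c → c < 4 → tp (scl c (rep p)) = p := by
  have h := chk_rep
  rw [List.all_eq_true] at h
  have h1 := h p (List.mem_range.mpr hp)
  simp only [Bool.and_eq_true, Nat.blt_eq] at h1
  obtain ⟨⟨⟨⟨h2, h3⟩, h4⟩, h5⟩, h6⟩ := h1
  refine ⟨h2, h3, fun c hc hc4 => ?_⟩
  have hc' : c = 1 ∨ c = 2 ∨ c = 3 := by omega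
  rcases hc' with rfl | rfl | rfl
  · exact Nat.eq_of_beq_eq_true h4
  · exact Nat.eq_of_beq_eq_true h5
  · exact Nat.eq_of_beq_eq_true h6

/-- The point of a vector. -/
noncomputable def ptOf (v : Fin 6 → F) : Fin D.N := ⟨tp (cdv W v), tp_lt (cdv_lt W v)⟩

/-- The vector of a point. -/
noncomputable def vv (p : Fin D.N) : Fin 6 → F := vN W (rep p)

theorem ptOf_vN {n : ℕ} (hn : n < 4096) : ((ptOf W (vN W n) : Fin D.N) : ℕ) = tp n := by
  show tp (cdv W (vN W n)) = tp n
  rw [cdv_vN W hn]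

theorem el_ne_zero {c : ℕ} (h0 : 0 < c) (h4 : c < 4) : el W c ≠ 0 := by
  intro h
  have := el_inj W h4 (by norm_num : 0 < 4) (by rw [h, el_0])
  omega

theorem dgF_pos {c : F} (hc : c ≠ 0) : 0 < dgF W c := by
  by_contra h
  have h1 : dgF W c = 0 := by omega
  have h2 := el_dgF W c
  rw [h1, el_0] at h2
  exact hc h2.symm

theorem ptOf_smul_vv {c : F} (hc : c ≠ 0) (p : Fin D.N) : ptOf W (c • vv W p) = p := by
  apply Fin.ext
  have h := rep_spec (p := p) p.2
  have e : c • vv W p = vN W (scl (dgF W c) (rep p)) := by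
    rw [vN_scl W (dgF_lt W c), el_dgF, vv]
  rw [e, ptOf_vN W (scl_lt _ _)]
  exact h.2.2 _ (dgF_pos W hc) (dgF_lt W c)

theorem ptOf_vv (p : Fin D.N) : ptOf W (vv W p) = p := by
  have h := ptOf_smul_vv W (one_ne_zero) p
  rwa [one_smul] at h

theorem vv_ne (p : Fin D.N) : vv W p ≠ 0 := by
  intro h
  have h1 := rep_spec (p := p) p.2
  have h2 : cdv W (vN W (rep p)) = rep p := cdv_vN W h1.1
  have h3 : cdv W (vN W 0) = 0 := cdv_vN W (by norm_num)
  rw [vN_zero] at h3
  rw [vv] at h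
  rw [h, h3] at h2
  omega

theorem exists_scalar {v : Fin 6 → F} (hv : v ≠ 0) : ∃ c : F, c ≠ 0 ∧ v = c • vv W (ptOf W v) := by
  have h0 : cdv W v ≠ 0 := by
    intro h
    have h1 := vN_cdv W v
    rw [h, vN_zero] at h1
    exact hv h1.symm
  obtain ⟨h1, h2⟩ := sc_spec (cdv_lt W v) h0
  refine ⟨el W (sc (cdv W v)), el_ne_zero W h1 (sc_lt _), ?_⟩
  rw [vv, ← vN_scl W (sc_lt _)]
  show v = vN W (scl (sc (cdv W v)) (rep (tp (cdv W v))))
  rw [h2, vN_cdv]

theorem ptOf_smul {c : F} (hc : c ≠ 0) (v : Fin 6 → F) : ptOf W (c • v) = ptOf W v := by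
  by_cases hv : v = 0
  · rw [hv, smul_zero]
  · obtain ⟨a, ha, he⟩ := exists_scalar W hv
    rw [he, smul_smul, ptOf_smul_vv W (mul_ne_zero hc ha), ptOf_smul_vv W ha]

/-! ### The form -/

local notation "hh" => hermForm 6 F 2

theorem herm_add_left (x x' y : Fin 6 → F) : hh (x + x') y = hh x y + hh x' y := by
  simp only [hermForm, Pi.add_apply, add_mul, Finset.sum_add_distrib]

theorem herm_smul_left (a : F) (x y : Fin 6 → F) : hh (a • x) y = a * hh x y := by
  simp only [hermForm, Pi.smul_apply, smul_eq_mul, Finset.mul_sum, mul_assoc]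

include W in
theorem herm_add_right (x y y' : Fin 6 → F) : hh x (y + y') = hh x y + hh x y' := by
  simp only [hermForm, Pi.add_apply, W.add_sq, mul_add, Finset.sum_add_distrib]

theorem herm_smul_right (b : F) (x y : Fin 6 → F) : hh x (b • y) = b ^ 2 * hh x y := by
  simp only [hermForm, Pi.smul_apply, smul_eq_mul, Finset.mul_sum, mul_pow]
  refine Finset.sum_congr rfl fun i _ => ?_
  ring

include W in
theorem herm_symm (x y : Fin 6 → F) : hh y x = (hh x y) ^ 2 := by
  simp only [hermForm, Fin.sum_univ_six, W.add_sq, mul_pow, W.sq_sq]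
  ring

/-! ### The transvections -/

/-- The matrix of a transvection. -/
def Tm (v : Fin 6 → F) : Matrix (Fin 6) (Fin 6) F := 1 + Matrix.vecMulVec v (fun j => v j ^ 2)

theorem Tm_mulVec (v x : Fin 6 → F) : Tm v *ᵥ x = x + hh x v • v := by
  rw [Tm, Matrix.add_mulVec, Matrix.one_mulVec]
  congr 1
  funext i
  simp only [Matrix.mulVec, dotProduct, Matrix.vecMulVec_apply, hermForm, Pi.smul_apply, smul_eq_mul, Finset.sum_mul]
  refine Finset.sum_congr rfl fun j _ => ?_
  ring

variable {W}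

include W in
theorem Tm_sq {v : Fin 6 → F} (hv : hh v v = 0) : Tm v * Tm v = 1 := by
  apply Matrix.mulVec_injective
  funext x
  rw [← Matrix.mulVec_mulVec, Matrix.one_mulVec, Tm_mulVec, Tm_mulVec, herm_add_left, herm_smul_left, hv, mul_zero, add_zero,
    add_assoc, ← add_smul, W.add_self, zero_smul, add_zero]

include W in
theorem Tm_det {v : Fin 6 → F} (hv : hh v v = 0) : (Tm v).det = 1 := by
  have h1 := congrArg Matrix.det (Tm_sq (W := W) hv)
  rw [Matrix.det_mul, Matrix.det_one] at h1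
  have h2 : ((Tm v).det + 1) ^ 2 = 0 := by
    rw [W.add_sq, pow_two, h1, one_pow, W.add_self]
  have h3 := pow_eq_zero_iff (two_ne_zero) |>.mp h2
  have h4 : (Tm v).det + 1 + 1 = 1 := by rw [h3, zero_add]
  rwa [add_assoc, W.add_self, add_zero] at h4

include W in
theorem Tm_unitary {v : Fin 6 → F} (hv : hh v v = 0) (x y : Fin 6 → F) : hh (Tm v *ᵥ x) (Tm v *ᵥ y) = hh x y := by
  rw [Tm_mulVec, Tm_mulVec, herm_add_left, herm_add_right W, herm_add_right W, herm_smul_left, herm_smul_left,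
    herm_smul_right, herm_smul_right, hv, herm_symm W y v]
  have h := W.add_self (hh x v * (hh y v) ^ 2)
  linear_combination h

/-- The element of a transvection. -/
def Tsu {v : Fin 6 → F} (hv : hh v v = 0) : SU 6 F 2 :=
  SUofMatrix (Tm v) (Tm_det (W := W) hv) (Tm_unitary (W := W) hv)

variable (W)

/-! ### The action -/

/-- The matrix of an element. -/
def mat (g : SU 6 F 2) : Matrix (Fin 6) (Fin 6) F := (g.1 : Matrix.SpecialLinearGroup (Fin 6) F).1

theorem mat_mul (a b : SU 6 F 2) : mat (a * b) = mat a * mat b := rfl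

theorem mat_one : mat (1 : SU 6 F 2) = 1 := rfl

omit W in
theorem mat_ne (g : SU 6 F 2) {v : Fin 6 → F} (hv : v ≠ 0) : mat g *ᵥ v ≠ 0 := by
  intro h
  apply hv
  have h1 : mat g⁻¹ *ᵥ (mat g *ᵥ v) = v := by
    rw [Matrix.mulVec_mulVec, ← mat_mul, inv_mul_cancel, mat_one, Matrix.one_mulVec]
  rw [← h1, h, Matrix.mulVec_zero]

/-- The action on points. -/
noncomputable def actHom : SU 6 F 2 →* Function.End (Fin D.N) where
  toFun g := fun p => ptOf W (mat g *ᵥ vv W p)
  map_one' := by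
    funext p
    show ptOf W (mat 1 *ᵥ vv W p) = p
    rw [mat_one, Matrix.one_mulVec, ptOf_vv]
  map_mul' a b := by
    funext p
    show ptOf W (mat (a * b) *ᵥ vv W p) = ptOf W (mat a *ᵥ vv W (ptOf W (mat b *ᵥ vv W p)))
    rw [mat_mul, ← Matrix.mulVec_mulVec]
    obtain ⟨c, hc, he⟩ := exists_scalar W (mat_ne b (vv_ne W p))
    conv_lhs => rw [he]
    rw [Matrix.mulVec_smul, ptOf_smul W hc]

/-- The action on points as a permutation. -/
noncomputable def act : SU 6 F 2 →* Equiv.Perm (Fin D.N) := (actHom W).toHomPerm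

theorem act_apply (g : SU 6 F 2) (p : Fin D.N) : act W g p = ptOf W (mat g *ᵥ vv W p) := rfl

theorem eigen_of_fix (g : SU 6 F 2) {v : Fin 6 → F} (hv : v ≠ 0) (h : act W g (ptOf W v) = ptOf W v) :
    ∃ c : F, c ≠ 0 ∧ mat g *ᵥ v = c • v := by
  obtain ⟨a, ha, he⟩ := exists_scalar W hv
  obtain ⟨b, hb, he2⟩ := exists_scalar W (mat_ne g (vv_ne W (ptOf W v)))
  rw [← act_apply, h] at he2
  refine ⟨b, hb, ?_⟩
  conv_lhs => rw [he]
  rw [Matrix.mulVec_smul, he2, smul_comm, ← he]

/-- The basis. -/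
def eV (i : Fin 6) : Fin 6 → F := Pi.single i 1

omit W in
theorem eV_ne (i : Fin 6) : (eV i : Fin 6 → F) ≠ 0 := by
  intro h
  have h1 := congrFun h i
  simp [eV] at h1

omit W in
theorem eV_add_ne {i : Fin 6} (hi : i ≠ 0) : (eV 0 + eV i : Fin 6 → F) ≠ 0 := by
  intro h
  have h1 := congrFun h 0
  simp [eV, Pi.single_apply, hi.symm] at h1

theorem scalar_of_fix (g : SU 6 F 2) (h1 : ∀ i, act W g (ptOf W (eV i)) = ptOf W (eV i))
    (h2 : ∀ i, i ≠ 0 → act W g (ptOf W (eV 0 + eV i)) = ptOf W (eV 0 + eV i)) :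
    ∃ c : F, c ≠ 0 ∧ mat g = c • 1 := by
  obtain ⟨c, hc, hc0⟩ := eigen_of_fix W g (eV_ne 0) (h1 0)
  have hall : ∀ i, mat g *ᵥ eV i = c • eV i := by
    intro i
    by_cases hi : i = 0
    · rw [hi, hc0]
    · obtain ⟨c', _, hc'⟩ := eigen_of_fix W g (eV_ne i) (h1 i)
      obtain ⟨d, _, hd⟩ := eigen_of_fix W g (eV_add_ne hi) (h2 i hi)
      rw [Matrix.mulVec_add, hc0, hc'] at hd
      have h3 := congrFun hd 0
      have h4 := congrFun hd i
      simp [eV, Pi.single_apply, hi, Ne.symm hi] at h3 h4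
      rw [hc', h4, ← h3]
  refine ⟨c, hc, ?_⟩
  ext a b
  have h3 := congrFun (hall b) a
  rw [eV, Matrix.mulVec_single_one] at h3
  simp only [Matrix.col_apply, Pi.smul_apply, smul_eq_mul] at h3
  rw [h3]
  simp [Matrix.one_apply, Pi.single_apply]

theorem center_of_scalar (g : SU 6 F 2) {c : F} (h : mat g = c • 1) : g ∈ Subgroup.center (SU 6 F 2) := by
  rw [Subgroup.mem_center_iff]
  intro a
  apply Subtype.ext
  apply Subtype.ext
  show mat a * mat g = mat g * mat a
  rw [h, Matrix.mul_smul, Matrix.smul_mul, Matrix.mul_one, Matrix.one_mul]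

theorem act_of_scalar (g : SU 6 F 2) {c : F} (hc : c ≠ 0) (h : mat g = c • 1) : act W g = 1 := by
  ext p
  rw [act_apply, h, Matrix.smul_mulVec, Matrix.one_mulVec, ptOf_smul_vv W hc]
  rfl

include W in
theorem scalar_of_center [Fintype F] (hF : Fintype.card F = 4) (g : SU 6 F 2) (hg : g ∈ Subgroup.center (SU 6 F 2)) :
    ∃ c : F, c ≠ 0 ∧ mat g = c • 1 := by
  have hF' : Fintype.card F = 2 ^ 2 := hF
  have h0 : mat g = (mat g 0 0) • 1 := by
    ext a b
    by_cases hab : a = b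
    · subst hab
      by_cases ha : a = 0
      · subst ha
        simp
      · have := center_diag_eq hF' g hg ha
        simp only [Matrix.smul_apply, Matrix.one_apply_eq, smul_eq_mul, mul_one]
        exact this
    · have := center_offdiag_zero hF' g hg hab
      simp only [Matrix.smul_apply, Matrix.one_apply_ne hab, smul_eq_mul, mul_zero]
      exact this
  refine ⟨mat g 0 0, ?_, h0⟩
  intro h
  rw [h, zero_smul] at h0
  apply mat_ne g (vv_ne W ⟨0, by decide⟩)
  rw [h0, Matrix.zero_mulVec]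

theorem ker_act [Fintype F] (hF : Fintype.card F = 4) : (act W).ker = Subgroup.center (SU 6 F 2) := by
  ext g
  rw [MonoidHom.mem_ker]
  constructor
  · intro h
    obtain ⟨c, _, hc⟩ := scalar_of_fix W g (fun i => by rw [h]; rfl) (fun i _ => by rw [h]; rfl)
    exact center_of_scalar g hc
  · intro h
    obtain ⟨c, h0, hc⟩ := scalar_of_center W hF g h
    exact act_of_scalar W g h0 hc

/-! ### The generators -/

theorem valid_tc {i : ℕ} (hi : i < 8) : D.validC (tc i) (tc i) = true := by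
  have h := chk_valid
  rw [List.all_eq_true] at h
  exact h i (List.mem_range.mpr hi)

/-- The generators. -/
noncomputable def tP (i : ℕ) : Equiv.Perm (Fin D.N) := if h : i < 8 then D.permOf (tc i) (tc i) (valid_tc h) else 1

theorem vc_spec {i : ℕ} (hi : i < 8) : vc i < 4096 ∧ hD (vc i) (vc i) = 0 ∧
    ∀ p, p < 1365 → tp (apT (vc i) (rep p)) = fld (tc i) 11 2047 p := by
  have h := chk_vc
  rw [List.all_eq_true] at h
  have h1 := h i (List.mem_range.mpr hi)
  simp only [Bool.and_eq_true, Nat.blt_eq, List.all_eq_true, List.mem_range] at h1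
  refine ⟨h1.1.1, Nat.eq_of_beq_eq_true h1.1.2, fun p hp => Nat.eq_of_beq_eq_true (h1.2 p hp)⟩

theorem isot {i : ℕ} (hi : i < 8) : hh (vN W (vc i)) (vN W (vc i)) = 0 := by
  rw [← el_hD, (vc_spec hi).2.1, el_0]

/-- The transvections of the generators. -/
noncomputable def TT (i : ℕ) : SU 6 F 2 := if h : i < 8 then Tsu (W := W) (isot W h) else 1

theorem mat_TT {i : ℕ} (hi : i < 8) : mat (TT W i) = Tm (vN W (vc i)) := by
  rw [TT, dif_pos hi]
  rfl

theorem vN_apT (m n : ℕ) : vN W (apT m n) = vN W n + hh (vN W n) (vN W m) • vN W m := by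
  have e : apT m n = n ^^^ scl (hD n m) m := rfl
  rw [e, vN_xor, vN_scl W (hD_lt _ _), el_hD]

theorem apT_lt (m : ℕ) {n : ℕ} (hn : n < 4096) : apT m n < 4096 := xor_lt' hn (scl_lt _ _)

theorem TT_vN {i : ℕ} (hi : i < 8) (n : ℕ) : mat (TT W i) *ᵥ vN W n = vN W (apT (vc i) n) := by
  rw [mat_TT W hi, Tm_mulVec, vN_apT]

theorem act_TT {i : ℕ} (hi : i < 8) : act W (TT W i) = tP i := by
  ext p
  have hp := rep_spec (p := p) p.2
  rw [act_apply, vv, TT_vN W hi, ptOf_vN W (apT_lt _ hp.1), (vc_spec hi).2.2 p p.2, tP, dif_pos hi]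
  rfl

end Field

/-- The group. -/
noncomputable abbrev PG : Subgroup (Equiv.Perm (Fin D.N)) := Subgroup.closure (tP '' Set.Iio 8)

section Main

variable {F : Type*} [Field F] (W : W4 F)

theorem PG_le_range : PG ≤ (act W).range := by
  rw [Subgroup.closure_le]
  rintro _ ⟨i, hi, rfl⟩
  exact ⟨TT W i, act_TT W hi⟩

theorem card_PSU_eq [Fintype F] (hF : Fintype.card F = 4) : Nat.card (PSU 6 F 2) = 9196830720 := by
  have hF' : Fintype.card F = 2 ^ 2 := hF
  have h := card_PSU hF' 6 (by norm_num)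
  simp only [Finset.prod_range_succ, Finset.prod_range_zero] at h
  norm_num [Nat.even_iff] at h
  omega

/-- The quotient is the range. -/
noncomputable def psuEquivRange [Fintype F] (hF : Fintype.card F = 4) : PSU 6 F 2 ≃* (act W).range :=
  (QuotientGroup.quotientMulEquivOfEq (ker_act W hF).symm).trans (QuotientGroup.quotientKerEquivRange (act W))

theorem card_range [Fintype F] (hF : Fintype.card F = 4) : Nat.card (act W).range = 9196830720 := by
  rw [← Nat.card_congr (psuEquivRange W hF).toEquiv, card_PSU_eq hF]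

end Main

/-- The field that is used for statements without a given field. -/
abbrev F0 : Type := GaloisField 2 2

noncomputable instance instF0 : Fintype F0 := Fintype.ofFinite _

theorem card_F0 : Fintype.card F0 = 4 := by
  have h := GaloisField.card 2 2 (by norm_num)
  rw [Nat.card_eq_fintype_card] at h
  simpa using h

theorem card_PG_le : Nat.card PG ≤ 9196830720 := by
  obtain ⟨W⟩ := exists_W4 card_F0
  have h := Subgroup.card_le_of_le (PG_le_range W)
  rwa [card_range W card_F0] at h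

/-- The points of the base. -/
def baseL : List ℕ := [869, 733, 705, 695, 694, 693, 285, 201, 171, 168, 165]

theorem base_tp_aux : [tp 1, tp 4, tp 16, tp 64, tp 256, tp 1024, tp (1 ^^^ 4), tp (1 ^^^ 16), tp (1 ^^^ 64), tp (1 ^^^ 256),
    tp (1 ^^^ 1024)] = baseL := by decide +kernel

/-- An element that fixes the points of the base is trivial. -/
theorem eq_one_of_fix {F : Type*} [Field F] (W : W4 F) (g : SU 6 F 2) (h : ∀ p : Fin D.N, (p : ℕ) ∈ baseL → act W g p = p) :
    ∃ c : F, c ≠ 0 ∧ mat g = c • 1 := by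
  have hE : ∀ i : Fin 6, (eV i : Fin 6 → F) = vN W (4 ^ (i : ℕ)) := by
    intro i
    funext j
    have h1 : ∀ i j : Fin 6, dg (4 ^ (i : ℕ)) j = if j = i then 1 else 0 := by decide
    simp only [eV, vN, Pi.single_apply]
    rw [h1]
    split_ifs <;> rfl
  have hpt : ∀ n, n < 4096 → tp n ∈ baseL → act W g (ptOf W (vN W n)) = ptOf W (vN W n) := by
    intro n hn hb
    exact h _ (by rw [ptOf_vN W hn]; exact hb)
  have hmem := base_tp_aux
  refine scalar_of_fix W g (fun i => ?_) (fun i hi => ?_)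
  · rw [hE i]
    refine hpt _ ?_ ?_
    · fin_cases i <;> norm_num
    · rw [← hmem]
      fin_cases i <;> simp
  · have e : (eV 0 + eV i : Fin 6 → F) = vN W (1 ^^^ 4 ^ (i : ℕ)) := by
      rw [vN_xor, hE, hE]
      rfl
    rw [e]
    refine hpt _ ?_ ?_
    · fin_cases i <;> first | omega | exact absurd rfl hi | decide
    · rw [← hmem]
      fin_cases i <;> first | exact absurd rfl hi | simp

/-- An element of the group that fixes the points of the base is trivial. -/
theorem PG_eq_one_of_fix (g : Equiv.Perm (Fin D.N)) (hg : g ∈ PG) (h : ∀ p : Fin D.N, (p : ℕ) ∈ baseL → g p = p) : g = 1 := by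
  obtain ⟨W⟩ := exists_W4 card_F0
  obtain ⟨u, rfl⟩ := PG_le_range W hg
  obtain ⟨c, h0, hc⟩ := eq_one_of_fix W u h
  exact act_of_scalar W u h0 hc

/-- The group is the projective group. -/
theorem PSU_equiv_PG {F : Type*} [Field F] [Fintype F] (hF : Fintype.card F = 4) (hc : Nat.card PG = 9196830720) :
    Nonempty (PSU 6 F 2 ≃* PG) := by
  obtain ⟨W⟩ := exists_W4 hF
  have h1 : PG = (act W).range := by
    apply Subgroup.eq_of_le_of_card_ge (PG_le_range W)
    rw [card_range W hF, hc]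
  exact ⟨(psuEquivRange W hF).trans (MulEquiv.subgroupCongr h1.symm)⟩

end Cfsg.Agent.Lib.U6Bridge46
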