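import Mathlib
import Cfsg.Agent.Lib.U6Data46

/-!
# The checks of the certificate with forms modulo 4
-/

set_option autoImplicit false
set_option maxRecDepth 100000
set_option Elab.async false

namespace Cfsg.Agent.Lib.U6Chk446

open Cfsg.Agent.Lib.U6Coset46 Cfsg.Agent.Lib.U6Data46

theorem ch0 : (List.range' 0 5000).all cert4.varChk = true := by decide +kernel
theorem ch1 : (List.range' 5000 5000).all cert4.varChk = true := by decide +kernel
theorem ch2 : (List.range' 10000 5000).all cert4.varChk = true := by decide +kernel
theorem ch3 : (List.range' 15000 5000).all cert4.varChk = true := by decide +kernel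
theorem ch4 : (List.range' 20000 5000).all cert4.varChk = true := by decide +kernel
theorem ch5 : (List.range' 25000 5000).all cert4.varChk = true := by decide +kernel
theorem ch6 : (List.range' 30000 5000).all cert4.varChk = true := by decide +kernel
theorem ch7 : (List.range' 35000 5000).all cert4.varChk = true := by decide +kernel
theorem ch8 : (List.range' 40000 5000).all cert4.varChk = true := by decide +kernel
theorem ch9 : (List.range' 45000 5000).all cert4.varChk = true := by decide +kernel
theorem ch10 : (List.range' 50000 981).all cert4.varChk = true := by decide +kernel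

theorem params : cert4.paramsChk = true := by decide +kernel

theorem vars : ∀ v, v < cert4.NV → cert4.varChk v = true := by
  intro v hv
  have hv' : v < 50981 := hv
  have key : ∀ (a n : ℕ), (List.range' a n).all cert4.varChk = true → a ≤ v → v < a + n → cert4.varChk v = true := by
    intro a n h h1 h2
    rw [List.all_eq_true] at h
    exact h v (by simp [List.mem_range'_1]; omega)
  by_cases h0 : v < 5000
  · exact key 0 5000 ch0 (by omega) (by omega)
  by_cases h1 : v < 10000
  · exact key 5000 5000 ch1 (by omega) (by omega)
  by_cases h2 : v < 15000
  · exact key 10000 5000 ch2 (by omega) (by omega)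
  by_cases h3 : v < 20000
  · exact key 15000 5000 ch3 (by omega) (by omega)
  by_cases h4 : v < 25000
  · exact key 20000 5000 ch4 (by omega) (by omega)
  by_cases h5 : v < 30000
  · exact key 25000 5000 ch5 (by omega) (by omega)
  by_cases h6 : v < 35000
  · exact key 30000 5000 ch6 (by omega) (by omega)
  by_cases h7 : v < 40000
  · exact key 35000 5000 ch7 (by omega) (by omega)
  by_cases h8 : v < 45000
  · exact key 40000 5000 ch8 (by omega) (by omega)
  by_cases h9 : v < 50000
  · exact key 45000 5000 ch9 (by omega) (by omega)
  by_cases h10 : v < 50981
  · exact key 50000 981 ch10 (by omega) (by omega)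
  omega

end Cfsg.Agent.Lib.U6Chk446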