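import Mathlib
import Cfsg.Agent.Lib.SchurCoset46

/-!
# Certificates with forms packed in natural numbers, over the coset systems of stem extensions
-/

set_option autoImplicit false

namespace Cfsg.Agent.Lib.U6Coset46

open Cfsg Subgroup Cfsg.Agent.Lib.SchurCoset46
open scoped commutatorElement

section Coset

variable {Γ G X : Type*} [Group Γ] [Group G] [MulAction G X]

/-- The coset system of a stem extension. -/
theorem coset_system' {σ : Γ →* G} (hσ : IsStemExtension σ)
    {Ht : Subgroup Γ} {x0 : X} (hHt : ∀ y, y ∈ Ht ↔ σ y • x0 = x0)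
    (ρ : Ht →* σ.ker) (hρ : ∀ k (hk : k ∈ σ.ker) (h : k ∈ Ht), ρ ⟨k, h⟩ = ⟨k, hk⟩)
    {B : Type*} [CommGroup B] (ψ : σ.ker →* B)
    {n m : ℕ} {T : ℕ → ℕ → ℕ} {par : ℕ → ℕ × ℕ} (hT : Tab n m T par) {mask : ℕ → X} (hm0 : mask 0 = x0)
    (hmne : ∀ c, c < n → mask c = x0 → c = 0)
    {s : ℕ → G} (hms : ∀ c, c < n → ∀ i, i < m → s i • mask (T c (2 * i)) = mask c)
    (hgen : closure (s '' Set.Iio m) = ⊤)
    {x : ℕ → Γ} (hx : ∀ i, σ (x i) = s i)
    {rels : ℕ → List ℕ} {R : ℕ} (hrels : ∀ j, j < R → ∀ l ∈ rels j, l < 2 * m)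
    (hrel : ∀ j, j < R → evW s (rels j) = 1) :
    ∃ Φ : ℕ → B,
      (∀ c, c < n → 0 < c → Φ (treeVar m par c) = 1) ∧
      (∀ j, j < R → ∀ c, c < n → endV T c (rels j) = c → prodT Φ (rowT m T (n * m + j) c (rels j)) = 1) ∧
      (∀ j, j < R → evW x (rels j) = 1 → Φ (n * m + j) = 1) ∧
      (∀ W : Subgroup B, (∀ c, c < n → ∀ i, i < m → Φ (c * m + i) ∈ W) → ∀ k, ψ k ∈ W) ∧
      (∀ j, j < R → ∀ (h : evW x (rels j) ∈ σ.ker), Φ (n * m + j) = ψ ⟨evW x (rels j), h⟩) := by
  classical
  have hK : σ.ker ≤ Ht := by
    intro k hk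
    rw [hHt, MonoidHom.mem_ker.mp hk, one_smul]
  set t := tOf x par with ht
  have hlx : ∀ l, σ (lett x l) = lett s l := by
    intro l
    rw [map_lett]
    simp only [hx]
  have hlet : ∀ c, c < n → ∀ l, l < 2 * m → (lett s l)⁻¹ • mask c = mask (T c l) := by
    intro c hc l hl
    rcases Nat.mod_two_eq_zero_or_one l with h | h
    · have hi : l / 2 < m := by omega
      have h2 : l = 2 * (l / 2) := by omega
      have h3 := hms c hc _ hi
      rw [← h2] at h3
      rw [lett, if_pos h, inv_smul_eq_iff, h3]
    · have hi : l / 2 < m := by omega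
      have h2 : l = 2 * (l / 2) + 1 := by omega
      have hc' := hT.T_lt c hc l hl
      have h3 := hms _ hc' _ hi
      have h4 := hT.T_odd c hc _ hi
      rw [← h2] at h4
      rw [h4] at h3
      rw [lett, if_neg (by omega), inv_inv, h3]
  have hmt : ∀ c, c < n → (σ (t c))⁻¹ • x0 = mask c := by
    intro c
    induction c using Nat.strong_induction_on with
    | _ c ih =>
      intro hc
      rcases Nat.eq_zero_or_pos c with rfl | hpos
      · rw [ht, tOf_zero, map_one, inv_one, one_smul, hm0]
      · obtain ⟨h1, h2, h3⟩ := hT.par_lt c hc hpos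
        rw [ht, tOf_pos x par hpos h1, map_mul, mul_inv_rev, mul_smul, ← ht, ih _ h1 (h1.trans hc), hlx,
          hlet _ (h1.trans hc) _ h2, h3]
  have hg : ∀ c, c < n → ∀ l, l < 2 * m → t c * lett x l * (t (T c l))⁻¹ ∈ Ht := by
    intro c hc l hl
    rw [hHt, map_mul, map_mul, map_inv, hlx, mul_smul, mul_smul, hmt _ (hT.T_lt c hc l hl),
      ← hlet c hc l hl, smul_inv_smul, ← hmt c hc, smul_inv_smul]
  have hinj : ∀ c, c < n → t c ∈ Ht → c = 0 := by
    intro c hc h
    apply hmne c hc
    rw [← hmt c hc]
    rw [hHt] at h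
    rw [inv_smul_eq_iff, h]
  have ht0 : t 0 = 1 := tOf_zero x par
  -- the variables
  set r := rt Ht ρ with hr
  let Φ : ℕ → B := fun e =>
    if e < n * m then ψ (r (t (e / m) * x (e % m) * (t (T (e / m) (2 * (e % m))))⁻¹))
    else ψ (r (evW x (rels (e - n * m))))
  have hΦe : ∀ c, c < n → ∀ i, i < m → Φ (c * m + i) = ψ (r (t c * x i * (t (T c (2 * i)))⁻¹)) := by
    intro c hc i hi
    have hlt : c * m + i < n * m := by
      calc c * m + i < c * m + m := by omega
        _ = (c + 1) * m := by ring
        _ ≤ n * m := Nat.mul_le_mul_right _ hc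
    have hm : 0 < m := by omega
    have h1 : (c * m + i) / m = c := by
      rw [Nat.add_comm, Nat.add_mul_div_right _ _ hm, Nat.div_eq_of_lt hi, zero_add]
    have h2 : (c * m + i) % m = i := by
      rw [Nat.add_comm, Nat.add_mul_mod_self_right, Nat.mod_eq_of_lt hi]
    simp only [Φ, if_pos hlt, h1, h2]
  have hΦr : ∀ j, Φ (n * m + j) = ψ (r (evW x (rels j))) := by
    intro j
    have h1 : ¬ n * m + j < n * m := by omega
    simp only [Φ, if_neg h1, Nat.add_sub_cancel_left]
  -- letters
  have hle : ∀ c, c < n → ∀ l, l < 2 * m → l % 2 = 0 →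
      ψ (r (t c * lett x l * (t (T c l))⁻¹)) = Φ (c * m + l / 2) := by
    intro c hc l hl h
    rw [hΦe c hc _ (by omega)]
    have h2 : 2 * (l / 2) = l := by omega
    rw [h2, lett, if_pos h]
  have hlo : ∀ c, c < n → ∀ l, l < 2 * m → l % 2 = 1 →
      ψ (r (t c * lett x l * (t (T c l))⁻¹)) = (Φ (T c l * m + l / 2))⁻¹ := by
    intro c hc l hl h
    have hc' := hT.T_lt c hc l hl
    rw [hΦe _ hc' _ (by omega)]
    have h2 : 2 * (l / 2) + 1 = l := by omega
    have h3 := hT.T_odd c hc (l / 2) (by omega)
    rw [h2] at h3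
    have h5 := hg _ hc' (2 * (l / 2)) (by omega)
    rw [h3, lett_even] at h5
    rw [h3, ← map_inv, hr, ← rt_inv ρ h5]
    congr 2
    rw [lett, if_neg (by omega)]
    group
  -- paths
  have hpath : ∀ (w : List ℕ) (c : ℕ), c < n → (∀ l ∈ w, l < 2 * m) →
      t c * evW x w * (t (endV T c w))⁻¹ ∈ Ht ∧
        ψ (r (t c * evW x w * (t (endV T c w))⁻¹)) = prodT Φ (pathT m T c w) := by
    intro w
    induction w with
    | nil =>
      intro c _ _
      simp only [evW, endV, pathT, prodT_nil, mul_one, mul_inv_cancel]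
      exact ⟨Ht.one_mem, by rw [hr, rt_one, map_one]⟩
    | cons l w ih =>
      intro c hc hw
      have hl := hw l List.mem_cons_self
      have hc' := hT.T_lt c hc l hl
      obtain ⟨h1, h2⟩ := ih _ hc' (fun a ha => hw a (List.mem_cons_of_mem _ ha))
      have h3 := hg c hc l hl
      have e1 : t c * evW x (l :: w) * (t (endV T c (l :: w)))⁻¹
          = (t c * lett x l * (t (T c l))⁻¹) * (t (T c l) * evW x w * (t (endV T (T c l) w))⁻¹) := by
        simp only [evW, endV]
        group
      rw [e1]
      refine ⟨Ht.mul_mem h3 h1, ?_⟩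
      rw [hr, rt_mul ρ h3 h1, map_mul, ← hr, h2, pathT, prodT_cons]
      congr 1
      rcases Nat.mod_two_eq_zero_or_one l with h | h
      · have hb : Nat.beq (l % 2) 0 = true := by rw [h]; rfl
        rw [hle c hc l hl h, hb]
        simp
      · have hb : Nat.beq (l % 2) 0 = false := by rw [h]; rfl
        rw [hlo c hc l hl h, hb]
        simp
  have hrk : ∀ k (hk : k ∈ σ.ker), r k = ⟨k, hk⟩ := by
    intro k hk
    rw [hr, rt_of_mem ρ (hK hk)]
    exact hρ k hk _
  refine ⟨Φ, ?_, ?_, ?_, ?_, ?_⟩
  · -- tree variables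
    intro c hc hpos
    obtain ⟨h1, h2, h3⟩ := hT.par_lt c hc hpos
    rw [treeVar]
    rcases Nat.mod_two_eq_zero_or_one (par c).2 with h | h
    · have hb : Nat.beq ((par c).2 % 2) 0 = true := by rw [h]; rfl
      rw [hb, cond_true, ← hle _ (h1.trans hc) _ h2 h, h3, ht, tOf_pos x par hpos h1]
      simp [hr, rt_one]
    · have hb : Nat.beq ((par c).2 % 2) 0 = false := by rw [h]; rfl
      rw [hb, cond_false, hΦe c hc _ (by omega)]
      have h4 := hT.T_odd _ (h1.trans hc) ((par c).2 / 2) (by omega)
      have h5 : 2 * ((par c).2 / 2) + 1 = (par c).2 := by omega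
      rw [h5, h3] at h4
      rw [h4]
      have h6 : t c = t (par c).1 * (x ((par c).2 / 2))⁻¹ := by
        rw [ht, tOf_pos x par hpos h1, lett, if_neg (by omega)]
      rw [h6]
      simp [hr, rt_one]
  · -- rows
    intro j hj c hc hend
    obtain ⟨h1, h2⟩ := hpath (rels j) c hc (hrels j hj)
    have h3 : evW x (rels j) ∈ σ.ker := by
      rw [MonoidHom.mem_ker, map_evW]
      simp only [hx]
      exact hrel j hj
    rw [hend] at h1 h2
    have h4 : t c * evW x (rels j) * (t c)⁻¹ = evW x (rels j) := by
      have := Subgroup.mem_center_iff.mp (hσ.2.1 h3) (t c)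
      rw [this]
      group
    rw [h4] at h2
    rw [rowT, prodT_append, ← h2, prodT_cons, prodT_nil, mul_one, hΦr]
    simp
  · -- relators with trivial value
    intro j _ h
    rw [hΦr, h, hr, rt_one, map_one]
  · -- the bound
    intro W hW k
    -- the set
    let Z : Set Γ := {y | ∃ c, c < n ∧ y * (t c)⁻¹ ∈ Ht ∧ ψ (r (y * (t c)⁻¹)) ∈ W}
    have hZstep : ∀ y ∈ Z, ∀ l, l < 2 * m → y * lett x l ∈ Z := by
      rintro y ⟨c, hc, h1, h2⟩ l hl
      refine ⟨T c l, hT.T_lt c hc l hl, ?_⟩
      have e1 : y * lett x l * (t (T c l))⁻¹ = (y * (t c)⁻¹) * (t c * lett x l * (t (T c l))⁻¹) := by group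
      rw [e1]
      have h3 := hg c hc l hl
      refine ⟨Ht.mul_mem h1 h3, ?_⟩
      rw [hr, rt_mul ρ h1 h3, map_mul, ← hr]
      refine W.mul_mem h2 ?_
      rcases Nat.mod_two_eq_zero_or_one l with h | h
      · rw [hle c hc l hl h]
        exact hW _ hc _ (by omega)
      · rw [hlo c hc l hl h]
        exact W.inv_mem (hW _ (hT.T_lt c hc l hl) _ (by omega))
    have hcl : ∀ y ∈ closure (x '' Set.Iio m), y ∈ Z := by
      intro y hy
      induction hy using Subgroup.closure_induction_right with
      | one =>
        refine ⟨0, hT.n_pos, ?_⟩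
        rw [ht0]
        simp only [inv_one, mul_one]
        refine ⟨Ht.one_mem, ?_⟩
        rw [hr, rt_one, map_one]
        exact W.one_mem
      | mul_right a b _ hb ha =>
        obtain ⟨i, hi, rfl⟩ := hb
        have hi' : i < m := hi
        have := hZstep a ha (2 * i) (by omega)
        rwa [lett_even] at this
      | mul_inv_cancel a b _ hb ha =>
        obtain ⟨i, hi, rfl⟩ := hb
        have hi' : i < m := hi
        have := hZstep a ha (2 * i + 1) (by omega)
        rwa [lett_odd] at this
    obtain ⟨c, hc, h1, h2⟩ := hcl _ (ker_le_closure hσ hgen hx k.2)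
    have h3 : t c ∈ Ht := by
      have h4 := Ht.mul_mem (Ht.inv_mem h1) (hK k.2)
      have e : (↑k * (t c)⁻¹)⁻¹ * ↑k = t c := by group
      rwa [e] at h4
    have h5 := hinj c hc h3
    subst h5
    rw [ht0, inv_one, mul_one, hrk _ k.2] at h2
    exact h2
  · intro j _ h
    rw [hΦr, hrk _ h]


end Coset

/-! ### Certificates -/

/-- A certificate with an abstract type of forms. -/
structure CertP (F : Type) where
  /-- the operations -/
  O : Ops F
  /-- the equality test -/
  isEq : F → F → Bool
  /-- the forms of the parameters -/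
  basis : ℕ → F
  /-- the test that a form has a leading term at a given place -/
  lead : F → ℕ → Bool
  /-- the modulus -/
  E : ℕ
  /-- the number of vertices -/
  n : ℕ
  /-- the number of generators -/
  m : ℕ
  /-- the number of relators -/
  R : ℕ
  /-- the number of parameters -/
  P : ℕ
  /-- the number of free parameters -/
  P0 : ℕ
  /-- the vertex table -/
  T : ℕ → ℕ → ℕ
  /-- the parents -/
  par : ℕ → ℕ × ℕ
  /-- the relators -/
  rels : ℕ → List ℕ
  /-- the rank of a variable -/
  rank : ℕ → ℕ
  /-- the form of a variable -/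
  val : ℕ → F
  /-- the row for a variable -/
  stepT : ℕ → ℕ × ℕ
  /-- relators with trivial value -/
  normal : ℕ → Bool
  /-- the parameters -/
  params : ℕ → ℕ
  /-- the relation for a parameter -/
  relP : ℕ → List (ℕ × ℕ × ℕ)

namespace CertP

variable {F : Type} (C : CertP F)

/-- The underlying data, for the tests of the graph. -/
def base : Cert := ⟨C.n, C.m, C.R, 0, C.T, C.par, C.rels, fun _ => 0, fun _ => 0, fun _ => (0, 0), fun _ => false,
  fun _ => 0, fun _ => []⟩

/-- The number of variables. -/
def NV : ℕ := C.n * C.m + C.R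

/-- The row of a relator. -/
def row (j c : ℕ) : List (ℕ × Bool) := rowT C.m C.T (C.n * C.m + j) c (C.rels j)

/-- The check for a parameter. -/
def paramChk (v : ℕ) : Bool :=
  (List.range C.P).any fun p => Nat.beq (C.params p) v && C.isEq (C.val v) (C.basis p)

/-- One pass over a row: the variable occurs once, the others have lower rank, and the sum of the forms vanishes. -/
def stepFast (O : Ops F) (val : ℕ → F) (rank : ℕ → ℕ) (v rv : ℕ) : List (ℕ × Bool) → F → Bool → Bool
  | [], acc, seen => seen && O.isZero acc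
  | p :: L, acc, seen =>
    cond (Nat.beq p.1 v)
      (cond seen false (stepFast O val rank v rv L (O.add (cond p.2 (val p.1) (O.neg (val p.1))) acc) true))
      (cond (Nat.blt (rank p.1) rv) (stepFast O val rank v rv L (O.add (cond p.2 (val p.1) (O.neg (val p.1))) acc) seen) false)

/-- The test for the variable `v`. -/
def varChk (v : ℕ) : Bool :=
  cond (Nat.beq (C.rank v) 0)
    (((cond (Nat.blt v (C.n * C.m)) (C.base.treeChk v) (C.normal (v - C.n * C.m))) && C.O.isZero (C.val v)) ||
      C.paramChk v)
    (Nat.blt (C.stepT v).1 C.R && Nat.blt (C.stepT v).2 C.n &&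
      stepFast C.O C.val C.rank v (C.rank v) (C.row (C.stepT v).1 (C.stepT v).2) C.O.zero false)

/-- A row with multiplicity in a combination. -/
def rowChk (q : ℕ × ℕ × ℕ) : Bool :=
  Nat.blt q.2.1 C.R && Nat.blt q.2.2 C.n

/-- The terms of a combination. -/
def combT (L : List (ℕ × ℕ × ℕ)) : List (ℕ × Bool) :=
  L.flatMap fun q => (List.replicate q.1 (C.row q.2.1 q.2.2)).flatten

/-- The form of a combination. -/
def combF (L : List (ℕ × ℕ × ℕ)) : F := sumF C.O C.val (C.combT L)

/-- The test for the parameters. -/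
def paramsChk : Bool :=
  (List.range C.P).all fun p =>
    Nat.blt p C.P0 || ((C.relP p).all C.rowChk && C.lead (C.combF (C.relP p)) p)

variable {B : Type*} [CommGroup B]

theorem prodT_combT {Φ : ℕ → B} (hrow : ∀ q, C.rowChk q = true → prodT Φ (C.row q.2.1 q.2.2) = 1)
    {L : List (ℕ × ℕ × ℕ)} (hL : L.all C.rowChk = true) : prodT Φ (C.combT L) = 1 := by
  induction L with
  | nil => rfl
  | cons q L ih =>
    simp only [List.all_cons, Bool.and_eq_true] at hL
    have e : C.combT (q :: L) = (List.replicate q.1 (C.row q.2.1 q.2.2)).flatten ++ C.combT L := by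
      simp [combT]
    rw [e, prodT_append, ih hL.2, mul_one]
    have hq := hrow q hL.1
    generalize q.1 = a
    induction a with
    | zero => rfl
    | succ a iha =>
      rw [List.replicate_succ, List.flatten_cons, prodT_append, hq, one_mul]
      exact iha

theorem prodT_congr_of_lt {Φ Ψ : ℕ → B} {N : ℕ} (h : ∀ v, v < N → Φ v = Ψ v) (L : List (ℕ × Bool))
    (hL : ∀ p ∈ L, p.1 < N) : prodT Φ L = prodT Ψ L := by
  induction L with
  | nil => rfl
  | cons p L ih =>
    rw [prodT_cons, prodT_cons, ih fun a ha => hL a (List.mem_cons_of_mem _ ha), h _ (hL p List.mem_cons_self)]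

/-- The variables of a path. -/
theorem pathT_lt (hT : Tab C.n C.m C.T C.par) {w : List ℕ} (hw : ∀ l ∈ w, l < 2 * C.m) :
    ∀ c, c < C.n → ∀ p ∈ pathT C.m C.T c w, p.1 < C.n * C.m := by
  have hmul : ∀ c i, c < C.n → i < C.m → c * C.m + i < C.n * C.m := by
    intro c i hc hi
    calc c * C.m + i < c * C.m + C.m := by omega
      _ = (c + 1) * C.m := by ring
      _ ≤ C.n * C.m := Nat.mul_le_mul_right _ hc
  induction w with
  | nil =>
    intro c _ p hp
    simp [pathT] at hp
  | cons l w ih =>
    intro c hc p hp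
    have hl := hw l List.mem_cons_self
    have hd := hT.T_lt c hc l hl
    simp only [pathT, List.mem_cons] at hp
    rcases hp with rfl | hp
    · cases hb : Nat.beq (l % 2) 0
      · simp only [cond_false]
        exact hmul _ _ hd (by omega)
      · simp only [cond_true]
        exact hmul _ _ hc (by omega)
    · exact ih (fun a ha => hw a (List.mem_cons_of_mem _ ha)) _ hd p hp

/-- The variables of a row. -/
theorem row_lt (hT : Tab C.n C.m C.T C.par) (hrels : ∀ j, j < C.R → ∀ l ∈ C.rels j, l < 2 * C.m) {j c : ℕ} (hj : j < C.R)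
    (hc : c < C.n) : ∀ p ∈ C.row j c, p.1 < C.NV := by
  intro p hp
  simp only [row, rowT, List.mem_append, List.mem_singleton] at hp
  rcases hp with hp | rfl
  · have := C.pathT_lt hT (hrels j hj) c hc p hp
    show p.1 < C.n * C.m + C.R
    omega
  · show C.n * C.m + j < C.n * C.m + C.R
    omega

theorem combT_lt (hT : Tab C.n C.m C.T C.par) (hrels : ∀ j, j < C.R → ∀ l ∈ C.rels j, l < 2 * C.m)
    {L : List (ℕ × ℕ × ℕ)} (hL : L.all C.rowChk = true) : ∀ p ∈ C.combT L, p.1 < C.NV := by
  intro p hp
  simp only [combT, List.mem_flatMap, List.mem_flatten, List.mem_replicate] at hp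
  obtain ⟨q, hq, r, ⟨_, rfl⟩, hp⟩ := hp
  simp only [List.all_eq_true] at hL
  have h1 := hL q hq
  simp only [rowChk, Bool.and_eq_true, Nat.blt_eq] at h1
  exact C.row_lt hT hrels h1.1 h1.2 p hp

/-- The content of a pass over a row. -/
theorem step_spec {O : Ops F} {ev : F → B} (hS : Sound O ev) {val : ℕ → F} {rank : ℕ → ℕ} {v rv : ℕ} (L : List (ℕ × Bool)) :
    ∀ (acc : F) (seen : Bool), stepFast O val rank v rv L acc seen = true →
      (∀ p ∈ L, p.1 = v ∨ rank p.1 < rv) ∧ ev acc * prodT (fun w => ev (val w)) L = 1 ∧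
        (seen = true → netQ v L = 0) ∧ (seen = false → netQ v L = 1 ∨ netQ v L = -1) := by
  have hterm : ∀ p : ℕ × Bool, ev (cond p.2 (val p.1) (O.neg (val p.1))) =
      if p.2 = true then ev (val p.1) else (ev (val p.1))⁻¹ := by
    intro p
    cases p.2
    · simp [hS.neg]
    · simp
  induction L with
  | nil =>
    intro acc seen h
    simp only [stepFast, Bool.and_eq_true] at h
    refine ⟨by simp, ?_, ?_, ?_⟩
    · simp [hS.zero _ h.2]
    · intro _
      rfl
    · intro h2
      rw [h2] at h
      exact absurd h.1 (by simp)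
  | cons p L ih =>
    intro acc seen h
    rw [stepFast] at h
    cases hb : Nat.beq p.1 v
    · rw [hb, cond_false] at h
      cases hb2 : Nat.blt (rank p.1) rv
      · rw [hb2, cond_false] at h
        exact absurd h (by simp)
      · rw [hb2, cond_true] at h
        obtain ⟨h1, h2, h3, h4⟩ := ih _ _ h
        refine ⟨?_, ?_, ?_, ?_⟩
        · intro q hq
          rcases List.mem_cons.mp hq with rfl | hq
          · right
            simpa using hb2
          · exact h1 q hq
        · rw [hS.add, hterm] at h2
          rw [prodT_cons, ← h2]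
          ac_rfl
        · intro hs
          rw [netQ, hb, cond_false, h3 hs, zero_add]
        · intro hs
          rw [netQ, hb, cond_false, zero_add]
          exact h4 hs
    · rw [hb, cond_true] at h
      cases seen
      · rw [cond_false] at h
        obtain ⟨h1, h2, h3, _⟩ := ih _ _ h
        refine ⟨?_, ?_, ?_, ?_⟩
        · intro q hq
          rcases List.mem_cons.mp hq with rfl | hq
          · left
            exact Nat.eq_of_beq_eq_true hb
          · exact h1 q hq
        · rw [hS.add, hterm] at h2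
          rw [prodT_cons, ← h2]
          ac_rfl
        · intro hs
          exact absurd hs (by simp)
        · intro _
          rw [netQ, hb, cond_true, h3 rfl, add_zero]
          cases p.2
          · right
            rfl
          · left
            rfl
      · rw [cond_true] at h
        exact absurd h (by simp)

/-- The conditions of an evaluation of forms in the parameters. -/
structure EvOK (ev : (ℕ → B) → F → B) : Prop where
  sound : ∀ z, Sound C.O (ev z)
  basis : ∀ z a p, p < C.P → C.isEq a (C.basis p) = true → ev z a = z p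
  lead : ∀ z (W : Subgroup B) p f, p < C.P → (∀ q, q < p → z q ∈ W) → ev z f = 1 → C.lead f p = true → z p ∈ W
  mem : ∀ z (W : Subgroup B), (∀ p, p < C.P → z p ∈ W) → ∀ f, ev z f ∈ W

section Main

variable (hV : ∀ v, v < C.NV → C.varChk v = true) {ev : (ℕ → B) → F → B} (hev : C.EvOK ev)
  {Φ : ℕ → B} (hT : Tab C.n C.m C.T C.par) (hrels : ∀ j, j < C.R → ∀ l ∈ C.rels j, l < 2 * C.m)
  (htree : ∀ c, c < C.n → 0 < c → Φ (treeVar C.m C.par c) = 1)
  (hrow : ∀ j, j < C.R → ∀ c, c < C.n → prodT Φ (C.row j c) = 1)
  (hnorm : ∀ j, j < C.R → C.normal j = true → Φ (C.n * C.m + j) = 1)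

include hV hev hT hrels htree hrow hnorm

/-- All variables are given by their forms. -/
theorem solved (hm : 0 < C.m) (z : ℕ → B) (hz : ∀ p, z p = Φ (C.params p)) : ∀ v, v < C.NV → Φ v = ev z (C.val v) := by
  have hS := hev.sound z
  have key : ∀ r v, C.rank v = r → v < C.NV → Φ v = ev z (C.val v) := by
    intro r
    induction r using Nat.strong_induction_on with
    | _ r ih =>
      intro v hv hvN
      have h1 := hV v hvN
      rw [varChk] at h1
      cases hb0 : Nat.beq (C.rank v) 0
      · rw [hb0, cond_false] at h1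
        simp only [Bool.and_eq_true, Nat.blt_eq] at h1
        obtain ⟨⟨h2, h3⟩, h4⟩ := h1
        obtain ⟨h5, h6, -, h8⟩ := step_spec hS _ _ _ h4
        rw [hS.zero' , one_mul] at h6
        have hsplit := prodT_split Φ (fun w => ev z (C.val w)) v (C.row (C.stepT v).1 (C.stepT v).2) (by
          intro p hp hne
          rcases h5 p hp with h | h
          · exact absurd h hne
          · exact ih (C.rank p.1) (hv ▸ h) p.1 rfl (C.row_lt hT hrels h2 h3 p hp))
        rw [hrow _ h2 _ h3, h6, one_mul] at hsplit
        have hd : Φ v * (ev z (C.val v))⁻¹ = 1 := by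
          rcases h8 rfl with h9 | h9
          · rw [h9, zpow_one] at hsplit
            exact hsplit.symm
          · rw [h9, zpow_neg, zpow_one, eq_comm, inv_eq_one] at hsplit
            exact hsplit
        exact mul_inv_eq_one.mp hd
      · rw [hb0, cond_true] at h1
        simp only [Bool.or_eq_true, Bool.and_eq_true] at h1
        rcases h1 with ⟨h2, h3⟩ | h2
        · rw [hS.zero _ h3]
          by_cases hlt : v < C.n * C.m
          · have h4 : Nat.blt v (C.n * C.m) = true := by simpa using hlt
            rw [h4, cond_true] at h2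
            obtain ⟨c, hc, hpos, he⟩ := C.base.treeVar_of_chk hm h2
            rw [← he]
            exact htree c hc hpos
          · have h4 : Nat.blt v (C.n * C.m) = false := by
              rw [Bool.eq_false_iff]
              intro h5
              exact hlt (by simpa using h5)
            rw [h4, cond_false] at h2
            have h5 := hnorm (v - C.n * C.m) (by
              have : v < C.n * C.m + C.R := hvN
              omega) h2
            rwa [Nat.add_sub_cancel' (by omega)] at h5
        · rw [paramChk, List.any_eq_true] at h2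
          obtain ⟨p, hp, h3⟩ := h2
          simp only [Bool.and_eq_true] at h3
          have hp' := List.mem_range.mp hp
          rw [hev.basis z _ p hp' h3.2, hz, Nat.eq_of_beq_eq_true h3.1]
  exact fun v hv => key _ v rfl hv

/-- The value of the form of a combination of rows. -/
theorem comb_one (hm : 0 < C.m) (z : ℕ → B) (hz : ∀ p, z p = Φ (C.params p)) {L : List (ℕ × ℕ × ℕ)}
    (hL : L.all C.rowChk = true) : ev z (C.combF L) = 1 := by
  have hs := C.solved hV hev hT hrels htree hrow hnorm hm z hz
  rw [combF, ev_sumF (hev.sound z)]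
  rw [← prodT_congr_of_lt (Φ := Φ) (N := C.NV) hs _ (C.combT_lt hT hrels hL)]
  refine C.prodT_combT (Φ := Φ) ?_ hL
  intro q hq
  simp only [rowChk, Bool.and_eq_true, Nat.blt_eq] at hq
  exact hrow _ hq.1 _ hq.2

/-- The parameters lie in the subgroup generated by the free parameters. -/
theorem params_mem (hP : C.paramsChk = true) (hm : 0 < C.m) (z : ℕ → B) (hz : ∀ p, z p = Φ (C.params p)) :
    ∀ p, p < C.P → z p ∈ closure (z '' Set.Iio C.P0) := by
  intro p
  induction p using Nat.strong_induction_on with
  | _ p ih =>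
    intro hp
    by_cases h0 : p < C.P0
    · exact subset_closure (Set.mem_image_of_mem _ h0)
    · rw [paramsChk, List.all_eq_true] at hP
      have h1 := hP p (List.mem_range.mpr hp)
      simp only [Bool.or_eq_true, Bool.and_eq_true, Nat.blt_eq] at h1
      rcases h1 with h2 | ⟨h2, h3⟩
      · exact absurd h2 h0
      · exact hev.lead z _ p _ hp (fun q hq => ih q hq (hq.trans hp))
          (C.comb_one hV hev hT hrels htree hrow hnorm hm z hz h2) h3

/-- All variables lie in the subgroup generated by the free parameters. -/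
theorem vars_mem (hP : C.paramsChk = true) (hm : 0 < C.m) (z : ℕ → B) (hz : ∀ p, z p = Φ (C.params p)) :
    ∀ v, v < C.NV → Φ v ∈ closure (z '' Set.Iio C.P0) := by
  intro v hv
  rw [C.solved hV hev hT hrels htree hrow hnorm hm z hz v hv]
  exact hev.mem z _ (C.params_mem hV hev hT hrels htree hrow hnorm hP hm z hz) _

end Main

end CertP

/-! ### Forms modulo two -/

section Ev

variable {B : Type*} [CommGroup B]

/-- A product up to a place where all later factors are trivial. -/
theorem prod_range_lead (g : ℕ → B) {p P : ℕ} (hp : p < P) (h : ∀ j, p < j → j < P → g j = 1) :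
    ∏ j ∈ Finset.range P, g j = (∏ j ∈ Finset.range p, g j) * g p := by
  rw [← Finset.prod_range_succ]
  symm
  apply Finset.prod_subset
  · intro j hj
    simp only [Finset.mem_range] at hj ⊢
    omega
  · intro j hj hj2
    simp only [Finset.mem_range] at hj hj2
    exact h j (by omega) hj

theorem prod_mem_range (W : Subgroup B) (g : ℕ → B) (p : ℕ) (h : ∀ j, j < p → g j ∈ W) :
    ∏ j ∈ Finset.range p, g j ∈ W := by
  apply Subgroup.prod_mem
  intro j hj
  exact h j (Finset.mem_range.mp hj)

theorem testBit_of_shift {f p j : ℕ} (h : p < j) (hs : f >>> p = 1) : f.testBit j = false := by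
  have h1 : (f >>> p).testBit (j - p) = f.testBit j := by
    rw [Nat.testBit_shiftRight]
    congr 1
    omega
  rw [← h1, hs, Bool.eq_false_iff]
  intro h2
  have h3 := Nat.testBit_one_eq_true_iff_self_eq_zero.mp h2
  omega

theorem testBit_at_shift {f p : ℕ} (hs : f >>> p = 1) : f.testBit p = true := by
  have h1 : (f >>> p).testBit 0 = f.testBit p := by
    rw [Nat.testBit_shiftRight]
    simp
  rw [← h1, hs]
  rfl

theorem testBit_of_shift0 {f p j : ℕ} (h : p ≤ j) (hs : f >>> p = 0) : f.testBit j = false := by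
  have h1 : (f >>> p).testBit (j - p) = f.testBit j := by
    rw [Nat.testBit_shiftRight]
    congr 1
    omega
  rw [← h1, hs]
  simp

end Ev

end Cfsg.Agent.Lib.U6Coset46
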