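import Mathlib
import Cfsg.Agent.Lib.U6Mask46

/-!
# The checks of the sets of points of the cosets, part 1
-/

set_option autoImplicit false
set_option maxRecDepth 100000
set_option Elab.async false

namespace Cfsg.Agent.Lib.U6MaskC146

open Cfsg.Agent.Lib.U6Mask46

theorem ch1 : (List.range' 396 396).all edgeC = true := by decide +kernel
theorem ch5 : (List.range' 1980 396).all edgeC = true := by decide +kernel
theorem ch9 : (List.range' 3564 396).all edgeC = true := by decide +kernel
theorem ch13 : (List.range' 5148 396).all edgeC = true := by decide +kernel

end Cfsg.Agent.Lib.U6MaskC146
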