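import Mathlib
import Cfsg.Agent.Lib.U6MaskC046
import Cfsg.Agent.Lib.U6MaskC146
import Cfsg.Agent.Lib.U6MaskC246
import Cfsg.Agent.Lib.U6MaskC346

/-!
# The checks of the sets of points of the cosets
-/

set_option autoImplicit false
set_option maxRecDepth 100000

namespace Cfsg.Agent.Lib.U6MaskAll46

open Cfsg.Agent.Lib.U6Mask46

theorem edge_all : ∀ c, c < 6336 → edgeC c = true := by
  intro c hc
  have key : ∀ (a n : ℕ), (List.range' a n).all edgeC = true → a ≤ c → c < a + n → edgeC c = true := by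
    intro a n h h1 h2
    rw [List.all_eq_true] at h
    exact h c (by simp [List.mem_range'_1]; omega)
  by_cases h0 : c < 396
  · exact key 0 396 Cfsg.Agent.Lib.U6MaskC046.ch0 (by omega) (by omega)
  by_cases h1 : c < 792
  · exact key 396 396 Cfsg.Agent.Lib.U6MaskC146.ch1 (by omega) (by omega)
  by_cases h2 : c < 1188
  · exact key 792 396 Cfsg.Agent.Lib.U6MaskC246.ch2 (by omega) (by omega)
  by_cases h3 : c < 1584
  · exact key 1188 396 Cfsg.Agent.Lib.U6MaskC346.ch3 (by omega) (by omega)
  by_cases h4 : c < 1980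
  · exact key 1584 396 Cfsg.Agent.Lib.U6MaskC046.ch4 (by omega) (by omega)
  by_cases h5 : c < 2376
  · exact key 1980 396 Cfsg.Agent.Lib.U6MaskC146.ch5 (by omega) (by omega)
  by_cases h6 : c < 2772
  · exact key 2376 396 Cfsg.Agent.Lib.U6MaskC246.ch6 (by omega) (by omega)
  by_cases h7 : c < 3168
  · exact key 2772 396 Cfsg.Agent.Lib.U6MaskC346.ch7 (by omega) (by omega)
  by_cases h8 : c < 3564
  · exact key 3168 396 Cfsg.Agent.Lib.U6MaskC046.ch8 (by omega) (by omega)
  by_cases h9 : c < 3960
  · exact key 3564 396 Cfsg.Agent.Lib.U6MaskC146.ch9 (by omega) (by omega)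
  by_cases h10 : c < 4356
  · exact key 3960 396 Cfsg.Agent.Lib.U6MaskC246.ch10 (by omega) (by omega)
  by_cases h11 : c < 4752
  · exact key 4356 396 Cfsg.Agent.Lib.U6MaskC346.ch11 (by omega) (by omega)
  by_cases h12 : c < 5148
  · exact key 4752 396 Cfsg.Agent.Lib.U6MaskC046.ch12 (by omega) (by omega)
  by_cases h13 : c < 5544
  · exact key 5148 396 Cfsg.Agent.Lib.U6MaskC146.ch13 (by omega) (by omega)
  by_cases h14 : c < 5940
  · exact key 5544 396 Cfsg.Agent.Lib.U6MaskC246.ch14 (by omega) (by omega)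
  by_cases h15 : c < 6336
  · exact key 5940 396 Cfsg.Agent.Lib.U6MaskC346.ch15 (by omega) (by omega)
  omega

theorem mask_all : (List.range 6336).all maskC = true := by decide +kernel

theorem sort_all : (List.range 6335).all sortC = true := by decide +kernel

end Cfsg.Agent.Lib.U6MaskAll46
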