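import Mathlib
import Cfsg.Agent.Lib.U6Coset46

/-!
# Forms packed in natural numbers, modulo two, three and four
-/

set_option autoImplicit false

namespace Cfsg.Agent.Lib.U6Forms46

open Cfsg Subgroup Cfsg.Agent.Lib.SchurCoset46 Cfsg.Agent.Lib.U6Coset46

theorem tb_xor (a b j : ℕ) : (Nat.xor a b).testBit j = (a.testBit j ^^ b.testBit j) := Nat.testBit_xor a b j

theorem tb_land (a b j : ℕ) : (Nat.land a b).testBit j = (a.testBit j && b.testBit j) := Nat.testBit_and a b j

/-- The sum of two forms modulo three. -/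
def triAdd (a b : ℕ × ℕ) : ℕ × ℕ :=
  (Nat.xor (Nat.xor (Nat.xor a.1 b.1) (Nat.land a.2 b.2)) (Nat.land (Nat.land a.1 b.1) (Nat.xor a.2 b.2)),
   Nat.xor (Nat.land (Nat.xor a.1 b.1) (Nat.land a.2 b.2)) (Nat.xor (Nat.land a.1 b.1) (Nat.xor a.2 b.2)))

/-- The operations modulo three. -/
def triOps : Ops (ℕ × ℕ) := ⟨triAdd, fun a => (a.2, a.1), (0, 0), fun a => Nat.beq a.1 a.2⟩

/-- The equality test of pairs. -/
def pairEq (a b : ℕ × ℕ) : Bool := Nat.beq a.1 b.1 && Nat.beq a.2 b.2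

/-- The form of a parameter. -/
def pairBasis (p : ℕ) : ℕ × ℕ := (2 ^ p, 0)

/-- The digit modulo three. -/
def dg3 (a b : Bool) : ℤ := (if a = true then 1 else 0) - (if b = true then 1 else 0)

theorem tri_tab : ∀ p1 m1 p2 m2 : Bool,
    (dg3 (((p1 ^^ p2) ^^ (m1 && m2)) ^^ ((p1 && p2) && (m1 ^^ m2)))
      (((p1 ^^ p2) && (m1 && m2)) ^^ ((p1 && p2) ^^ (m1 ^^ m2))) - (dg3 p1 m1 + dg3 p2 m2)) % 3 = 0 := by
  decide

theorem zpow_congr_mod {B : Type*} [Group B] {E : ℕ} {z : B} (hz : z ^ E = 1) {x y : ℤ} (h : (x - y) % (E : ℤ) = 0) :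
    z ^ x = z ^ y := by
  obtain ⟨k, hk⟩ := Int.dvd_of_emod_eq_zero h
  have e : x = y + E * k := by omega
  rw [e, zpow_add, zpow_mul, zpow_natCast, hz, one_zpow, mul_one]

section Ev

variable {B : Type*} [CommGroup B]

/-- The value of a form modulo three. -/
def ev3 (P : ℕ) (z : ℕ → B) (f : ℕ × ℕ) : B := ∏ j ∈ Finset.range P, z j ^ dg3 (f.1.testBit j) (f.2.testBit j)

theorem ev3_sound (hE : ∀ b : B, b ^ 3 = 1) (P : ℕ) (z : ℕ → B) : Sound triOps (ev3 P z) where
  add a b := by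
    show ev3 P z (triAdd a b) = _
    simp only [ev3, triAdd]
    rw [← Finset.prod_mul_distrib]
    refine Finset.prod_congr rfl fun j _ => ?_
    rw [← zpow_add]
    simp only [tb_xor, tb_land]
    exact zpow_congr_mod (E := 3) (hE _) (tri_tab _ _ _ _)
  neg a := by
    show ev3 P z (a.2, a.1) = _
    simp only [ev3]
    rw [← Finset.prod_inv_distrib]
    refine Finset.prod_congr rfl fun j _ => ?_
    rw [← zpow_neg]
    congr 1
    simp [dg3]
  zero a h := by
    have h1 : a.1 = a.2 := Nat.eq_of_beq_eq_true h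
    simp only [ev3]
    refine Finset.prod_eq_one fun j _ => ?_
    rw [h1]
    cases a.2.testBit j <;> simp [dg3]
  zero' := by
    show ev3 P z (0, 0) = 1
    simp [ev3, dg3]

theorem two_cases {x y : ℕ} (h : x + y = 1) : (x = 1 ∧ y = 0) ∨ (x = 0 ∧ y = 1) := by omega

/-- The test of the leading term modulo three. -/
def lead3 (f : ℕ × ℕ) (p : ℕ) : Bool := Nat.beq (Nat.xor f.1 f.2 >>> p) 1

theorem ev3_lead (z : ℕ → B) (W : Subgroup B) {P p : ℕ} {f : ℕ × ℕ} (hp : p < P) (h : ∀ q, q < p → z q ∈ W)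
    (h1 : ev3 P z f = 1) (hl : lead3 f p = true) : z p ∈ W := by
  have h2 : Nat.xor f.1 f.2 >>> p = 1 := Nat.eq_of_beq_eq_true hl
  have hhi : ∀ j, p < j → f.1.testBit j = f.2.testBit j := by
    intro j hj
    have h3 := testBit_of_shift hj h2
    rw [tb_xor] at h3
    revert h3
    cases f.1.testBit j <;> cases f.2.testBit j <;> simp
  rw [ev3, prod_range_lead _ hp (fun j hj _ => by
    rw [hhi j hj]
    cases f.2.testBit j <;> simp [dg3])] at h1
  have h3 : ∏ j ∈ Finset.range p, z j ^ dg3 (f.1.testBit j) (f.2.testBit j) ∈ W :=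
    prod_mem_range W _ p fun j hj => W.zpow_mem (h j hj) _
  have h4 : z p ^ dg3 (f.1.testBit p) (f.2.testBit p) ∈ W := by
    have h5 := W.inv_mem h3
    rwa [← eq_inv_of_mul_eq_one_right h1] at h5
  have h5 := testBit_at_shift h2
  rw [tb_xor] at h5
  revert h4 h5
  cases f.1.testBit p <;> cases f.2.testBit p <;> simp [dg3]

theorem ev3_mem (z : ℕ → B) (W : Subgroup B) {P : ℕ} (h : ∀ p, p < P → z p ∈ W) (f : ℕ × ℕ) : ev3 P z f ∈ W :=
  prod_mem_range W _ P fun j hj => W.zpow_mem (h j hj) _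

theorem ev3_basis (z : ℕ → B) {P p : ℕ} (hp : p < P) {a : ℕ × ℕ} (h : pairEq a (pairBasis p) = true) :
    ev3 P z a = z p := by
  simp only [pairEq, pairBasis, Bool.and_eq_true] at h
  have h1 : a.1 = 2 ^ p := Nat.eq_of_beq_eq_true h.1
  have h2 : a.2 = 0 := Nat.eq_of_beq_eq_true h.2
  rw [ev3, Finset.prod_eq_single p]
  · rw [h1, h2]
    simp [dg3, Nat.testBit_two_pow]
  · intro j _ hj
    rw [h1, h2, Nat.testBit_two_pow]
    simp [dg3, Ne.symm hj]
  · intro h3
    exact absurd (Finset.mem_range.mpr hp) h3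

theorem evOK3 (C : CertP (ℕ × ℕ)) (hO : C.O = triOps) (hq : C.isEq = pairEq) (hb : C.basis = pairBasis)
    (hl : C.lead = lead3) (hE : ∀ b : B, b ^ 3 = 1) : C.EvOK (fun z : ℕ → B => ev3 C.P z) where
  sound z := by rw [hO]; exact ev3_sound hE _ z
  basis z a p hp h := by
    rw [hq, hb] at h
    exact ev3_basis z hp h
  lead z W p f hp h h1 h2 := by
    rw [hl] at h2
    exact ev3_lead z W hp h h1 h2
  mem z W h f := ev3_mem z W h f

/-! ### Forms modulo four -/

/-- The sum of two forms modulo four. -/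
def quadAdd (a b : ℕ × ℕ) : ℕ × ℕ := (Nat.xor a.1 b.1, Nat.xor (Nat.xor a.2 b.2) (Nat.land a.1 b.1))

/-- The operations modulo four. -/
def quadOps : Ops (ℕ × ℕ) := ⟨quadAdd, fun a => (a.1, Nat.xor a.2 a.1), (0, 0), fun a => Nat.beq a.1 0 && Nat.beq a.2 0⟩

/-- The digit modulo four. -/
def dg4 (a b : Bool) : ℤ := (if a = true then 1 else 0) + (if b = true then 2 else 0)

theorem quad_tab : ∀ p1 m1 p2 m2 : Bool,
    (dg4 (p1 ^^ p2) ((m1 ^^ m2) ^^ (p1 && p2)) - (dg4 p1 m1 + dg4 p2 m2)) % 4 = 0 := by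
  decide

theorem quad_neg : ∀ p1 m1 : Bool, (dg4 p1 (m1 ^^ p1) - (-dg4 p1 m1)) % 4 = 0 := by
  decide

/-- The value of a form modulo four. -/
def ev4 (P : ℕ) (z : ℕ → B) (f : ℕ × ℕ) : B := ∏ j ∈ Finset.range P, z j ^ dg4 (f.1.testBit j) (f.2.testBit j)

theorem ev4_sound (hE : ∀ b : B, b ^ 4 = 1) (P : ℕ) (z : ℕ → B) : Sound quadOps (ev4 P z) where
  add a b := by
    show ev4 P z (quadAdd a b) = _
    simp only [ev4, quadAdd]
    rw [← Finset.prod_mul_distrib]
    refine Finset.prod_congr rfl fun j _ => ?_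
    rw [← zpow_add]
    simp only [tb_xor, tb_land]
    exact zpow_congr_mod (E := 4) (hE _) (quad_tab _ _ _ _)
  neg a := by
    show ev4 P z (a.1, Nat.xor a.2 a.1) = _
    simp only [ev4]
    rw [← Finset.prod_inv_distrib]
    refine Finset.prod_congr rfl fun j _ => ?_
    rw [← zpow_neg]
    simp only [tb_xor]
    exact zpow_congr_mod (E := 4) (hE _) (quad_neg _ _)
  zero a h := by
    simp only [quadOps, Bool.and_eq_true] at h
    have h1 : a.1 = 0 := Nat.eq_of_beq_eq_true h.1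
    have h2 : a.2 = 0 := Nat.eq_of_beq_eq_true h.2
    simp [ev4, h1, h2, dg4]
  zero' := by
    show ev4 P z (0, 0) = 1
    simp [ev4, dg4]

/-- The test of the leading term modulo four. -/
def lead4 (f : ℕ × ℕ) (p : ℕ) : Bool := Nat.beq (f.1 >>> p) 1 && Nat.beq (f.2 >>> (p + 1)) 0

theorem ev4_lead (hE : ∀ b : B, b ^ 4 = 1) (z : ℕ → B) (W : Subgroup B) {P p : ℕ} {f : ℕ × ℕ} (hp : p < P)
    (h : ∀ q, q < p → z q ∈ W) (h1 : ev4 P z f = 1) (hl : lead4 f p = true) : z p ∈ W := by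
  simp only [lead4, Bool.and_eq_true] at hl
  have h2 : f.1 >>> p = 1 := Nat.eq_of_beq_eq_true hl.1
  have h3 : f.2 >>> (p + 1) = 0 := Nat.eq_of_beq_eq_true hl.2
  have hhi : ∀ j, p < j → f.1.testBit j = false ∧ f.2.testBit j = false :=
    fun j hj => ⟨testBit_of_shift hj h2, testBit_of_shift0 hj h3⟩
  rw [ev4, prod_range_lead _ hp (fun j hj _ => by
    rw [(hhi j hj).1, (hhi j hj).2]
    simp [dg4])] at h1
  have h4 : ∏ j ∈ Finset.range p, z j ^ dg4 (f.1.testBit j) (f.2.testBit j) ∈ W :=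
    prod_mem_range W _ p fun j hj => W.zpow_mem (h j hj) _
  have h5 : z p ^ dg4 (f.1.testBit p) (f.2.testBit p) ∈ W := by
    have h6 := W.inv_mem h4
    rwa [← eq_inv_of_mul_eq_one_right h1] at h6
  rw [testBit_at_shift h2] at h5
  cases hb : f.2.testBit p
  · rw [hb] at h5
    simpa [dg4] using h5
  · rw [hb] at h5
    have h6 := W.inv_mem h5
    have e : (z p ^ dg4 true true)⁻¹ = z p := by
      have h7 : dg4 true true = 3 := by decide
      rw [h7, ← zpow_neg]
      have := zpow_congr_mod (E := 4) (hE (z p)) (x := -3) (y := 1) (by decide)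
      simpa using this
    rwa [e] at h6

theorem ev4_mem (z : ℕ → B) (W : Subgroup B) {P : ℕ} (h : ∀ p, p < P → z p ∈ W) (f : ℕ × ℕ) : ev4 P z f ∈ W :=
  prod_mem_range W _ P fun j hj => W.zpow_mem (h j hj) _

theorem ev4_basis (z : ℕ → B) {P p : ℕ} (hp : p < P) {a : ℕ × ℕ} (h : pairEq a (pairBasis p) = true) :
    ev4 P z a = z p := by
  simp only [pairEq, pairBasis, Bool.and_eq_true] at h
  have h1 : a.1 = 2 ^ p := Nat.eq_of_beq_eq_true h.1
  have h2 : a.2 = 0 := Nat.eq_of_beq_eq_true h.2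
  rw [ev4, Finset.prod_eq_single p]
  · rw [h1, h2]
    simp [dg4, Nat.testBit_two_pow]
  · intro j _ hj
    rw [h1, h2, Nat.testBit_two_pow]
    simp [dg4, Ne.symm hj]
  · intro h3
    exact absurd (Finset.mem_range.mpr hp) h3

/-- A form twice a parameter. -/
theorem ev4_two (z : ℕ → B) {P p : ℕ} (hp : p < P) : ev4 P z (0, 2 ^ p) = z p ^ 2 := by
  rw [ev4, Finset.prod_eq_single p]
  · simp [dg4, Nat.testBit_two_pow]
  · intro j _ hj
    simp [dg4, Nat.testBit_two_pow, Ne.symm hj]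
  · intro h3
    exact absurd (Finset.mem_range.mpr hp) h3

theorem evOK4 (C : CertP (ℕ × ℕ)) (hO : C.O = quadOps) (hq : C.isEq = pairEq) (hb : C.basis = pairBasis)
    (hl : C.lead = lead4) (hE : ∀ b : B, b ^ 4 = 1) : C.EvOK (fun z : ℕ → B => ev4 C.P z) where
  sound z := by rw [hO]; exact ev4_sound hE _ z
  basis z a p hp h := by
    rw [hq, hb] at h
    exact ev4_basis z hp h
  lead z W p f hp h h1 h2 := by
    rw [hl] at h2
    exact ev4_lead hE z W hp h h1 h2
  mem z W h f := ev4_mem z W h f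

/-! ### Forms modulo two -/

/-- The test of the leading term modulo two. -/
def lead2 (f : ℕ) (p : ℕ) : Bool := Nat.beq (f >>> p) 1

theorem evOK2 (C : CertP ℕ) (hO : C.O = xorOps) (hq : C.isEq = Nat.beq) (hb : C.basis = fun p => 2 ^ p)
    (hl : C.lead = lead2) (hE : ∀ b : B, b ^ 2 = 1) : C.EvOK (fun z : ℕ → B => evX z C.P) where
  sound z := by
    rw [hO]
    exact evX_sound (fun b => by rw [← pow_two, hE]) z _
  basis z a p hp h := by
    rw [hq] at h
    rw [hb] at h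
    rw [Nat.eq_of_beq_eq_true h]
    exact evX_two_pow z hp
  lead z W p f hp h h1 h2 := by
    rw [hl] at h2
    have h3 : f >>> p = 1 := Nat.eq_of_beq_eq_true h2
    rw [evX, prod_range_lead _ hp (fun j hj _ => by
      rw [testBit_of_shift hj h3]
      simp)] at h1
    have h4 : ∏ j ∈ Finset.range p, (if f.testBit j = true then z j else 1) ∈ W :=
      prod_mem_range W _ p fun j hj => by
        split_ifs
        · exact h j hj
        · exact W.one_mem
    have h6 := W.inv_mem h4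
    rw [← eq_inv_of_mul_eq_one_right h1, testBit_at_shift h3] at h6
    simpa using h6
  mem z W h f := by
    refine prod_mem_range W _ _ fun j hj => ?_
    split_ifs
    · exact h j hj
    · exact W.one_mem

end Ev

end Cfsg.Agent.Lib.U6Forms46
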