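import Mathlib
import Cfsg.Agent.Lib.U6Forms46

/-!
# The kernel of a stem extension from a certificate with packed forms
-/

set_option autoImplicit false

namespace Cfsg.Agent.Lib.U6Gen46

open Cfsg Subgroup Cfsg.Agent.Lib.SchurCoset46 Cfsg.Agent.Lib.U6Coset46 Cfsg.Agent.Lib.U6Forms46

/-- Closed paths, for an injective family of points. -/
theorem endV_closed {G X : Type*} [Group G] [MulAction G X] {n m : ℕ} {T : ℕ → ℕ → ℕ} {par : ℕ → ℕ × ℕ}
    (hT : Tab n m T par) {mask : ℕ → X} {s : ℕ → G}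
    (hms : ∀ c, c < n → ∀ i, i < m → s i • mask (T c (2 * i)) = mask c)
    (hinj : ∀ c, c < n → ∀ c', c' < n → mask c = mask c' → c = c')
    {w : List ℕ} (hw : ∀ l ∈ w, l < 2 * m) (hr : evW s w = 1) {c : ℕ} (hc : c < n) : endV T c w = c := by
  have hlet : ∀ c, c < n → ∀ l, l < 2 * m → (lett s l)⁻¹ • mask c = mask (T c l) := by
    intro c hc l hl
    rcases Nat.mod_two_eq_zero_or_one l with h | h
    · have hi : l / 2 < m := by omega
      have h2 : l = 2 * (l / 2) := by omega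
      have h3 := hms c hc _ hi
      rw [← h2] at h3
      rw [lett, if_pos h, inv_smul_eq_iff, h3]
    · have hi : l / 2 < m := by omega
      have h2 : l = 2 * (l / 2) + 1 := by omega
      have hc' := hT.T_lt c hc l hl
      have h3 := hms _ hc' _ hi
      have h4 := hT.T_odd c hc _ hi
      rw [← h2] at h4
      rw [h4] at h3
      rw [lett, if_neg (by omega), inv_inv, h3]
  have key : ∀ (w : List ℕ), (∀ l ∈ w, l < 2 * m) → ∀ c, c < n →
      endV T c w < n ∧ mask (endV T c w) = (evW s w)⁻¹ • mask c := by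
    intro w
    induction w with
    | nil =>
      intro _ c hc
      simp [endV, evW, hc]
    | cons l w ih =>
      intro hw c hc
      have hl := hw l List.mem_cons_self
      obtain ⟨h1, h2⟩ := ih (fun a ha => hw a (List.mem_cons_of_mem _ ha)) _ (hT.T_lt c hc l hl)
      refine ⟨h1, ?_⟩
      rw [endV, h2, evW, mul_inv_rev, mul_smul, hlet c hc l hl]
  obtain ⟨h1, h2⟩ := key w hw c hc
  rw [hr, inv_one, one_smul] at h2
  exact hinj _ h1 _ hc h2

/-- The kernel of a stem extension, from a certificate. -/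
theorem ker_closure_of_cert {Γ G X : Type*} [Group Γ] [Group G] [MulAction G X] {σ : Γ →* G}
    (hσ : IsStemExtension σ) {Ht : Subgroup Γ} {x0 : X} (hHt : ∀ y, y ∈ Ht ↔ σ y • x0 = x0)
    (ρ : Ht →* σ.ker) (hρ : ∀ k (hk : k ∈ σ.ker) (h : k ∈ Ht), ρ ⟨k, h⟩ = ⟨k, hk⟩)
    {B : Type*} [CommGroup B] (ψ : σ.ker →* B)
    {F : Type} (C : CertP F) (hV : ∀ v, v < C.NV → C.varChk v = true) (hP : C.paramsChk = true)
    {ev : (ℕ → B) → F → B} (hev : C.EvOK ev)
    (hT : Tab C.n C.m C.T C.par) (hm : 0 < C.m) {mask : ℕ → X} (hm0 : mask 0 = x0)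
    (hminj : ∀ c, c < C.n → ∀ c', c' < C.n → mask c = mask c' → c = c')
    {s : ℕ → G} (hms : ∀ c, c < C.n → ∀ i, i < C.m → s i • mask (C.T c (2 * i)) = mask c)
    (hgen : closure (s '' Set.Iio C.m) = ⊤)
    {x : ℕ → Γ} (hx : ∀ i, σ (x i) = s i)
    (hrels : ∀ j, j < C.R → ∀ l ∈ C.rels j, l < 2 * C.m)
    (hrel : ∀ j, j < C.R → evW s (C.rels j) = 1)
    (hnorm : ∀ j, j < C.R → C.normal j = true → evW x (C.rels j) = 1) :
    ∃ z : ℕ → B, (∀ p j, C.params p = C.n * C.m + j → j < C.R → ∀ (h : evW x (C.rels j) ∈ σ.ker), z p = ψ ⟨evW x (C.rels j), h⟩) ∧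
      (∀ L : List (ℕ × ℕ × ℕ), L.all C.rowChk = true → ev z (C.combF L) = 1) ∧
      (∀ k, ψ k ∈ closure (z '' Set.Iio C.P0)) := by
  have hn0 : 0 < C.n := hT.n_pos
  have hmne : ∀ c, c < C.n → mask c = x0 → c = 0 := by
    intro c hc h
    exact hminj c hc 0 hn0 (by rw [h, hm0])
  obtain ⟨Φ, h1, h2, h3, h4, h5⟩ := coset_system' hσ hHt ρ hρ ψ hT hm0 hmne hms hgen hx hrels hrel
  have hn : ∀ j, j < C.R → C.normal j = true → Φ (C.n * C.m + j) = 1 := fun j hj hb => h3 j hj (hnorm j hj hb)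
  have h2' : ∀ j, j < C.R → ∀ c, c < C.n → prodT Φ (C.row j c) = 1 := fun j hj c hc =>
    h2 j hj c hc (endV_closed hT hms hminj (hrels j hj) (hrel j hj) hc)
  refine ⟨fun p => Φ (C.params p), ?_, ?_, ?_⟩
  · intro p j he hj h
    show Φ (C.params p) = _
    rw [he]
    exact h5 j hj h
  · intro L hL
    exact C.comb_one hV hev hT hrels h1 h2' hn hm _ (fun _ => rfl) hL
  · intro k
    refine h4 _ (fun c hc i hi => ?_) k
    refine C.vars_mem hV hev hT hrels h1 h2' hn hP hm _ (fun _ => rfl) _ ?_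
    show c * C.m + i < C.n * C.m + C.R
    have : c * C.m + i < C.n * C.m := by
      calc c * C.m + i < c * C.m + C.m := by omega
        _ = (c + 1) * C.m := by ring
        _ ≤ C.n * C.m := Nat.mul_le_mul_right _ hc
    omega

end Cfsg.Agent.Lib.U6Gen46
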