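import Mathlib
import Cfsg.Agent.Lib.U6Gen46
import Cfsg.Agent.Lib.U6Sp6Data46
import Cfsg.Agent.Lib.O8Level46

/-!
# The symplectic group in dimension six in its natural representation
-/

set_option autoImplicit false
set_option maxRecDepth 100000
set_option Elab.async false

namespace Cfsg.Agent.Lib.U6Sp646

open Cfsg Cfsg.Agent.Lib.SchurCoset46 Cfsg.Agent.Lib.SchurPres46 Cfsg.Agent.Lib.PermCode46 Cfsg.Agent.Lib.SchurTower46
  Cfsg.Agent.Lib.O8Gen46 Cfsg.Agent.Lib.U6Coset46
  Cfsg.Agent.Lib.U6Forms46 Cfsg.Agent.Lib.U6Gen46 Cfsg.Agent.Lib.U6Sp6Data46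
open Cfsg.Agent.Lib.O8Level46 (sU UU s3 s3_gen C7 m1 m3 m1_zero IsSp6 IsSp6R tab1 tab3 two two_lift norm_of_two)
open Cfsg.Agent.Lib.Sp6c46 (D ac aic bc bic cL cLh relsL rels3L wsL wH1 wH3 gt1 gt3 perfU perfV cert1 cert3 T1 par1)

universe u v

/-- All letters are letters of two generators. -/
def allLt (w : List ℕ) : Bool := w.all (fun l => Nat.blt l 4)

/-- The words of the elements of a table. -/
def wordsOK (cLh Hl : ℕ → ℕ) (NH : ℕ) (W : List (List ℕ)) : Bool :=
  (List.range NH).all fun k => allLt (W.getD k []) && D.eqW cLh (W.getD k []) (Hl k)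

/-- The check for perfection. -/
def perfOK (cLh : ℕ → ℕ) (U V : List (List ℕ)) : Bool :=
  (List.range 2).all fun i => allLt (U.getD i []) && allLt (V.getD i []) &&
    D.isIdW cLh (commW (U.getD i []) (V.getD i []) ++ [flipL (2 * i)])

/-- Commutators for the whole group. -/
def perfTop : List (List ℕ) := [[3,0,2,2,1,2,1,3,1,3,0,2],[1,1,3,1,2,0,2,0,3,0,0,3,0]]

theorem valid_a : D.validC ac aic = true := by decide +kernel
theorem valid_b : D.validC bc bic = true := by decide +kernel
theorem gt1_ok : (List.range 240).all (GTab.vChk D gt1) = true := by decide +kernel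
theorem gt3_ok : (List.range 864).all (GTab.vChk D gt3) = true := by decide +kernel
theorem lett1_ok : lettChk D cL cLh (fun i => wsL.getD i []) = true := by decide +kernel
theorem w1_ok : wordsOK cLh gt1.Hl gt1.NH wH1 = true := by decide +kernel
theorem w3_ok : wordsOK cLh gt3.Hl gt3.NH wH3 = true := by decide +kernel
theorem ord3_ok : D.isIdW cLh [1, 1, 1, 1, 1, 1, 1] = true := by decide +kernel
theorem rels1_ok : (List.range cert1.R).all (fun j => allLt (relsL.getD j []) && D.isIdW cL (relsL.getD j [])) = true := by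
  decide +kernel
theorem rels3_ok : (List.range cert3.R).all (fun j => allLt (rels3L.getD j []) && D.isIdW cLh (rels3L.getD j [])) = true := by
  decide +kernel
theorem perfU_ok : perfOK cLh perfU perfV = true := by decide +kernel
theorem perfT_ok : perfOK cL perfTop [[0], [2]] = true := by decide +kernel
theorem certH_vars0 : (List.range certH.NV).all certH.varChk = true := by decide +kernel
theorem certH_vars : ∀ v, v < certH.NV → certH.varChk v = true := by
  have h := certH_vars0
  rw [List.all_eq_true] at h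
  exact fun v hv => h v (List.mem_range.mpr hv)
theorem certH_params : certH.paramsChk = true := by decide +kernel
theorem relsH_ok : (List.range certH.R).all (fun j => allLt (certH.rels j) && D.isIdW cL (certH.rels j)) = true := by
  decide +kernel
/-- The chain of stabilisers. -/
theorem chain_ok : (List.range 6).all (fun i => ((chainW.getD i []).all fun w => allLt w &&
    (List.range i).all (fun q => Nat.beq (D.apW cL w (2 ^ q)) (2 ^ q))) &&
    decide ((chainW.getD i []).map (fun w => D.apW cL w (2 ^ i))).Nodup) = true := by decide +kernel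

section Level

variable {G : Type*} [Group G] (ι : G →* Equiv.Perm (Fin D.N)) (hinj : Function.Injective ι)

include hinj in
/-- A table of cosets of a subgroup generated by two words. -/
theorem level_table {s : ℕ → G} (C : GTab) (hT : Tab C.n 2 C.T C.par)
    (hL : ∀ l, l < 2 * 2 → D.Rep (ι (lett s l)) (C.cL l))
    (hv : (List.range C.n).all (GTab.vChk D C) = true)
    (hbase : C.base = List.range D.N)
    {cLh : ℕ → ℕ} {V : ℕ → List ℕ} (hV : lettChk D C.cL cLh V = true)
    {W : List (List ℕ)} (hW : wordsOK cLh C.Hl C.NH W = true) :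
    ∀ c, c < C.n → ∀ i, i < 2 → s i • ((GTab.gM C s (C.T c (2 * i)) : G) :
      G ⧸ Subgroup.closure ((fun i => evW s (V i)) '' Set.Iio 2)) = ((GTab.gM C s c : G) : G ⧸ _) := by
  have hLt := letters_of_chk ι hL hV
  simp only [wordsOK, allLt, List.all_eq_true, List.mem_range, Bool.and_eq_true, Nat.blt_eq] at hW
  refine GTab.table ι hT hL (fun c hc => ?_) ?_ ?_ ?_
  · rw [List.all_eq_true] at hv
    exact hv c (List.mem_range.mpr hc)
  · simp [GTab.hChk, hbase]
  · intro g h
    apply hb_all ι hinj g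
    rw [hbase] at h
    exact h
  · intro k hk
    obtain ⟨h1, h2⟩ := hW k hk
    refine ⟨evW (fun i => evW s (V i)) (W.getD k []), ?_, rep_evW_of_chk ι hLt h1 h2⟩
    have hS : ∀ i, i < 2 → (fun i => evW s (V i)) i ∈ Subgroup.closure ((fun i => evW s (V i)) '' Set.Iio 2) :=
      fun i hi => Subgroup.subset_closure (Set.mem_image_of_mem _ hi)
    have h1' : ∀ l ∈ W.getD k [], l < 2 * 2 := h1
    exact evW_mem (fun i => evW s (V i)) (m := 2) (Subgroup.closure ((fun i => evW s (V i)) '' Set.Iio 2)) hS (W.getD k []) h1'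

end Level

section Tables

variable {G : Type v} [Group G] (ι : G →* Equiv.Perm (Fin D.N)) (hinj : Function.Injective ι) {s : ℕ → G}

/-- The letters of the family of the subgroup, as elements of the subgroup. -/
theorem letters3 {cL cLu : ℕ → ℕ} (hL : ∀ l, l < 2 * 2 → D.Rep (ι (lett s l)) (cL l))
    (hlett : lettChk D cL cLu (fun i => wsL.getD i []) = true) :
    ∀ l, l < 2 * 2 → D.Rep ((ι.comp (UU s).subtype) (lett (s3 s) l)) (cLu l) := by
  intro l hl
  have h1 := letters_of_chk ι hL hlett l hl
  have h2 : (UU s).subtype (lett (s3 s) l) = lett (fun i => evW s (wsL.getD i [])) l := map_lett (UU s).subtype (s3 s) l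
  rw [MonoidHom.comp_apply, h2]
  exact h1

include hinj in
/-- The tables give a family with the properties of the symplectic group. -/
theorem isSp6_of_tables (hgen : Subgroup.closure (s '' Set.Iio 2) = ⊤) (htriv : ∀ i, 2 ≤ i → s i = 1)
    (hL : ∀ l, l < 2 * 2 → D.Rep (ι (lett s l)) (cL l)) : IsSp6 s := by
  have hinj3 : Function.Injective (ι.comp (UU s).subtype) := hinj.comp (UU s).subtype_injective
  have hL3 := letters3 ι hL lett1_ok
  refine ⟨hgen, htriv, ?_, ?_, ?_⟩
  · have h := level_table ι hinj gt1 tab1 hL gt1_ok rfl lett1_ok w1_ok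
    intro c hc i hi
    exact h c hc i hi
  · have hv : ∀ c, c < gt3.n → GTab.vChk D gt3 c = true := by
      have h3 := gt3_ok
      rw [List.all_eq_true] at h3
      exact fun c hc => h3 c (List.mem_range.mpr hc)
    have h := GTab.table (C := gt3) (ι.comp (UU s).subtype) (s := s3 s) (H := C7 s)
      tab3 hL3 hv
      (by simp [GTab.hChk, gt3]; exact fun x hx => hx)
      (by
        intro g h
        apply hb_all _ hinj3 g
        exact h)
      (by
        intro k hk
        have hw3 := w3_ok
        simp only [wordsOK, allLt, List.all_eq_true, List.mem_range, Bool.and_eq_true, Nat.blt_eq] at hw3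
        obtain ⟨h1, h2⟩ := hw3 k hk
        refine ⟨evW (s3 s) (wH3.getD k []), ?_, rep_evW_of_chk _ hL3 h1 h2⟩
        have hk7 : k < 7 := hk
        have e : wH3.getD k [] = List.replicate k 0 := by
          interval_cases k <;> rfl
        rw [e, evW_replicate]
        have l0 : lett (s3 s) 0 = s3 s 0 := lett_even (s3 s) 0
        rw [l0]
        exact Subgroup.npow_mem_zpowers _ _)
    intro c hc i hi
    exact h c hc i hi
  · have h1 := evW_one_of_chk _ hinj3 hL3 (w := [1, 1, 1, 1, 1, 1, 1]) (by simp) ord3_ok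
    have e : ([1, 1, 1, 1, 1, 1, 1] : List ℕ) = List.replicate 7 1 := rfl
    rw [e, evW_replicate] at h1
    have l1 : lett (s3 s) 1 = (s3 s 0)⁻¹ := lett_odd (s3 s) 0
    rw [l1, inv_pow, inv_eq_one] at h1
    exact h1

include hinj in
/-- Perfection from the check. -/
theorem perf_of_ok (hgen : Subgroup.closure (s '' Set.Iio 2) = ⊤) {cL : ℕ → ℕ}
    (hL : ∀ l, l < 2 * 2 → D.Rep (ι (lett s l)) (cL l)) {U V : List (List ℕ)} (h : perfOK cL U V = true) :
    commutator G = ⊤ := by
  simp only [perfOK, allLt, List.all_eq_true, List.mem_range, Bool.and_eq_true, Nat.blt_eq] at h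
  refine commutator_eq_top_of_gens hgen (a := fun i => evW s (U.getD i [])) (b := fun i => evW s (V.getD i [])) ?_
  intro i hi
  obtain ⟨⟨h1, h2⟩, h3⟩ := h i hi
  have hw : ∀ l ∈ commW (U.getD i []) (V.getD i []) ++ [flipL (2 * i)], l < 2 * 2 := by
    intro l hl
    simp only [commW, List.mem_append, List.mem_singleton] at hl
    rcases hl with (((hl | hl) | hl) | hl) | hl
    · exact h1 l hl
    · exact h2 l hl
    · exact invW_lt (m := 2) h1 l hl
    · exact invW_lt (m := 2) h2 l hl
    · subst hl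
      exact flipL_lt (by omega)
  have h4 := evW_one_of_chk ι hinj hL hw h3
  rw [evW_append, evW_commW] at h4
  have e : evW s [flipL (2 * i)] = (s i)⁻¹ := by
    simp only [evW, mul_one]
    rw [lett_flip, lett_even]
  rw [e, mul_inv_eq_one] at h4
  exact h4.symm

end Tables

/-! ### The group -/

/-- The first generator. -/
def aP : Equiv.Perm (Fin D.N) := D.permOf ac aic valid_a

/-- The second generator. -/
def bP : Equiv.Perm (Fin D.N) := D.permOf bc bic valid_b

/-- The generators. -/
def gP (i : ℕ) : Equiv.Perm (Fin D.N) := if i = 0 then aP else if i = 1 then bP else 1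

theorem gP_two (i : ℕ) (hi : 2 ≤ i) : gP i = 1 := by
  rw [gP, if_neg (by omega), if_neg (by omega)]

/-- The group. -/
abbrev PS : Subgroup (Equiv.Perm (Fin D.N)) := Subgroup.closure (gP '' Set.Iio 2)

theorem gP_mem (i : ℕ) : gP i ∈ PS := mem_closure_two gP_two i

/-- The generators as elements of the group. -/
def sS (i : ℕ) : ↥PS := ⟨gP i, gP_mem i⟩

theorem sS_gen : Subgroup.closure (sS '' Set.Iio 2) = ⊤ := closure_self_gen gP_mem

theorem sS_two (i : ℕ) (hi : 2 ≤ i) : sS i = 1 := Subtype.ext (gP_two i hi)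

/-- The inclusion. -/
abbrev ιS : ↥PS →* Equiv.Perm (Fin D.N) := PS.subtype

theorem ιS_inj : Function.Injective ιS := PS.subtype_injective

theorem hLS : ∀ l, l < 2 * 2 → D.Rep (ιS (lett sS l)) (cL l) := by
  intro l hl
  have h : ιS (lett sS l) = lett gP l := map_lett PS.subtype sS l
  rw [h]
  interval_cases l
  · have e : lett gP 0 = aP := lett_even gP 0
    rw [e]
    exact Pc.rep_permOf _ _ _
  · have e : lett gP 1 = aP⁻¹ := lett_odd gP 0
    rw [e]
    exact Pc.rep_permOf_inv _ _ _
  · have e : lett gP 2 = bP := lett_even gP 1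
    rw [e]
    exact Pc.rep_permOf _ _ _
  · have e : lett gP 3 = bP⁻¹ := lett_odd gP 1
    rw [e]
    exact Pc.rep_permOf_inv _ _ _

theorem sp6S : IsSp6 sS := isSp6_of_tables ιS ιS_inj sS_gen sS_two hLS

theorem sp6RS : IsSp6R sS where
  toIsSp6 := sp6S
  rel1 := by
    have h := rels1_ok
    simp only [List.all_eq_true, List.mem_range, Bool.and_eq_true] at h
    intro j hj
    obtain ⟨h1, h2⟩ := h j hj
    simp only [allLt, List.all_eq_true, Nat.blt_eq] at h1
    exact evW_one_of_chk ιS ιS_inj hLS h1 h2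
  rel3 := by
    have h := rels3_ok
    simp only [List.all_eq_true, List.mem_range, Bool.and_eq_true] at h
    intro j hj
    obtain ⟨h1, h2⟩ := h j hj
    simp only [allLt, List.all_eq_true, Nat.blt_eq] at h1
    exact evW_one_of_chk (ιS.comp (UU sS).subtype) (ιS_inj.comp (UU sS).subtype_injective)
      (letters3 ιS hLS lett1_ok) h1 h2
  perf1 := perf_of_ok ιS ιS_inj sS_gen hLS perfT_ok
  perf3 := perf_of_ok (ιS.comp (UU sS).subtype) (ιS_inj.comp (UU sS).subtype_injective) (s3_gen sS)
    (letters3 ιS hLS lett1_ok) perfU_ok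
  ne0 := by
    intro h
    have h1 := hLS 0 (by norm_num) ⟨1, by decide⟩
    have e : lett sS 0 = sS 0 := lett_even sS 0
    rw [e, h, map_one] at h1
    exact absurd h1 (by decide +kernel)

/-! ### The order -/

/-- The point of a vector of the basis. -/
def bpt (i : ℕ) : Fin D.N := ⟨2 ^ i % 64, Nat.mod_lt _ (by decide)⟩

/-- The pointwise stabiliser of the first vectors of the basis. -/
def stS (i : ℕ) : Subgroup ↥PS where
  carrier := {g | ∀ q, q < i → (g : Equiv.Perm (Fin D.N)) (bpt q) = bpt q}
  mul_mem' := by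
    intro a b ha hb q hq
    show (a : Equiv.Perm (Fin D.N)) ((b : Equiv.Perm (Fin D.N)) (bpt q)) = bpt q
    rw [hb q hq, ha q hq]
  one_mem' := fun _ _ => rfl
  inv_mem' := by
    intro a ha q hq
    show (a : Equiv.Perm (Fin D.N))⁻¹ (bpt q) = bpt q
    rw [Equiv.Perm.inv_eq_iff_eq, ha q hq]

theorem stS_zero : stS 0 = ⊤ := by
  rw [eq_top_iff]
  intro g _ q hq
  omega

theorem getD_mem' {α : Type*} {L : List (List α)} {k : ℕ} (hk : k < L.length) : L.getD k [] ∈ L := by
  rw [List.getD_eq_getElem _ _ hk]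
  exact List.getElem_mem hk

/-- One step of the chain. -/
theorem chain_step {i : ℕ} (hi : i < 6) : (chainW.getD i []).length * Nat.card (stS (i + 1)) ≤ Nat.card (stS i) := by
  have h := chain_ok
  simp only [List.all_eq_true, List.mem_range, Bool.and_eq_true, decide_eq_true_eq] at h
  obtain ⟨h1, h2⟩ := h i hi
  have hq64 : ∀ q, q ≤ 6 → 2 ^ q % 64 = 2 ^ q ∨ q = 6 := by
    intro q hq
    interval_cases q <;> simp
  -- the elements
  let el : ℕ → ↥PS := fun k => evW sS ((chainW.getD i []).getD k [])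
  have hrep : ∀ k, k < (chainW.getD i []).length → ∀ q : Fin D.N, (((el k : ↥PS) : Equiv.Perm (Fin D.N)) q : ℕ) =
      D.apW cL ((chainW.getD i []).getD k []) q := by
    intro k hk q
    have hw := (h1 _ (getD_mem' hk)).1
    simp only [allLt, List.all_eq_true, Nat.blt_eq] at hw
    have h3 : ιS (evW sS ((chainW.getD i []).getD k [])) = evW gP ((chainW.getD i []).getD k []) :=
      map_evW PS.subtype sS _
    have hL : ∀ l, l < 2 * 2 → D.Rep (lett gP l) (cL l) := by
      intro l hl
      have h4 := hLS l hl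
      have h5 : ιS (lett sS l) = lett gP l := map_lett PS.subtype sS l
      rwa [h5] at h4
    show ((ιS (evW sS ((chainW.getD i []).getD k [])) q : Fin D.N) : ℕ) = _
    rw [h3]
    exact Pc.apW_spec hL _ hw q
  have hbpt : ∀ q, q < 6 → ((bpt q : Fin D.N) : ℕ) = 2 ^ q := by
    intro q hq
    interval_cases q <;> rfl
  have hst : ∀ k, k < (chainW.getD i []).length → el k ∈ stS i := by
    intro k hk q hq
    apply Fin.ext
    rw [hrep k hk, hbpt q (by omega)]
    have h3 := (h1 _ (getD_mem' hk)).2
    exact Nat.eq_of_beq_eq_true (h3 q hq)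
  -- the map
  let f : Fin (chainW.getD i []).length × ↥(stS (i + 1)) → ↥(stS i) := fun p =>
    ⟨el p.1 * (p.2 : ↥PS), (stS i).mul_mem (hst _ p.1.2) (fun q hq => p.2.2 q (by omega))⟩
  have hf : Function.Injective f := by
    rintro ⟨k, a⟩ ⟨k', a'⟩ he
    have he1 : el k * (a : ↥PS) = el k' * (a' : ↥PS) := congrArg Subtype.val he
    have h3 : ((el k * (a : ↥PS) : ↥PS) : Equiv.Perm (Fin D.N)) (bpt i) = (el k : Equiv.Perm (Fin D.N)) (bpt i) := by
      show (el k : Equiv.Perm (Fin D.N)) ((a : ↥PS).1 (bpt i)) = _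
      rw [a.2 i (by omega)]
    have h4 : ((el k' * (a' : ↥PS) : ↥PS) : Equiv.Perm (Fin D.N)) (bpt i) = (el k' : Equiv.Perm (Fin D.N)) (bpt i) := by
      show (el k' : Equiv.Perm (Fin D.N)) ((a' : ↥PS).1 (bpt i)) = _
      rw [a'.2 i (by omega)]
    rw [he1, h4] at h3
    have h5 : D.apW cL ((chainW.getD i []).getD k' []) (2 ^ i) = D.apW cL ((chainW.getD i []).getD k []) (2 ^ i) := by
      have h6 := congrArg Fin.val h3
      rw [hrep _ k'.2, hrep _ k.2, hbpt i hi] at h6
      exact h6
    have hkk : k' = k := by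
      apply Fin.ext
      have hN := List.nodup_iff_injective_get.mp h2
      have hl : ((chainW.getD i []).map (fun w => D.apW cL w (2 ^ i))).length = (chainW.getD i []).length := List.length_map _
      have h7 := @hN ⟨k', by rw [hl]; exact k'.2⟩ ⟨k, by rw [hl]; exact k.2⟩ (by
        simp only [List.get_eq_getElem, List.getElem_map]
        have e1 : ∀ (x : Fin (chainW.getD i []).length), (chainW.getD i [])[x.1] = (chainW.getD i []).getD x.1 [] := by
          intro x
          rw [List.getD_eq_getElem _ _ x.2]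
        rw [e1 k', e1 k]
        exact h5)
      have h8 := congrArg Fin.val h7
      exact h8
    subst hkk
    have h8 : (a : ↥PS) = a' := mul_left_cancel he1
    have h9 : a = a' := Subtype.ext h8
    rw [h9]
  have h3 := Nat.card_le_card_of_injective f hf
  rwa [Nat.card_prod, Nat.card_fin] at h3

theorem card_PS_ge : 1451520 ≤ Nat.card ↥PS := by
  have e : ∀ i, i < 6 → (chainW.getD i []).length = [63, 30, 12, 8, 4, 2].getD i 0 := by
    intro i hi
    interval_cases i <;> decide +kernel
  have h0 := chain_step (i := 0) (by norm_num)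
  have h1 := chain_step (i := 1) (by norm_num)
  have h2 := chain_step (i := 2) (by norm_num)
  have h3 := chain_step (i := 3) (by norm_num)
  have h4 := chain_step (i := 4) (by norm_num)
  have h5 := chain_step (i := 5) (by norm_num)
  rw [e 0 (by norm_num)] at h0
  rw [e 1 (by norm_num)] at h1
  rw [e 2 (by norm_num)] at h2
  rw [e 3 (by norm_num)] at h3
  rw [e 4 (by norm_num)] at h4
  rw [e 5 (by norm_num)] at h5
  simp only [List.getD_cons_zero, List.getD_cons_succ] at h0 h1 h2 h3 h4 h5
  have h6 : 1 ≤ Nat.card (stS (5 + 1)) := Nat.card_pos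
  have h7 : Nat.card (stS 0) = Nat.card ↥PS := by
    rw [stS_zero]
    exact Nat.card_congr Subgroup.topEquiv.toEquiv
  rw [← h7]
  norm_num at h0 h1 h2 h3 h4 h5 h6
  omega

theorem card_PS : Nat.card ↥PS = 1451520 := by
  have h := sp6S.card_le
  refine le_antisymm ?_ card_PS_ge
  simpa using h


/-! ### The bound with a given element -/

/-- The vertices of a table correspond to the cosets. -/
theorem table_inj' {G : Type*} [Group G] [Finite G] {n m NH : ℕ} {T : ℕ → ℕ → ℕ} {par : ℕ → ℕ × ℕ} (hT : Tab n m T par)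
    {s : ℕ → G} (hgen : Subgroup.closure (s '' Set.Iio m) = ⊤) {H : Subgroup G} {mask : ℕ → G ⧸ H}
    (hm0 : mask 0 = ((1 : G) : G ⧸ H))
    (hms : ∀ c, c < n → ∀ i, i < m → s i • mask (T c (2 * i)) = mask c)
    (hcard : Nat.card G = n * NH) (hNH : 0 < NH) (hH : Nat.card H = NH) :
    ∀ c, c < n → ∀ c', c' < n → mask c = mask c' → c = c' := by
  classical
  have hn : 0 < n := hT.n_pos
  let f : Fin n → G ⧸ H := fun c => mask c
  have hinv : ∀ c, c < n → ∀ i, i < m → (s i)⁻¹ • mask c = mask (T c (2 * i)) := by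
    intro c hc i hi
    rw [inv_smul_eq_iff, hms c hc i hi]
  have hfwd : ∀ c, c < n → ∀ i, i < m → s i • mask c = mask (T c (2 * i + 1)) := by
    intro c hc i hi
    have hd := hT.T_lt c hc (2 * i + 1) (by omega)
    have h1 := hms _ hd i hi
    rw [hT.T_odd c hc i hi] at h1
    exact h1
  have hreach : ∀ y : G, ∃ c, c < n ∧ y • ((1 : G) : G ⧸ H) = mask c := by
    intro y
    have hy : y ∈ Subgroup.closure (s '' Set.Iio m) := by
      rw [hgen]
      exact Subgroup.mem_top _
    induction hy using Subgroup.closure_induction_left with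
    | one =>
      exact ⟨0, hn, by rw [one_smul, hm0]⟩
    | mul_left a ha b _ ih =>
      obtain ⟨i, hi, rfl⟩ := ha
      obtain ⟨c, hc, h2⟩ := ih
      have hi' : i < m := hi
      refine ⟨T c (2 * i + 1), hT.T_lt c hc _ (by omega), ?_⟩
      rw [mul_smul, h2, hfwd c hc i hi']
    | inv_mul_cancel a ha b _ ih =>
      obtain ⟨i, hi, rfl⟩ := ha
      obtain ⟨c, hc, h2⟩ := ih
      have hi' : i < m := hi
      refine ⟨T c (2 * i), hT.T_lt c hc _ (by omega), ?_⟩
      rw [mul_smul, h2, hinv c hc i hi']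
  have hsurj : Function.Surjective f := by
    intro q
    induction q using QuotientGroup.induction_on with
    | H y =>
      obtain ⟨c, hc, h⟩ := hreach y
      refine ⟨⟨c, hc⟩, ?_⟩
      show mask c = _
      have e : y • ((1 : G) : G ⧸ H) = ((y * 1 : G) : G ⧸ H) := rfl
      rw [← h, e, mul_one]
  have hmul : Nat.card H * Nat.card (G ⧸ H) = n * NH := by
    rw [← hcard]
    exact (Subgroup.card_eq_card_quotient_mul_card_subgroup H ▸ by ring)
  have h2 : Nat.card (G ⧸ H) = n := by
    rw [hH] at hmul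
    exact Nat.eq_of_mul_eq_mul_left hNH (by rw [hmul, mul_comm])
  letI : Fintype (G ⧸ H) := Fintype.ofFinite _
  have hb : Function.Bijective f := by
    rw [Fintype.bijective_iff_surjective_and_card]
    refine ⟨hsurj, ?_⟩
    rw [Fintype.card_fin, ← Nat.card_eq_fintype_card, h2]
  intro c hc c' hc' h
  have h4 := hb.1 (show f ⟨c, hc⟩ = f ⟨c', hc'⟩ from h)
  exact congrArg Fin.val h4

theorem relsH_all : ∀ j, j < certH.R → (∀ l ∈ certH.rels j, l < 2 * certH.m) ∧ evW sS (certH.rels j) = 1 := by
  have h := relsH_ok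
  simp only [List.all_eq_true, List.mem_range, Bool.and_eq_true] at h
  intro j hj
  obtain ⟨h1, h2⟩ := h j hj
  simp only [allLt, List.all_eq_true, Nat.blt_eq] at h1
  exact ⟨h1, evW_one_of_chk ιS ιS_inj hLS h1 h2⟩

theorem wt_sq : certH.rels 31 = wt ++ wt := by decide +kernel

theorem params_zero : certH.params 0 = certH.n * certH.m + 31 := by decide +kernel

/-- The kernel of a stem extension of the symplectic group is generated by the square of the lift of a transvection. -/
theorem bound2 {Γ : Type u} [Group Γ] [Finite Γ] (σ : Γ →* ↥PS) (hσ : IsStemExtension σ) (y : Γ) (hy : σ y = evW sS wt) :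
    ∀ k ∈ σ.ker, k ∈ Subgroup.zpowers (y ^ 2) := by
  have hc := card_PS
  obtain ⟨u, hu, hall⟩ := sp6RS.bound hc σ hσ
  let _ : CommGroup σ.ker := { (inferInstance : Group σ.ker) with
    mul_comm := fun a b => Subtype.ext (Subgroup.mem_center_iff.mp (hσ.2.1 b.2) a.1) }
  have hE2 : ∀ b : σ.ker, b ^ 2 = 1 := by
    intro b
    obtain ⟨i, rfl⟩ := Subgroup.mem_zpowers_iff.mp (hall b)
    rw [← zpow_natCast, ← zpow_mul, mul_comm, zpow_mul, zpow_natCast, hu, one_zpow]
  have hexp : ∀ k ∈ σ.ker, k ^ 2 = 1 := by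
    intro k hk
    exact congrArg Subtype.val (hE2 ⟨k, hk⟩)
  obtain ⟨hU, -, -, -⟩ := sp6S.exact hc
  have hs0 : sS 0 ^ 5 = 1 := by
    have h1 := sp6RS.rel1 0 (by decide)
    have e : relsL.getD 0 [] = List.replicate 5 1 := by decide
    rw [e, evW_replicate] at h1
    have l1 : lett sS 1 = (sS 0)⁻¹ := lett_odd sS 0
    rw [l1, inv_pow, inv_eq_one] at h1
    exact h1
  have hs1 : sS 1 ^ 7 = 1 := by
    have h1 := sp6RS.rel1 1 (by decide)
    have e : relsL.getD 1 [] = List.replicate 7 3 := by decide
    rw [e, evW_replicate] at h1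
    have l1 : lett sS 3 = (sS 1)⁻¹ := lett_odd sS 1
    rw [l1, inv_pow, inv_eq_one] at h1
    exact h1
  obtain ⟨ρ, hρ⟩ := retraction_of_trivial hσ (UU sS) (sp6RS.trivial hc) sp6RS.perf3
  obtain ⟨x0, hx0, hx05⟩ := exists_lift_pow hσ (n := 5) (u := 1) hs0 hexp (by norm_num)
  obtain ⟨x1, hx1, hx17⟩ := exists_lift_pow hσ (n := 7) (u := 1) hs1 hexp (by norm_num)
  have hev := evOK2 (B := σ.ker) certH rfl rfl rfl rfl hE2
  have hinj : ∀ c, c < certH.n → ∀ c', c' < certH.n → m1 sS c = m1 sS c' → c = c' :=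
    table_inj' (m := 2) tab1 sS_gen (m1_zero sS) sp6RS.ms1 (NH := 6048) (by rw [hc]) (by norm_num) (by simpa using hU)
  obtain ⟨z, hz1, -, hz3⟩ := ker_closure_of_cert hσ (mem_comap_iff_smul σ (UU sS)) ρ hρ (MonoidHom.id σ.ker) certH certH_vars certH_params hev
    tab1 (by norm_num [certH]) (m1_zero sS) hinj sp6RS.ms1 sS_gen (x := two x0 x1) (two_lift σ sS_two hx0 hx1)
    (fun j hj => (relsH_all j hj).1) (fun j hj => (relsH_all j hj).2)
    (by
      intro j hj hb
      have hj2 : j < 2 := by simpa [certH] using hb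
      exact norm_of_two (x := two x0 x1) (rels := certH.rels) hx05 hx17 (by decide) (by decide) j hj2)
  -- the value of the parameter
  have hw : σ (evW (two x0 x1) wt) = evW sS wt := by
    rw [map_evW]
    congr 1
    funext i
    exact two_lift σ sS_two hx0 hx1 i
  have hker : y * (evW (two x0 x1) wt)⁻¹ ∈ σ.ker := by
    rw [MonoidHom.mem_ker, map_mul, map_inv, hw, hy, mul_inv_cancel]
  have hy2 : y ^ 2 = (evW (two x0 x1) wt) ^ 2 := by
    set v := evW (two x0 x1) wt with hv
    set c := y * v⁻¹ with hcd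
    have e : y = c * v := by rw [hcd]; group
    have hcv : Commute c v := (Subgroup.mem_center_iff.mp (hσ.2.1 hker) v).symm
    rw [e, hcv.mul_pow, hexp c hker, one_mul]
  have hkr : evW (two x0 x1) (certH.rels 31) ∈ σ.ker := by
    rw [MonoidHom.mem_ker, map_evW]
    have : (fun i => σ (two x0 x1 i)) = sS := funext (two_lift σ sS_two hx0 hx1)
    rw [this]
    exact (relsH_all 31 (by decide)).2
  have hz0 := hz1 0 31 params_zero (by decide) hkr
  have hz0' : ((z 0 : σ.ker) : Γ) = y ^ 2 := by
    rw [hz0]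
    show evW (two x0 x1) (certH.rels 31) = _
    rw [wt_sq, evW_append, hy2, pow_two]
  intro k hk
  have h1 := hz3 ⟨k, hk⟩
  have h2 : Subgroup.closure (z '' Set.Iio certH.P0) ≤ Subgroup.zpowers (z 0) := by
    rw [Subgroup.closure_le]
    rintro _ ⟨p, hp, rfl⟩
    have hp0 : p = 0 := by
      have : p < 1 := hp
      omega
    rw [hp0]
    exact Subgroup.mem_zpowers _
  obtain ⟨i, hi⟩ := Subgroup.mem_zpowers_iff.mp (h2 h1)
  rw [Subgroup.mem_zpowers_iff]
  refine ⟨i, ?_⟩
  have h3 := congrArg Subtype.val hi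
  rw [← hz0']
  exact h3

end Cfsg.Agent.Lib.U6Sp646
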