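import Mathlib
import Cfsg.Agent.Lib.U6Bridge46
import Cfsg.Agent.Lib.U6Sp646
import Cfsg.Agent.Lib.U6Words46
import Cfsg.Agent.Lib.U6MaskAll46

/-!
# The permutation group of degree 1365: the generators, the sets of points and the subgroup
-/

set_option autoImplicit false
set_option maxRecDepth 100000
set_option Elab.async false

namespace Cfsg.Agent.Lib.U6Main46

open Cfsg Cfsg.Agent.Lib.SchurCoset46 Cfsg.Agent.Lib.SchurTower46 Cfsg.Agent.Lib.PermCode46 Cfsg.Agent.Lib.U6Coset46
  Cfsg.Agent.Lib.U6Data46 Cfsg.Agent.Lib.U6BrD46 Cfsg.Agent.Lib.U6Bridge46 Cfsg.Agent.Lib.U6Words46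
  Cfsg.Agent.Lib.U6Mask46 Cfsg.Agent.Lib.U6MaskAll46
open scoped Pointwise

/-! ### The generators -/

theorem tP_mem (i : ℕ) : tP i ∈ PG := by
  by_cases h : i < 8
  · exact Subgroup.subset_closure ⟨i, h, rfl⟩
  · rw [tP, dif_neg h]
    exact Subgroup.one_mem _

/-- The generators as elements of the group. -/
noncomputable def sG (i : ℕ) : ↥PG := ⟨tP i, tP_mem i⟩

theorem sG_gen : Subgroup.closure (sG '' Set.Iio 8) = ⊤ := by
  have h := Subgroup.closure_closure_coe_preimage (k := tP '' Set.Iio 8)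
  rw [← h]
  congr 1
  ext y
  constructor
  · rintro ⟨i, hi, rfl⟩
    exact ⟨i, hi, rfl⟩
  · rintro ⟨i, hi, h1⟩
    exact ⟨i, hi, Subtype.ext h1⟩

theorem rep_tP {i : ℕ} (hi : i < 8) : D.Rep (tP i) (tc i) := by
  rw [tP, dif_pos hi]
  exact Pc.rep_permOf _ _ _

theorem rep_tP_inv {i : ℕ} (hi : i < 8) : D.Rep (tP i)⁻¹ (tc i) := by
  rw [tP, dif_pos hi]
  exact Pc.rep_permOf_inv _ _ _

theorem tP_inv {i : ℕ} (hi : i < 8) : (tP i)⁻¹ = tP i := by
  ext q
  rw [rep_tP_inv hi, rep_tP hi]

theorem hLt : ∀ l, l < 2 * 8 → D.Rep (lett tP l) (cL l) := by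
  intro l hl
  rcases Nat.mod_two_eq_zero_or_one l with h | h
  · rw [lett, if_pos h]
    exact rep_tP (by omega)
  · rw [lett, if_neg (by omega)]
    exact rep_tP_inv (by omega)

theorem coe_evW (w : List ℕ) : ((evW sG w : ↥PG) : Equiv.Perm (Fin D.N)) = evW tP w :=
  map_evW PG.subtype sG w

/-- The test that a word is trivial, on the points of the base. -/
noncomputable def isIdB (w : List ℕ) : Bool := (w.all fun l => Nat.blt l 16) && baseL.all fun p => Nat.beq (D.apW cL w p) p

theorem isIdB_lt {w : List ℕ} (h : isIdB w = true) : ∀ l ∈ w, l < 2 * 8 := by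
  simp only [isIdB, Bool.and_eq_true, List.all_eq_true, Nat.blt_eq] at h
  exact h.1

theorem evW_one_of_base {w : List ℕ} (h : isIdB w = true) : evW sG w = 1 := by
  have hw := isIdB_lt h
  simp only [isIdB, Bool.and_eq_true, List.all_eq_true] at h
  apply Subtype.ext
  rw [coe_evW]
  refine PG_eq_one_of_fix _ (evW_mem tP (m := 8) PG (fun i _ => tP_mem i) w hw) fun p hp => ?_
  apply Fin.ext
  rw [Pc.apW_spec hLt w hw]
  exact Nat.eq_of_beq_eq_true (h.2 _ hp)

theorem rels_chk : (List.range 293).all (fun j => isIdB (rels j)) = true := by decide +kernel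

theorem rels_ok {j : ℕ} (hj : j < 293) : isIdB (rels j) = true := by
  have h := rels_chk
  rw [List.all_eq_true] at h
  exact h j (List.mem_range.mpr hj)

theorem rels_lt {j : ℕ} (hj : j < 293) : ∀ l ∈ rels j, l < 2 * 8 := isIdB_lt (rels_ok hj)

theorem rels_one {j : ℕ} (hj : j < 293) : evW sG (rels j) = 1 := evW_one_of_base (rels_ok hj)

/-! ### The shapes of the relators -/

theorem rel_comm : (List.range 8).all (fun i => decide (rels i = commW (wAL.getD i []) (wBL.getD i []) ++ [2 * i + 1])) = true := by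
  decide +kernel

theorem rel_sq : (List.range 8).all (fun i => decide (rels (8 + i) = [2 * i, 2 * i])) = true := by decide +kernel

theorem rel_W3 : rels 16 = commW wU wV := by decide +kernel

theorem rel_r1 : rels 291 = commW g1L h1L := by decide +kernel

theorem rel_r2 : rels 292 = commW g2L h2L := by decide +kernel

theorem wQ_chk : (List.range 8).all (fun i => isIdB (wAL.getD i [] ++ wAL.getD i [] ++ [2 * i]) &&
    isIdB (wBL.getD i [] ++ wBL.getD i [] ++ [2 * i]) && isIdB [2 * i, 2 * i]) = true := by decide +kernel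

theorem U_chk : isIdB (wU ++ wU ++ wU) = true := by decide +kernel

theorem g1_chk : isIdB (g1L ++ g1L) = true := by decide +kernel

theorem g2_chk : isIdB (g2L ++ g2L) = true := by decide +kernel

theorem words_lt : (wU.all fun l => Nat.blt l 16) && (wV.all fun l => Nat.blt l 16) && (g1L.all fun l => Nat.blt l 16) &&
    (h1L.all fun l => Nat.blt l 16) && (g2L.all fun l => Nat.blt l 16) && (h2L.all fun l => Nat.blt l 16) = true := by decide +kernel

/-! ### The group is perfect -/

theorem perfPG : commutator ↥PG = ⊤ := by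
  rw [eq_top_iff, ← sG_gen, Subgroup.closure_le]
  rintro _ ⟨i, hi, rfl⟩
  have hi' : i < 8 := hi
  have h1 := rel_comm
  rw [List.all_eq_true] at h1
  have h2 := of_decide_eq_true (h1 i (List.mem_range.mpr hi'))
  have h3 := rels_one (j := i) (by omega)
  rw [h2, evW_append, evW_commW] at h3
  have e : evW sG [2 * i + 1] = (sG i)⁻¹ := by
    simp only [evW, mul_one]
    rw [lett_odd]
  rw [e, mul_inv_eq_one] at h3
  rw [← h3, _root_.commutator_def]
  exact Subgroup.commutator_mem_commutator (Subgroup.mem_top _) (Subgroup.mem_top _)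

/-! ### The sets of points -/

/-- The set of points of a vertex. -/
noncomputable def mask (c : ℕ) : Set (Fin D.N) := {p | fld (mC c) 1 1 p = 1}

theorem fld_one_iff (m p : ℕ) : fld m 1 1 p = 1 ↔ m.testBit p = true := by
  have e : fld m 1 1 p = (m >>> p) % 2 := by
    have e1 : fld m 1 1 p = (m >>> (1 * p)) &&& 1 := rfl
    rw [e1, one_mul, Nat.and_one_is_mod]
  rw [e, Nat.shiftRight_eq_div_pow, Nat.testBit_eq_decide_div_mod_eq]
  simp

theorem edgeJ_spec (t m : ℕ) : ∀ (k x p : ℕ), edgeJ t m x k = true → (orL x k).testBit p = true →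
    fld m 1 1 (fld t 11 2047 p) = 1 := by
  intro k
  induction k with
  | zero =>
    intro x p _ h
    simp [orL] at h
  | succ k ih =>
    intro x p h1 h
    have e : orL x (k + 1) = (1 <<< (x &&& 2047)) ||| orL (x >>> 11) k := rfl
    have e2 : edgeJ t m x (k + 1) = (Nat.beq (fld m 1 1 (fld t 11 2047 (x &&& 2047))) 1 && edgeJ t m (x >>> 11) k) := rfl
    rw [e2, Bool.and_eq_true] at h1
    rw [e, Nat.testBit_or, Bool.or_eq_true] at h
    rcases h with h | h
    · rw [Nat.one_shiftLeft, Nat.testBit_two_pow] at h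
      rw [← of_decide_eq_true h]
      exact Nat.eq_of_beq_eq_true h1.1
    · exact ih _ _ h1.2 h

/-- The table. -/
theorem tab_ok : cert3.base.tabChk = true := by decide +kernel

theorem tabT : Tab 6336 8 T par := cert3.base.tab_of_chk tab_ok

theorem T_low (x i : ℕ) : T x (2 * i + 1) = T x (2 * i) := by
  have h : Nat.div (2 * i + 1) 2 = Nat.div (2 * i) 2 := by
    show (2 * i + 1) / 2 = (2 * i) / 2
    omega
  simp only [T]
  rw [h]

theorem mask_chk {c : ℕ} (hc : c < 6336) : orL (LLc c) 63 = mC c ∧ mC c < 2 ^ 1365 ∧ rho c < 6336 ∧ pi (rho c) = c := by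
  have h := mask_all
  rw [List.all_eq_true] at h
  have h1 := h c (List.mem_range.mpr hc)
  simp only [maskC, Bool.and_eq_true, Nat.blt_eq] at h1
  obtain ⟨⟨⟨h2, h3⟩, h4⟩, h5⟩ := h1
  refine ⟨Nat.eq_of_beq_eq_true h2, ?_, h4, Nat.eq_of_beq_eq_true h5⟩
  have e : Nat.shiftLeft 1 1365 = 2 ^ 1365 := Nat.one_shiftLeft 1365
  rwa [e] at h3

theorem edge_mem {c i : ℕ} (hc : c < 6336) (hi : i < 8) {p : Fin D.N} (hp : p ∈ mask (T c (2 * i))) : tP i p ∈ mask c := by
  have h := edge_all c hc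
  have he : edgeM c i = true := by
    simp only [edgeC, Bool.and_eq_true] at h
    obtain ⟨⟨⟨⟨⟨⟨⟨h0, h1⟩, h2⟩, h3⟩, h4⟩, h5⟩, h6⟩, h7⟩ := h
    interval_cases i <;> assumption
  have hd : T c (2 * i) < 6336 := tabT.T_lt c hc _ (by omega)
  obtain ⟨h1, -⟩ := mask_chk hd
  have hp' := (fld_one_iff _ _).mp hp
  rw [← h1] at hp'
  have h2 := edgeJ_spec _ _ _ _ _ he hp'
  show fld (mC c) 1 1 ((tP i p : Fin D.N) : ℕ) = 1
  rw [rep_tP hi p]
  exact h2

theorem sG_smul {i : ℕ} (p : Fin D.N) : sG i • p = tP i p := rfl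

theorem sG_inv_smul {i : ℕ} (hi : i < 8) (p : Fin D.N) : (sG i)⁻¹ • p = tP i p := by
  show (tP i)⁻¹ p = tP i p
  rw [tP_inv hi]

theorem tP_tP {i : ℕ} (hi : i < 8) (p : Fin D.N) : tP i (tP i p) = p := by
  have h : ((tP i)⁻¹ * tP i) p = p := by
    rw [inv_mul_cancel]
    rfl
  rw [tP_inv hi] at h
  exact h

theorem T_T {c i : ℕ} (hc : c < 6336) (hi : i < 8) : T (T c (2 * i)) (2 * i) = c := by
  have h := tabT.T_even c hc i hi
  rwa [T_low] at h

theorem hms : ∀ c, c < 6336 → ∀ i, i < 8 → sG i • mask (T c (2 * i)) = mask c := by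
  intro c hc i hi
  ext p
  rw [Set.mem_smul_set_iff_inv_smul_mem, sG_inv_smul hi]
  constructor
  · intro h
    have h2 := edge_mem hc hi h
    rwa [tP_tP hi] at h2
  · intro h
    have hd : T c (2 * i) < 6336 := tabT.T_lt c hc _ (by omega)
    refine edge_mem hd hi ?_
    rwa [T_T hc hi]

theorem mask_ext {c c' : ℕ} (hc : c < 6336) (hc' : c' < 6336) (h : mask c = mask c') : mC c = mC c' := by
  obtain ⟨-, h1, -⟩ := mask_chk hc
  obtain ⟨-, h2, -⟩ := mask_chk hc'
  apply Nat.eq_of_testBit_eq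
  intro i
  by_cases hi : i < 1365
  · have h3 := Set.ext_iff.mp h ⟨i, hi⟩
    have h4 : (mC c).testBit i = true ↔ (mC c').testBit i = true := by
      rw [← fld_one_iff, ← fld_one_iff]
      exact h3
    exact Bool.eq_iff_iff.mpr h4
  · have l1 : mC c < 2 ^ i := lt_of_lt_of_le h1 (Nat.pow_le_pow_right (by norm_num) (by omega))
    have l2 : mC c' < 2 ^ i := lt_of_lt_of_le h2 (Nat.pow_le_pow_right (by norm_num) (by omega))
    rw [Nat.testBit_lt_two_pow l1, Nat.testBit_lt_two_pow l2]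

theorem sort_lt : ∀ b a, a < b → b < 6336 → mC (pi a) < mC (pi b) := by
  have h := sort_all
  rw [List.all_eq_true] at h
  have hs : ∀ k, k + 1 < 6336 → mC (pi k) < mC (pi (k + 1)) := by
    intro k hk
    have h1 := h k (List.mem_range.mpr (by omega))
    simpa [sortC] using h1
  intro b
  induction b with
  | zero => intro a ha; omega
  | succ b ih =>
    intro a ha hb
    by_cases hab : a = b
    · subst hab
      exact hs a hb
    · exact (ih a (by omega) (by omega)).trans (hs b hb)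

theorem mask_inj : ∀ c, c < 6336 → ∀ c', c' < 6336 → mask c = mask c' → c = c' := by
  intro c hc c' hc' h
  have h1 := mask_ext hc hc' h
  obtain ⟨-, -, r1, r2⟩ := mask_chk hc
  obtain ⟨-, -, r3, r4⟩ := mask_chk hc'
  rcases lt_trichotomy (rho c) (rho c') with h2 | h2 | h2
  · have := sort_lt _ _ h2 r3
    rw [r2, r4, h1] at this
    omega
  · rw [← r2, ← r4, h2]
  · have := sort_lt _ _ h2 r1
    rw [r2, r4, h1] at this
    omega

/-! ### The subgroup -/

/-- The stabiliser of the first set. -/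
noncomputable abbrev AA : Subgroup ↥PG := MulAction.stabilizer ↥PG (mask 0)

theorem mask_orbit : ∀ c, c < 6336 → mask c ∈ MulAction.orbit ↥PG (mask 0) := by
  intro c
  induction c using Nat.strong_induction_on with
  | _ c ih =>
    intro hc
    rcases Nat.eq_zero_or_pos c with rfl | hpos
    · exact MulAction.mem_orbit_self _
    · obtain ⟨h1, h2, h3⟩ := tabT.par_lt c hc hpos
      obtain ⟨g, hg⟩ := ih _ h1 (h1.trans hc)
      have hi : (par c).2 / 2 < 8 := by omega
      have e : T (par c).1 (2 * ((par c).2 / 2)) = c := by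
        rcases Nat.mod_two_eq_zero_or_one (par c).2 with h | h
        · have e1 : 2 * ((par c).2 / 2) = (par c).2 := by omega
          rw [e1, h3]
        · have e1 : 2 * ((par c).2 / 2) + 1 = (par c).2 := by omega
          rw [← T_low, e1, h3]
      have h4 := hms _ (h1.trans hc) _ hi
      rw [e] at h4
      refine ⟨(sG ((par c).2 / 2))⁻¹ * g, ?_⟩
      show ((sG ((par c).2 / 2))⁻¹ * g) • mask 0 = mask c
      rw [mul_smul]
      have hg' : g • mask 0 = mask (par c).1 := hg
      rw [hg', ← h4, inv_smul_smul]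

theorem card_AA_le : 6336 * Nat.card ↥AA ≤ Nat.card ↥PG := by
  have h1 := AA.card_mul_index
  rw [MulAction.index_stabilizer] at h1
  have h2 : 6336 ≤ (MulAction.orbit ↥PG (mask 0)).ncard := by
    rw [← Nat.card_coe_set_eq]
    let f : Fin 6336 → ↥(MulAction.orbit ↥PG (mask 0)) := fun c => ⟨mask c, mask_orbit c c.2⟩
    have hf : Function.Injective f := by
      intro a b h
      apply Fin.ext
      exact mask_inj _ a.2 _ b.2 (congrArg Subtype.val h)
    have h3 := Nat.card_le_card_of_injective f hf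
    simpa using h3
  rw [← h1, mul_comm]
  exact Nat.mul_le_mul_left _ h2

theorem gens_mem {i : ℕ} (hi : i < 7) : sG i ∈ AA := by
  have h0 : T 0 (2 * i) = 0 := by
    interval_cases i <;> decide +kernel
  have h := hms 0 (by norm_num) i (by omega)
  rwa [h0] at h

/-! ### The natural representation of the subgroup -/

open Cfsg.Agent.Lib.U6Sp646 (PS sS gP gP_mem sS_gen sp6RS card_PS aP bP)

/-- The parameters of the natural representation. -/
abbrev DS : Pc := Cfsg.Agent.Lib.Sp6c46.D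

/-- The words of the generators of the subgroup. -/
def Vw (i : ℕ) : List ℕ := [waL, wbL].getD i []

theorem Vw_lt (i : ℕ) : ∀ l ∈ Vw i, l < 2 * 7 := by
  by_cases h0 : i = 0
  · subst h0
    decide
  · by_cases h1 : i = 1
    · subst h1
      decide
    · have e : Vw i = [] := by
        rw [Vw, List.getD_eq_default]
        simp
        omega
      rw [e]
      simp

/-- The generators of the subgroup. -/
noncomputable def sT (i : ℕ) : ↥PG := evW sG (Vw i)

theorem sT_mem (i : ℕ) : sT i ∈ AA := evW_mem sG (m := 7) AA (fun _ hj => gens_mem hj) _ (Vw_lt i)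

/-- The point of a vector. -/
noncomputable def bp (x : ℕ) : ℕ := fld bpL 11 2047 x

theorem bp_chk : (List.range 64).all (fun x => Nat.blt (bp x) 1365) = true := by decide +kernel

theorem bp_inj_chk : (List.range' 1 63).all (fun x => (List.range' 1 63).all fun y => Nat.beq x y || !Nat.beq (bp x) (bp y)) = true := by
  decide +kernel

theorem bp_lt {x : ℕ} (hx : x < 64) : bp x < 1365 := by
  have h := bp_chk
  rw [List.all_eq_true] at h
  simpa using h x (List.mem_range.mpr hx)

theorem bp_inj {x y : ℕ} (hx : x < 64) (hy : y < 64) (h0 : x ≠ 0) (h1 : y ≠ 0) (h : bp x = bp y) : x = y := by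
  have h2 := bp_inj_chk
  rw [List.all_eq_true] at h2
  have h3 := h2 x (by simp [List.mem_range'_1]; omega)
  rw [List.all_eq_true] at h3
  have h4 := h3 y (by simp [List.mem_range'_1]; omega)
  simp only [Bool.or_eq_true, Bool.not_eq_true'] at h4
  rcases h4 with h5 | h5
  · exact Nat.eq_of_beq_eq_true h5
  · rw [h, Nat.beq_refl] at h5
    exact absurd h5 (by simp)

/-- The point of a vector. -/
noncomputable def bpF (x : Fin DS.N) : Fin D.N := ⟨bp x, bp_lt x.2⟩

theorem gen_chk : (List.range' 1 63).all (fun x => Nat.beq (D.apW cL waL (bp x)) (bp (DS.ap Cfsg.Agent.Lib.Sp6c46.ac x))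
    && Nat.beq (D.apW cL wbL (bp x)) (bp (DS.ap Cfsg.Agent.Lib.Sp6c46.bc x))) = true := by decide +kernel

theorem ac_zero : DS.ap Cfsg.Agent.Lib.Sp6c46.ac 0 = 0 := by decide +kernel

theorem bc_zero : DS.ap Cfsg.Agent.Lib.Sp6c46.bc 0 = 0 := by decide +kernel

/-- The zero vector. -/
def z64 : Fin DS.N := ⟨0, by decide⟩

/-- The relation between the two actions. -/
structure IV (l : ↥PG × Equiv.Perm (Fin DS.N)) : Prop where
  y0 : l.2 z64 = z64
  bp : ∀ x : Fin DS.N, (x : ℕ) ≠ 0 → (l.1 : Equiv.Perm (Fin D.N)) (bpF x) = bpF (l.2 x)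

theorem z64_ne {x : Fin DS.N} (hx : (x : ℕ) ≠ 0) : x ≠ z64 := by
  intro h
  exact hx (congrArg Fin.val h)

theorem ne_zero_of_y0 {y : Equiv.Perm (Fin DS.N)} (h : y z64 = z64) {x : Fin DS.N} (hx : (x : ℕ) ≠ 0) : ((y x : Fin DS.N) : ℕ) ≠ 0 := by
  intro h2
  have h3 : y x = z64 := Fin.ext h2
  rw [← h] at h3
  exact z64_ne hx (y.injective h3)

theorem IV.one : IV 1 := ⟨rfl, fun _ _ => rfl⟩

theorem IV.mul {a b : ↥PG × Equiv.Perm (Fin DS.N)} (ha : IV a) (hb : IV b) : IV (a * b) := by
  refine ⟨?_, fun x hx => ?_⟩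
  · show a.2 (b.2 z64) = z64
    rw [hb.y0, ha.y0]
  · show (a.1 : Equiv.Perm (Fin D.N)) ((b.1 : Equiv.Perm (Fin D.N)) (bpF x)) = bpF (a.2 (b.2 x))
    rw [hb.bp x hx, ha.bp _ (ne_zero_of_y0 hb.y0 hx)]

theorem IV.inv {a : ↥PG × Equiv.Perm (Fin DS.N)} (ha : IV a) : IV a⁻¹ := by
  have h0 : a.2⁻¹ z64 = z64 := by
    rw [Equiv.Perm.inv_eq_iff_eq]
    exact ha.y0.symm
  refine ⟨h0, fun x hx => ?_⟩
  show (a.1 : Equiv.Perm (Fin D.N))⁻¹ (bpF x) = bpF (a.2⁻¹ x)
  rw [Equiv.Perm.inv_eq_iff_eq, ha.bp _ (ne_zero_of_y0 h0 hx)]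
  congr 1
  simp

/-- The pairs of generators. -/
noncomputable def dd (i : ℕ) : ↥PG × Equiv.Perm (Fin DS.N) := (sT i, gP i)

/-- The group of pairs. -/
noncomputable abbrev DD : Subgroup (↥PG × Equiv.Perm (Fin DS.N)) := Subgroup.closure (dd '' Set.Iio 2)

theorem IV_dd {i : ℕ} (hi : i < 2) : IV (dd i) := by
  have h := gen_chk
  rw [List.all_eq_true] at h
  have key : ∀ x : Fin DS.N, (x : ℕ) ≠ 0 → Nat.beq (D.apW cL waL (bp x)) (bp (DS.ap Cfsg.Agent.Lib.Sp6c46.ac x)) = true ∧
      Nat.beq (D.apW cL wbL (bp x)) (bp (DS.ap Cfsg.Agent.Lib.Sp6c46.bc x)) = true := by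
    intro x hx
    have h1 := h x (by
      have : (x : ℕ) < 64 := x.2
      simp [List.mem_range'_1]
      omega)
    simpa using h1
  have hv : ∀ j, j < 2 → ∀ q : Fin D.N, (((sT j : ↥PG) : Equiv.Perm (Fin D.N)) q : ℕ) = D.apW cL (Vw j) q := by
    intro j hj q
    show ((((evW sG (Vw j) : ↥PG) : Equiv.Perm (Fin D.N)) q : Fin D.N) : ℕ) = _
    rw [coe_evW]
    exact Pc.apW_spec hLt _ (fun l hl => by have := Vw_lt j l hl; omega) q
  interval_cases i
  · refine ⟨Fin.ext ac_zero, fun x hx => Fin.ext ?_⟩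
    show (((sT 0 : ↥PG) : Equiv.Perm (Fin D.N)) (bpF x) : ℕ) = bp (aP x)
    rw [hv 0 (by norm_num)]
    exact Nat.eq_of_beq_eq_true (key x hx).1
  · refine ⟨Fin.ext bc_zero, fun x hx => Fin.ext ?_⟩
    show (((sT 1 : ↥PG) : Equiv.Perm (Fin D.N)) (bpF x) : ℕ) = bp (bP x)
    rw [hv 1 (by norm_num)]
    exact Nat.eq_of_beq_eq_true (key x hx).2

theorem IV_all {l : ↥PG × Equiv.Perm (Fin DS.N)} (hl : l ∈ DD) : IV l := by
  induction hl using Subgroup.closure_induction with
  | mem z hz =>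
    obtain ⟨i, hi, rfl⟩ := hz
    exact IV_dd hi
  | one => exact IV.one
  | mul a b _ _ ha hb => exact ha.mul hb
  | inv a _ ha => exact ha.inv

theorem DD_fst {l : ↥PG × Equiv.Perm (Fin DS.N)} (hl : l ∈ DD) : l.1 ∈ AA := by
  induction hl using Subgroup.closure_induction with
  | mem z hz =>
    obtain ⟨i, hi, rfl⟩ := hz
    exact sT_mem i
  | one => exact AA.one_mem
  | mul a b _ _ ha hb => exact AA.mul_mem ha hb
  | inv a _ ha => exact AA.inv_mem ha

theorem DD_snd {l : ↥PG × Equiv.Perm (Fin DS.N)} (hl : l ∈ DD) : l.2 ∈ PS := by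
  induction hl using Subgroup.closure_induction with
  | mem z hz =>
    obtain ⟨i, hi, rfl⟩ := hz
    exact gP_mem i
  | one => exact PS.one_mem
  | mul a b _ _ ha hb => exact PS.mul_mem ha hb
  | inv a _ ha => exact PS.inv_mem ha

/-- The projection to the subgroup. -/
noncomputable def P1 : ↥DD →* ↥AA :=
  MonoidHom.codRestrict ((MonoidHom.fst _ _).comp DD.subtype) AA fun l => DD_fst l.2

/-- The projection to the natural representation. -/
noncomputable def P2 : ↥DD →* ↥PS :=
  MonoidHom.codRestrict ((MonoidHom.snd _ _).comp DD.subtype) PS fun l => DD_snd l.2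

theorem P1_inj : Function.Injective P1 := by
  rw [injective_iff_map_eq_one]
  intro l hl
  have h1 : (l : ↥PG × Equiv.Perm (Fin DS.N)).1 = 1 := congrArg Subtype.val hl
  have hI := IV_all l.2
  apply Subtype.ext
  refine Prod.ext h1 ?_
  ext x
  show (((l : ↥PG × Equiv.Perm (Fin DS.N)).2 x : Fin DS.N) : ℕ) = x
  by_cases hx : (x : ℕ) = 0
  · have e : x = z64 := Fin.ext hx
    rw [e, hI.y0]
  · have h2 := hI.bp x hx
    rw [h1] at h2
    have h3 : bp x = bp ((l : ↥PG × Equiv.Perm (Fin DS.N)).2 x) := congrArg Fin.val h2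
    exact (bp_inj x.2 (Fin.is_lt _) hx (ne_zero_of_y0 hI.y0 hx) h3).symm

theorem P2_surj : Function.Surjective P2 := by
  have h : P2.range = ⊤ := by
    rw [eq_top_iff, ← sS_gen, Subgroup.closure_le]
    rintro _ ⟨i, hi, rfl⟩
    exact ⟨⟨dd i, Subgroup.subset_closure ⟨i, hi, rfl⟩⟩, rfl⟩
  exact MonoidHom.range_eq_top.mp h

instance : Finite ↥PG := inferInstance

theorem cards : Nat.card ↥AA = 1451520 ∧ Nat.card ↥DD = 1451520 ∧ Nat.card ↥PG = 9196830720 := by
  have h1 := Nat.card_le_card_of_surjective P2 P2_surj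
  have h2 := Nat.card_le_card_of_injective P1 P1_inj
  have h3 := card_AA_le
  have h4 := card_PG_le
  rw [card_PS] at h1
  refine ⟨by omega, by omega, by omega⟩

theorem card_AA : Nat.card ↥AA = 1451520 := cards.1
theorem card_DD : Nat.card ↥DD = 1451520 := cards.2.1
theorem card_PG : Nat.card ↥PG = 9196830720 := cards.2.2

theorem P1_bij : Function.Bijective P1 :=
  P1_inj.bijective_of_nat_card_le (by rw [card_AA, card_DD])

theorem P2_bij : Function.Bijective P2 :=
  P2_surj.bijective_of_nat_card_le (by rw [card_PS, card_DD])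

/-- The subgroup is the symplectic group. -/
noncomputable def eA : ↥AA ≃* ↥PS := (MulEquiv.ofBijective P1 P1_bij).symm.trans (MulEquiv.ofBijective P2 P2_bij)

/-- The generators as elements of the subgroup. -/
noncomputable def sTA (i : ℕ) : ↥AA := ⟨sT i, sT_mem i⟩

theorem eA_sTA (i : ℕ) : eA (sTA i) = sS i := by
  by_cases hi : i < 2
  · have e : sTA i = P1 ⟨dd i, Subgroup.subset_closure ⟨i, hi, rfl⟩⟩ := rfl
    rw [e, eA]
    simp only [MulEquiv.trans_apply]
    have e2 : (MulEquiv.ofBijective P1 P1_bij).symm (P1 ⟨dd i, Subgroup.subset_closure ⟨i, hi, rfl⟩⟩) =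
        ⟨dd i, Subgroup.subset_closure ⟨i, hi, rfl⟩⟩ := by
      rw [MulEquiv.symm_apply_eq]
      rfl
    rw [e2]
    rfl
  · have e0 : Vw i = [] := by
      rw [Vw, List.getD_eq_default]
      simp
      omega
    have e1 : sTA i = 1 := by
      apply Subtype.ext
      show evW sG (Vw i) = 1
      rw [e0]
      rfl
    rw [e1, map_one]
    exact (Cfsg.Agent.Lib.U6Sp646.sS_two i (by omega)).symm

theorem wt_chk : isIdB (expW Vw Cfsg.Agent.Lib.U6Sp6Data46.wt ++ [1]) = true := by decide +kernel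

theorem evW_sT_wt : evW sT Cfsg.Agent.Lib.U6Sp6Data46.wt = sG 0 := by
  have h := evW_one_of_base wt_chk
  rw [evW_append, evW_expW] at h
  have e : evW sG [1] = (sG 0)⁻¹ := by
    simp only [evW, mul_one]
    exact lett_odd sG 0
  rw [e, mul_inv_eq_one] at h
  exact h

/-- The first generator lies in the subgroup. -/
theorem sG0_mem : sG 0 ∈ AA := gens_mem (by norm_num)

theorem eA_t0 : eA ⟨sG 0, sG0_mem⟩ = evW sS Cfsg.Agent.Lib.U6Sp6Data46.wt := by
  have e : (⟨sG 0, sG0_mem⟩ : ↥AA) = evW sTA Cfsg.Agent.Lib.U6Sp6Data46.wt := by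
    apply Subtype.ext
    have h1 := map_evW AA.subtype sTA Cfsg.Agent.Lib.U6Sp6Data46.wt
    show sG 0 = AA.subtype (evW sTA Cfsg.Agent.Lib.U6Sp6Data46.wt)
    rw [h1]
    exact evW_sT_wt.symm
  rw [e]
  have h2 := map_evW eA.toMonoidHom sTA Cfsg.Agent.Lib.U6Sp6Data46.wt
  have e3 : (fun i => eA.toMonoidHom (sTA i)) = sS := funext eA_sTA
  rw [e3] at h2
  exact h2

theorem perfAA : commutator ↥AA = ⊤ := by
  have h1 := sp6RS.perf1
  have h2 : (commutator ↥PS).map eA.symm.toMonoidHom = commutator ↥AA := by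
    rw [_root_.commutator_def, _root_.commutator_def, Subgroup.map_commutator,
      Subgroup.map_top_of_surjective _ eA.symm.surjective]
  rw [← h2, h1]
  exact Subgroup.map_top_of_surjective _ eA.symm.surjective

/-! ### Elements of prime order -/

theorem ord_chk : isIdB (waL ++ waL ++ waL ++ waL ++ waL) && isIdB (wbL ++ wbL ++ wbL ++ wbL ++ wbL ++ wbL ++ wbL) &&
    isIdB (w11L ++ w11L ++ w11L ++ w11L ++ w11L ++ w11L ++ w11L ++ w11L ++ w11L ++ w11L ++ w11L) = true := by decide +kernel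

theorem ne_chk : (!Nat.beq (D.apW cL waL 0) 0 && !Nat.beq (D.apW cL wbL 0) 0 && !Nat.beq (D.apW cL w11L 0) 0) = true := by
  decide +kernel

end Cfsg.Agent.Lib.U6Main46
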