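import Mathlib
import Cfsg.Agent.Lib.U6CovD46
import Cfsg.Agent.Lib.U6Main46

/-!
# The checks of the covering group of the unitary group in dimension six over the field with four elements
-/

set_option autoImplicit false
set_option maxRecDepth 100000
set_option Elab.async false

namespace Cfsg.Agent.Lib.U6CovC46

open Cfsg.Agent.Lib.PermCode46 Cfsg.Agent.Lib.U6Data46 Cfsg.Agent.Lib.U6CovD46 Cfsg.Agent.Lib.U6Main46 Cfsg.Agent.Lib.U6BrD46
open Cfsg.Agent.Lib.SchurCoset46 (lett evW)

theorem validZ : Dd.validC zc zc = true := by decide +kernel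
theorem valid_lacA : Dd.validC lacA laicA = true := by decide +kernel
theorem valid_lbcA : Dd.validC lbcA lbicA = true := by decide +kernel
theorem valid_lacB : Dd.validC lacB laicB = true := by decide +kernel
theorem valid_lbcB : Dd.validC lbcB lbicB = true := by decide +kernel
theorem zChk_ok : zChk = true := by decide +kernel
theorem comm_aA : commChk lacA = true := by decide +kernel
theorem comm_bA : commChk lbcA = true := by decide +kernel
theorem comm_aB : commChk lacB = true := by decide +kernel
theorem comm_bB : commChk lbcB = true := by decide +kernel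
theorem blk_aA : blkChk Hw0 lacA = true := by decide +kernel
theorem blk_bA : blkChk Hw1 lbcA = true := by decide +kernel
theorem blk_aB : blkChk Hw0 lacB = true := by decide +kernel
theorem blk_bB : blkChk Hw1 lbcB = true := by decide +kernel
theorem lst_A : lstChk rowA lstA = true := by decide +kernel
theorem lst_B : lstChk rowB lstB = true := by decide +kernel
theorem adj_aA : adjChk rowA lstA lacA = true := by decide +kernel
theorem adj_bA : adjChk rowA lstA lbcA = true := by decide +kernel
theorem adj_aB : adjChk rowB lstB lacB = true := by decide +kernel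
theorem adj_bB : adjChk rowB lstB lbcB = true := by decide +kernel
theorem tree_A : treeChk rowA tpA trA = true := by decide +kernel
theorem tree_B : treeChk rowB tpB trB = true := by decide +kernel
theorem ord_aA : Dd.isIdW cLlA [1, 1, 1, 1, 1, 1, 1] = true := by decide +kernel
theorem ord_bA : Dd.isIdW cLlA [3, 3, 3, 3, 3, 3, 3] = true := by decide +kernel
theorem ord_aB : Dd.isIdW cLlB [1, 1, 1, 1, 1, 1, 1] = true := by decide +kernel
theorem ord_bB : Dd.isIdW cLlB [3, 3, 3, 3, 3, 3, 3] = true := by decide +kernel
theorem ord_H : isIdB (Hw0 ++ Hw0 ++ Hw0 ++ Hw0 ++ Hw0 ++ Hw0 ++ Hw0) && isIdB (Hw1 ++ Hw1 ++ Hw1 ++ Hw1 ++ Hw1 ++ Hw1 ++ Hw1) = true := by decide +kernel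
theorem wordT_ok : (List.range 8).all (fun i => isIdB (expW Hv (wordT.getD i []) ++ [2 * i + 1]) && (wordT.getD i []).all (fun l => Nat.blt l 4)) = true := by decide +kernel
theorem z1_G : isIdB (expW Hv wz1) = true := by decide +kernel
theorem z2_G : isIdB (expW Hv wz2) = true := by decide +kernel
theorem z3_G : isIdB (expW Hv wz3) = true := by decide +kernel
theorem z1_vals : Dd.apW cLlA wz1 0 = 1 ∧ Dd.apW cLlB wz1 0 = 0 := by decide +kernel
theorem z2_vals : Dd.apW cLlA wz2 0 = 0 ∧ Dd.apW cLlB wz2 0 = 1 := by decide +kernel
theorem z_lt : (wz1.all fun l => Nat.blt l 4) && (wz2.all fun l => Nat.blt l 4) && (wz3.all fun l => Nat.blt l 4) = true := by decide +kernel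

/-- The action of a word on the codes of vectors. -/
noncomputable def apTw : List ℕ → ℕ → ℕ
  | [], n => n
  | l :: w, n => apT (vc (Nat.div l 2)) (apTw w n)

theorem z3_val : apTw (expW Ew wz3) 1 = 2 := by decide +kernel
theorem Ew_lt : (expW Ew wz3).all (fun l => Nat.blt l 16) = true := by decide +kernel

end Cfsg.Agent.Lib.U6CovC46
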