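import Mathlib
import Cfsg.Agent.Lib.U6Main46
import Cfsg.Agent.Lib.U6Chk346
import Cfsg.Agent.Lib.U6Chk446

/-!
# The upper bound for the multiplier of the unitary group in dimension six over the field with four elements
-/

set_option autoImplicit false
set_option maxRecDepth 100000
set_option Elab.async false

namespace Cfsg.Agent.Lib.U6Upper46

open Cfsg Cfsg.Agent.Lib.SchurCoset46 Cfsg.Agent.Lib.SchurTower46 Cfsg.Agent.Lib.PermCode46 Cfsg.Agent.Lib.U6Coset46
  Cfsg.Agent.Lib.U6Forms46 Cfsg.Agent.Lib.U6Gen46 Cfsg.Agent.Lib.O8Gen46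
  Cfsg.Agent.Lib.U6Data46 Cfsg.Agent.Lib.U6BrD46 Cfsg.Agent.Lib.U6Bridge46 Cfsg.Agent.Lib.U6Words46
  Cfsg.Agent.Lib.U6Main46
open Cfsg.Agent.Lib.U6Sp646 (PS sS sp6RS card_PS bound2)
open Cfsg.Agent.Lib.SchurGolayTab46 (pow_of_element)
open scoped commutatorElement Pointwise

universe u

/-! ### Lemmas on central extensions -/

section Lemmas

variable {Γ : Type*} [Group Γ]

/-- A commutator with a central power of an element. -/
theorem comm_pow {a b : Γ} (hc : ⁅a, b⁆ ∈ Subgroup.center Γ) {n : ℕ} (hn : a ^ n ∈ Subgroup.center Γ) : ⁅a, b⁆ ^ n = 1 := by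
  set c := ⁅a, b⁆ with hcd
  have hcc : ∀ g : Γ, g * c = c * g := Subgroup.mem_center_iff.mp hc
  have h1 : a * b = c * b * a := by
    rw [hcd, commutatorElement_def]
    group
  have h2 : ∀ m : ℕ, a ^ m * b = c ^ m * b * a ^ m := by
    intro m
    induction m with
    | zero => simp
    | succ m ih =>
      calc a ^ (m + 1) * b = a ^ m * (a * b) := by simp only [pow_succ, mul_assoc]
        _ = a ^ m * (c * b * a) := by rw [h1]
        _ = (a ^ m * c) * b * a := by simp only [mul_assoc]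
        _ = (c * a ^ m) * b * a := by rw [hcc]
        _ = c * (a ^ m * b) * a := by simp only [mul_assoc]
        _ = c * (c ^ m * b * a ^ m) * a := by rw [ih]
        _ = c ^ (m + 1) * b * a ^ (m + 1) := by
          rw [pow_succ' c, pow_succ a]
          simp only [mul_assoc]
  have h3 := h2 n
  have h4 : a ^ n * b = b * a ^ n := (Subgroup.mem_center_iff.mp hn b).symm
  rw [h4] at h3
  have h5 : b = c ^ n * b := mul_right_cancel h3
  have h6 : c ^ n * b * b⁻¹ = b * b⁻¹ := by rw [← h5]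
  simpa using h6

/-- The lemma on commutators of elements of order four. -/
theorem q8 {a b c k₁ k₂ : Γ} (hc : c = ⁅a, b⁆) (h1 : c = a ^ 2 * k₁) (h2 : c = b ^ 2 * k₂) (hk₁ : k₁ ∈ Subgroup.center Γ)
    (hk₂ : k₂ ∈ Subgroup.center Γ) : c ^ 2 = 1 := by
  have cen1 : ∀ g : Γ, g * k₁ = k₁ * g := Subgroup.mem_center_iff.mp hk₁
  have cen2 : ∀ g : Γ, g * k₂ = k₂ * g := Subgroup.mem_center_iff.mp hk₂
  have hca : a * c = c * a := by
    rw [h1, pow_two]
    calc a * (a * a * k₁) = a * a * (a * k₁) := by group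
      _ = a * a * (k₁ * a) := by rw [cen1]
      _ = a * a * k₁ * a := by group
  have hcb : b * c = c * b := by
    rw [h2, pow_two]
    calc b * (b * b * k₂) = b * b * (b * k₂) := by group
      _ = b * b * (k₂ * b) := by rw [cen2]
      _ = b * b * k₂ * b := by group
  have hab : a * b = c * b * a := by
    rw [hc, commutatorElement_def]
    group
  have e1 : a ^ 2 * b = c ^ 2 * b * a ^ 2 := by
    rw [pow_two, pow_two]
    calc a * a * b = a * (a * b) := by group
      _ = a * (c * b * a) := by rw [hab]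
      _ = (a * c) * b * a := by group
      _ = c * (a * b) * a := by rw [hca]; group
      _ = c * (c * b * a) * a := by rw [hab]
      _ = c * c * b * (a * a) := by group
  have e2 : a ^ 2 = c * k₁⁻¹ := by rw [h1]; group
  have e3 : c * k₁⁻¹ * b = c ^ 2 * b * (c * k₁⁻¹) := by
    rw [← e2]
    exact e1
  have cen3 : ∀ g : Γ, g * k₁⁻¹ = k₁⁻¹ * g := Subgroup.mem_center_iff.mp (Subgroup.inv_mem _ hk₁)
  have e4 : c * k₁⁻¹ * b = c * b * k₁⁻¹ := by
    rw [mul_assoc, ← cen3, mul_assoc]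
  have e5 : c ^ 2 * b * (c * k₁⁻¹) = c ^ 2 * (b * c) * k₁⁻¹ := by group
  rw [e4, e5, hcb] at e3
  have e6 : c * b = c ^ 2 * (c * b) := mul_right_cancel e3
  exact (mul_right_cancel ((one_mul _).trans e6)).symm

/-- Commutators do not depend on central changes. -/
theorem comm_indep {W : Type*} [Group W] {σ : Γ →* W} (hc : σ.ker ≤ Subgroup.center Γ) {x y : ℕ → Γ} (hxy : ∀ i, σ (x i) = σ (y i))
    (u v : List ℕ) : evW x (commW u v) = evW y (commW u v) := by
  have hf : (fun i => σ (x i)) = fun i => σ (y i) := funext hxy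
  have h : ∀ w, (evW y w)⁻¹ * evW x w ∈ σ.ker := by
    intro w
    rw [MonoidHom.mem_ker, map_mul, map_inv, map_evW, map_evW, hf, inv_mul_cancel]
  have e : ∀ w, evW x w = evW y w * ((evW y w)⁻¹ * evW x w) := by
    intro w
    group
  rw [evW_commW, evW_commW, e u, e v]
  exact commutatorElement_central _ _ _ _ (hc (h u)) (hc (h v))

/-- From generation up to powers. -/
theorem iter_pow {K : Type*} [CommGroup K] (D : Subgroup K) {E : ℕ} (h : ∀ k : K, ∃ d ∈ D, ∃ l, k = d * l ^ E) :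
    ∀ (j : ℕ) (k : K), ∃ d ∈ D, ∃ l, k = d * l ^ (E ^ j) := by
  intro j
  induction j with
  | zero =>
    intro k
    exact ⟨1, D.one_mem, k, by simp⟩
  | succ j ih =>
    intro k
    obtain ⟨d, hd, l, rfl⟩ := ih k
    obtain ⟨d', hd', l', rfl⟩ := h l
    refine ⟨d * d' ^ (E ^ j), D.mul_mem hd (D.pow_mem hd' _), l', ?_⟩
    rw [mul_pow, ← pow_mul l', pow_succ, mul_assoc, mul_comm (E ^ j) E, mul_comm E]

/-- A subgroup is everything if it generates up to cubes and fourth powers. -/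
theorem quot_trivial {K : Type*} [CommGroup K] (D : Subgroup K) (h3 : ∀ k : K, ∃ d ∈ D, ∃ l, k = d * l ^ 3)
    (h4 : ∀ k : K, ∃ d ∈ D, ∃ l, k = d * l ^ 4) (hexp : ∀ k : K, k ^ 23887872 = 1) (k : K) : k ∈ D := by
  obtain ⟨d, hd, l, rfl⟩ := iter_pow D h3 6 k
  obtain ⟨d', hd', l', rfl⟩ := iter_pow D h4 8 l
  refine D.mul_mem hd ?_
  rw [mul_pow]
  refine D.mul_mem (D.pow_mem hd' _) ?_
  have e : ((l' ^ (4 ^ 8)) ^ (3 ^ 6)) = (l' ^ 23887872) ^ 2 := by
    rw [← pow_mul, ← pow_mul]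
    norm_num
  rw [e, hexp, one_pow]
  exact D.one_mem

/-- Composition of a stem extension with an isomorphism. -/
theorem stem_comp_equiv {G H : Type*} [Group G] [Group H] {φ : Γ →* G} (hφ : IsStemExtension φ) (e : G ≃* H) :
    IsStemExtension (e.toMonoidHom.comp φ) := by
  have hk : (e.toMonoidHom.comp φ).ker = φ.ker := by
    ext y
    simp [MonoidHom.mem_ker]
  refine ⟨e.surjective.comp hφ.1, ?_, ?_⟩
  · rw [hk]
    exact hφ.2.1
  · rw [hk]
    exact hφ.2.2

end Lemmas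

/-! ### The certificates -/

/-- The kernel is generated by given relators up to a power, from a certificate. -/
theorem mem_map_of_cert {Γ X : Type*} {G : Type*} [Group Γ] [Group G] [MulAction G X] {σ : Γ →* G}
    (hσ : IsStemExtension σ) {Ht : Subgroup Γ} {x0 : X} (hHt : ∀ y, y ∈ Ht ↔ σ y • x0 = x0)
    (ρ : Ht →* σ.ker) (hρ : ∀ k (hk : k ∈ σ.ker) (h : k ∈ Ht), ρ ⟨k, h⟩ = ⟨k, hk⟩)
    {B : Type*} [CommGroup B] (ψ : σ.ker →* B)
    {F : Type} (C : CertP F) (hV : ∀ v, v < C.NV → C.varChk v = true) (hP : C.paramsChk = true)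
    {ev : (ℕ → B) → F → B} (hev : C.EvOK ev)
    (hT : Tab C.n C.m C.T C.par) (hm : 0 < C.m) {mask : ℕ → X} (hm0 : mask 0 = x0)
    (hminj : ∀ c, c < C.n → ∀ c', c' < C.n → mask c = mask c' → c = c')
    {s : ℕ → G} (hms : ∀ c, c < C.n → ∀ i, i < C.m → s i • mask (C.T c (2 * i)) = mask c)
    (hgen : Subgroup.closure (s '' Set.Iio C.m) = ⊤)
    {x : ℕ → Γ} (hx : ∀ i, σ (x i) = s i)
    (hrels : ∀ j, j < C.R → ∀ l ∈ C.rels j, l < 2 * C.m)
    (hrel : ∀ j, j < C.R → evW s (C.rels j) = 1)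
    (hnorm : ∀ j, j < C.R → C.normal j = true → evW x (C.rels j) = 1)
    (D : Subgroup σ.ker)
    (hD : ∀ p, p < C.P0 → ∃ j, C.params p = C.n * C.m + j ∧ j < C.R ∧ ∃ h : evW x (C.rels j) ∈ σ.ker, (⟨evW x (C.rels j), h⟩ : σ.ker) ∈ D)
    (k : σ.ker) : ψ k ∈ D.map ψ := by
  obtain ⟨z, hz1, -, hz3⟩ := ker_closure_of_cert hσ hHt ρ hρ ψ C hV hP hev hT hm hm0 hminj hms hgen hx hrels hrel hnorm
  have h1 : Subgroup.closure (z '' Set.Iio C.P0) ≤ D.map ψ := by
    rw [Subgroup.closure_le]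
    rintro _ ⟨p, hp, rfl⟩
    obtain ⟨j, h2, h3, h4, h5⟩ := hD p hp
    rw [hz1 p j h2 h3 h4]
    exact ⟨_, h5, rfl⟩
  exact h1 (hz3 k)

/-- The consequence of the certificate in terms of powers. -/
theorem pow_of_map {K : Type*} [CommGroup K] (D : Subgroup K) (E : ℕ)
    (h : ∀ k : K, QuotientGroup.mk' (powMonoidHom E : K →* K).range k ∈ D.map (QuotientGroup.mk' (powMonoidHom E : K →* K).range)) :
    ∀ k : K, ∃ d ∈ D, ∃ l, k = d * l ^ E := by
  intro k
  obtain ⟨d, hd, he⟩ := h k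
  refine ⟨d, hd, ?_⟩
  have h1 : d⁻¹ * k ∈ (powMonoidHom E : K →* K).range := (QuotientGroup.eq).mp he
  obtain ⟨l, hl⟩ := h1
  refine ⟨l, ?_⟩
  have hl' : l ^ E = d⁻¹ * k := hl
  rw [hl']
  group

theorem quot_exp {K : Type*} [CommGroup K] (E : ℕ) (b : K ⧸ (powMonoidHom E : K →* K).range) : b ^ E = 1 := by
  induction b using QuotientGroup.induction_on with
  | H k =>
    rw [← QuotientGroup.mk_pow, QuotientGroup.eq_one_iff]
    exact ⟨k, rfl⟩

/-! ### The bound -/

section Bound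

variable {Γ : Type u} [Group Γ] [Finite Γ] (σ : Γ →* ↥PG) (hσ : IsStemExtension σ)

/-- The restriction to the preimage of a subgroup. -/
noncomputable abbrev τP (H : Subgroup ↥PG) : (H.comap σ) →* ↥H := σ.subgroupComap H

theorem ker_le_center (hσ : IsStemExtension σ) (H : Subgroup ↥PG) : (τP σ H).ker ≤ Subgroup.center (H.comap σ) := by
  intro y hy
  have h1 : σ y.1 = 1 := congrArg Subtype.val (MonoidHom.mem_ker.mp hy)
  rw [Subgroup.mem_center_iff]
  intro z
  apply Subtype.ext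
  exact (Subgroup.mem_center_iff.mp (hσ.2.1 h1)) z.1

/-- The exponent of the kernel. -/
theorem exp_ker (hσ : IsStemExtension σ) {k : Γ} (hk : k ∈ σ.ker) : k ^ 23887872 = 1 := by
  have hc := card_PG
  have ho := ord_chk
  have hn := ne_chk
  simp only [Bool.and_eq_true, Bool.not_eq_true'] at ho hn
  have hw : ∀ (w : List ℕ) (n : ℕ), isIdB (List.flatten (List.replicate n w)) = true → (evW sG w) ^ n = 1 := by
    intro w n h
    have h1 := evW_one_of_base h
    have h2 : ∀ n, evW sG (List.flatten (List.replicate n w)) = (evW sG w) ^ n := by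
      intro n
      induction n with
      | zero => rfl
      | succ n ih =>
        rw [List.replicate_succ, List.flatten_cons, evW_append, ih, pow_succ']
    rwa [h2] at h1
  have hne : ∀ w : List ℕ, (∀ l ∈ w, l < 2 * 8) → Nat.beq (D.apW cL w 0) 0 = false → evW sG w ≠ 1 := by
    intro w hl h1 h2
    have h3 := Pc.apW_spec hLt w hl (⟨0, by decide⟩ : Fin D.N)
    rw [← coe_evW, h2] at h3
    have h4 : D.apW cL w 0 = 0 := h3.symm
    rw [h4] at h1
    exact absurd h1 (by simp)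
  have p5 : (evW sG waL) ^ 5 = 1 := hw waL 5 (by
    have e : List.flatten (List.replicate 5 waL) = waL ++ waL ++ waL ++ waL ++ waL := by
      simp [List.replicate_succ, List.append_assoc]
    rw [e]
    exact ho.1.1)
  have p7 : (evW sG wbL) ^ 7 = 1 := hw wbL 7 (by
    have e : List.flatten (List.replicate 7 wbL) = wbL ++ wbL ++ wbL ++ wbL ++ wbL ++ wbL ++ wbL := by
      simp [List.replicate_succ, List.append_assoc]
    rw [e]
    exact ho.1.2)
  have p11 : (evW sG w11L) ^ 11 = 1 := hw w11L 11 (by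
    have e : List.flatten (List.replicate 11 w11L) = w11L ++ w11L ++ w11L ++ w11L ++ w11L ++ w11L ++ w11L ++ w11L ++ w11L ++ w11L ++ w11L := by
      simp [List.replicate_succ, List.append_assoc]
    rw [e]
    exact ho.2)
  have n5 := hne waL (by decide +kernel) hn.1.1
  have n7 := hne wbL (by decide +kernel) hn.1.2
  have n11 := hne w11L (by decide +kernel) hn.2
  have h5 : k ^ 1839366144 = 1 := by
    have : Fact (Nat.Prime 5) := ⟨by norm_num⟩
    exact pow_of_element hσ (p := 5) p5 n5 (by rw [hc]) hk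
  have h7 : k ^ 1313832960 = 1 := by
    have : Fact (Nat.Prime 7) := ⟨by norm_num⟩
    exact pow_of_element hσ (p := 7) p7 n7 (by rw [hc]) hk
  have h11 : k ^ 836075520 = 1 := by
    have : Fact (Nat.Prime 11) := ⟨by norm_num⟩
    exact pow_of_element hσ (p := 11) p11 n11 (by rw [hc]) hk
  have h3 := pow_gcd_eq_one.mpr ⟨h5, h7⟩
  have h4 := pow_gcd_eq_one.mpr ⟨h3, h11⟩
  have e : Nat.gcd (Nat.gcd 1839366144 1313832960) 836075520 = 23887872 := by norm_num
  rwa [e] at h4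

/-- The lifts of the generators. -/
noncomputable def yL (i : ℕ) : Γ := Classical.choose (hσ.1 (sG i))

theorem yL_spec (i : ℕ) : σ (yL σ hσ i) = sG i := Classical.choose_spec (hσ.1 (sG i))

/-- The canonical lifts of the generators. -/
noncomputable def xL (i : ℕ) : Γ := evW (yL σ hσ) (commW (wAL.getD i []) (wBL.getD i []))

theorem map_words (w : List ℕ) : σ (evW (yL σ hσ) w) = evW sG w := by
  rw [map_evW]
  congr 1
  exact funext (yL_spec σ hσ)

theorem comm_eq {i : ℕ} (hi : i < 8) : evW sG (commW (wAL.getD i []) (wBL.getD i [])) = sG i := by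
  have h1 := rel_comm
  rw [List.all_eq_true] at h1
  have h2 := of_decide_eq_true (h1 i (List.mem_range.mpr hi))
  have h3 := rels_one (j := i) (by omega)
  rw [h2, evW_append] at h3
  have e : evW sG [2 * i + 1] = (sG i)⁻¹ := by
    simp only [evW, mul_one]
    rw [lett_odd]
  rwa [e, mul_inv_eq_one] at h3

theorem xL_spec (i : ℕ) : σ (xL σ hσ i) = sG i := by
  rw [xL, map_words]
  by_cases hi : i < 8
  · exact comm_eq hi
  · have hA : wAL.getD i [] = [] := by
      rw [List.getD_eq_default]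
      simp [wAL]
      omega
    have hB : wBL.getD i [] = [] := by
      rw [List.getD_eq_default]
      simp [wBL]
      omega
    rw [hA, hB]
    apply Subtype.ext
    show (1 : Equiv.Perm (Fin D.N)) = tP i
    rw [tP, dif_neg hi]

theorem comm_xL (u v : List ℕ) : evW (xL σ hσ) (commW u v) = evW (yL σ hσ) (commW u v) :=
  comm_indep hσ.2.1 (fun i => by rw [xL_spec, yL_spec]) u v

theorem xL_sq {i : ℕ} (hi : i < 8) : (xL σ hσ i) ^ 2 = 1 := by
  have h1 := wQ_chk
  rw [List.all_eq_true] at h1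
  have h2 := h1 i (List.mem_range.mpr hi)
  simp only [Bool.and_eq_true] at h2
  obtain ⟨⟨hA, hB⟩, hT⟩ := h2
  have e0 : sG i * sG i = 1 := by
    have h3 := evW_one_of_base hT
    have e : evW sG [2 * i, 2 * i] = sG i * sG i := by
      simp only [evW, mul_one]
      rw [lett_even]
    rwa [e] at h3
  have key : ∀ w : List ℕ, isIdB (w ++ w ++ [2 * i]) = true → ((evW (yL σ hσ) w) ^ 2)⁻¹ * xL σ hσ i ∈ σ.ker := by
    intro w hw
    have h3 := evW_one_of_base hw
    have e : evW sG [2 * i] = sG i := by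
      simp only [evW, mul_one]
      rw [lett_even]
    rw [evW_append, evW_append, e] at h3
    rw [MonoidHom.mem_ker, map_mul, map_inv, map_pow, map_words, xL_spec, pow_two]
    rw [inv_eq_of_mul_eq_one_right h3]
    exact e0
  have hk1 := key _ hA
  have hk2 := key _ hB
  refine q8 (a := evW (yL σ hσ) (wAL.getD i [])) (b := evW (yL σ hσ) (wBL.getD i [])) (k₁ := ((evW (yL σ hσ) (wAL.getD i [])) ^ 2)⁻¹ * xL σ hσ i)
    (k₂ := ((evW (yL σ hσ) (wBL.getD i [])) ^ 2)⁻¹ * xL σ hσ i) ?_ ?_ ?_ (hσ.2.1 hk1) (hσ.2.1 hk2)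
  · rw [xL, evW_commW]
  · rw [mul_inv_cancel_left]
  · rw [mul_inv_cancel_left]

theorem rels_norm {j : ℕ} (hj : j < 16) : evW (xL σ hσ) (rels j) = 1 := by
  by_cases h8 : j < 8
  · have h1 := rel_comm
    rw [List.all_eq_true] at h1
    have h2 := of_decide_eq_true (h1 j (List.mem_range.mpr h8))
    rw [h2, evW_append, comm_xL]
    have e : evW (xL σ hσ) [2 * j + 1] = (xL σ hσ j)⁻¹ := by
      simp only [evW, mul_one]
      rw [lett_odd]
    rw [e]
    show xL σ hσ j * _ = 1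
    exact mul_inv_cancel _
  · have h1 := rel_sq
    rw [List.all_eq_true] at h1
    have h2 := of_decide_eq_true (h1 (j - 8) (List.mem_range.mpr (by omega)))
    have e1 : 8 + (j - 8) = j := by omega
    rw [e1] at h2
    rw [h2]
    have e : evW (xL σ hσ) [2 * (j - 8), 2 * (j - 8)] = xL σ hσ (j - 8) * xL σ hσ (j - 8) := by
      simp only [evW, mul_one]
      rw [lett_even]
    rw [e, ← pow_two]
    exact xL_sq σ hσ (by omega)

/-- The image of the relators in the group. -/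
theorem rel_ker {j : ℕ} (hj : j < 293) : evW (xL σ hσ) (rels j) ∈ σ.ker := by
  rw [MonoidHom.mem_ker, map_evW]
  have e : (fun i => σ (xL σ hσ i)) = sG := funext (xL_spec σ hσ)
  rw [e]
  exact rels_one hj

/-- The commutators with central powers of the first entry. -/
theorem comm_rel {u v : List ℕ} {n : ℕ} (hu : evW sG u ^ n = 1) (hr : evW (xL σ hσ) (commW u v) ∈ σ.ker) :
    (evW (xL σ hσ) (commW u v)) ^ n = 1 := by
  rw [evW_commW] at hr ⊢
  refine comm_pow (hσ.2.1 hr) (hσ.2.1 ?_)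
  rw [MonoidHom.mem_ker, map_pow, map_evW]
  have e : (fun i => σ (xL σ hσ i)) = sG := funext (xL_spec σ hσ)
  rw [e, hu]

theorem r1_sq : (evW (xL σ hσ) (rels 291)) ^ 2 = 1 := by
  have hr := rel_ker σ hσ (j := 291) (by norm_num)
  rw [rel_r1] at hr ⊢
  refine comm_rel σ hσ ?_ hr
  have h := evW_one_of_base g1_chk
  rwa [evW_append, ← pow_two] at h

theorem r2_sq : (evW (xL σ hσ) (rels 292)) ^ 2 = 1 := by
  have hr := rel_ker σ hσ (j := 292) (by norm_num)
  rw [rel_r2] at hr ⊢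
  refine comm_rel σ hσ ?_ hr
  have h := evW_one_of_base g2_chk
  rwa [evW_append, ← pow_two] at h

theorem c3_cube : (evW (xL σ hσ) (rels 16)) ^ 3 = 1 := by
  have hr := rel_ker σ hσ (j := 16) (by norm_num)
  rw [rel_W3] at hr ⊢
  refine comm_rel σ hσ ?_ hr
  have h := evW_one_of_base U_chk
  rw [evW_append, evW_append] at h
  rw [pow_succ, pow_two]
  exact h

end Bound

/-- The certificates, for a stem extension with a retraction. -/
theorem span_of_retraction {Γ : Type u} [Group Γ] [Finite Γ] (σ : Γ →* ↥PG) (hσ : IsStemExtension σ)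
    (ρ : (AA.comap σ) →* σ.ker) (hρ : ∀ k (hk : k ∈ σ.ker) (h : k ∈ AA.comap σ), ρ ⟨k, h⟩ = ⟨k, hk⟩)
    {x : ℕ → Γ} (hx : ∀ i, σ (x i) = sG i) (hnorm : ∀ j, j < 16 → evW x (rels j) = 1)
    (Dk : Subgroup σ.ker) (hrk : ∀ j, j < 293 → evW x (rels j) ∈ σ.ker)
    (h16 : (⟨evW x (rels 16), hrk 16 (by norm_num)⟩ : σ.ker) ∈ Dk)
    (h291 : (⟨evW x (rels 291), hrk 291 (by norm_num)⟩ : σ.ker) ∈ Dk)
    (h292 : (⟨evW x (rels 292), hrk 292 (by norm_num)⟩ : σ.ker) ∈ Dk)
    (hexp : ∀ k : σ.ker, k ^ 23887872 = 1) (k : σ.ker) : k ∈ Dk := by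
  let _ : CommGroup σ.ker := { (inferInstance : Group σ.ker) with
    mul_comm := fun a b => Subtype.ext (Subgroup.mem_center_iff.mp (hσ.2.1 b.2) a.1) }
  have hHt : ∀ y, y ∈ AA.comap σ ↔ σ y • mask 0 = mask 0 := fun _ => Iff.rfl
  have hev3 : cert3.EvOK (fun z : ℕ → (σ.ker ⧸ (powMonoidHom 3 : σ.ker →* σ.ker).range) => ev3 cert3.P z) :=
    evOK3 cert3 rfl rfl rfl rfl (quot_exp 3)
  have hev4 : cert4.EvOK (fun z : ℕ → (σ.ker ⧸ (powMonoidHom 4 : σ.ker →* σ.ker).range) => ev4 cert4.P z) :=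
    evOK4 cert4 rfl rfl rfl rfl (quot_exp 4)
  have hm3 := mem_map_of_cert hσ hHt ρ hρ (QuotientGroup.mk' (powMonoidHom 3 : σ.ker →* σ.ker).range) cert3
    Cfsg.Agent.Lib.U6Chk346.vars Cfsg.Agent.Lib.U6Chk346.params
    hev3 tabT (by norm_num [cert3]) rfl mask_inj hms sG_gen hx
    (fun j hj => rels_lt hj) (fun j hj => rels_one hj)
    (fun j hj hb => hnorm j (by simpa [cert3] using hb)) Dk
    (by
      intro p hp
      have hp0 : p = 0 := by
        have : p < 1 := hp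
        omega
      subst hp0
      exact ⟨16, by decide +kernel, by norm_num [cert3], hrk 16 (by norm_num), h16⟩)
  have hm4 := mem_map_of_cert hσ hHt ρ hρ (QuotientGroup.mk' (powMonoidHom 4 : σ.ker →* σ.ker).range) cert4
    Cfsg.Agent.Lib.U6Chk446.vars Cfsg.Agent.Lib.U6Chk446.params
    hev4 tabT (by norm_num [cert4]) rfl mask_inj hms sG_gen hx
    (fun j hj => rels_lt hj) (fun j hj => rels_one hj)
    (fun j hj hb => hnorm j (by simpa [cert4] using hb)) Dk
    (by
      intro p hp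
      have hp0 : p = 0 ∨ p = 1 := by
        have : p < 2 := hp
        omega
      rcases hp0 with rfl | rfl
      · exact ⟨291, by decide +kernel, by norm_num [cert4], hrk 291 (by norm_num), h291⟩
      · exact ⟨292, by decide +kernel, by norm_num [cert4], hrk 292 (by norm_num), h292⟩)
  exact quot_trivial Dk (pow_of_map Dk 3 hm3) (pow_of_map Dk 4 hm4) hexp k

/-- The final count. -/
theorem final_group {K : Type*} [CommGroup K] [Finite K] (r1 r2 c : K) (h1 : r1 ^ 2 = 1) (h2 : r2 ^ 2 = 1) (h3 : c ^ 3 = 1) (z cc : K)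
    (hz : z = cc ^ 2) (hz2 : z ^ 2 = 1)
    (h : ∀ k : K, ∃ d ∈ Subgroup.closure ({r1, r2, c} : Set K), ∃ i : ℤ, k = d * z ^ i) : Nat.card K ≤ 12 := by
  have hform : ∀ d ∈ Subgroup.closure ({r1, r2, c} : Set K), ∃ a b i : ℕ, d = r1 ^ a * r2 ^ b * c ^ i := by
    intro d hd
    induction hd using Subgroup.closure_induction with
    | mem y hy =>
      rcases hy with rfl | hy
      · exact ⟨1, 0, 0, by simp⟩
      · rcases hy with rfl | hy
        · exact ⟨0, 1, 0, by simp⟩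
        · rw [Set.mem_singleton_iff] at hy
          subst hy
          exact ⟨0, 0, 1, by simp⟩
    | one => exact ⟨0, 0, 0, by simp⟩
    | mul x y _ _ hx hy =>
      obtain ⟨a, b, i, rfl⟩ := hx
      obtain ⟨a', b', i', rfl⟩ := hy
      refine ⟨a + a', b + b', i + i', ?_⟩
      simp only [pow_add]
      simp only [mul_assoc, mul_left_comm, mul_comm]
    | inv x _ hx =>
      obtain ⟨a, b, i, rfl⟩ := hx
      refine ⟨a, b, 2 * i, ?_⟩
      have e1 : (r1 ^ a)⁻¹ = r1 ^ a := by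
        rw [inv_eq_iff_mul_eq_one, ← pow_add, ← two_mul, pow_mul, h1, one_pow]
      have e2 : (r2 ^ b)⁻¹ = r2 ^ b := by
        rw [inv_eq_iff_mul_eq_one, ← pow_add, ← two_mul, pow_mul, h2, one_pow]
      have e3 : (c ^ i)⁻¹ = c ^ (2 * i) := by
        rw [inv_eq_iff_mul_eq_one, ← pow_add, show i + 2 * i = 3 * i by ring, pow_mul, h3, one_pow]
      rw [mul_inv, mul_inv, e1, e2, e3]
  have hsix : ∀ d ∈ Subgroup.closure ({r1, r2, c} : Set K), d ^ 6 = 1 := by
    intro d hd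
    obtain ⟨a, b, i, rfl⟩ := hform d hd
    simp only [mul_pow, ← pow_mul]
    have e1 : r1 ^ (a * 6) = 1 := by rw [show a * 6 = 2 * (3 * a) by ring, pow_mul, h1, one_pow]
    have e2 : r2 ^ (b * 6) = 1 := by rw [show b * 6 = 2 * (3 * b) by ring, pow_mul, h2, one_pow]
    have e3 : c ^ (i * 6) = 1 := by rw [show i * 6 = 3 * (2 * i) by ring, pow_mul, h3, one_pow]
    rw [e1, e2, e3, one_mul, one_mul]
  have hz1 : z = 1 := by
    obtain ⟨d, hd, i, he⟩ := h cc
    have h6 : cc ^ 6 = 1 := by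
      rw [he, mul_pow, hsix d hd, one_mul, ← zpow_natCast, ← zpow_mul, mul_comm, zpow_mul]
      have e : z ^ ((6 : ℕ) : ℤ) = 1 := by
        rw [zpow_natCast, show 6 = 2 * 3 by norm_num, pow_mul, hz2, one_pow]
      rw [e, one_zpow]
    have h7 : z ^ 3 = 1 := by
      rw [hz, ← pow_mul]
      exact h6
    calc z = z ^ 3 * (z ^ 2)⁻¹ := by
          rw [pow_succ z 2, mul_comm, ← mul_assoc]
          simp
      _ = 1 := by rw [h7, hz2, inv_one, one_mul]
  let g : Fin 2 × Fin 2 × Fin 3 → K := fun t => r1 ^ (t.1 : ℕ) * r2 ^ (t.2.1 : ℕ) * c ^ (t.2.2 : ℕ)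
  have hg : Function.Surjective g := by
    intro k
    obtain ⟨d, hd, i, he⟩ := h k
    rw [hz1, one_zpow, mul_one] at he
    obtain ⟨a, b, j, rfl⟩ := hform d hd
    refine ⟨(⟨a % 2, Nat.mod_lt _ (by norm_num)⟩, ⟨b % 2, Nat.mod_lt _ (by norm_num)⟩, ⟨j % 3, Nat.mod_lt _ (by norm_num)⟩), ?_⟩
    show r1 ^ (a % 2) * r2 ^ (b % 2) * c ^ (j % 3) = k
    rw [he, pow_eq_pow_mod a h1, pow_eq_pow_mod b h2, pow_eq_pow_mod j h3]
  have h5 := Nat.card_le_card_of_surjective g hg
  simpa using h5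

section Final

variable {Γ : Type u} [Group Γ] [Finite Γ] (σ : Γ →* ↥PG) (hσ : IsStemExtension σ)

include hσ in
/-- The order of the kernel of a stem extension of the group is at most twelve. -/
theorem card_ker_le_twelve : Nat.card σ.ker ≤ 12 := by
  classical
  have hτ : Function.Surjective (τP σ AA) := σ.subgroupComap_surjective_of_surjective AA hσ.1
  have hst := stem_of_commutator perfAA (τP σ AA) hτ (ker_le_center σ hσ AA)
  have hst2 := stem_comp_equiv hst eA
  let f := eA.toMonoidHom.comp ((τP σ AA).comp (commutator ↥(AA.comap σ)).subtype)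
  obtain ⟨yh, hyh⟩ := hst2.1 (evW sS Cfsg.Agent.Lib.U6Sp6Data46.wt)
  have hyτ : τP σ AA (yh : ↥(AA.comap σ)) = ⟨sG 0, sG0_mem⟩ := by
    apply eA.injective
    rw [eA_t0]
    exact hyh
  let yy : Γ := ((yh : ↥(AA.comap σ)) : Γ)
  have hyσ : σ yy = sG 0 := congrArg Subtype.val hyτ
  have hb2 := bound2 f hst2 yh hyh
  obtain ⟨u₀, hu₀, hall₀⟩ := sp6RS.bound card_PS f hst2
  have hb0 : ∀ b : f.ker, b ^ 2 = 1 := by
    intro b
    obtain ⟨i, hi⟩ := Subgroup.mem_zpowers_iff.mp (hall₀ b)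
    rw [← hi, ← zpow_natCast, ← zpow_mul, mul_comm, zpow_mul, zpow_natCast, hu₀, one_zpow]
  have e0 : sG 0 * sG 0 = 1 := by
    have h3 := rels_one (j := 8) (by norm_num)
    have h1 := rel_sq
    rw [List.all_eq_true] at h1
    have h2 := of_decide_eq_true (h1 0 (List.mem_range.mpr (by norm_num)))
    rw [h2] at h3
    have e : evW sG [2 * 0, 2 * 0] = sG 0 * sG 0 := by
      simp only [evW, mul_one]
      rw [lett_even]
    rwa [e] at h3
  have hyk : yh ^ 2 ∈ f.ker := by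
    rw [MonoidHom.mem_ker, map_pow]
    show (eA (τP σ AA (yh : ↥(AA.comap σ)))) ^ 2 = 1
    rw [hyτ, ← map_pow]
    have e : (⟨sG 0, sG0_mem⟩ : ↥AA) ^ 2 = 1 := by
      apply Subtype.ext
      show sG 0 ^ 2 = 1
      rw [pow_two, e0]
    rw [e, map_one]
  have hz2' : (yh ^ 2) ^ 2 = 1 := by
    have h1 := hb0 ⟨yh ^ 2, hyk⟩
    exact congrArg Subtype.val h1
  -- the square of the lift
  let z : Γ := yy ^ 2
  have hz2 : z ^ 2 = 1 := by
    have h1 := congrArg (fun y : ↥(commutator ↥(AA.comap σ)) => ((y : ↥(AA.comap σ)) : Γ)) hz2'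
    exact h1
  have hzk : z ∈ σ.ker := by
    rw [MonoidHom.mem_ker, map_pow, hyσ, pow_two, e0]
  let cc : Γ := yy * (xL σ hσ 0)⁻¹
  have hck : cc ∈ σ.ker := by
    rw [MonoidHom.mem_ker, map_mul, map_inv, hyσ, xL_spec, mul_inv_cancel]
  have hzc : z = cc ^ 2 := by
    have e1 : yy = cc * xL σ hσ 0 := by
      show yy = yy * (xL σ hσ 0)⁻¹ * xL σ hσ 0
      group
    have hcm : Commute cc (xL σ hσ 0) := (Subgroup.mem_center_iff.mp (hσ.2.1 hck) (xL σ hσ 0)).symm
    show yy ^ 2 = _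
    conv_lhs => rw [e1]
    rw [hcm.mul_pow, xL_sq σ hσ (by norm_num), mul_one]
  -- the quotient
  let U : Subgroup Γ := Subgroup.zpowers z
  have hU : U ≤ σ.ker := (Subgroup.zpowers_le).mpr hzk
  have hUc : U ≤ Subgroup.center Γ := hU.trans hσ.2.1
  have : U.Normal := ⟨fun n hn g => by
    rw [Subgroup.mem_center_iff.mp (hUc hn) g, mul_inv_cancel_right]
    exact hn⟩
  have hσ' := quot_stem hσ U hU
  -- the retraction
  let f1 : ↥(AA.comap σ) →* ↥(AA.comap (qσ σ U hU)) :=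
    { toFun := fun y => ⟨(y.1 : Γ ⧸ U), y.2⟩
      map_one' := rfl
      map_mul' := fun _ _ => rfl }
  have hf1 : Function.Surjective f1 := by
    rintro ⟨y, hy⟩
    obtain ⟨w, rfl⟩ := QuotientGroup.mk_surjective y
    exact ⟨⟨w, hy⟩, rfl⟩
  have hm : (commutator ↥(AA.comap σ)).map f1 = commutator ↥(AA.comap (qσ σ U hU)) := by
    rw [_root_.commutator_def, _root_.commutator_def, Subgroup.map_commutator, Subgroup.map_top_of_surjective f1 hf1]
  have hinter : ∀ y ∈ commutator ↥(AA.comap (qσ σ U hU)), y ∈ (τP (qσ σ U hU) AA).ker → y = 1 := by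
    intro y hy hk
    rw [← hm] at hy
    obtain ⟨d, hd, rfl⟩ := hy
    have hσd : σ d.1 = 1 := congrArg Subtype.val (MonoidHom.mem_ker.mp hk)
    have h3 : (⟨d, hd⟩ : ↥(commutator ↥(AA.comap σ))) ∈ f.ker := by
      rw [MonoidHom.mem_ker]
      show eA (τP σ AA d) = 1
      have e : τP σ AA d = 1 := Subtype.ext hσd
      rw [e, map_one]
    obtain ⟨i, hi⟩ := Subgroup.mem_zpowers_iff.mp (hb2 _ h3)
    have h5 : d.1 = z ^ i := by
      have h6 := congrArg (fun y : ↥(commutator ↥(AA.comap σ)) => ((y : ↥(AA.comap σ)) : Γ)) hi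
      exact h6.symm
    apply Subtype.ext
    show (d.1 : Γ ⧸ U) = 1
    rw [h5]
    exact (QuotientGroup.eq_one_iff _).mpr (Subgroup.zpow_mem_zpowers z i)
  obtain ⟨ρ₀, hρ₀⟩ := exists_retraction_of_inter perfAA (τP (qσ σ U hU) AA)
    ((qσ σ U hU).subgroupComap_surjective_of_surjective AA hσ'.1) hinter
  let φ : (τP (qσ σ U hU) AA).ker →* (qσ σ U hU).ker :=
    { toFun := fun y => ⟨y.1.1, congrArg Subtype.val (MonoidHom.mem_ker.mp y.2)⟩
      map_one' := rfl
      map_mul' := fun _ _ => rfl }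
  let ρ : (AA.comap (qσ σ U hU)) →* (qσ σ U hU).ker := φ.comp ρ₀
  have hρ : ∀ k (hk : k ∈ (qσ σ U hU).ker) (h : k ∈ AA.comap (qσ σ U hU)), ρ ⟨k, h⟩ = ⟨k, hk⟩ := by
    intro k h1 h2
    have h3 : (⟨k, h2⟩ : AA.comap (qσ σ U hU)) ∈ (τP (qσ σ U hU) AA).ker := by
      apply Subtype.ext
      exact h1
    show φ (ρ₀ ⟨k, h2⟩) = _
    rw [hρ₀ _ h3]
    rfl
  -- the lifts in the quotient
  let x' : ℕ → Γ ⧸ U := fun i => ((xL σ hσ i : Γ) : Γ ⧸ U)
  have hx' : ∀ i, qσ σ U hU (x' i) = sG i := fun i => xL_spec σ hσ i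
  have hev' : ∀ w, evW x' w = ((evW (xL σ hσ) w : Γ) : Γ ⧸ U) := fun w => (map_evW (QuotientGroup.mk' U) (xL σ hσ) w).symm
  have hnorm' : ∀ j, j < 16 → evW x' (rels j) = 1 := by
    intro j hj
    rw [hev', rels_norm σ hσ hj]
    rfl
  have hrk' : ∀ j, j < 293 → evW x' (rels j) ∈ (qσ σ U hU).ker := by
    intro j hj
    rw [MonoidHom.mem_ker, hev']
    exact rel_ker σ hσ hj
  -- the subgroup
  let R1 : σ.ker := ⟨evW (xL σ hσ) (rels 291), rel_ker σ hσ (by norm_num)⟩
  let R2 : σ.ker := ⟨evW (xL σ hσ) (rels 292), rel_ker σ hσ (by norm_num)⟩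
  let C3 : σ.ker := ⟨evW (xL σ hσ) (rels 16), rel_ker σ hσ (by norm_num)⟩
  let f2 : σ.ker →* (qσ σ U hU).ker :=
    { toFun := fun k => ⟨(k.1 : Γ ⧸ U), k.2⟩
      map_one' := rfl
      map_mul' := fun _ _ => rfl }
  let Dk : Subgroup (qσ σ U hU).ker := (Subgroup.closure ({R1, R2, C3} : Set σ.ker)).map f2
  have hspan := span_of_retraction (qσ σ U hU) hσ' ρ hρ hx' hnorm' Dk hrk'
    ⟨C3, Subgroup.subset_closure (by simp), Subtype.ext (hev' _).symm⟩
    ⟨R1, Subgroup.subset_closure (by simp), Subtype.ext (hev' _).symm⟩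
    ⟨R2, Subgroup.subset_closure (by simp), Subtype.ext (hev' _).symm⟩
    (fun k => Subtype.ext (exp_ker _ hσ' k.2))
  let _ : CommGroup σ.ker := { (inferInstance : Group σ.ker) with
    mul_comm := fun a b => Subtype.ext (Subgroup.mem_center_iff.mp (hσ.2.1 b.2) a.1) }
  refine final_group R1 R2 C3 (Subtype.ext (r1_sq σ hσ)) (Subtype.ext (r2_sq σ hσ)) (Subtype.ext (c3_cube σ hσ))
    ⟨z, hzk⟩ ⟨cc, hck⟩ (Subtype.ext hzc) (Subtype.ext hz2) ?_
  intro k
  obtain ⟨d, hd, he⟩ := hspan (f2 k)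
  refine ⟨d, hd, ?_⟩
  have h1 : ((d : Γ) : Γ ⧸ U) = ((k : Γ) : Γ ⧸ U) := congrArg Subtype.val he
  have h2 := QuotientGroup.eq.mp h1
  obtain ⟨i, hi⟩ := Subgroup.mem_zpowers_iff.mp h2
  refine ⟨i, ?_⟩
  apply Subtype.ext
  show (k : Γ) = (d : Γ) * z ^ i
  rw [hi]
  group

end Final

end Cfsg.Agent.Lib.U6Upper46
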