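import Mathlib
import Cfsg.Agent.Lib.U6Upper46
import Cfsg.Agent.Lib.U6CovC46

/-!
# A stem extension of the unitary group in dimension six over the field with four elements with a kernel of order twelve
-/

set_option autoImplicit false
set_option maxRecDepth 100000
set_option Elab.async false

namespace Cfsg.Agent.Lib.U6Cover46

open Cfsg Cfsg.Agent.Lib.SchurCoset46 Cfsg.Agent.Lib.SchurTower46 Cfsg.Agent.Lib.PermCode46 Cfsg.Agent.Lib.U6Coset46
  Cfsg.Agent.Lib.U6Data46 Cfsg.Agent.Lib.U6BrD46 Cfsg.Agent.Lib.U6Bridge46 Cfsg.Agent.Lib.U6Main46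
  Cfsg.Agent.Lib.U6CovD46 Cfsg.Agent.Lib.U6CovC46 Cfsg.Agent.Lib.U6Mask46
open Cfsg.Agent.Lib.UnitarySU
open scoped Matrix

/-- The points of the cover. -/
abbrev Y : Type := Fin Dd.N

/-- The central element. -/
noncomputable def Zp : Equiv.Perm Y := Dd.permOf zc zc validZ

theorem Zp_val (p : Y) : ((Zp p : Y) : ℕ) = flipL p := by
  have h := zChk_ok
  rw [zChk, List.all_eq_true] at h
  exact Nat.eq_of_beq_eq_true (h _ (List.mem_range.mpr p.2))

theorem flipL_flipL (p : ℕ) : flipL (flipL p) = p := by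
  unfold flipL
  split_ifs <;> omega

theorem Zp_sq : Zp * Zp = 1 := by
  ext p
  show ((Zp (Zp p) : Y) : ℕ) = p
  rw [Zp_val, Zp_val, flipL_flipL]

theorem Zp_ne : Zp ≠ 1 := by
  intro h
  have h1 := Zp_val ⟨0, by decide⟩
  rw [h] at h1
  exact absurd h1 (by decide)

/-- Permutations with the same code are the same. -/
theorem rep_ext {D' : Pc} {g h : Equiv.Perm (Fin D'.N)} {c : ℕ} (h1 : D'.Rep g c) (h2 : D'.Rep h c) : g = h := by
  ext q
  rw [h1, h2]

/-- The point of a block. -/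
def nb (p : Y) : Fin D.N := ⟨(p : ℕ) / 2 + 693, by
  have h : (p : ℕ) < 1344 := p.2
  show (p : ℕ) / 2 + 693 < 1365
  omega⟩

/-- The invariant of an element of the covering group. -/
structure Inv (row : ℕ → ℕ) (l : ↥PG × Equiv.Perm Y) : Prop where
  blk : ∀ p : Y, (l.1 : Equiv.Perm (Fin D.N)) (nb p) = nb (l.2 p)
  adj : ∀ p q : Y, fld (row p) 1 1 q = 1 → fld (row (l.2 p)) 1 1 (l.2 q) = 1
  comm : Commute Zp l.2

section Inv

variable {row : ℕ → ℕ}

theorem Inv.one : Inv row 1 := ⟨fun _ => rfl, fun _ _ h => h, Commute.one_right _⟩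

theorem Inv.mul {a b : ↥PG × Equiv.Perm Y} (ha : Inv row a) (hb : Inv row b) : Inv row (a * b) := by
  refine ⟨fun p => ?_, fun p q h => ?_, ha.comm.mul_right hb.comm⟩
  · show (a.1 : Equiv.Perm (Fin D.N)) ((b.1 : Equiv.Perm (Fin D.N)) (nb p)) = nb (a.2 (b.2 p))
    rw [hb.blk, ha.blk]
  · exact ha.adj _ _ (hb.adj _ _ h)

theorem Inv.pow {a : ↥PG × Equiv.Perm Y} (ha : Inv row a) (n : ℕ) : Inv row (a ^ n) := by
  induction n with
  | zero => rw [pow_zero]; exact Inv.one
  | succ n ih => rw [pow_succ]; exact ih.mul ha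

theorem Inv.inv {a : ↥PG × Equiv.Perm Y} (ha : Inv row a) : Inv row a⁻¹ := by
  have h1 : a⁻¹ = a ^ (orderOf a - 1) := by
    rw [inv_eq_iff_mul_eq_one, ← pow_succ', Nat.sub_add_cancel (orderOf_pos a), pow_orderOf_eq_one]
  rw [h1]
  exact ha.pow _

theorem Hv_lt (i : ℕ) : ∀ l ∈ Hv i, l < 2 * 8 := by
  by_cases h0 : i = 0
  · subst h0
    decide
  · by_cases h1 : i = 1
    · subst h1
      decide
    · have e : Hv i = [] := by
        rw [Hv, List.getD_eq_default]
        simp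
        omega
      rw [e]
      simp

/-- The generators of the group. -/
noncomputable def sH (i : ℕ) : ↥PG := evW sG (Hv i)

theorem sH_val (i : ℕ) (q : Fin D.N) : (((sH i : ↥PG) : Equiv.Perm (Fin D.N)) q : ℕ) = D.apW cL (Hv i) q := by
  show ((((evW sG (Hv i) : ↥PG) : Equiv.Perm (Fin D.N)) q : Fin D.N) : ℕ) = _
  rw [coe_evW]
  exact Pc.apW_spec hLt _ (Hv_lt i) q

/-- The invariant of a generator. -/
theorem inv_of_code {lst : ℕ → ℕ} (i : ℕ) {c d : ℕ} (hv : Dd.validC c d = true) (hblk : blkChk (Hv i) c = true)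
    (hl : lstChk row lst = true) (hadj : adjChk row lst c = true) (hcomm : commChk c = true) :
    Inv row (sH i, Dd.permOf c d hv) := by
  refine ⟨fun p => ?_, fun p q h => ?_, ?_⟩
  · rw [blkChk, List.all_eq_true] at hblk
    have h1 := Nat.eq_of_beq_eq_true (hblk _ (List.mem_range.mpr p.2))
    apply Fin.ext
    show (((sH i : ↥PG) : Equiv.Perm (Fin D.N)) (nb p) : ℕ) = Dd.ap c p / 2 + 693
    rw [sH_val]
    exact h1.symm
  · rw [lstChk, List.all_eq_true] at hl
    rw [adjChk, List.all_eq_true] at hadj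
    have h1 := Nat.eq_of_beq_eq_true (hl _ (List.mem_range.mpr p.2))
    have h2 := hadj _ (List.mem_range.mpr p.2)
    have h3 := (fld_one_iff _ _).mp h
    rw [← h1] at h3
    exact edgeJ_spec _ _ _ _ _ h2 h3
  · rw [commChk, List.all_eq_true] at hcomm
    ext p
    exact Nat.eq_of_beq_eq_true (hcomm _ (List.mem_range.mpr p.2))

/-- The elements of the kernel of the action on the blocks that preserve the graph. -/
theorem kernel_of_inv {P R : ℕ} (htree : treeChk row P R = true) {k : Equiv.Perm Y} (h : Inv row (1, k)) : k = 1 ∨ k = Zp := by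
  have hlt : ∀ p : Y, (p : ℕ) < 1344 := fun p => p.2
  have hb : ∀ p : Y, ((k p : Y) : ℕ) = p ∨ ((k p : Y) : ℕ) = flipL p := by
    intro p
    have h1 : nb p = nb (k p) := h.blk p
    have h2 : (p : ℕ) / 2 + 693 = ((k p : Y) : ℕ) / 2 + 693 := congrArg Fin.val h1
    unfold flipL
    split_ifs <;> omega
  rw [treeChk, List.all_eq_true] at htree
  have htr : ∀ p : Y, (p : ℕ) ≠ 0 → ∃ r : Y, fld R 3 7 r < fld R 3 7 p ∧ fld (row r) 1 1 p = 1 ∧ fld (row r) 1 1 (flipL p) = 0 ∧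
      fld (row (flipL r)) 1 1 p = 0 := by
    intro p hp
    have h1 := htree _ (List.mem_range.mpr p.2)
    simp only [Bool.or_eq_true, Bool.and_eq_true, Nat.blt_eq] at h1
    rcases h1 with h2 | ⟨⟨⟨⟨h2, h3⟩, h4⟩, h5⟩, h6⟩
    · exact absurd (Nat.eq_of_beq_eq_true h2) hp
    · exact ⟨⟨fld P 11 2047 p, h3⟩, h2, Nat.eq_of_beq_eq_true h4, Nat.eq_of_beq_eq_true h5, Nat.eq_of_beq_eq_true h6⟩
  -- the propagation along the tree
  have hprop : ∀ (sg : Bool), (((k ⟨0, by decide⟩ : Y) : ℕ) = (if sg then flipL 0 else 0)) →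
      ∀ (n : ℕ) (p : Y), fld R 3 7 p = n → ((k p : Y) : ℕ) = (if sg then flipL p else p) := by
    intro sg h0 n
    induction n using Nat.strong_induction_on with
    | _ n ih =>
      intro p hpn
      by_cases hp0 : (p : ℕ) = 0
      · have : p = ⟨0, by decide⟩ := Fin.ext hp0
        rw [this]
        exact h0
      · obtain ⟨r, hr1, hr2, hr3, hr4⟩ := htr p hp0
        have h1 := ih _ (hpn ▸ hr1) r rfl
        have h4 : fld (row (k r)) 1 1 (k p) = 1 := h.adj r p hr2
        cases sg with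
        | false =>
          simp only [Bool.false_eq_true, if_false] at h1 ⊢
          rw [h1] at h4
          rcases hb p with h5 | h5
          · exact h5
          · rw [h5, hr3] at h4
            omega
        | true =>
          simp only [if_true] at h1 ⊢
          rw [h1] at h4
          rcases hb p with h5 | h5
          · rw [h5, hr4] at h4
            omega
          · exact h5
  rcases hb ⟨0, by decide⟩ with h0 | h0
  · left
    ext p
    have h1 := hprop false (by simpa using h0) _ p rfl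
    simpa using h1
  · right
    ext p
    have h1 := hprop true (by simpa using h0) _ p rfl
    rw [Zp_val]
    simpa using h1

end Inv

/-! ### The group -/

/-- The lifts of the first side. -/
noncomputable def lA (i : ℕ) : Equiv.Perm Y :=
  if i = 0 then Dd.permOf lacA laicA valid_lacA else if i = 1 then Dd.permOf lbcA lbicA valid_lbcA else 1

/-- The lifts of the second side. -/
noncomputable def lB (i : ℕ) : Equiv.Perm Y :=
  if i = 0 then Dd.permOf lacB laicB valid_lacB else if i = 1 then Dd.permOf lbcB lbicB valid_lbcB else 1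

theorem lA_rep : ∀ l, l < 2 * 2 → Dd.Rep (lett lA l) (cLlA l) := by
  intro l hl
  interval_cases l
  · have e : lett lA 0 = Dd.permOf lacA laicA valid_lacA := lett_even lA 0
    rw [e]
    exact Pc.rep_permOf _ _ _
  · have e : lett lA 1 = (Dd.permOf lacA laicA valid_lacA)⁻¹ := lett_odd lA 0
    rw [e]
    exact Pc.rep_permOf_inv _ _ _
  · have e : lett lA 2 = Dd.permOf lbcA lbicA valid_lbcA := lett_even lA 1
    rw [e]
    exact Pc.rep_permOf _ _ _
  · have e : lett lA 3 = (Dd.permOf lbcA lbicA valid_lbcA)⁻¹ := lett_odd lA 1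
    rw [e]
    exact Pc.rep_permOf_inv _ _ _

theorem lB_rep : ∀ l, l < 2 * 2 → Dd.Rep (lett lB l) (cLlB l) := by
  intro l hl
  interval_cases l
  · have e : lett lB 0 = Dd.permOf lacB laicB valid_lacB := lett_even lB 0
    rw [e]
    exact Pc.rep_permOf _ _ _
  · have e : lett lB 1 = (Dd.permOf lacB laicB valid_lacB)⁻¹ := lett_odd lB 0
    rw [e]
    exact Pc.rep_permOf_inv _ _ _
  · have e : lett lB 2 = Dd.permOf lbcB lbicB valid_lbcB := lett_even lB 1
    rw [e]
    exact Pc.rep_permOf _ _ _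
  · have e : lett lB 3 = (Dd.permOf lbcB lbicB valid_lbcB)⁻¹ := lett_odd lB 1
    rw [e]
    exact Pc.rep_permOf_inv _ _ _

theorem lA_pow {i : ℕ} (hi : i < 2) : lA i ^ 7 = 1 := by
  have h0 : evW lA (List.replicate 7 (2 * i + 1)) = 1 := by
    refine Pc.evW_eq_one (m := 2) lA_rep (by simp; omega) ?_
    interval_cases i
    · exact ord_aA
    · exact ord_bA
  rw [evW_replicate, lett_odd, inv_pow, inv_eq_one] at h0
  exact h0

theorem lB_pow {i : ℕ} (hi : i < 2) : lB i ^ 7 = 1 := by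
  have h0 : evW lB (List.replicate 7 (2 * i + 1)) = 1 := by
    refine Pc.evW_eq_one (m := 2) lB_rep (by simp; omega) ?_
    interval_cases i
    · exact ord_aB
    · exact ord_bB
  rw [evW_replicate, lett_odd, inv_pow, inv_eq_one] at h0
  exact h0

theorem evW_flat {W : Type*} [Group W] (x : ℕ → W) (w : List ℕ) (n : ℕ) :
    evW x (List.replicate n w).flatten = (evW x w) ^ n := by
  induction n with
  | zero => simp [evW]
  | succ n ih =>
    rw [List.replicate_succ, List.flatten_cons, evW_append, ih, pow_succ']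

theorem sH_pow {i : ℕ} (hi : i < 2) : sH i ^ 7 = 1 := by
  have h := ord_H
  simp only [Bool.and_eq_true] at h
  have key : ∀ w : List ℕ, isIdB (w ++ w ++ w ++ w ++ w ++ w ++ w) = true → evW sG w ^ 7 = 1 := by
    intro w hw
    have h1 := evW_one_of_base hw
    simp only [evW_append] at h1
    rw [← h1]
    simp only [pow_succ, pow_zero, one_mul]
  interval_cases i
  · exact key _ h.1
  · exact key _ h.2

theorem sH_gen : Subgroup.closure (sH '' Set.Iio 2) = ⊤ := by
  rw [eq_top_iff, ← sG_gen, Subgroup.closure_le]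
  rintro _ ⟨i, hi, rfl⟩
  have hi' : i < 8 := hi
  have h := wordT_ok
  rw [List.all_eq_true] at h
  have h1 := h i (List.mem_range.mpr hi')
  simp only [Bool.and_eq_true, List.all_eq_true, Nat.blt_eq] at h1
  have h2 := evW_one_of_base h1.1
  rw [evW_append, evW_expW] at h2
  have e : evW sG [2 * i + 1] = (sG i)⁻¹ := by
    simp only [evW, mul_one]
    rw [lett_odd]
  rw [e, mul_inv_eq_one] at h2
  show sG i ∈ Subgroup.closure (sH '' Set.Iio 2)
  rw [← h2]
  have hS : ∀ j, j < 2 → (fun j => evW sG (Hv j)) j ∈ Subgroup.closure (sH '' Set.Iio 2) :=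
    fun j hj => Subgroup.subset_closure ⟨j, hj, rfl⟩
  exact evW_mem (fun j => evW sG (Hv j)) (m := 2) _ hS _ h1.2

/-! ### The special unitary group -/

/-- The description of the field. -/
noncomputable def W0 : W4 F0 := Classical.choice (exists_W4 card_F0)

/-- The lifts to the special unitary group. -/
noncomputable def uH (i : ℕ) : SU 6 F0 2 := evW (TT W0) (Ew i)

theorem act_TT_all (i : ℕ) : act W0 (TT W0 i) = tP i := by
  by_cases hi : i < 8
  · exact act_TT W0 hi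
  · rw [TT, dif_neg hi, tP, dif_neg hi, map_one]

theorem act_evW (w : List ℕ) : act W0 (evW (TT W0) w) = evW tP w := by
  rw [map_evW]
  congr 1
  exact funext act_TT_all

theorem act_uH {i : ℕ} (hi : i < 2) : act W0 (uH i) = ((sH i : ↥PG) : Equiv.Perm (Fin D.N)) := by
  have h1 := sH_pow hi
  have h2 : evW tP (Hv i) ^ 7 = 1 := by
    have h3 := congrArg Subtype.val h1
    have h4 : ((sH i ^ 7 : ↥PG) : Equiv.Perm (Fin D.N)) = ((sH i : ↥PG) : Equiv.Perm (Fin D.N)) ^ 7 := rfl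
    rw [h4] at h3
    have h5 : ((sH i : ↥PG) : Equiv.Perm (Fin D.N)) = evW tP (Hv i) := coe_evW _
    rw [h5] at h3
    exact h3
  have h5 : ((sH i : ↥PG) : Equiv.Perm (Fin D.N)) = evW tP (Hv i) := coe_evW _
  rw [uH, act_evW, h5, Ew, evW_flat]
  rw [show 15 = 7 * 2 + 1 by norm_num, pow_succ, pow_mul, h2, one_pow, one_mul]

/-- The elements of the centre have exponent three. -/
theorem center_cube {u : SU 6 F0 2} (hu : u ∈ Subgroup.center (SU 6 F0 2)) : u ^ 3 = 1 := by
  have hF : Fintype.card F0 = 2 ^ 2 := card_F0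
  have h1 := card_center_SU' hF 6 (by norm_num)
  have h2 : Nat.card (Subgroup.center (SU 6 F0 2)) = 3 := by
    rw [h1]
    norm_num
  have h3 := pow_card_eq_one' (x := (⟨u, hu⟩ : Subgroup.center (SU 6 F0 2)))
  rw [h2] at h3
  exact congrArg Subtype.val h3

theorem uH_pow {i : ℕ} (hi : i < 2) : uH i ^ 7 = 1 := by
  have h1 : act W0 ((evW (TT W0) (Hv i)) ^ 7) = 1 := by
    have h2 := congrArg Subtype.val (sH_pow hi)
    have h4 : ((sH i ^ 7 : ↥PG) : Equiv.Perm (Fin D.N)) = ((sH i : ↥PG) : Equiv.Perm (Fin D.N)) ^ 7 := rfl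
    rw [h4] at h2
    have h5 : ((sH i : ↥PG) : Equiv.Perm (Fin D.N)) = evW tP (Hv i) := coe_evW _
    rw [h5] at h2
    rw [map_pow, act_evW]
    exact h2
  have h3 : (evW (TT W0) (Hv i)) ^ 7 ∈ Subgroup.center (SU 6 F0 2) := by
    rw [← ker_act W0 card_F0]
    exact h1
  have h4 := center_cube h3
  rw [uH, Ew, evW_flat, ← pow_mul]
  have e : 15 * 7 = 7 * 3 * 5 := by norm_num
  rw [e, pow_mul, pow_mul, h4, one_pow]

theorem TT_mul {i : ℕ} (hi : i < 8) : TT W0 i * TT W0 i = 1 := by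
  apply Subtype.ext
  apply Subtype.ext
  show mat (TT W0 i) * mat (TT W0 i) = 1
  rw [mat_TT W0 hi]
  exact Tm_sq (W := W0) (isot W0 hi)

theorem TT_inv {i : ℕ} (hi : i < 8) : (TT W0 i)⁻¹ = TT W0 i := inv_eq_of_mul_eq_one_left (TT_mul hi)

theorem mat_evW (w : List ℕ) (hw : ∀ l ∈ w, l < 16) (n : ℕ) : mat (evW (TT W0) w) *ᵥ vN W0 n = vN W0 (apTw w n) := by
  induction w with
  | nil =>
    show mat 1 *ᵥ _ = _
    rw [mat_one, Matrix.one_mulVec]
    rfl
  | cons l w ih =>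
    have hl := hw l List.mem_cons_self
    have e : lett (TT W0) l = TT W0 (l / 2) := by
      rw [lett]
      split_ifs
      · rfl
      · exact TT_inv (by omega)
    show mat (lett (TT W0) l * evW (TT W0) w) *ᵥ _ = vN W0 (apT (vc (l / 2)) (apTw w n))
    rw [e, mat_mul, ← Matrix.mulVec_mulVec, ih fun a ha => hw a (List.mem_cons_of_mem _ ha), TT_vN W0 (by omega)]

/-! ### The covering group -/

/-- The ambient group. -/
abbrev GG : Type := ↥PG × Equiv.Perm Y × Equiv.Perm Y × ↥(SU 6 F0 2)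

/-- The generators of the covering group. -/
noncomputable def XX (i : ℕ) : GG := (sH i, lA i, lB i, uH i)

/-- The covering group. -/
noncomputable abbrev Γ0 : Subgroup GG := Subgroup.closure (XX '' Set.Iio 2)

theorem Hv_two {i : ℕ} (hi : 2 ≤ i) : Hv i = [] := by
  rw [Hv, List.getD_eq_default]
  simp
  omega

theorem XX_two (i : ℕ) (hi : 2 ≤ i) : XX i = 1 := by
  have h0 : i ≠ 0 := by omega
  have h1 : i ≠ 1 := by omega
  refine Prod.ext ?_ (Prod.ext ?_ (Prod.ext ?_ ?_))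
  · show evW sG (Hv i) = 1
    rw [Hv_two hi]
    rfl
  · show lA i = 1
    rw [lA, if_neg h0, if_neg h1]
  · show lB i = 1
    rw [lB, if_neg h0, if_neg h1]
  · show evW (TT W0) (Ew i) = 1
    rw [Ew, Hv_two hi]
    simp [evW]

theorem XX_mem (i : ℕ) : XX i ∈ Γ0 := mem_closure_two XX_two i

/-- The generators as elements of the covering group. -/
noncomputable def xx (i : ℕ) : ↥Γ0 := ⟨XX i, XX_mem i⟩

/-- The projection. -/
noncomputable def σ0 : ↥Γ0 →* ↥PG := (MonoidHom.fst _ _).comp Γ0.subtype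

theorem σ0_surj : Function.Surjective σ0 := by
  have h : σ0.range = ⊤ := by
    rw [eq_top_iff, ← sH_gen, Subgroup.closure_le]
    rintro _ ⟨i, _, rfl⟩
    exact ⟨xx i, rfl⟩
  exact MonoidHom.range_eq_top.mp h

/-- The two projections to the sides. -/
noncomputable def pA : GG →* ↥PG × Equiv.Perm Y :=
  MonoidHom.prod (MonoidHom.fst _ _) ((MonoidHom.fst _ _).comp (MonoidHom.snd _ _))

/-- The two projections to the sides. -/
noncomputable def pB : GG →* ↥PG × Equiv.Perm Y :=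
  MonoidHom.prod (MonoidHom.fst _ _) ((MonoidHom.fst _ _).comp ((MonoidHom.snd _ _).comp (MonoidHom.snd _ _)))

theorem invA_gen {i : ℕ} (hi : i < 2) : Inv rowA (pA (XX i)) := by
  have h0 : lA 0 = Dd.permOf lacA laicA valid_lacA := rfl
  have h1 : lA 1 = Dd.permOf lbcA lbicA valid_lbcA := rfl
  show Inv rowA (sH i, lA i)
  interval_cases i
  · rw [h0]
    exact inv_of_code (lst := lstA) 0 _ blk_aA lst_A adj_aA comm_aA
  · rw [h1]
    exact inv_of_code (lst := lstA) 1 _ blk_bA lst_A adj_bA comm_bA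

theorem invB_gen {i : ℕ} (hi : i < 2) : Inv rowB (pB (XX i)) := by
  have h0 : lB 0 = Dd.permOf lacB laicB valid_lacB := rfl
  have h1 : lB 1 = Dd.permOf lbcB lbicB valid_lbcB := rfl
  show Inv rowB (sH i, lB i)
  interval_cases i
  · rw [h0]
    exact inv_of_code (lst := lstB) 0 _ blk_aB lst_B adj_aB comm_aB
  · rw [h1]
    exact inv_of_code (lst := lstB) 1 _ blk_bB lst_B adj_bB comm_bB

theorem invA_all {l : GG} (hl : l ∈ Γ0) : Inv rowA (pA l) := by
  induction hl using Subgroup.closure_induction with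
  | mem z hz =>
    obtain ⟨i, hi, rfl⟩ := hz
    exact invA_gen hi
  | one => rw [map_one]; exact Inv.one
  | mul a b _ _ ha hb => rw [map_mul]; exact ha.mul hb
  | inv a _ ha => rw [map_inv]; exact ha.inv

theorem invB_all {l : GG} (hl : l ∈ Γ0) : Inv rowB (pB l) := by
  induction hl using Subgroup.closure_induction with
  | mem z hz =>
    obtain ⟨i, hi, rfl⟩ := hz
    exact invB_gen hi
  | one => rw [map_one]; exact Inv.one
  | mul a b _ _ ha hb => rw [map_mul]; exact ha.mul hb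
  | inv a _ ha => rw [map_inv]; exact ha.inv

theorem invU_all {l : GG} (hl : l ∈ Γ0) : act W0 l.2.2.2 = ((l.1 : ↥PG) : Equiv.Perm (Fin D.N)) := by
  induction hl using Subgroup.closure_induction with
  | mem z hz =>
    obtain ⟨i, hi, rfl⟩ := hz
    exact act_uH hi
  | one => exact map_one _
  | mul a b _ _ ha hb =>
    show act W0 (a.2.2.2 * b.2.2.2) = (a.1 : Equiv.Perm (Fin D.N)) * (b.1 : Equiv.Perm (Fin D.N))
    rw [map_mul, ha, hb]
  | inv a _ ha =>
    show act W0 (a.2.2.2)⁻¹ = ((a.1 : Equiv.Perm (Fin D.N)))⁻¹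
    rw [map_inv, ha]

theorem ker_cases (l : ↥Γ0) (hl : l ∈ σ0.ker) :
    (l : GG).1 = 1 ∧ ((l : GG).2.1 = 1 ∨ (l : GG).2.1 = Zp) ∧ ((l : GG).2.2.1 = 1 ∨ (l : GG).2.2.1 = Zp) ∧
      (l : GG).2.2.2 ∈ Subgroup.center (SU 6 F0 2) := by
  have h1 : (l : GG).1 = 1 := hl
  refine ⟨h1, ?_, ?_, ?_⟩
  · refine kernel_of_inv (row := rowA) tree_A ?_
    have h2 := invA_all l.2
    have e : pA (l : GG) = (1, (l : GG).2.1) := Prod.ext h1 rfl
    rwa [e] at h2
  · refine kernel_of_inv (row := rowB) tree_B ?_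
    have h2 := invB_all l.2
    have e : pB (l : GG) = (1, (l : GG).2.2.1) := Prod.ext h1 rfl
    rwa [e] at h2
  · rw [← ker_act W0 card_F0, MonoidHom.mem_ker, invU_all l.2, h1]
    rfl

/-- The extension is a stem extension. -/
theorem stem0 : IsStemExtension σ0 := by
  refine ⟨σ0_surj, ?_, ?_⟩
  · intro l hl
    obtain ⟨h1, h2, h3, h4⟩ := ker_cases l hl
    rw [Subgroup.mem_center_iff]
    intro g
    apply Subtype.ext
    have hA := (invA_all g.2).comm
    have hB := (invB_all g.2).comm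
    refine Prod.ext ?_ (Prod.ext ?_ (Prod.ext ?_ ?_))
    · show (g : GG).1 * (l : GG).1 = (l : GG).1 * (g : GG).1
      rw [h1, one_mul, mul_one]
    · show (g : GG).2.1 * (l : GG).2.1 = (l : GG).2.1 * (g : GG).2.1
      rcases h2 with h | h
      · rw [h, one_mul, mul_one]
      · rw [h]
        exact hA.eq.symm
    · show (g : GG).2.2.1 * (l : GG).2.2.1 = (l : GG).2.2.1 * (g : GG).2.2.1
      rcases h3 with h | h
      · rw [h, one_mul, mul_one]
      · rw [h]
        exact hB.eq.symm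
    · show (g : GG).2.2.2 * (l : GG).2.2.2 = (l : GG).2.2.2 * (g : GG).2.2.2
      exact Subgroup.mem_center_iff.mp h4 _
  · intro l hl
    obtain ⟨h1, h2, h3, h4⟩ := ker_cases l hl
    refine Cfsg.Agent.Lib.SchurCover46.mem_commutator_of_gens (XX '' Set.Iio 2) (n := 7) (t := 6) ?_ (by norm_num) l ?_
    · rintro _ ⟨i, hi, rfl⟩
      have hi' : i < 2 := hi
      exact Prod.ext (sH_pow hi') (Prod.ext (lA_pow hi') (Prod.ext (lB_pow hi') (uH_pow hi')))
    · apply Subtype.ext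
      have hz : ∀ a : Equiv.Perm Y, (a = 1 ∨ a = Zp) → a ^ 6 = 1 := by
        intro a ha
        rcases ha with h | h
        · rw [h, one_pow]
        · rw [h, show 6 = 2 * 3 by norm_num, pow_mul, pow_two, Zp_sq, one_pow]
      refine Prod.ext ?_ (Prod.ext ?_ (Prod.ext ?_ ?_))
      · show (l : GG).1 ^ 6 = 1
        rw [h1, one_pow]
      · exact hz _ h2
      · exact hz _ h3
      · show (l : GG).2.2.2 ^ 6 = 1
        have e : (l : GG).2.2.2 ^ 6 = ((l : GG).2.2.2 ^ 3) ^ 2 := by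
          rw [← pow_mul]
        rw [e, center_cube h4, one_pow]

/-! ### The kernel -/

theorem coe_evWx (w : List ℕ) : ((evW xx w : ↥Γ0) : GG) = evW XX w := map_evW Γ0.subtype xx w

theorem evW_fst (w : List ℕ) : (evW XX w).1 = evW sH w := map_evW (MonoidHom.fst _ _) XX w

/-- The tail of the ambient group. -/
noncomputable def pT : GG →* Equiv.Perm Y × Equiv.Perm Y × ↥(SU 6 F0 2) := MonoidHom.snd _ _

/-- The tail of the ambient group. -/
noncomputable def pT2 : GG →* Equiv.Perm Y × ↥(SU 6 F0 2) := (MonoidHom.snd _ _).comp pT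

theorem evW_snd1 (w : List ℕ) : (evW XX w).2.1 = evW lA w :=
  map_evW ((MonoidHom.fst _ _).comp pT) XX w

theorem evW_snd2 (w : List ℕ) : (evW XX w).2.2.1 = evW lB w :=
  map_evW ((MonoidHom.fst _ _).comp pT2) XX w

theorem evW_snd3 (w : List ℕ) : (evW XX w).2.2.2 = evW uH w :=
  map_evW ((MonoidHom.snd _ _).comp pT2) XX w

theorem evW_sH {w : List ℕ} (hw : isIdB (expW Hv w) = true) : evW sH w = 1 := by
  have e : sH = fun j => evW sG (Hv j) := rfl
  rw [e, ← evW_expW]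
  exact evW_one_of_base hw

theorem wz1_lt : ∀ l ∈ wz1, l < 2 * 2 := by
  have h := z_lt
  simp only [Bool.and_eq_true, List.all_eq_true, Nat.blt_eq] at h
  exact h.1.1

theorem wz2_lt : ∀ l ∈ wz2, l < 2 * 2 := by
  have h := z_lt
  simp only [Bool.and_eq_true, List.all_eq_true, Nat.blt_eq] at h
  exact h.1.2

theorem wz3_lt : ∀ l ∈ wz3, l < 2 * 2 := by
  have h := z_lt
  simp only [Bool.and_eq_true, List.all_eq_true, Nat.blt_eq, decide_eq_true_eq] at h
  exact h.2

/-- The elements of the kernel given by words. -/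
noncomputable def zK {w : List ℕ} (hw : isIdB (expW Hv w) = true) : σ0.ker :=
  ⟨evW xx w, by
    show ((evW xx w : ↥Γ0) : GG).1 = 1
    rw [coe_evWx, evW_fst, evW_sH hw]⟩

/-- The point zero. -/
def y0 : Y := ⟨0, by decide⟩

theorem Zp_y0 : ((Zp y0 : Y) : ℕ) = 1 := by
  rw [Zp_val]
  rfl

/-- Elements of the kernel of the first side. -/
theorem side_of_val {a : Equiv.Perm Y} (ha : a = 1 ∨ a = Zp) (h : ((a y0 : Y) : ℕ) = 1) : a = Zp := by
  rcases ha with rfl | rfl
  · exact absurd h (by decide)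
  · rfl

theorem side_of_val0 {a : Equiv.Perm Y} (ha : a = 1 ∨ a = Zp) (h : ((a y0 : Y) : ℕ) = 0) : a = 1 := by
  rcases ha with rfl | rfl
  · rfl
  · rw [Zp_y0] at h
    exact absurd h (by decide)

theorem z1_A : ((zK z1_G).1 : GG).2.1 = Zp := by
  refine side_of_val (ker_cases _ (zK z1_G).2).2.1 ?_
  show ((((evW xx wz1 : ↥Γ0) : GG).2.1 y0 : Y) : ℕ) = 1
  rw [coe_evWx, evW_snd1, Pc.apW_spec (m := 2) lA_rep wz1 wz1_lt y0]
  exact z1_vals.1

theorem z1_B : ((zK z1_G).1 : GG).2.2.1 = 1 := by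
  refine side_of_val0 (ker_cases _ (zK z1_G).2).2.2.1 ?_
  show ((((evW xx wz1 : ↥Γ0) : GG).2.2.1 y0 : Y) : ℕ) = 0
  rw [coe_evWx, evW_snd2, Pc.apW_spec (m := 2) lB_rep wz1 wz1_lt y0]
  exact z1_vals.2

theorem z2_A : ((zK z2_G).1 : GG).2.1 = 1 := by
  refine side_of_val0 (ker_cases _ (zK z2_G).2).2.1 ?_
  show ((((evW xx wz2 : ↥Γ0) : GG).2.1 y0 : Y) : ℕ) = 0
  rw [coe_evWx, evW_snd1, Pc.apW_spec (m := 2) lA_rep wz2 wz2_lt y0]
  exact z2_vals.1

theorem z2_B : ((zK z2_G).1 : GG).2.2.1 = Zp := by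
  refine side_of_val (ker_cases _ (zK z2_G).2).2.2.1 ?_
  show ((((evW xx wz2 : ↥Γ0) : GG).2.2.1 y0 : Y) : ℕ) = 1
  rw [coe_evWx, evW_snd2, Pc.apW_spec (m := 2) lB_rep wz2 wz2_lt y0]
  exact z2_vals.2

theorem z3_U : ((zK z3_G).1 : GG).2.2.2 ≠ 1 := by
  intro h
  have h1 : ((evW xx wz3 : ↥Γ0) : GG).2.2.2 = 1 := h
  rw [coe_evWx, evW_snd3] at h1
  have e : uH = fun i => evW (TT W0) (Ew i) := rfl
  rw [e, ← evW_expW] at h1
  have hl : ∀ l ∈ expW Ew wz3, l < 16 := by
    have h2 := Ew_lt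
    simp only [List.all_eq_true, Nat.blt_eq] at h2
    exact h2
  have h3 := mat_evW (expW Ew wz3) hl 1
  rw [h1, z3_val, mat_one, Matrix.one_mulVec] at h3
  have h4 := congrArg (cdv W0) h3
  rw [cdv_vN W0 (by norm_num), cdv_vN W0 (by norm_num)] at h4
  exact absurd h4 (by norm_num)

open Classical in
/-- The coordinate of an element of the kernel. -/
noncomputable def dc (k : Equiv.Perm Y) : ZMod 2 := if k = 1 then 0 else 1

theorem dc_mul {a b : Equiv.Perm Y} (ha : a = 1 ∨ a = Zp) (hb : b = 1 ∨ b = Zp) : dc (a * b) = dc a + dc b := by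
  rcases ha with rfl | rfl <;> rcases hb with rfl | rfl
  · simp [dc]
  · simp [dc]
  · simp [dc]
  · rw [Zp_sq]
    simp only [dc, if_true, if_neg Zp_ne]
    decide

theorem card_center : Nat.card (Subgroup.center (SU 6 F0 2)) = 3 := by
  have hF : Fintype.card F0 = 2 ^ 2 := card_F0
  rw [card_center_SU' hF 6 (by norm_num)]
  norm_num

instance fact3 : Fact (Nat.Prime 3) := ⟨Nat.prime_three⟩

/-- The central part. -/
noncomputable def e3 : ↥(Subgroup.center (SU 6 F0 2)) ≃* Multiplicative (ZMod 3) :=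
  mulEquivOfPrimeCardEq card_center (by rw [Nat.card_congr Multiplicative.toAdd, Nat.card_zmod])

/-- The map of the kernel. -/
noncomputable def kerMap : σ0.ker →* Multiplicative (ZMod 3 × ZMod 2 × ZMod 2) :=
  MonoidHom.mk' (fun l => Multiplicative.ofAdd (Multiplicative.toAdd (e3 ⟨l.1.1.2.2.2, (ker_cases l.1 l.2).2.2.2⟩),
      dc (l.1.1.2.1), dc (l.1.1.2.2.1))) (by
    intro a b
    have h := fun (l : σ0.ker) => ker_cases l.1 l.2
    show Multiplicative.ofAdd (Multiplicative.toAdd (e3 (⟨a.1.1.2.2.2, (h a).2.2.2⟩ * ⟨b.1.1.2.2.2, (h b).2.2.2⟩)),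
      dc (a.1.1.2.1 * b.1.1.2.1), dc (a.1.1.2.2.1 * b.1.1.2.2.1)) = _
    rw [map_mul, dc_mul (h a).2.1 (h b).2.1, dc_mul (h a).2.2.1 (h b).2.2.1]
    rfl)

theorem kerMap_apply (l : σ0.ker) : Multiplicative.toAdd (kerMap l) =
    (Multiplicative.toAdd (e3 ⟨l.1.1.2.2.2, (ker_cases l.1 l.2).2.2.2⟩), dc (l.1.1.2.1), dc (l.1.1.2.2.1)) := rfl

theorem dc_one : dc 1 = 0 := by simp [dc]

theorem dc_Zp : dc Zp = 1 := by simp [dc, Zp_ne]

theorem kerMap_inj : Function.Injective kerMap := by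
  have h := fun (l : σ0.ker) => ker_cases l.1 l.2
  rw [injective_iff_map_eq_one]
  intro l hl
  have h0 := kerMap_apply l
  rw [hl] at h0
  have h1 : (0 : ZMod 3 × ZMod 2 × ZMod 2) = _ := h0
  have h2 : Multiplicative.toAdd (e3 ⟨l.1.1.2.2.2, (h l).2.2.2⟩) = 0 := (congrArg Prod.fst h1).symm
  have h3 : dc (l.1.1.2.1) = 0 := (congrArg (fun x => x.2.1) h1).symm
  have h4 : dc (l.1.1.2.2.1) = 0 := (congrArg (fun x => x.2.2) h1).symm
  have h5 : ∀ a : Equiv.Perm Y, dc a = 0 → a = 1 := by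
    intro a ha
    by_contra hne
    rw [dc, if_neg hne] at ha
    exact one_ne_zero ha
  have h6 : (⟨l.1.1.2.2.2, (h l).2.2.2⟩ : ↥(Subgroup.center (SU 6 F0 2))) = 1 :=
    (map_eq_one_iff e3 e3.injective).mp h2
  apply Subtype.ext
  apply Subtype.ext
  exact Prod.ext (h l).1 (Prod.ext (h5 _ h3) (Prod.ext (h5 _ h4) (congrArg Subtype.val h6)))

theorem pow3_val (s : ZMod 3) : (3 : ℕ) • s = 0 := by
  revert s
  decide

theorem pow4_val (s : ZMod 3) : (4 : ℕ) • s = s := by
  revert s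
  decide

theorem smul3_val (s : ZMod 2) : (3 : ℕ) • s = s := by
  revert s
  decide

theorem smul4_val (s : ZMod 2) : (4 : ℕ) • s = 0 := by
  revert s
  decide

theorem zmod3_all (t x : ZMod 3) (ht : t ≠ 0) : ∃ i : Fin 3, ((i : ℕ)) • t = x := by
  revert t x
  decide

theorem zmod2_all (a : ZMod 2) : ∃ i : Fin 2, ((i : ℕ)) • (1 : ZMod 2) = a := by
  revert a
  decide

theorem gen1 (l : σ0.ker) (hA : (l.1 : GG).2.1 = Zp) (hB : (l.1 : GG).2.2.1 = 1) :
    ∃ l', kerMap l' = Multiplicative.ofAdd ((0, 1, 0) : ZMod 3 × ZMod 2 × ZMod 2) := by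
  refine ⟨l ^ 3, ?_⟩
  apply Multiplicative.toAdd.injective
  have e1 : dc ((l.1 : GG).2.1) = 1 := by rw [hA, dc_Zp]
  have e2 : dc ((l.1 : GG).2.2.1) = 0 := by rw [hB, dc_one]
  rw [map_pow, toAdd_pow, kerMap_apply, e1, e2]
  exact Prod.ext (pow3_val _) (Prod.ext (smul3_val _) (smul3_val _))

theorem gen2 (l : σ0.ker) (hA : (l.1 : GG).2.1 = 1) (hB : (l.1 : GG).2.2.1 = Zp) :
    ∃ l', kerMap l' = Multiplicative.ofAdd ((0, 0, 1) : ZMod 3 × ZMod 2 × ZMod 2) := by
  refine ⟨l ^ 3, ?_⟩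
  apply Multiplicative.toAdd.injective
  have e1 : dc ((l.1 : GG).2.1) = 0 := by rw [hA, dc_one]
  have e2 : dc ((l.1 : GG).2.2.1) = 1 := by rw [hB, dc_Zp]
  rw [map_pow, toAdd_pow, kerMap_apply, e1, e2]
  exact Prod.ext (pow3_val _) (Prod.ext (smul3_val _) (smul3_val _))

theorem gen3 (l : σ0.ker) (hU : (l.1 : GG).2.2.2 ≠ 1) :
    ∃ t : ZMod 3, t ≠ 0 ∧ ∃ l', kerMap l' = Multiplicative.ofAdd ((t, 0, 0) : ZMod 3 × ZMod 2 × ZMod 2) := by
  refine ⟨Multiplicative.toAdd (e3 ⟨(l.1 : GG).2.2.2, (ker_cases _ l.2).2.2.2⟩), ?_, l ^ 4, ?_⟩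
  · intro h
    have h6 : (⟨(l.1 : GG).2.2.2, (ker_cases _ l.2).2.2.2⟩ : ↥(Subgroup.center (SU 6 F0 2))) = 1 :=
      (map_eq_one_iff e3 e3.injective).mp h
    exact hU (congrArg Subtype.val h6)
  · apply Multiplicative.toAdd.injective
    rw [map_pow, toAdd_pow, kerMap_apply]
    exact Prod.ext (pow4_val _) (Prod.ext (smul4_val _) (smul4_val _))

theorem kerMap_surj : Function.Surjective kerMap := by
  have v1 := gen1 (zK z1_G) z1_A z1_B
  have v2 := gen2 (zK z2_G) z2_A z2_B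
  have v3 := gen3 (zK z3_G) z3_U
  obtain ⟨l1, h1⟩ := v1
  obtain ⟨l2, h2⟩ := v2
  obtain ⟨t, ht, l3, h3⟩ := v3
  intro y
  obtain ⟨x, a, b, rfl⟩ : ∃ x a b, y = Multiplicative.ofAdd ((x, a, b) : ZMod 3 × ZMod 2 × ZMod 2) :=
    ⟨(Multiplicative.toAdd y).1, (Multiplicative.toAdd y).2.1, (Multiplicative.toAdd y).2.2, rfl⟩
  obtain ⟨i, hi⟩ := zmod3_all t x ht
  obtain ⟨j, hj⟩ := zmod2_all a
  obtain ⟨k, hk⟩ := zmod2_all b
  refine ⟨l3 ^ (i : ℕ) * l1 ^ (j : ℕ) * l2 ^ (k : ℕ), ?_⟩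
  have e : kerMap (l3 ^ (i : ℕ) * l1 ^ (j : ℕ) * l2 ^ (k : ℕ)) =
      (kerMap l3) ^ (i : ℕ) * (kerMap l1) ^ (j : ℕ) * (kerMap l2) ^ (k : ℕ) := by
    rw [map_mul, map_mul, map_pow, map_pow, map_pow]
  rw [e, h1, h2, h3]
  apply Multiplicative.toAdd.injective
  rw [toAdd_mul, toAdd_mul, toAdd_pow, toAdd_pow, toAdd_pow]
  refine Prod.ext ?_ (Prod.ext ?_ ?_)
  · simpa using hi
  · simpa using hj
  · simpa using hk

theorem kerMap_bij : Function.Bijective kerMap := ⟨kerMap_inj, kerMap_surj⟩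

/-- The kernel. -/
noncomputable def kerEquiv : σ0.ker ≃* Multiplicative (ZMod 3 × ZMod 2 × ZMod 2) :=
  MulEquiv.ofBijective kerMap kerMap_bij

end Cfsg.Agent.Lib.U6Cover46
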