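import Mathlib

/-!
# Vaughan-Lee's theorem, part 2: counting commutators along a chain

Elementary counting lemmas for subgroups generated by commutators with a fixed generating
family.
-/

set_option autoImplicit false
set_option linter.style.haveILetI false

namespace Cfsg.Agent.Lib.VLChain

open Subgroup
open scoped commutatorElement

variable {G : Type*} [Group G]

/-- The elements commuting with `x` modulo the normal subgroup `D`. -/
def Tsub (D : Subgroup G) [D.Normal] (x : G) : Subgroup G :=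
  (Subgroup.centralizer ({(x : G ⧸ D)} : Set (G ⧸ D))).comap (QuotientGroup.mk' D)

theorem mk_comm_iff {D : Subgroup G} [D.Normal] {a b : G} :
    (a : G ⧸ D) * (b : G ⧸ D) = (b : G ⧸ D) * (a : G ⧸ D) ↔ ⁅a, b⁆ ∈ D := by
  rw [← commutatorElement_eq_one_iff_mul_comm, ← QuotientGroup.eq_one_iff]
  have := map_commutatorElement (QuotientGroup.mk' D) a b
  simp only [QuotientGroup.mk'_apply] at this
  rw [this]

theorem mem_Tsub {D : Subgroup G} [D.Normal] {x g : G} : g ∈ Tsub D x ↔ ⁅x, g⁆ ∈ D := by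
  rw [Tsub, Subgroup.mem_comap, Subgroup.mem_centralizer_singleton_iff, QuotientGroup.mk'_apply,
    ← mk_comm_iff, eq_comm]

theorem comm_inv_mem {D : Subgroup G} {a b : G} (h : ⁅a, b⁆ ∈ D) : ⁅b, a⁆ ∈ D := by
  rw [← commutatorElement_inv]
  exact D.inv_mem h

theorem relIndex_eq_card_map (D X : Subgroup G) [D.Normal] :
    D.relIndex X = Nat.card ↥(X.map (QuotientGroup.mk' D)) := by
  have h1 : ((QuotientGroup.mk' D).comp X.subtype).ker = D.subgroupOf X := by
    ext y
    simp [MonoidHom.mem_ker, Subgroup.mem_subgroupOf]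
  rw [Subgroup.relIndex, ← h1, Subgroup.index_ker, MonoidHom.range_comp, Subgroup.range_subtype]

/-- A subgroup consisting of central elements is normal. -/
theorem normal_of_central {Q : Type*} [Group Q] (A : Subgroup Q)
    (h : ∀ a ∈ A, ∀ q : Q, a * q = q * a) : A.Normal := by
  constructor
  intro n hn g
  have h1 : g * n * g⁻¹ = n := by
    rw [← h n hn g]
    group
  rw [h1]
  exact hn

theorem card_sup_le {Q κ : Type*} [Group Q] [Finite Q] (s : Finset κ) (A : κ → Subgroup Q)
    (hA : ∀ k ∈ s, (A k).Normal) : Nat.card ↥(s.sup A) ≤ ∏ k ∈ s, Nat.card (A k) := by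
  classical
  induction s using Finset.induction_on with
  | empty => simp
  | insert a s ha ih =>
    rw [Finset.sup_insert, Finset.prod_insert ha]
    have hn : (s.sup A).Normal := by
      refine Finset.sup_induction (p := fun H : Subgroup Q => H.Normal) Subgroup.normal_bot ?_ ?_ 
      · intro H hH K hK
        exact Subgroup.sup_normal H K
      · intro k hk
        exact hA k (Finset.mem_insert_of_mem hk)
    have h1 := Subgroup.mul_normal (A a) (s.sup A)
    have h2 := Set.natCard_mul_le (s := (A a : Set Q)) (t := (s.sup A : Subgroup Q))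
    rw [← h1] at h2
    have h3 := ih (fun k hk => hA k (Finset.mem_insert_of_mem hk))
    calc _ ≤ _ := h2
      _ ≤ _ := Nat.mul_le_mul_left _ h3

/-- If all commutators of a generating family lie in the normal subgroup `W`, so does the
derived subgroup. -/
theorem commutator_le_of_gen {ι : Type*} (x : ι → G) (hx : closure (Set.range x) = ⊤)
    (W : Subgroup G) [W.Normal] (h : ∀ i j, ⁅x i, x j⁆ ∈ W) : commutator G ≤ W := by
  have h1 : ∀ i, ∀ g : G, ⁅x i, g⁆ ∈ W := by
    intro i g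
    have h2 : closure (Set.range x) ≤ Tsub W (x i) := by
      rw [closure_le]
      rintro _ ⟨j, rfl⟩
      exact mem_Tsub.mpr (h i j)
    rw [hx] at h2
    exact mem_Tsub.mp (h2 (mem_top g))
  have h2 : ∀ g k : G, ⁅g, k⁆ ∈ W := by
    intro g k
    have h3 : closure (Set.range x) ≤ Tsub W g := by
      rw [closure_le]
      rintro _ ⟨j, rfl⟩
      exact mem_Tsub.mpr (comm_inv_mem (h1 j g))
    rw [hx] at h3
    exact mem_Tsub.mp (h3 (mem_top k))
  rw [_root_.commutator_def, commutator_le]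
  exact fun a _ b _ => h2 a b

/-- If `X ≤ [X,G] Y` with `Y` normal, then `X ≤ Y`, in a nilpotent group. -/
theorem le_of_le_commutator_sup (hG : Group.IsNilpotent G) {X Y : Subgroup G} [Y.Normal]
    (h : X ≤ ⁅X, (⊤ : Subgroup G)⁆ ⊔ Y) : X ≤ Y := by
  have key : ∀ n, X ≤ Subgroup.lowerCentralSeries (⊤ : Subgroup G) n ⊔ Y := by
    intro n
    induction n with
    | zero => simp
    | succ n ih =>
      refine h.trans (sup_le ?_ le_sup_right)
      refine (commutator_mono ih le_rfl).trans ?_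
      rw [commutator_le]
      intro a ha g _
      obtain ⟨a₁, ha₁, a₂, ha₂, rfl⟩ := Subgroup.mem_sup_of_normal_right.mp ha
      have h1 : ⁅a₁ * a₂, g⁆ = (a₁ * ⁅a₂, g⁆ * a₁⁻¹) * ⁅a₁, g⁆ := by
        simp only [commutatorElement_def]
        group
      rw [h1]
      refine Subgroup.mul_mem _ (Subgroup.mem_sup_right ?_)
        (Subgroup.mem_sup_left (commutator_mem_commutator ha₁ (mem_top g)))
      apply (inferInstance : Y.Normal).conj_mem
      have h2 : ⁅a₂, g⁆ = a₂ * (g * a₂⁻¹ * g⁻¹) := by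
        simp only [commutatorElement_def]
        group
      rw [h2]
      exact Y.mul_mem ha₂ ((inferInstance : Y.Normal).conj_mem _ (Y.inv_mem ha₂) g)
  obtain ⟨n, hn⟩ := Subgroup.nilpotent_iff_lowerCentralSeries.mp hG
  have := key n
  rwa [hn, bot_sup_eq] at this

theorem eq_bot_of_le_commutator (hG : Group.IsNilpotent G) {X : Subgroup G}
    (h : X ≤ ⁅X, (⊤ : Subgroup G)⁆) : X = ⊥ := by
  rw [eq_bot_iff]
  refine le_of_le_commutator_sup hG ?_
  rwa [sup_bot_eq]

section chain

variable {D D' : Subgroup G} [D.Normal] [D'.Normal]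

/-- `g ↦ ⁅x,g⁆` modulo `D'`, on the elements `g` with `⁅x,g⁆ ∈ D`, if `[D,G] ≤ D'`. -/
noncomputable def phi (hc : ∀ d ∈ D, ∀ g : G, ⁅d, g⁆ ∈ D') (x : G) : ↥(Tsub D x) →* G ⧸ D' :=
  MonoidHom.mk' (fun g => ((⁅x, (g : G)⁆ : G) : G ⧸ D')) (by
    rintro ⟨a, ha⟩ ⟨b, hb⟩
    have hb' := mem_Tsub.mp hb
    have h1 : ⁅x, a * b⁆ = ⁅x, a⁆ * (a * ⁅x, b⁆ * a⁻¹) := by
      simp only [commutatorElement_def]
      group
    have h2 := mk_comm_iff.mpr (hc _ hb' a)
    change ((⁅x, a * b⁆ : G) : G ⧸ D') = ((⁅x, a⁆ : G) : G ⧸ D') * ((⁅x, b⁆ : G) : G ⧸ D')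
    rw [h1, QuotientGroup.mk_mul, QuotientGroup.mk_mul, QuotientGroup.mk_mul, ← h2]
    simp)

theorem phi_apply (hc : ∀ d ∈ D, ∀ g : G, ⁅d, g⁆ ∈ D') (x : G) (g : Tsub D x) :
    phi hc x g = ((⁅x, (g : G)⁆ : G) : G ⧸ D') := rfl

theorem card_range_phi (hc : ∀ d ∈ D, ∀ g : G, ⁅d, g⁆ ∈ D') (x : G) :
    Nat.card (phi hc x).range = (Tsub D' x).relIndex (Tsub D x) := by
  rw [Subgroup.relIndex, ← Subgroup.index_ker]
  congr 1
  ext g
  rw [MonoidHom.mem_ker, phi_apply, QuotientGroup.eq_one_iff, Subgroup.mem_subgroupOf, mem_Tsub]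

theorem normal_range_phi (hc : ∀ d ∈ D, ∀ g : G, ⁅d, g⁆ ∈ D') (x : G) :
    (phi hc x).range.Normal := by
  apply normal_of_central
  rintro _ ⟨g, rfl⟩ q
  obtain ⟨q, rfl⟩ := QuotientGroup.mk_surjective q
  rw [phi_apply]
  exact mk_comm_iff.mpr (hc _ (mem_Tsub.mp g.2) q)

/-- The key step of the chain: `|D:D'| ≤ ∏ |T_j:T'_j|`. -/
theorem step {ι : Type*} [Fintype ι] [Finite G] (x : ι → G) (hx : closure (Set.range x) = ⊤)
    (E : Subgroup G) [E.Normal] (hD : D = ⁅E, (⊤ : Subgroup G)⁆)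
    (hc : ∀ d ∈ D, ∀ g : G, ⁅d, g⁆ ∈ D') :
    D'.relIndex D ≤ ∏ j, (Tsub D' (x j)).relIndex (Tsub D (x j)) := by
  classical
  let A : ι → Subgroup (G ⧸ D') := fun j => (phi hc (x j)).range
  let W : Subgroup (G ⧸ D') := (Finset.univ : Finset ι).sup A
  have h1 : Nat.card W ≤ ∏ j, Nat.card (A j) :=
    card_sup_le _ A (fun j _ => normal_range_phi hc (x j))
  have h2 : ∀ j, Nat.card (A j) = (Tsub D' (x j)).relIndex (Tsub D (x j)) :=
    fun j => card_range_phi hc (x j)
  have hW : W.Normal := by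
    refine Finset.sup_induction (p := fun H : Subgroup (G ⧸ D') => H.Normal)
      Subgroup.normal_bot ?_ ?_
    · intro H hH K hK
      exact Subgroup.sup_normal H K
    · intro k _
      exact normal_range_phi hc (x k)
  let W₀ : Subgroup G := W.comap (QuotientGroup.mk' D')
  haveI hW₀ : W₀.Normal := hW.comap _
  have h3 : D ≤ W₀ := by
    rw [hD, commutator_le]
    intro a ha g _
    have h4 : closure (Set.range x) ≤ Tsub W₀ a := by
      rw [closure_le]
      rintro _ ⟨j, rfl⟩
      refine mem_Tsub.mpr (comm_inv_mem ?_)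
      have h5 : a ∈ Tsub D (x j) := by
        rw [mem_Tsub, hD]
        apply comm_inv_mem
        exact commutator_mem_commutator ha (mem_top _)
      have h6 : phi hc (x j) ⟨a, h5⟩ ∈ W :=
        (Finset.le_sup (f := A) (Finset.mem_univ j)) ⟨⟨a, h5⟩, rfl⟩
      exact h6
    rw [hx] at h4
    exact mem_Tsub.mp (h4 (mem_top g))
  have h4 : D.map (QuotientGroup.mk' D') ≤ W := Subgroup.map_le_iff_le_comap.mpr h3
  rw [relIndex_eq_card_map]
  calc Nat.card ↥(D.map (QuotientGroup.mk' D')) ≤ Nat.card W := Subgroup.card_le_of_le h4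
    _ ≤ ∏ j, Nat.card (A j) := h1
    _ = _ := Finset.prod_congr rfl (fun j _ => h2 j)

end chain

/-- The chain lemma. -/
theorem chain {ι : Type*} [Fintype ι] [Finite G] (hG : Group.IsNilpotent G) (x : ι → G)
    (hx : closure (Set.range x) = ⊤) (E : Subgroup G) [E.Normal] :
    Nat.card ↥⁅E, (⊤ : Subgroup G)⁆ * ∏ j, (Tsub ⁅E, (⊤ : Subgroup G)⁆ (x j)).index ≤
      ∏ j, (Subgroup.centralizer ({x j} : Set G)).index := by
  induction' hn : Nat.card E using Nat.strong_induction_on with n ih generalizing E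
  by_cases hEq : ⁅E, (⊤ : Subgroup G)⁆ = E
  · have hE : E = ⊥ := eq_bot_of_le_commutator hG hEq.ge
    have hD : ⁅E, (⊤ : Subgroup G)⁆ = ⊥ := by rw [hEq, hE]
    have h1 : ∀ j, Tsub ⁅E, (⊤ : Subgroup G)⁆ (x j) = Subgroup.centralizer ({x j} : Set G) := by
      intro j
      ext g
      rw [mem_Tsub, hD, Subgroup.mem_bot, Subgroup.mem_centralizer_singleton_iff,
        commutatorElement_eq_one_iff_mul_comm, eq_comm]
    simp only [h1]
    rw [hD]
    simp
  · have hle : ⁅E, (⊤ : Subgroup G)⁆ ≤ E := commutator_le_left E ⊤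
    have hlt : ⁅E, (⊤ : Subgroup G)⁆ < E := lt_of_le_of_ne hle hEq
    have hcard : Nat.card ↥⁅E, (⊤ : Subgroup G)⁆ < n := by
      rw [← hn]
      exact Set.ncard_lt_ncard hlt (Set.toFinite _)
    set D := ⁅E, (⊤ : Subgroup G)⁆ with hDdef
    have h1 := ih _ hcard D rfl
    set D' := ⁅D, (⊤ : Subgroup G)⁆ with hD'def
    have hc : ∀ d ∈ D, ∀ g : G, ⁅d, g⁆ ∈ D' :=
      fun d hd g => commutator_mem_commutator hd (mem_top g)
    have hDD' : D' ≤ D := commutator_le_left D ⊤
    have h2 := step x hx E hDdef hc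
    have h3 : Nat.card D = D'.relIndex D * Nat.card D' := by
      have h5 := Subgroup.card_mul_index (D'.subgroupOf D)
      rw [Nat.card_congr (Subgroup.subgroupOfEquivOfLe hDD').toEquiv] at h5
      rw [Subgroup.relIndex, mul_comm]
      exact h5.symm
    have h4 : ∀ j, (Tsub D' (x j)).relIndex (Tsub D (x j)) * (Tsub D (x j)).index =
        (Tsub D' (x j)).index := by
      intro j
      apply Subgroup.relIndex_mul_index
      intro g hg
      exact mem_Tsub.mpr (hDD' (mem_Tsub.mp hg))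
    calc Nat.card D * ∏ j, (Tsub D (x j)).index
        = D'.relIndex D * Nat.card D' * ∏ j, (Tsub D (x j)).index := by rw [← h3]
      _ ≤ (∏ j, (Tsub D' (x j)).relIndex (Tsub D (x j))) * Nat.card D' *
            ∏ j, (Tsub D (x j)).index :=
          Nat.mul_le_mul_right _ (Nat.mul_le_mul_right _ h2)
      _ = Nat.card D' * ∏ j, ((Tsub D' (x j)).relIndex (Tsub D (x j)) * (Tsub D (x j)).index) := by
          rw [Finset.prod_mul_distrib]
          ring
      _ = Nat.card D' * ∏ j, (Tsub D' (x j)).index := by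
          simp only [h4]
      _ ≤ _ := h1

/-- The top layer of the count. -/
theorem top_layer {d p : ℕ} (hp0 : 0 < p) [Finite G] (x : Fin d → G)
    (hx : closure (Set.range x) = ⊤) (D : Subgroup G) [D.Normal]
    (h1 : ∀ g h k : G, ⁅⁅g, h⁆, k⁆ ∈ D) (h2 : ∀ g h : G, ⁅g, h⁆ ^ p ∈ D) :
    D.relIndex (commutator G) ≤ p ^ (d * (d - 1) / 2) := by
  classical
  let s : Finset (Σ _ : Fin d, Fin d) := Finset.univ.sigma fun j => Finset.Iio j
  let A : (Σ _ : Fin d, Fin d) → Subgroup (G ⧸ D) :=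
    fun k => zpowers ((⁅x k.1, x k.2⁆ : G) : G ⧸ D)
  have hAn : ∀ k, (A k).Normal := by
    intro k
    apply normal_of_central
    intro a ha q
    obtain ⟨n, rfl⟩ := Subgroup.mem_zpowers_iff.mp ha
    obtain ⟨q, rfl⟩ := QuotientGroup.mk_surjective q
    have h3 : Commute ((⁅x k.1, x k.2⁆ : G) : G ⧸ D) (q : G ⧸ D) := mk_comm_iff.mpr (h1 _ _ _)
    exact (h3.zpow_left n)
  have hAc : ∀ k, Nat.card (A k) ≤ p := by
    intro k
    rw [Nat.card_zpowers]
    apply orderOf_le_of_pow_eq_one hp0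
    rw [← QuotientGroup.mk_pow, QuotientGroup.eq_one_iff]
    exact h2 _ _
  let W : Subgroup (G ⧸ D) := s.sup A
  have hW : W.Normal := by
    refine Finset.sup_induction (p := fun H : Subgroup (G ⧸ D) => H.Normal)
      Subgroup.normal_bot ?_ ?_
    · intro H hH K hK
      exact Subgroup.sup_normal H K
    · intro k _
      exact hAn k
  let W₀ : Subgroup G := W.comap (QuotientGroup.mk' D)
  haveI hW₀ : W₀.Normal := hW.comap _
  have h3 : commutator G ≤ W₀ := by
    have key : ∀ i j : Fin d, i < j → ⁅x j, x i⁆ ∈ W₀ := by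
      intro i j hij
      have hk : (⟨j, i⟩ : Σ _ : Fin d, Fin d) ∈ s := by
        simp [s, hij]
      exact (Finset.le_sup (f := A) hk) (Subgroup.mem_zpowers _)
    apply commutator_le_of_gen x hx
    intro i j
    rcases lt_trichotomy i j with hij | hij | hij
    · exact comm_inv_mem (key i j hij)
    · subst hij
      rw [commutatorElement_self]
      exact W₀.one_mem
    · exact key j i hij
  have h4 : (commutator G).map (QuotientGroup.mk' D) ≤ W := Subgroup.map_le_iff_le_comap.mpr h3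
  rw [relIndex_eq_card_map]
  have h5 : s.card = d * (d - 1) / 2 := by
    rw [Finset.card_sigma]
    simp only [Fin.card_Iio]
    rw [Fin.sum_univ_eq_sum_range (fun i => i) d, Finset.sum_range_id]
  calc _ ≤ Nat.card W := Subgroup.card_le_of_le h4
    _ ≤ ∏ k ∈ s, Nat.card (A k) := card_sup_le s A (fun k _ => hAn k)
    _ ≤ p ^ s.card := Finset.prod_le_pow_card _ _ _ (fun k _ => hAc k)
    _ = _ := by rw [h5]

end Cfsg.Agent.Lib.VLChain
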