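import Mathlib

/-!
# Vaughan-Lee's theorem, part 1: the double count

For every nontrivial character `u` of a finite group `G` into `C_p` let `w u` be a character
not trivial on `ker u`. If `R a b` forces `u(a) w(b) = u(b) w(a)`, then outside any `ker u₀`
there is an `m` such that `R m v` forces `u₁ v = 1` for all characters `u₁` killing `m`.
-/

set_option autoImplicit false
set_option linter.style.haveILetI false

namespace Cfsg.Agent.Lib.VLCount

/-- The cyclic group of order `p`, multiplicatively. -/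
abbrev Cp (p : ℕ) := Multiplicative (ZMod p)

variable {p : ℕ} [hp : Fact p.Prime]

theorem card_Cp : Nat.card (Cp p) = p := by
  simp [Cp]

theorem range_eq_top {A : Type*} [Group A] (φ : A →* Cp p) (h : φ ≠ 1) : φ.range = ⊤ := by
  haveI : Fact (Nat.card (Cp p)).Prime := ⟨by rw [card_Cp]; exact hp.out⟩
  rcases Subgroup.eq_bot_or_eq_top_of_prime_card φ.range with h1 | h1
  · exfalso
    apply h
    rwa [MonoidHom.range_eq_bot_iff] at h1
  · exact h1

theorem index_ker_eq {A : Type*} [Group A] (φ : A →* Cp p) (h : φ ≠ 1) : φ.ker.index = p := by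
  rw [Subgroup.index_ker, range_eq_top φ h, Nat.card_congr Subgroup.topEquiv.toEquiv, card_Cp]

theorem index_ker_le {A : Type*} [Group A] (φ : A →* Cp p) : φ.ker.index ≤ p := by
  by_cases h : φ = 1
  · subst h
    have : (1 : A →* Cp p).ker = ⊤ := MonoidHom.ker_one
    rw [this, Subgroup.index_top]
    exact hp.out.one_lt.le
  · exact (index_ker_eq φ h).le

section count

variable {A : Type*} [Group A] [Finite A]

/-- `p |B ∩ ker φ| = |B|` if `φ` is nontrivial on `B`. -/
theorem card_inf_ker (B : Subgroup A) (φ : A →* Cp p) (h : ∃ a ∈ B, φ a ≠ 1) :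
    p * Nat.card ↥(B ⊓ φ.ker) = Nat.card B := by
  let ψ : B →* Cp p := φ.comp B.subtype
  have hψ : ψ ≠ 1 := by
    obtain ⟨a, ha, h1⟩ := h
    intro h2
    exact h1 (DFunLike.congr_fun h2 ⟨a, ha⟩)
  have h1 := Subgroup.card_mul_index ψ.ker
  rw [index_ker_eq ψ hψ] at h1
  have h2 : Nat.card ψ.ker = Nat.card ↥(B ⊓ φ.ker) := by
    refine Nat.card_congr ⟨fun x => ⟨(x.1 : A), x.1.2, x.2⟩,
      fun x => ⟨⟨x.1, x.2.1⟩, x.2.2⟩, fun x => rfl, fun x => rfl⟩
  rw [h2] at h1
  rw [mul_comm]
  exact h1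

open Classical in
theorem card_filter_mem [Fintype A] (H : Subgroup A) :
    (Finset.univ.filter fun a : A => a ∈ H).card = Nat.card H := by
  rw [Nat.card_eq_fintype_card, Fintype.card_subtype]

open Classical in
theorem card_filter_ne_add [Fintype A] (B : Subgroup A) (φ : A →* Cp p) :
    (Finset.univ.filter fun a : A => a ∈ B ∧ φ a ≠ 1).card + Nat.card ↥(B ⊓ φ.ker) = Nat.card B := by
  rw [← card_filter_mem B, ← card_filter_mem (B ⊓ φ.ker)]
  have : (Finset.univ.filter fun a : A => a ∈ B) =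
      (Finset.univ.filter fun a : A => a ∈ B ∧ φ a ≠ 1) ∪
        (Finset.univ.filter fun a : A => a ∈ B ⊓ φ.ker) := by
    ext a
    simp only [Finset.mem_filter, Finset.mem_univ, true_and, Finset.mem_union, Subgroup.mem_inf,
      MonoidHom.mem_ker]
    tauto
  rw [this, Finset.card_union_of_disjoint]
  rw [Finset.disjoint_left]
  intro a ha hb
  simp only [Finset.mem_filter, Finset.mem_univ, true_and, Subgroup.mem_inf,
      MonoidHom.mem_ker] at ha hb
  exact ha.2 hb.2

open Classical in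
/-- Number of `a ∈ B` with `φ a ≠ 1`, when `φ` is nontrivial on `B`. -/
theorem card_filter_ne [Fintype A] (B : Subgroup A) (φ : A →* Cp p) (h : ∃ a ∈ B, φ a ≠ 1) :
    p * (Finset.univ.filter fun a : A => a ∈ B ∧ φ a ≠ 1).card = (p - 1) * Nat.card B := by
  have h1 := card_inf_ker B φ h
  have h2 := card_filter_ne_add B φ
  have hp1 : 1 ≤ p := hp.out.one_lt.le
  obtain ⟨q, rfl⟩ : ∃ q, p = q + 1 := ⟨p - 1, by omega⟩
  simp only [Nat.add_sub_cancel]
  rw [← h2] at h1 ⊢
  nlinarith

open Classical in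
theorem card_filter_ne_le [Fintype A] (B : Subgroup A) (φ : A →* Cp p) :
    p * (Finset.univ.filter fun a : A => a ∈ B ∧ φ a ≠ 1).card ≤ (p - 1) * Nat.card B := by
  by_cases h : ∃ a ∈ B, φ a ≠ 1
  · exact (card_filter_ne B φ h).le
  · push Not at h
    have : (Finset.univ.filter fun a : A => a ∈ B ∧ φ a ≠ 1) = ∅ := by
      ext a
      simp only [Finset.mem_filter, Finset.mem_univ, true_and, Finset.notMem_empty, iff_false]
      exact fun h3 => h3.2 (h a h3.1)
    rw [this]
    simp

end count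

/-- Evaluation of characters at a point. -/
def ev {G : Type*} [Group G] (m : G) : (G →* Cp p) →* Cp p where
  toFun u := u m
  map_one' := rfl
  map_mul' _ _ := rfl

@[simp] theorem ev_apply {G : Type*} [Group G] (m : G) (u : G →* Cp p) : ev m u = u m := rfl

theorem finite_dual (G : Type*) [Group G] [Finite G] : Finite (G →* Cp p) :=
  Finite.of_injective (fun f => (f : G → Cp p)) DFunLike.coe_injective

theorem exists_good {G : Type*} [Group G] [Finite G] (R : G → G → Prop)
    (w : (G →* Cp p) → (G →* Cp p))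
    (hw1 : ∀ u : G →* Cp p, u ≠ 1 → ∃ a, u a = 1 ∧ w u a ≠ 1)
    (hw2 : ∀ (u : G →* Cp p) (a b : G), u ≠ 1 → R a b →
      (u a).toAdd * (w u b).toAdd = (u b).toAdd * (w u a).toAdd)
    (u₀ : G →* Cp p) (hu₀ : u₀ ≠ 1) :
    ∃ m, u₀ m ≠ 1 ∧ ∀ v, R m v → ∀ u₁ : G →* Cp p, u₁ m = 1 → u₁ v = 1 := by
  classical
  by_contra hcon
  push Not at hcon
  haveI : Finite (G →* Cp p) := finite_dual G
  letI := Fintype.ofFinite G
  letI := Fintype.ofFinite (G →* Cp p)
  let Y : Finset G := Finset.univ.filter fun m => u₀ m ≠ 1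
  let U : Finset (G →* Cp p) := Finset.univ.filter fun u => u ≠ 1
  let r : G → (G →* Cp p) → Prop := fun m u => u m = 1 ∧ w u m = 1
  have dbl := Finset.sum_card_bipartiteAbove_eq_sum_card_bipartiteBelow (s := Y) (t := U) r
  have hp1 : 1 ≤ p := hp.out.one_lt.le
  -- lower bound
  have hlow : ∀ m ∈ Y, (p - 1) * Nat.card (G →* Cp p) ≤ p * (p * (U.bipartiteAbove r m).card) := by
    intro m hm
    have hm' : u₀ m ≠ 1 := (Finset.mem_filter.mp hm).2
    obtain ⟨v, hv, u₁, hu1, hu2⟩ := hcon m hm'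
    have h1 := card_filter_ne (ev m : (G →* Cp p) →* Cp p).ker (ev v)
      ⟨u₁, by simpa [MonoidHom.mem_ker] using hu1, by simpa using hu2⟩
    have hsub : (Finset.univ.filter fun a : G →* Cp p =>
        a ∈ (ev m : (G →* Cp p) →* Cp p).ker ∧ ev v a ≠ 1) ⊆ U.bipartiteAbove r m := by
      intro u hu
      simp only [Finset.mem_filter, Finset.mem_univ, true_and, MonoidHom.mem_ker, ev_apply] at hu
      obtain ⟨hu3, hu4⟩ := hu
      have hune : u ≠ 1 := by
        rintro rfl
        exact hu4 rfl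
      refine Finset.mem_filter.mpr ⟨Finset.mem_filter.mpr ⟨Finset.mem_univ _, hune⟩, hu3, ?_⟩
      have h2 := hw2 u m v hune hv
      rw [hu3] at h2
      have h3 : (u v).toAdd ≠ 0 := by
        intro h4
        exact hu4 (by simpa using congrArg Multiplicative.ofAdd h4)
      have h4 : (w u m).toAdd = 0 := by
        have := h2.symm
        simp only [toAdd_one, zero_mul] at this
        exact (mul_eq_zero.mp this).resolve_left h3
      simpa using congrArg Multiplicative.ofAdd h4
    have h5 := Finset.card_le_card hsub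
    have h6 : Nat.card (G →* Cp p) ≤ p * Nat.card (ev m : (G →* Cp p) →* Cp p).ker := by
      have h7 := Subgroup.card_mul_index (ev m : (G →* Cp p) →* Cp p).ker
      have h8 := index_ker_le (ev m : (G →* Cp p) →* Cp p)
      rw [← h7, mul_comm]
      exact Nat.mul_le_mul_right _ h8
    calc (p - 1) * Nat.card (G →* Cp p)
        ≤ (p - 1) * (p * Nat.card (ev m : (G →* Cp p) →* Cp p).ker) :=
          Nat.mul_le_mul_left _ h6
      _ = p * ((p - 1) * Nat.card (ev m : (G →* Cp p) →* Cp p).ker) := by ring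
      _ = p * (p * (Finset.univ.filter fun a : G →* Cp p =>
            a ∈ (ev m : (G →* Cp p) →* Cp p).ker ∧ ev v a ≠ 1).card) := by rw [← h1]; congr!
      _ ≤ _ := Nat.mul_le_mul_left _ (Nat.mul_le_mul_left _ h5)
  -- upper bound
  have hup : ∀ u ∈ U, p * (p * (p * (Y.bipartiteBelow r u).card)) ≤ (p - 1) * Nat.card G := by
    intro u hu
    have hune : u ≠ 1 := (Finset.mem_filter.mp hu).2
    obtain ⟨a, ha1, ha2⟩ := hw1 u hune
    have h1 := card_inf_ker u.ker (w u) ⟨a, ha1, ha2⟩
    have h2 : p * Nat.card u.ker = Nat.card G := by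
      have h3 := Subgroup.card_mul_index u.ker
      rw [index_ker_eq u hune] at h3
      rw [mul_comm]
      exact h3
    have h3 := card_filter_ne_le (u.ker ⊓ (w u).ker) u₀
    have hsub : Y.bipartiteBelow r u ⊆ Finset.univ.filter fun a : G =>
        a ∈ u.ker ⊓ (w u).ker ∧ u₀ a ≠ 1 := by
      intro m hm
      have hm' := Finset.mem_filter.mp hm
      refine Finset.mem_filter.mpr ⟨Finset.mem_univ _, ⟨hm'.2.1, hm'.2.2⟩, ?_⟩
      exact (Finset.mem_filter.mp hm'.1).2
    have h5 := Finset.card_le_card hsub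
    calc p * (p * (p * (Y.bipartiteBelow r u).card))
        ≤ p * (p * (p * (Finset.univ.filter fun a : G =>
            a ∈ u.ker ⊓ (w u).ker ∧ u₀ a ≠ 1).card)) :=
          Nat.mul_le_mul_left _ (Nat.mul_le_mul_left _ (Nat.mul_le_mul_left _ h5))
      _ ≤ p * (p * ((p - 1) * Nat.card ↥(u.ker ⊓ (w u).ker))) :=
          Nat.mul_le_mul_left _ (Nat.mul_le_mul_left _ h3)
      _ = (p - 1) * (p * (p * Nat.card ↥(u.ker ⊓ (w u).ker))) := by ring
      _ = (p - 1) * Nat.card G := by rw [h1, h2]
  -- counts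
  have hY : p * Y.card = (p - 1) * Nat.card G := by
    obtain ⟨a, ha⟩ : ∃ a, u₀ a ≠ 1 := by
      by_contra h
      push Not at h
      exact hu₀ (MonoidHom.ext h)
    have h1 := card_filter_ne (⊤ : Subgroup G) u₀ ⟨a, Subgroup.mem_top a, ha⟩
    have h2 : (Finset.univ.filter fun a : G => a ∈ (⊤ : Subgroup G) ∧ u₀ a ≠ 1) = Y := by
      ext x
      simp [Y]
    rw [h2] at h1
    rw [h1, Nat.card_congr Subgroup.topEquiv.toEquiv]
  have hU : U.card < Nat.card (G →* Cp p) := by
    rw [Nat.card_eq_fintype_card, ← Finset.card_univ]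
    apply Finset.card_lt_card
    refine ⟨Finset.subset_univ _, fun h => ?_⟩
    have := h (Finset.mem_univ (1 : G →* Cp p))
    simp [U] at this
  have hs1 : Y.card * ((p - 1) * Nat.card (G →* Cp p)) ≤
      p * (p * ∑ a ∈ Y, (U.bipartiteAbove r a).card) := by
    rw [Finset.mul_sum, Finset.mul_sum, ← smul_eq_mul, ← Finset.sum_const]
    exact Finset.sum_le_sum hlow
  have hs2 : p * (p * (p * ∑ b ∈ U, (Y.bipartiteBelow r b).card)) ≤
      U.card * ((p - 1) * Nat.card G) := by
    rw [Finset.mul_sum, Finset.mul_sum, Finset.mul_sum, ← smul_eq_mul, ← Finset.sum_const]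
    exact Finset.sum_le_sum hup
  rw [dbl] at hs1
  have h1 : (p - 1) * Nat.card G * ((p - 1) * Nat.card (G →* Cp p)) ≤
      U.card * ((p - 1) * Nat.card G) := by
    calc (p - 1) * Nat.card G * ((p - 1) * Nat.card (G →* Cp p))
        = p * (Y.card * ((p - 1) * Nat.card (G →* Cp p))) := by rw [← hY]; ring
      _ ≤ p * (p * (p * ∑ b ∈ U, (Y.bipartiteBelow r b).card)) :=
          Nat.mul_le_mul_left _ hs1
      _ ≤ _ := hs2
  have hpos : 0 < (p - 1) * Nat.card G := by
    have : 1 < p := hp.out.one_lt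
    exact Nat.mul_pos (by omega) Nat.card_pos
  have h2 : (p - 1) * Nat.card (G →* Cp p) ≤ U.card := by
    rw [mul_comm U.card] at h1
    exact Nat.le_of_mul_le_mul_left h1 hpos
  have h3 : Nat.card (G →* Cp p) ≤ (p - 1) * Nat.card (G →* Cp p) := by
    have : 1 < p := hp.out.one_lt
    exact Nat.le_mul_of_pos_left _ (by omega)
  omega

end Cfsg.Agent.Lib.VLCount
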