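import Mathlib
import Cfsg.Agent.Lib.Frat
import Cfsg.Agent.Lib.VLCount
import Cfsg.Agent.Lib.VLChain

/-!
# Vaughan-Lee's theorem, part 3: characters and the alternating forms
-/

set_option autoImplicit false
set_option linter.style.haveILetI false

namespace Cfsg.Agent.Lib.VLForm

open Subgroup
open scoped commutatorElement
open Cfsg.Agent.Lib.VLCount Cfsg.Agent.Lib.VLChain Cfsg.Agent.Lib.Frat

variable {G : Type*} [Group G] {p : ℕ} [hp : Fact p.Prime]

/-- A normal subgroup of index `p` is the kernel of a character. -/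
theorem exists_char_of_index {K : Subgroup G} [K.Normal] (hK : K.index = p) :
    ∃ l : G →* Cp p, l.ker = K := by
  have h1 : Nat.card (G ⧸ K) = p := by
    rw [← Subgroup.index_eq_card]
    exact hK
  let e : (G ⧸ K) ≃* Cp p := mulEquivOfPrimeCardEq h1 card_Cp
  refine ⟨e.toMonoidHom.comp (QuotientGroup.mk' K), ?_⟩
  ext x
  simp

/-- Characters separate points modulo subgroups containing the Frattini subgroup. -/
theorem exists_char_sep [Finite G] (hG : IsPGroup p G) {H : Subgroup G} (hH : frattini G ≤ H)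
    {v : G} (hv : v ∉ H) : ∃ u : G →* Cp p, (∀ h ∈ H, u h = 1) ∧ u v ≠ 1 := by
  let S : Set (Subgroup G) := {K | H ≤ K ∧ v ∉ K}
  obtain ⟨K, hK⟩ := S.toFinite.exists_maximal ⟨H, le_rfl, hv⟩
  have hHK : H ≤ K := hK.1.1
  have hvK : v ∉ K := hK.1.2
  have hΦK : frattini G ≤ K := hH.trans hHK
  haveI hKn : K.Normal := normal_of_commutator_le ((commutator_le_frattini hG).trans hΦK)
  set q : G ⧸ K := (v : G ⧸ K) with hqdef
  have hq : q ≠ 1 := by
    rw [hqdef, Ne, QuotientGroup.eq_one_iff]
    exact hvK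
  have hpow : ∀ a : G ⧸ K, a ^ p = 1 := by
    intro a
    obtain ⟨a, rfl⟩ := QuotientGroup.mk_surjective a
    rw [← QuotientGroup.mk_pow, QuotientGroup.eq_one_iff]
    exact hΦK (pow_mem_frattini hG a)
  have hord : ∀ a : G ⧸ K, a ≠ 1 → orderOf a = p := fun a ha => orderOf_eq_prime (hpow a) ha
  have hkey : ∀ a : G ⧸ K, a ≠ 1 → q ∈ zpowers a := by
    intro a ha
    by_contra h
    let L : Subgroup G := (zpowers a).comap (QuotientGroup.mk' K)
    have hKL : K ≤ L := by
      intro x hx
      change (x : G ⧸ K) ∈ zpowers a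
      rw [(QuotientGroup.eq_one_iff x).mpr hx]
      exact one_mem _
    have hLS : L ∈ S := ⟨hHK.trans hKL, fun hvL => h hvL⟩
    have hLK := hK.2 hLS hKL
    obtain ⟨y, rfl⟩ := QuotientGroup.mk_surjective a
    have hy : y ∈ L := by
      change (y : G ⧸ K) ∈ zpowers (y : G ⧸ K)
      exact mem_zpowers _
    exact ha ((QuotientGroup.eq_one_iff y).mpr (hLK hy))
  have htop : zpowers q = ⊤ := by
    rw [eq_top_iff]
    intro a _
    by_cases ha : a = 1
    · rw [ha]
      exact one_mem _
    · have h1 : zpowers q ≤ zpowers a := zpowers_le.mpr (hkey a ha)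
      have h2 : zpowers q = zpowers a := Subgroup.eq_of_le_of_card_ge h1 (by
        rw [Nat.card_zpowers, Nat.card_zpowers, hord a ha, hord q hq])
      rw [h2]
      exact mem_zpowers a
  have hcard : Nat.card (G ⧸ K) = p := by
    rw [← hord q hq, ← Nat.card_zpowers, htop]
    exact (Nat.card_congr Subgroup.topEquiv.toEquiv).symm
  obtain ⟨u, hu⟩ := exists_char_of_index (p := p) (K := K) (by rw [Subgroup.index_eq_card]; exact hcard)
  refine ⟨u, fun h hh => ?_, fun h => hvK ?_⟩
  · have : h ∈ u.ker := by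
      rw [hu]
      exact hHK hh
    exact this
  · rw [← hu]
    exact h

section lam

/-- A character of `G'` killing `Y` and `[G',G]`, when `Y < G'`. -/
theorem exists_lam [Finite G] (hG : IsPGroup p G) {Y : Subgroup G} [Y.Normal]
    (hY : Y ≤ commutator G) (hne : Y ≠ commutator G) :
    ∃ l : ↥(commutator G) →* Cp p, l ≠ 1 ∧ (∀ z : ↥(commutator G), (z : G) ∈ Y → l z = 1) ∧
      (∀ z : ↥(commutator G), (z : G) ∈ ⁅commutator G, (⊤ : Subgroup G)⁆ → l z = 1) := by
  have hnil : Group.IsNilpotent G := hG.isNilpotent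
  let N₁ : Subgroup G := ⁅commutator G, (⊤ : Subgroup G)⁆ ⊔ Y
  have h1 : ¬ commutator G ≤ N₁ := fun h => hne (le_antisymm hY (le_of_le_commutator_sup hnil h))
  have h2 : N₁.subgroupOf (commutator G) ≠ ⊤ := by
    intro h3
    exact h1 (Subgroup.subgroupOf_eq_top.mp h3)
  obtain ⟨K, hK, hNK⟩ := (eq_top_or_exists_le_coatom (N₁.subgroupOf (commutator G))).resolve_left h2
  have hGp : IsPGroup p ↥(commutator G) := hG.to_subgroup _
  have hidx : K.index = p := index_eq_of_isCoatom hGp hK
  haveI hKn : K.Normal := normal_of_commutator_le (commutator_and_pow_mem_of_isCoatom hGp hK).1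
  obtain ⟨l, hl⟩ := exists_char_of_index (K := K) hidx
  refine ⟨l, ?_, ?_, ?_⟩
  · rintro rfl
    apply hK.1
    rw [← hl]
    exact MonoidHom.ker_one
  · intro z hz
    have : z ∈ l.ker := by
      rw [hl]
      apply hNK
      exact Subgroup.mem_subgroupOf.mpr (Subgroup.mem_sup_right hz)
    exact this
  · intro z hz
    have : z ∈ l.ker := by
      rw [hl]
      apply hNK
      exact Subgroup.mem_subgroupOf.mpr (Subgroup.mem_sup_left hz)
    exact this

end lam

theorem comm_mem (a b : G) : ⁅a, b⁆ ∈ commutator G :=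
  commutator_mem_commutator (mem_top a) (mem_top b)

section form

variable (l : ↥(commutator G) →* Cp p)
  (hl : ∀ z : ↥(commutator G), (z : G) ∈ ⁅commutator G, (⊤ : Subgroup G)⁆ → l z = 1)

include hl in
theorem l_conj (b : G) (z : ↥(commutator G)) :
    l ⟨b * z * b⁻¹, (inferInstance : (commutator G).Normal).conj_mem _ z.2 b⟩ = l z := by
  have h1 : (⟨b * z * b⁻¹, (inferInstance : (commutator G).Normal).conj_mem _ z.2 b⟩ :
      ↥(commutator G)) = ⟨⁅(z : G), b⁆⁻¹, (commutator G).inv_mem (comm_mem _ _)⟩ * z := by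
    apply Subtype.ext
    simp only [Subgroup.coe_mul, commutatorElement_def]
    group
  rw [h1, map_mul]
  have h2 : l ⟨⁅(z : G), b⁆⁻¹, (commutator G).inv_mem (comm_mem _ _)⟩ = 1 := by
    apply hl
    exact Subgroup.inv_mem _ (commutator_mem_commutator z.2 (mem_top b))
  rw [h2, one_mul]

/-- The bimultiplicative form. -/
noncomputable def innerHom (a : G) : G →* Cp p :=
  MonoidHom.mk' (fun b => l ⟨⁅a, b⁆, comm_mem a b⟩) (by
    intro b b'
    have h1 : (⟨⁅a, b * b'⁆, comm_mem a _⟩ : ↥(commutator G)) =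
        ⟨⁅a, b⁆, comm_mem a b⟩ * ⟨b * (⟨⁅a, b'⁆, comm_mem a b'⟩ : ↥(commutator G)) * b⁻¹,
          (inferInstance : (commutator G).Normal).conj_mem _ (comm_mem a b') b⟩ := by
      apply Subtype.ext
      simp only [Subgroup.coe_mul, commutatorElement_def]
      group
    change l ⟨⁅a, b * b'⁆, comm_mem a _⟩ = l ⟨⁅a, b⁆, comm_mem a b⟩ * l ⟨⁅a, b'⁆, comm_mem a b'⟩
    rw [h1, map_mul, l_conj l hl])

theorem innerHom_apply (a b : G) : innerHom l hl a b = l ⟨⁅a, b⁆, comm_mem a b⟩ := rfl

theorem innerHom_swap (a b : G) : innerHom l hl b a = (innerHom l hl a b)⁻¹ := by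
  rw [innerHom_apply, innerHom_apply, ← map_inv]
  congr 1
  apply Subtype.ext
  simp

/-- The form as a homomorphism into the dual. -/
noncomputable def form : G →* (G →* Cp p) :=
  MonoidHom.mk' (fun a => innerHom l hl a) (by
    intro a a'
    refine MonoidHom.ext fun b => ?_
    have h1 := innerHom_swap l hl b (a * a')
    have h2 := innerHom_swap l hl b a
    have h3 := innerHom_swap l hl b a'
    rw [MonoidHom.mul_apply, h1, map_mul, h2, h3, mul_inv])

theorem form_apply (a b : G) : form l hl a b = l ⟨⁅a, b⁆, comm_mem a b⟩ := rfl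

theorem form_self (a : G) : form l hl a a = 1 := by
  rw [form_apply]
  have : (⟨⁅a, a⁆, comm_mem a a⟩ : ↥(commutator G)) = 1 := by
    apply Subtype.ext
    simp
  rw [this, map_one]

theorem form_swap (a b : G) : form l hl b a = (form l hl a b)⁻¹ := innerHom_swap l hl a b

theorem frattini_le_ker_form [Finite G] : frattini G ≤ (form l hl).ker := by
  apply frattini_le_of_commutator_pow (p := p)
  · exact Abelianization.commutator_subset_ker (form l hl)
  · intro x
    rw [MonoidHom.mem_ker, map_pow]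
    ext y
    rw [MonoidHom.pow_apply, MonoidHom.one_apply]
    have := pow_card_eq_one' (x := form l hl x y)
    rwa [card_Cp] at this

end form

theorem isCoatom_ker [Finite G] (u : G →* Cp p) (hu : u ≠ 1) : IsCoatom u.ker := by
  have hidx := index_ker_eq u hu
  constructor
  · intro h
    rw [h, Subgroup.index_top] at hidx
    exact hp.out.one_lt.ne hidx
  · intro L hL
    have h1 := Subgroup.relIndex_mul_index hL.le
    rw [hidx] at h1
    have h2 : L.index ∣ p := ⟨_, by rw [← h1, mul_comm]⟩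
    rcases (Nat.dvd_prime hp.out).mp h2 with h3 | h3
    · exact Subgroup.index_eq_one.mp h3
    · exfalso
      rw [h3] at h1
      have h4 : u.ker.relIndex L = 1 := by
        have := hp.out.pos
        nlinarith
      have h5 : L ≤ u.ker := Subgroup.relIndex_eq_one.mp h4
      exact absurd (le_antisymm hL.le h5) hL.ne

/-- The form lemma: the key structural input. -/
theorem form_lemma [Finite G] (hG : IsPGroup p G)
    (hB : ∀ M : Subgroup G, IsCoatom M → (commutator M).map M.subtype ≠ commutator G)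
    (u : G →* Cp p) (hu : u ≠ 1) :
    ∃ w : G →* Cp p, (∃ a, u a = 1 ∧ w a ≠ 1) ∧
      ∀ a b, ⁅a, b⁆ ∈ ⁅frattini G, (⊤ : Subgroup G)⁆ →
        (u a).toAdd * (w b).toAdd = (u b).toAdd * (w a).toAdd := by
  classical
  have hMco : IsCoatom u.ker := isCoatom_ker u hu
  set M := u.ker with hMdef
  let Y : Subgroup G := (commutator M).map M.subtype
  have hYeq : Y = ⁅M, M⁆ := map_subtype_commutator M
  haveI hMn : M.Normal := MonoidHom.normal_ker u
  haveI hYn : Y.Normal := by
    rw [hYeq]
    infer_instance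
  have hY : Y ≤ commutator G := by
    rw [hYeq]
    exact commutator_mono le_top le_top
  obtain ⟨l, hl1, hl2, hl3⟩ := exists_lam hG hY (hB M hMco)
  -- the form
  let c := form l hl3
  have hcY : ∀ a ∈ M, ∀ b ∈ M, c a b = 1 := by
    intro a ha b hb
    rw [form_apply]
    apply hl2
    rw [hYeq]
    exact commutator_mem_commutator ha hb
  -- choose `t`
  obtain ⟨t, ht⟩ : ∃ t, u t = Multiplicative.ofAdd (1 : ZMod p) := by
    have h1 := range_eq_top u hu
    have h2 : Multiplicative.ofAdd (1 : ZMod p) ∈ u.range := by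
      rw [h1]
      exact mem_top _
    exact h2
  let w : G →* Cp p := c t
  have hwt : w t = 1 := form_self l hl3 t
  haveI : NeZero p := ⟨hp.out.ne_zero⟩
  have hval : ∀ a : G, (((u a).toAdd.val : ℕ) : ZMod p) = (u a).toAdd := fun a => by
    simp
  have hdec : ∀ a : G, ∃ a₀, a₀ ∈ M ∧ a = t ^ (u a).toAdd.val * a₀ := by
    intro a
    refine ⟨(t ^ (u a).toAdd.val)⁻¹ * a, ?_, by group⟩
    rw [hMdef, MonoidHom.mem_ker, map_mul, map_inv, map_pow, ht, ← ofAdd_nsmul, nsmul_eq_mul,
      mul_one, hval]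
    simp
  have hwa : ∀ a a₀ : G, ∀ i : ℕ, a = t ^ i * a₀ → w a = w a₀ := by
    intro a a₀ i h
    rw [h, map_mul, map_pow, hwt, one_pow, one_mul]
  have key : ∀ a b, (c a b).toAdd = (u a).toAdd * (w b).toAdd - (u b).toAdd * (w a).toAdd := by
    intro a b
    obtain ⟨a₀, ha₀, ha⟩ := hdec a
    obtain ⟨b₀, hb₀, hb⟩ := hdec b
    have h1 : c a b = (w b) ^ (u a).toAdd.val * (w a)⁻¹ ^ (u b).toAdd.val := by
      have h2 : c a₀ b = (w a₀)⁻¹ ^ (u b).toAdd.val := by
        conv_lhs => rw [hb]
        rw [map_mul, map_pow, hcY a₀ ha₀ b₀ hb₀, mul_one]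
        congr 1
        exact form_swap l hl3 t a₀
      rw [← hwa a a₀ _ ha] at h2
      conv_lhs => rw [ha]
      rw [map_mul, map_pow, MonoidHom.mul_apply, MonoidHom.pow_apply, h2]
    rw [h1, toAdd_mul, toAdd_pow, toAdd_pow, toAdd_inv, nsmul_eq_mul, nsmul_eq_mul, hval, hval]
    ring
  refine ⟨w, ?_, ?_⟩
  · by_contra hcon
    push Not at hcon
    apply hl1
    have hw1 : ∀ a, w a = 1 := by
      intro a
      obtain ⟨a₀, ha₀, ha⟩ := hdec a
      rw [hwa a a₀ _ ha]
      exact hcon a₀ ha₀
    have hc1 : ∀ a b, c a b = 1 := by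
      intro a b
      have := key a b
      rw [hw1 a, hw1 b] at this
      simp only [toAdd_one, mul_zero, sub_zero] at this
      simpa using congrArg Multiplicative.ofAdd this
    refine MonoidHom.ext fun z => ?_
    have hle : commutator G ≤ l.ker.map (commutator G).subtype :=
      commutator_le.mpr fun a _ b _ => ⟨⟨⁅a, b⁆, comm_mem a b⟩, hc1 a b, rfl⟩
    obtain ⟨z', hz', hzz⟩ := hle z.2
    have h3 : z' = z := Subtype.ext hzz
    rw [← h3, MonoidHom.one_apply]
    exact hz'
  · intro a b hab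
    have h1 : c a b = 1 := by
      have hle : ⁅frattini G, (⊤ : Subgroup G)⁆ ≤ l.ker.map (commutator G).subtype := by
        rw [commutator_le]
        intro x hx g _
        have h2 : c x = 1 := frattini_le_ker_form l hl3 hx
        exact ⟨⟨⁅x, g⁆, comm_mem x g⟩, DFunLike.congr_fun h2 g, rfl⟩
      obtain ⟨z', hz', hzz⟩ := hle hab
      have h3 : z' = ⟨⁅a, b⁆, comm_mem a b⟩ := Subtype.ext hzz
      rw [h3] at hz'
      exact hz'
    have h2 := key a b
    rw [h1, toAdd_one] at h2
    exact (sub_eq_zero.mp h2.symm)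

end Cfsg.Agent.Lib.VLForm
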