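import Mathlib
import Cfsg.Agent.Lib.WYCoc
import Cfsg.Agent.Lib.Frat

/-!
# The Wielandt--Yoshida transfer argument

Let `S` be a `p`-subgroup of index prime to `p`, `W ≤ S` weakly closed, and `f : S → A` a hom into an abelian
group of exponent `p`, stable under `N_G(W)`. If `f` has trivial transfer on `S`, and the norm
condition holds for all intermediate sections, then `f` is trivial.
-/

set_option autoImplicit false
set_option linter.style.haveILetI false
set_option linter.unusedSectionVars false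

namespace Cfsg.Agent.Lib.WYMain

open Subgroup MulAction Cfsg.Agent.Lib.WYCoc

universe u v

variable {G : Type u} [Group G] [Finite G] {A : Type v} [CommGroup A] {p : ℕ} [hp : Fact p.Prime]

theorem iterate_toPerm {Ω : Type*} [MulAction G Ω] (x : G) (q : Ω) (k : ℕ) :
    (MulAction.toPerm x : Equiv.Perm Ω)^[k] q = x ^ k • q := by
  induction k with
  | zero => simp
  | succ k ih =>
    rw [Function.iterate_succ_apply', ih, pow_succ', mul_smul]
    rfl

theorem orderOf_conj' (t x : G) : orderOf (t⁻¹ * x * t) = orderOf x := by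
  have h1 : t⁻¹ * x * t = (MulAut.conj t⁻¹).toMonoidHom x := by simp
  rw [h1, orderOf_injective _ (MulAut.conj t⁻¹).injective]

section Cycle

variable (S : Subgroup G) (f : S →* A)

/-- The cycle product. -/
theorem cycle_prod (x : G) (q : G ⧸ S) :
    ∏ k ∈ Finset.range (Function.minimalPeriod (MulAction.toPerm x : Equiv.Perm (G ⧸ S)) q),
      coc S f x ((MulAction.toPerm x : Equiv.Perm (G ⧸ S))^[k] q) =
    ext f ((Quotient.out q)⁻¹ *
      x ^ Function.minimalPeriod (MulAction.toPerm x : Equiv.Perm (G ⧸ S)) q * Quotient.out q) := by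
  set m := Function.minimalPeriod (MulAction.toPerm x : Equiv.Perm (G ⧸ S)) q with hm
  have h1 : x ^ m • q = q := by
    rw [← iterate_toPerm]
    exact Function.iterate_minimalPeriod
  rw [← coc_of_fixed S f h1, coc_pow]
  apply Finset.prod_congr rfl
  intro k _
  rw [iterate_toPerm]

/-- Nontrivial cycles vanish under the inductive hypothesis. -/
theorem cycle_prod_eq_one (N : ℕ) (IH : ∀ y : G, orderOf y < N → ext f y = 1) (w : G)
    (hw : orderOf w = N) (q : G ⧸ S) (hq : w • q ≠ q) :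
    ∏ k ∈ Finset.range (Function.minimalPeriod (MulAction.toPerm w : Equiv.Perm (G ⧸ S)) q),
      coc S f w ((MulAction.toPerm w : Equiv.Perm (G ⧸ S))^[k] q) = 1 := by
  rw [cycle_prod]
  set m := Function.minimalPeriod (MulAction.toPerm w : Equiv.Perm (G ⧸ S)) q with hm
  apply IH
  rw [orderOf_conj']
  have hN : 0 < N := hw ▸ orderOf_pos w
  have hdvd : m ∣ N := by
    apply Function.IsPeriodicPt.minimalPeriod_dvd
    change (MulAction.toPerm w : Equiv.Perm (G ⧸ S))^[N] q = q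
    rw [iterate_toPerm, ← hw, pow_orderOf_eq_one, one_smul]
  have hm1 : m ≠ 1 := by
    intro h
    apply hq
    have := Function.minimalPeriod_eq_one_iff_isFixedPt.mp h
    exact this
  have hm0 : 0 < m := Nat.pos_of_dvd_of_pos hdvd hN
  rw [orderOf_pow' w hm0.ne', hw, Nat.gcd_eq_right hdvd]
  exact Nat.div_lt_self hN (by omega)

/-- Under the inductive hypothesis, only fixed points contribute. -/
theorem prod_eq_prod_fixed [Fintype (G ⧸ S)] [DecidableEq (G ⧸ S)] (N : ℕ)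
    (IH : ∀ y : G, orderOf y < N → ext f y = 1) (w : G)
    (hw : orderOf w = N) (B : Finset (G ⧸ S)) (hB : ∀ q ∈ B, w • q ∈ B) :
    ∏ q ∈ B, coc S f w q = ∏ q ∈ B.filter (fun q => w • q = q), coc S f w q := by
  rw [Finset.prod_filter]
  apply prod_eq_of_cycles (MulAction.toPerm w) _ _ _ B rfl hB
  intro q _
  by_cases hq : w • q = q
  · have h1 : Function.minimalPeriod (MulAction.toPerm w : Equiv.Perm (G ⧸ S)) q = 1 :=
      Function.minimalPeriod_eq_one_iff_isFixedPt.mpr hq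
    rw [h1]
    simp [hq]
  · rw [cycle_prod_eq_one S f N IH w hw q hq]
    symm
    apply Finset.prod_eq_one
    intro k _
    rw [iterate_toPerm]
    rw [if_neg]
    intro h
    apply hq
    have h2 : w ^ k • (w • q) = w ^ k • q := by
      rw [smul_smul, ← pow_succ, pow_succ', mul_smul, h]
    exact smul_left_cancel _ h2

end Cycle

section Cosets

/-- Cosets of a normal subgroup of prime index. -/
theorem exists_pow_coset {U R : Subgroup G} (hUR : U ≤ R)
    (hn : ∀ h ∈ R, ∀ u ∈ U, h * u * h⁻¹ ∈ U)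
    (hi : U.relIndex R = p) {z : G} (hz : z ∈ R) (hzU : z ∉ U) :
    (∀ r ∈ R, ∃ i < p, (z ^ i)⁻¹ * r ∈ U) ∧ (∀ i < p, ∀ j < p, (z ^ i)⁻¹ * z ^ j ∈ U → i = j) := by
  classical
  haveI hN : (U.subgroupOf R).Normal := by
    refine ⟨fun u hu g => ?_⟩
    exact hn g g.2 u hu
  let Q := R ⧸ U.subgroupOf R
  have hcard : Nat.card Q = p := hi
  let π : R →* Q := QuotientGroup.mk' _
  have hmem : ∀ r : R, π r = 1 ↔ (r : G) ∈ U := by
    intro r
    change (r : Q) = 1 ↔ _
    rw [QuotientGroup.eq_one_iff]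
    exact Iff.rfl
  let z' : R := ⟨z, hz⟩
  have hz1 : π z' ≠ 1 := fun h => hzU ((hmem z').1 h)
  have hord : orderOf (π z') = p := by
    have h1 : orderOf (π z') ∣ p := by
      rw [← hcard]; exact orderOf_dvd_natCard _
    rcases (Nat.dvd_prime hp.out).1 h1 with h2 | h2
    · exact absurd (orderOf_eq_one_iff.mp h2) hz1
    · exact h2
  have hpowers : ∀ r : R, ∃ i < p, π r = π z' ^ i := by
    intro r
    have h1 : Subgroup.zpowers (π z') = ⊤ := by
      exact zpowers_eq_top_of_prime_card hcard hz1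
    have h2 : π r ∈ Subgroup.zpowers (π z') := by rw [h1]; trivial
    obtain ⟨k, hk⟩ := h2
    refine ⟨(k % p).toNat, ?_, ?_⟩
    · have hp0 : (0 : ℤ) < p := by exact_mod_cast hp.out.pos
      have h3 := Int.emod_lt_of_pos k hp0
      have h4 := Int.emod_nonneg k hp0.ne'
      omega
    · have hp0 : (0 : ℤ) < p := by exact_mod_cast hp.out.pos
      have h4 := Int.emod_nonneg k hp0.ne'
      rw [← zpow_natCast, Int.toNat_of_nonneg h4, ← hk]
      have h5 := zpow_mod_orderOf (π z') k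
      rw [hord] at h5
      exact h5.symm
  constructor
  · intro r hr
    obtain ⟨i, hi, hi2⟩ := hpowers ⟨r, hr⟩
    refine ⟨i, hi, ?_⟩
    have h3 := (hmem ((z' ^ i)⁻¹ * ⟨r, hr⟩)).1 (by
      rw [map_mul, map_inv, map_pow, hi2, inv_mul_cancel])
    simpa [z'] using h3
  · intro i hi j hj hij
    have h3 : π ((z' ^ i)⁻¹ * z' ^ j) = 1 := (hmem _).2 (by simpa [z'] using hij)
    rw [map_mul, map_inv, map_pow, map_pow, inv_mul_eq_one] at h3
    exact pow_injOn_Iio_orderOf (by simpa [hord] using hi) (by simpa [hord] using hj) h3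

end Cosets

section Block

variable (S W : Subgroup G) (f : S →* A)

/-- The hom given by the cocycle on an invariant finset. -/
noncomputable def blockHom [Fintype (G ⧸ S)] (U : Subgroup G) (B : Finset (G ⧸ S))
    (hB : ∀ u ∈ U, ∀ q ∈ B, u • q ∈ B) : U →* A :=
  MonoidHom.mk' (fun u => ∏ q ∈ B, coc S f (u : G) q) (by
    intro a b
    simp only [Subgroup.coe_mul]
    simp_rw [coc_mul]
    rw [Finset.prod_mul_distrib]
    congr 1
    refine Finset.prod_bij (fun q _ => (b : G) • q) (fun q hq => hB _ b.2 q hq)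
      (fun q₁ _ q₂ _ h => smul_left_cancel _ h) ?_ (fun q _ => rfl)
    intro q hq
    refine ⟨(b : G)⁻¹ • q, hB _ (U.inv_mem b.2) q hq, ?_⟩
    simp)

/-- The norm hypothesis. -/
def NormHyp (p : ℕ) (S W : Subgroup G) (A : Type v) [CommGroup A] : Prop :=
  ∀ (U : Subgroup G) (z : G), U ≤ S → W ≤ normalizer (U : Set G) → U.relIndex (U ⊔ W) = p →
    z ∈ W → z ∉ U → ∀ (ν : U →* A) (r : G), r ∈ U →
      ∏ i ∈ Finset.range p, ext ν ((z ^ i)⁻¹ * r * z ^ i) = 1

/-- The fixed points of `x` in a `W`-orbit contribute trivially. -/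
theorem fixed_block [Fintype (G ⧸ S)] [DecidableEq (G ⧸ S)] (hSp : IsPGroup p S)
    (hWS : W ≤ S) (hWn : S ≤ normalizer (W : Set G)) (hE : NormHyp p S W A)
    (N : ℕ) (IH : ∀ y : G, orderOf y < N → ext f y = 1) (x : G) (hxS : x ∈ S)
    (hxN : orderOf x = N) (q₀ : G ⧸ S) (hxq : x • q₀ = q₀) (hq₀ : ∃ w ∈ W, w • q₀ ≠ q₀)
    (T : Finset (G ⧸ S)) (hT : ∀ q, q ∈ T ↔ x • q = q ∧ ∃ w ∈ W, q = w • q₀) :
    ∏ q ∈ T, coc S f x q = 1 := by
  classical
  -- conjugation in `W`
  have hWconj : ∀ s ∈ S, ∀ w ∈ W, s * w * s⁻¹ ∈ W := by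
    intro s hs w hw
    exact (mem_normalizer_iff.1 (hWn hs) w).1 hw
  -- the stabilizer `D`
  let D : Subgroup G := S ⊓ stabilizer G q₀
  have hmemD : ∀ s, s ∈ D ↔ s ∈ S ∧ s • q₀ = q₀ := fun s => Iff.rfl
  -- the setwise stabilizer `R` of the `W`-orbit
  let R : Subgroup G :=
    { carrier := {s | s ∈ S ∧ ∃ w ∈ W, s • q₀ = w • q₀}
      one_mem' := ⟨S.one_mem, 1, W.one_mem, rfl⟩
      mul_mem' := by
        rintro a b ⟨ha, w₁, hw₁, h₁⟩ ⟨hb, w₂, hw₂, h₂⟩
        refine ⟨S.mul_mem ha hb, (a * w₂ * a⁻¹) * w₁, W.mul_mem (hWconj a ha w₂ hw₂) hw₁, ?_⟩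
        rw [mul_smul a b, h₂, mul_smul (a * w₂ * a⁻¹) w₁, ← h₁]
        simp [mul_smul]
      inv_mem' := by
        rintro a ⟨ha, w₁, hw₁, h₁⟩
        refine ⟨S.inv_mem ha, a⁻¹ * w₁⁻¹ * a⁻¹⁻¹, hWconj _ (S.inv_mem ha) _ (W.inv_mem hw₁), ?_⟩
        have h2 : w₁⁻¹ • a • q₀ = q₀ := by rw [h₁]; simp
        have h3 : (a⁻¹ * w₁⁻¹ * a⁻¹⁻¹) • q₀ = a⁻¹ • w₁⁻¹ • a • q₀ := by
          simp [mul_smul]
        rw [h3, h2] }
  have hmemR : ∀ s, s ∈ R ↔ s ∈ S ∧ ∃ w ∈ W, s • q₀ = w • q₀ := fun s => Iff.rfl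
  have hRS : R ≤ S := fun s hs => hs.1
  have hDR : D ≤ R := fun s hs => ⟨hs.1, 1, W.one_mem, by
    rw [one_smul]; exact hs.2⟩
  have hWR : W ≤ R := fun w hw => ⟨hWS hw, w, hw, rfl⟩
  have hDne : D ≠ R := by
    intro h
    obtain ⟨w, hw, hwq⟩ := hq₀
    have : w ∈ D := by rw [h]; exact hWR hw
    exact hwq this.2
  have hRp : IsPGroup p R := hSp.to_le hRS
  -- a normal subgroup `U` of index `p`
  obtain ⟨U, hDU, hUR, hUn, hUi⟩ : ∃ U : Subgroup G, D ≤ U ∧ U ≤ R ∧
      (∀ h ∈ R, ∀ u ∈ U, h * u * h⁻¹ ∈ U) ∧ U.relIndex R = p := by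
    have hK' : D.subgroupOf R ≠ ⊤ := by
      intro hh
      apply hDne
      apply le_antisymm hDR
      rwa [Subgroup.subgroupOf_eq_top] at hh
    obtain ⟨C, hC, hKC⟩ : ∃ C : Subgroup R, IsCoatom C ∧ D.subgroupOf R ≤ C := by
      obtain h1 | h1 := eq_top_or_exists_le_coatom (D.subgroupOf R)
      · exact absurd h1 hK'
      · exact h1
    have hnil : Group.IsNilpotent R := hRp.isNilpotent
    have hN : C.Normal := Subgroup.NormalizerCondition.normal_of_coatom C
      (Group.normalizerCondition_of_isNilpotent) hC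
    refine ⟨C.map R.subtype, ?_, Subgroup.map_subtype_le _, ?_, ?_⟩
    · intro k hk
      exact ⟨⟨k, hDR hk⟩, hKC hk, rfl⟩
    · rintro h hh _ ⟨y, hy, rfl⟩
      exact ⟨⟨h, hh⟩ * y * ⟨h, hh⟩⁻¹, hN.conj_mem y hy ⟨h, hh⟩, rfl⟩
    · have h1 : (C.map R.subtype).subgroupOf R = C := by
        rw [Subgroup.subgroupOf, Subgroup.comap_map_eq_self_of_injective R.subtype_injective]
      change ((C.map R.subtype).subgroupOf R).index = p
      rw [h1]
      exact Cfsg.Agent.Lib.Frat.index_eq_of_isCoatom hRp hC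
  -- `W` is not in `U`
  have hRsplit : ∀ s ∈ R, ∃ w ∈ W, w⁻¹ * s ∈ D := by
    rintro s ⟨hs, w, hw, h⟩
    refine ⟨w, hw, S.mul_mem (S.inv_mem (hWS hw)) hs, ?_⟩
    change (w⁻¹ * s) • q₀ = q₀
    rw [mul_smul, h]; simp
  have hWU : ¬ W ≤ U := by
    intro h
    have h1 : R ≤ U := by
      intro s hs
      obtain ⟨w, hw, hws⟩ := hRsplit s hs
      have h2 : s = w * (w⁻¹ * s) := by group
      rw [h2]
      exact U.mul_mem (h hw) (hDU hws)
    have h3 : U = R := le_antisymm hUR h1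
    rw [h3, Subgroup.relIndex_self] at hUi
    exact hp.out.one_lt.ne hUi
  obtain ⟨z, hzW, hzU⟩ := Set.not_subset.mp hWU
  have hzR : z ∈ R := hWR hzW
  obtain ⟨hcos1, hcos2⟩ := exists_pow_coset hUR hUn hUi hzR hzU
  -- the hypotheses of the norm condition
  have hxU : x ∈ U := hDU ⟨hxS, hxq⟩
  have hWN : W ≤ normalizer (U : Set G) := by
    intro w hw
    rw [mem_normalizer_iff]
    intro u
    constructor
    · exact hUn w (hWR hw) u
    · intro h
      have := hUn w⁻¹ (R.inv_mem (hWR hw)) _ h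
      have e : w⁻¹ * (w * u * w⁻¹) * w⁻¹⁻¹ = u := by group
      rwa [e] at this
  have hUsup : U.relIndex (U ⊔ W) = p := by
    have hle : U ⊔ W ≤ R := sup_le hUR hWR
    have h1 : U.relIndex (U ⊔ W) * (U ⊔ W).relIndex R = U.relIndex R :=
      Subgroup.relIndex_mul_relIndex _ _ _ le_sup_left hle
    rw [hUi] at h1
    have h2 : U.relIndex (U ⊔ W) ∣ p := ⟨_, h1.symm⟩
    rcases (Nat.dvd_prime hp.out).1 h2 with h3 | h3
    · exfalso
      apply hWU
      have h4 : U ⊔ W ≤ U := Subgroup.relIndex_eq_one.1 h3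
      exact le_sup_right.trans h4
    · exact h3
  -- the block
  let B₀ : Finset (G ⧸ S) := Finset.univ.filter (fun q => ∃ u ∈ U, q = u • q₀)
  have hB₀mem : ∀ q, q ∈ B₀ ↔ ∃ u ∈ U, q = u • q₀ := by
    intro q; simp [B₀]
  have hB₀inv : ∀ u ∈ U, ∀ q ∈ B₀, u • q ∈ B₀ := by
    intro u hu q hq
    obtain ⟨v, hv, rfl⟩ := (hB₀mem q).1 hq
    exact (hB₀mem _).2 ⟨u * v, U.mul_mem hu hv, (mul_smul _ _ _).symm⟩
  let ν : U →* A := blockHom S f U B₀ hB₀inv
  have hν : ∀ u (hu : u ∈ U), ext ν u = ∏ q ∈ B₀, coc S f u q := by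
    intro u hu
    rw [ext_of_mem ν hu]
    rfl
  have hzpow : ∀ i : ℕ, z ^ i ∈ R := fun i => R.pow_mem hzR i
  have hwU : ∀ i : ℕ, (z ^ i)⁻¹ * x * z ^ i ∈ U := by
    intro i
    have := hUn _ (R.inv_mem (hzpow i)) x hxU
    simpa using this
  have hwN : ∀ i : ℕ, orderOf ((z ^ i)⁻¹ * x * z ^ i) = N := by
    intro i
    rw [orderOf_conj', hxN]
  -- reduction to the norm condition
  have hmain : ∏ q ∈ T, coc S f x q =
      ∏ i ∈ Finset.range p, ext ν ((z ^ i)⁻¹ * x * z ^ i) := by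
    have hstep : ∀ i : ℕ, ext ν ((z ^ i)⁻¹ * x * z ^ i) =
        ∏ q ∈ B₀.filter (fun q => ((z ^ i)⁻¹ * x * z ^ i) • q = q),
          coc S f ((z ^ i)⁻¹ * x * z ^ i) q := by
      intro i
      rw [hν _ (hwU i)]
      exact prod_eq_prod_fixed S f N IH _ (hwN i) B₀ (fun q hq => hB₀inv _ (hwU i) q hq)
    simp_rw [hstep]
    rw [Finset.prod_sigma']
    symm
    refine Finset.prod_bij (fun a _ => z ^ a.1 • a.2) ?_ ?_ ?_ ?_
    · -- maps into `T`
      rintro ⟨i, q'⟩ ha
      obtain ⟨hi, hq'⟩ := Finset.mem_sigma.mp ha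
      obtain ⟨hq'1, hq'2⟩ := Finset.mem_filter.mp hq'
      simp only
      rw [hT]
      constructor
      · have h1 : x • z ^ i • q' = z ^ i • ((z ^ i)⁻¹ * x * z ^ i) • q' := by
          simp [mul_smul]
        rw [h1, hq'2]
      · obtain ⟨u, hu, rfl⟩ := (hB₀mem _).1 hq'1
        obtain ⟨-, w, hw, h⟩ := R.mul_mem (hzpow i) (hUR hu)
        exact ⟨w, hw, by rw [← mul_smul]; exact h⟩
    · -- injective
      rintro ⟨i, q₁⟩ ha ⟨j, q₂⟩ hb hab
      obtain ⟨hi, hq₁⟩ := Finset.mem_sigma.mp ha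
      obtain ⟨hj, hq₂⟩ := Finset.mem_sigma.mp hb
      obtain ⟨hq₁1, -⟩ := Finset.mem_filter.mp hq₁
      obtain ⟨hq₂1, -⟩ := Finset.mem_filter.mp hq₂
      obtain ⟨u₁, hu₁, rfl⟩ := (hB₀mem _).1 hq₁1
      obtain ⟨u₂, hu₂, rfl⟩ := (hB₀mem _).1 hq₂1
      simp only at hi hj hab
      have hi' : i < p := Finset.mem_range.mp hi
      have hj' : j < p := Finset.mem_range.mp hj
      -- `u₂⁻¹ z^{-j} z^i u₁` fixes `q₀`
      have h1 : (u₂⁻¹ * ((z ^ j)⁻¹ * z ^ i) * u₁) ∈ D := by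
        refine ⟨?_, ?_⟩
        · exact S.mul_mem (S.mul_mem (S.inv_mem (hRS (hUR hu₂))) (S.mul_mem (S.inv_mem (hRS (hzpow j)))
            (hRS (hzpow i)))) (hRS (hUR hu₁))
        · change (u₂⁻¹ * ((z ^ j)⁻¹ * z ^ i) * u₁) • q₀ = q₀
          have h2 : (u₂⁻¹ * ((z ^ j)⁻¹ * z ^ i) * u₁) • q₀ = u₂⁻¹ • (z ^ j)⁻¹ • (z ^ i • u₁ • q₀) := by
            simp [mul_smul]
          rw [h2, hab]
          simp
      have h3 : (z ^ j)⁻¹ * z ^ i ∈ U := by
        have h4 := U.mul_mem (U.mul_mem hu₂ (hDU h1)) (U.inv_mem hu₁)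
        have e : u₂ * (u₂⁻¹ * ((z ^ j)⁻¹ * z ^ i) * u₁) * u₁⁻¹ = (z ^ j)⁻¹ * z ^ i := by group
        rwa [e] at h4
      have hij : j = i := hcos2 j hj' i hi' h3
      subst hij
      have h5 : u₁ • q₀ = u₂ • q₀ := smul_left_cancel _ hab
      rw [h5]
    · -- surjective
      intro q hq
      obtain ⟨hxq', w, hw, rfl⟩ := (hT q).1 hq
      obtain ⟨i, hi, hiU⟩ := hcos1 w (hWR hw)
      refine ⟨⟨i, ((z ^ i)⁻¹ * w) • q₀⟩, ?_, ?_⟩
      · apply Finset.mem_sigma.mpr
        refine ⟨Finset.mem_range.mpr hi, Finset.mem_filter.mpr ⟨(hB₀mem _).2 ⟨_, hiU, rfl⟩, ?_⟩⟩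
        have h1 : ((z ^ i)⁻¹ * x * z ^ i) • ((z ^ i)⁻¹ * w) • q₀ = (z ^ i)⁻¹ • x • w • q₀ := by
          simp [mul_smul]
        rw [h1, hxq']
        simp [mul_smul]
      · simp [mul_smul]
    · -- the terms agree
      rintro ⟨i, q'⟩ ha
      obtain ⟨hi, hq'⟩ := Finset.mem_sigma.mp ha
      obtain ⟨hq'1, hq'2⟩ := Finset.mem_filter.mp hq'
      simp only at hq'2 ⊢
      have h1 := coc_conj_of_fixed S f (z ^ i) _ hq'2
      have e : z ^ i * ((z ^ i)⁻¹ * x * z ^ i) * (z ^ i)⁻¹ = x := by group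
      rw [e] at h1
      exact h1.symm
  rw [hmain]
  exact hE U z (hUR.trans hRS) hWN hUsup hzW hzU ν x hxU

end Block

section Main

variable (S W : Subgroup G) (f : S →* A)

theorem ext_pow_of_mem {x : G} (hx : x ∈ S) (m : ℕ) : ext f (x ^ m) = ext f x ^ m := by
  rw [ext_of_mem f hx, ext_of_mem f (S.pow_mem hx m), ← map_pow]
  rfl

/-- The Wielandt--Yoshida transfer argument. -/
theorem wy_main (hSp : IsPGroup p S) (hSi : ¬ p ∣ S.index) (hWS : W ≤ S)
    (hWc : ∀ g : G, W.map (MulAut.conj g).toMonoidHom ≤ S → W.map (MulAut.conj g).toMonoidHom = W)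
    (hexp : ∀ a : A, a ^ p = 1)
    (hf : ∀ s ∈ S, ∀ n ∈ normalizer (W : Set G), n⁻¹ * s * n ∈ S → ext f (n⁻¹ * s * n) = ext f s)
    (hE : NormHyp p S W A)
    (htr : ∀ x ∈ S, f.transfer x = 1) : f = 1 := by
  classical
  haveI : Fintype (G ⧸ S) := Fintype.ofFinite _
  have hconj : ∀ g : G, (∀ w ∈ W, g * w * g⁻¹ ∈ S) → g ∈ normalizer (W : Set G) := by
    intro g hg
    have h1 := hWc g (by rintro _ ⟨w, hw, rfl⟩; exact hg w hw)
    rw [mem_normalizer_iff]
    intro w
    constructor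
    · intro hw
      rw [← h1]
      exact ⟨w, hw, rfl⟩
    · intro hw
      rw [← h1] at hw
      obtain ⟨w', hw', e⟩ := hw
      have e' : g * w' * g⁻¹ = g * w * g⁻¹ := e
      have : w' = w := by simpa using e'
      exact this ▸ hw'
  have hWn : S ≤ normalizer (W : Set G) := fun s hs =>
    hconj s (fun w hw => S.mul_mem (S.mul_mem hs (hWS hw)) (S.inv_mem hs))
  have hWconj : ∀ s ∈ S, ∀ w ∈ W, s * w * s⁻¹ ∈ W := fun s hs w hw =>
    (mem_normalizer_iff.1 (hWn hs) w).1 hw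
  let Y : Finset (G ⧸ S) := Finset.univ.filter (fun q => ∀ w ∈ W, w • q = q)
  have hY : ∀ q, q ∈ Y ↔ ∀ w ∈ W, w • q = q := by intro q; simp [Y]
  have hYinv : ∀ s ∈ S, ∀ q ∈ Y, s • q ∈ Y := by
    intro s hs q hq
    rw [hY] at hq ⊢
    intro w hw
    have h1 : w • s • q = s • (s⁻¹ * w * s⁻¹⁻¹) • q := by
      simp [mul_smul]
    rw [h1, hq _ (hWconj _ (S.inv_mem hs) w hw)]
  have hYcinv : ∀ s ∈ S, ∀ q ∈ Yᶜ, s • q ∈ Yᶜ := by
    intro s hs q hq
    rw [Finset.mem_compl] at hq ⊢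
    intro h
    apply hq
    have := hYinv _ (S.inv_mem hs) _ h
    simpa using this
  have hYout : ∀ q ∈ Y, Quotient.out q ∈ normalizer (W : Set G) := by
    intro q hq
    rw [← Subgroup.inv_mem_iff]
    apply hconj
    intro w hw
    have h1 := out_mem S w q
    rw [(hY q).1 hq w hw] at h1
    simpa using h1
  have hcard : ¬ p ∣ Y.card := by
    intro hdvd
    apply hSi
    have hWp : IsPGroup p W := hSp.to_le hWS
    have h1 := hWp.card_modEq_card_fixedPoints (G ⧸ S)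
    have h2 : Nat.card (fixedPoints W (G ⧸ S)) = Y.card := by
      rw [Nat.card_eq_fintype_card, ← Finset.card_univ]
      rw [← Fintype.card_coe Y]
      rw [Finset.card_univ]
      apply Fintype.card_congr
      refine Equiv.subtypeEquivRight ?_
      intro q
      rw [hY, MulAction.mem_fixedPoints]
      exact ⟨fun h w hw => h ⟨w, hw⟩, fun h w => h w w.2⟩
    rw [h2] at h1
    change p ∣ Nat.card (G ⧸ S)
    exact (Nat.modEq_zero_iff_dvd.1 (h1.trans (Nat.modEq_zero_iff_dvd.2 hdvd)))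
  have key : ∀ N : ℕ, ∀ y : G, orderOf y = N → ext f y = 1 := by
    intro N
    induction N using Nat.strong_induction_on with
    | _ N IH =>
    intro x hx
    have IH' : ∀ y : G, orderOf y < N → ext f y = 1 := fun y hy => IH _ hy y rfl
    by_cases hxS : x ∈ S
    swap
    · simp [Cfsg.Agent.Lib.WYCoc.ext, hxS]
    have h2 : ∏ q ∈ Y, coc S f x q = ext f x ^ Y.card := by
      have h3 := prod_eq_of_cycles (MulAction.toPerm x : Equiv.Perm (G ⧸ S)) (coc S f x)
        (fun _ => ext f x) Y.card Y rfl (fun q hq => hYinv x hxS q hq) (by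
          intro q hq
          rw [cycle_prod, Finset.prod_const, Finset.card_range]
          set m := Function.minimalPeriod (MulAction.toPerm x : Equiv.Perm (G ⧸ S)) q with hm
          have h4 : x ^ m • q = q := by
            rw [← iterate_toPerm]
            exact Function.iterate_minimalPeriod
          have h5 := out_mem S (x ^ m) q
          rw [h4] at h5
          rw [hf _ (S.pow_mem hxS m) _ (hYout q hq) h5, ext_pow_of_mem S f hxS])
      rw [h3, Finset.prod_const]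
    have h3 : ∏ q ∈ Yᶜ, coc S f x q = 1 := by
      rw [prod_eq_prod_fixed S f N IH' x hx Yᶜ (fun q hq => hYcinv x hxS q hq)]
      let R : Setoid (G ⧸ S) :=
        { r := fun a b => ∃ w ∈ W, a = w • b
          iseqv :=
            { refl := fun a => ⟨1, W.one_mem, by simp⟩
              symm := by
                rintro a b ⟨w, hw, rfl⟩
                exact ⟨w⁻¹, W.inv_mem hw, by simp⟩
              trans := by
                rintro a b c ⟨w, hw, rfl⟩ ⟨w', hw', rfl⟩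
                exact ⟨w * w', W.mul_mem hw hw', by simp [mul_smul]⟩ } }
      rw [Finset.prod_partition R]
      apply Finset.prod_eq_one
      intro c hc
      obtain ⟨q₀, hq₀, rfl⟩ := Finset.mem_image.mp hc
      obtain ⟨hq₀1, hq₀2⟩ := Finset.mem_filter.mp hq₀
      have hq₀3 : q₀ ∉ Y := Finset.mem_compl.mp hq₀1
      have hq₀4 : ∃ w ∈ W, w • q₀ ≠ q₀ := by
        by_contra hcon
        push Not at hcon
        exact hq₀3 ((hY q₀).2 hcon)
      apply fixed_block S W f hSp hWS hWn hE N IH' x hxS hx q₀ hq₀2 hq₀4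
      intro q
      rw [Finset.mem_filter, Finset.mem_filter]
      constructor
      · rintro ⟨⟨_, h6⟩, h7⟩
        refine ⟨h6, ?_⟩
        exact Quotient.exact h7
      · rintro ⟨h6, w, hw, h7⟩
        refine ⟨⟨Finset.mem_compl.mpr ?_, h6⟩, Quotient.sound ⟨w, hw, h7⟩⟩
        intro h8
        apply hq₀3
        have h9 : q₀ = w⁻¹ • q := by rw [h7]; simp
        rw [h9]
        exact hYinv _ (hWS (W.inv_mem hw)) q h8
    have h4 : ext f x ^ Y.card = 1 := by
      have h5 := transfer_eq_prod S f x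
      rw [htr x hxS, ← Finset.prod_mul_prod_compl Y, h2, h3, mul_one] at h5
      exact h5.symm
    have h6 := orderOf_dvd_of_pow_eq_one h4
    have h7 := orderOf_dvd_of_pow_eq_one (hexp (ext f x))
    have h8 : Nat.Coprime p Y.card := (Nat.Prime.coprime_iff_not_dvd hp.out).2 hcard
    have h9 : orderOf (ext f x) = 1 := by
      apply Nat.eq_one_of_dvd_coprimes h8 h7 h6
    exact orderOf_eq_one_iff.mp h9
  ext a
  have := key _ (a : G) rfl
  rw [ext_coe] at this
  exact this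

end Main

end Cfsg.Agent.Lib.WYMain
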