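import Mathlib
import Cfsg.Agent.Lib.TransferOrbit

/-!
# The norm of an automorphism in exponent `p`

For `c : Q →* Q` and `h : Q →* A` with `A` of exponent `p` we have
`∏_{i<p} h (c^i t) = h (d^(p-1) t)`, where `d y = y⁻¹ * c y`.
-/

set_option autoImplicit false

namespace Cfsg.Agent.Lib.WYNorm

open Cfsg.Agent.Lib.TransferOrbit

variable {Q A : Type*} [Group Q] [CommGroup A]

/-- The commutator map of `c`. -/
def dd (c : Q →* Q) (y : Q) : Q := y⁻¹ * c y

/-- The hom `y ↦ h (d^k y)`. -/
noncomputable def hk (c : Q →* Q) (k : ℕ) (h : Q →* A) : Q →* A :=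
  Additive.toMul (((preComp c - 1 : AddMonoid.End (Additive (Q →* A))) ^ k) (Additive.ofMul h))

theorem hk_apply (c : Q →* Q) (k : ℕ) (h : Q →* A) (y : Q) : hk c k h y = h ((dd c)^[k] y) := by
  induction k generalizing h y with
  | zero => simp [hk]
  | succ k ih =>
    have h1 : hk c (k + 1) h = hk c k (Additive.toMul ((preComp c - 1) (Additive.ofMul h))) := by
      unfold hk
      rw [pow_succ]
      rfl
    rw [h1, ih, Function.iterate_succ_apply']
    rw [sub_one_apply]
    simp only [toMul_ofMul, dd, map_mul, map_inv]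
    rw [mul_comm]

/-- The norm equals the iterated commutator, in exponent `p`. -/
theorem norm_eq (p : ℕ) [hp : Fact p.Prime] (hexp : ∀ a : A, a ^ p = 1) (c : Q →* Q) (h : Q →* A)
    (t : Q) : ∏ i ∈ Finset.range p, h (c^[i] t) = h ((dd c)^[p - 1] t) := by
  have hp1 := hp.out.one_lt
  set τ : AddMonoid.End (Additive (Q →* A)) := preComp c with hτ
  set h' : Additive (Q →* A) := Additive.ofMul h with hh'
  have hpz : ∀ g : Additive (Q →* A), p • g = 0 := by
    intro g
    apply Additive.toMul.injective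
    ext x
    simpa using hexp _
  have h1 := sum_apply_eq_prod c h' t p
  rw [← hτ, geom_sum_eq_choose_sum_ring] at h1
  have h2 : (∑ j ∈ Finset.range p, (p.choose (j + 1)) • (τ - 1) ^ j) h' = ((τ - 1) ^ (p - 1)) h' := by
    rw [end_sum_apply]
    have hpp : p = (p - 1) + 1 := by omega
    conv_lhs => rw [hpp]
    rw [Finset.sum_range_succ, ← hpp]
    have h3 : ∑ x ∈ Finset.range (p - 1), ((p.choose (x + 1)) • (τ - 1) ^ x) h' = 0 := by
      apply Finset.sum_eq_zero
      intro j hj
      have hj' : j < p - 1 := Finset.mem_range.mp hj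
      rw [end_nsmul_apply]
      have hd : p ∣ p.choose (j + 1) := hp.out.dvd_choose_self (by omega) (by omega)
      obtain ⟨e, he⟩ := hd
      rw [he, mul_comm, mul_smul, hpz, smul_zero]
    rw [h3, zero_add, end_nsmul_apply]
    rw [Nat.choose_self, one_smul]
  rw [h2] at h1
  have h5 : hk c (p - 1) h t = ∏ i ∈ Finset.range p, Additive.toMul h' (c^[i] t) := h1
  rw [hk_apply] at h5
  exact h5.symm

theorem dd_iterate_succ (c : Q →* Q) (k : ℕ) (y : Q) :
    (dd c)^[k + 1] y = (dd c)^[k] (dd c y) := Function.iterate_succ_apply _ _ _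

/-- If `h` is invariant under `c^p` then `h ∘ d^p = 1`. -/
theorem dd_pow_eq_one (p : ℕ) [hp : Fact p.Prime] (hexp : ∀ a : A, a ^ p = 1) (c : Q →* Q) (h : Q →* A)
    (hc : ∀ y, h (c^[p] y) = h y) (t : Q) : h ((dd c)^[p] t) = 1 := by
  have hp1 := hp.out.one_lt
  have hpp : p = (p - 1) + 1 := by omega
  have h1 : (dd c)^[p] t = (dd c)^[p - 1] (dd c t) := by
    conv_lhs => rw [hpp]
    exact dd_iterate_succ c _ _
  rw [h1, ← norm_eq p hexp c h]
  have h2 : ∀ n : ℕ, ∏ i ∈ Finset.range n, h (c^[i] (dd c t)) = h (c^[n] t) * (h t)⁻¹ := by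
    intro n
    induction n with
    | zero => simp
    | succ n ih =>
      rw [Finset.prod_range_succ, ih]
      have h3 : c^[n] (dd c t) = (c^[n] t)⁻¹ * c^[n + 1] t := by
        unfold dd
        rw [iterate_map_mul, iterate_map_inv, Function.iterate_succ_apply]
      rw [h3]
      simp only [map_mul, map_inv]
      rw [mul_comm (h (c^[n] t)), mul_assoc, mul_inv_cancel_left, mul_comm]
  rw [h2, hc, mul_inv_cancel]

end Cfsg.Agent.Lib.WYNorm
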