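import Mathlib
import Cfsg.Prelude.Def_Transfer
import Cfsg.Prelude.Def_BaumannBlocks
import Cfsg.Agent.Lib.WYMain
import Cfsg.Agent.Lib.WYTate
import Cfsg.Agent.Lib.WYNorm
import Cfsg.Agent.Lib.PResid

/-!
# Consequences of the Wielandt--Yoshida transfer argument

Under the norm condition, every hom of `N_G(W)` into a finite `p`-group extends to `G`; so
`O^p(N_G(W)) = O^p(G) ∩ N_G(W)` and `S ∩ G' = S ∩ N_G(W)'`.
-/

set_option autoImplicit false
set_option linter.style.haveILetI false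
set_option linter.unusedSectionVars false

namespace Cfsg.Agent.Lib.WYExt

open Subgroup Cfsg.Agent.Lib.WYCoc Cfsg.Agent.Lib.WYMain Cfsg.Agent.Lib.WYTate
  Cfsg.Agent.Lib.WYNorm Cfsg.Agent.Lib.PResid

universe u v

variable {G : Type u} [Group G] [Finite G] {p : ℕ} [hp : Fact p.Prime]

/-- The cyclic group of order `p`. -/
abbrev Cp (p : ℕ) := Multiplicative (ZMod p)

theorem Cp_exp (a : Cp p) : a ^ p = 1 := by
  have := pow_card_eq_one' (x := a)
  have hc : Nat.card (Cp p) = p := by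
    change Nat.card (Multiplicative (ZMod p)) = p
    simp [Nat.card_eq_fintype_card]
  rwa [hc] at this

section Div

variable {A : Type v} [CommGroup A] (S : Subgroup G)

theorem ext_div (f g : S →* A) (y : G) :
    WYCoc.ext (f / g) y = WYCoc.ext f y / WYCoc.ext g y := by
  by_cases h : y ∈ S
  · rw [ext_of_mem _ h, ext_of_mem _ h, ext_of_mem _ h]
    rfl
  · simp [WYCoc.ext, h]

theorem transfer_div (f g : S →* A) (x : G) : (f / g).transfer x = f.transfer x / g.transfer x := by
  classical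
  haveI := Fintype.ofFinite (G ⧸ S)
  simp_rw [transfer_eq_prod]
  rw [← Finset.prod_div_distrib]
  apply Finset.prod_congr rfl
  intro q _
  unfold coc
  exact ext_div S f g _

end Div

theorem le_normalizer_of_weaklyClosed {S W : Subgroup G} (hWS : W ≤ S)
    (hWc : ∀ g : G, W.map (MulAut.conj g).toMonoidHom ≤ S → W.map (MulAut.conj g).toMonoidHom = W) :
    S ≤ normalizer (W : Set G) := by
  intro s hs
  apply mem_normalizer_of_conj_map_eq
  apply hWc
  rintro _ ⟨w, hw, rfl⟩
  exact S.mul_mem (S.mul_mem hs (hWS hw)) (S.inv_mem hs)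

theorem extends_Cp (S W : Subgroup G) (hSp : IsPGroup p S) (hSi : ¬ p ∣ S.index) (hWS : W ≤ S)
    (hWc : ∀ g : G, W.map (MulAut.conj g).toMonoidHom ≤ S → W.map (MulAut.conj g).toMonoidHom = W)
    (hE : NormHyp p S W (Cp p)) (δ : normalizer (W : Set G) →* Cp p) :
    ∃ F : G →* Cp p, ∀ h : normalizer (W : Set G), F h = δ h := by
  classical
  revert δ
  set H := normalizer (W : Set G) with hH
  intro δ
  have hSH : S ≤ H := le_normalizer_of_weaklyClosed hWS hWc
  have hexp : ∀ a : Cp p, a ^ p = 1 := Cp_exp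
  let Inv : (S →* Cp p) → Prop := fun f => ∀ s ∈ S, ∀ n ∈ H, n⁻¹ * s * n ∈ S →
    WYCoc.ext f (n⁻¹ * s * n) = WYCoc.ext f s
  let L := {f : S →* Cp p // Inv f}
  haveI : Finite (S →* Cp p) :=
    Finite.of_injective (fun f : S →* Cp p => (f : S → Cp p)) DFunLike.coe_injective
  haveI : Finite L := Subtype.finite
  have hinvτ : ∀ f : S →* Cp p, Inv (f.transfer.comp S.subtype) := by
    intro f s hs n hn hs'
    rw [ext_of_mem _ hs', ext_of_mem _ hs]
    simp only [MonoidHom.comp_apply, Subgroup.coe_subtype, map_mul, map_inv]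
    rw [mul_comm (f.transfer n)⁻¹ (f.transfer s), inv_mul_cancel_right]
  let τ : L → L := fun f => ⟨f.1.transfer.comp S.subtype, hinvτ f.1⟩
  have hτinj : Function.Injective τ := by
    intro f g hfg
    have h1 : f.1 / g.1 = 1 := by
      apply wy_main S W (f.1 / g.1) hSp hSi hWS hWc hexp ?_ hE ?_
      · intro s hs n hn hs'
        rw [ext_div, ext_div, f.2 s hs n hn hs', g.2 s hs n hn hs']
      · intro x hx
        rw [transfer_div, div_eq_one]
        have h2 : (τ f).1 ⟨x, hx⟩ = (τ g).1 ⟨x, hx⟩ := by rw [hfg]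
        exact h2
    apply Subtype.ext
    exact div_eq_one.1 h1
  have hτsurj := Finite.injective_iff_surjective.1 hτinj
  -- the restriction of δ
  let f₀ : S →* Cp p := δ.comp (Subgroup.inclusion hSH)
  have hf₀ : Inv f₀ := by
    intro s hs n hn hs'
    rw [ext_of_mem _ hs', ext_of_mem _ hs]
    have e : (Subgroup.inclusion hSH ⟨n⁻¹ * s * n, hs'⟩ : H) =
        (⟨n, hn⟩ : H)⁻¹ * Subgroup.inclusion hSH ⟨s, hs⟩ * ⟨n, hn⟩ := rfl
    simp only [f₀, MonoidHom.comp_apply]
    rw [e, map_mul, map_mul, map_inv, mul_comm (δ ⟨n, hn⟩)⁻¹, inv_mul_cancel_right]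
  obtain ⟨f, hf⟩ := hτsurj ⟨f₀, hf₀⟩
  let F : G →* Cp p := f.1.transfer
  refine ⟨F, ?_⟩
  let ε : H →* Cp p := (F.comp H.subtype) / δ
  have hεS : S.subgroupOf H ≤ ε.ker := by
    intro s hs
    rw [MonoidHom.mem_ker]
    have h1 := congrArg (fun t : L => t.1 ⟨s.1, hs⟩) hf
    have h2 : F s.1 = δ s := h1
    change F s.1 / δ s = 1
    rw [h2, div_self']
  have hi : ¬ p ∣ ε.ker.index := by
    intro hd
    apply hSi
    have h2 : ε.ker.index ∣ (S.subgroupOf H).index := index_dvd_of_le hεS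
    have h3 : S.relIndex H * H.index = S.index := relIndex_mul_index hSH
    exact (hd.trans h2).trans ⟨_, h3.symm⟩
  intro h
  have h4 : ε h ^ ε.ker.index = 1 := by
    rw [← map_pow]
    exact pow_index_mem ε.ker h
  have h5 : ε h = 1 := by
    have h6 : Nat.Coprime ε.ker.index p := ((Nat.Prime.coprime_iff_not_dvd hp.out).2 hi).symm
    have h7 := orderOf_dvd_of_pow_eq_one h4
    have h8 := orderOf_dvd_of_pow_eq_one (hexp (ε h))
    exact orderOf_eq_one_iff.mp (Nat.eq_one_of_dvd_coprimes h6 h7 h8)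
  exact div_eq_one.1 h5

theorem tate_ext (S W : Subgroup G) (hSp : IsPGroup p S) (hSi : ¬ p ∣ S.index) (hWS : W ≤ S)
    (hWc : ∀ g : G, W.map (MulAut.conj g).toMonoidHom ≤ S → W.map (MulAut.conj g).toMonoidHom = W)
    (hE : NormHyp p S W (Cp p)) (Q : Type u) [Group Q] [Finite Q] (hQ : IsPGroup p Q)
    (θ : normalizer (W : Set G) →* Q) : ∃ φ : G →* Q, ∀ h : normalizer (W : Set G), φ h = θ h := by
  refine tate_control _ ?_ (extends_Cp S W hSp hSi hWS hWc hE) _ Q rfl hQ θ
  intro hd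
  exact hSi (hd.trans (index_dvd_of_le (le_normalizer_of_weaklyClosed hWS hWc)))

theorem residual_eq (S W : Subgroup G) (hSp : IsPGroup p S) (hSi : ¬ p ∣ S.index) (hWS : W ≤ S)
    (hWc : ∀ g : G, W.map (MulAut.conj g).toMonoidHom ≤ S → W.map (MulAut.conj g).toMonoidHom = W)
    (hE : NormHyp p S W (Cp p)) :
    Cfsg.pResidualOf p (normalizer (W : Set G)) = Cfsg.pResidual p G ⊓ normalizer (W : Set G) := by
  set H := normalizer (W : Set G) with hHdef
  apply le_antisymm
  · exact le_inf (map_pResidual_le p H) (map_subtype_le _)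
  · rintro x ⟨hx1, hx2⟩
    have hQ : IsPGroup p (H ⧸ Cfsg.pResidual p H) := isPGroup_quotient_pResidual p
    obtain ⟨φ, hφ⟩ := tate_ext S W hSp hSi hWS hWc hE (H ⧸ Cfsg.pResidual p H) hQ
      (QuotientGroup.mk' _)
    have h1 : Cfsg.pResidual p G ≤ φ.ker := by
      unfold Cfsg.pResidual
      rw [closure_le]
      intro g hg
      change φ g = 1
      obtain ⟨n, hn⟩ := hQ (φ g)
      exact eq_one_of_pow_eq_one_of_coprime hn (k := orderOf g)
        (by rw [← map_pow, pow_orderOf_eq_one, map_one]) hg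
    have h2 := hφ ⟨x, hx2⟩
    rw [show φ x = 1 from h1 hx1] at h2
    have h3 : (⟨x, hx2⟩ : H) ∈ Cfsg.pResidual p H := (QuotientGroup.eq_one_iff _).1 h2.symm
    exact ⟨_, h3, rfl⟩

theorem commutator_inf_eq (S W : Subgroup G) (hSp : IsPGroup p S) (hSi : ¬ p ∣ S.index) (hWS : W ≤ S)
    (hWc : ∀ g : G, W.map (MulAut.conj g).toMonoidHom ≤ S → W.map (MulAut.conj g).toMonoidHom = W)
    (hE : NormHyp p S W (Cp p)) :
    S ⊓ commutator G = S ⊓ ⁅normalizer (W : Set G), normalizer (W : Set G)⁆ := by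
  set H := normalizer (W : Set G) with hHdef
  have hSH : S ≤ H := le_normalizer_of_weaklyClosed hWS hWc
  apply le_antisymm
  · rintro x ⟨hxS, hxG⟩
    refine ⟨hxS, ?_⟩
    have hxH := hSH hxS
    let T' : Subgroup (Abelianization H) :=
      { carrier := {b | ∃ m : ℕ, Nat.Coprime m p ∧ b ^ m = 1}
        one_mem' := ⟨1, Nat.coprime_one_left p, by simp⟩
        mul_mem' := by
          rintro a b ⟨m, hm, ha⟩ ⟨n, hn, hb⟩
          refine ⟨m * n, Nat.Coprime.mul_left hm hn, ?_⟩
          rw [mul_pow, pow_mul, ha, mul_comm m n, pow_mul, hb]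
          simp
        inv_mem' := by
          rintro a ⟨m, hm, ha⟩
          exact ⟨m, hm, by rw [inv_pow, ha, inv_one]⟩ }
    have hT' : ∀ b, b ∈ T' ↔ ∃ m : ℕ, Nat.Coprime m p ∧ b ^ m = 1 := fun b => Iff.rfl
    haveI : Finite (Abelianization H) := Finite.of_surjective Abelianization.of
      (QuotientGroup.mk'_surjective _)
    have hQ : IsPGroup p (Abelianization H ⧸ T') := by
      intro y
      obtain ⟨b, rfl⟩ := QuotientGroup.mk'_surjective T' y
      have h0 : orderOf b ≠ 0 := (orderOf_pos b).ne'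
      obtain ⟨a, m, hm, hb⟩ := Nat.exists_eq_pow_mul_and_not_dvd h0 p hp.out.ne_one
      refine ⟨a, ?_⟩
      rw [← map_pow]
      apply (QuotientGroup.eq_one_iff _).2
      refine ⟨m, ((Nat.Prime.coprime_iff_not_dvd hp.out).2 hm).symm, ?_⟩
      rw [← pow_mul, ← hb, pow_orderOf_eq_one]
    obtain ⟨φ, hφ⟩ := tate_ext S W hSp hSi hWS hWc hE (Abelianization H ⧸ T') hQ
      ((QuotientGroup.mk' T').comp Abelianization.of)
    have h1 : commutator G ≤ φ.ker := by
      rw [commutator_def, commutator_le]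
      rintro a - b -
      rw [MonoidHom.mem_ker, commutatorElement_def]
      simp only [map_mul, map_inv]
      rw [mul_comm (φ a) (φ b)]
      group
    have h2 := hφ ⟨x, hxH⟩
    rw [show φ x = 1 from h1 hxG] at h2
    obtain ⟨m, hm, hbm⟩ := (hT' _).1 ((QuotientGroup.eq_one_iff _).1 h2.symm)
    obtain ⟨k, hk⟩ := hSp ⟨x, hxS⟩
    have hk' : x ^ p ^ k = 1 := by simpa using congrArg Subtype.val hk
    have hk'' : (Abelianization.of (⟨x, hxH⟩ : H)) ^ p ^ k = 1 := by
      rw [← map_pow]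
      have : (⟨x, hxH⟩ : H) ^ p ^ k = 1 := Subtype.ext hk'
      rw [this, map_one]
    have hb := eq_one_of_pow_eq_one_of_coprime hk'' hbm hm
    have h3 : (⟨x, hxH⟩ : H) ∈ commutator H := by
      rw [← Abelianization.ker_of]
      exact hb
    rw [← Subgroup.map_subtype_commutator]
    exact ⟨_, h3, rfl⟩
  · exact inf_le_inf_left _ (commutator_mono le_top le_top)

/-! ### The norm condition from iterated commutators -/

section NormCond

/-- Conjugation by `z⁻¹` on a subgroup normalized by `z`. -/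
def conjHom (U : Subgroup G) (z : G) (hz : z ∈ normalizer (U : Set G)) : U →* U :=
  MonoidHom.mk' (fun y => ⟨z⁻¹ * y * z, by
      have := (mem_normalizer_iff.1 (Subgroup.inv_mem _ hz) y).1 y.2
      simpa using this⟩) (by
    intro a b
    apply Subtype.ext
    simp only [Subgroup.coe_mul]
    group)

theorem conjHom_apply (U : Subgroup G) (z : G) (hz : z ∈ normalizer (U : Set G)) (y : U) :
    ((conjHom U z hz y : U) : G) = z⁻¹ * y * z := rfl

theorem conjHom_iterate (U : Subgroup G) (z : G) (hz : z ∈ normalizer (U : Set G)) (t : U) (i : ℕ) :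
    (((conjHom U z hz)^[i] t : U) : G) = (z ^ i)⁻¹ * t * z ^ i := by
  induction i with
  | zero => simp
  | succ i ih =>
    rw [Function.iterate_succ_apply', conjHom_apply, ih, pow_succ]
    group

theorem dd_iterate (U : Subgroup G) (z : G) (hz : z ∈ normalizer (U : Set G)) (t : U) (k : ℕ) :
    (((dd (conjHom U z hz))^[k] t : U) : G) = (fun y : G => y⁻¹ * z⁻¹ * y * z)^[k] t := by
  induction k with
  | zero => simp
  | succ k ih =>
    rw [Function.iterate_succ_apply', Function.iterate_succ_apply', ← ih]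
    simp only [dd, Subgroup.coe_mul, Subgroup.coe_inv, conjHom_apply]
    group

theorem iterate_mem (U : Subgroup G) (z : G) (hz : z ∈ normalizer (U : Set G)) (r : G) (hr : r ∈ U)
    (k : ℕ) : (fun y : G => y⁻¹ * z⁻¹ * y * z)^[k] r ∈ U := by
  have := dd_iterate U z hz ⟨r, hr⟩ k
  rw [← this]
  exact Subtype.property _

theorem prod_eq_iterate {A : Type v} [CommGroup A] (hexp : ∀ a : A, a ^ p = 1) (U : Subgroup G) (z : G)
    (hz : z ∈ normalizer (U : Set G)) (ν : U →* A) (r : G) (hr : r ∈ U) :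
    ∏ i ∈ Finset.range p, WYCoc.ext ν ((z ^ i)⁻¹ * r * z ^ i) =
      WYCoc.ext ν ((fun y : G => y⁻¹ * z⁻¹ * y * z)^[p - 1] r) := by
  have h1 := norm_eq p hexp (conjHom U z hz) ν ⟨r, hr⟩
  have h2 := dd_iterate U z hz ⟨r, hr⟩ (p - 1)
  simp only at h2
  rw [← h2, ext_coe, ← h1]
  apply Finset.prod_congr rfl
  intro i _
  rw [← ext_coe, conjHom_iterate]

theorem normHyp_of {A : Type v} [CommGroup A] (hexp : ∀ a : A, a ^ p = 1) (S W : Subgroup G)
    (hyp : ∀ (U : Subgroup G) (z : G), U ≤ S → W ≤ normalizer (U : Set G) → U.relIndex (U ⊔ W) = p →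
      z ∈ W → z ∉ U → ∀ (ν : U →* A) (r : G), r ∈ U →
        WYCoc.ext ν ((fun y : G => y⁻¹ * z⁻¹ * y * z)^[p - 1] r) = 1) :
    NormHyp p S W A := by
  intro U z hUS hWN hi hzW hzU ν r hr
  rw [prod_eq_iterate hexp U z (hWN hzW) ν r hr]
  exact hyp U z hUS hWN hi hzW hzU ν r hr

end NormCond

end Cfsg.Agent.Lib.WYExt
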