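import Mathlib
import Cfsg.Agent.Lib.WYExt

/-!
# A hom onto the Sylow `p`-subgroup of `Sym(p²)`

If a finite `p`-group `X` has a normal subgroup `U` of index `p`, and `ν : U → C_p`, `r ∈ U`, `z ∈ X` with
`ν [r, z; p - 1] ≠ 1`, then the action on cosets of `ker ν` maps `X` onto a Sylow `p`-subgroup of
`Sym(p²)`.
-/

set_option autoImplicit false
set_option linter.style.haveILetI false

namespace Cfsg.Agent.Lib.WYWreath

open Subgroup Cfsg.Agent.Lib.WYCoc Cfsg.Agent.Lib.WYExt Cfsg.Agent.Lib.WYNorm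

universe u

theorem factorization_factorial_sq (p : ℕ) [hp : Fact p.Prime] :
    (p ^ 2).factorial.factorization p = p + 1 := by
  have hp1 := hp.out.one_lt
  rw [Nat.factorization_def _ hp.out]
  have hlog : Nat.log p (p ^ 2) < 3 := by
    rw [Nat.log_pow hp1]
    omega
  rw [padicValNat_factorial hlog]
  have h1 : Finset.Ico 1 3 = {1, 2} := by decide
  rw [h1, Finset.sum_pair (by norm_num)]
  have h2 : p ^ 2 / p ^ 1 = p := by
    rw [pow_one, pow_two]
    exact Nat.mul_div_cancel _ hp.out.pos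
  have h3 : p ^ 2 / p ^ 2 = 1 := Nat.div_self (by positivity)
  rw [h2, h3]

theorem wreath_image {X : Type u} [Group X] [Finite X] {p : ℕ} [hp : Fact p.Prime]
    (hX : IsPGroup p X) (U : Subgroup X) (hUn : U.Normal) (hUi : U.index = p) (z : X)
    (ν : U →* Cp p) (r : X) (hr : r ∈ U)
    (hne : WYCoc.ext ν ((fun y : X => y⁻¹ * z⁻¹ * y * z)^[p - 1] r) ≠ 1) :
    ∃ (P : Sylow p (Equiv.Perm (Fin (p ^ 2)))) (f : X →* P), Function.Surjective f := by
  classical
  have hp1 := hp.out.one_lt
  have hcp : Nat.card (Cp p) = p := by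
    change Nat.card (Multiplicative (ZMod p)) = p
    simp [Nat.card_eq_fintype_card]
  have hz : z ∈ normalizer (U : Set X) := by
    rw [normalizer_eq_top_iff.2 hUn]
    trivial
  let c : U →* U := conjHom U z hz
  let t : U := ⟨r, hr⟩
  have hzp : z ^ p ∈ U := hUi ▸ pow_index_mem U z
  have hcinv : ∀ y : U, ν (c^[p] y) = ν y := by
    intro y
    have h1 : c^[p] y = (⟨z ^ p, hzp⟩ : U)⁻¹ * y * ⟨z ^ p, hzp⟩ :=
      Subtype.ext (by rw [conjHom_iterate]; rfl)
    rw [h1, map_mul, map_mul, map_inv, mul_comm _ (ν y), inv_mul_cancel_right]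
  have hgt : ∀ m, p ≤ m → ∀ y : U, ν ((dd c)^[m] y) = 1 := by
    intro m hm y
    obtain ⟨e, rfl⟩ := Nat.exists_eq_add_of_le hm
    rw [Function.iterate_add_apply]
    exact dd_pow_eq_one p Cp_exp c ν hcinv _
  set g : Cp p := ν ((dd c)^[p - 1] t) with hgdef
  have hg : g ≠ 1 := by
    intro h3
    apply hne
    have h2 := dd_iterate U z hz t (p - 1)
    rw [← h2, ext_coe]
    exact h3
  -- the map `Ψ`
  let Ψ : U →* (Fin p → Cp p) := MonoidHom.pi (fun k => hk c k.val ν)
  have hΨ : ∀ (y : U) (k : Fin p), Ψ y k = ν ((dd c)^[k.val] y) := fun y k => hk_apply c k.val ν y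
  have hsurjaux : ∀ l, l ≤ p → ∀ a : Fin p → Cp p, (∀ k : Fin p, l ≤ k.val → a k = 1) → a ∈ Ψ.range := by
    intro l
    induction l with
    | zero =>
      intro _ a ha
      have : a = 1 := funext (fun k => ha k (Nat.zero_le _))
      rw [this]
      exact one_mem _
    | succ l ih =>
      intro hl a ha
      have hlp : l < p := hl
      let y : U := (dd c)^[p - 1 - l] t
      have hy1 : Ψ y ⟨l, hlp⟩ = g := by
        rw [hΨ]
        simp only [y]
        rw [← Function.iterate_add_apply]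
        have : l + (p - 1 - l) = p - 1 := by omega
        rw [this]
      have hy2 : ∀ k : Fin p, l < k.val → Ψ y k = 1 := by
        intro k hk
        rw [hΨ]
        simp only [y]
        rw [← Function.iterate_add_apply]
        exact hgt _ (by omega) t
      obtain ⟨e, he⟩ : a ⟨l, hlp⟩ ∈ zpowers g := by
        rw [zpowers_eq_top_of_prime_card hcp hg]
        trivial
      have he' : g ^ e = a ⟨l, hlp⟩ := he
      have hb := ih (by omega) (a * (Ψ y ^ e)⁻¹) (by
        intro k hk
        rcases eq_or_lt_of_le hk with h | h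
        · have hk' : k = ⟨l, hlp⟩ := Fin.ext h.symm
          subst hk'
          simp [hy1, he']
        · simp [ha k h, hy2 k h])
      have h3 : a = (a * (Ψ y ^ e)⁻¹) * Ψ (y ^ e) := by
        rw [map_zpow]
        group
      rw [h3]
      exact mul_mem hb ⟨y ^ e, rfl⟩
  have hΨsurj : Ψ.range = ⊤ := by
    rw [eq_top_iff]
    intro a _
    exact hsurjaux p le_rfl a (fun k hk => absurd k.2 (by omega))
  have hΨi : Ψ.ker.index = p ^ p := by
    rw [Subgroup.index_ker, hΨsurj, Subgroup.card_top, Nat.card_fun, hcp]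
    simp
  -- the kernel of `ν`
  have hνi : ν.ker.index = p := by
    rw [Subgroup.index_ker]
    have h1 : ν.range = ⊤ := by
      rw [eq_top_iff, ← zpowers_eq_top_of_prime_card hcp hg, zpowers_le]
      exact ⟨_, rfl⟩
    rw [h1, Subgroup.card_top, hcp]
  let K : Subgroup X := ν.ker.map U.subtype
  have hKU : K ≤ U := map_subtype_le _
  have hKsub : K.subgroupOf U = ν.ker :=
    Subgroup.comap_map_eq_self_of_injective U.subtype_injective _
  have hKi : K.index = p ^ 2 := by
    have h1 := relIndex_mul_index hKU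
    rw [hUi, Subgroup.relIndex, hKsub, hνi] at h1
    rw [← h1, pow_two]
  -- the permutation representation
  let e : (X ⧸ K) ≃ Fin (p ^ 2) := Finite.equivFinOfCardEq hKi
  let f₁ : X →* Equiv.Perm (Fin (p ^ 2)) :=
    (Equiv.permCongrHom e).toMonoidHom.comp (MulAction.toPermHom X (X ⧸ K))
  let C : Subgroup X := f₁.ker
  have hCK : C ≤ K := by
    intro x hx
    have h1 : f₁ x = 1 := hx
    have h2 : MulAction.toPermHom X (X ⧸ K) x = 1 := by
      apply (Equiv.permCongrHom e).injective
      rw [map_one]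
      exact h1
    have h3 : x • ((1 : X) : X ⧸ K) = ((1 : X) : X ⧸ K) := by
      have := congrArg (fun σ : Equiv.Perm (X ⧸ K) => σ ((1 : X) : X ⧸ K)) h2
      exact this
    have h4 : ((x : X) : X ⧸ K) = ((1 : X) : X ⧸ K) := by
      rw [← h3, MulAction.Quotient.smul_coe]
      simp
    have h5 := QuotientGroup.eq.1 h4.symm
    simpa using h5
  have hCn : C.Normal := f₁.normal_ker
  have hCd : ∀ y : U, (y : X) ∈ C → ∀ k : ℕ, (((dd c)^[k] y : U) : X) ∈ C := by
    intro y hy k
    induction k with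
    | zero => exact hy
    | succ k ih =>
      rw [Function.iterate_succ_apply']
      set v : U := (dd c)^[k] y with hv
      have h1 : ((dd c v : U) : X) = (v : X)⁻¹ * (z⁻¹ * (v : X) * z⁻¹⁻¹) := by
        simp only [dd, Subgroup.coe_mul, Subgroup.coe_inv, inv_inv]
        rfl
      rw [h1]
      exact C.mul_mem (C.inv_mem ih) (hCn.conj_mem _ ih _)
  have hC2 : C.subgroupOf U ≤ Ψ.ker := by
    intro y hy
    rw [MonoidHom.mem_ker]
    funext k
    rw [hΨ]
    have h1 := hCK (hCd y hy k.val)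
    obtain ⟨u, hu, hu2⟩ := h1
    have h2 : u = (dd c)^[k.val] y := Subtype.ext hu2
    rw [← h2]
    exact hu
  have hCi : p ^ (p + 1) ∣ C.index := by
    have h1 := relIndex_mul_index (hCK.trans hKU)
    rw [hUi] at h1
    have h2 : Ψ.ker.index ∣ (C.subgroupOf U).index := index_dvd_of_le hC2
    rw [hΨi] at h2
    rw [← h1, pow_succ]
    exact Nat.mul_dvd_mul_right h2 p
  have hrp : IsPGroup p f₁.range :=
    hX.of_surjective f₁.rangeRestrict f₁.rangeRestrict_surjective
  obtain ⟨Q, hQ⟩ := IsPGroup.exists_le_sylow hrp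
  have hQcard : Nat.card Q = p ^ (p + 1) := by
    rw [Sylow.card_eq_multiplicity, Nat.card_perm, Nat.card_eq_fintype_card, Fintype.card_fin,
      factorization_factorial_sq]
  have hle : Nat.card Q ≤ Nat.card f₁.range := by
    rw [← Subgroup.index_ker, hQcard]
    apply Nat.le_of_dvd _ hCi
    exact Nat.pos_of_ne_zero Subgroup.index_ne_zero_of_finite
  have heq : f₁.range = Q := Subgroup.eq_of_le_of_card_ge hQ hle
  refine ⟨Q, f₁.codRestrict (Q : Subgroup (Equiv.Perm (Fin (p ^ 2)))) (fun x => hQ ⟨x, rfl⟩), ?_⟩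
  rintro ⟨y, hy⟩
  rw [← heq] at hy
  obtain ⟨x, rfl⟩ := hy
  exact ⟨x, rfl⟩

end Cfsg.Agent.Lib.WYWreath
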