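import Mathlib
import Cfsg.Agent.Lib.StarFocal
import Cfsg.Agent.Lib.StarNil
import Cfsg.Agent.Lib.BrauerIn

/-!
# Fusion for blocks with abelian defect groups

If `P` is abelian, a conjugation between subpairs below a maximal Brauer pair `(P, e)` is induced by an
element of the stabilizer `T` of `(P, e)`.  Consequently the linear characters of `P` invariant
under `T` are stable.  Such a character separating a `T`-fixed element from the centre exists.
-/

set_option autoImplicit false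
set_option linter.unusedSectionVars false
set_option linter.unusedVariables false
set_option linter.style.haveILetI false

namespace Cfsg.Agent.Lib.WaFus

open Cfsg Cfsg.Agent.Lib.CharBasic Cfsg.Agent.Lib.CharInd Cfsg.Agent.Lib.CharIntegrality
open Cfsg.Agent.Lib.BlockLocal Cfsg.Agent.Lib.BlockIdem Cfsg.Agent.Lib.BlockNormal
open Cfsg.Agent.Lib.BrauerMap Cfsg.Agent.Lib.BrauerPair Cfsg.Agent.Lib.BrauerSub
open Cfsg.Agent.Lib.BrauerConj Cfsg.Agent.Lib.BrauerThird Cfsg.Agent.Lib.BrauerMax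
open Cfsg.Agent.Lib.BrauerStab Cfsg.Agent.Lib.BlockDefect Cfsg.Agent.Lib.BrauerCen
open Cfsg.Agent.Lib.BrauerFull Cfsg.Agent.Lib.BrauerLift Cfsg.Agent.Lib.BrauerIdx
open Cfsg.Agent.Lib.BrauerSat Cfsg.Agent.Lib.BrauerNil Cfsg.Agent.Lib.StarFocal
open scoped ComplexConjugate Pointwise

universe u

variable {G : Type u} [Group G] [Fintype G] {p : ℕ} [hp : Fact p.Prime] {M : Ideal AlgInt}

local notation "𝐂[" R "]" => Subgroup.centralizer ((R : Subgroup G) : Set G)
local notation "𝐍[" R "]" => Subgroup.normalizer ((R : Subgroup G) : Set G)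
local notation Q "^^" x => Subgroup.map (MulEquiv.toMonoidHom (MulAut.conj (x : G))) (Q : Subgroup G)

noncomputable local instance fintypeSubWa {A : Type*} [Group A] [Finite A] (K : Subgroup A) : Fintype K :=
  Fintype.ofFinite K

variable {B : Set (IrrCharacter G)} {P Q : Subgroup G}
  {e : Set (IrrCharacter (Subgroup.centralizer (P : Set G)))}
  {f : Set (IrrCharacter (Subgroup.centralizer (Q : Set G)))}

theorem le_centralizer_of_abelian (hab : ∀ x ∈ P, ∀ y ∈ P, x * y = y * x) {A : Subgroup G} (hA : A ≤ P) :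
    P ≤ 𝐂[A] := by
  intro x hx
  rw [Subgroup.mem_centralizer_iff]
  intro y hy
  exact hab y (hA hy) x hx

theorem le_normalizer_of_abelian (hab : ∀ x ∈ P, ∀ y ∈ P, x * y = y * x) {A : Subgroup G} (hA : A ≤ P) :
    P ≤ 𝐍[A] := fun _ hx => mem_normalizer_of_mem_centralizer (le_centralizer_of_abelian hab hA hx)

theorem inf_normalizer_of_abelian (hab : ∀ x ∈ P, ∀ y ∈ P, x * y = y * x) {A : Subgroup G} (hA : A ≤ P) :
    P ⊓ 𝐍[A] = P := inf_eq_left.2 (le_normalizer_of_abelian hab hA)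

/-- **Fusion in a block with abelian defect group is controlled by the stabilizer.** -/
theorem exists_stab_conj (hM : IsPModular p M) (hmax : IsMaximalBrauerPair p M B P e)
    (hab : ∀ x ∈ P, ∀ y ∈ P, x * y = y * x) (hle : SubpairLE p M Q f P e) {g : G}
    (hg : SubpairLE p M (Q ^^ g) (conjBlock Q g f) P e) :
    ∃ t : G, t ∈ 𝐍[P] ∧ StabilizesBlock 𝐂[P] e t ∧ ∀ q ∈ Q, t * q * t⁻¹ = g * q * g⁻¹ := by
  haveI := isPrime_of_isPModular hM
  have hF := isBlockFusionSystemOn_blockFusion hM hmax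
  have he := hmax.1.1
  have hQP := le_of_subpairLE hle
  have hQg := le_of_subpairLE hg
  have hf : IsPBlock M f := (isBrauerPair_of_subpairLE hle he).2
  have hfg := isPBlock_conjBlock (M := M) Q g hf
  have hrec := isReceptive_of_max hM hF hfg hg (fun y hy => by
    rw [inf_normalizer_of_abelian hab (le_of_subpairLE hy), inf_normalizer_of_abelian hab hQg])
  set φ : Q →* G := conjHom Q g with hφdef
  have hφ : φ ∈ (blockFusion hM hmax).Hom Q :=
    (hF.2 Q φ).2 ⟨hQP, g, fun u => rfl, hQg, f, hle, hg⟩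
  have hr : φ.range = (Q ^^ g) := range_conjHom Q g
  obtain ⟨ψ, hψ, hagree⟩ := hrec.2 Q φ hφ hr
  have hXP : FusionSystem.extender P Q φ ≤ P := by
    unfold FusionSystem.extender
    rw [Subgroup.closure_le]
    rintro y ⟨hy, -⟩
    exact hy
  have hPX : P ≤ FusionSystem.extender P Q φ := by
    intro y hy
    apply Subgroup.subset_closure
    refine ⟨hy, le_normalizer_of_abelian hab hQP hy, 1, P.one_mem, fun x hx => ?_⟩
    have h1 : y * (x : G) * y⁻¹ = x := by
      rw [hab y hy x (hQP x.2)]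
      group
    have h2 : (⟨y * (x : G) * y⁻¹, hx⟩ : Q) = x := Subtype.ext h1
    rw [h2]
    group
  have hXeq : FusionSystem.extender P Q φ = P := le_antisymm hXP hPX
  have hψ' := (hF.2 _ ψ).1 hψ
  obtain ⟨-, t, ht, hXt, f₁, h1, h2⟩ := hψ'
  have key : ∀ (X : Subgroup G), X = P → ∀ (f₁ : Set (IrrCharacter 𝐂[X])), SubpairLE p M X f₁ P e →
      SubpairLE p M (X ^^ t) (conjBlock X t f₁) P e → t ∈ 𝐍[P] ∧ StabilizesBlock 𝐂[P] e t := by
    rintro X rfl f₁ h1 h2
    obtain rfl : f₁ = e := eq_of_two_subpairLE hM he (Relation.ReflTransGen.refl) h1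
    have hle2 := le_of_subpairLE h2
    have heq : (X ^^ t) = X := by
      apply Subgroup.eq_of_le_of_card_ge hle2
      rw [Subgroup.card_map_of_injective (MulAut.conj t).injective]
    have htN : t ∈ 𝐍[X] := by
      rw [Subgroup.mem_normalizer_iff]
      intro y
      constructor
      · intro hy
        have : t * y * t⁻¹ ∈ (X ^^ t) := ⟨y, hy, rfl⟩
        rwa [heq] at this
      · intro hy
        have : t * y * t⁻¹ ∈ (X ^^ t) := by rwa [heq]
        obtain ⟨z, hz, hzy⟩ := this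
        have h3 : z = y := by
          have h4 : t * z * t⁻¹ = t * y * t⁻¹ := hzy
          exact mul_left_cancel (mul_right_cancel h4)
        rwa [← h3]
    exact ⟨htN, (chain_cp_iff_stabilizes hM he he.2 Relation.ReflTransGen.refl htN).1 h2⟩
  obtain ⟨h3, h4⟩ := key _ hXeq f₁ h1 h2
  refine ⟨t, h3, h4, fun q hq => ?_⟩
  have hN : q ∈ FusionSystem.extender P Q φ := hPX (hQP hq)
  have h5 := hagree q hq hN
  rw [ht] at h5
  exact h5

/-- A subpair of `P` is mapped below `(P, e)` by the stabilizer. -/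
theorem subpairLE_of_stab (hM : IsPModular p M) (he : IsBrauerPair p M P e) {t : G} (ht : t ∈ 𝐍[P])
    (hst : StabilizesBlock 𝐂[P] e t) (hle : SubpairLE p M Q f P e) :
    SubpairLE p M (Q ^^ t) (conjBlock Q t f) P e := by
  haveI := isPrime_of_isPModular hM
  have h1 := relationCp hM t hle
  have h2 : cp t ⟨P, e⟩ = ⟨P, e⟩ := by
    rw [cp_of_normalizer ht (normalizer_le_normalizer_centralizer P ht),
      twistSet_eq_of_stabilizes he.2 hst]
  rw [h2] at h1
  exact h1

/-- Invariant linear characters are stable. -/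
theorem stable_of_inv (hM : IsPModular p M) (hmax : IsMaximalBrauerPair p M B P e)
    (hab : ∀ x ∈ P, ∀ y ∈ P, x * y = y * x) {l : P →* ℂˣ}
    (hl : ∀ t, t ∈ 𝐍[P] → StabilizesBlock 𝐂[P] e t → ∀ y (hy : y ∈ P) (hty : t * y * t⁻¹ ∈ P),
      l ⟨t * y * t⁻¹, hty⟩ = l ⟨y, hy⟩) :
    Stable (blockFusion hM hmax) l := by
  intro y hy
  have key : (blockFusion hM hmax).focalSubgroup ≤ l.ker.map P.subtype := by
    unfold FusionSystem.focalSubgroup
    rw [Subgroup.closure_le]
    rintro _ ⟨Q', φ, x, hφ, rfl⟩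
    obtain ⟨hQ', g, hg, hgQ, f₁, h1, h2⟩ := hφ
    obtain ⟨t, ht, hts, htq⟩ := exists_stab_conj hM hmax hab h1 h2
    have hxP : (x : G) ∈ P := hQ' x.2
    have hgx : g * (x : G) * g⁻¹ ∈ P := hgQ ⟨x, x.2, rfl⟩
    have htx : t * (x : G) * t⁻¹ ∈ P := by
      rw [htq x x.2]
      exact hgx
    refine ⟨⟨x, hxP⟩⁻¹ * ⟨g * x * g⁻¹, hgx⟩, ?_, ?_⟩
    · rw [SetLike.mem_coe, MonoidHom.mem_ker, map_mul, map_inv, inv_mul_eq_one]
      have h3 := hl t ht hts x hxP htx
      rw [← h3]
      congr 1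
      exact Subtype.ext (htq x x.2)
    · simp only [Subgroup.subtype_apply, Subgroup.coe_mul, InvMemClass.coe_inv]
      rw [hg]
  obtain ⟨z, hz, hzy⟩ := key hy
  have h1 : z = y := Subtype.ext hzy
  rw [← h1]
  exact hz

/-- Linear characters of an abelian group separate points modulo a subgroup. -/
theorem exists_lin_of_not_mem {X : Type*} [Group X] [Finite X] (hX : ∀ a b : X, a * b = b * a)
    (N : Subgroup X) {x : X} (hx : x ∉ N) : ∃ μ : X →* ℂˣ, (∀ y ∈ N, μ y = 1) ∧ μ x ≠ 1 := by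
  classical
  haveI hNn : N.Normal := by
    constructor
    intro n hn g
    have h2 : g * n * g⁻¹ = n := by
      rw [hX g n]
      group
    rw [h2]
    exact hn
  letI : CommGroup (X ⧸ N) :=
    { (inferInstance : Group (X ⧸ N)) with
      mul_comm := by
        intro a b
        induction a using QuotientGroup.induction_on with
        | H a =>
        induction b using QuotientGroup.induction_on with
        | H b =>
        rw [← QuotientGroup.mk_mul, ← QuotientGroup.mk_mul, hX a b] }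
  let π : X →* (X ⧸ N) := QuotientGroup.mk' N
  haveI : NeZero ((Monoid.exponent (X ⧸ N) : ℕ) : ℂ) :=
    ⟨by exact_mod_cast Monoid.exponent_ne_zero_of_finite⟩
  have hne : π x ≠ 1 := by
    intro h
    exact hx ((QuotientGroup.eq_one_iff x).1 h)
  obtain ⟨ψ, hψ⟩ := CommGroup.exists_apply_ne_one_of_hasEnoughRootsOfUnity (X ⧸ N) ℂ hne
  refine ⟨ψ.comp π, fun y hy => ?_, hψ⟩
  show ψ (π y) = 1
  have : π y = 1 := (QuotientGroup.eq_one_iff y).2 hy
  rw [this, map_one]

/-- The index of the centralizer in the stabilizer is prime to `p`. -/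
theorem not_dvd_card_range (hM : IsPModular p M) (hmax : IsMaximalBrauerPair p M B P e)
    (hab : ∀ x ∈ P, ∀ y ∈ P, x * y = y * x) {T : Subgroup G}
    (hT : ∀ g : G, g ∈ T ↔ g ∈ 𝐍[P] ∧ StabilizesBlock 𝐂[P] e g) (hTN : T ≤ 𝐍[P]) :
    ¬ p ∣ Nat.card (theta hTN).range := by
  haveI := isPrime_of_isPModular hM
  have he := hmax.1.1
  have h1 := not_dvd_index_stab hM hmax he.2 (Relation.ReflTransGen.refl) hT hTN (fun y hy => by
    rw [inf_normalizer_of_abelian hab le_rfl]
    exact Subgroup.card_le_of_le inf_le_left)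
  have h2 : ((P ⊓ 𝐍[P]).subgroupOf T) ≤ (theta hTN).ker := by
    intro t ht
    rw [mem_ker_theta]
    rw [Subgroup.mem_subgroupOf] at ht
    exact le_centralizer_of_abelian hab le_rfl ht.1
  rw [sup_eq_right.2 h2, Subgroup.index_ker] at h1
  exact h1

/-- **A linear character invariant under the stabilizer, trivial on a subgroup of fixed points, not
trivial at a fixed point outside of it.** -/
theorem exists_inv_lin (hM : IsPModular p M) (hmax : IsMaximalBrauerPair p M B P e)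
    (hab : ∀ x ∈ P, ∀ y ∈ P, x * y = y * x) {T : Subgroup G}
    (hT : ∀ g : G, g ∈ T ↔ g ∈ 𝐍[P] ∧ StabilizesBlock 𝐂[P] e g) {u : G} (hu : u ∈ P)
    (hfix : ∀ t ∈ T, t * u * t⁻¹ = u) {Z₀ : Subgroup G} (hZ₀ : Z₀ ≤ P)
    (hZfix : ∀ z ∈ Z₀, ∀ t ∈ T, t * z * t⁻¹ = z) (huZ : u ∉ Z₀) :
    ∃ l : P →* ℂˣ, (∀ t ∈ T, ∀ y (hy : y ∈ P) (hty : t * y * t⁻¹ ∈ P), l ⟨t * y * t⁻¹, hty⟩ = l ⟨y, hy⟩) ∧
      (∀ z (hz : z ∈ Z₀), l ⟨z, hZ₀ hz⟩ = 1) ∧ l ⟨u, hu⟩ ≠ 1 := by
  classical
  have hTN : T ≤ 𝐍[P] := fun t ht => ((hT t).1 ht).1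
  have hPp : IsPGroup p P := hmax.1.1.1
  have hn := not_dvd_card_range hM hmax hab hT hTN
  set E := (theta hTN).range with hE
  letI : Fintype E := Fintype.ofFinite E
  set n := Nat.card E with hndef
  set u' : P := ⟨u, hu⟩ with hu'
  have hfixE : ∀ α : E, ∀ w : P, (∀ t ∈ T, t * (w : G) * t⁻¹ = w) → (α : MulAut P) w = w := by
    rintro ⟨α, t, rfl⟩ w hw
    apply Subtype.ext
    show (t : G) * (w : G) * (t : G)⁻¹ = w
    exact hw t t.2
  have hXab : ∀ a b : P, a * b = b * a := fun a b => Subtype.ext (hab a a.2 b b.2)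
  have hun : u' ^ n ∉ Z₀.subgroupOf P := by
    intro h
    apply huZ
    obtain ⟨k, hk⟩ := (IsPGroup.iff_orderOf.1 hPp) u'
    have hcop : n.Coprime (orderOf u') := by
      rw [hk]
      exact ((Nat.Prime.coprime_iff_not_dvd hp.out).2 hn).symm.pow_right k
    obtain ⟨m, hm⟩ := exists_pow_eq_self_of_coprime hcop
    have h1 : (u' ^ n) ^ m ∈ Z₀.subgroupOf P := Subgroup.pow_mem _ h m
    rw [hm] at h1
    exact h1
  obtain ⟨μ, hμ1, hμ2⟩ := exists_lin_of_not_mem hXab (Z₀.subgroupOf P) hun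
  let l : P →* ℂˣ := ∏ α : E, μ.comp ((α : MulAut P) : P ≃* P).toMonoidHom
  have hl : ∀ y : P, l y = ∏ α : E, μ ((α : MulAut P) y) := by
    intro y
    simp only [l, MonoidHom.finset_prod_apply]
    rfl
  refine ⟨l, ?_, ?_, ?_⟩
  · intro t ht y hy hty
    rw [hl, hl]
    have hθ : ∀ α : E, (α : MulAut P) ⟨t * y * t⁻¹, hty⟩ =
        (α * ⟨theta hTN ⟨t, ht⟩, ⟨t, ht⟩, rfl⟩ : E).1 ⟨y, hy⟩ := by
      intro α
      rfl
    exact Fintype.prod_equiv (Equiv.mulRight (⟨theta hTN ⟨t, ht⟩, ⟨t, ht⟩, rfl⟩ : E)) _ _ fun α => rfl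
  · intro z hz
    rw [hl]
    refine Finset.prod_eq_one fun α _ => ?_
    rw [hfixE α ⟨z, hZ₀ hz⟩ (fun t ht => hZfix z hz t ht)]
    exact hμ1 _ (by simpa [Subgroup.mem_subgroupOf] using hz)
  · rw [hl]
    have h1 : ∀ α : E, μ ((α : MulAut P) u') = μ u' := by
      intro α
      rw [hfixE α u' hfix]
    rw [Finset.prod_congr rfl (fun α _ => h1 α)]
    rw [Finset.prod_const, Finset.card_univ, ← Nat.card_eq_fintype_card, ← map_pow]
    exact hμ2

end Cfsg.Agent.Lib.WaFus
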