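import Mathlib
import Cfsg.Agent.Lib.WaFus
import Cfsg.Agent.S4683
import Cfsg.Agent.Lib.CharCentral

/-!
# A non-vanishing theorem for blocks with abelian defect groups

If `P` is an abelian defect group of the block `B`, `(P, e)` a maximal Brauer pair and `u ∈ P` is
fixed by the stabilizer of `(P, e)`, then the component of every character of `B` at the pair
below `(P, e)` attached to `u` is not zero at `u`.
-/

set_option autoImplicit false
set_option linter.unusedSectionVars false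
set_option linter.unusedVariables false
set_option linter.style.haveILetI false

namespace Cfsg.Agent.Lib.WaNV

open Polynomial IsLocalRing Cfsg Cfsg.Agent.Lib.StarFit Cfsg.Agent.Lib.StarGrp
open Cfsg.Agent.Lib.StarLoc Cfsg.Agent.Lib.BlockLocal Cfsg.Agent.Lib.BlockCover
open Cfsg.Agent.Lib.BlockResidue Cfsg.Agent.Lib.BrauerMap Cfsg.Agent.Lib.BrauerPair
open Cfsg.Agent.Lib.BrauerSub Cfsg.Agent.Lib.BlockIdem Cfsg.Agent.Lib.CharIntegrality
open Cfsg.Agent.Lib.BlkBasic Cfsg.Agent.Lib.StarBlk Cfsg.Agent.Lib.StarP Cfsg.Agent.Lib.StarTh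
open Cfsg.Agent.Lib.StarFit.LocSys Cfsg.Agent.Lib.GenChar Cfsg.Agent.Lib.CharBasic
open Cfsg.Agent.Lib.CharInd Cfsg.Agent.Lib.StarGen Cfsg.Agent.Lib.BrauerConj
open Cfsg.Agent.Lib.BrauerCen Cfsg.Agent.Lib.BrauerMax Cfsg.Agent.Lib.StarII
open Cfsg.Agent.Lib.StarGlob Cfsg.Agent.Lib.BlockOrtho Cfsg.Agent.Lib.StarInner
open Cfsg.Agent.Lib.StarNorm Cfsg.Agent.Lib.BrauerNil Cfsg.Agent.Lib.BrauerStab
open Cfsg.Agent.Lib.StarNil Cfsg.Agent.Lib.StarAct Cfsg.Agent.Lib.StarFocal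
open Cfsg.Agent.Lib.WaFus Cfsg.Agent.Lib.BrauerIn
open Cfsg.Agent.Lib.BlockNormal Cfsg.Agent.Lib.BlockSecond Cfsg.Agent.Lib.BrauerSat
open scoped ComplexConjugate

universe u

variable {G : Type u} [Group G] [Fintype G] {p : ℕ} [hp : Fact p.Prime] {M : Ideal AlgInt}
  [hMp : M.IsPrime]

local notation "𝐂[" R "]" => Subgroup.centralizer ((R : Subgroup G) : Set G)
local notation "𝐍[" R "]" => Subgroup.normalizer ((R : Subgroup G) : Set G)
local notation Q "^^" x => Subgroup.map (MulEquiv.toMonoidHom (MulAut.conj (x : G))) (Q : Subgroup G)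

noncomputable local instance fintypeSubNV {A : Type*} [Group A] [Finite A] (K : Subgroup A) : Fintype K :=
  Fintype.ofFinite K

variable {B : Set (IrrCharacter G)} {P : Subgroup G}
  {e : Set (IrrCharacter (Subgroup.centralizer (P : Set G)))}

/-- `C_G(P)` with the central subgroup `P`: the block `e` has the pair `(P, e)`. -/
theorem isBrauerPairOf_self (hM : IsPModular p M) (hPp : IsPGroup p P) (hPC : P ≤ 𝐂[P])
    (he : IsPBlock M e) :
    IsBrauerPairOf p M e (P.subgroupOf 𝐂[P]) (twistSetE (cenMatch_in le_rfl hPC).iso.symm e) := by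
  have hPh : IsPGroup p (P.subgroupOf 𝐂[P]) := hPp.comap_of_injective (𝐂[P]).subtype Subtype.val_injective
  set m := cenMatch_in le_rfl hPC
  refine ⟨⟨hPh, isPBlock_twistSetE _ he⟩, he, ?_⟩
  rintro _ ⟨ξ, hξ, rfl⟩
  rw [brauerOmega_eq, m.brO_eq (α := subgroupBlockCoeff 𝐂[P] e)
    (fun t => (subgroupBlockCoeff_eq_ext0 _ e ▸ (ext0_coe _ _ t).symm)), twistE_symm_twistE]
  have : brO P (subgroupBlockCoeff 𝐂[P] e) ξ = 1 := by
    unfold brO
    have h1 : resC 𝐂[P] (subgroupBlockCoeff 𝐂[P] e) = blockCoeff e := by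
      funext t
      rw [resC_apply, subgroupBlockCoeff_eq_ext0, ext0_coe]
    rw [h1, BrauerPair.omega_blockCoeff, ind_of_mem hξ]
  rw [this, sub_self]
  exact memLocalIdeal_zero

/-- **Characters of a block with central defect group vanish off the defect group.** -/
theorem irr_eq_zero_of_pp_not_mem (hM : IsPModular p M) (hmax : IsMaximalBrauerPair p M B P e)
    (hab : ∀ x ∈ P, ∀ y ∈ P, x * y = y * x) {ξ : IrrCharacter 𝐂[P]} (hξ : ξ ∈ e) (c : 𝐂[P])
    (hc : pp p (c : G) ∉ P) : (ξ : 𝐂[P] → ℂ) c = 0 := by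
  have hPp : IsPGroup p P := hmax.1.1.1
  have he : IsPBlock M e := hmax.1.1.2
  have hPC : P ≤ 𝐂[P] := le_centralizer_of_abelian hab le_rfl
  have hPD := isDefectGroup_of_maximal hM hmax
  have h1 := isBrauerPairOf_self hM hPp hPC he
  have hm := isMaximal_in hM hPD le_rfl hPC hmax.1 h1 he
  rw [← sum_chiT_eB (M := M) (ξ : 𝐂[P] → ℂ) (pp p c) c]
  refine Finset.sum_eq_zero fun b' _ => ?_
  apply chiT_eq_zero_of_not_W2 hM hm hξ ⟨pp p c, b'⟩ ?_ rfl
  rintro ⟨g, hg⟩
  have h2 := le_of_subpairLE (show SubpairLE p M _ _ _ _ from hg)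
  have h3 : g * pp p c * g⁻¹ ∈ P.subgroupOf 𝐂[P] := h2 ⟨pp p c, Subgroup.mem_zpowers _, rfl⟩
  have h4 : pp p c = g⁻¹ * (g * pp p c * g⁻¹) * g := by group
  have h5 : ((g * pp p c * g⁻¹ : 𝐂[P]) : G) ∈ P := by
    simpa [Subgroup.mem_subgroupOf] using h3
  have h6 : ((pp p c : 𝐂[P]) : G) = pp p (c : G) := by
    symm
    apply pp_eq
    obtain ⟨y, hy, hyc, hk, hyp⟩ := pp_spec (p := p) c
    refine ⟨y, ?_, ?_, ?_, ?_⟩
    · exact congrArg Subtype.val hy
    · exact hyc.map (𝐂[P]).subtype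
    · obtain ⟨k, hk⟩ := hk
      exact ⟨k, by rw [Subgroup.orderOf_coe, hk]⟩
    · rwa [Subgroup.orderOf_coe]
  apply hc
  rw [← h6]
  have h7 : ((pp p c : 𝐂[P]) : G) = (g * pp p c * g⁻¹ : 𝐂[P]) := by
    have h8 : (g : G)⁻¹ * ((g : G) * ((pp p c : 𝐂[P]) : G) * (g : G)⁻¹) =
        ((g : G) * ((pp p c : 𝐂[P]) : G) * (g : G)⁻¹) * (g : G)⁻¹ :=
      ((Subgroup.mem_centralizer_iff.1 (g⁻¹).2) _ h5).symm
    show ((pp p c : 𝐂[P]) : G) = (g : G) * ((pp p c : 𝐂[P]) : G) * (g : G)⁻¹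
    calc ((pp p c : 𝐂[P]) : G)
        = ((g : G)⁻¹ * ((g : G) * ((pp p c : 𝐂[P]) : G) * (g : G)⁻¹)) * (g : G) := by group
      _ = (((g : G) * ((pp p c : 𝐂[P]) : G) * (g : G)⁻¹) * (g : G)⁻¹) * (g : G) := by rw [h8]
      _ = _ := by group
  rw [h7]
  exact h5

theorem orderOf_conj_eq' (y g : G) : orderOf (y * g * y⁻¹) = orderOf g := by
  have h := orderOf_injective (MulAut.conj y).toMonoidHom (MulAut.conj y).injective g
  simpa [MulAut.conj_apply] using h

theorem memLocalIdeal_sum_sub_one {ι : Type*} (s : Finset ι) (q₀ : ι) (hq₀ : q₀ ∈ s) (f : ι → ℂ)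
    (h0 : MemLocalIdeal M (f q₀ - 1)) (h1 : ∀ q ∈ s, q ≠ q₀ → MemLocalIdeal M (f q)) :
    MemLocalIdeal M (∑ q ∈ s, f q - 1) := by
  classical
  rw [← Finset.add_sum_erase _ _ hq₀, add_sub_right_comm]
  refine memLocalIdeal_add h0 (memLocalIdeal_sum _ _ fun q hq => ?_)
  exact h1 q (Finset.mem_of_mem_erase hq) (Finset.ne_of_mem_erase hq)

/-- The element of a pair. -/
noncomputable def xI (j : Idx G M) : MonoidAlgebra (localSubring M) G := ofG (localSubring M) j.1 * eI j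

theorem cj_xI (t : G) (j : Idx G M) : cj t (xI j) = xI (act t j) := by
  unfold xI
  rw [cj_mul', cj_ofG, eI_act, act_fst]

open Classical in
theorem coeF_ofG_apply (w k : G) :
    coeF (ofG (localSubring M) w) k = if k = w then 1 else 0 := by
  classical
  simp only [coeF_apply, ofG, MonoidAlgebra.coeff_single, Finsupp.single_apply]
  by_cases h : k = w
  · simp [h]
  · simp [h, Ne.symm h]

theorem coeF_ofG_inv (w : G) (S : Subgroup G) (hS : ∀ s ∈ S, s * w = w * s) :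
    Inv S (coeF (ofG (localSubring M) w)) := by
  intro s hs x
  have h1 : s * x * s⁻¹ = w ↔ x = w := by
    constructor
    · intro h
      rw [mul_inv_eq_iff_eq_mul, ← hS s hs] at h
      exact mul_left_cancel h
    · rintro rfl
      rw [hS s hs, mul_inv_cancel_right]
  rw [coeF_ofG_apply, coeF_ofG_apply]
  by_cases hx : x = w
  · rw [if_pos hx, if_pos (h1.2 hx)]
  · rw [if_neg hx, if_neg (fun h => hx (h1.1 h))]

/-- The image of an element of `P`. -/
theorem brO_ofG (hM : IsPModular p M) {w : G} (hw : w ∈ P) (hwC : w ∈ 𝐂[P]) (hk : ∃ k : ℕ, orderOf w = p ^ k)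
    (ξ : IrrCharacter 𝐂[P]) :
    MemLocalIdeal M (brO P (coeF (ofG (localSubring M) w)) ξ - 1) := by
  classical
  have hξ := ξ.2
  have h1 : ξ.1 1 ≠ 0 := irr_one_ne_zero' hξ
  set w' : 𝐂[P] := ⟨w, hwC⟩ with hw'
  have hcen : ∀ g : 𝐂[P], w' * g = g * w' := fun g => Subtype.ext
    ((Subgroup.mem_centralizer_iff.1 g.2) w hw)
  have h2 : brO P (coeF (ofG (localSubring M) w)) ξ = ξ.1 w' / ξ.1 1 := by
    unfold brO omega
    congr 1
    rw [Finset.sum_eq_single w']
    · rw [resC_apply, coeF_ofG_apply, if_pos rfl, one_mul]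
    · intro c _ hc
      rw [resC_apply, coeF_ofG_apply, if_neg (fun h => hc (Subtype.ext h)), zero_mul]
    · simp
  have h3 : ∀ n : ℕ, ξ.1 (w' ^ n) / ξ.1 1 = (ξ.1 w' / ξ.1 1) ^ n := by
    intro n
    induction n with
    | zero => simp [h1]
    | succ n ih =>
      rw [pow_succ', pow_succ', ← ih]
      have h4 := Cfsg.Agent.Lib.CharCentral.central_mul hξ hcen (w' ^ n)
      field_simp
      linear_combination h4
  obtain ⟨k, hk⟩ := hk
  have h5 : w' ^ p ^ k = 1 := by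
    apply Subtype.ext
    show w ^ p ^ k = 1
    rw [← hk, pow_orderOf_eq_one]
  have h6 := h3 (p ^ k)
  rw [h5, div_self h1] at h6
  rw [h2]
  exact memLocalIdeal_sub_one_pow hM (k := k) h6.symm

/-- The block idempotent of a pair in `P` maps to zero or to one. -/
theorem brO_eI_or (hM : IsPModular p M) (he : IsBrauerPair p M P e)
    (hab : ∀ x ∈ P, ∀ y ∈ P, x * y = y * x) (j : Idx G M) (hj : j.1 ∈ P) :
    (∀ ξ ∈ e, MemLocalIdeal M (brO P (coeF (eI j)) ξ)) ∨
      SubpairLE p M (Subgroup.zpowers j.1) j.2.1 P e := by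
  classical
  have hle : Subgroup.zpowers j.1 ≤ P := by
    rw [Subgroup.zpowers_le]
    exact hj
  have hPC : P ≤ 𝐂[Subgroup.zpowers j.1] := WaFus.le_centralizer_of_abelian hab hle
  have hCC : 𝐂[P] ≤ 𝐂[Subgroup.zpowers j.1] := Subgroup.centralizer_le hle
  have hcen : eI j ∈ cen (localSubring M) (𝐂[Subgroup.zpowers j.1] : Set G) := eI_mem_cen j
  have hI1 : Inv P (coeF (eI j)) := (inv_coeF_of_mem_cen hcen).mono hPC
  have hI2 : Inv 𝐂[P] (coeF (eI j)) := (inv_coeF_of_mem_cen hcen).mono hCC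
  have hR : ∀ x, MemLocalRing M (coeF (eI j) x) := coeF_local _
  have hidem : ∀ ξ, MemLocalIdeal M (brO P (coeF (eI j)) ξ * brO P (coeF (eI j)) ξ - brO P (coeF (eI j)) ξ) := by
    refine brO_idem_of_conv hM he.1 hI1 hI2 hR ?_
    rw [← coeF_mul]
    congr 1
    exact eB_idem _ _
  by_cases h0 : ∃ ξ ∈ e, MemLocalIdeal M (brO P (coeF (eI j)) ξ - 1)
  · right
    obtain ⟨ξ₀, hξ₀, h1⟩ := h0
    apply Relation.ReflTransGen.single
    refine ⟨⟨he.1.to_le hle, j.2.2⟩, he, hle, WaFus.le_normalizer_of_abelian hab hle,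
      fun x hx => stabilizes_of_mem_centralizer (hPC hx) _, fun ξ hξ => ?_⟩
    rw [brauerOmega_eq]
    have hsb : SameBlock M (ξ : 𝐂[P] → ℂ) ξ₀ := by
      obtain ⟨ξ₁, rfl⟩ := he.2
      exact sameBlock_trans (sameBlock_symm hξ) hξ₀
    have h2 := brO_sub_of_sameBlock hI2 hR hsb
    have h3 := memLocalIdeal_add h2 h1
    convert h3 using 1
    show _ = brO P (coeF (eI j)) ξ - brO P (coeF (eI j)) ξ₀ + (brO P (coeF (eI j)) ξ₀ - 1)
    rw [show coeF (eI j) = subgroupBlockCoeff 𝐂[Subgroup.zpowers j.1] j.2.1 from coeF_eB _ _]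
    ring
  · left
    intro ξ hξ
    rcases memLocalIdeal_or_of_idem (memLocalRing_brO hI2 hR ξ) (hidem ξ) with h1 | h1
    · exact h1
    · exact absurd ⟨ξ, hξ, h1⟩ h0

/-- For an abelian `P`, subpairs below `(P, e)` are normal subpairs. -/
theorem occ_of_subpairLE (hM : IsPModular p M) (he : IsBrauerPair p M P e)
    (hab : ∀ x ∈ P, ∀ y ∈ P, x * y = y * x) {Q : Subgroup G} {f : Set (IrrCharacter 𝐂[Q])}
    (hle : SubpairLE p M Q f P e) : IsNormalSubpair p M Q f P e := by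
  have hQP := le_of_subpairLE hle
  obtain ⟨f₀, hf₀, -⟩ := existsUnique_normalSubpair hM he hQP (WaFus.le_normalizer_of_abelian hab hQP)
  have h1 : SubpairLE p M Q f₀ P e := Relation.ReflTransGen.single hf₀
  have h2 := eq_of_two_subpairLE hM he h1 hle
  subst h2
  exact hf₀

theorem cen_ofG_mem (w : G) (S : Subgroup G) (hS : ∀ s ∈ S, s * w = w * s) :
    Inv S (coeF (ofG (localSubring M) w)) := coeF_ofG_inv w S hS

/-- The image of `w e` is congruent to the image of `e`. -/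
theorem brO_xI_sub (hM : IsPModular p M) (he : IsBrauerPair p M P e)
    (hab : ∀ x ∈ P, ∀ y ∈ P, x * y = y * x) (j : Idx G M) (hj : j.1 ∈ P) (ξ : IrrCharacter 𝐂[P]) :
    MemLocalIdeal M (brO P (coeF (xI j)) ξ - brO P (coeF (eI j)) ξ) := by
  classical
  have hle : Subgroup.zpowers j.1 ≤ P := by
    rw [Subgroup.zpowers_le]
    exact hj
  have hPC : P ≤ 𝐂[Subgroup.zpowers j.1] := WaFus.le_centralizer_of_abelian hab hle
  have hCC : 𝐂[P] ≤ 𝐂[Subgroup.zpowers j.1] := Subgroup.centralizer_le hle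
  have hcen : eI j ∈ cen (localSubring M) (𝐂[Subgroup.zpowers j.1] : Set G) := eI_mem_cen j
  have hI1 : Inv P (coeF (eI j)) := (inv_coeF_of_mem_cen hcen).mono hPC
  have hI2 : Inv 𝐂[P] (coeF (eI j)) := (inv_coeF_of_mem_cen hcen).mono hCC
  have hJ1 : Inv P (coeF (ofG (localSubring M) j.1)) :=
    coeF_ofG_inv _ _ fun s hs => hab s hs _ hj
  have hJ2 : Inv 𝐂[P] (coeF (ofG (localSubring M) j.1)) :=
    coeF_ofG_inv _ _ fun s hs => ((Subgroup.mem_centralizer_iff.1 hs) _ hj).symm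
  have h1 := brO_conv he.1 hM hJ1 hI1 hJ2 hI2 (coeF_local _) (coeF_local _) ξ
  rw [← coeF_mul] at h1
  have hjC : j.1 ∈ 𝐂[P] := (Subgroup.mem_centralizer_iff.2 fun y hy => hab y hy _ hj)
  have hord : ∃ k : ℕ, orderOf j.1 = p ^ k := by
    obtain ⟨k, hk⟩ := (IsPGroup.iff_orderOf.1 he.1) ⟨j.1, hj⟩
    exact ⟨k, by rwa [Subgroup.orderOf_mk] at hk⟩
  have h2 := brO_ofG hM hj hjC hord ξ
  have h3 := memLocalIdeal_mul_right h2 (memLocalRing_brO hI2 (coeF_local _) ξ)
  have h4 := memLocalIdeal_add h1 h3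
  convert h4 using 1
  unfold xI
  ring

/-- The image of the term attached to a pair not in `P`. -/
theorem brO_xI_of_not_mem (hM : IsPModular p M) (hmax : IsMaximalBrauerPair p M B P e)
    (hab : ∀ x ∈ P, ∀ y ∈ P, x * y = y * x) (j : Idx G M) (hj : j.1 ∉ P) (hord : ∃ k : ℕ, orderOf j.1 = p ^ k)
    {ξ : IrrCharacter 𝐂[P]} (hξ : ξ ∈ e) : brO P (coeF (xI j)) ξ = 0 := by
  classical
  unfold brO omega
  rw [div_eq_zero_iff]
  left
  refine Finset.sum_eq_zero fun c _ => ?_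
  rw [resC_apply]
  by_cases hc : coeF (xI j) c = 0
  · rw [hc, zero_mul]
  · rw [irr_eq_zero_of_pp_not_mem hM hmax hab hξ c, mul_zero]
    unfold xI at hc
    rw [coeF_ofG_mul, show eI j = eB _ j.2 from rfl, coeF_eB, subgroupBlockCoeff_eq_ext0] at hc
    have h1 : j.1⁻¹ * (c : G) ∈ 𝐂[Subgroup.zpowers j.1] := by
      by_contra h
      rw [ext0_of_not_mem _ _ h] at hc
      exact hc rfl
    rw [ext0_of_mem _ _ h1] at hc
    have h2 : ¬ p ∣ orderOf (⟨_, h1⟩ : 𝐂[Subgroup.zpowers j.1]) := by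
      intro h
      exact hc (Cfsg.Agent.Lib.BlockOrth.blockCoeff_eq_zero hM j.2.2 h)
    have h3 := pp_mul_of_mem (p := p) hord ⟨_, h1⟩ h2
    have h4 : j.1 * ((⟨_, h1⟩ : 𝐂[Subgroup.zpowers j.1]) : G) = c := by
      show j.1 * (j.1⁻¹ * (c : G)) = c
      group
    rw [h4] at h3
    rw [h3]
    exact hj

/-- The value at the pair of a fixed point of the stabilizer. -/
theorem chiT_xI_ne_zero (hM : IsPModular p M) (hmax : IsMaximalBrauerPair p M B P e)
    (hab : ∀ x ∈ P, ∀ y ∈ P, x * y = y * x) {u : G} (hu : u ∈ P)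
    (hfix : ∀ t, t ∈ 𝐍[P] → StabilizesBlock 𝐂[P] e t → t * u * t⁻¹ = u) {χ : IrrCharacter G}
    (hχ : χ ∈ B) : chiT (M := M) (χ : G → ℂ) (xI (idxP hM hmax.1.1 ⟨u, hu⟩)) ≠ 0 := by
  classical
  have he := hmax.1.1
  have hPp : IsPGroup p P := he.1
  have hB : IsPBlock M B := hmax.1.2.1
  set i := idxP hM he ⟨u, hu⟩ with hi
  have hi1 : i.1 = u := rfl
  set H := 𝐂[Subgroup.zpowers u] with hH
  have hχc : IsClassFunction G (χ : G → ℂ) := isClassFunction_of_isCharacter (IsIrrCharacter.isCharacter χ.2)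
  -- the element is central in the centralizer
  have hx₀ : xI i ∈ cen (localSubring M) (H : Set G) := by
    unfold xI
    refine Subalgebra.mul_mem _ ?_ (eI_mem_cen i)
    rw [mem_cen]
    intro h hh
    show ofG (localSubring M) h * ofG (localSubring M) u = ofG (localSubring M) u * ofG (localSubring M) h
    rw [← ofG_mul, ← ofG_mul]
    congr 1
    exact ((Subgroup.mem_centralizer_iff.1 hh) u (Subgroup.mem_zpowers u)).symm
  set y := rtr H ⊤ (xI i) with hy
  have hycl : IsClassFunction G (coeF y) := by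
    intro g t
    have h1 : cj t⁻¹ y = y := cj_rtr hx₀ le_top (Subgroup.mem_top _)
    conv_rhs => rw [← h1]
    rw [coeF_cj]
    congr 1
    group
  obtain ⟨ξ₀, hξ₀⟩ : ∃ ξ, ξ ∈ e := by
    obtain ⟨ξ₀, rfl⟩ := he.2
    exact ⟨ξ₀, mem_blockOf_self ξ₀⟩
  have h1 : MemLocalIdeal M (brO P (blockCoeff B) ξ₀ - 1) := by
    have := hmax.1.2.2 ξ₀ hξ₀
    rwa [brauerOmega_eq] at this
  have h2 := brO_sub_omega hM hPp hB ξ₀ h1 hχ hycl (coeF_local _)
  -- the image
  have h3 : MemLocalIdeal M (brO P (coeF y) ξ₀ - 1) := by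
    set q₀ : (⊤ : Subgroup G) ⧸ H.subgroupOf ⊤ := QuotientGroup.mk 1 with hq₀
    rw [hy]
    unfold rtr
    rw [coeF_sum, brO_sum]
    refine memLocalIdeal_sum_sub_one (M := M) _ q₀ ?_ _ ?_ fun q hq hne => ?_
    · exact @Finset.mem_univ _ (fintypeQuotT _) _
    · rw [hq₀, cj_out hx₀]
      show MemLocalIdeal M (brO P (coeF (cj 1 (xI i))) ξ₀ - 1)
      rw [cj_one]
      have h4 := brO_xI_sub hM he hab i hu ξ₀
      have h5 := (occ_of_subpairLE hM he hab (bw_spec hM he ⟨u, hu⟩)).2.2.2.2.2 ξ₀ hξ₀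
      rw [brauerOmega_eq] at h5
      have h6 := memLocalIdeal_add h4 h5
      convert h6 using 1
      rw [show coeF (eI i) = subgroupBlockCoeff _ (bw hM he ⟨u, hu⟩).1 from rfl]
      ring
    · rw [cj_xI]
      set j := act (q.out : G) i with hj
      have hj1 : j.1 = (q.out : G) * u * (q.out : G)⁻¹ := rfl
      have hjne : j.1 ≠ u := by
        intro h4
        apply hne
        have h5 : (q.out : G) ∈ H := by
          refine Subgroup.mem_centralizer_iff.2 fun z hz => ?_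
          obtain ⟨n, rfl⟩ := Subgroup.mem_zpowers_iff.1 hz
          have h6 : Commute (q.out : G) u := by
            show (q.out : G) * u = u * (q.out : G)
            rw [hj1, mul_inv_eq_iff_eq_mul] at h4
            exact h4
          exact ((h6.zpow_right n).eq).symm
        rw [← QuotientGroup.out_eq' q, hq₀, eq_comm, QuotientGroup.eq]
        rw [Subgroup.mem_subgroupOf]
        simpa using h5
      have hord : ∃ k : ℕ, orderOf j.1 = p ^ k := by
        obtain ⟨k, hk⟩ := (IsPGroup.iff_orderOf.1 hPp) ⟨u, hu⟩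
        refine ⟨k, ?_⟩
        rw [hj1, orderOf_conj_eq']
        rwa [Subgroup.orderOf_mk] at hk
      by_cases hjP : j.1 ∈ P
      · rcases brO_eI_or hM he hab j hjP with h4 | h4
        · have h5 := memLocalIdeal_add (brO_xI_sub hM he hab j hjP ξ₀) (h4 ξ₀ hξ₀)
          rwa [sub_add_cancel] at h5
        · exfalso
          have h5 : W2 p M P e j 1 := (W2_one_iff j).2 h4
          have h6 := (W2_act (q.out : G) i (q.out : G)).1 (by rwa [mul_inv_cancel])
          have h7 : SubpairLE p M ((Subgroup.zpowers u) ^^ (q.out : G))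
              (conjBlock (Subgroup.zpowers u) (q.out : G) (bw hM he ⟨u, hu⟩).1) P e := h6
          obtain ⟨t, ht, hts, htq⟩ := exists_stab_conj hM hmax hab (bw_spec hM he ⟨u, hu⟩) h7
          apply hjne
          rw [hj1, ← htq u (Subgroup.mem_zpowers u), hfix t ht hts]
      · rw [brO_xI_of_not_mem hM hmax hab j hjP hord hξ₀]
        exact memLocalIdeal_zero
  intro h0
  have h4 : omega (χ : G → ℂ) (coeF y) = 0 := by
    unfold omega
    rw [div_eq_zero_iff]
    left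
    have h5 : chiT (χ : G → ℂ) y = 0 := by
      rw [hy]
      unfold rtr
      rw [map_sum]
      refine Finset.sum_eq_zero fun q _ => ?_
      rw [chiT_cj hχc, h0]
    rw [← h5]
    rfl
  rw [h4, sub_zero] at h2
  have h6 := memLocalIdeal_sub h2 h3
  rw [sub_sub_cancel] at h6
  exact not_memLocalIdeal_one h6

/-- **The vanishing theorem.** -/
theorem sum_lin_mul_cc (hM : IsPModular p M) (hmax : IsMaximalBrauerPair p M B P e)
    (hab : ∀ x ∈ P, ∀ y ∈ P, x * y = y * x) {l : P →* ℂˣ}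
    (hl : ∀ t, t ∈ 𝐍[P] → StabilizesBlock 𝐂[P] e t → ∀ y (hy : y ∈ P) (hty : t * y * t⁻¹ ∈ P),
      l ⟨t * y * t⁻¹, hty⟩ = l ⟨y, hy⟩) {u : G} (hu : u ∈ P)
    (hfix : ∀ t, t ∈ 𝐍[P] → StabilizesBlock 𝐂[P] e t → t * u * t⁻¹ = u) (hlu : l ⟨u, hu⟩ ≠ 1)
    {χ : IrrCharacter G} (hχ : χ ∈ B) :
    ∑ w : P, ((l w : ℂˣ) : ℂ) * cc hM hmax.1.1 (χ : G → ℂ) (χ : G → ℂ) w = 0 := by
  classical
  have he := hmax.1.1
  have hF := isBlockFusionSystemOn_blockFusion hM hmax
  have hSt := stable_of_inv hM hmax hab hl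
  have hχc : IsClassFunction G (χ : G → ℂ) := isClassFunction_of_isCharacter (IsIrrCharacter.isCharacter χ.2)
  have hst := hst_lamF hF hSt
  have h1 := inner_TT_LamH hM he hχc hχc hst (hst_lamF hF (stable_one _))
  have h3 : TT p M (LamH p M P e (lamF (1 : P →* ℂˣ))) (χ : G → ℂ) = χ := twL_one hM hF hχ
  rw [h3] at h1
  have h2 : ∑ w : P, lamF l (w : G) * conj (lamF (1 : P →* ℂˣ) (w : G)) * cc hM he (χ : G → ℂ) (χ : G → ℂ) w =
      ∑ w : P, ((l w : ℂˣ) : ℂ) * cc hM he (χ : G → ℂ) (χ : G → ℂ) w := by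
    refine Finset.sum_congr rfl fun w _ => ?_
    rw [lamF_coe, lamF_coe]
    simp
  rw [h2] at h1
  rw [← h1]
  set χ' : IrrCharacter G := ⟨twL p M e l (χ : G → ℂ), isIrr_twL hM hF hSt hχ⟩ with hχ'
  by_cases hne : χ' = χ
  · exfalso
    have h4 : TT p M (LamH p M P e (lamF l)) (χ : G → ℂ) = χ := congrArg Subtype.val hne
    have hord : ∃ k : ℕ, orderOf u = p ^ k := by
      obtain ⟨k, hk⟩ := (IsPGroup.iff_orderOf.1 he.1) ⟨u, hu⟩
      exact ⟨k, by rwa [Subgroup.orderOf_mk] at hk⟩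
    have h5 := chiT_TT_eB hM (lamH_conj hst) hχc hord (bw hM he ⟨u, hu⟩) 1 (by simp [hp.out.one_lt.ne'])
    rw [h4] at h5
    have hW : Wit p M P e u (eB _ (bw hM he ⟨u, hu⟩)) 1 := (wit_iff (idxP hM he ⟨u, hu⟩) 1).2 (W2_idxP hM he ⟨u, hu⟩)
    rw [lamH_eq hst hW] at h5
    have h6 : (1 : G) * u * (1 : G)⁻¹ = u := by group
    rw [h6, lamF_of_mem l hu] at h5
    have h7 : u * (((1 : 𝐂[Subgroup.zpowers u]) : G)) = u := by simp
    rw [h7] at h5
    have h8 := chiT_xI_ne_zero hM hmax hab hu hfix hχ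
    have h9 : xI (idxP hM he ⟨u, hu⟩) = ofG (localSubring M) u * eB _ (bw hM he ⟨u, hu⟩) := rfl
    rw [h9] at h8
    apply hlu
    apply Units.ext
    apply mul_right_cancel₀ h8
    rw [← h5]
    simp
  · exact classInner_irr_ne χ'.2 χ.2 (fun h => hne (Subtype.ext h))

end Cfsg.Agent.Lib.WaNV
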