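import Mathlib
import Cfsg.Agent.Lib.WaNV

/-!
# Sections and ranks for blocks with abelian defect groups

The sum of the squares of the components of the characters of `G` at a pair `(u, b)` is the order
of the centralizer of `u` times the rank of `b`.  Hence the number of characters of a block
with abelian defect group `P` is the sum over `P` of the rank of the block attached to `w` divided
by the size of the orbit of `w` under the stabilizer.
-/

set_option autoImplicit false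
set_option linter.unusedSectionVars false
set_option linter.unusedVariables false
set_option linter.style.haveILetI false

namespace Cfsg.Agent.Lib.WaSec

open Polynomial IsLocalRing Cfsg Cfsg.Agent.Lib.StarFit Cfsg.Agent.Lib.StarGrp
open Cfsg.Agent.Lib.StarLoc Cfsg.Agent.Lib.BlockLocal Cfsg.Agent.Lib.BlockCover
open Cfsg.Agent.Lib.BlockResidue Cfsg.Agent.Lib.BrauerMap Cfsg.Agent.Lib.BrauerPair
open Cfsg.Agent.Lib.BrauerSub Cfsg.Agent.Lib.BlockIdem Cfsg.Agent.Lib.CharIntegrality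
open Cfsg.Agent.Lib.BlkBasic Cfsg.Agent.Lib.StarBlk Cfsg.Agent.Lib.StarP Cfsg.Agent.Lib.StarTh
open Cfsg.Agent.Lib.StarFit.LocSys Cfsg.Agent.Lib.GenChar Cfsg.Agent.Lib.CharBasic
open Cfsg.Agent.Lib.CharInd Cfsg.Agent.Lib.StarGen Cfsg.Agent.Lib.BrauerConj
open Cfsg.Agent.Lib.BrauerCen Cfsg.Agent.Lib.BrauerMax Cfsg.Agent.Lib.StarII
open Cfsg.Agent.Lib.StarGlob Cfsg.Agent.Lib.BlockOrtho Cfsg.Agent.Lib.StarInner
open Cfsg.Agent.Lib.StarNorm Cfsg.Agent.Lib.BrauerNil Cfsg.Agent.Lib.BrauerStab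
open Cfsg.Agent.Lib.StarNil Cfsg.Agent.Lib.StarAct Cfsg.Agent.Lib.StarFocal
open Cfsg.Agent.Lib.WaFus Cfsg.Agent.Lib.BrauerIn Cfsg.Agent.Lib.WaNV
open Cfsg.Agent.Lib.BlockNormal Cfsg.Agent.Lib.BlockSecond Cfsg.Agent.Lib.BrauerSat
open Cfsg.Agent.Lib.BlockSubsection Cfsg.Agent.Lib.BlockQ
open scoped ComplexConjugate

universe u

variable {G : Type u} [Group G] [Fintype G] {p : ℕ} [hp : Fact p.Prime] {M : Ideal AlgInt}
  [hMp : M.IsPrime]

local notation "𝐂[" R "]" => Subgroup.centralizer ((R : Subgroup G) : Set G)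
local notation "𝐍[" R "]" => Subgroup.normalizer ((R : Subgroup G) : Set G)
local notation Q "^^" x => Subgroup.map (MulEquiv.toMonoidHom (MulAut.conj (x : G))) (Q : Subgroup G)

noncomputable local instance fintypeSubSec {A : Type*} [Group A] [Finite A] (K : Subgroup A) : Fintype K :=
  Fintype.ofFinite K

section Sum

theorem blockPart_eq_blockProj {X : Type u} [Group X] [Fintype X] (b : Set (IrrCharacter X)) {θ : X → ℂ}
    (hθ : IsClassFunction X θ) (y : X) : blockPart b θ y = blockProj b θ y := by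
  rw [← sum_blockCoeff_mul_eq_blockPart b hθ, ← sum_blockCoeff_mul b hθ]
  refine Finset.sum_congr rfl fun k _ => ?_
  congr 1
  have h := hθ (k * y) y
  rw [← h]
  congr 1
  group

theorem Wsum_self_eq (hM : IsPModular p M) {χ : G → ℂ} (hχ : IsClassFunction G χ) {u : G}
    (hu : ∃ k : ℕ, orderOf u = p ^ k) (b : BlockT M 𝐂[Subgroup.zpowers u]) :
    Wsum p χ χ (⟨u, b⟩ : Idx G M) = ∑ s : 𝐂[Subgroup.zpowers u],
      pRegularPart p (fun s : 𝐂[Subgroup.zpowers u] =>
        blockProj b.1 (shiftF u χ) s * conj (χ (u * s))) s := by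
  classical
  have h1 : Wsum p χ χ (⟨u, b⟩ : Idx G M) =
      ∑ v ∈ Finset.univ.filter (fun v => pp p v = u),
        chiT χ (ofG (localSubring M) v * eB _ b) * conj (χ v) := by
    unfold Wsum
    symm
    have h2 : ∀ v, conj (χ v) = ∑ b' : BlockT M 𝐂[Subgroup.zpowers u],
        conj (chiT χ (ofG (localSubring M) v * eB _ b')) := by
      intro v
      rw [← map_sum, sum_chiT_eB]
    simp_rw [h2, Finset.mul_sum]
    rw [Finset.sum_comm, Finset.sum_eq_single b]
    · rfl
    · intro b' _ hb'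
      exact sum_chiT_orth hM u hb'.symm hχ hχ
    · intro h
      exact absurd (Finset.mem_univ _) h
  rw [h1, sum_filter_pp hu]
  refine Finset.sum_congr rfl fun s _ => ?_
  by_cases hs : p ∣ orderOf s
  · rw [pRegularPart_of_sing _ hs, pRegularPart_of_sing _ hs]
  · rw [pRegularPart_of_reg _ hs, pRegularPart_of_reg _ hs, chiT_eB_eq u χ hχ]

/-- **The sum over the characters of the component at a pair.** -/
theorem sum_Wsum (hM : IsPModular p M) {u : G} (hu : ∃ k : ℕ, orderOf u = p ^ k)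
    (b : BlockT M 𝐂[Subgroup.zpowers u]) :
    ∑ χ : IrrCharacter G, Wsum p (χ : G → ℂ) (χ : G → ℂ) (⟨u, b⟩ : Idx G M) =
      (Nat.card 𝐂[Subgroup.zpowers u] : ℂ) * (blockRank p b.1 : ℂ) := by
  classical
  rw [card_mul_blockRank hM b.2]
  have hH : 𝐂[Subgroup.zpowers u] = Subgroup.centralizer ({u} : Set G) := centralizer_zpowers_eq u
  have h1 : ∀ χ : IrrCharacter G, IsClassFunction G (χ : G → ℂ) := fun χ =>
    isClassFunction_of_isCharacter (IsIrrCharacter.isCharacter χ.2)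
  simp_rw [fun χ : IrrCharacter G => Wsum_self_eq hM (h1 χ) hu b]
  rw [Finset.sum_comm]
  refine Finset.sum_congr rfl fun s _ => ?_
  by_cases hs : p ∣ orderOf s
  · simp only [pRegularPart_of_sing _ hs]
    simp
  · simp only [pRegularPart_of_reg _ hs]
    rw [← finsum_mem_eq_sum_indB]
    have h2 := sum_blockPart_conj hM hu hH b.2 hs hs
    rw [← h2]
    refine Finset.sum_congr rfl fun χ _ => ?_
    have h3 : thetaZ (χ : G → ℂ) u 𝐂[Subgroup.zpowers u] = shiftF u (χ : G → ℂ) := rfl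
    rw [h3, blockPart_eq_blockProj b.1 (shiftF_isClass u (h1 χ))]

end Sum

section Orb

variable {B : Set (IrrCharacter G)} {P : Subgroup G}
  {e : Set (IrrCharacter (Subgroup.centralizer (P : Set G)))}

/-- The orbit of an element under the stabilizer of a pair. -/
def orbS (e : Set (IrrCharacter 𝐂[P])) (w : G) : Set G :=
  {x | ∃ t, t ∈ 𝐍[P] ∧ StabilizesBlock 𝐂[P] e t ∧ t * w * t⁻¹ = x}

theorem cp_of_mem_C {w h : G} (hh : h ∈ 𝐂[Subgroup.zpowers w]) {b : Set (IrrCharacter 𝐂[Subgroup.zpowers w])}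
    (hb : IsPBlock M b) : cp h ⟨Subgroup.zpowers w, b⟩ = ⟨Subgroup.zpowers w, b⟩ := by
  have hN : h ∈ 𝐍[Subgroup.zpowers w] := mem_normalizer_of_mem_centralizer hh
  rw [cp_of_normalizer hN (normalizer_le_normalizer_centralizer _ hN),
    twistSet_eq_of_stabilizes hb (stabilizes_of_mem_centralizer hh b)]

theorem W2_idxP_iff (hM : IsPModular p M) (hmax : IsMaximalBrauerPair p M B P e)
    (hab : ∀ x ∈ P, ∀ y ∈ P, x * y = y * x) (w : P) (g : G) :
    W2 p M P e (idxP hM hmax.1.1 w) g ↔ g * (w : G) * g⁻¹ ∈ orbS e (w : G) := by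
  have he := hmax.1.1
  constructor
  · intro hg
    obtain ⟨t, ht, hts, htq⟩ := exists_stab_conj hM hmax hab (bw_spec hM he w)
      (show SubpairLE p M ((Subgroup.zpowers (w : G)) ^^ g)
        (conjBlock (Subgroup.zpowers (w : G)) g (bw hM he w).1) P e from hg)
    exact ⟨t, ht, hts, htq _ (Subgroup.mem_zpowers _)⟩
  · rintro ⟨t, ht, hts, hx⟩
    have h1 : t⁻¹ * g ∈ 𝐂[Subgroup.zpowers (w : G)] := by
      refine Subgroup.mem_centralizer_iff.2 fun z hz => ?_
      obtain ⟨n, rfl⟩ := Subgroup.mem_zpowers_iff.1 hz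
      have h2 : Commute (t⁻¹ * g) (w : G) := by
        show t⁻¹ * g * w = w * (t⁻¹ * g)
        have h3 : g * (w : G) = t * w * t⁻¹ * g := by
          rw [hx]
          group
        calc t⁻¹ * g * w = t⁻¹ * (g * w) := by group
          _ = t⁻¹ * (t * w * t⁻¹ * g) := by rw [h3]
          _ = _ := by group
      exact ((h2.zpow_right n).eq).symm
    have h4 := subpairLE_of_stab hM he ht hts (bw_spec hM he w)
    have h5 : cp g ⟨Subgroup.zpowers (w : G), (bw hM he w).1⟩ = cp t ⟨Subgroup.zpowers (w : G), (bw hM he w).1⟩ := by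
      have h6 : g = t * (t⁻¹ * g) := by group
      rw [h6, cp_mul, cp_of_mem_C h1 (bw hM he w).2]
    show Relation.ReflTransGen (NormalSubpairRel (G := G) p M)
      (cp g ⟨Subgroup.zpowers (w : G), (bw hM he w).1⟩) ⟨P, e⟩
    rw [h5]
    exact h4

/-- The number of elements conjugating a pair below. -/
theorem NN_idxP (hM : IsPModular p M) (hmax : IsMaximalBrauerPair p M B P e)
    (hab : ∀ x ∈ P, ∀ y ∈ P, x * y = y * x) (w : P) :
    NN p M P e (idxP hM hmax.1.1 w) = Nat.card 𝐂[Subgroup.zpowers (w : G)] * Nat.card (orbS e (w : G)) := by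
  classical
  have hfin : (orbS e (w : G)).Finite := Set.toFinite _
  unfold NN
  have h1 : Finset.univ.filter (fun g => W2 p M P e (idxP hM hmax.1.1 w) g) =
      Finset.univ.filter (fun g : G => g * (w : G) * g⁻¹ ∈ orbS e (w : G)) :=
    Finset.filter_congr fun g _ => W2_idxP_iff hM hmax hab w g
  rw [h1, Finset.card_eq_sum_card_fiberwise (f := fun g : G => g * (w : G) * g⁻¹) (t := hfin.toFinset)
    (fun g hg => by simpa using hg), Nat.card_eq_card_finite_toFinset hfin, mul_comm,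
    ← smul_eq_mul, ← Finset.sum_const]
  refine Finset.sum_congr rfl fun x hx => ?_
  obtain ⟨t, ht, hts, rfl⟩ : x ∈ orbS e (w : G) := by simpa using hx
  rw [Nat.card_eq_fintype_card, ← Finset.card_univ]
  symm
  apply Finset.card_bij (fun (h : 𝐂[Subgroup.zpowers (w : G)]) _ => t * (h : G))
  · intro h _
    have h2 : (t * (h : G)) * (w : G) * (t * (h : G))⁻¹ = t * (w : G) * t⁻¹ := by
      have h3 : (h : G) * (w : G) = (w : G) * h :=
        ((Subgroup.mem_centralizer_iff.1 h.2) _ (Subgroup.mem_zpowers _)).symm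
      calc (t * (h : G)) * (w : G) * (t * (h : G))⁻¹ = t * ((h : G) * w) * (h : G)⁻¹ * t⁻¹ := by group
        _ = t * (w * (h : G)) * (h : G)⁻¹ * t⁻¹ := by rw [h3]
        _ = _ := by group
    simp only [Finset.mem_filter, Finset.mem_univ, true_and]
    rw [h2]
    exact ⟨⟨t, ht, hts, rfl⟩, rfl⟩
  · intro a _ b _ h
    exact Subtype.ext (mul_left_cancel h)
  · intro g hg
    simp only [Finset.mem_filter, Finset.mem_univ, true_and] at hg
    have h1 : t⁻¹ * g ∈ 𝐂[Subgroup.zpowers (w : G)] := by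
      refine Subgroup.mem_centralizer_iff.2 fun z hz => ?_
      obtain ⟨n, rfl⟩ := Subgroup.mem_zpowers_iff.1 hz
      have h2 : Commute (t⁻¹ * g) (w : G) := by
        show t⁻¹ * g * w = w * (t⁻¹ * g)
        have h3 : g * (w : G) = t * w * t⁻¹ * g := by
          rw [← hg.2]
          group
        calc t⁻¹ * g * w = t⁻¹ * (g * w) := by group
          _ = t⁻¹ * (t * w * t⁻¹ * g) := by rw [h3]
          _ = _ := by group
      exact ((h2.zpow_right n).eq).symm
    exact ⟨⟨_, h1⟩, Finset.mem_univ _, by simp⟩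

theorem order_of_mem (hPp : IsPGroup p P) {w : G} (hw : w ∈ P) : ∃ k : ℕ, orderOf w = p ^ k := by
  obtain ⟨k, hk⟩ := (IsPGroup.iff_orderOf.1 hPp) ⟨w, hw⟩
  exact ⟨k, by rwa [Subgroup.orderOf_mk] at hk⟩

/-- **The sum of the coefficients over a block.** -/
theorem sum_cc_bF (hM : IsPModular p M) (hmax : IsMaximalBrauerPair p M B P e)
    (hab : ∀ x ∈ P, ∀ y ∈ P, x * y = y * x) (w : P) :
    ∑ χ ∈ bF B, cc hM hmax.1.1 (χ : G → ℂ) (χ : G → ℂ) w =
      (blockRank p (bw hM hmax.1.1 w).1 : ℂ) / (Nat.card (orbS e (w : G)) : ℂ) := by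
  classical
  have he := hmax.1.1
  have h1 : ∑ χ ∈ bF B, Wsum p (χ : G → ℂ) (χ : G → ℂ) (idxP hM he w) =
      ∑ χ : IrrCharacter G, Wsum p (χ : G → ℂ) (χ : G → ℂ) (idxP hM he w) := by
    apply Finset.sum_subset (Finset.subset_univ _)
    intro χ _ hχ
    have hχ' : χ ∉ B := fun h => hχ (mem_bF.2 h)
    unfold Wsum
    refine Finset.sum_eq_zero fun v hv => ?_
    have hv' : pp p v = (idxP hM he w).1 := by simpa using hv
    rw [chiT_eq_zero_of_W2 hM hmax.1 hχ' (W2_idxP hM he w) hv', zero_mul]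
  have h2 := sum_Wsum (p := p) hM (order_of_mem he.1 w.2) (bw hM he w)
  unfold cc
  rw [← Finset.sum_div, h1, NN_idxP hM hmax hab w]
  have h3 : ∑ χ : IrrCharacter G, Wsum p (χ : G → ℂ) (χ : G → ℂ) (idxP hM he w) =
      (Nat.card 𝐂[Subgroup.zpowers (w : G)] : ℂ) * (blockRank p (bw hM he w).1 : ℂ) := h2
  rw [h3]
  have h4 : (Nat.card 𝐂[Subgroup.zpowers (w : G)] : ℂ) ≠ 0 := by
    exact_mod_cast Nat.card_pos.ne'
  rw [Nat.cast_mul, mul_div_mul_left _ _ h4]

/-- The norm of a character of the block. -/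
theorem sum_cc_self (hM : IsPModular p M) (hmax : IsMaximalBrauerPair p M B P e) {χ : IrrCharacter G}
    (hχ : χ ∈ B) : ∑ w : P, cc hM hmax.1.1 (χ : G → ℂ) (χ : G → ℂ) w = 1 := by
  have he := hmax.1.1
  have hF := isBlockFusionSystemOn_blockFusion hM hmax
  have hχc : IsClassFunction G (χ : G → ℂ) := isClassFunction_of_isCharacter (IsIrrCharacter.isCharacter χ.2)
  have h1 := inner_TT_LamH hM he hχc hχc (hst_lamF hF (stable_one _)) (hst_lamF hF (stable_one _))
  have h3 : TT p M (LamH p M P e (lamF (1 : P →* ℂˣ))) (χ : G → ℂ) = χ := twL_one hM hF hχ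
  rw [h3, classInner_irr_self χ.2] at h1
  refine Eq.trans ?_ h1.symm
  refine Finset.sum_congr rfl fun w _ => ?_
  rw [lamF_coe]
  simp

/-- **The number of characters of the block.** -/
theorem card_block_eq (hM : IsPModular p M) (hmax : IsMaximalBrauerPair p M B P e)
    (hab : ∀ x ∈ P, ∀ y ∈ P, x * y = y * x) :
    (Nat.card B : ℂ) = ∑ w : P, (blockRank p (bw hM hmax.1.1 w).1 : ℂ) / (Nat.card (orbS e (w : G)) : ℂ) := by
  classical
  simp_rw [← sum_cc_bF hM hmax hab]
  rw [Finset.sum_comm, Finset.sum_congr rfl fun χ hχ => sum_cc_self hM hmax (mem_bF.1 hχ)]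
  simp only [Finset.sum_const, nsmul_eq_mul, mul_one]
  congr 1
  rw [Nat.card_eq_card_finite_toFinset (Set.toFinite B)]
  congr 1

/-- **The vanishing formula.** -/
theorem sum_lin_rank (hM : IsPModular p M) (hmax : IsMaximalBrauerPair p M B P e)
    (hab : ∀ x ∈ P, ∀ y ∈ P, x * y = y * x) {l : P →* ℂˣ}
    (hl : ∀ t, t ∈ 𝐍[P] → StabilizesBlock 𝐂[P] e t → ∀ y (hy : y ∈ P) (hty : t * y * t⁻¹ ∈ P),
      l ⟨t * y * t⁻¹, hty⟩ = l ⟨y, hy⟩) {u : G} (hu : u ∈ P)
    (hfix : ∀ t, t ∈ 𝐍[P] → StabilizesBlock 𝐂[P] e t → t * u * t⁻¹ = u) (hlu : l ⟨u, hu⟩ ≠ 1) :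
    ∑ w : P, ((l w : ℂˣ) : ℂ) * ((blockRank p (bw hM hmax.1.1 w).1 : ℂ) / (Nat.card (orbS e (w : G)) : ℂ)) = 0 := by
  classical
  simp_rw [← sum_cc_bF hM hmax hab, Finset.mul_sum]
  rw [Finset.sum_comm]
  refine Finset.sum_eq_zero fun χ hχ => ?_
  exact sum_lin_mul_cc hM hmax hab hl hu hfix hlu (mem_bF.1 hχ)

end Orb

section Fourier

variable {X : Type*} [Group X] [Fintype X]

/-- Geometric sums over roots of unity. -/
theorem sum_pow_of_root {ζ : ℂ} {n : ℕ} (hn : ζ ^ n = 1) (hne : ζ ≠ 1) : ∑ j ∈ Finset.range n, ζ ^ j = 0 := by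
  have h := mul_neg_geom_sum ζ n
  rw [hn, sub_self] at h
  have h1 : (1 - ζ) ≠ 0 := sub_ne_zero.2 (Ne.symm hne)
  exact (mul_eq_zero.1 h).resolve_left h1

open Classical in
/-- **Fourier inversion.** -/
theorem sum_filter_eq_of_vanish (l : X →* ℂˣ) (K : X → ℂ) {ρ : ℂˣ} (hρ : ρ ^ Fintype.card X = 1)
    (h : ∀ j : ℕ, ρ ^ j ≠ 1 → ∑ w : X, ((l w ^ j : ℂˣ) : ℂ) * K w = 0) :
    ∑ w ∈ Finset.univ.filter (fun w => l w = 1), K w = ∑ w ∈ Finset.univ.filter (fun w => l w = ρ), K w := by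
  set n := Fintype.card X with hn
  have hn0 : (n : ℂ) ≠ 0 := by
    have : 0 < n := Fintype.card_pos
    exact_mod_cast this.ne'
  have hlw : ∀ w : X, l w ^ n = 1 := by
    intro w
    rw [← map_pow, hn, pow_card_eq_one, map_one]
  have h1 : ∑ j ∈ Finset.range n, ∑ w : X, ((((l w ^ j : ℂˣ) : ℂ) - ((l w ^ j * ρ⁻¹ ^ j : ℂˣ) : ℂ))) * K w = 0 := by
    refine Finset.sum_eq_zero fun j _ => ?_
    by_cases hj : ρ ^ j = 1
    · refine Finset.sum_eq_zero fun w _ => ?_
      have : ρ⁻¹ ^ j = 1 := by rw [inv_pow, hj, inv_one]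
      rw [this, mul_one, sub_self, zero_mul]
    · simp only [sub_mul, Finset.sum_sub_distrib]
      rw [h j hj, zero_sub, neg_eq_zero]
      by_cases hj' : (l 1) = 1
      · have h2 : ∀ w : X, ((l w ^ j * ρ⁻¹ ^ j : ℂˣ) : ℂ) * K w = ((ρ⁻¹ ^ j : ℂˣ) : ℂ) * (((l w ^ j : ℂˣ) : ℂ) * K w) := by
          intro w
          push_cast
          ring
        simp_rw [h2]
        rw [← Finset.mul_sum, h j hj, mul_zero]
      · exact absurd (map_one l) hj'
  rw [Finset.sum_comm] at h1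
  have h2 : ∀ w : X, ∑ j ∈ Finset.range n, ((((l w ^ j : ℂˣ) : ℂ) - ((l w ^ j * ρ⁻¹ ^ j : ℂˣ) : ℂ))) * K w =
      (n : ℂ) * ((if l w = 1 then K w else 0) - (if l w = ρ then K w else 0)) := by
    intro w
    rw [← Finset.sum_mul, Finset.sum_sub_distrib]
    have h3 : ∑ j ∈ Finset.range n, ((l w ^ j : ℂˣ) : ℂ) = if l w = 1 then (n : ℂ) else 0 := by
      by_cases hw : l w = 1
      · rw [if_pos hw]
        simp [hw]
      · rw [if_neg hw]
        have := sum_pow_of_root (ζ := ((l w : ℂˣ) : ℂ)) (n := n) (by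
          rw [← Units.val_pow_eq_pow_val, hlw, Units.val_one]) (fun h => hw (Units.ext h))
        rw [← this]
        refine Finset.sum_congr rfl fun j _ => ?_
        rw [Units.val_pow_eq_pow_val]
    have h4 : ∑ j ∈ Finset.range n, ((l w ^ j * ρ⁻¹ ^ j : ℂˣ) : ℂ) = if l w = ρ then (n : ℂ) else 0 := by
      by_cases hw : l w = ρ
      · rw [if_pos hw, hw]
        simp
      · rw [if_neg hw]
        have h5 : l w * ρ⁻¹ ≠ 1 := fun h6 => hw (by rwa [mul_inv_eq_one] at h6)
        have := sum_pow_of_root (ζ := ((l w * ρ⁻¹ : ℂˣ) : ℂ)) (n := n) (by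
          rw [← Units.val_pow_eq_pow_val, mul_pow, hlw, inv_pow, hρ, inv_one, mul_one, Units.val_one])
          (fun h => h5 (Units.ext h))
        rw [← this]
        refine Finset.sum_congr rfl fun j _ => ?_
        rw [← mul_pow, Units.val_pow_eq_pow_val]
    rw [h3, h4]
    split_ifs <;> ring
  simp_rw [h2] at h1
  rw [← Finset.mul_sum, Finset.sum_sub_distrib] at h1
  have h5 := (mul_eq_zero.1 h1).resolve_left hn0
  rw [Finset.sum_filter, Finset.sum_filter]
  exact sub_eq_zero.1 h5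

end Fourier

end Cfsg.Agent.Lib.WaSec
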