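import Mathlib
import Cfsg.Agent.Lib.WaSec

/-!
# Transport of pairs between a group and centralizers of subgroups of an abelian defect group
-/

set_option autoImplicit false
set_option linter.unusedSectionVars false
set_option linter.unusedVariables false
set_option linter.style.haveILetI false

namespace Cfsg.Agent.Lib.WaTr

open Polynomial IsLocalRing Cfsg Cfsg.Agent.Lib.StarFit Cfsg.Agent.Lib.StarGrp
open Cfsg.Agent.Lib.StarLoc Cfsg.Agent.Lib.BlockLocal Cfsg.Agent.Lib.BlockCover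
open Cfsg.Agent.Lib.BlockResidue Cfsg.Agent.Lib.BrauerMap Cfsg.Agent.Lib.BrauerPair
open Cfsg.Agent.Lib.BrauerSub Cfsg.Agent.Lib.BlockIdem Cfsg.Agent.Lib.CharIntegrality
open Cfsg.Agent.Lib.BlkBasic Cfsg.Agent.Lib.StarBlk Cfsg.Agent.Lib.StarP Cfsg.Agent.Lib.StarTh
open Cfsg.Agent.Lib.StarFit.LocSys Cfsg.Agent.Lib.GenChar Cfsg.Agent.Lib.CharBasic
open Cfsg.Agent.Lib.CharInd Cfsg.Agent.Lib.StarGen Cfsg.Agent.Lib.BrauerConj
open Cfsg.Agent.Lib.BrauerCen Cfsg.Agent.Lib.BrauerMax Cfsg.Agent.Lib.StarII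
open Cfsg.Agent.Lib.StarGlob Cfsg.Agent.Lib.BlockOrtho Cfsg.Agent.Lib.StarInner
open Cfsg.Agent.Lib.StarNorm Cfsg.Agent.Lib.BrauerNil Cfsg.Agent.Lib.BrauerStab
open Cfsg.Agent.Lib.StarNil Cfsg.Agent.Lib.StarAct Cfsg.Agent.Lib.StarFocal
open Cfsg.Agent.Lib.WaFus Cfsg.Agent.Lib.BrauerIn Cfsg.Agent.Lib.WaNV Cfsg.Agent.Lib.WaSec
open Cfsg.Agent.Lib.BlockNormal Cfsg.Agent.Lib.BlockSecond Cfsg.Agent.Lib.BrauerSat
open Cfsg.Agent.Lib.BlockSubsection Cfsg.Agent.Lib.BlockQ
open scoped ComplexConjugate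

universe u

section Rank

/-- The rank does not change under isomorphisms. -/
theorem blockRank_twistSetE {H H' : Type u} [Group H] [Group H'] (p : ℕ) (σ : H ≃* H')
    (f : Set (IrrCharacter H)) : blockRank p (twistSetE σ f) = blockRank p f := by
  classical
  unfold blockRank
  let φ : (H → ℂ) ≃ₗ[ℂ] (H' → ℂ) := LinearEquiv.funCongrLeft ℂ ℂ σ.symm.toEquiv
  have h1 : Submodule.span ℂ ((fun χ : IrrCharacter H' => pRegularPart p (χ : H' → ℂ)) '' twistSetE σ f) =
      (Submodule.span ℂ ((fun χ : IrrCharacter H => pRegularPart p (χ : H → ℂ)) '' f)).map φ.toLinearMap := by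
    rw [Submodule.map_span]
    congr 1
    unfold twistSetE
    rw [Set.image_image, Set.image_image]
    refine Set.image_congr fun χ _ => ?_
    funext x
    have h2 : orderOf (σ.symm x) = orderOf x := MulEquiv.orderOf_eq σ.symm x
    show pRegularPart p (twistE σ χ : H' → ℂ) x = pRegularPart p (χ : H → ℂ) (σ.symm x)
    unfold pRegularPart IsPRegular
    rw [h2]
    rfl
  rw [h1]
  exact LinearEquiv.finrank_map_eq φ _

end Rank

variable {G : Type u} [Group G] [Fintype G] {p : ℕ} [hp : Fact p.Prime] {M : Ideal AlgInt}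
  [hMp : M.IsPrime]

local notation "𝐂[" R "]" => Subgroup.centralizer ((R : Subgroup G) : Set G)
local notation "𝐍[" R "]" => Subgroup.normalizer ((R : Subgroup G) : Set G)
local notation Q "^^" x => Subgroup.map (MulEquiv.toMonoidHom (MulAut.conj (x : G))) (Q : Subgroup G)

noncomputable local instance fintypeSubTr {A : Type*} [Group A] [Finite A] (K : Subgroup A) : Fintype K :=
  Fintype.ofFinite K

variable {B : Set (IrrCharacter G)} {P Q : Subgroup G}
  {e : Set (IrrCharacter (Subgroup.centralizer (P : Set G)))}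

/-- Induced blocks are unique. -/
theorem eq_of_isInducedBlockIn {Y C : Subgroup G} {c : Set (IrrCharacter C)} {f f' : Set (IrrCharacter Y)}
    (h : IsInducedBlockIn M Y C c f) (h' : IsInducedBlockIn M Y C c f') : f = f' := by
  obtain ⟨ξ, hξ⟩ := isPBlock_nonempty h.1
  obtain ⟨χ, hχ⟩ := isPBlock_nonempty h.2.1
  obtain ⟨χ', hχ'⟩ := isPBlock_nonempty h'.2.1
  have hs : SameBlock M (χ' : Y → ℂ) (χ : Y → ℂ) := by
    intro y
    have h1 := h.2.2 ξ hξ χ hχ y
    have h2 := h'.2.2 ξ hξ χ' hχ' y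
    have h3 := memLocalIdeal_sub h1 h2
    convert h3 using 1
    ring
  rcases eq_or_disjoint_of_isPBlock h.2.1 h'.2.1 with h4 | h4
  · exact h4
  · exfalso
    have hχ2 : χ ∈ f' := by
      obtain ⟨χ₀, hχ₀⟩ := h'.2.1
      rw [hχ₀] at hχ' ⊢
      exact sameBlock_trans hχ' hs
    exact Set.disjoint_left.1 h4 hχ hχ2

/-- Blocks below `(P, e)` are the blocks induced from `e`. -/
theorem isInducedBlockIn_iff_subpairLE (hM : IsPModular p M) (he : IsBrauerPair p M P e)
    (hab : ∀ x ∈ P, ∀ y ∈ P, x * y = y * x) (hQP : Q ≤ P) {f : Set (IrrCharacter 𝐂[Q])} :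
    IsInducedBlockIn M 𝐂[Q] 𝐂[P] e f ↔ SubpairLE p M Q f P e := by
  have hPC : P ≤ 𝐂[Q] := WaFus.le_centralizer_of_abelian hab hQP
  have key : ∀ f : Set (IrrCharacter 𝐂[Q]), IsInducedBlockIn M 𝐂[Q] 𝐂[P] e f → SubpairLE p M Q f P e := by
    intro f h
    have h1 := isBrauerPairOf_in hM he.1 hQP hPC h
    exact Relation.ReflTransGen.single (isNormalSubpair_of_in he.1 hQP hPC h1 he.2 h.2.1)
  refine ⟨key f, fun hle => ?_⟩
  obtain ⟨f₀, hf₀⟩ := exists_isInducedBlockIn hM he.1 hQP hPC he.2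
  have h2 := eq_of_two_subpairLE hM he (key f₀ hf₀) hle
  rw [h2]
  exact hf₀

/-- Pairs with the same centralizer have the same rank. -/
theorem rank_eq_of_centralizer_eq (hM : IsPModular p M) (he : IsBrauerPair p M P e)
    (hab : ∀ x ∈ P, ∀ y ∈ P, x * y = y * x) {Q' : Subgroup G} {f : Set (IrrCharacter 𝐂[Q])}
    {f' : Set (IrrCharacter 𝐂[Q'])} (hle : SubpairLE p M Q f P e) (hle' : SubpairLE p M Q' f' P e)
    (h : 𝐂[Q] = 𝐂[Q']) : blockRank p f = blockRank p f' := by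
  have key : ∀ (Y Y' : Subgroup G) (_ : Y = Y') (g : Set (IrrCharacter Y)) (g' : Set (IrrCharacter Y')),
      IsInducedBlockIn M Y 𝐂[P] e g → IsInducedBlockIn M Y' 𝐂[P] e g' → blockRank p g = blockRank p g' := by
    rintro Y _ rfl g g' h1 h2
    rw [eq_of_isInducedBlockIn h1 h2]
  exact key _ _ h f f' ((isInducedBlockIn_iff_subpairLE hM he hab (le_of_subpairLE hle)).2 hle)
    ((isInducedBlockIn_iff_subpairLE hM he hab (le_of_subpairLE hle')).2 hle')

section In

variable (hab : ∀ x ∈ P, ∀ y ∈ P, x * y = y * x) (hQP : Q ≤ P)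

include hab hQP in
theorem le_C : P ≤ 𝐂[Q] := WaFus.le_centralizer_of_abelian hab hQP

/-- The pair inside the centralizer. -/
noncomputable def cX (hab : ∀ x ∈ P, ∀ y ∈ P, x * y = y * x) (hQP : Q ≤ P) (e : Set (IrrCharacter 𝐂[P])) :
    Set (IrrCharacter (Subgroup.centralizer ((P.subgroupOf 𝐂[Q] : Subgroup 𝐂[Q]) : Set 𝐂[Q]))) :=
  twistSetE (cenMatch_in hQP (le_C hab hQP)).iso.symm e

theorem hab_in (hab : ∀ x ∈ P, ∀ y ∈ P, x * y = y * x) {X : Subgroup G} :
    ∀ x ∈ P.subgroupOf X, ∀ y ∈ P.subgroupOf X, x * y = y * x := by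
  intro x hx y hy
  exact Subtype.ext (hab x (Subgroup.mem_subgroupOf.1 hx) y (Subgroup.mem_subgroupOf.1 hy))

/-- The maximal pair inside the centralizer. -/
theorem isMaximal_cX (hM : IsPModular p M) (hmax : IsMaximalBrauerPair p M B P e)
    {f : Set (IrrCharacter 𝐂[Q])} (hle : SubpairLE p M Q f P e) :
    IsMaximalBrauerPair p M f (P.subgroupOf 𝐂[Q]) (cX hab hQP e) := by
  have he := hmax.1.1
  have hPC := le_C hab hQP
  have hPD := isDefectGroup_of_maximal hM hmax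
  have hn := occ_of_subpairLE hM he hab hle
  have hf : IsPBlock M f := hn.1.2
  have hPh : IsPGroup p (P.subgroupOf 𝐂[Q]) :=
    he.1.comap_of_injective (𝐂[Q]).subtype Subtype.val_injective
  have h : IsBrauerPairOf p M f (P.subgroupOf 𝐂[Q]) (cX hab hQP e) := by
    refine ⟨⟨hPh, isPBlock_twistSetE _ he.2⟩, hf, ?_⟩
    rintro _ ⟨ξ, hξ, rfl⟩
    rw [brauerOmega_eq, (cenMatch_in hQP hPC).brO_eq (α := subgroupBlockCoeff 𝐂[Q] f)
      (fun t => (subgroupBlockCoeff_eq_ext0 _ f ▸ (ext0_coe _ _ t).symm)), twistE_symm_twistE]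
    have := hn.2.2.2.2.2 ξ hξ
    rwa [brauerOmega_eq] at this
  exact isMaximal_in hM hPD hQP hPC hmax.1 h hf

/-- The stabilizer inside the centralizer. -/
theorem fix_of_in {t : 𝐂[Q]}
    (ht : t ∈ Subgroup.normalizer ((P.subgroupOf 𝐂[Q] : Subgroup 𝐂[Q]) : Set 𝐂[Q]))
    (hts : StabilizesBlock (Subgroup.centralizer ((P.subgroupOf 𝐂[Q] : Subgroup 𝐂[Q]) : Set 𝐂[Q]))
      (cX hab hQP e) t) : (t : G) ∈ 𝐍[P] ∧ StabilizesBlock 𝐂[P] e (t : G) := by
  have hPC := le_C hab hQP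
  constructor
  · rw [Subgroup.mem_normalizer_iff]
    intro y
    have key := Subgroup.mem_normalizer_iff.1 ht
    constructor
    · intro hy
      have h1 := (key ⟨y, hPC hy⟩).1 (by simpa [Subgroup.mem_subgroupOf] using hy)
      simpa [Subgroup.mem_subgroupOf] using h1
    · intro hy
      have hyX : y ∈ 𝐂[Q] := by
        have h1 := (𝐂[Q]).mul_mem ((𝐂[Q]).mul_mem ((𝐂[Q]).inv_mem t.2) (hPC hy)) t.2
        simpa [mul_assoc] using h1
      have h1 := (key ⟨y, hyX⟩).2 (by simpa [Subgroup.mem_subgroupOf] using hy)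
      simpa [Subgroup.mem_subgroupOf] using h1
  · have h1 := (cenMatch_in hQP hPC).stabilizes_of_hat hts
    unfold cX at h1
    rwa [(cenMatch_in hQP hPC).twistSetE_symm] at h1

/-- The stabilizer goes into the centralizer. -/
theorem stab_in {t : 𝐂[Q]} (ht : (t : G) ∈ 𝐍[P]) (hts : StabilizesBlock 𝐂[P] e (t : G)) :
    t ∈ Subgroup.normalizer ((P.subgroupOf 𝐂[Q] : Subgroup 𝐂[Q]) : Set 𝐂[Q]) ∧
      StabilizesBlock (Subgroup.centralizer ((P.subgroupOf 𝐂[Q] : Subgroup 𝐂[Q]) : Set 𝐂[Q]))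
        (cX hab hQP e) t := by
  have hPC := le_C hab hQP
  constructor
  · rw [Subgroup.mem_normalizer_iff]
    intro y
    have key := Subgroup.mem_normalizer_iff.1 ht
    constructor
    · intro hy
      have h1 := (key (y : G)).1 (by simpa [Subgroup.mem_subgroupOf] using hy)
      simpa [Subgroup.mem_subgroupOf] using h1
    · intro hy
      have h1 := (key (y : G)).2 (by simpa [Subgroup.mem_subgroupOf] using hy)
      simpa [Subgroup.mem_subgroupOf] using h1
  · exact (cenMatch_in hQP hPC).stabilizes_hat hts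

/-- Orbits under the stabilizer inside the centralizer. -/
theorem card_orbS_in (hT : ∀ t, t ∈ 𝐍[P] → StabilizesBlock 𝐂[P] e t → t ∈ 𝐂[Q]) (w : 𝐂[Q]) :
    Nat.card (orbS (cX hab hQP e) w) = Nat.card (orbS e (w : G)) := by
  let φ : orbS (cX hab hQP e) w → orbS e (w : G) := fun x => ⟨(x.1 : G), by
    obtain ⟨t, ht, hts, hx⟩ := x.2
    obtain ⟨h1, h2⟩ := fix_of_in hab hQP ht hts
    refine ⟨t, h1, h2, ?_⟩
    rw [← hx]
    rfl⟩
  refine Nat.card_eq_of_bijective φ ⟨fun a b h => ?_, fun x => ?_⟩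
  · apply Subtype.ext
    apply Subtype.ext
    have h' : ((φ a).1 : G) = ((φ b).1 : G) := congrArg Subtype.val h
    exact h'
  · obtain ⟨t, ht, hts, hx⟩ := x.2
    have htX := hT t ht hts
    obtain ⟨h1, h2⟩ := stab_in (t := ⟨t, htX⟩) hab hQP ht hts
    refine ⟨⟨⟨t, htX⟩ * w * ⟨t, htX⟩⁻¹, ⟨t, htX⟩, h1, h2, rfl⟩, ?_⟩
    apply Subtype.ext
    exact hx

/-- Transport of pairs from the centralizer. -/
theorem subpairLE_of_in (hM : IsPModular p M) (he : IsBrauerPair p M P e) {Rh : Subgroup 𝐂[Q]} {R' : Subgroup G}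
    (hm : CenMatch Rh R') (hR'P : R' ≤ P)
    {f' : Set (IrrCharacter (Subgroup.centralizer ((Rh : Subgroup 𝐂[Q]) : Set 𝐂[Q])))}
    (h : SubpairLE p M Rh f' (P.subgroupOf 𝐂[Q]) (cX hab hQP e)) :
    SubpairLE p M R' (twistSetE hm.iso f') P e := by
  have hPC := le_C hab hQP
  have hPh : IsPGroup p (P.subgroupOf 𝐂[Q]) :=
    he.1.comap_of_injective (𝐂[Q]).subtype Subtype.val_injective
  have heX : IsBrauerPair p M (P.subgroupOf 𝐂[Q]) (cX hab hQP e) := ⟨hPh, isPBlock_twistSetE _ he.2⟩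
  have hn := occ_of_subpairLE hM heX (hab_in hab) h
  apply Relation.ReflTransGen.single
  refine ⟨⟨he.1.to_le hR'P, isPBlock_twistSetE _ hn.1.2⟩, he, hR'P,
    WaFus.le_normalizer_of_abelian hab hR'P,
    fun x hx => stabilizes_of_mem_centralizer (WaFus.le_centralizer_of_abelian hab hR'P hx) _, fun ξ hξ => ?_⟩
  have h1 := hn.2.2.2.2.2 _ (show twistE (cenMatch_in hQP hPC).iso.symm ξ ∈ cX hab hQP e from ⟨ξ, hξ, rfl⟩)
  rw [brauerOmega_eq, (cenMatch_in hQP hPC).brO_eq (α := subgroupBlockCoeff 𝐂[R'] (twistSetE hm.iso f'))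
    (hm.sbc_eq f'), twistE_symm_twistE] at h1
  rw [brauerOmega_eq]
  exact h1

end In

/-- The matching for cyclic subgroups. -/
theorem cenMatch_zp (Q : Subgroup G) {w : G} (hw : w ∈ 𝐂[Q]) :
    CenMatch (T := 𝐂[Q]) (Subgroup.zpowers (⟨w, hw⟩ : 𝐂[Q])) (Q ⊔ Subgroup.zpowers w) := by
  refine ⟨centralizer_le_centralizer le_sup_left, fun t => ?_⟩
  rw [mem_centralizer_sup]
  constructor
  · intro h
    refine ⟨t.2, Subgroup.mem_centralizer_iff.2 fun z hz => ?_⟩
    obtain ⟨n, rfl⟩ := Subgroup.mem_zpowers_iff.1 hz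
    have h1 := (Subgroup.mem_centralizer_iff.1 h) ((⟨w, hw⟩ : 𝐂[Q]) ^ n) (Subgroup.zpow_mem_zpowers _ n)
    exact congrArg Subtype.val h1
  · rintro ⟨-, h⟩
    refine Subgroup.mem_centralizer_iff.2 fun z hz => ?_
    obtain ⟨n, rfl⟩ := Subgroup.mem_zpowers_iff.1 hz
    apply Subtype.ext
    exact (Subgroup.mem_centralizer_iff.1 h) (w ^ n) (Subgroup.zpow_mem_zpowers _ n)

/-- **The central case.** -/
theorem rank_of_central (hM : IsPModular p M) (hmax : IsMaximalBrauerPair p M B P e)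
    (hab : ∀ x ∈ P, ∀ y ∈ P, x * y = y * x) {Q : Subgroup G} (hc : ∀ q ∈ Q, ∀ x : G, q * x = x * q)
    {f : Set (IrrCharacter 𝐂[Q])} (hle : SubpairLE p M Q f P e) :
    blockRank p B = blockRank p f := by
  have he := hmax.1.1
  have htop : ∀ x : G, x ∈ 𝐂[Q] := fun x => Subgroup.mem_centralizer_iff.2 fun q hq => hc q hq x
  let σ : G ≃* 𝐂[Q] :=
    { toFun := fun x => ⟨x, htop x⟩
      invFun := fun x => x
      left_inv := fun x => rfl
      right_inv := fun x => rfl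
      map_mul' := fun x y => rfl }
  have hn := occ_of_subpairLE hM he hab hle
  have h1 : IsBrauerPairOf p M (twistSetE σ.symm f) P e := by
    refine ⟨he, isPBlock_twistSetE _ hn.1.2, fun ξ hξ => ?_⟩
    have h2 := hn.2.2.2.2.2 ξ hξ
    convert h2 using 3
    funext x
    rw [subgroupBlockCoeff_eq_ext0, ext0_of_mem _ _ (htop x)]
    exact blockCoeff_twistSetE σ.symm f (σ x)
  have h3 := (existsUnique_isBrauerPairOf hM he).unique h1 hmax.1
  rw [← h3]
  exact blockRank_twistSetE p σ.symm f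

theorem card_orbS_of_central {w : G} (hw : ∀ x : G, w * x = x * w) : Nat.card (orbS e w) = 1 := by
  have h1 : orbS e w = {w} := by
    ext x
    constructor
    · rintro ⟨t, -, -, rfl⟩
      rw [← hw t]
      simp
    · rintro rfl
      refine ⟨1, Subgroup.one_mem _, stabilizes_of_mem_centralizer (Subgroup.one_mem _) e, by simp⟩
  rw [h1]
  simp

theorem card_orbS_mul (u w : G) (hfix : ∀ t, t ∈ 𝐍[P] → StabilizesBlock 𝐂[P] e t → t * u * t⁻¹ = u) :
    Nat.card (orbS e (u * w)) = Nat.card (orbS e w) := by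
  have h1 : orbS e (u * w) = (fun x => u * x) '' orbS e w := by
    ext x
    constructor
    · rintro ⟨t, ht, hts, rfl⟩
      refine ⟨t * w * t⁻¹, ⟨t, ht, hts, rfl⟩, ?_⟩
      show u * (t * w * t⁻¹) = t * (u * w) * t⁻¹
      conv_lhs => rw [← hfix t ht hts]
      group
    · rintro ⟨_, ⟨t, ht, hts, rfl⟩, rfl⟩
      refine ⟨t, ht, hts, ?_⟩
      show t * (u * w) * t⁻¹ = u * (t * w * t⁻¹)
      conv_rhs => rw [← hfix t ht hts]
      group
  rw [h1, Nat.card_image_of_injective (mul_right_injective u)]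

end Cfsg.Agent.Lib.WaTr
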