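import Mathlib
import Cfsg.Agent.Lib.WaTr

/-!
# Blocks with abelian defect groups and centralizers of fixed points of the stabilizer

If `P` is an abelian defect group of `B` with maximal pair `(P, e)` and `u ∈ P` is fixed by the
stabilizer of `(P, e)`, then `B` and the block of `C_G(u)` below `(P, e)` have the same number of
characters and the same rank.
-/

set_option autoImplicit false
set_option linter.unusedSectionVars false
set_option linter.unusedVariables false
set_option linter.style.haveILetI false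

namespace Cfsg.Agent.Lib.WaMain

open Polynomial IsLocalRing Cfsg Cfsg.Agent.Lib.StarFit Cfsg.Agent.Lib.StarGrp
open Cfsg.Agent.Lib.StarLoc Cfsg.Agent.Lib.BlockLocal Cfsg.Agent.Lib.BlockCover
open Cfsg.Agent.Lib.BlockResidue Cfsg.Agent.Lib.BrauerMap Cfsg.Agent.Lib.BrauerPair
open Cfsg.Agent.Lib.BrauerSub Cfsg.Agent.Lib.BlockIdem Cfsg.Agent.Lib.CharIntegrality
open Cfsg.Agent.Lib.BlkBasic Cfsg.Agent.Lib.StarBlk Cfsg.Agent.Lib.StarP Cfsg.Agent.Lib.StarTh
open Cfsg.Agent.Lib.StarFit.LocSys Cfsg.Agent.Lib.GenChar Cfsg.Agent.Lib.CharBasic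
open Cfsg.Agent.Lib.CharInd Cfsg.Agent.Lib.StarGen Cfsg.Agent.Lib.BrauerConj
open Cfsg.Agent.Lib.BrauerCen Cfsg.Agent.Lib.BrauerMax Cfsg.Agent.Lib.StarII
open Cfsg.Agent.Lib.StarGlob Cfsg.Agent.Lib.BlockOrtho Cfsg.Agent.Lib.StarInner
open Cfsg.Agent.Lib.StarNorm Cfsg.Agent.Lib.BrauerNil Cfsg.Agent.Lib.BrauerStab
open Cfsg.Agent.Lib.StarNil Cfsg.Agent.Lib.StarAct Cfsg.Agent.Lib.StarFocal
open Cfsg.Agent.Lib.WaFus Cfsg.Agent.Lib.BrauerIn Cfsg.Agent.Lib.WaNV Cfsg.Agent.Lib.WaSec
open Cfsg.Agent.Lib.WaTr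
open Cfsg.Agent.Lib.BlockNormal Cfsg.Agent.Lib.BlockSecond Cfsg.Agent.Lib.BrauerSat
open Cfsg.Agent.Lib.BlockSubsection Cfsg.Agent.Lib.BlockQ
open scoped ComplexConjugate

universe u

/-- The statement to be proved for the group `X`. -/
def MainFor (p : ℕ) (M : Ideal AlgInt) (X : Type u) [Group X] : Prop :=
  ∀ (B : Set (IrrCharacter X)) (P : Subgroup X)
    (e : Set (IrrCharacter (Subgroup.centralizer (P : Set X)))),
    IsMaximalBrauerPair p M B P e → (∀ x ∈ P, ∀ y ∈ P, x * y = y * x) → ∀ u ∈ P,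
    (∀ t, t ∈ Subgroup.normalizer (P : Set X) →
      StabilizesBlock (Subgroup.centralizer (P : Set X)) e t → t * u * t⁻¹ = u) →
    ∀ f : Set (IrrCharacter (Subgroup.centralizer ((Subgroup.zpowers u : Subgroup X) : Set X))),
      SubpairLE p M (Subgroup.zpowers u) f P e → blockRank p B = blockRank p f

variable {G : Type u} [Group G] [Fintype G] {p : ℕ} [hp : Fact p.Prime] {M : Ideal AlgInt}
  [hMp : M.IsPrime]

local notation "𝐂[" R "]" => Subgroup.centralizer ((R : Subgroup G) : Set G)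
local notation "𝐍[" R "]" => Subgroup.normalizer ((R : Subgroup G) : Set G)
local notation Q "^^" x => Subgroup.map (MulEquiv.toMonoidHom (MulAut.conj (x : G))) (Q : Subgroup G)

noncomputable local instance fintypeSubMain {A : Type*} [Group A] [Finite A] (K : Subgroup A) : Fintype K :=
  Fintype.ofFinite K

variable {B : Set (IrrCharacter G)} {P Q : Subgroup G}
  {e : Set (IrrCharacter (Subgroup.centralizer (P : Set G)))}

/-- The rank of the block of a subgroup below a pair. -/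
noncomputable def rkP (hM : IsPModular p M) (he : IsBrauerPair p M P e) (Q : Subgroup G) (hQ : Q ≤ P) : ℕ :=
  blockRank p (exists_subpairLE hM he hQ).choose

theorem rkP_eq (hM : IsPModular p M) (he : IsBrauerPair p M P e) {f : Set (IrrCharacter 𝐂[Q])}
    (hle : SubpairLE p M Q f P e) (hQ : Q ≤ P) : rkP hM he Q hQ = blockRank p f := by
  unfold rkP
  rw [eq_of_two_subpairLE hM he hle (exists_subpairLE hM he hQ).choose_spec.2]

theorem rkP_congr (hM : IsPModular p M) (he : IsBrauerPair p M P e) {Q Q' : Subgroup G} (h : Q = Q')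
    (hQ : Q ≤ P) (hQ' : Q' ≤ P) : rkP hM he Q hQ = rkP hM he Q' hQ' := by
  subst h
  rfl

theorem sup_le_P {w u : G} (hw : w ∈ P) (hu : u ∈ P) : Subgroup.zpowers w ⊔ Subgroup.zpowers u ≤ P :=
  sup_le (Subgroup.zpowers_le.2 hw) (Subgroup.zpowers_le.2 hu)

/-- The rank of the block attached to `w`, from the case of its centralizer. -/
theorem rank_bw_eq (hM : IsPModular p M) (hmax : IsMaximalBrauerPair p M B P e)
    (hab : ∀ x ∈ P, ∀ y ∈ P, x * y = y * x) {u : G} (hu : u ∈ P)
    (hfix : ∀ t, t ∈ 𝐍[P] → StabilizesBlock 𝐂[P] e t → t * u * t⁻¹ = u) (w : P)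
    (IH : MainFor p M 𝐂[Subgroup.zpowers (w : G)]) :
    blockRank p (bw hM hmax.1.1 w).1 = rkP hM hmax.1.1 _ (sup_le_P w.2 hu) := by
  have he := hmax.1.1
  have hQP : Subgroup.zpowers (w : G) ≤ P := Subgroup.zpowers_le.2 w.2
  have hmaxX := isMaximal_cX hab hQP hM hmax (bw_spec hM he w)
  have huX : u ∈ 𝐂[Subgroup.zpowers (w : G)] := le_C hab hQP hu
  have huX' : (⟨u, huX⟩ : 𝐂[Subgroup.zpowers (w : G)]) ∈ P.subgroupOf 𝐂[Subgroup.zpowers (w : G)] := by
    simpa [Subgroup.mem_subgroupOf] using hu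
  have hzp : Subgroup.zpowers (⟨u, huX⟩ : 𝐂[Subgroup.zpowers (w : G)]) ≤
      P.subgroupOf 𝐂[Subgroup.zpowers (w : G)] := Subgroup.zpowers_le.2 huX'
  obtain ⟨fX, hfX, hleX⟩ := exists_subpairLE hM hmaxX.1.1 hzp
  have h1 := IH _ _ _ hmaxX (hab_in hab) _ huX' (fun t ht hts => by
    obtain ⟨h3, h4⟩ := fix_of_in hab hQP ht hts
    exact Subtype.ext (hfix _ h3 h4)) fX hleX
  have hm := cenMatch_zp (Subgroup.zpowers (w : G)) huX
  have h2 := subpairLE_of_in hab hQP hM he hm (sup_le_P w.2 hu) hleX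
  rw [h1, rkP_eq hM he h2, blockRank_twistSetE]

/-- The rank of the block attached to `w` inside the centralizer of `u`. -/
theorem rank_bw_in (hM : IsPModular p M) (hmax : IsMaximalBrauerPair p M B P e)
    (hab : ∀ x ∈ P, ∀ y ∈ P, x * y = y * x) {u : G} (hu : u ∈ P)
    {f : Set (IrrCharacter 𝐂[Subgroup.zpowers u])} (hle : SubpairLE p M (Subgroup.zpowers u) f P e)
    (w : P.subgroupOf 𝐂[Subgroup.zpowers u]) (hw : ((w : 𝐂[Subgroup.zpowers u]) : G) ∈ P) :
    blockRank p (bw hM (isMaximal_cX hab (Subgroup.zpowers_le.2 hu) hM hmax hle).1.1 w).1 =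
      rkP hM hmax.1.1 _ (sup_le_P hu hw) := by
  have he := hmax.1.1
  have hQP : Subgroup.zpowers u ≤ P := Subgroup.zpowers_le.2 hu
  have hmaxX := isMaximal_cX hab hQP hM hmax hle
  have hm := cenMatch_zp (Subgroup.zpowers u) (w : 𝐂[Subgroup.zpowers u]).2
  have h2 := subpairLE_of_in hab hQP hM he hm (sup_le_P hu hw) (bw_spec hM hmaxX.1.1 w)
  rw [rkP_eq hM he h2, blockRank_twistSetE]

/-- **The induction step.** -/
theorem main_step (hM : IsPModular p M) (hmax : IsMaximalBrauerPair p M B P e)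
    (hab : ∀ x ∈ P, ∀ y ∈ P, x * y = y * x) {u : G} (hu : u ∈ P)
    (hfix : ∀ t, t ∈ 𝐍[P] → StabilizesBlock 𝐂[P] e t → t * u * t⁻¹ = u)
    {f : Set (IrrCharacter 𝐂[Subgroup.zpowers u])} (hle : SubpairLE p M (Subgroup.zpowers u) f P e)
    (IH : ∀ w : P, (¬ ∀ x : G, (w : G) * x = x * w) → MainFor p M 𝐂[Subgroup.zpowers (w : G)]) :
    blockRank p B = blockRank p f := by
  classical
  have he := hmax.1.1
  have hzcen : ∀ w : G, (∀ x : G, w * x = x * w) → ∀ q ∈ Subgroup.zpowers w, ∀ x : G, q * x = x * q := by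
    intro w hw q hq x
    obtain ⟨n, rfl⟩ := Subgroup.mem_zpowers_iff.1 hq
    have h : Commute w x := hw x
    exact (h.zpow_left n).eq
  by_cases hc : ∀ x : G, u * x = x * u
  · exact rank_of_central hM hmax hab (hzcen u hc) hle
  set T : Subgroup G := 𝐍[P] ⊓ stabSub 𝐂[P] e he.2 with hTdef
  have hT : ∀ g : G, g ∈ T ↔ g ∈ 𝐍[P] ∧ StabilizesBlock 𝐂[P] e g := fun g => Iff.rfl
  set Z₀ : Subgroup G := P ⊓ Subgroup.center G with hZ₀def
  have hZP : Z₀ ≤ P := inf_le_left
  have hZc : ∀ z ∈ Z₀, ∀ x : G, z * x = x * z := fun z hz x =>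
    ((Subgroup.mem_center_iff.1 hz.2) x).symm
  have huZ : u ∉ Z₀ := fun h => hc (hZc u h)
  obtain ⟨l, hl1, hl2, hl3⟩ := exists_inv_lin hM hmax hab hT hu (fun t ht => hfix t ((hT t).1 ht).1 ((hT t).1 ht).2)
    hZP (fun z hz t _ => by
      rw [← hZc z hz t]
      group) huZ
  have hinv : ∀ t, t ∈ 𝐍[P] → StabilizesBlock 𝐂[P] e t → ∀ y (hy : y ∈ P) (hty : t * y * t⁻¹ ∈ P),
      l ⟨t * y * t⁻¹, hty⟩ = l ⟨y, hy⟩ := fun t ht hts => hl1 t ((hT t).2 ⟨ht, hts⟩)
  set u' : P := ⟨u, hu⟩ with hu'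
  set ρ : ℂˣ := l u' with hρ
  set K : P → ℂ := fun w => (blockRank p (bw hM he w).1 : ℂ) / (Nat.card (orbS e (w : G)) : ℂ) with hK
  set Kf : P → ℂ := fun w => (rkP hM he _ (sup_le_P w.2 hu) : ℂ) / (Nat.card (orbS e (w : G)) : ℂ) with hKf
  -- Fourier inversion in `G`
  have h1 : ∑ w ∈ Finset.univ.filter (fun w => l w = 1), K w = ∑ w ∈ Finset.univ.filter (fun w => l w = ρ), K w := by
    refine sum_filter_eq_of_vanish l K ?_ fun j hj => ?_
    · rw [hρ, ← map_pow, pow_card_eq_one, map_one]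
    · have h2 := sum_lin_rank (l := l ^ j) hM hmax hab (fun t ht hts y hy hty => by
        simp only [MonoidHom.pow_apply]
        rw [hinv t ht hts y hy hty]) hu hfix (by
        simp only [MonoidHom.pow_apply]
        exact hj)
      rw [← h2]
      refine Finset.sum_congr rfl fun w _ => ?_
      simp only [MonoidHom.pow_apply]
      rfl
  -- the translation
  have h2 : ∑ w ∈ Finset.univ.filter (fun w => l w = 1), Kf w = ∑ w ∈ Finset.univ.filter (fun w => l w = ρ), Kf w := by
    refine Finset.sum_equiv (Equiv.mulLeft u') ?_ ?_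
    · intro w
      simp only [Finset.mem_filter, Finset.mem_univ, true_and, Equiv.coe_mulLeft, map_mul]
      rw [← hρ]
      constructor
      · intro h
        rw [h, mul_one]
      · intro h
        simpa using h
    · intro w _
      simp only [hKf, Equiv.coe_mulLeft]
      have h3 : Subgroup.zpowers ((u' * w : P) : G) ⊔ Subgroup.zpowers u =
          Subgroup.zpowers (w : G) ⊔ Subgroup.zpowers u := by
        have hu1 : u ∈ Subgroup.zpowers ((u' * w : P) : G) ⊔ Subgroup.zpowers u := Subgroup.mem_sup_right (Subgroup.mem_zpowers u)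
        have hu2 : u ∈ Subgroup.zpowers (w : G) ⊔ Subgroup.zpowers u := Subgroup.mem_sup_right (Subgroup.mem_zpowers u)
        apply le_antisymm
        · refine sup_le (Subgroup.zpowers_le.2 ?_) le_sup_right
          exact Subgroup.mul_mem _ hu2 (Subgroup.mem_sup_left (Subgroup.mem_zpowers _))
        · refine sup_le (Subgroup.zpowers_le.2 ?_) le_sup_right
          have h4 : (w : G) = u⁻¹ * ((u' * w : P) : G) := by
            show (w : G) = u⁻¹ * (u * w)
            group
          rw [h4]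
          exact Subgroup.mul_mem _ (Subgroup.inv_mem _ hu1) (Subgroup.mem_sup_left (Subgroup.mem_zpowers _))
      rw [rkP_congr hM he h3 _ (sup_le_P w.2 hu)]
      congr 2
      exact (card_orbS_mul u (w : G) hfix).symm
  -- comparison outside of `Z₀`
  have h3 : ∀ w : P, (w : G) ∉ Z₀ → K w = Kf w := by
    intro w hw
    have hnc : ¬ ∀ x : G, (w : G) * x = x * w := by
      intro h
      exact hw ⟨w.2, Subgroup.mem_center_iff.2 fun x => (h x).symm⟩
    simp only [hK, hKf]
    rw [rank_bw_eq hM hmax hab hu hfix w (IH w hnc)]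
  -- values on `Z₀`
  have h4 : ∀ w : P, (w : G) ∈ Z₀ → K w - Kf w = (blockRank p B : ℂ) - (blockRank p f : ℂ) := by
    intro w hw
    have hcw := hZc _ hw
    simp only [hK, hKf]
    rw [card_orbS_of_central hcw, Nat.cast_one, div_one, div_one]
    have h5 := rank_of_central hM hmax hab (hzcen _ hcw) (bw_spec hM he w)
    obtain ⟨r, hr, hrle⟩ := exists_subpairLE hM he (sup_le_P w.2 hu)
    have h6 := rkP_eq hM he hrle (sup_le_P w.2 hu)
    have h7 : 𝐂[Subgroup.zpowers (w : G) ⊔ Subgroup.zpowers u] = 𝐂[Subgroup.zpowers u] := by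
      ext x
      rw [mem_centralizer_sup]
      constructor
      · exact fun h => h.2
      · intro h
        exact ⟨Subgroup.mem_centralizer_iff.2 fun q hq => hzcen _ hcw q hq x, h⟩
    have h8 := rank_eq_of_centralizer_eq hM he hab hrle hle h7
    rw [h6, h8, ← h5]
  -- the two sums
  have h5 : ∑ w ∈ Finset.univ.filter (fun w => l w = ρ), K w = ∑ w ∈ Finset.univ.filter (fun w => l w = ρ), Kf w := by
    refine Finset.sum_congr rfl fun w hw => h3 w fun hZ => ?_
    have hw' : l w = ρ := by simpa using hw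
    apply hl3
    rw [← hw']
    exact hl2 _ hZ
  have h6 : ∑ w ∈ Finset.univ.filter (fun w => l w = 1), (K w - Kf w) = 0 := by
    rw [Finset.sum_sub_distrib, h1, h5, ← h2, sub_self]
  have h7 : ∀ w ∈ Finset.univ.filter (fun w => l w = 1), K w - Kf w =
      if (w : G) ∈ Z₀ then (blockRank p B : ℂ) - (blockRank p f : ℂ) else 0 := by
    intro w _
    by_cases hw : (w : G) ∈ Z₀
    · rw [if_pos hw, h4 w hw]
    · rw [if_neg hw, h3 w hw, sub_self]
  rw [Finset.sum_congr rfl h7, ← Finset.sum_filter, Finset.sum_const, nsmul_eq_mul] at h6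
  have hcard : 0 < ((Finset.univ.filter (fun w => l w = 1)).filter (fun w : P => (w : G) ∈ Z₀)).card := by
    apply Finset.card_pos.2
    refine ⟨1, ?_⟩
    simp [Subgroup.one_mem]
  have h8 := (mul_eq_zero.1 h6).resolve_left (by exact_mod_cast hcard.ne')
  exact_mod_cast sub_eq_zero.1 h8

/-- **The rank theorem.** -/
theorem mainFor (hM : IsPModular p M) : ∀ (n : ℕ) (X : Type u) [Group X] [Fintype X], Nat.card X = n →
    MainFor p M X := by
  intro n
  induction n using Nat.strong_induction_on with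
  | _ n ih =>
    intro X _ _ hX B P e hmax hab u hu hfix f hle
    refine main_step hM hmax hab hu hfix hle fun w hw => ?_
    refine ih _ ?_ _ rfl
    rw [← hX]
    refine lt_of_le_of_ne (Subgroup.card_le_card_group _) fun h => hw fun x => ?_
    have h1 : x ∈ Subgroup.centralizer ((Subgroup.zpowers (w : X) : Subgroup X) : Set X) := by
      rw [Subgroup.eq_top_of_card_eq _ h]
      exact Subgroup.mem_top x
    exact (Subgroup.mem_centralizer_iff.1 h1) _ (Subgroup.mem_zpowers _)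

/-- **The theorem on the number of characters.** -/
theorem card_eq (hM : IsPModular p M) (hmax : IsMaximalBrauerPair p M B P e)
    (hab : ∀ x ∈ P, ∀ y ∈ P, x * y = y * x) {u : G} (hu : u ∈ P)
    (hfix : ∀ t, t ∈ 𝐍[P] → StabilizesBlock 𝐂[P] e t → t * u * t⁻¹ = u)
    {f : Set (IrrCharacter 𝐂[Subgroup.zpowers u])} (hle : SubpairLE p M (Subgroup.zpowers u) f P e) :
    Nat.card B = Nat.card f := by
  classical
  have he := hmax.1.1
  have hQP : Subgroup.zpowers u ≤ P := Subgroup.zpowers_le.2 hu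
  have hPC := le_C hab hQP
  have hmaxX := isMaximal_cX hab hQP hM hmax hle
  have h1 := card_block_eq hM hmax hab
  have h2 := card_block_eq hM hmaxX (hab_in hab)
  have hT : ∀ t, t ∈ 𝐍[P] → StabilizesBlock 𝐂[P] e t → t ∈ 𝐂[Subgroup.zpowers u] := by
    intro t ht hts
    refine Subgroup.mem_centralizer_iff.2 fun z hz => ?_
    obtain ⟨n, rfl⟩ := Subgroup.mem_zpowers_iff.1 hz
    have h3 : Commute t u := by
      show t * u = u * t
      have := hfix t ht hts
      rwa [mul_inv_eq_iff_eq_mul] at this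
    exact ((h3.zpow_right n).eq).symm
  have h3 : (Nat.card B : ℂ) = (Nat.card f : ℂ) := by
    rw [h1, h2]
    symm
    refine Fintype.sum_equiv (Subgroup.subgroupOfEquivOfLe hPC).toEquiv _ _ fun w' => ?_
    have hw : ((w' : 𝐂[Subgroup.zpowers u]) : G) ∈ P := Subgroup.mem_subgroupOf.1 w'.2
    have h4 := rank_bw_in hM hmax hab hu hle w' hw
    have h5 := rank_bw_eq hM hmax hab hu hfix ⟨_, hw⟩ (mainFor hM _ _ rfl)
    have h6 := card_orbS_in hab hQP hT (w' : 𝐂[Subgroup.zpowers u])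
    rw [h6, h4]
    have h7 : ((Subgroup.subgroupOfEquivOfLe hPC).toEquiv w' : P) = ⟨_, hw⟩ := rfl
    rw [h7, h5, rkP_congr hM he (sup_comm _ _) _ (sup_le_P hu hw)]
  exact_mod_cast h3

end Cfsg.Agent.Lib.WaMain
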