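import Mathlib
import Cfsg.Agent.Lib.BlkCentralD
import Cfsg.Agent.Lib.BlkNormalSub
import Cfsg.Agent.Lib.DegreeDiv
import Cfsg.Agent.Lib.CharKernel
import Cfsg.Agent.Lib.BlockCentral
import Cfsg.Agent.Lib.BrauerStab

/-!
# Characters of relative defect zero and normal subgroups

For a normal subgroup `Z` in the kernel of `χ` with `χ` of defect zero modulo `Z` and a normal
subgroup `N`, some constituent of `χ|_N` has `N ∩ Z` in its kernel and defect zero modulo `N ∩ Z`;
normal `p`-subgroups of `K` lie in `Z`.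
-/

set_option autoImplicit false
set_option linter.unusedSectionVars false
set_option linter.unusedVariables false
set_option linter.style.haveILetI false

namespace Cfsg.Agent.Lib.WeightPair

open Cfsg Cfsg.Agent.Lib.CharBasic Cfsg.Agent.Lib.CharInd Cfsg.Agent.Lib.CharIntegrality
open Cfsg.Agent.Lib.BlockLocal Cfsg.Agent.Lib.BlockIdem Cfsg.Agent.Lib.BlkNormalSub
open Cfsg.Agent.Lib.BlockCentral Cfsg.Agent.Lib.CharKernel Cfsg.Agent.Lib.BlkCentralD
open scoped ComplexConjugate

universe u

section Basic

variable {K : Type u} [Group K] [Fintype K] {p : ℕ} [hp : Fact p.Prime] {M : Ideal AlgInt}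

/-- A character of defect zero: normal `p`-subgroups are trivial. -/
theorem eq_bot_of_defect_zero (hM : IsPModular p M) (χ : IrrCharacter K)
    (hdeg : (charDegree (χ : K → ℂ)).factorization p = (Nat.card K).factorization p)
    (R : Subgroup K) (hR : R.Normal) (hRp : IsPGroup p R) : R = ⊥ := by
  classical
  letI : Fintype R := Fintype.ofFinite _
  have hzero : ∀ r : R, r ≠ 1 → (χ : K → ℂ) r = 0 := by
    intro r hr
    have hpdvd : p ^ ((⊥ : Subgroup K).index.factorization p) ∣ charDegree (χ : K → ℂ) := by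
      have hidx : (⊥ : Subgroup K).index = Nat.card K := Subgroup.index_bot
      rw [hidx, ← hdeg]
      exact Nat.ordProj_dvd _ _
    obtain ⟨k, hk⟩ := (IsPGroup.iff_orderOf.1 hRp) r
    refine irr_eq_zero_of_pPart hM ⊥ bot_le χ.2 hpdvd (x := (r : K)) ⟨1, by simp, Commute.one_right _, ⟨k, ?_⟩, ?_⟩ ?_
    · rw [Subgroup.orderOf_coe]; exact hk
    · simp [hp.out.one_lt.ne']
    · intro h
      apply hr
      apply Subtype.ext
      simpa using h
  have hcon : classInner (fun n : R => (χ : K → ℂ) n) (oneIrr R : R → ℂ) ≠ 0 := by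
    unfold classInner
    have h1 : ∑ g : R, (χ : K → ℂ) g * (starRingEnd ℂ) ((oneIrr R : R → ℂ) g) = (χ : K → ℂ) 1 := by
      rw [Finset.sum_eq_single (1 : R)]
      · simp [oneIrr]
      · intro r _ hr
        rw [hzero r hr, zero_mul]
      · intro h
        exact absurd (Finset.mem_univ _) h
    rw [h1]
    have h2 := irr_one_ne_zero' χ.2
    have h3 : ((Nat.card R : ℕ) : ℂ) ≠ 0 := by
      exact_mod_cast Nat.card_pos.ne'
    simp [h2]
  rw [eq_bot_iff]
  intro r hr
  by_contra h
  have h1 := hzero ⟨r, hr⟩ (fun h2 => h (by simpa using congrArg Subtype.val h2))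
  have h2 := eq_of_constituent_one hR χ hcon ⟨r, hr⟩
  exact irr_one_ne_zero' χ.2 (by rw [← h2]; exact h1)

/-- Sums along a surjective homomorphism. -/
theorem sum_comp_surj {A B : Type*} [Group A] [Group B] [Fintype A] [Fintype B] (π : A →* B)
    (hπ : Function.Surjective π) :
    ∃ k : ℕ, k ≠ 0 ∧ ∀ F : B → ℂ, ∑ a, F (π a) = k * ∑ b, F b := by
  classical
  refine ⟨(Finset.univ.filter fun a => π a = 1).card, ?_, fun F => ?_⟩
  · apply Finset.card_ne_zero.2
    exact ⟨1, by simp⟩
  · rw [← Finset.sum_fiberwise (s := Finset.univ) (g := π), Finset.mul_sum]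
    refine Finset.sum_congr rfl fun b _ => ?_
    have h1 : ∑ a ∈ Finset.univ.filter (fun a => π a = b), F (π a) =
        ∑ a ∈ Finset.univ.filter (fun a => π a = b), F b :=
      Finset.sum_congr rfl fun a ha => by rw [(Finset.mem_filter.1 ha).2]
    rw [h1, Finset.sum_const, nsmul_eq_mul]
    congr 2
    have := MonoidHom.card_fiber_eq_of_mem_range π (x := b) (y := 1) (hπ b) (hπ 1)
    exact this

/-- **A constituent of relative defect zero.** -/
theorem exists_constituent_rel (Z : Subgroup K) [hZ : Z.Normal] (N : Subgroup K) (hN : N.Normal)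
    [Fintype N] (χ : IrrCharacter K) (hχZ : ∀ z ∈ Z, (χ : K → ℂ) z = (χ : K → ℂ) 1)
    (hdeg : (charDegree (χ : K → ℂ)).factorization p + (Nat.card Z).factorization p =
      (Nat.card K).factorization p) :
    ∃ ψ : IrrCharacter N, classInner (fun n : N => (χ : K → ℂ) n) (ψ : N → ℂ) ≠ 0 ∧
      (∀ n : N, (n : K) ∈ Z → (ψ : N → ℂ) n = (ψ : N → ℂ) 1) ∧
      (charDegree (ψ : N → ℂ)).factorization p + (Nat.card (N ⊓ Z : Subgroup K)).factorization p =
        (Nat.card N).factorization p := by
  classical
  letI : Fintype (K ⧸ Z) := Fintype.ofFinite _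
  obtain ⟨χb, hχb, hχbe⟩ := exists_quotient_irr Z χ.2 hχZ
  let Nb : Subgroup (K ⧸ Z) := N.map (QuotientGroup.mk' Z)
  letI : Fintype Nb := Fintype.ofFinite _
  have hNb : Nb.Normal := hN.map _ (QuotientGroup.mk'_surjective Z)
  obtain ⟨θb, hθb⟩ : ∃ ψ : IrrCharacter Nb, classInner (fun n : Nb => χb n) (ψ : Nb → ℂ) ≠ 0 :=
    exists_constituent (⟨χb, hχb⟩ : IrrCharacter (K ⧸ Z))
  have hc : charDegree χb = charDegree (χ : K → ℂ) := by
    unfold charDegree
    have := hχbe 1
    rw [QuotientGroup.mk_one] at this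
    rw [this]
  obtain ⟨h1, h2⟩ := Cfsg.Agent.Lib.DegreeDiv.degree_div Nb (hN := hNb) hχb θb.2 hθb
    (one_eq_charDegree (IsIrrCharacter.isCharacter hχb))
    (one_eq_charDegree (IsIrrCharacter.isCharacter θb.2))
  let π : N →* Nb := (QuotientGroup.mk' Z).subgroupMap N
  have hπ : Function.Surjective π := MonoidHom.subgroupMap_surjective _ N
  have hπv : ∀ n : N, ((π n : Nb) : K ⧸ Z) = ((n : K) : K ⧸ Z) := fun n => rfl
  refine ⟨infl π hπ θb, ?_, ?_, ?_⟩
  · obtain ⟨k, hk, hsum⟩ := sum_comp_surj π hπ
    have e1 : classInner (fun n : N => (χ : K → ℂ) n) (infl π hπ θb : N → ℂ) =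
        (Nat.card N : ℂ)⁻¹ * (k * ∑ b : Nb, χb b * (starRingEnd ℂ) ((θb : Nb → ℂ) b)) := by
      unfold classInner
      rw [← hsum (fun b => χb b * (starRingEnd ℂ) ((θb : Nb → ℂ) b))]
      congr 1
      refine Finset.sum_congr rfl fun n _ => ?_
      rw [hπv, hχbe, infl_apply]
    rw [e1]
    have hne : ∑ b : Nb, χb b * (starRingEnd ℂ) ((θb : Nb → ℂ) b) ≠ 0 := by
      intro h0
      apply hθb
      unfold classInner
      rw [h0, mul_zero]
    have h3 : ((Nat.card N : ℕ) : ℂ) ≠ 0 := by exact_mod_cast Nat.card_pos.ne'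
    have h4 : (k : ℂ) ≠ 0 := by exact_mod_cast hk
    exact mul_ne_zero (inv_ne_zero h3) (mul_ne_zero h4 hne)
  · intro n hn
    have h3 : π n = 1 := by
      apply Subtype.ext
      rw [hπv]
      exact (QuotientGroup.eq_one_iff _).2 hn
    rw [infl_apply, infl_apply, h3, map_one]
  · rw [charDegree_infl]
    set c := charDegree (χ : K → ℂ) with hcdef
    set d := charDegree (θb : Nb → ℂ) with hddef
    have hc0 : c ≠ 0 := charDegree_ne_zero χ.2
    have hd0 : d ≠ 0 := charDegree_ne_zero θb.2
    rw [hc] at h1 h2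
    have hcd : c = d * (c / d) := (Nat.mul_div_cancel' h1).symm
    have hq0 : c / d ≠ 0 := fun h => hc0 (by rw [hcd, h, mul_zero])
    have hv1 : c.factorization p = d.factorization p + (c / d).factorization p := by
      conv_lhs => rw [hcd]
      rw [Nat.factorization_mul hd0 hq0]
      rfl
    have hidx0 : Nb.index ≠ 0 := Subgroup.index_ne_zero_of_finite
    have hv2 : (c / d).factorization p ≤ Nb.index.factorization p :=
      (Nat.factorization_le_iff_dvd hq0 hidx0).2 h2 p
    have hcardK : Nat.card K = Nat.card (K ⧸ Z) * Nat.card Z :=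
      Subgroup.card_eq_card_quotient_mul_card_subgroup Z
    have hv3 : (Nat.card K).factorization p =
        (Nat.card (K ⧸ Z)).factorization p + (Nat.card Z).factorization p := by
      rw [hcardK, Nat.factorization_mul Nat.card_pos.ne' Nat.card_pos.ne']
      rfl
    have hcardKb : Nat.card (K ⧸ Z) = Nat.card Nb * Nb.index := (Subgroup.card_mul_index Nb).symm
    have hv4 : (Nat.card (K ⧸ Z)).factorization p =
        (Nat.card Nb).factorization p + Nb.index.factorization p := by
      rw [hcardKb, Nat.factorization_mul Nat.card_pos.ne' hidx0]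
      rfl
    have hv5 : d.factorization p ≤ (Nat.card Nb).factorization p :=
      (Nat.factorization_le_iff_dvd hd0 Nat.card_pos.ne').2 (charDegree_dvd_card θb.2) p
    have hker : π.ker = Z.subgroupOf N := by
      ext n
      rw [MonoidHom.mem_ker, Subgroup.mem_subgroupOf]
      constructor
      · intro h
        have h3 := congrArg (fun x : Nb => (x : K ⧸ Z)) h
        simp only [hπv] at h3
        exact (QuotientGroup.eq_one_iff _).1 h3
      · intro h
        apply Subtype.ext
        rw [hπv]
        exact (QuotientGroup.eq_one_iff _).2 h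
    have hcardN : Nat.card N = Nat.card (N ⊓ Z : Subgroup K) * Nat.card Nb := by
      have h3 := Subgroup.card_mul_index π.ker
      rw [Subgroup.index_ker, MonoidHom.range_eq_top.2 hπ, Subgroup.card_top, hker] at h3
      rw [← h3]
      congr 1
      have h4 : Z.subgroupOf N ≃* (N ⊓ Z : Subgroup K).subgroupOf N := by
        apply MulEquiv.subgroupCongr
        ext x
        simp [Subgroup.mem_subgroupOf]
      rw [Nat.card_congr h4.toEquiv]
      exact Nat.card_congr (Subgroup.subgroupOfEquivOfLe inf_le_left).toEquiv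
    have hv6 : (Nat.card N).factorization p =
        (Nat.card (N ⊓ Z : Subgroup K)).factorization p + (Nat.card Nb).factorization p := by
      rw [hcardN, Nat.factorization_mul Nat.card_pos.ne' Nat.card_pos.ne']
      rfl
    omega

/-- Normal `p`-subgroups lie in `Z` for a character of relative defect zero. -/
theorem le_of_normal_pgroup (hM : IsPModular p M) (Z : Subgroup K) [hZ : Z.Normal] (χ : IrrCharacter K)
    (hχZ : ∀ z ∈ Z, (χ : K → ℂ) z = (χ : K → ℂ) 1)
    (hdeg : (charDegree (χ : K → ℂ)).factorization p + (Nat.card Z).factorization p =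
      (Nat.card K).factorization p)
    (R : Subgroup K) (hR : R.Normal) (hRp : IsPGroup p R) : R ≤ Z := by
  classical
  letI : Fintype (K ⧸ Z) := Fintype.ofFinite _
  obtain ⟨χb, hχb, hχbe⟩ := exists_quotient_irr Z χ.2 hχZ
  have hc : charDegree χb = charDegree (χ : K → ℂ) := by
    unfold charDegree
    have := hχbe 1
    rw [QuotientGroup.mk_one] at this
    rw [this]
  have hcardK : Nat.card K = Nat.card (K ⧸ Z) * Nat.card Z :=
    Subgroup.card_eq_card_quotient_mul_card_subgroup Z
  have hv3 : (Nat.card K).factorization p =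
      (Nat.card (K ⧸ Z)).factorization p + (Nat.card Z).factorization p := by
    rw [hcardK, Nat.factorization_mul Nat.card_pos.ne' Nat.card_pos.ne']
    rfl
  have h1 := eq_bot_of_defect_zero hM (⟨χb, hχb⟩ : IrrCharacter (K ⧸ Z))
    (by
      change (charDegree χb).factorization p = _
      rw [hc]
      omega)
    (R.map (QuotientGroup.mk' Z)) (hR.map _ (QuotientGroup.mk'_surjective Z)) (hRp.map _)
  intro r hr
  have h2 : (QuotientGroup.mk' Z) r = 1 := by
    have h3 := Subgroup.mem_map_of_mem (QuotientGroup.mk' Z) hr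
    rw [h1] at h3
    exact h3
  exact (QuotientGroup.eq_one_iff _).1 h2

end Basic

end Cfsg.Agent.Lib.WeightPair
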