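import Mathlib

/-! Algebra for the eigenspace bound on normalisers of extraspecial groups:
quotient-level statements on `P/Z` (an abelian group of prime exponent with an automorphism). -/

namespace Cfsg.Agent.XSpEig

universe u v

open scoped commutatorElement

section AlgQ
variable {Q : Type*} [AddCommGroup Q]

theorem natCast_end_eq_zero {r : ℕ} (hQ : ∀ x : Q, r • x = 0) :
    ((r : ℕ) : AddMonoid.End Q) = 0 := by
  ext x
  simpa using hQ x

theorem sub_one_pow_prime_eq_zero {r : ℕ} (hr : r.Prime) (hQ : ∀ x : Q, r • x = 0)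
    (φ : AddMonoid.End Q) (hφ : φ ^ r = 1) : (φ - 1) ^ r = 0 := by
  have h0 := natCast_end_eq_zero hQ
  obtain ⟨w, hw⟩ := (Commute.neg_one_right φ).exists_add_pow_prime_eq hr
  rw [sub_eq_add_neg, hw, hφ, h0]
  rcases hr.eq_two_or_odd' with rfl | hodd
  · have h2 : (2 : AddMonoid.End Q) = 0 := by exact_mod_cast h0
    have h3 : (1 : AddMonoid.End Q) + 1 = 0 := by rw [one_add_one_eq_two]; exact h2
    simp [h3]
  · rw [hodd.neg_one_pow]; simp

theorem exists_step {r : ℕ} (hr : r.Prime) (hQ : ∀ x : Q, r • x = 0)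
    (φ : AddMonoid.End Q) (hφ : φ ^ r = 1) (hne : φ ≠ 1) :
    ∃ y : Q, (φ - 1) y ≠ 0 ∧ (φ - 1) ((φ - 1) y) = 0 := by
  classical
  set T : AddMonoid.End Q := φ - 1 with hT
  have hT0 : T ≠ 0 := sub_ne_zero.mpr hne
  have hex : ∃ k, T ^ k = 0 := ⟨r, sub_one_pow_prime_eq_zero hr hQ φ hφ⟩
  have hk := Nat.find_spec hex
  have hmin := fun m (hm : m < Nat.find hex) => Nat.find_min hex hm
  rcases hk0 : Nat.find hex with _ | _ | j
  · rw [hk0] at hk
    exact absurd (by simpa using congrArg (T * ·) hk) hT0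
  · rw [hk0] at hk
    exact absurd (by simpa using hk) hT0
  · rw [hk0] at hk
    have hj : T ^ (j + 1) ≠ 0 := hmin _ (by omega)
    obtain ⟨x, hx⟩ := DFunLike.ne_iff.mp hj
    refine ⟨(T ^ j) x, ?_, ?_⟩
    · have : T ((T ^ j) x) = (T ^ (j + 1)) x := by rw [pow_succ']; rfl
      rw [this]; simpa using hx
    · have : T (T ((T ^ j) x)) = (T ^ (j + 1 + 1)) x := by
        rw [pow_succ', pow_succ']; rfl
      rw [this, hk]; rfl

theorem fixed_boundary_eq_zero {ϖ r : ℕ} (hcop : Nat.Coprime ϖ r) (hQ : ∀ x : Q, r • x = 0)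
    (φ : AddMonoid.End Q) (hφ : φ ^ ϖ = 1) {v w : Q} (h1 : φ v = v) (h2 : v = φ w - w) :
    v = 0 := by
  have hg : (∑ i ∈ Finset.range ϖ, φ ^ i) * (φ - 1) = φ ^ ϖ - 1 := geom_sum_mul φ ϖ
  have h3 : ((∑ i ∈ Finset.range ϖ, φ ^ i) * (φ - 1)) w = 0 := by
    rw [hg, hφ, sub_self]; rfl
  have hpow : ∀ i : ℕ, (φ ^ i) v = v := by
    intro i
    induction i with
    | zero => rfl
    | succ k ih =>
      rw [pow_succ]
      show (φ ^ k) (φ v) = v
      rw [h1, ih]
  have h4 : ϖ • v = 0 := by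
    have h5 : ((∑ i ∈ Finset.range ϖ, φ ^ i) * (φ - 1)) w = ∑ i ∈ Finset.range ϖ, (φ ^ i) v := by
      show (∑ i ∈ Finset.range ϖ, φ ^ i) ((φ - 1) w) = _
      have h6 : (φ - 1) w = v := h2.symm
      rw [h6]
      exact AddMonoidHom.finset_sum_apply _ _ _
    rw [h5] at h3
    simpa [hpow] using h3
  have h6 : addOrderOf v ∣ ϖ := addOrderOf_dvd_of_nsmul_eq_zero h4
  have h7 : addOrderOf v ∣ r := addOrderOf_dvd_of_nsmul_eq_zero (hQ v)
  have h8 : addOrderOf v = 1 := Nat.eq_one_of_dvd_coprimes hcop h6 h7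
  exact AddMonoid.addOrderOf_eq_one_iff.mp h8

/-- `T1` in the additive setting. -/
theorem eq_one_of_form {C : Type*} [AddCommGroup C] {ϖ r : ℕ} (hϖ : ϖ.Prime) (hodd : ϖ ≠ 2)
    (hcop : Nat.Coprime ϖ r) (hQ : ∀ x : Q, r • x = 0) (φ : AddMonoid.End Q) (hφ : φ ^ ϖ = 1)
    (β : Q →+ Q →+ C) (halt : ∀ x, β x x = 0) (hinv : ∀ x y, β (φ x) (φ y) = β x y)
    (hnd : ∀ y, (∀ x, β x y = 0) → y = 0)
    (h : ∀ x, β (φ x - x) (φ (φ x - x)) = 0) : φ = 1 := by
  obtain ⟨m, hm⟩ : ∃ m, ϖ = m + 1 := ⟨ϖ - 1, by have := hϖ.pos; omega⟩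
  set ψ : AddMonoid.End Q := φ ^ m with hψ
  have hφψ : ∀ x, φ (ψ x) = x := by
    intro x
    have : (φ * ψ) x = x := by
      rw [hψ, ← pow_succ', ← hm, hφ]; rfl
    exact this
  have hψφ : ∀ x, ψ (φ x) = x := by
    intro x
    have : (ψ * φ) x = x := by
      rw [hψ, ← pow_succ, ← hm, hφ]; rfl
    exact this
  have anti : ∀ a b, β a b = - β b a := by
    intro a b
    have := halt (a + b)
    simp only [map_add, AddMonoidHom.add_apply, halt] at this
    have h2 : β b a + β a b = 0 := by simpa using this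
    exact eq_neg_of_add_eq_zero_right h2
  have adj : ∀ a b, β (φ a) b = β a (ψ b) := by
    intro a b
    rw [← hinv a (ψ b), hφψ]
  have pol : ∀ x y, β (φ x - x) (φ (φ y - y)) + β (φ y - y) (φ (φ x - x)) = 0 := by
    intro x y
    have h1 := h (x + y)
    have h2 : φ (x + y) - (x + y) = (φ x - x) + (φ y - y) := by
      rw [map_add]; abel
    have gen : ∀ a b : Q, β (a + b) (φ a + φ b) = β a (φ a) + β a (φ b) + (β b (φ a) + β b (φ b)) := by
      intro a b
      simp only [map_add, AddMonoidHom.add_apply]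
      abel
    have h3 : φ ((φ x - x) + (φ y - y)) = φ (φ x - x) + φ (φ y - y) := map_add φ _ _
    rw [h2, h3, gen, h x, h y] at h1
    simpa using h1
  have key : ∀ x y, β (φ x - x) (φ (φ y - y) - ψ (φ y - y)) = 0 := by
    intro x y
    have h1 := pol x y
    rw [anti (φ y - y) (φ (φ x - x)), adj (φ x - x) (φ y - y)] at h1
    rw [map_sub]
    simpa [sub_eq_add_neg] using h1
  have hfix : ∀ y, φ (φ (φ y - y)) = φ y - y := by
    intro y
    set τ := φ y - y with hτ
    set v := φ τ - ψ τ with hv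
    have h1 : ψ v - v = 0 := by
      apply hnd
      intro x
      have h2 : β (φ x - x) v = 0 := key x y
      have h3 : β x (ψ v - v) = β (φ x - x) v := by
        rw [map_sub (β x), map_sub β, AddMonoidHom.sub_apply, adj]
      rw [h3]; exact h2
    have h2 : ψ v = v := sub_eq_zero.mp h1
    have h3 : φ v = v := by
      conv_lhs => rw [← h2]
      exact hφψ v
    have h4 : v = φ (τ + ψ τ) - (τ + ψ τ) := by
      rw [map_add, hφψ, hv]; abel
    have h5 : v = 0 := fixed_boundary_eq_zero hcop hQ φ hφ h3 h4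
    have h6 : φ τ = ψ τ := sub_eq_zero.mp (by rw [← hv]; exact h5)
    rw [h6, hφψ]
  have hsq : ∀ y, φ (φ y) = y := by
    intro y
    have h1 : φ (φ (φ y) - y) = φ (φ y) - y := by
      have := hfix y
      simp only [map_sub] at this ⊢
      have h9 : φ (φ (φ y)) - φ (φ y) = φ y - y := this
      calc φ (φ (φ y)) - φ y = (φ (φ (φ y)) - φ (φ y)) + (φ (φ y) - φ y) := by abel
        _ = (φ y - y) + (φ (φ y) - φ y) := by rw [h9]
        _ = φ (φ y) - y := by abel
    have h2 : φ (φ y) - y = φ (φ y + y) - (φ y + y) := by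
      rw [map_add]; abel
    exact sub_eq_zero.mp (fixed_boundary_eq_zero hcop hQ φ hφ h1 h2)
  have hsq' : φ ^ 2 = 1 := by
    ext y
    rw [pow_two]
    exact hsq y
  obtain ⟨k, hk⟩ : ∃ k, ϖ = 2 * k + 1 := hϖ.odd_of_ne_two hodd
  rw [hk, pow_succ, pow_mul, hsq', one_pow, one_mul] at hφ
  exact hφ

end AlgQ

section Grp
variable {P : Type u} [Group P]

theorem comm_mul_left_of_central (hc : ∀ a b x : P, ⁅a, b⁆ * x = x * ⁅a, b⁆) (a a' b : P) :
    ⁅a * a', b⁆ = ⁅a, b⁆ * ⁅a', b⁆ := by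
  have h1 : a' * b * a'⁻¹ = ⁅a', b⁆ * b := by simp [commutatorElement_def]
  have h2 : a * ⁅a', b⁆ = ⁅a', b⁆ * a := (hc a' b a).symm
  calc ⁅a * a', b⁆ = a * (a' * b * a'⁻¹) * a⁻¹ * b⁻¹ := by
        simp [commutatorElement_def]; group
    _ = a * ⁅a', b⁆ * b * a⁻¹ * b⁻¹ := by rw [h1]; group
    _ = ⁅a', b⁆ * ⁅a, b⁆ := by
        rw [h2, commutatorElement_def a b]; group
    _ = ⁅a, b⁆ * ⁅a', b⁆ := hc _ _ _

theorem comm_mul_right_of_central (hc : ∀ a b x : P, ⁅a, b⁆ * x = x * ⁅a, b⁆) (a b b' : P) :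
    ⁅a, b * b'⁆ = ⁅a, b⁆ * ⁅a, b'⁆ := by
  rw [← commutatorElement_inv (b * b') a, comm_mul_left_of_central hc, mul_inv_rev,
    commutatorElement_inv, commutatorElement_inv, hc]

theorem exists_abel_quot (N : Subgroup P) [N.Normal] (h : ∀ a b : P, ⁅a, b⁆ ∈ N) :
    ∃ (Q : Type u) (_ : AddCommGroup Q) (π : P → Q), (∀ a b, π (a * b) = π a + π b) ∧
      Function.Surjective π ∧ ∀ a, π a = 0 ↔ a ∈ N := by
  letI : CommGroup (P ⧸ N) :=
    { (QuotientGroup.Quotient.group N) with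
      mul_comm := by
        intro x y
        obtain ⟨a, rfl⟩ := QuotientGroup.mk_surjective x
        obtain ⟨b, rfl⟩ := QuotientGroup.mk_surjective y
        have h1 : ((⁅a, b⁆ : P) : P ⧸ N) = 1 := (QuotientGroup.eq_one_iff _).mpr (h a b)
        have h2 : a * b = ⁅a, b⁆ * (b * a) := by simp [commutatorElement_def]
        show ((a * b : P) : P ⧸ N) = ((b * a : P) : P ⧸ N)
        rw [h2, QuotientGroup.mk_mul, h1, one_mul] }
  refine ⟨Additive (P ⧸ N), inferInstance, fun a => Additive.ofMul (a : P ⧸ N), ?_, ?_, ?_⟩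
  · intro a b; rfl
  · intro x
    obtain ⟨a, ha⟩ := QuotientGroup.mk_surjective (Additive.toMul x)
    exact ⟨a, by simpa using congrArg Additive.ofMul ha⟩
  · intro a
    show (a : P ⧸ N) = 1 ↔ _
    exact QuotientGroup.eq_one_iff a

theorem exists_model (N : Subgroup P) {r ϖ : ℕ} (hN : ∀ z ∈ N, ∀ x, z * x = x * z)
    (hcomm : ∀ a b : P, ⁅a, b⁆ ∈ N) (hpow : ∀ a : P, a ^ r ∈ N) (f : P →* P)
    (hfN : ∀ z ∈ N, f z = z) (hfϖ : ∀ a, f^[ϖ] a = a) :
    ∃ (Q : Type u) (_ : AddCommGroup Q) (π : P → Q) (φ : AddMonoid.End Q),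
      (∀ a b, π (a * b) = π a + π b) ∧ Function.Surjective π ∧ (∀ a, π a = 0 ↔ a ∈ N) ∧
      (∀ a, φ (π a) = π (f a)) ∧ (∀ x : Q, r • x = 0) ∧ φ ^ ϖ = 1 := by
  haveI : N.Normal := ⟨fun n hn g => by
    rw [(hN n hn g).symm]
    simpa [mul_assoc] using hn⟩
  obtain ⟨Q, _, π, hadd, hsurj, hker⟩ := exists_abel_quot N hcomm
  have hone : π 1 = 0 := by
    have := hadd 1 1
    simpa using this
  have hneg : ∀ a, π a⁻¹ = - π a := by
    intro a
    have := hadd a⁻¹ a
    rw [inv_mul_cancel, hone] at this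
    exact eq_neg_of_add_eq_zero_left this.symm
  have hwell : ∀ a a', π a = π a' → π (f a) = π (f a') := by
    intro a a' h
    have h1 : π (a⁻¹ * a') = 0 := by rw [hadd, hneg, h]; simp
    have h2 : a⁻¹ * a' ∈ N := (hker _).mp h1
    have h3 : f (a⁻¹ * a') = a⁻¹ * a' := hfN _ h2
    have h4 : π (f (a⁻¹ * a')) = 0 := by rw [h3]; exact h1
    rw [map_mul, map_inv, hadd, hneg] at h4
    have h5 := eq_of_sub_eq_zero (show π (f a') - π (f a) = 0 by rw [← h4]; abel)
    exact h5.symm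
  let out := Function.surjInv hsurj
  have hout : ∀ x, π (out x) = x := Function.surjInv_eq hsurj
  have hφπ : ∀ a, π (f (out (π a))) = π (f a) := fun a => hwell _ _ (hout _)
  let φ : AddMonoid.End Q := AddMonoidHom.mk' (fun x => π (f (out x))) (by
    intro x y
    obtain ⟨a, rfl⟩ := hsurj x
    obtain ⟨b, rfl⟩ := hsurj y
    rw [← hadd, hφπ, hφπ, hφπ, map_mul, hadd])
  have hφ : ∀ a, φ (π a) = π (f a) := hφπ
  have hsm : ∀ (k : ℕ) (a : P), k • π a = π (a ^ k) := by
    intro k a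
    induction k with
    | zero => simp [hone]
    | succ k ih => rw [succ_nsmul, ih, pow_succ, hadd]
  have hit : ∀ (k : ℕ) (a : P), (φ ^ k) (π a) = π (f^[k] a) := by
    intro k a
    induction k generalizing a with
    | zero => rfl
    | succ k ih =>
      rw [pow_succ, Function.iterate_succ_apply]
      show (φ ^ k) (φ (π a)) = _
      rw [hφ, ih]
  refine ⟨Q, inferInstance, π, φ, hadd, hsurj, hker, hφ, ?_, ?_⟩
  · intro x
    obtain ⟨a, rfl⟩ := hsurj x
    rw [hsm, (hker _).mpr (hpow a)]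
  · ext x
    obtain ⟨a, rfl⟩ := hsurj x
    rw [hit, hfϖ]; rfl

theorem exists_form {Q C : Type*} [AddCommGroup Q] [AddCommGroup C] (π : P → Q)
    (hadd : ∀ a b, π (a * b) = π a + π b) (hsurj : Function.Surjective π)
    (B : P → P → C) (hBl : ∀ a a' b, B (a * a') b = B a b + B a' b)
    (hBr : ∀ a b b', B a (b * b') = B a b + B a b')
    (hB0l : ∀ a b, π a = 0 → B a b = 0) (hB0r : ∀ a b, π b = 0 → B a b = 0) :
    ∃ β : Q →+ Q →+ C, ∀ a b, β (π a) (π b) = B a b := by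
  have hone : π 1 = 0 := by
    have := hadd 1 1
    simpa using this
  have hneg : ∀ a, π a⁻¹ = - π a := by
    intro a
    have := hadd a⁻¹ a
    rw [inv_mul_cancel, hone] at this
    exact eq_neg_of_add_eq_zero_left this.symm
  have h1 : ∀ a a' b, π a = π a' → B a b = B a' b := by
    intro a a' b h
    have h2 : π (a⁻¹ * a') = 0 := by rw [hadd, hneg, h]; simp
    have h3 : a' = a * (a⁻¹ * a') := by group
    rw [h3, hBl, hB0l _ _ h2, add_zero]
  have h2 : ∀ a b b', π b = π b' → B a b = B a b' := by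
    intro a b b' h
    have h2 : π (b⁻¹ * b') = 0 := by rw [hadd, hneg, h]; simp
    have h3 : b' = b * (b⁻¹ * b') := by group
    rw [h3, hBr, hB0r _ _ h2, add_zero]
  let out := Function.surjInv hsurj
  have hout : ∀ x, π (out x) = x := Function.surjInv_eq hsurj
  have hg : ∀ a b, B (out (π a)) (out (π b)) = B a b := by
    intro a b
    rw [h1 _ a _ (hout _), h2 _ _ b (hout _)]
  let β : Q →+ Q →+ C := AddMonoidHom.mk'
    (fun x => AddMonoidHom.mk' (fun y => B (out x) (out y)) (by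
      intro y y'
      obtain ⟨a, rfl⟩ := hsurj x
      obtain ⟨b, rfl⟩ := hsurj y
      obtain ⟨b', rfl⟩ := hsurj y'
      rw [← hadd, hg, hg, hg, hBr])) (by
      intro x x'
      ext y
      obtain ⟨a, rfl⟩ := hsurj x
      obtain ⟨a', rfl⟩ := hsurj x'
      obtain ⟨b, rfl⟩ := hsurj y
      show B (out (π a + π a')) (out (π b)) = B (out (π a)) (out (π b)) + B (out (π a')) (out (π b))
      rw [← hadd, hg, hg, hg, hBl])
  exact ⟨β, hg⟩

/-- The non-commuting step: if the automorphism has odd prime order different from `r` and is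
non-trivial mod `N`, some value of `y ↦ y⁻¹ f y` does not commute with its image. -/
theorem exists_noncomm_step (N : Subgroup P) {r ϖ : ℕ} (hN : ∀ z ∈ N, ∀ x, z * x = x * z)
    (hcomm : ∀ a b : P, ⁅a, b⁆ ∈ N) (hpow : ∀ a : P, a ^ r ∈ N)
    (hnd : ∀ a : P, (∀ b : P, ⁅b, a⁆ = 1) → a ∈ N) (f : P →* P)
    (hfN : ∀ z ∈ N, f z = z) (hfϖ : ∀ a, f^[ϖ] a = a)
    (hr : r.Prime) (hϖ : ϖ.Prime) (hodd : ϖ ≠ 2) (hne : ϖ ≠ r)
    (y₀ : P) (hy₀ : y₀⁻¹ * f y₀ ∉ N) :
    ∃ y : P, ⁅y⁻¹ * f y, f (y⁻¹ * f y)⁆ ≠ 1 := by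
  by_contra hcon
  push Not at hcon
  obtain ⟨Q, _, π, φ, hadd, hsurj, hker, hφ, hrQ, hφϖ⟩ :=
    exists_model N hN hcomm hpow f hfN hfϖ
  have hone : π 1 = 0 := by
    have := hadd 1 1
    simpa using this
  have hneg : ∀ a, π a⁻¹ = - π a := by
    intro a
    have := hadd a⁻¹ a
    rw [inv_mul_cancel, hone] at this
    exact eq_neg_of_add_eq_zero_left this.symm
  have hcen : ∀ a b : P, ⁅a, b⁆ ∈ Subgroup.center P := fun a b =>
    Subgroup.mem_center_iff.mpr (fun x => (hN _ (hcomm a b) x).symm)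
  have hcc : ∀ a b x : P, ⁅a, b⁆ * x = x * ⁅a, b⁆ := fun a b x => hN _ (hcomm a b) x
  letI : CommGroup (Subgroup.center P) :=
    { (inferInstance : Group (Subgroup.center P)) with
      mul_comm := fun a b => Subtype.ext (Subgroup.mem_center_iff.mp b.2 a.1) }
  let B : P → P → Additive (Subgroup.center P) :=
    fun a b => Additive.ofMul (⟨⁅a, b⁆, hcen a b⟩ : Subgroup.center P)
  have hB0 : ∀ a b, B a b = 0 ↔ ⁅a, b⁆ = 1 := by
    intro a b
    constructor
    · intro h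
      have := congrArg (fun x => ((Additive.toMul x : Subgroup.center P) : P)) h
      simpa [B] using this
    · intro h
      apply Additive.toMul.injective
      apply Subtype.ext
      simpa [B] using h
  have hcomm0 : ∀ z b : P, z ∈ N → ⁅z, b⁆ = 1 := by
    intro z b hz
    rw [commutatorElement_eq_one_iff_mul_comm]
    exact hN z hz b
  obtain ⟨β, hβ⟩ := exists_form π hadd hsurj B
    (by
      intro a a' b
      apply Additive.toMul.injective
      apply Subtype.ext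
      exact comm_mul_left_of_central hcc a a' b)
    (by
      intro a b b'
      apply Additive.toMul.injective
      apply Subtype.ext
      exact comm_mul_right_of_central hcc a b b')
    (by
      intro a b h
      rw [hB0]
      exact hcomm0 a b ((hker a).mp h))
    (by
      intro a b h
      rw [hB0, ← commutatorElement_inv, hcomm0 b a ((hker b).mp h), inv_one])
  have hφ1 : φ = 1 := by
    refine eq_one_of_form hϖ hodd ((Nat.coprime_primes hϖ hr).mpr hne) hrQ φ hφϖ β ?_ ?_ ?_ ?_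
    · intro x
      obtain ⟨a, rfl⟩ := hsurj x
      rw [hβ, hB0, commutatorElement_self]
    · intro x y
      obtain ⟨a, rfl⟩ := hsurj x
      obtain ⟨b, rfl⟩ := hsurj y
      rw [hφ, hφ, hβ, hβ]
      apply Additive.toMul.injective
      apply Subtype.ext
      show ⁅f a, f b⁆ = ⁅a, b⁆
      rw [← map_commutatorElement, hfN _ (hcomm a b)]
    · intro y hy
      obtain ⟨b, rfl⟩ := hsurj y
      apply (hker b).mpr
      apply hnd
      intro a
      have := hy (π a)
      rw [hβ, hB0] at this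
      exact this
    · intro x
      obtain ⟨y, rfl⟩ := hsurj x
      have h1 : φ (π y) - π y = π (y⁻¹ * f y) := by
        rw [hφ, hadd, hneg]; abel
      rw [h1, hφ, hβ, hB0]
      exact hcon y
  apply hy₀
  apply (hker _).mp
  rw [hadd, hneg, ← hφ, hφ1]
  simp

/-- The fixed step in the case of order `r`. -/
theorem exists_fixed_step (N : Subgroup P) {r : ℕ} (hN : ∀ z ∈ N, ∀ x, z * x = x * z)
    (hcomm : ∀ a b : P, ⁅a, b⁆ ∈ N) (hpow : ∀ a : P, a ^ r ∈ N) (f : P →* P)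
    (hfN : ∀ z ∈ N, f z = z) (hfϖ : ∀ a, f^[r] a = a) (hr : r.Prime)
    (y₀ : P) (hy₀ : y₀⁻¹ * f y₀ ∉ N) :
    ∃ y : P, y⁻¹ * f y ∉ N ∧ (y⁻¹ * f y)⁻¹ * f (y⁻¹ * f y) ∈ N := by
  obtain ⟨Q, _, π, φ, hadd, hsurj, hker, hφ, hrQ, hφϖ⟩ :=
    exists_model N hN hcomm hpow f hfN hfϖ
  have hone : π 1 = 0 := by
    have := hadd 1 1
    simpa using this
  have hneg : ∀ a, π a⁻¹ = - π a := by
    intro a
    have := hadd a⁻¹ a
    rw [inv_mul_cancel, hone] at this
    exact eq_neg_of_add_eq_zero_left this.symm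
  have hT : ∀ y, (φ - 1) (π y) = π (y⁻¹ * f y) := by
    intro y
    show φ (π y) - π y = _
    rw [hφ, hadd, hneg]; abel
  have hne : φ ≠ 1 := by
    rintro rfl
    apply hy₀
    apply (hker _).mp
    rw [← hT]
    simp
  obtain ⟨x, hx1, hx2⟩ := exists_step hr hrQ φ hφϖ hne
  obtain ⟨y, rfl⟩ := hsurj x
  rw [hT] at hx1 hx2
  rw [hT] at hx2
  exact ⟨y, fun h => hx1 ((hker _).mpr h), (hker _).mp hx2⟩

end Grp

end Cfsg.Agent.XSpEig
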