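import Mathlib

/-! Linear algebra for the eigenspace bound on normalisers of extraspecial groups. -/

namespace Cfsg.Agent.XSpEig

open Module (finrank)

section Lin
variable {F V : Type*} [Field F] [AddCommGroup V] [Module F V] [FiniteDimensional F V]

theorem sum_finrank_le_of_indep {ι : Type*} (S : ι → Submodule F V) (h : iSupIndep S)
    (s : Finset ι) (U : Submodule F V) (hU : ∀ i ∈ s, S i ≤ U) :
    ∑ i ∈ s, finrank F (S i) ≤ finrank F U := by
  classical
  have key : ∑ i ∈ s, finrank F (S i) = finrank F ↥(s.sup S) := by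
    induction s using Finset.induction_on with
    | empty => rw [Finset.sup_empty, finrank_bot]; simp
    | insert i s hi ih =>
      rw [Finset.sum_insert hi, Finset.sup_insert,
        ih (fun j hj => hU j (Finset.mem_insert_of_mem hj))]
      have hd : Disjoint (S i) (s.sup S) := by
        refine (h i).mono_right ?_
        refine Finset.sup_le fun j hj => ?_
        exact le_iSup₂_of_le j (fun e => hi (e ▸ hj)) le_rfl
      have h1 := Submodule.finrank_sup_add_finrank_inf_eq (S i) (s.sup S)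
      rw [hd.eq_bot, finrank_bot, add_zero] at h1
      exact h1.symm
  rw [key]
  exact Submodule.finrank_mono (Finset.sup_le hU)

theorem finrank_sup_le_sum {ι : Type*} (S : ι → Submodule F V) (s : Finset ι) :
    finrank F ↥(s.sup S) ≤ ∑ i ∈ s, finrank F (S i) := by
  classical
  induction s using Finset.induction_on with
  | empty => rw [Finset.sup_empty, finrank_bot]; simp
  | insert i s hi ih =>
    rw [Finset.sum_insert hi, Finset.sup_insert]
    exact (Submodule.finrank_add_le_finrank_add_finrank _ _).trans (by omega)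

theorem sum_finrank_inf_eigenspace_le (A : Module.End F V) (U : Submodule F V) (I : Finset F) :
    ∑ μ ∈ I, finrank F ↥(U ⊓ A.eigenspace μ) ≤ finrank F U := by
  apply sum_finrank_le_of_indep (fun μ => U ⊓ A.eigenspace μ)
  · exact (Module.End.eigenspaces_iSupIndep A).mono (fun μ => inf_le_right)
  · exact fun μ _ => inf_le_left

theorem finrank_le_of_injective_mapsTo (Y : V →ₗ[F] V) (hY : Function.Injective Y)
    {S S' : Submodule F V} (h : ∀ v ∈ S, Y v ∈ S') : finrank F S ≤ finrank F S' := by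
  refine LinearMap.finrank_le_finrank_of_injective (f := Y.restrict h) ?_
  intro a b hab
  apply Subtype.ext
  apply hY
  exact congrArg Subtype.val hab

theorem mul_finrank_le_of_twist {r : ℕ} (hr : r.Prime) (A Y : Module.End F V)
    (hY : Function.Injective Y) (U : Submodule F V) (hU : ∀ v ∈ U, Y v ∈ U) (τ : F) (hτ1 : τ ≠ 1)
    (hτr : τ ^ r = 1) (h : ∀ v ∈ U, A (Y v) = τ • Y (A v)) (μ : F) (hμ : μ ≠ 0) :
    r * finrank F ↥(U ⊓ A.eigenspace μ) ≤ finrank F U := by
  classical
  haveI := Fact.mk hr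
  have hord : orderOf τ = r := orderOf_eq_prime hτr hτ1
  have hstep : ∀ ν : F, finrank F ↥(U ⊓ A.eigenspace ν) ≤ finrank F ↥(U ⊓ A.eigenspace (τ * ν)) := by
    intro ν
    apply finrank_le_of_injective_mapsTo Y hY
    rintro v ⟨hv1, hv2⟩
    refine ⟨hU v hv1, ?_⟩
    have hv3 : A v = ν • v := Module.End.mem_eigenspace_iff.mp hv2
    apply Module.End.mem_eigenspace_iff.mpr
    rw [h v hv1, hv3, map_smul, smul_smul]
  have hj : ∀ j : ℕ, finrank F ↥(U ⊓ A.eigenspace μ) ≤ finrank F ↥(U ⊓ A.eigenspace (τ ^ j * μ)) := by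
    intro j
    induction j with
    | zero => rw [pow_zero, one_mul]
    | succ j ih =>
      refine ih.trans ?_
      have := hstep (τ ^ j * μ)
      rwa [← mul_assoc, ← pow_succ'] at this
  have hinj : Set.InjOn (fun j : ℕ => τ ^ j * μ) (Finset.range r : Set ℕ) := by
    intro a ha b hb hab
    have h1 : τ ^ a = τ ^ b := mul_right_cancel₀ hμ hab
    have h2 := pow_injOn_Iio_orderOf (x := τ)
    rw [hord] at h2
    exact h2 (by simpa using ha) (by simpa using hb) h1
  have h1 := sum_finrank_inf_eigenspace_le A U ((Finset.range r).image (fun j : ℕ => τ ^ j * μ))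
  rw [Finset.sum_image hinj] at h1
  refine le_trans ?_ h1
  calc r * finrank F ↥(U ⊓ A.eigenspace μ)
      = ∑ _j ∈ Finset.range r, finrank F ↥(U ⊓ A.eigenspace μ) := by simp
    _ ≤ _ := Finset.sum_le_sum (fun j _ => hj j)

/-- diagonalisation of an endomorphism with `B ^ r = 1` on an invariant subspace. -/
theorem finrank_le_sum_of_pow_eq_one {r : ℕ} (hr : r.Prime) (ξ : F) (hξ1 : ξ ≠ 1) (hξr : ξ ^ r = 1)
    (B : Module.End F V) (hB : B ^ r = 1) (U : Submodule F V) (hU : ∀ v ∈ U, B v ∈ U) :
    finrank F U ≤ ∑ i ∈ Finset.range r, finrank F ↥(U ⊓ B.eigenspace (ξ ^ i)) := by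
  classical
  haveI := Fact.mk hr
  have hord : orderOf ξ = r := orderOf_eq_prime hξr hξ1
  have hξ0 : ξ ≠ 0 := by
    rintro rfl
    rw [zero_pow hr.ne_zero] at hξr
    exact zero_ne_one hξr
  haveI : NeZero r := ⟨hr.ne_zero⟩
  have hprim : IsPrimitiveRoot ξ r := by
    rw [← hord]
    exact IsPrimitiveRoot.orderOf ξ
  have hrF : (r : F) ≠ 0 := (hprim.neZero').out
  refine le_trans ?_ (finrank_sup_le_sum (fun i => U ⊓ B.eigenspace (ξ ^ i)) (Finset.range r))
  apply Submodule.finrank_mono
  intro w hw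
  -- the projections
  let η : ℕ → F := fun i => (ξ⁻¹) ^ i
  have hηr : ∀ i, (η i) ^ r = 1 := by
    intro i
    show ((ξ⁻¹) ^ i) ^ r = 1
    rw [← pow_mul, mul_comm, pow_mul, inv_pow, hξr, inv_one, one_pow]
  have hηξ : ∀ i, η i * ξ ^ i = 1 := by
    intro i
    show (ξ⁻¹) ^ i * ξ ^ i = 1
    rw [← mul_pow, inv_mul_cancel₀ hξ0, one_pow]
  let C : ℕ → Module.End F V := fun i => η i • B
  let E : ℕ → V := fun i => (∑ k ∈ Finset.range r, (C i) ^ k) w
  have hCr : ∀ i, (C i) ^ r = 1 := by
    intro i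
    show (η i • B) ^ r = 1
    rw [smul_pow, hηr, hB, one_smul]
  have hE1 : ∀ i, C i (E i) = E i := by
    intro i
    have h1 : (C i - 1) * (∑ k ∈ Finset.range r, (C i) ^ k) = (C i) ^ r - 1 := mul_geom_sum _ _
    rw [hCr, sub_self] at h1
    have h2 := congrArg (fun e : Module.End F V => e w) h1
    simp only [Module.End.mul_apply, LinearMap.sub_apply, Module.End.one_apply,
      LinearMap.zero_apply] at h2
    exact sub_eq_zero.mp h2
  have hE2 : ∀ i, B (E i) = ξ ^ i • E i := by
    intro i
    have h1 : η i • B (E i) = E i := hE1 i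
    have h2 : ξ ^ i • (η i • B (E i)) = B (E i) := by
      rw [smul_smul, mul_comm, hηξ, one_smul]
    rw [← h2, h1]
  have hCU : ∀ (i k : ℕ), ∀ v ∈ U, ((C i) ^ k) v ∈ U := by
    intro i k
    induction k with
    | zero => intro v hv; simpa using hv
    | succ k ih =>
      intro v hv
      rw [pow_succ']
      show (C i) (((C i) ^ k) v) ∈ U
      exact U.smul_mem _ (hU _ (ih v hv))
  have hEU : ∀ i, E i ∈ U := by
    intro i
    show (∑ k ∈ Finset.range r, (C i) ^ k) w ∈ U
    rw [LinearMap.sum_apply]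
    exact U.sum_mem (fun k _ => hCU i k w hw)
  have hEmem : ∀ i ∈ Finset.range r, E i ∈ (Finset.range r).sup (fun i => U ⊓ B.eigenspace (ξ ^ i)) := by
    intro i hi
    exact (Finset.le_sup (f := fun i => U ⊓ B.eigenspace (ξ ^ i)) hi)
      ⟨hEU i, Module.End.mem_eigenspace_iff.mpr (hE2 i)⟩
  have hsum : ∑ i ∈ Finset.range r, E i = (r : F) • w := by
    have h0 : ∀ k ∈ Finset.range r, ∀ i : ℕ, ((C i) ^ k) w = ((ξ⁻¹) ^ k) ^ i • (B ^ k) w := by
      intro k _ i
      show ((η i • B) ^ k) w = _
      rw [smul_pow]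
      show (η i) ^ k • (B ^ k) w = _
      show ((ξ⁻¹) ^ i) ^ k • (B ^ k) w = _
      rw [← pow_mul, ← pow_mul, mul_comm]
    calc ∑ i ∈ Finset.range r, E i
        = ∑ i ∈ Finset.range r, ∑ k ∈ Finset.range r, ((C i) ^ k) w := by
          refine Finset.sum_congr rfl fun i _ => ?_
          show (∑ k ∈ Finset.range r, (C i) ^ k) w = _
          rw [LinearMap.sum_apply]
      _ = ∑ k ∈ Finset.range r, ∑ i ∈ Finset.range r, ((C i) ^ k) w := Finset.sum_comm
      _ = ∑ k ∈ Finset.range r, (∑ i ∈ Finset.range r, ((ξ⁻¹) ^ k) ^ i) • (B ^ k) w := by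
          refine Finset.sum_congr rfl fun k hk => ?_
          rw [Finset.sum_smul]
          exact Finset.sum_congr rfl fun i _ => h0 k hk i
      _ = (r : F) • w := by
          rw [Finset.sum_eq_single 0]
          · simp
          · intro k hk hk0
            have hk' : k < r := Finset.mem_range.mp hk
            have hne : (ξ⁻¹) ^ k ≠ 1 := by
              intro h1
              rw [inv_pow, inv_eq_one] at h1
              have h2 : r ∣ k := hord ▸ orderOf_dvd_of_pow_eq_one h1
              exact hk0 (Nat.eq_zero_of_dvd_of_lt h2 hk')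
            have hpow : ((ξ⁻¹) ^ k) ^ r = 1 := by
              rw [← pow_mul, mul_comm, pow_mul, inv_pow, hξr, inv_one, one_pow]
            have h3 : (∑ i ∈ Finset.range r, ((ξ⁻¹) ^ k) ^ i) * ((ξ⁻¹) ^ k - 1) = ((ξ⁻¹) ^ k) ^ r - 1 :=
              geom_sum_mul _ _
            rw [hpow, sub_self] at h3
            have h4 := (mul_eq_zero.mp h3).resolve_right (sub_ne_zero.mpr hne)
            rw [h4, zero_smul]
          · intro h
            exact absurd (Finset.mem_range.mpr hr.pos) h
  have hw' : w = (r : F)⁻¹ • ∑ i ∈ Finset.range r, E i := by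
    rw [hsum, smul_smul, inv_mul_cancel₀ hrF, one_smul]
  rw [hw']
  exact Submodule.smul_mem _ _ (Submodule.sum_mem _ hEmem)

end Lin

/-- Arithmetic of triangular numbers. -/
def tri (i : ℕ) : ℕ := ∑ j ∈ Finset.range (i + 1), j

theorem tri_succ (i : ℕ) : tri (i + 1) = tri i + (i + 1) := by
  unfold tri
  rw [Finset.sum_range_succ]

theorem two_mul_tri (i : ℕ) : 2 * tri i = i * (i + 1) := by
  induction i with
  | zero => simp [tri]
  | succ k ih =>
    rw [tri_succ, mul_add, ih]
    ring

theorem tri_ne_of_lt {r : ℕ} (hr : r.Prime) {i i' : ℕ} (hlt : i < i') (hi' : i' < r)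
    (hne : i + i' + 1 ≠ r) : ¬ (tri i ≡ tri i' [MOD r]) := by
  intro h
  obtain ⟨m, rfl⟩ : ∃ m, i' = i + m := ⟨i' - i, by omega⟩
  have hm : 0 < m := by omega
  have h1 : 2 * tri i ≡ 2 * tri (i + m) [MOD r] := h.mul_left 2
  have h2 : 2 * tri (i + m) = 2 * tri i + m * (2 * i + m + 1) := by
    rw [two_mul_tri, two_mul_tri]; ring
  rw [h2] at h1
  have h3 : 2 * tri i + 0 ≡ 2 * tri i + m * (2 * i + m + 1) [MOD r] := by simpa using h1
  have h4 : 0 ≡ m * (2 * i + m + 1) [MOD r] := Nat.ModEq.add_left_cancel' _ h3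
  have h5 : r ∣ m * (2 * i + m + 1) := (Nat.modEq_zero_iff_dvd.mp h4.symm)
  rcases (Nat.Prime.dvd_mul hr).mp h5 with h6 | h6
  · have := Nat.le_of_dvd hm h6
    omega
  · have h7 : 2 * i + m + 1 < 2 * r := by omega
    have h8 : 0 < 2 * i + m + 1 := by omega
    obtain ⟨q, hq⟩ := h6
    have hq1 : q = 1 := by
      have : q < 2 := by
        by_contra hc
        have : 2 ≤ q := by omega
        have : r * 2 ≤ r * q := Nat.mul_le_mul_left r this
        omega
      have : q ≠ 0 := by
        rintro rfl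
        omega
      omega
    subst hq1
    omega

end Cfsg.Agent.XSpEig
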