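import Mathlib
import Cfsg.Agent.Lib.XSpEigAlg
import Cfsg.Agent.Lib.XSpEigLin

/-! Eigenspace bound for elements normalising a central product with extraspecial commutator form:
the abstract theorem, for a faithful representation of a group `G`. -/

namespace Cfsg.Agent.XSpEig

open Module (finrank)
open scoped commutatorElement

section Fixed
variable {F V : Type*} [Field F] [AddCommGroup V] [Module F V] [FiniteDimensional F V]

theorem two_mul_finrank_le_commuting {r : ℕ} (hr : r.Prime) (hr5 : 5 ≤ r) (A B X : Module.End F V)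
    (hX : Function.Injective X) (hAB : ∀ v, A (B v) = B (A v)) (hXB : ∀ v, X (B v) = B (X v))
    (hAX : ∀ v, A (X v) = X (B (A v))) (hB : B ^ r = 1) (ξ : F) (hξ1 : ξ ≠ 1) (hξr : ξ ^ r = 1)
    (h0 : r * finrank F (B.eigenspace 1) ≤ finrank F V) (c : F) (hc : c ≠ 0) :
    2 * finrank F (A.eigenspace c) ≤ finrank F V := by
  classical
  haveI := Fact.mk hr
  have hord : orderOf ξ = r := orderOf_eq_prime hξr hξ1
  set W := A.eigenspace c with hW
  set S : ℕ → Submodule F V := fun i => B.eigenspace (ξ ^ i) with hS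
  have h1 : finrank F W ≤ ∑ i ∈ Finset.range r, finrank F ↥(W ⊓ S i) := by
    apply finrank_le_sum_of_pow_eq_one hr ξ hξ1 hξr B hB W
    intro v hv
    apply Module.End.mem_eigenspace_iff.mpr
    rw [hAB, Module.End.mem_eigenspace_iff.mp hv, map_smul]
  have hinj : Set.InjOn (fun j : ℕ => ξ ^ j) (Finset.range r : Set ℕ) := by
    have h2 := pow_injOn_Iio_orderOf (x := ξ)
    rw [hord] at h2
    intro a ha b hb hab
    exact h2 (by simpa using ha) (by simpa using hb) hab
  have h2 : ∀ i, 0 < i → i < r → r * finrank F ↥(W ⊓ S i) ≤ finrank F (S i) := by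
    intro i hi hir
    have hτ1 : ξ ^ i ≠ 1 := by
      intro h
      have : r ∣ i := hord ▸ orderOf_dvd_of_pow_eq_one h
      exact absurd (Nat.le_of_dvd hi this) (by omega)
    have hτr : (ξ ^ i) ^ r = 1 := by
      rw [← pow_mul, mul_comm, pow_mul, hξr, one_pow]
    have := mul_finrank_le_of_twist hr A X hX (S i) (by
        intro v hv
        have hv' : B v = ξ ^ i • v := Module.End.mem_eigenspace_iff.mp hv
        apply Module.End.mem_eigenspace_iff.mpr
        rw [← hXB, hv', map_smul]) (ξ ^ i) hτ1 hτr (by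
        intro v hv
        have hv' : B v = ξ ^ i • v := Module.End.mem_eigenspace_iff.mp hv
        rw [hAX, ← hAB, hv', map_smul, map_smul]) c hc
    rwa [inf_comm] at this
  have h3 : r * finrank F ↥(W ⊓ S 0) ≤ r * finrank F (S 0) :=
    Nat.mul_le_mul_left r (Submodule.finrank_mono inf_le_right)
  have h4 : ∑ i ∈ Finset.range r, finrank F (S i) ≤ finrank F V := by
    have h5 := sum_finrank_le_of_indep (fun μ => B.eigenspace μ)
      (Module.End.eigenspaces_iSupIndep B) ((Finset.range r).image (fun j : ℕ => ξ ^ j)) ⊤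
      (fun _ _ => le_top)
    rw [Finset.sum_image hinj, finrank_top] at h5
    exact h5
  obtain ⟨k, rfl⟩ : ∃ k, r = k + 5 := ⟨r - 5, by omega⟩
  set n := finrank F V with hn
  set d := finrank F W with hd
  set b0 := finrank F (S 0) with hb0
  have hb0' : (k + 5) * b0 ≤ n := by
    have : S 0 = B.eigenspace 1 := by simp [hS]
    rw [hb0, this]
    exact h0
  rw [show k + 5 = (k + 4) + 1 from rfl, Finset.sum_range_succ'] at h1 h4
  have h6 : (k + 5) * d ≤ (∑ i ∈ Finset.range (k + 4), finrank F (S (i + 1))) + (k + 5) * b0 := by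
    calc (k + 5) * d ≤ (k + 5) * (∑ i ∈ Finset.range (k + 4), finrank F ↥(W ⊓ S (i + 1)) +
            finrank F ↥(W ⊓ S 0)) := Nat.mul_le_mul_left _ h1
      _ = (∑ i ∈ Finset.range (k + 4), (k + 5) * finrank F ↥(W ⊓ S (i + 1))) +
            (k + 5) * finrank F ↥(W ⊓ S 0) := by
          rw [mul_add, Finset.mul_sum]
      _ ≤ _ := by
          refine Nat.add_le_add (Finset.sum_le_sum fun i hi => ?_) h3
          exact h2 (i + 1) (by omega) (by have := Finset.mem_range.mp hi; omega)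
  have h7 : (k + 5) * d + b0 ≤ n + (k + 5) * b0 := by omega
  have h8 : (k + 5) * (k + 5) * d ≤ (2 * k + 9) * n := by
    nlinarith [Nat.mul_le_mul_left (k + 5) h7, Nat.mul_le_mul_left (k + 4) hb0']
  have h9 : (k + 5) * (k + 5) * (2 * d) ≤ (k + 5) * (k + 5) * n := by
    calc (k + 5) * (k + 5) * (2 * d) = 2 * ((k + 5) * (k + 5) * d) := by ring
      _ ≤ 2 * ((2 * k + 9) * n) := Nat.mul_le_mul_left 2 h8
      _ = (4 * k + 18) * n := by ring
      _ ≤ (k + 5) * (k + 5) * n := Nat.mul_le_mul_right n (by nlinarith)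
  exact Nat.le_of_mul_le_mul_left h9 (by positivity)

theorem two_mul_finrank_le_noncommuting {r : ℕ} (hr : r.Prime) (hr5 : 5 ≤ r)
    (A B X : Module.End F V) (hX : Function.Injective X) (hAB : ∀ v, A (B v) = B (A v))
    (hAX : ∀ v, A (X v) = X (B (A v))) (hB : B ^ r = 1) (ξ : F) (hξ1 : ξ ≠ 1) (hξr : ξ ^ r = 1)
    (hXB : ∀ v, X (B v) = ξ • B (X v))
    (h0 : r * finrank F (B.eigenspace 1) ≤ finrank F V) (c : F) (hc : c ≠ 0) :
    2 * finrank F (A.eigenspace c) ≤ finrank F V := by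
  classical
  haveI := Fact.mk hr
  have hord : orderOf ξ = r := orderOf_eq_prime hξr hξ1
  have hξ0 : ξ ≠ 0 := by
    rintro rfl
    rw [zero_pow hr.ne_zero] at hξr
    exact zero_ne_one hξr
  set W := A.eigenspace c with hW
  set S : ℕ → Submodule F V := fun i => B.eigenspace (ξ ^ i) with hS
  have h1 : finrank F W ≤ ∑ i ∈ Finset.range r, finrank F ↥(W ⊓ S i) := by
    apply finrank_le_sum_of_pow_eq_one hr ξ hξ1 hξr B hB W
    intro v hv
    apply Module.End.mem_eigenspace_iff.mpr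
    rw [hAB, Module.End.mem_eigenspace_iff.mp hv, map_smul]
  let D : ℕ → F → ℕ := fun i μ => finrank F ↥(S i ⊓ A.eigenspace μ)
  have hstep : ∀ i μ, D (i + 1) μ ≤ D i (ξ ^ (i + 1) * μ) := by
    intro i μ
    apply finrank_le_of_injective_mapsTo X hX
    rintro v ⟨hv1, hv2⟩
    have hv1' : B v = ξ ^ (i + 1) • v := Module.End.mem_eigenspace_iff.mp hv1
    have hv2' : A v = μ • v := Module.End.mem_eigenspace_iff.mp hv2
    refine ⟨?_, ?_⟩
    · apply Module.End.mem_eigenspace_iff.mpr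
      have h2 : ξ • B (X v) = ξ • (ξ ^ i • X v) := by
        rw [← hXB, hv1', map_smul, smul_smul, pow_succ']
      exact smul_right_injective V hξ0 h2
    · apply Module.End.mem_eigenspace_iff.mpr
      rw [hAX, hv2', map_smul, map_smul, hv1', map_smul, smul_smul, mul_comm]
  have hind : ∀ i μ, D i μ ≤ D 0 (ξ ^ tri i * μ) := by
    intro i
    induction i with
    | zero => intro μ; simp [tri]
    | succ i ih =>
      intro μ
      refine (hstep i μ).trans ((ih _).trans ?_)
      rw [tri_succ, pow_add ξ (tri i) (i + 1), mul_assoc]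
  have hinjI : ∀ I : Finset ℕ, (∀ i ∈ I, ∀ i' ∈ I, i < i' → i' < r ∧ i + i' + 1 ≠ r) →
      ∑ i ∈ I, D 0 (ξ ^ tri i * c) ≤ finrank F (S 0) := by
    intro I hI
    have hinj : Set.InjOn (fun i : ℕ => ξ ^ tri i * c) (I : Set ℕ) := by
      intro a ha b hb hab
      have h2 : ξ ^ tri a = ξ ^ tri b := mul_right_cancel₀ hc hab
      have h3 : tri a ≡ tri b [MOD r] := by
        have h2' : (Units.mk0 ξ hξ0) ^ tri a = (Units.mk0 ξ hξ0) ^ tri b :=
          Units.ext (by simpa using h2)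
        have h2'' := (pow_eq_pow_iff_modEq (x := Units.mk0 ξ hξ0)).mp h2'
        have h3' : orderOf (Units.mk0 ξ hξ0) = r := by
          rw [← orderOf_units, Units.val_mk0, hord]
        rwa [h3'] at h2''
      rcases lt_trichotomy a b with h | h | h
      · obtain ⟨h4, h5⟩ := hI a ha b hb h
        exact absurd h3 (tri_ne_of_lt hr h h4 h5)
      · exact h
      · obtain ⟨h4, h5⟩ := hI b hb a ha h
        exact absurd h3.symm (tri_ne_of_lt hr h h4 h5)
    have h6 := sum_finrank_inf_eigenspace_le A (S 0) (I.image (fun i : ℕ => ξ ^ tri i * c))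
    rw [Finset.sum_image hinj] at h6
    exact h6
  have hsum : ∑ i ∈ Finset.range r, finrank F ↥(W ⊓ S i) ≤ 2 * finrank F (S 0) := by
    have h2 : ∑ i ∈ Finset.range r, finrank F ↥(W ⊓ S i) ≤
        ∑ i ∈ Finset.range r, D 0 (ξ ^ tri i * c) := by
      refine Finset.sum_le_sum fun i _ => ?_
      have := hind i c
      rw [inf_comm]
      exact this
    have h3 := Finset.sum_filter_add_sum_filter_not (Finset.range r) (fun i => 2 * i < r)
      (fun i => D 0 (ξ ^ tri i * c))
    have h4 := hinjI ((Finset.range r).filter (fun i => 2 * i < r)) (by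
      intro i hi i' hi' hlt
      simp only [Finset.mem_filter, Finset.mem_range] at hi hi'
      omega)
    have h5 := hinjI ((Finset.range r).filter (fun i => ¬ 2 * i < r)) (by
      intro i hi i' hi' hlt
      simp only [Finset.mem_filter, Finset.mem_range] at hi hi'
      omega)
    omega
  have h6 : S 0 = B.eigenspace 1 := by simp [hS]
  rw [h6] at hsum
  have h7 : 5 * finrank F W ≤ r * finrank F W := Nat.mul_le_mul_right _ hr5
  have h8 : r * finrank F W ≤ r * (2 * finrank F (B.eigenspace 1)) :=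
    Nat.mul_le_mul_left _ (h1.trans hsum)
  have h9 : r * (2 * finrank F (B.eigenspace 1)) = 2 * (r * finrank F (B.eigenspace 1)) := by ring
  omega

end Fixed

section Rep
variable {F V G : Type*} [Field F] [AddCommGroup V] [Module F V] [FiniteDimensional F V] [Group G]

/-- Hypotheses on a faithful representation, with `P` a subgroup whose commutator form mod the
central scalar subgroup `Z` has values of order dividing `r` and is non-degenerate. -/
structure XRep (ρ : G →* Module.End F V) (P Z : Subgroup G) (r : ℕ) : Prop where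
  inj : ∀ x, ρ x = 1 → x = 1
  le : Z ≤ P
  central : ∀ z ∈ Z, ∀ x, z * x = x * z
  scalar : ∀ z ∈ Z, ∃ c : F, ρ z = c • 1
  comm_mem : ∀ a ∈ P, ∀ b ∈ P, ⁅a, b⁆ ∈ Z
  comm_pow : ∀ a ∈ P, ∀ b ∈ P, ⁅a, b⁆ ^ r = 1
  pow_mem : ∀ a ∈ P, a ^ r ∈ Z
  nondeg : ∀ a ∈ P, (∀ b ∈ P, ⁅b, a⁆ = 1) → a ∈ Z

theorem rho_mul (ρ : G →* Module.End F V) (a b : G) (v : V) : ρ (a * b) v = ρ a (ρ b v) := by
  rw [map_mul]; rfl

theorem rho_inv_self (ρ : G →* Module.End F V) (a : G) (v : V) : ρ a⁻¹ (ρ a v) = v := by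
  rw [← rho_mul, inv_mul_cancel, map_one]; rfl

theorem rho_self_inv (ρ : G →* Module.End F V) (a : G) (v : V) : ρ a (ρ a⁻¹ v) = v := by
  rw [← rho_mul, mul_inv_cancel, map_one]; rfl

theorem rho_injective (ρ : G →* Module.End F V) (a : G) : Function.Injective (ρ a) :=
  Function.LeftInverse.injective (rho_inv_self ρ a)

theorem scalar_pow_eq_one [Nontrivial V] (ρ : G →* Module.End F V) {z : G} {κ : F} {r : ℕ}
    (hz : ρ z = κ • 1) (hzr : z ^ r = 1) : κ ^ r = 1 := by
  obtain ⟨v, hv⟩ := exists_ne (0 : V)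
  have h1 : (ρ z) ^ r = 1 := by rw [← map_pow, hzr, map_one]
  rw [hz, smul_pow, one_pow] at h1
  have h2 : (κ ^ r • (1 : Module.End F V)) v = (1 : Module.End F V) v := by rw [h1]
  simp only [LinearMap.smul_apply, Module.End.one_apply] at h2
  have h3 : (κ ^ r - 1) • v = 0 := by rw [sub_smul, h2, one_smul, sub_self]
  exact sub_eq_zero.mp ((smul_eq_zero.mp h3).resolve_right hv)

theorem XRep.scalar_ne_one {ρ : G →* Module.End F V} {P Z : Subgroup G} {r : ℕ}
    (H : XRep ρ P Z r) {z : G} {κ : F} (hz : ρ z = κ • 1) (hz1 : z ≠ 1) : κ ≠ 1 := by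
  rintro rfl
  apply hz1
  apply H.inj
  rw [hz, one_smul]

theorem XRep.exists_twist [Nontrivial V] {ρ : G →* Module.End F V} {P Z : Subgroup G} {r : ℕ}
    (H : XRep ρ P Z r) {s : G} (hsP : s ∈ P) (hs : s ∉ Z) :
    ∃ b ∈ P, ∃ κ : F, κ ≠ 1 ∧ κ ^ r = 1 ∧ ∀ v, ρ s (ρ b v) = κ • ρ b (ρ s v) := by
  have h1 : ∃ b ∈ P, ⁅b, s⁆ ≠ 1 := by
    by_contra hcon
    push Not at hcon
    exact hs (H.nondeg s hsP hcon)
  obtain ⟨b₀, hb₀, hne⟩ := h1
  have hz := H.comm_mem b₀ hb₀ s hsP
  obtain ⟨κ, hκ⟩ := H.scalar _ hz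
  refine ⟨b₀⁻¹, P.inv_mem hb₀, κ, H.scalar_ne_one hκ hne,
    scalar_pow_eq_one ρ hκ (H.comm_pow b₀ hb₀ s hsP), ?_⟩
  intro v
  have h2 : s * b₀⁻¹ = b₀⁻¹ * ⁅b₀, s⁆ * s := by
    simp [commutatorElement_def, mul_assoc]
  rw [← rho_mul, h2, rho_mul, rho_mul, hκ]
  simp

theorem XRep.mul_finrank_eig_le [Nontrivial V] {ρ : G →* Module.End F V} {P Z : Subgroup G} {r : ℕ}
    (H : XRep ρ P Z r) (hr : r.Prime) {s : G} (hsP : s ∈ P) (hs : s ∉ Z) (μ : F) (hμ : μ ≠ 0) :
    r * finrank F ((ρ s).eigenspace μ) ≤ finrank F V := by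
  obtain ⟨b, _, κ, hκ1, hκr, hb⟩ := H.exists_twist hsP hs
  have := mul_finrank_le_of_twist hr (ρ s) (ρ b) (rho_injective ρ b) ⊤ (fun _ _ => trivial) κ hκ1 hκr
    (fun v _ => hb v) μ hμ
  rwa [top_inf_eq, finrank_top] at this

theorem XRep.dvd_finrank [Nontrivial V] {ρ : G →* Module.End F V} {P Z : Subgroup G} {r : ℕ}
    (H : XRep ρ P Z r) (hr : r.Prime) {s : G} (hsP : s ∈ P) (hs : s ∉ Z) :
    r ∣ finrank F V := by
  haveI := Fact.mk hr
  obtain ⟨b, _, κ, hκ1, hκr, hb⟩ := H.exists_twist hsP hs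
  have h1 : ρ s * ρ b = κ • (ρ b * ρ s) := LinearMap.ext hb
  have hdet : ∀ a : G, LinearMap.det (ρ a) ≠ 0 := by
    intro a h0
    have : LinearMap.det (ρ a) * LinearMap.det (ρ a⁻¹) = 1 := by
      rw [← map_mul, ← map_mul, mul_inv_cancel, map_one, map_one]
    rw [h0, zero_mul] at this
    exact zero_ne_one this
  have h2 := congrArg LinearMap.det h1
  rw [LinearMap.det_smul, map_mul, map_mul, mul_comm (LinearMap.det (ρ b))] at h2
  have h3 : κ ^ finrank F V = 1 := by
    have h4 : LinearMap.det (ρ s) * LinearMap.det (ρ b) ≠ 0 := mul_ne_zero (hdet s) (hdet b)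
    exact (mul_right_cancel₀ h4 (by rw [one_mul]; exact h2)).symm
  have h5 : orderOf κ = r := orderOf_eq_prime hκr hκ1
  rw [← h5]
  exact orderOf_dvd_of_pow_eq_one h3

section Fix
variable {ρ : G →* Module.End F V} {g y a : G} {c : F} {w : V}

theorem rho_inv_eig (hc : c ≠ 0) (hw : ρ g w = c • w) : ρ g⁻¹ w = c⁻¹ • w := by
  have h1 : ρ g⁻¹ (c • w) = w := by rw [← hw]; exact rho_inv_self ρ g w
  rw [map_smul] at h1
  rw [← h1, smul_smul, inv_mul_cancel₀ hc, one_smul, h1]
  
theorem fix_of_mem (hc : c ≠ 0) (hw : ρ g w = c • w) (hw' : ρ g (ρ y w) = c • ρ y w) :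
    ρ (y⁻¹ * (g * y * g⁻¹)) w = w := by
  rw [rho_mul, rho_mul, rho_mul, rho_inv_eig hc hw, map_smul, map_smul, hw', smul_smul,
    inv_mul_cancel₀ hc, one_smul, rho_inv_self]

theorem fix_conj (hc : c ≠ 0) (hw : ρ g w = c • w) (ha : ρ a w = w) : ρ (g * a * g⁻¹) w = w := by
  rw [rho_mul, rho_mul, rho_inv_eig hc hw, map_smul, ha, map_smul, hw, smul_smul,
    inv_mul_cancel₀ hc, one_smul]

theorem fix_comm {a b : G} (ha : ρ a w = w) (hb : ρ b w = w) : ρ ⁅a, b⁆ w = w := by
  have ha' : ρ a⁻¹ w = w := by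
    conv_lhs => rw [← ha]
    exact rho_inv_self ρ a w
  have hb' : ρ b⁻¹ w = w := by
    conv_lhs => rw [← hb]
    exact rho_inv_self ρ b w
  rw [commutatorElement_def, rho_mul, rho_mul, rho_mul, hb', ha', hb, ha]

end Fix

/-- The common part of the eigenspace and its translate. -/
theorem two_mul_finrank_le_add_inf (ρ : G →* Module.End F V) (g y : G) (c : F) :
    2 * finrank F ((ρ g).eigenspace c) ≤ finrank F V +
      finrank F ↥((ρ g).eigenspace c ⊓ ((ρ g).eigenspace c).comap (ρ y)) := by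
  set W := (ρ g).eigenspace c
  have h1 : finrank F W ≤ finrank F ↥(W.comap (ρ y)) := by
    apply finrank_le_of_injective_mapsTo (ρ y⁻¹) (rho_injective ρ _)
    intro v hv
    show ρ y (ρ y⁻¹ v) ∈ W
    rwa [rho_self_inv]
  have h2 := Submodule.finrank_sup_add_finrank_inf_eq W (W.comap (ρ y))
  have h3 : finrank F ↥(W ⊔ W.comap (ρ y)) ≤ finrank F V := Submodule.finrank_le _
  omega

theorem inf_le_eig_of_fix (ρ : G →* Module.End F V) (g y : G) {c : F} (hc : c ≠ 0) :
    (ρ g).eigenspace c ⊓ ((ρ g).eigenspace c).comap (ρ y) ≤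
      (ρ (y⁻¹ * (g * y * g⁻¹))).eigenspace 1 := by
  rintro w ⟨hw1, hw2⟩
  apply Module.End.mem_eigenspace_iff.mpr
  rw [one_smul]
  exact fix_of_mem hc (Module.End.mem_eigenspace_iff.mp hw1) (Module.End.mem_eigenspace_iff.mp hw2)

/-- The non-commuting image makes the two translates disjoint. -/
theorem XRep.inf_eq_bot_of_comm_ne {ρ : G →* Module.End F V} {P Z : Subgroup G} {r : ℕ}
    (H : XRep ρ P Z r) (g y : G) {c : F} (hc : c ≠ 0) {s : G} (hs : s = y⁻¹ * (g * y * g⁻¹))
    (hsP : s ∈ P) (hfP : g * s * g⁻¹ ∈ P) (hne : ⁅s, g * s * g⁻¹⁆ ≠ 1) :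
    (ρ g).eigenspace c ⊓ ((ρ g).eigenspace c).comap (ρ y) = ⊥ := by
  rw [eq_bot_iff]
  rintro w ⟨hw1, hw2⟩
  have hw1' := Module.End.mem_eigenspace_iff.mp hw1
  have h1 : ρ s w = w := by
    rw [hs]
    exact fix_of_mem hc hw1' (Module.End.mem_eigenspace_iff.mp hw2)
  have h2 : ρ (g * s * g⁻¹) w = w := fix_conj hc hw1' h1
  have h3 := fix_comm h1 h2
  obtain ⟨κ, hκ⟩ := H.scalar _ (H.comm_mem s hsP _ hfP)
  have hκ1 := H.scalar_ne_one hκ hne
  rw [hκ] at h3
  simp only [LinearMap.smul_apply, Module.End.one_apply] at h3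
  have h4 : (κ - 1) • w = 0 := by rw [sub_smul, h3, one_smul, sub_self]
  have h5 := (smul_eq_zero.mp h4).resolve_left (sub_ne_zero.mpr hκ1)
  simp [h5]

/-- The case `ϖ = r ≥ 5`, given the fixed step. -/
theorem XRep.fixed_case [Nontrivial V] {ρ : G →* Module.End F V} {P Z : Subgroup G} {r : ℕ}
    (H : XRep ρ P Z r) (hr : r.Prime) (hr5 : 5 ≤ r) (g y : G) (hg : g ^ r = 1) {c : F} (hc : c ≠ 0)
    (hyP : y ∈ P) {s : G} (hs : s = y⁻¹ * (g * y * g⁻¹)) (hsP : s ∈ P) (hsZ : s ∉ Z)
    (hfix : s⁻¹ * (g * s * g⁻¹) ∈ Z) :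
    2 * finrank F ((ρ g).eigenspace c) ≤ finrank F V := by
  obtain ⟨l, hl⟩ := H.scalar _ hfix
  by_cases hl1 : l = 1
  · -- `g` commutes with `s`
    have h1 : s⁻¹ * (g * s * g⁻¹) = 1 := H.inj _ (by rw [hl, hl1, one_smul])
    have hgs : g * s = s * g := by
      have h2 : g * s * g⁻¹ = s := by
        have := mul_eq_one_iff_eq_inv.mp h1
        exact (inv_inj.mp this).symm
      calc g * s = g * s * g⁻¹ * g := by group
        _ = s * g := by rw [h2]
    have hgy : g * y = y * s * g := by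
      rw [hs]; group
    have hpow : ∀ j : ℕ, g ^ j * y = y * s ^ j * g ^ j := by
      intro j
      induction j with
      | zero => simp
      | succ j ih =>
        have hcomm : Commute g (s ^ j) := (show Commute g s from hgs).pow_right j
        calc g ^ (j + 1) * y = g * (g ^ j * y) := by rw [pow_succ']; group
          _ = g * (y * s ^ j * g ^ j) := by rw [ih]
          _ = (g * y) * s ^ j * g ^ j := by group
          _ = y * s * g * s ^ j * g ^ j := by rw [hgy]
          _ = y * s * (g * s ^ j) * g ^ j := by group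
          _ = y * s * (s ^ j * g) * g ^ j := by rw [hcomm.eq]
          _ = y * (s * s ^ j) * (g * g ^ j) := by group
          _ = y * s ^ (j + 1) * g ^ (j + 1) := by rw [← pow_succ', ← pow_succ']
    have hsr : s ^ r = 1 := by
      have := hpow r
      rw [hg, one_mul, mul_one] at this
      exact (mul_eq_left.mp this.symm)
    have hBr : (ρ s) ^ r = 1 := by rw [← map_pow, hsr, map_one]
    have hAB : ∀ v, ρ g (ρ s v) = ρ s (ρ g v) := by
      intro v
      rw [← rho_mul, hgs, rho_mul]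
    have hAX : ∀ v, ρ g (ρ y v) = ρ y (ρ s (ρ g v)) := by
      intro v
      rw [← rho_mul, hgy, rho_mul, rho_mul]
    have h0 : r * finrank F ((ρ s).eigenspace 1) ≤ finrank F V :=
      H.mul_finrank_eig_le hr hsP hsZ 1 one_ne_zero
    have hz := H.comm_mem y hyP s hsP
    obtain ⟨ε, hε⟩ := H.scalar _ hz
    have hεr : ε ^ r = 1 := scalar_pow_eq_one ρ hε (H.comm_pow y hyP s hsP)
    by_cases hε1 : ε = 1
    · have h2 : ⁅y, s⁆ = 1 := H.inj _ (by rw [hε, hε1, one_smul])
      have hys : y * s = s * y := commutatorElement_eq_one_iff_mul_comm.mp h2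
      obtain ⟨b, _, κ, hκ1, hκr, _⟩ := H.exists_twist hsP hsZ
      refine two_mul_finrank_le_commuting hr hr5 (ρ g) (ρ s) (ρ y) (rho_injective ρ y) hAB ?_ hAX
        hBr κ hκ1 hκr h0 c hc
      intro v
      rw [← rho_mul, hys, rho_mul]
    · refine two_mul_finrank_le_noncommuting hr hr5 (ρ g) (ρ s) (ρ y) (rho_injective ρ y) hAB hAX
        hBr ε hε1 hεr ?_ h0 c hc
      intro v
      have h2 : y * s = ⁅y, s⁆ * s * y := by
        simp [commutatorElement_def]
      rw [← rho_mul, h2, rho_mul, rho_mul, hε]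
      simp
  · -- the translates are disjoint
    have h1 : (ρ g).eigenspace c ⊓ ((ρ g).eigenspace c).comap (ρ y) = ⊥ := by
      rw [eq_bot_iff]
      rintro w ⟨hw1, hw2⟩
      have hw1' := Module.End.mem_eigenspace_iff.mp hw1
      have h1 : ρ s w = w := by
        rw [hs]
        exact fix_of_mem hc hw1' (Module.End.mem_eigenspace_iff.mp hw2)
      have h2 : ρ (g * s * g⁻¹) w = w := fix_conj hc hw1' h1
      have h3 : g * s * g⁻¹ = s * (s⁻¹ * (g * s * g⁻¹)) := by group
      rw [h3, rho_mul, hl] at h2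
      simp only [LinearMap.smul_apply, Module.End.one_apply, map_smul] at h2
      rw [h1] at h2
      have h4 : (l - 1) • w = 0 := by rw [sub_smul, h2, one_smul, sub_self]
      have h5 := (smul_eq_zero.mp h4).resolve_left (sub_ne_zero.mpr hl1)
      simp [h5]
    have h2 := two_mul_finrank_le_add_inf ρ g y c
    rw [h1, finrank_bot] at h2
    simpa using h2

/-- The case where all values of `y ↦ y⁻¹ f y` are central. -/
theorem XRep.central_case [Nontrivial V] {ρ : G →* Module.End F V} {P Z : Subgroup G} {r : ℕ}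
    (H : XRep ρ P Z r) (hr : r.Prime) (g a₀ : G) (ha₀ : a₀ ∈ P) (hgn : g * a₀ ≠ a₀ * g) {c : F}
    (hc : c ≠ 0) (hz : a₀⁻¹ * (g * a₀ * g⁻¹) ∈ Z) :
    2 * finrank F ((ρ g).eigenspace c) ≤ finrank F V := by
  set z := a₀⁻¹ * (g * a₀ * g⁻¹) with hzdef
  have hz1 : z ≠ 1 := by
    intro h
    apply hgn
    have h2 : g * a₀ * g⁻¹ = a₀ := by
      have := mul_eq_one_iff_eq_inv.mp h
      exact (inv_inj.mp this).symm
    calc g * a₀ = g * a₀ * g⁻¹ * g := by group
      _ = a₀ * g := by rw [h2]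
  have hconj : g * a₀ * g⁻¹ = a₀ * z := by rw [hzdef]; group
  obtain ⟨κ, hκ⟩ := H.scalar _ hz
  have hκ1 := H.scalar_ne_one hκ hz1
  have hzr : z ^ r = 1 := by
    have h1 : ∀ j : ℕ, g * a₀ ^ j * g⁻¹ = a₀ ^ j * z ^ j := by
      intro j
      induction j with
      | zero => simp
      | succ j ih =>
        calc g * a₀ ^ (j + 1) * g⁻¹ = (g * a₀ ^ j * g⁻¹) * (g * a₀ * g⁻¹) := by
              rw [pow_succ]; group
          _ = a₀ ^ j * z ^ j * (a₀ * z) := by rw [ih, hconj]
          _ = a₀ ^ j * (z ^ j * a₀) * z := by group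
          _ = a₀ ^ j * (a₀ * z ^ j) * z := by
              have : Commute (z ^ j) a₀ := (show Commute z a₀ from H.central z hz a₀).pow_left j
              rw [this.eq]
          _ = a₀ ^ (j + 1) * z ^ (j + 1) := by rw [pow_succ, pow_succ]; group
    have h2 := h1 r
    have h3 : g * a₀ ^ r * g⁻¹ = a₀ ^ r := by
      rw [← H.central _ (H.pow_mem a₀ ha₀) g]
      group
    rw [h3] at h2
    exact (mul_eq_left.mp h2.symm)
  have hκr : κ ^ r = 1 := scalar_pow_eq_one ρ hκ hzr
  have hgz : g * a₀ = a₀ * z * g := by rw [← hconj]; group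
  have h1 := mul_finrank_le_of_twist hr (ρ g) (ρ a₀) (rho_injective ρ a₀) ⊤ (fun _ _ => trivial) κ hκ1
    hκr (fun v _ => by
      rw [← rho_mul, hgz, rho_mul, rho_mul, hκ]
      simp) c hc
  rw [top_inf_eq, finrank_top] at h1
  have h2 : 2 * finrank F ((ρ g).eigenspace c) ≤ r * finrank F ((ρ g).eigenspace c) :=
    Nat.mul_le_mul_right _ hr.two_le
  omega

/-- The abstract eigenspace theorem. -/
theorem main_abstract (ρ : G →* Module.End F V) (P Z : Subgroup G) {r ϖ : ℕ} (hr : r.Prime)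
    (hϖ : ϖ.Prime) (H : XRep ρ P Z r) (g : G) (hgP : ∀ a ∈ P, g * a * g⁻¹ ∈ P) (hgϖ : g ^ ϖ = 1)
    (a₀ : G) (ha₀ : a₀ ∈ P) (hgn : g * a₀ ≠ a₀ * g) (c : F) :
    (ϖ = 2 → 4 * finrank F ((ρ g).eigenspace c) ≤ 3 * finrank F V) ∧
    (ϖ = 3 → 3 * finrank F ((ρ g).eigenspace c) ≤ 2 * finrank F V) ∧
    (3 < ϖ → 2 * finrank F ((ρ g).eigenspace c) ≤ finrank F V) ∧
    (ϖ = 3 → ¬ 3 ∣ finrank F V → 2 * finrank F ((ρ g).eigenspace c) ≤ finrank F V) := by
  haveI : Nontrivial V := by
    by_contra hV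
    rw [not_nontrivial_iff_subsingleton] at hV
    have h0 : ∀ x, ρ x = 1 := fun x => LinearMap.ext (fun v => Subsingleton.elim _ _)
    apply hgn
    have h1 := H.inj (g * a₀ * (a₀ * g)⁻¹) (h0 _)
    exact mul_inv_eq_one.mp h1
  have ha₀Z : a₀ ∉ Z := fun h => hgn (H.central a₀ h g).symm
  have hrn : r ∣ finrank F V := H.dvd_finrank hr ha₀ ha₀Z
  have hfinal : 2 * finrank F ((ρ g).eigenspace c) ≤ finrank F V ∨
      (ϖ = 2 ∧ 4 * finrank F ((ρ g).eigenspace c) ≤ 3 * finrank F V) ∨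
      (ϖ = 3 ∧ r = 3 ∧ 3 * finrank F ((ρ g).eigenspace c) ≤ 2 * finrank F V) := by
    by_cases hc : c = 0
    · left
      have h1 : (ρ g).eigenspace c = ⊥ := by
        rw [eq_bot_iff]
        intro v hv
        have h2 := Module.End.mem_eigenspace_iff.mp hv
        rw [hc, zero_smul] at h2
        have h3 : v = 0 := rho_injective ρ g (by rw [h2, map_zero])
        simp [h3]
      rw [h1, finrank_bot]
      simp
    by_cases hA : ∀ y ∈ P, y⁻¹ * (g * y * g⁻¹) ∈ Z
    · left
      exact H.central_case hr g a₀ ha₀ hgn hc (hA a₀ ha₀)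
    push Not at hA
    obtain ⟨y₀, hy₀, hy₀Z⟩ := hA
    have hDmem : ∀ y ∈ P, y⁻¹ * (g * y * g⁻¹) ∈ P := fun y hy =>
      P.mul_mem (P.inv_mem hy) (hgP y hy)
    have hm : r * finrank F ↥((ρ g).eigenspace c ⊓ ((ρ g).eigenspace c).comap (ρ y₀)) ≤
        finrank F V := by
      refine le_trans (Nat.mul_le_mul_left r (Submodule.finrank_mono (inf_le_eig_of_fix ρ g y₀ hc))) ?_
      exact H.mul_finrank_eig_le hr (hDmem y₀ hy₀) hy₀Z 1 one_ne_zero
    have hk := two_mul_finrank_le_add_inf ρ g y₀ c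
    -- the subgroup-level data
    let N : Subgroup P := Z.subgroupOf P
    let fP : P →* P :=
      { toFun := fun a => ⟨g * a * g⁻¹, hgP a a.2⟩
        map_one' := by ext; simp
        map_mul' := by
          intro a b
          ext
          simp only [Subgroup.coe_mul]
          group }
    have hfPcoe : ∀ a : P, ((fP a : P) : G) = g * a * g⁻¹ := fun _ => rfl
    have hN : ∀ z ∈ N, ∀ x, z * x = x * z := by
      intro z hz x
      exact Subtype.ext (H.central z (Subgroup.mem_subgroupOf.mp hz) x)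
    have hcomm : ∀ a b : P, ⁅a, b⁆ ∈ N := fun a b =>
      Subgroup.mem_subgroupOf.mpr (H.comm_mem a a.2 b b.2)
    have hpow : ∀ a : P, a ^ r ∈ N := fun a =>
      Subgroup.mem_subgroupOf.mpr (H.pow_mem a a.2)
    have hnd : ∀ a : P, (∀ b : P, ⁅b, a⁆ = 1) → a ∈ N := by
      intro a ha
      apply Subgroup.mem_subgroupOf.mpr
      apply H.nondeg a a.2
      intro b hb
      exact congrArg Subtype.val (ha ⟨b, hb⟩)
    have hfN : ∀ z ∈ N, fP z = z := by
      intro z hz
      apply Subtype.ext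
      rw [hfPcoe, ← H.central z (Subgroup.mem_subgroupOf.mp hz) g]
      group
    have hit : ∀ (k : ℕ) (a : P), (((fP^[k] a : P)) : G) = g ^ k * a * (g ^ k)⁻¹ := by
      intro k a
      induction k with
      | zero => simp
      | succ k ih =>
        rw [Function.iterate_succ_apply', hfPcoe, ih, pow_succ']
        group
    have hfϖ : ∀ a, fP^[ϖ] a = a := by
      intro a
      apply Subtype.ext
      rw [hit, hgϖ]
      simp
    let y₀' : P := ⟨y₀, hy₀⟩
    have hy₀' : y₀'⁻¹ * fP y₀' ∉ N := fun h => hy₀Z (Subgroup.mem_subgroupOf.mp h)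
    rcases eq_or_ne ϖ 2 with rfl | h2
    · right; left
      refine ⟨rfl, ?_⟩
      have : 2 * finrank F ↥((ρ g).eigenspace c ⊓ ((ρ g).eigenspace c).comap (ρ y₀)) ≤ r *
          finrank F ↥((ρ g).eigenspace c ⊓ ((ρ g).eigenspace c).comap (ρ y₀)) :=
        Nat.mul_le_mul_right _ hr.two_le
      omega
    by_cases hϖr : ϖ = r
    · subst hϖr
      rcases eq_or_ne ϖ 3 with rfl | h3
      · right; right
        refine ⟨rfl, rfl, ?_⟩
        omega
      · left
        have h5 : 5 ≤ ϖ := by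
          have h51 := hϖ.two_le
          have h52 : ϖ ≠ 4 := by
            rintro rfl
            exact absurd hϖ (by norm_num)
          omega
        obtain ⟨y, hy1, hy2⟩ := exists_fixed_step N hN hcomm hpow fP hfN hfϖ hϖ y₀' hy₀'
        exact H.fixed_case hϖ h5 g y hgϖ hc y.2 rfl (hDmem y y.2)
          (fun h => hy1 (Subgroup.mem_subgroupOf.mpr h)) (Subgroup.mem_subgroupOf.mp hy2)
    · left
      obtain ⟨y, hy⟩ := exists_noncomm_step N hN hcomm hpow hnd fP hfN hfϖ hr hϖ h2 hϖr y₀' hy₀'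
      have h3 : (ρ g).eigenspace c ⊓ ((ρ g).eigenspace c).comap (ρ (y : G)) = ⊥ := by
        refine H.inf_eq_bot_of_comm_ne g y hc rfl (hDmem y y.2) (hgP _ (hDmem y y.2)) ?_
        intro h
        apply hy
        apply Subtype.ext
        exact h
      have h4 := two_mul_finrank_le_add_inf ρ g (y : G) c
      rw [h3, finrank_bot] at h4
      simpa using h4
  rcases hfinal with h | ⟨h1, h⟩ | ⟨h1, h2, h⟩
  · exact ⟨fun _ => by omega, fun _ => by omega, fun _ => h, fun _ _ => h⟩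
  · exact ⟨fun _ => h, fun h' => by omega, fun h' => by omega, fun h' => by omega⟩
  · subst h2
    exact ⟨fun h' => by omega, fun _ => h, fun h' => by omega, fun _ h3 => absurd hrn h3⟩

end Rep

end Cfsg.Agent.XSpEig
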