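-- Shared library: the diagram Y₄₃₂ with the spider relation, as a group presented by words,
-- and the general tools for its permutation representations on tables.
import Mathlib
import Cfsg.Agent.Lib.CoxCert

set_option autoImplicit false
set_option linter.unusedVariables false

namespace Cfsg.Agent.Lib.Y555Base

open Cfsg.Agent.Lib.CoxCert

/-- Adjacency of the letters `a b1 c1 d1 e1 b2 c2 d2 b3 c3`: bit `10 g + h`. -/
def adjM : ℕ := 317532904744924014103742125346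

/-- The relator of two letters. -/
noncomputable def coxW (g h : ℕ) : List ℕ :=
  Bool.rec (Bool.rec [g, h, g, h] [g, g] (Nat.beq g h)) [g, h, g, h, g, h]
    (Nat.beq (Nat.land (Nat.shiftRight adjM (Nat.add (Nat.mul 10 g) h)) 1) 1)

/-- The spider word. -/
def spW : List ℕ := [0, 1, 2, 0, 5, 6, 0, 8, 9]
/-- The spider relator. -/
def sp10 : List ℕ :=
  [0, 1, 2, 0, 5, 6, 0, 8, 9, 0, 1, 2, 0, 5, 6, 0, 8, 9, 0, 1, 2, 0, 5, 6, 0, 8, 9, 0, 1, 2, 0, 5, 6, 0, 8, 9, 0, 1, 2, 0, 5, 6, 0, 8, 9, 0, 1, 2, 0, 5, 6, 0, 8, 9, 0, 1, 2, 0, 5, 6, 0, 8, 9, 0, 1, 2, 0, 5, 6, 0, 8, 9, 0, 1, 2, 0, 5, 6, 0, 8, 9, 0, 1, 2, 0, 5, 6, 0, 8, 9]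

/-- The relators. -/
def R4 : Set (List ℕ) :=
  {w | ∃ g h, g < 10 ∧ h < 10 ∧ w = coxW g h} ∪ {w | ∃ n, 10 ≤ n ∧ w = [n]} ∪ {sp10}

/-- The group. -/
abbrev K4 : Type := PresG R4
/-- Its letters. -/
noncomputable def g4 (n : ℕ) : K4 := pg R4 n

theorem g4_big {n : ℕ} (h : 10 ≤ n) : g4 n = 1 := by
  have := pg_rel (R := R4) (w := [n]) (Or.inl (Or.inr ⟨n, h, rfl⟩))
  show pg R4 n = 1
  simpa using this

theorem g4_cox {g h : ℕ} (hg : g < 10) (hh : h < 10) : ev g4 (coxW g h) = 1 :=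
  pg_rel (R := R4) (Or.inl (Or.inl ⟨g, h, hg, hh, rfl⟩))

theorem coxW_self (g : ℕ) (hg : g < 10) : coxW g g = [g, g] := by
  interval_cases g <;> rfl

theorem g4_inv (g : ℕ) : g4 g * g4 g = 1 := by
  by_cases hg : g < 10
  · have := g4_cox hg hg
    rw [coxW_self g hg] at this
    simpa using this
  · rw [g4_big (by omega)]; simp

theorem g4_sp : ev g4 sp10 = 1 := pg_rel (R := R4) (Or.inr rfl)

theorem coxW_cases (g h : ℕ) : coxW g h = [g, h, g, h, g, h] ∨ coxW g h = [g, g] ∨ coxW g h = [g, h, g, h] := by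
  unfold coxW
  cases Nat.beq (Nat.land (Nat.shiftRight adjM (Nat.add (Nat.mul 10 g) h)) 1) 1
  · cases Nat.beq g h
    · exact Or.inr (Or.inr rfl)
    · exact Or.inr (Or.inl rfl)
  · exact Or.inl rfl

/-- The values of the sign on letters. -/
def sgnF (n : ℕ) : ℤˣ := if n < 10 then -1 else 1

theorem sgnF_ev (w : List ℕ) (h : ∀ l ∈ w, l < 10) : ev sgnF w = (-1) ^ w.length := by
  induction w with
  | nil => simp
  | cons a t ih =>
    rw [ev_cons, ih (fun l hl => h l (List.mem_cons_of_mem _ hl)), List.length_cons, pow_succ]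
    simp [sgnF, h a List.mem_cons_self]

/-- The sign. -/
noncomputable def sgn4 : K4 →* ℤˣ :=
  liftG R4 sgnF (by
    rintro w ((⟨g, h, hg, hh, rfl⟩ | ⟨n, hn, rfl⟩) | rfl)
    · rw [sgnF_ev]
      · rcases coxW_cases g h with h1 | h1 | h1 <;> rw [h1]
        · exact Even.neg_one_pow ⟨3, rfl⟩
        · exact Even.neg_one_pow ⟨1, rfl⟩
        · exact Even.neg_one_pow ⟨2, rfl⟩
      · rcases coxW_cases g h with h1 | h1 | h1 <;> rw [h1] <;> simp <;> omega
    · simp [sgnF]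
      omega
    · rw [sgnF_ev]
      · exact Even.neg_one_pow ⟨45, rfl⟩
      · decide)

theorem sgn4_g4 {n : ℕ} (h : n < 10) : sgn4 (g4 n) = -1 := by
  simp [sgn4, g4, sgnF, h]

/-- The parity of a word. -/
theorem sgn4_ev (w : List ℕ) (h : ∀ l ∈ w, l < 10) : sgn4 (ev g4 w) = (-1) ^ w.length := by
  induction w with
  | nil => simp
  | cons a t ih =>
    rw [ev_cons, map_mul, ih (fun l hl => h l (List.mem_cons_of_mem _ hl)),
      sgn4_g4 (h a List.mem_cons_self), List.length_cons, pow_succ]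

end Cfsg.Agent.Lib.Y555Base
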