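-- Shared library: the permutation representation of the group of `Y555Base` on 31671 points.
import Mathlib
import Cfsg.Agent.Lib.Y555Base
import Cfsg.Agent.Lib.Y555T0

set_option autoImplicit false
set_option linter.unusedVariables false

namespace Cfsg.Agent.Lib.Y555Rho

open Cfsg.Agent.Lib.CoxCert Cfsg.Agent.Lib.Y555Base Cfsg.Agent.Lib.Y555T0

/-- The number of points. -/
def m0 : ℕ := 31671

/-- The ten letters. -/
def l10 : List ℕ := [0, 1, 2, 3, 4, 5, 6, 7, 8, 9]

/-- The letters commuting with a letter, and later in the order. -/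
def comL : ℕ → List ℕ
  | 0 => [2, 3, 4, 6, 7, 9]
  | 1 => [3, 4, 5, 6, 7, 8, 9]
  | 2 => [4, 5, 6, 7, 8, 9]
  | 3 => [5, 6, 7, 8, 9]
  | 4 => [5, 6, 7, 8, 9]
  | 5 => [7, 8, 9]
  | 6 => [8, 9]
  | 7 => [8, 9]
  | 8 => []
  | 9 => []
  | _ => []

/-- The letters not commuting with a letter, and later in the order. -/
def brL : ℕ → List ℕ
  | 0 => [1, 5, 8]
  | 1 => [2]
  | 2 => [3]
  | 3 => [4]
  | 4 => []
  | 5 => [6]
  | 6 => [7]
  | 7 => []
  | 8 => [9]
  | 9 => []
  | _ => []

/-- The check at a point. -/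
noncomputable def ptOK (R x g : ℕ) : Bool :=
  wl (tOf R g) fun y => wl (row0 y) fun Ry =>
    Bool.rec false
      (Bool.rec false
        (Bool.rec false
          (lall (brL g) fun h =>
            wl (tOf Ry h) fun p => wl (tOf R h) fun q => wl (tOf (row0 q) g) fun r =>
            Nat.beq (tOf (row0 p) g) (tOf (row0 r) h))
          (lall (comL g) fun h => wl (tOf R h) fun q => Nat.beq (tOf Ry h) (tOf (row0 q) g)))
        (Nat.beq (tOf Ry g) x))
      (Nat.blt y m0)

/-- The check at a point. -/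
noncomputable def relOK (x : ℕ) : Bool :=
  Bool.rec
    (wl (row0 x) fun R => Bool.rec false (Nat.beq (walkT row0 sp10 x) x) (lall l10 fun g => ptOK R x g))
    true (Nat.ble m0 x)

theorem relOK_p0 : allR relOK 12 0 = true := by decide +kernel
theorem relOK_p1 : allR relOK 12 4096 = true := by decide +kernel
theorem relOK_p2 : allR relOK 12 8192 = true := by decide +kernel
theorem relOK_p3 : allR relOK 12 12288 = true := by decide +kernel
theorem relOK_p4 : allR relOK 12 16384 = true := by decide +kernel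
theorem relOK_p5 : allR relOK 12 20480 = true := by decide +kernel
theorem relOK_p6 : allR relOK 12 24576 = true := by decide +kernel
theorem relOK_p7 : allR relOK 12 28672 = true := by decide +kernel

theorem relOK_all (x : ℕ) (hx : x < m0) : relOK x = true := by
  have hx' : x < 32768 := lt_of_lt_of_le hx (by decide)
  by_cases h0 : x < 4096
  · exact allR_spec _ _ _ relOK_p0 x (by omega) (by omega)
  by_cases h1 : x < 8192
  · exact allR_spec _ _ _ relOK_p1 x (by omega) (by omega)
  by_cases h2 : x < 12288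
  · exact allR_spec _ _ _ relOK_p2 x (by omega) (by omega)
  by_cases h3 : x < 16384
  · exact allR_spec _ _ _ relOK_p3 x (by omega) (by omega)
  by_cases h4 : x < 20480
  · exact allR_spec _ _ _ relOK_p4 x (by omega) (by omega)
  by_cases h5 : x < 24576
  · exact allR_spec _ _ _ relOK_p5 x (by omega) (by omega)
  by_cases h6 : x < 28672
  · exact allR_spec _ _ _ relOK_p6 x (by omega) (by omega)
  · exact allR_spec _ _ _ relOK_p7 x (by omega) (by norm_num; omega)

theorem relOK_spec (x : ℕ) (hx : x < m0) :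
    walkT row0 sp10 x = x ∧ ∀ g ∈ l10, ptOK (row0 x) x g = true := by
  have h := relOK_all x hx
  unfold relOK at h
  have hb : Nat.ble m0 x = false := by
    cases h9 : Nat.ble m0 x
    · rfl
    · have := Nat.le_of_ble_eq_true h9
      omega
  rw [hb] at h
  have h' : (wl (row0 x) fun R =>
    (Bool.rec false (Nat.beq (walkT row0 sp10 x) x) (lall l10 fun g => ptOK R x g) : Bool)) = true := h
  rw [wl_eq] at h'
  cases h2 : lall l10 fun g => ptOK (row0 x) x g
  · rw [h2] at h'; exact absurd h' (by simp)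
  · rw [h2] at h'
    exact ⟨Nat.eq_of_beq_eq_true h', lall_spec _ _ h2⟩

/-- The shorthand for a step. -/
noncomputable abbrev tr (x g : ℕ) : ℕ := tOf (row0 x) g

theorem ptOK_spec (x g : ℕ) (hx : x < m0) (hg : g ∈ l10) :
    tr x g < m0 ∧ tr (tr x g) g = x ∧ (∀ h ∈ comL g, tr (tr x g) h = tr (tr x h) g) ∧
      ∀ h ∈ brL g, tr (tr (tr x g) h) g = tr (tr (tr x h) g) h := by
  have h := (relOK_spec x hx).2 g hg
  unfold ptOK at h
  rw [wl_eq, wl_eq] at h
  cases h1 : Nat.blt (tOf (row0 x) g) m0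
  · rw [h1] at h; exact absurd h (by simp)
  rw [h1] at h
  have h' : (Bool.rec false
        (Bool.rec false
          (lall (brL g) fun h =>
            wl (tOf (row0 (tOf (row0 x) g)) h) fun p => wl (tOf (row0 x) h) fun q => wl (tOf (row0 q) g) fun r =>
            Nat.beq (tOf (row0 p) g) (tOf (row0 r) h))
          (lall (comL g) fun h => wl (tOf (row0 x) h) fun q =>
            Nat.beq (tOf (row0 (tOf (row0 x) g)) h) (tOf (row0 q) g)))
        (Nat.beq (tOf (row0 (tOf (row0 x) g)) g) x) : Bool) = true := h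
  cases h2 : Nat.beq (tOf (row0 (tOf (row0 x) g)) g) x
  · rw [h2] at h'; exact absurd h' (by simp)
  rw [h2] at h'
  have h'' : (Bool.rec false
          (lall (brL g) fun h =>
            wl (tOf (row0 (tOf (row0 x) g)) h) fun p => wl (tOf (row0 x) h) fun q => wl (tOf (row0 q) g) fun r =>
            Nat.beq (tOf (row0 p) g) (tOf (row0 r) h))
          (lall (comL g) fun h => wl (tOf (row0 x) h) fun q =>
            Nat.beq (tOf (row0 (tOf (row0 x) g)) h) (tOf (row0 q) g)) : Bool) = true := h'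
  cases h3 : lall (comL g) fun h => wl (tOf (row0 x) h) fun q =>
            Nat.beq (tOf (row0 (tOf (row0 x) g)) h) (tOf (row0 q) g)
  · rw [h3] at h''; exact absurd h'' (by simp)
  rw [h3] at h''
  refine ⟨by simpa [Nat.blt_eq] using h1, Nat.eq_of_beq_eq_true h2, ?_, ?_⟩
  · intro k hk
    have := lall_spec _ _ h3 k hk
    simp only [wl_eq] at this
    exact Nat.eq_of_beq_eq_true this
  · intro k hk
    have := lall_spec _ _ h'' k hk
    simp only [wl_eq] at this
    exact Nat.eq_of_beq_eq_true this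

/-- The action of a letter. -/
noncomputable def lact (g x : ℕ) : ℕ := if g < 10 ∧ x < m0 then tr x g else x

theorem mem_l10 {g : ℕ} (hg : g < 10) : g ∈ l10 := by
  interval_cases g <;> decide

theorem lact_lt {g x : ℕ} (hg : g < 10) (hx : x < m0) : lact g x = tr x g := by
  simp [lact, hg, hx]

theorem lact_big {g x : ℕ} (hx : m0 ≤ x) : lact g x = x := by
  simp only [lact]
  rw [if_neg]
  omega

theorem lact_big' {g x : ℕ} (hg : 10 ≤ g) : lact g x = x := by
  simp only [lact]
  rw [if_neg]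
  omega

theorem lact_inv (g : ℕ) : Function.Involutive (lact g) := by
  intro x
  by_cases hg : g < 10
  · by_cases hx : x < m0
    · obtain ⟨h1, h2, -, -⟩ := ptOK_spec x g hx (mem_l10 hg)
      rw [lact_lt hg hx, lact_lt hg h1, h2]
    · have hx' : m0 ≤ x := by omega
      simp only [lact_big hx']
  · have hg' : 10 ≤ g := by omega
    simp only [lact_big' hg']

/-- The permutation of a letter. -/
noncomputable def P4 (g : ℕ) : Equiv.Perm ℕ := (lact_inv g).toPerm

theorem P4_apply (g x : ℕ) : P4 g x = lact g x := rfl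

theorem P4_inv (g : ℕ) : P4 g * P4 g = 1 := by
  ext x
  simp only [Equiv.Perm.mul_apply, P4_apply, Equiv.Perm.one_apply]
  exact lact_inv g x

theorem P4_comm {g h : ℕ} (hg : g < 10) (hh : h < 10) (hc : h ∈ comL g) : P4 g * P4 h = P4 h * P4 g := by
  ext x
  simp only [Equiv.Perm.mul_apply, P4_apply]
  by_cases hx : x < m0
  · obtain ⟨h1, h2, h3, -⟩ := ptOK_spec x g hx (mem_l10 hg)
    obtain ⟨h1', -, -, -⟩ := ptOK_spec x h hx (mem_l10 hh)
    rw [lact_lt hh hx, lact_lt hg hx, lact_lt hg h1', lact_lt hh h1, h3 h hc]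
  · have hx' : m0 ≤ x := by omega
    simp only [lact_big hx']

theorem P4_braid {g h : ℕ} (hg : g < 10) (hh : h < 10) (hc : h ∈ brL g) :
    P4 g * P4 h * P4 g = P4 h * P4 g * P4 h := by
  ext x
  simp only [Equiv.Perm.mul_apply, P4_apply]
  by_cases hx : x < m0
  · obtain ⟨h1, h2, -, h3⟩ := ptOK_spec x g hx (mem_l10 hg)
    obtain ⟨h1', -, -, -⟩ := ptOK_spec x h hx (mem_l10 hh)
    obtain ⟨h1a, -, -, -⟩ := ptOK_spec _ h h1 (mem_l10 hh)
    obtain ⟨h1b, -, -, -⟩ := ptOK_spec _ g h1' (mem_l10 hg)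
    rw [lact_lt hg hx, lact_lt hh hx, lact_lt hh h1, lact_lt hg h1', lact_lt hg h1a, lact_lt hh h1b, h3 h hc]
  · have hx' : m0 ≤ x := by omega
    simp only [lact_big hx']

theorem comm4 {X : Type*} [Group X] (a b : X) (ha : a * a = 1) (hb : b * b = 1) (h : a * b = b * a) :
    b * a * b * a = 1 := by
  calc b * a * b * a = b * (a * b) * a := by group
    _ = b * (b * a) * a := by rw [h]
    _ = (b * b) * (a * a) := by group
    _ = 1 := by rw [ha, hb, one_mul]

theorem braid6 {X : Type*} [Group X] (a b : X) (ha : a * a = 1) (hb : b * b = 1)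
    (h : a * b * a = b * a * b) : b * a * b * a * b * a = 1 := by
  calc b * a * b * a * b * a = (b * a * b) * (a * b * a) := by group
    _ = (a * b * a) * (a * b * a) := by rw [h]
    _ = a * b * (a * a) * b * a := by group
    _ = a * (b * b) * a := by rw [ha, mul_one]; group
    _ = 1 := by rw [hb, mul_one, ha]

theorem coxW_form : ∀ g ∈ l10, ∀ h ∈ l10,
    (g = h ∧ coxW g h = [g, g]) ∨ (h ∈ comL g ∧ coxW g h = [g, h, g, h]) ∨
    (g ∈ comL h ∧ coxW g h = [g, h, g, h]) ∨ (h ∈ brL g ∧ coxW g h = [g, h, g, h, g, h]) ∨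
    (g ∈ brL h ∧ coxW g h = [g, h, g, h, g, h]) := by
  decide +kernel

theorem P4_cox {g h : ℕ} (hg : g < 10) (hh : h < 10) : ev P4 (coxW g h) = 1 := by
  rcases coxW_form g (mem_l10 hg) h (mem_l10 hh) with ⟨rfl, h2⟩ | ⟨h1, h2⟩ | ⟨h1, h2⟩ | ⟨h1, h2⟩ | ⟨h1, h2⟩ <;> rw [h2] <;>
    simp only [ev_cons, ev_nil, one_mul]
  · exact P4_inv g
  · exact comm4 _ _ (P4_inv g) (P4_inv h) (P4_comm hg hh h1)
  · exact comm4 _ _ (P4_inv g) (P4_inv h) (P4_comm hh hg h1).symm
  · exact braid6 _ _ (P4_inv g) (P4_inv h) (P4_braid hg hh h1)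
  · exact braid6 _ _ (P4_inv g) (P4_inv h) (P4_braid hh hg h1).symm

theorem ev_P4_apply (w : List ℕ) (hw : ∀ l ∈ w, l < 10) (c : ℕ) (hc : c < m0) :
    (ev P4 w) c = walkT row0 w c ∧ walkT row0 w c < m0 := by
  induction w generalizing c with
  | nil => exact ⟨rfl, hc⟩
  | cons l w ih =>
    have hl : l < 10 := hw l List.mem_cons_self
    have h1 := (ptOK_spec c l hc (mem_l10 hl)).1
    have := ih (fun l' hl' => hw l' (List.mem_cons_of_mem _ hl')) (tr c l) h1
    rw [ev_cons, Equiv.Perm.mul_apply, P4_apply, lact_lt hl hc, walkT_cons]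
    exact this

theorem ev_P4_big (w : List ℕ) (c : ℕ) (hc : m0 ≤ c) : (ev P4 w) c = c := by
  induction w with
  | nil => rfl
  | cons l w ih =>
    rw [ev_cons, Equiv.Perm.mul_apply, P4_apply, lact_big hc, ih]

theorem P4_sp : ev P4 sp10 = 1 := by
  ext x
  by_cases hx : x < m0
  · rw [(ev_P4_apply sp10 (by decide) x hx).1, (relOK_spec x hx).1]
    rfl
  · rw [ev_P4_big _ _ (by omega)]
    rfl

/-- The permutation representation. -/
noncomputable def rho4 : K4 →* Equiv.Perm ℕ :=
  liftG R4 P4 (by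
    rintro w ((⟨g, h, hg, hh, rfl⟩ | ⟨n, hn, rfl⟩) | rfl)
    · exact P4_cox hg hh
    · ext x
      simp [P4_apply, lact_big' hn]
    · exact P4_sp)

theorem rho4_g4 (n : ℕ) : rho4 (g4 n) = P4 n := by
  simp [rho4, g4]

theorem rho4_ev (w : List ℕ) : rho4 (ev g4 w) = ev P4 w :=
  (map_ev rho4 g4 w).trans (by rw [show (fun n => rho4 (g4 n)) = P4 from funext rho4_g4])

end Cfsg.Agent.Lib.Y555Rho
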