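-- Shared library: one level of the stabilizer chain of the group of `Y555Base`.
import Mathlib
import Cfsg.Agent.Lib.Y555Rho

set_option autoImplicit false
set_option linter.unusedVariables false

namespace Cfsg.Agent.Lib.Y555Lvl

open Cfsg.Agent.Lib.CoxCert Cfsg.Agent.Lib.Y555Base Cfsg.Agent.Lib.Y555T0 Cfsg.Agent.Lib.Y555Rho

/-- Membership of a letter in a mask. -/
noncomputable def isM (S g : ℕ) : Bool := Nat.beq (Nat.land (Nat.shiftRight S g) 1) 1

/-- The subgroup of a mask. -/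
noncomputable def cl (S : ℕ) : Subgroup K4 := Subgroup.closure (g4 '' {g | isM S g = true})

theorem g4_mem_cl {S g : ℕ} (h : isM S g = true) : g4 g ∈ cl S :=
  Subgroup.subset_closure ⟨g, h, rfl⟩

theorem ev_mem_cl {S : ℕ} (w : List ℕ) (h : ∀ l ∈ w, isM S l = true) : ev g4 w ∈ cl S := by
  induction w with
  | nil => exact one_mem _
  | cons a t ih =>
    rw [ev_cons]
    exact mul_mem (ih fun l hl => h l (List.mem_cons_of_mem _ hl)) (g4_mem_cl (h a List.mem_cons_self))

theorem isM_big {S g : ℕ} (hS : S < 1024) (hg : 10 ≤ g) : isM S g = false := by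
  have h1 : Nat.shiftRight S g = 0 := by
    have h2 : Nat.shiftRight S g = S / 2 ^ g := Nat.shiftRight_eq_div_pow S g
    rw [h2]
    apply Nat.div_eq_of_lt
    calc S < 2 ^ 10 := hS
      _ ≤ 2 ^ g := Nat.pow_le_pow_right (by norm_num) hg
  unfold isM
  rw [h1]
  rfl

theorem isM_lt {S g : ℕ} (hS : S < 1024) (h : isM S g = true) : g < 10 := by
  by_contra hg
  rw [isM_big hS (by omega)] at h
  exact absurd h (by simp)

/-- The words valid before any further knowledge. -/
noncomputable def wordA (k : ℕ) : List ℕ :=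
  Bool.rec (sp10.rotate (Nat.sub k 100)) (coxW (Nat.div k 10) (Nat.mod k 10)) (Nat.blt k 100)

theorem cox_idx (k : ℕ) (hk : k < 100) : ev g4 (coxW (Nat.div k 10) (Nat.mod k 10)) = 1 :=
  g4_cox (g := k / 10) (h := k % 10) (by omega) (by omega)

theorem wordA_rel (k : ℕ) : ev g4 (wordA k) = 1 := by
  unfold wordA
  by_cases hk : k < 100
  · have hb : Nat.blt k 100 = true := by simpa [Nat.blt_eq] using hk
    rw [hb]
    exact cox_idx k hk
  · have hb : Nat.blt k 100 = false := by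
      cases h9 : Nat.blt k 100
      · rfl
      · exact absurd (by simpa [Nat.blt_eq] using h9) hk
    rw [hb]
    exact ev_rotate _ _ g4_sp _

/-- The compatibility with the table of points. -/
noncomputable def cpOK (row : ℕ → ℕ) (ls : List ℕ) (m p0 j0 i : ℕ) : Bool :=
  Bool.rec
    (wl (row i) fun R => wl (ptOf R) fun p =>
      Bool.rec false
        (Bool.rec false
          (wl (row0 p) fun R0 => lall ls fun g => wl (tOf R g) fun d => Nat.beq (tOf R0 g) (ptOf (row d)))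
          (Bool.rec true (or (Nat.beq i 0) (Nat.beq i j0)) (Nat.beq p p0)))
        (Nat.blt p m0))
    true (Nat.ble m i)

theorem cpOK_spec {row : ℕ → ℕ} {ls : List ℕ} {m p0 j0 i : ℕ} (h : cpOK row ls m p0 j0 i = true) (hi : i < m) :
    ptOf (row i) < m0 ∧ (ptOf (row i) = p0 → i = 0 ∨ i = j0) ∧
      ∀ g ∈ ls, tOf (row0 (ptOf (row i))) g = ptOf (row (tOf (row i) g)) := by
  unfold cpOK at h
  have hb : Nat.ble m i = false := by
    cases h9 : Nat.ble m i
    · rfl
    · have := Nat.le_of_ble_eq_true h9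
      omega
  rw [hb] at h
  have h' : (wl (row i) fun R => wl (ptOf R) fun p =>
      (Bool.rec false
        (Bool.rec false
          (wl (row0 p) fun R0 => lall ls fun g => wl (tOf R g) fun d => Nat.beq (tOf R0 g) (ptOf (row d)))
          (Bool.rec true (or (Nat.beq i 0) (Nat.beq i j0)) (Nat.beq p p0)))
        (Nat.blt p m0) : Bool)) = true := h
  rw [wl_eq, wl_eq] at h'
  cases h1 : Nat.blt (ptOf (row i)) m0
  · rw [h1] at h'; exact absurd h' (by simp)
  rw [h1] at h'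
  have h2' : (Bool.rec false
          (wl (row0 (ptOf (row i))) fun R0 => lall ls fun g => wl (tOf (row i) g) fun d =>
            Nat.beq (tOf R0 g) (ptOf (row d)))
          (Bool.rec true (or (Nat.beq i 0) (Nat.beq i j0)) (Nat.beq (ptOf (row i)) p0)) : Bool) = true := h'
  cases h2 : (Bool.rec true (or (Nat.beq i 0) (Nat.beq i j0)) (Nat.beq (ptOf (row i)) p0) : Bool)
  · rw [h2] at h2'; exact absurd h2' (by simp)
  rw [h2] at h2'
  have h3 : (wl (row0 (ptOf (row i))) fun R0 => lall ls fun g => wl (tOf (row i) g) fun d =>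
            Nat.beq (tOf R0 g) (ptOf (row d))) = true := h2'
  rw [wl_eq] at h3
  refine ⟨by simpa [Nat.blt_eq] using h1, ?_, ?_⟩
  · intro hp
    have : Nat.beq (ptOf (row i)) p0 = true := by rw [hp]; exact Nat.beq_refl _
    rw [this] at h2
    have h4 : (or (Nat.beq i 0) (Nat.beq i j0)) = true := h2
    rw [Bool.or_eq_true] at h4
    rcases h4 with h4 | h4
    · exact Or.inl (Nat.eq_of_beq_eq_true h4)
    · exact Or.inr (Nat.eq_of_beq_eq_true h4)
  · intro g hg
    have := lall_spec _ _ h3 g hg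
    simp only [wl_eq] at this
    exact Nat.eq_of_beq_eq_true this

theorem all_of_allR {P : ℕ → Bool} {k m : ℕ} (h : allR P k 0 = true) (hm : m ≤ 2 ^ k)
    (hbig : ∀ i, m ≤ i → P i = true) (i : ℕ) : P i = true := by
  by_cases hi : i < 2 ^ k
  · exact allR_spec P k 0 h i (Nat.zero_le _) (by omega)
  · exact hbig i (by omega)

theorem nameOK_big (row : ℕ → ℕ) (isS isB : ℕ → Bool) (wordOf : ℕ → List ℕ)
    (bw : ℕ → Option (List ℕ × ℕ × List ℕ)) (m : ℕ) (aux : ℕ → ℕ) (hp : ℕ → (ℕ → ℕ) × (ℕ → ℕ × ℕ × List ℕ) × ℕ × ℕ × ℕ)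
    (ls : List ℕ) (i : ℕ) (hi : m ≤ i) : nameOK row isS isB wordOf bw m aux hp ls i = true := by
  unfold nameOK
  rw [Nat.ble_eq_true_of_le hi]

theorem cpOK_big (row : ℕ → ℕ) (ls : List ℕ) (m p0 j0 i : ℕ) (hi : m ≤ i) : cpOK row ls m p0 j0 i = true := by
  unfold cpOK
  rw [Nat.ble_eq_true_of_le hi]

/-- A level: the orbit of an element on names. -/
theorem level_orbit (row : ℕ → ℕ) (S B m : ℕ) (wordOf : ℕ → List ℕ) (aux : ℕ → ℕ)
    (hp : ℕ → (ℕ → ℕ) × (ℕ → ℕ × ℕ × List ℕ) × ℕ × ℕ × ℕ) (ls : List ℕ) (j0 : ℕ)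
    (hS : S < 1024) (hls : ∀ g ∈ l10, isM S g = true → g ∈ ls) (hm0 : 0 < m) (hm40 : m ≤ 1099511627776)
    (hW : ∀ k, ev g4 (wordOf k) = 1)
    (hOK : ∀ i, nameOK row (isM S) (isM B) wordOf (fun _ => none) m aux hp ls i = true)
    (hCP : ∀ i, cpOK row ls m (ptOf (row 0)) j0 i = true)
    (H : Subgroup K4) (hB : ∀ g, isM B g = true → g4 g ∈ H)
    (h : K4) (hh : h ∈ cl S) (hfix : rho4 h (ptOf (row 0)) = ptOf (row 0)) :
    (∀ i < m, ∀ g, isM S g = true →
      tOf (row i) g < m ∧ g4 g • phiN g4 H row m aux i = phiN g4 H row m aux (tOf (row i) g)) ∧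
    (h ∈ H ∨ h • phiN g4 H row m aux 0 = phiN g4 H row m aux j0) := by
  have hedges := level_edges (gen := g4) (H := H) (row := row) (isS := isM S) (isB := isM B) (wordOf := wordOf)
    (bw := fun _ => none) (m := m) (aux := aux) hp ls g4_inv hW (isM_big hS (by norm_num)) hm40 hB
    (by intro k U l V h; exact absurd h (by simp)) hm0
    (fun g hg => hls g (mem_l10 (isM_lt hS hg)) hg) hOK
  refine ⟨hedges, ?_⟩
  have hcompat : ∀ i < m, ∀ g, isM S g = true →
      rho4 (g4 g) (ptOf (row i)) = ptOf (row (tOf (row i) g)) := by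
    intro i hi g hg
    obtain ⟨h1, h2, h3⟩ := cpOK_spec (hCP i) hi
    rw [rho4_g4, P4_apply, lact_lt (isM_lt hS hg) h1]
    exact h3 g (hls g (mem_l10 (isM_lt hS hg)) hg)
  obtain ⟨i, hi, h1, h2⟩ := orbit_key (H := H) (aux := aux) g4_inv rho4 (fun i => ptOf (row i)) hm0 hedges hcompat h hh
  have h3 : i = 0 ∨ i = j0 := (cpOK_spec (hCP i) hi).2.1 (by rw [← h1, hfix])
  rcases h3 with rfl | rfl
  · left
    rw [phiN_zero] at h2
    exact mem_of_smul_base h2
  · right
    exact h2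

/-- A level with a single base name. -/
theorem level_step (row : ℕ → ℕ) (S B m : ℕ) (wordOf : ℕ → List ℕ) (aux : ℕ → ℕ)
    (hp : ℕ → (ℕ → ℕ) × (ℕ → ℕ × ℕ × List ℕ) × ℕ × ℕ × ℕ) (ls : List ℕ)
    (hS : S < 1024) (hls : ∀ g ∈ l10, isM S g = true → g ∈ ls) (hm0 : 0 < m) (hm40 : m ≤ 1099511627776)
    (hW : ∀ k, ev g4 (wordOf k) = 1)
    (hOK : ∀ i, nameOK row (isM S) (isM B) wordOf (fun _ => none) m aux hp ls i = true)
    (hCP : ∀ i, cpOK row ls m (ptOf (row 0)) 0 i = true)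
    (h : K4) (hh : h ∈ cl S) (hfix : rho4 h (ptOf (row 0)) = ptOf (row 0)) : h ∈ cl B := by
  rcases (level_orbit row S B m wordOf aux hp ls 0 hS hls hm0 hm40 hW hOK hCP (cl B)
    (fun g hg => g4_mem_cl hg) h hh hfix).2 with h1 | h1
  · exact h1
  · rw [phiN_zero] at h1
    exact mem_of_smul_base h1

end Cfsg.Agent.Lib.Y555Lvl
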