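-- Shared library: the lower part of the stabilizer chain: the subgroup generated by the Y₃₂₂ letters acts faithfully
-- on its even part.
import Mathlib
import Cfsg.Agent.Lib.Y555Lvl
import Cfsg.Agent.Lib.Y555Small

set_option autoImplicit false
set_option linter.unusedVariables false

namespace Cfsg.Agent.Lib.Y555M2

open Cfsg.Agent.Lib.CoxCert Cfsg.Agent.Lib.Y555Base Cfsg.Agent.Lib.Y555T0 Cfsg.Agent.Lib.Y555Rho
  Cfsg.Agent.Lib.Y555Lvl Cfsg.Agent.Lib.Y555Small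

noncomputable def aux0 (_ : ℕ) : ℕ := 0
noncomputable def hp0 (_ : ℕ) : (ℕ → ℕ) × (ℕ → ℕ × ℕ × List ℕ) × ℕ × ℕ × ℕ := ((fun _ => 0), (fun _ => (0, 0, [])), 0, 0, 0)

theorem ok2 : allR (nameOK row2 (isM 999) (isM 995) wordA (fun _ => none) 3159 tA2f hp2 [0, 1, 2, 5, 6, 7, 8, 9]) 12 0 = true := by
  decide +kernel

theorem cp2 : allR (cpOK row2 [0, 1, 2, 5, 6, 7, 8, 9] 3159 (ptOf (row2 0)) 0) 12 0 = true := by
  decide +kernel

theorem ls2 : ∀ g ∈ l10, isM 999 g = true → g ∈ [0, 1, 2, 5, 6, 7, 8, 9] := by decide +kernel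

theorem step2 (h : K4) (hh : h ∈ cl 999) (hfix : rho4 h (ptOf (row2 0)) = ptOf (row2 0)) : h ∈ cl 995 :=
  level_step row2 999 995 3159 wordA tA2f hp2 [0, 1, 2, 5, 6, 7, 8, 9] (by norm_num) ls2 (by norm_num) (by norm_num)
    wordA_rel (all_of_allR ok2 (by norm_num) (nameOK_big _ _ _ _ _ _ _ _ _))
    (all_of_allR cp2 (by norm_num) (cpOK_big _ _ _ _ _)) h hh hfix

theorem ok3 : allR (nameOK row3 (isM 995) (isM 483) wordA (fun _ => none) 126 aux0 hp0 [0, 1, 5, 6, 7, 8, 9]) 7 0 = true := by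
  decide +kernel

theorem cp3 : allR (cpOK row3 [0, 1, 5, 6, 7, 8, 9] 126 (ptOf (row3 0)) 125) 7 0 = true := by
  decide +kernel

theorem ls3 : ∀ g ∈ l10, isM 995 g = true → g ∈ [0, 1, 5, 6, 7, 8, 9] := by decide +kernel

theorem ok4 : allR (nameOK row4 (isM 483) (isM 481) wordA (fun _ => none) 32 aux0 hp0 [0, 1, 5, 6, 7, 8]) 5 0 = true := by
  decide +kernel

theorem cp4 : allR (cpOK row4 [0, 1, 5, 6, 7, 8] 32 (ptOf (row4 0)) 0) 5 0 = true := by
  decide +kernel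

theorem ls4 : ∀ g ∈ l10, isM 483 g = true → g ∈ [0, 1, 5, 6, 7, 8] := by decide +kernel

theorem step4 (h : K4) (hh : h ∈ cl 483) (hfix : rho4 h (ptOf (row4 0)) = ptOf (row4 0)) : h ∈ cl 481 :=
  level_step row4 483 481 32 wordA aux0 hp0 [0, 1, 5, 6, 7, 8] (by norm_num) ls4 (by norm_num) (by norm_num)
    wordA_rel (all_of_allR ok4 (by norm_num) (nameOK_big _ _ _ _ _ _ _ _ _))
    (all_of_allR cp4 (by norm_num) (cpOK_big _ _ _ _ _)) h hh hfix

theorem ok5 : allR (nameOK row5 (isM 481) (isM 480) wordA (fun _ => none) 15 aux0 hp0 [0, 5, 6, 7, 8]) 4 0 = true := by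
  decide +kernel

theorem cp5 : allR (cpOK row5 [0, 5, 6, 7, 8] 15 (ptOf (row5 0)) 0) 4 0 = true := by
  decide +kernel

theorem ls5 : ∀ g ∈ l10, isM 481 g = true → g ∈ [0, 5, 6, 7, 8] := by decide +kernel

theorem step5 (h : K4) (hh : h ∈ cl 481) (hfix : rho4 h (ptOf (row5 0)) = ptOf (row5 0)) : h ∈ cl 480 :=
  level_step row5 481 480 15 wordA aux0 hp0 [0, 5, 6, 7, 8] (by norm_num) ls5 (by norm_num) (by norm_num)
    wordA_rel (all_of_allR ok5 (by norm_num) (nameOK_big _ _ _ _ _ _ _ _ _))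
    (all_of_allR cp5 (by norm_num) (cpOK_big _ _ _ _ _)) h hh hfix

theorem ok6 : allR (nameOK row6 (isM 480) (isM 448) wordA (fun _ => none) 4 aux0 hp0 [5, 6, 7, 8]) 2 0 = true := by
  decide +kernel

theorem cp6 : allR (cpOK row6 [5, 6, 7, 8] 4 (ptOf (row6 0)) 0) 2 0 = true := by
  decide +kernel

theorem ls6 : ∀ g ∈ l10, isM 480 g = true → g ∈ [5, 6, 7, 8] := by decide +kernel

theorem step6 (h : K4) (hh : h ∈ cl 480) (hfix : rho4 h (ptOf (row6 0)) = ptOf (row6 0)) : h ∈ cl 448 :=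
  level_step row6 480 448 4 wordA aux0 hp0 [5, 6, 7, 8] (by norm_num) ls6 (by norm_num) (by norm_num)
    wordA_rel (all_of_allR ok6 (by norm_num) (nameOK_big _ _ _ _ _ _ _ _ _))
    (all_of_allR cp6 (by norm_num) (cpOK_big _ _ _ _ _)) h hh hfix

theorem ok7 : allR (nameOK row7 (isM 448) (isM 384) wordA (fun _ => none) 3 aux0 hp0 [6, 7, 8]) 2 0 = true := by
  decide +kernel

theorem cp7 : allR (cpOK row7 [6, 7, 8] 3 (ptOf (row7 0)) 0) 2 0 = true := by
  decide +kernel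

theorem ls7 : ∀ g ∈ l10, isM 448 g = true → g ∈ [6, 7, 8] := by decide +kernel

theorem step7 (h : K4) (hh : h ∈ cl 448) (hfix : rho4 h (ptOf (row7 0)) = ptOf (row7 0)) : h ∈ cl 384 :=
  level_step row7 448 384 3 wordA aux0 hp0 [6, 7, 8] (by norm_num) ls7 (by norm_num) (by norm_num)
    wordA_rel (all_of_allR ok7 (by norm_num) (nameOK_big _ _ _ _ _ _ _ _ _))
    (all_of_allR cp7 (by norm_num) (cpOK_big _ _ _ _ _)) h hh hfix

theorem ok8 : allR (nameOK row8 (isM 384) (isM 256) wordA (fun _ => none) 2 aux0 hp0 [7, 8]) 1 0 = true := by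
  decide +kernel

theorem cp8 : allR (cpOK row8 [7, 8] 2 (ptOf (row8 0)) 0) 1 0 = true := by
  decide +kernel

theorem ls8 : ∀ g ∈ l10, isM 384 g = true → g ∈ [7, 8] := by decide +kernel

theorem step8 (h : K4) (hh : h ∈ cl 384) (hfix : rho4 h (ptOf (row8 0)) = ptOf (row8 0)) : h ∈ cl 256 :=
  level_step row8 384 256 2 wordA aux0 hp0 [7, 8] (by norm_num) ls8 (by norm_num) (by norm_num)
    wordA_rel (all_of_allR ok8 (by norm_num) (nameOK_big _ _ _ _ _ _ _ _ _))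
    (all_of_allR cp8 (by norm_num) (cpOK_big _ _ _ _ _)) h hh hfix

theorem ok9 : allR (nameOK row9 (isM 256) (isM 0) wordA (fun _ => none) 2 aux0 hp0 [8]) 1 0 = true := by
  decide +kernel

theorem cp9 : allR (cpOK row9 [8] 2 (ptOf (row9 0)) 0) 1 0 = true := by
  decide +kernel

theorem ls9 : ∀ g ∈ l10, isM 256 g = true → g ∈ [8] := by decide +kernel

theorem step9 (h : K4) (hh : h ∈ cl 256) (hfix : rho4 h (ptOf (row9 0)) = ptOf (row9 0)) : h ∈ cl 0 :=
  level_step row9 256 0 2 wordA aux0 hp0 [8] (by norm_num) ls9 (by norm_num) (by norm_num)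
    wordA_rel (all_of_allR ok9 (by norm_num) (nameOK_big _ _ _ _ _ _ _ _ _))
    (all_of_allR cp9 (by norm_num) (cpOK_big _ _ _ _ _)) h hh hfix

/-- The word `U` leading to the second name of the base. -/
def wU : List ℕ := [9, 8, 0, 1, 5, 0, 6, 5, 7, 6, 8, 0, 1, 5, 0, 8, 9, 8, 0, 1, 5, 0, 6, 5, 7, 6, 8, 0, 1, 5, 0, 8, 9]

/-- The word acting as the central element. -/
def wE : List ℕ := [9, 8, 0, 5, 1, 0, 8, 6, 7, 5, 6, 0, 5, 1, 0, 8, 9, 8, 0, 5, 1, 0, 8, 6, 7, 5, 6, 0, 5, 1, 0, 8, 9, 1, 0, 5, 6, 7, 8, 0, 1, 5, 0, 6, 5, 8, 0, 1, 6, 5, 0, 7, 6, 5, 8, 0, 7, 6, 5, 7, 6, 7, 8]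

/-- The word in the letters of the next level. -/
def wD : List ℕ := [1, 0, 5, 6, 7, 8, 0, 1, 5, 0, 6, 5, 8, 0, 1, 6, 5, 0, 7, 6, 5, 8, 0, 7, 6, 5, 7, 6, 7, 8]

theorem wE_eq : wE = wU.reverse ++ wD := by decide

theorem wU_walk : walkT row3 wU 0 = 125 := by decide +kernel

/-- The third level. -/
theorem step3 (h : K4) (hh : h ∈ cl 995) (hfix : rho4 h (ptOf (row3 0)) = ptOf (row3 0)) :
    h ∈ cl 483 ∨ (ev g4 wE) * h ∈ cl 483 := by
  obtain ⟨hedges, h1⟩ := level_orbit row3 995 483 126 wordA aux0 hp0 [0, 1, 5, 6, 7, 8, 9] 125 (by norm_num) ls3 (by norm_num)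
    (by norm_num) wordA_rel (all_of_allR ok3 (by norm_num) (nameOK_big _ _ _ _ _ _ _ _ _))
    (all_of_allR cp3 (by norm_num) (cpOK_big _ _ _ _ _)) (cl 483) (fun g hg => g4_mem_cl hg) h hh hfix
  rcases h1 with h1 | h1
  · exact Or.inl h1
  · right
    have h2 := phi_walk hedges wU (by decide +kernel) 0 (by norm_num)
    rw [wU_walk] at h2
    rw [← h2, phiN_zero] at h1
    have h3 : ((ev g4 wU)⁻¹ * h) • ((1 : K4) : K4 ⧸ cl 483) = ((1 : K4) : K4 ⧸ cl 483) := by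
      rw [mul_smul, h1, inv_smul_smul]
    have h4 := mem_of_smul_base h3
    have h5 : ev g4 wD ∈ cl 483 := ev_mem_cl _ (by decide +kernel)
    have h6 : ev g4 wE = ev g4 wD * (ev g4 wU)⁻¹ := by
      rw [wE_eq, ev_append, ev_reverse _ g4_inv]
    rw [h6, mul_assoc]
    exact mul_mem h5 h4

/-- The bottom of the chain. -/
theorem bottom (h : K4) (hh : h ∈ cl 483)
    (h4 : rho4 h (ptOf (row4 0)) = ptOf (row4 0)) (h5 : rho4 h (ptOf (row5 0)) = ptOf (row5 0))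
    (h6 : rho4 h (ptOf (row6 0)) = ptOf (row6 0)) (h7 : rho4 h (ptOf (row7 0)) = ptOf (row7 0))
    (h8 : rho4 h (ptOf (row8 0)) = ptOf (row8 0)) (h9 : rho4 h (ptOf (row9 0)) = ptOf (row9 0)) : h = 1 := by
  have hh5 := step4 h hh h4
  have hh6 := step5 h hh5 h5
  have hh7 := step6 h hh6 h6
  have hh8 := step7 h hh7 h7
  have hh9 := step8 h hh8 h8
  have hh0 := step9 h hh9 h9
  have : cl 0 = ⊥ := by
    unfold cl
    have : (g4 '' {g | isM 0 g = true}) = ∅ := by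
      apply Set.image_eq_empty.mpr
      ext g
      show isM 0 g = true ↔ g ∈ (∅ : Set ℕ)
      simp [isM]
    rw [this, Subgroup.closure_empty]
  rw [this] at hh0
  exact Subgroup.mem_bot.mp hh0

/-- The list of the base points. -/
noncomputable def baseL : List ℕ :=
  [ptOf (row3 0), ptOf (row4 0), ptOf (row5 0), ptOf (row6 0), ptOf (row7 0), ptOf (row8 0), ptOf (row9 0)]

theorem wE_fix : ∀ p ∈ baseL, walkT row0 wE p = p ∧ p < m0 := by decide +kernel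

theorem wE_odd : wE.length = 63 := by decide

theorem wE_letters : ∀ l ∈ wE, l < 10 := by decide

/-- The word problem of the Y₃₂₂ part: an even element fixing the base is trivial. -/
theorem M2 (h : K4) (hh : h ∈ cl 999) (hs : sgn4 h = 1)
    (h2 : rho4 h (ptOf (row2 0)) = ptOf (row2 0)) (hb : ∀ p ∈ baseL, rho4 h p = p) : h = 1 := by
  have hb' : ∀ p ∈ baseL, rho4 (ev g4 wE * h) p = p := by
    intro p hp
    rw [map_mul, Equiv.Perm.mul_apply, hb p hp, rho4_ev]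
    obtain ⟨h3, h4⟩ := wE_fix p hp
    rw [(ev_P4_apply wE wE_letters p h4).1, h3]
  have hm3 := step2 h hh h2
  rcases step3 h hm3 (hb _ (by simp [baseL])) with h4 | h4
  · exact bottom h h4 (hb _ (by simp [baseL])) (hb _ (by simp [baseL])) (hb _ (by simp [baseL]))
      (hb _ (by simp [baseL])) (hb _ (by simp [baseL])) (hb _ (by simp [baseL]))
  · exfalso
    have h5 := bottom _ h4 (hb' _ (by simp [baseL])) (hb' _ (by simp [baseL])) (hb' _ (by simp [baseL]))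
      (hb' _ (by simp [baseL])) (hb' _ (by simp [baseL])) (hb' _ (by simp [baseL]))
    have h6 := congrArg sgn4 h5
    rw [map_mul, hs, mul_one, sgn4_ev _ wE_letters, wE_odd, map_one] at h6
    exact absurd h6 (by decide)

/-- A word check. -/
noncomputable def wordCk (p : ℕ) (w : List ℕ) : Bool := Nat.beq (walkT row0 w p) p

/-- Words in the lower letters. -/
theorem M2_word (w : List ℕ) (hw : ∀ l ∈ w, isM 999 l = true) (hl : ∀ l ∈ w, l < 10)
    (hev : Even w.length) (hb : ∀ p ∈ (ptOf (row2 0)) :: baseL, p < m0 ∧ walkT row0 w p = p) : ev g4 w = 1 := by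
  have key : ∀ p ∈ (ptOf (row2 0)) :: baseL, rho4 (ev g4 w) p = p := by
    intro p hp
    obtain ⟨h1, h2⟩ := hb p hp
    rw [rho4_ev, (ev_P4_apply w hl p h1).1, h2]
  refine M2 _ (ev_mem_cl _ hw) ?_ (key _ (by simp)) (fun p hp => key p (List.mem_cons_of_mem _ hp))
  rw [sgn4_ev _ hl, hev.neg_one_pow]

/-- The word found by search. -/
def wV : List ℕ := [5, 0, 8, 9, 1, 0, 8, 5, 6, 1, 0, 5, 1, 0, 2, 1, 0, 8, 0, 6, 5, 6, 9, 0, 1, 2, 5, 0, 1, 6, 5, 0, 8, 0, 5, 6, 1, 0, 5, 2, 1, 0, 0, 8, 0, 1, 2, 9, 0, 8, 0, 6, 5, 6, 1, 0, 8, 0, 9, 0, 1, 2, 5, 0, 1, 6, 5, 0, 8, 0, 5, 6, 1, 0, 5, 2, 1, 0]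

theorem wV_rel : ev g4 wV = 1 :=
  M2_word wV (by decide +kernel) (by decide) (by decide) (by decide +kernel)

end Cfsg.Agent.Lib.Y555M2
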