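-- Shared library: the upper part of the stabilizer chain: an even element of the group of `Y555Base` fixing the
-- base points is trivial.
import Mathlib
import Cfsg.Agent.Lib.Y555M2
import Cfsg.Agent.Lib.Y555T1

set_option autoImplicit false
set_option linter.unusedVariables false

namespace Cfsg.Agent.Lib.Y555M0

open Cfsg.Agent.Lib.CoxCert Cfsg.Agent.Lib.Y555Base Cfsg.Agent.Lib.Y555T0 Cfsg.Agent.Lib.Y555Rho
  Cfsg.Agent.Lib.Y555Lvl Cfsg.Agent.Lib.Y555Small Cfsg.Agent.Lib.Y555M2 Cfsg.Agent.Lib.Y555T1

/-- The words valid after the lower part of the chain. -/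
noncomputable def wordB (k : ℕ) : List ℕ :=
  Bool.rec (wV.rotate (Nat.sub k 100)) (coxW (Nat.div k 10) (Nat.mod k 10)) (Nat.blt k 100)

theorem wordB_rel (k : ℕ) : ev g4 (wordB k) = 1 := by
  unfold wordB
  by_cases hk : k < 100
  · have hb : Nat.blt k 100 = true := by simpa [Nat.blt_eq] using hk
    rw [hb]
    exact cox_idx k hk
  · have hb : Nat.blt k 100 = false := by
      cases h9 : Nat.blt k 100
      · rfl
      · exact absurd (by simpa [Nat.blt_eq] using h9) hk
    rw [hb]
    exact ev_rotate _ _ wV_rel _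

noncomputable def nm0 : ℕ → Bool := (nameOK row0 (isM 1023) (isM 1007) wordB (fun _ => none) 31671 aux0 hp0 [0, 1, 2, 3, 4, 5, 6, 7, 8, 9])
noncomputable def cq0 : ℕ → Bool := (cpOK row0 [0, 1, 2, 3, 4, 5, 6, 7, 8, 9] 31671 (ptOf (row0 0)) 0)

theorem ok0_p0 : allR nm0 12 0 = true := by decide +kernel
theorem ok0_p1 : allR nm0 12 4096 = true := by decide +kernel
theorem ok0_p2 : allR nm0 12 8192 = true := by decide +kernel
theorem ok0_p3 : allR nm0 12 12288 = true := by decide +kernel
theorem ok0_p4 : allR nm0 12 16384 = true := by decide +kernel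
theorem ok0_p5 : allR nm0 12 20480 = true := by decide +kernel
theorem ok0_p6 : allR nm0 12 24576 = true := by decide +kernel
theorem ok0_p7 : allR nm0 12 28672 = true := by decide +kernel
theorem cp0_p0 : allR cq0 12 0 = true := by decide +kernel
theorem cp0_p1 : allR cq0 12 4096 = true := by decide +kernel
theorem cp0_p2 : allR cq0 12 8192 = true := by decide +kernel
theorem cp0_p3 : allR cq0 12 12288 = true := by decide +kernel
theorem cp0_p4 : allR cq0 12 16384 = true := by decide +kernel
theorem cp0_p5 : allR cq0 12 20480 = true := by decide +kernel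
theorem cp0_p6 : allR cq0 12 24576 = true := by decide +kernel
theorem cp0_p7 : allR cq0 12 28672 = true := by decide +kernel

theorem ok0_all (i : ℕ) : nm0 i = true := by
  by_cases hi : 31671 ≤ i
  · exact nameOK_big _ _ _ _ _ _ _ _ _ _ hi
  by_cases h0 : i < 4096
  · exact allR_spec _ _ _ ok0_p0 i (by omega) (by norm_num; omega)
  by_cases h1 : i < 8192
  · exact allR_spec _ _ _ ok0_p1 i (by omega) (by norm_num; omega)
  by_cases h2 : i < 12288
  · exact allR_spec _ _ _ ok0_p2 i (by omega) (by norm_num; omega)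
  by_cases h3 : i < 16384
  · exact allR_spec _ _ _ ok0_p3 i (by omega) (by norm_num; omega)
  by_cases h4 : i < 20480
  · exact allR_spec _ _ _ ok0_p4 i (by omega) (by norm_num; omega)
  by_cases h5 : i < 24576
  · exact allR_spec _ _ _ ok0_p5 i (by omega) (by norm_num; omega)
  by_cases h6 : i < 28672
  · exact allR_spec _ _ _ ok0_p6 i (by omega) (by norm_num; omega)
  by_cases h7 : i < 32768
  · exact allR_spec _ _ _ ok0_p7 i (by omega) (by norm_num; omega)
  · omega

theorem cp0_all (i : ℕ) : cq0 i = true := by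
  by_cases hi : 31671 ≤ i
  · exact cpOK_big _ _ _ _ _ _ hi
  by_cases h0 : i < 4096
  · exact allR_spec _ _ _ cp0_p0 i (by omega) (by norm_num; omega)
  by_cases h1 : i < 8192
  · exact allR_spec _ _ _ cp0_p1 i (by omega) (by norm_num; omega)
  by_cases h2 : i < 12288
  · exact allR_spec _ _ _ cp0_p2 i (by omega) (by norm_num; omega)
  by_cases h3 : i < 16384
  · exact allR_spec _ _ _ cp0_p3 i (by omega) (by norm_num; omega)
  by_cases h4 : i < 20480
  · exact allR_spec _ _ _ cp0_p4 i (by omega) (by norm_num; omega)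
  by_cases h5 : i < 24576
  · exact allR_spec _ _ _ cp0_p5 i (by omega) (by norm_num; omega)
  by_cases h6 : i < 28672
  · exact allR_spec _ _ _ cp0_p6 i (by omega) (by norm_num; omega)
  by_cases h7 : i < 32768
  · exact allR_spec _ _ _ cp0_p7 i (by omega) (by norm_num; omega)
  · omega

theorem ls0' : ∀ g ∈ l10, isM 1023 g = true → g ∈ [0, 1, 2, 3, 4, 5, 6, 7, 8, 9] := by decide +kernel

theorem step0' (h : K4) (hh : h ∈ cl 1023) (hfix : rho4 h (ptOf (row0 0)) = ptOf (row0 0)) : h ∈ cl 1007 :=
  level_step row0 1023 1007 31671 wordB aux0 hp0 [0, 1, 2, 3, 4, 5, 6, 7, 8, 9] (by norm_num) ls0' (by norm_num) (by norm_num)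
    wordB_rel ok0_all cp0_all h hh hfix

noncomputable def nm1 : ℕ → Bool := (nameOK row1 (isM 1007) (isM 999) wordB (fun _ => none) 28160 aux0 hp0 [0, 1, 2, 3, 5, 6, 7, 8, 9])
noncomputable def cq1 : ℕ → Bool := (cpOK row1 [0, 1, 2, 3, 5, 6, 7, 8, 9] 28160 (ptOf (row1 0)) 0)

theorem ok1_p0 : allR nm1 12 0 = true := by decide +kernel
theorem ok1_p1 : allR nm1 12 4096 = true := by decide +kernel
theorem ok1_p2 : allR nm1 12 8192 = true := by decide +kernel
theorem ok1_p3 : allR nm1 12 12288 = true := by decide +kernel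
theorem ok1_p4 : allR nm1 12 16384 = true := by decide +kernel
theorem ok1_p5 : allR nm1 12 20480 = true := by decide +kernel
theorem ok1_p6 : allR nm1 12 24576 = true := by decide +kernel
theorem cp1_p0 : allR cq1 12 0 = true := by decide +kernel
theorem cp1_p1 : allR cq1 12 4096 = true := by decide +kernel
theorem cp1_p2 : allR cq1 12 8192 = true := by decide +kernel
theorem cp1_p3 : allR cq1 12 12288 = true := by decide +kernel
theorem cp1_p4 : allR cq1 12 16384 = true := by decide +kernel
theorem cp1_p5 : allR cq1 12 20480 = true := by decide +kernel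
theorem cp1_p6 : allR cq1 12 24576 = true := by decide +kernel

theorem ok1_all (i : ℕ) : nm1 i = true := by
  by_cases hi : 28160 ≤ i
  · exact nameOK_big _ _ _ _ _ _ _ _ _ _ hi
  by_cases h0 : i < 4096
  · exact allR_spec _ _ _ ok1_p0 i (by omega) (by norm_num; omega)
  by_cases h1 : i < 8192
  · exact allR_spec _ _ _ ok1_p1 i (by omega) (by norm_num; omega)
  by_cases h2 : i < 12288
  · exact allR_spec _ _ _ ok1_p2 i (by omega) (by norm_num; omega)
  by_cases h3 : i < 16384
  · exact allR_spec _ _ _ ok1_p3 i (by omega) (by norm_num; omega)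
  by_cases h4 : i < 20480
  · exact allR_spec _ _ _ ok1_p4 i (by omega) (by norm_num; omega)
  by_cases h5 : i < 24576
  · exact allR_spec _ _ _ ok1_p5 i (by omega) (by norm_num; omega)
  by_cases h6 : i < 28672
  · exact allR_spec _ _ _ ok1_p6 i (by omega) (by norm_num; omega)
  · omega

theorem cp1_all (i : ℕ) : cq1 i = true := by
  by_cases hi : 28160 ≤ i
  · exact cpOK_big _ _ _ _ _ _ hi
  by_cases h0 : i < 4096
  · exact allR_spec _ _ _ cp1_p0 i (by omega) (by norm_num; omega)
  by_cases h1 : i < 8192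
  · exact allR_spec _ _ _ cp1_p1 i (by omega) (by norm_num; omega)
  by_cases h2 : i < 12288
  · exact allR_spec _ _ _ cp1_p2 i (by omega) (by norm_num; omega)
  by_cases h3 : i < 16384
  · exact allR_spec _ _ _ cp1_p3 i (by omega) (by norm_num; omega)
  by_cases h4 : i < 20480
  · exact allR_spec _ _ _ cp1_p4 i (by omega) (by norm_num; omega)
  by_cases h5 : i < 24576
  · exact allR_spec _ _ _ cp1_p5 i (by omega) (by norm_num; omega)
  by_cases h6 : i < 28672
  · exact allR_spec _ _ _ cp1_p6 i (by omega) (by norm_num; omega)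
  · omega

theorem ls1' : ∀ g ∈ l10, isM 1007 g = true → g ∈ [0, 1, 2, 3, 5, 6, 7, 8, 9] := by decide +kernel

theorem step1' (h : K4) (hh : h ∈ cl 1007) (hfix : rho4 h (ptOf (row1 0)) = ptOf (row1 0)) : h ∈ cl 999 :=
  level_step row1 1007 999 28160 wordB aux0 hp0 [0, 1, 2, 3, 5, 6, 7, 8, 9] (by norm_num) ls1' (by norm_num) (by norm_num)
    wordB_rel ok1_all cp1_all h hh hfix

theorem cl_top (h : K4) : h ∈ cl 1023 := by
  have h1 : Subgroup.closure (Set.range (pg R4)) ≤ cl 1023 := by
    rw [Subgroup.closure_le]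
    rintro _ ⟨n, rfl⟩
    by_cases hn : n < 10
    · apply g4_mem_cl
      interval_cases n <;> decide +kernel
    · have : pg R4 n = 1 := g4_big (by omega)
      rw [this]
      exact one_mem _
  apply h1
  rw [closure_pg]
  trivial

/-- The word problem of the group: an even element fixing the base is trivial. -/
theorem M0 (h : K4) (hs : sgn4 h = 1) (h0 : rho4 h (ptOf (row0 0)) = ptOf (row0 0))
    (h1 : rho4 h (ptOf (row1 0)) = ptOf (row1 0)) (h2 : rho4 h (ptOf (row2 0)) = ptOf (row2 0))
    (hb : ∀ p ∈ baseL, rho4 h p = p) : h = 1 :=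
  M2 h (step1' h (step0' h (cl_top h) h0) h1) hs h2 hb

/-- All base points. -/
noncomputable def baseA : List ℕ := ptOf (row0 0) :: ptOf (row1 0) :: ptOf (row2 0) :: baseL

/-- The check that a word is trivial. -/
noncomputable def wordOK (w : List ℕ) : Bool :=
  and (lall w fun l => Nat.blt l 10)
    (and (Nat.beq (Nat.mod w.length 2) 0)
      (lall baseA fun p => and (Nat.blt p m0) (Nat.beq (walkT row0 w p) p)))

/-- A word passing the check is trivial in the group. -/
theorem K4_word (w : List ℕ) (hw : wordOK w = true) : ev g4 w = 1 := by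
  unfold wordOK at hw
  simp only [Bool.and_eq_true] at hw
  obtain ⟨h1, h2, h3⟩ := hw
  have hl : ∀ l ∈ w, l < 10 := by
    intro l hl
    have := lall_spec _ _ h1 l hl
    simpa [Nat.blt_eq] using this
  have key : ∀ p ∈ baseA, rho4 (ev g4 w) p = p := by
    intro p hp
    have := lall_spec _ _ h3 p hp
    rw [Bool.and_eq_true] at this
    have h4 : p < m0 := by simpa [Nat.blt_eq] using this.1
    rw [rho4_ev, (ev_P4_apply w hl p h4).1]
    exact Nat.eq_of_beq_eq_true this.2
  refine M0 _ ?_ (key _ (by simp [baseA])) (key _ (by simp [baseA])) (key _ (by simp [baseA]))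
    (fun p hp => key p (by simp [baseA, hp]))
  rw [sgn4_ev _ hl]
  have h5 : w.length % 2 = 0 := Nat.eq_of_beq_eq_true h2
  exact Even.neg_one_pow (Nat.even_iff.mpr h5)

end Cfsg.Agent.Lib.Y555M0
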