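-- Shared library: in the group of the diagram Y₅₃₂ with the spider relation, the end node of the long arm is the
-- ninth power of a Coxeter element of type E₇.
import Mathlib
import Cfsg.Agent.Lib.Y555M0

set_option autoImplicit false
set_option linter.unusedVariables false

namespace Cfsg.Agent.Lib.Y555K

open Cfsg.Agent.Lib.CoxCert Cfsg.Agent.Lib.Y555Base Cfsg.Agent.Lib.Y555T0 Cfsg.Agent.Lib.Y555Rho
  Cfsg.Agent.Lib.Y555Lvl Cfsg.Agent.Lib.Y555M2 Cfsg.Agent.Lib.Y555M0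

section core
variable {K : Type*} [Group K]

theorem conj_inv_m {f G : K} (hf : f * f = 1) (hG : G * G = 1) : (f * G * f)⁻¹ = f * G * f := by
  have h1 : f⁻¹ = f := inv_eq_of_mul_eq_one_left hf
  have h2 : G⁻¹ = G := inv_eq_of_mul_eq_one_left hG
  simp only [mul_inv_rev, h1, h2, mul_assoc]

theorem conj_i {f G x : K} (hf : f * f = 1) (hG : G * G = 1) (hfx : f * x = x * f) (hGx : G * x = x * G) :
    (f * G * f) * x * (f * G * f)⁻¹ = x := by
  have h : (f * G * f) * x = x * (f * G * f) := by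
    calc (f * G * f) * x = f * G * (f * x) := by group
      _ = f * G * (x * f) := by rw [hfx]
      _ = f * (G * x) * f := by group
      _ = f * (x * G) * f := by rw [hGx]
      _ = (f * x) * G * f := by group
      _ = (x * f) * G * f := by rw [hfx]
      _ = x * (f * G * f) := by group
  rw [h]
  group

theorem conj_ii {f G d F : K} (hf : f * f = 1) (hG : G * G = 1) (hfd : f * d = d * f) (hGd : G * d * G = F)
    (hfF : f * F = F * f) : (f * G * f) * d * (f * G * f)⁻¹ = F := by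
  rw [conj_inv_m hf hG]
  have h1 : f * d * f = d := by rw [hfd, mul_assoc, hf, mul_one]
  calc f * G * f * d * (f * G * f) = f * G * (f * d * f) * G * f := by group
    _ = f * (G * d * G) * f := by rw [h1]; group
    _ = f * F * f := by rw [hGd]
    _ = F := by rw [hfF, mul_assoc, hf, mul_one]

theorem conj_iii {f G e Z : K} (hf : f * f = 1) (hG : G * G = 1) (he : e * e = 1) (hfe : f * e * f = e * f * e)
    (hGe : G * e = e * Z) (hfZ : f * Z = Z * f) : (f * G * f) * e * (f * G * f)⁻¹ = e := by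
  rw [conj_inv_m hf hG]
  have h1 : e * G = Z⁻¹ * e := by
    have h2 : (G * e)⁻¹ = (e * Z)⁻¹ := by rw [hGe]
    have h3 : e⁻¹ = e := inv_eq_of_mul_eq_one_left he
    have h4 : G⁻¹ = G := inv_eq_of_mul_eq_one_left hG
    simpa only [mul_inv_rev, h3, h4] using h2
  have h5 : Z * f * Z⁻¹ = f := by rw [← hfZ]; group
  calc f * G * f * e * (f * G * f) = f * G * (f * e * f) * G * f := by group
    _ = f * (G * e) * f * (e * G) * f := by rw [hfe]; group
    _ = f * (e * Z) * f * (Z⁻¹ * e) * f := by rw [hGe, h1]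
    _ = f * e * (Z * f * Z⁻¹) * e * f := by simp only [mul_assoc]
    _ = (f * e * f) * e * f := by rw [h5]
    _ = e * f * (e * e) * f := by rw [hfe]; simp only [mul_assoc]
    _ = e := by rw [he, mul_one, mul_assoc, hf, mul_one]

theorem conj_iv {f G S S' : K} (hf : f * f = 1) (hG : G * G = 1) (hfS : f * S = S * f) (hGS : G * S * G = S')
    (hfS' : f * S' = S' * f) : (f * G * f) * S * (f * G * f)⁻¹ = S' :=
  conj_ii hf hG hfS hGS hfS'

theorem conj_vi {f G c e Y : K} (hf : f * f = 1) (hG : G * G = 1) (hfc : f * c = c * f)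
    (hE : e = Y * (G * c * G) * Y⁻¹) (hfY : f * Y = Y * f) :
    f * e * f = Y * ((f * G * f) * c * (f * G * f)⁻¹) * Y⁻¹ := by
  rw [conj_inv_m hf hG]
  have h1 : f * c * f = c := by rw [hfc, mul_assoc, hf, mul_one]
  have h2 : f * Y⁻¹ = Y⁻¹ * f := by
    have := congrArg (fun x => Y⁻¹ * x * Y⁻¹) hfY
    simp only [mul_assoc, mul_inv_cancel, mul_one, inv_mul_cancel_left] at this
    exact this.symm
  calc f * e * f = (f * Y) * (G * c * G) * (Y⁻¹ * f) := by rw [hE]; group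
    _ = (Y * f) * (G * c * G) * (f * Y⁻¹) := by rw [hfY, h2]
    _ = Y * (f * G * (f * c * f) * G * f) * Y⁻¹ := by rw [h1]; group
    _ = Y * (f * G * f * c * (f * G * f)) * Y⁻¹ := by group


end core

theorem comm_of {X : Type*} [Group X] {a b : X} (ha : a * a = 1) (hb : b * b = 1) (h : a * b * a * b = 1) :
    b * a = a * b := by
  have h1 : a⁻¹ = a := inv_eq_of_mul_eq_one_left ha
  have h2 : b⁻¹ = b := inv_eq_of_mul_eq_one_left hb
  have h3 : (a * b) * (a * b) = 1 := by rw [← h]; group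
  have h4 : (a * b)⁻¹ = a * b := inv_eq_of_mul_eq_one_left h3
  rw [mul_inv_rev, h1, h2] at h4
  exact h4

theorem braid_of {X : Type*} [Group X] {a b : X} (ha : a * a = 1) (hb : b * b = 1)
    (h : a * b * a * b * a * b = 1) : b * a * b = a * b * a := by
  have h1 : a⁻¹ = a := inv_eq_of_mul_eq_one_left ha
  have h2 : b⁻¹ = b := inv_eq_of_mul_eq_one_left hb
  have h3 : (a * b * a) * (b * a * b) = 1 := by rw [← h]; group
  have h4 : (b * a * b) = (a * b * a)⁻¹ := eq_inv_of_mul_eq_one_right h3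
  rw [h4]
  simp only [mul_inv_rev, h1, h2, mul_assoc]

theorem ev_congr {X : Type*} [Group X] {f f' : ℕ → X} (w : List ℕ) (h : ∀ l ∈ w, f l = f' l) :
    ev f w = ev f' w := by
  induction w with
  | nil => rfl
  | cons a t ih =>
    rw [ev_cons, ev_cons, ih (fun l hl => h l (List.mem_cons_of_mem _ hl)), h a List.mem_cons_self]

/-- The relator of two letters among eleven: letter `10` is the next node after letter `4`. -/
noncomputable def cox5 (g h : ℕ) : List ℕ :=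
  if g < 10 ∧ h < 10 then coxW g h
  else if g = h then [g, g]
  else if g = 4 ∨ h = 4 then [g, h, g, h, g, h]
  else [g, h, g, h]

/-- The relators. -/
def R5 : Set (List ℕ) :=
  {w | ∃ g h, g < 11 ∧ h < 11 ∧ w = cox5 g h} ∪ {w | ∃ n, 11 ≤ n ∧ w = [n]} ∪ {sp10}

/-- The group. -/
abbrev K5 : Type := PresG R5
/-- Its letters. -/
noncomputable def g5 (n : ℕ) : K5 := pg R5 n

theorem g5_big {n : ℕ} (h : 11 ≤ n) : g5 n = 1 := by
  have := pg_rel (R := R5) (w := [n]) (Or.inl (Or.inr ⟨n, h, rfl⟩))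
  show pg R5 n = 1
  simpa using this

theorem g5_cox {g h : ℕ} (hg : g < 11) (hh : h < 11) : ev g5 (cox5 g h) = 1 :=
  pg_rel (R := R5) (Or.inl (Or.inl ⟨g, h, hg, hh, rfl⟩))

theorem g5_sp : ev g5 sp10 = 1 := pg_rel (R := R5) (Or.inr rfl)

theorem cox5_low {g h : ℕ} (hg : g < 10) (hh : h < 10) : cox5 g h = coxW g h := by
  simp [cox5, hg, hh]

theorem cox5_self : cox5 10 10 = [10, 10] := by simp [cox5]

theorem g5_inv (g : ℕ) : g5 g * g5 g = 1 := by
  by_cases hg : g < 10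
  · have := g5_cox (g := g) (h := g) (by omega) (by omega)
    rw [cox5_low hg hg, coxW_self g hg] at this
    simpa using this
  · by_cases h10 : g = 10
    · subst h10
      have := g5_cox (g := 10) (h := 10) (by norm_num) (by norm_num)
      rw [cox5_self] at this
      simpa using this
    · rw [g5_big (by omega)]; simp

theorem cox5_f {n : ℕ} (hn : n < 10) (h4 : n ≠ 4) : cox5 10 n = [10, n, 10, n] := by
  simp [cox5, h4]
  omega

theorem cox5_fe : cox5 10 4 = [10, 4, 10, 4, 10, 4] := by simp [cox5]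

theorem f_comm {n : ℕ} (hn : n < 10) (h4 : n ≠ 4) : g5 10 * g5 n = g5 n * g5 10 := by
  have := g5_cox (g := 10) (h := n) (by norm_num) (by omega)
  rw [cox5_f hn h4] at this
  simp only [ev_cons, ev_nil, one_mul] at this
  exact comm_of (g5_inv _) (g5_inv _) this

theorem f_e : g5 10 * g5 4 * g5 10 = g5 4 * g5 10 * g5 4 := by
  have := g5_cox (g := 10) (h := 4) (by norm_num) (by norm_num)
  rw [cox5_fe] at this
  simp only [ev_cons, ev_nil, one_mul] at this
  exact braid_of (g5_inv _) (g5_inv _) this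

theorem word_comm (w : List ℕ) (hw : ∀ l ∈ w, l < 10 ∧ l ≠ 4) : g5 10 * ev g5 w = ev g5 w * g5 10 := by
  induction w with
  | nil => simp
  | cons a t ih =>
    have h1 := hw a List.mem_cons_self
    rw [ev_cons, ← mul_assoc, ih (fun l hl => hw l (List.mem_cons_of_mem _ hl)), mul_assoc, f_comm h1.1 h1.2, mul_assoc]

/-- The values of the map from the smaller group. -/
noncomputable def piF (n : ℕ) : K5 := if n < 10 then g5 n else 1

theorem coxW_letters {g h l : ℕ} (hl : l ∈ coxW g h) : l = g ∨ l = h := by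
  rcases coxW_cases g h with h1 | h1 | h1 <;> rw [h1] at hl <;> simp at hl <;> omega

theorem piF_ev (w : List ℕ) (hw : ∀ l ∈ w, l < 10) : ev piF w = ev g5 w :=
  ev_congr w (fun l hl => by simp [piF, hw l hl])

/-- The map from the smaller group. -/
noncomputable def pi5 : K4 →* K5 :=
  liftG R4 piF (by
    rintro w ((⟨g, h, hg, hh, rfl⟩ | ⟨n, hn, rfl⟩) | rfl)
    · rw [piF_ev]
      · rw [← cox5_low hg hh]
        exact g5_cox (by omega) (by omega)
      · intro l hl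
        rcases coxW_letters hl with rfl | rfl <;> assumption
    · simp only [ev_cons, ev_nil, one_mul, piF]
      rw [if_neg (by omega)]
    · rw [piF_ev _ (by decide +kernel)]
      exact g5_sp)

theorem pi5_ev (w : List ℕ) (hw : ∀ l ∈ w, l < 10) : pi5 (ev g4 w) = ev g5 w := by
  rw [map_ev]
  have : (fun n => pi5 (g4 n)) = piF := by
    funext n
    simp [pi5, g4]
  rw [this]
  exact piF_ev w hw

/-- A word trivial in the smaller group is trivial. -/
theorem id5 (w : List ℕ) (hw : wordOK w = true) (hl : ∀ l ∈ w, l < 10) : ev g5 w = 1 := by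
  rw [← pi5_ev w hl, K4_word w hw, map_one]

/-- The word of the ninth power. -/
def Fw : List ℕ := [0, 1, 5, 8, 2, 6, 3, 0, 1, 5, 8, 2, 6, 3, 0, 1, 5, 8, 2, 6, 3, 0, 1, 5, 8, 2, 6, 3, 0, 1, 5, 8, 2, 6, 3, 0, 1, 5, 8, 2, 6, 3, 0, 1, 5, 8, 2, 6, 3, 0, 1, 5, 8, 2, 6, 3, 0, 1, 5, 8, 2, 6, 3]
/-- The word of the other ninth power. -/
def F2w : List ℕ := [0, 1, 8, 5, 2, 9, 3, 0, 1, 8, 5, 2, 9, 3, 0, 1, 8, 5, 2, 9, 3, 0, 1, 8, 5, 2, 9, 3, 0, 1, 8, 5, 2, 9, 3, 0, 1, 8, 5, 2, 9, 3, 0, 1, 8, 5, 2, 9, 3, 0, 1, 8, 5, 2, 9, 3, 0, 1, 8, 5, 2, 9, 3]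
/-- The word of the auxiliary element `G`. -/
def g0w : List ℕ := [4, 0, 1, 5, 8, 2, 6, 3, 0, 1, 5, 8, 2, 6, 3, 0, 1, 5, 8, 2, 6, 3, 0, 1, 5, 8, 2, 6, 3, 0, 1, 5, 8, 2, 6, 3, 0, 1, 5, 8, 2, 6, 3, 0, 1, 5, 8, 2, 6, 3, 0, 1, 5, 8, 2, 6, 3, 0, 1, 5, 8, 2, 6, 3, 4, 3, 4, 3]
/-- The word of the auxiliary element `S`. -/
def sw : List ℕ := [0, 5, 2, 1, 0, 8, 6, 5, 3, 0, 1, 2, 1, 0, 3, 5, 6, 8, 0, 1, 2, 5, 0]
/-- The word of its image. -/
def spw : List ℕ := [8, 1, 0, 5, 2, 1, 0, 8, 6, 5, 3, 0, 1, 2, 1, 0, 3, 5, 6, 8, 0, 1, 2, 5, 0, 1, 8]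
/-- The word of the auxiliary element `Y`. -/
def yw : List ℕ := [2, 3]
def w1 : List ℕ := [8, 9, 4, 3]
def w2 : List ℕ := [0, 4]
def w3 : List ℕ := [9, 8, 0, 1]
/-- The word of the auxiliary element `Y'`. -/
def ypw : List ℕ := [8, 9, 4, 3, 0, 5, 2, 1, 0, 8, 6, 5, 3, 0, 1, 2, 1, 0, 3, 5, 6, 8, 0, 1, 2, 5, 0, 0, 4, 0, 5, 2, 1, 0, 8, 6, 5, 3, 0, 1, 2, 1, 0, 3, 5, 6, 8, 0, 1, 2, 5, 0, 9, 8, 0, 1]

theorem ypw_eq : ypw = w1 ++ sw ++ w2 ++ sw ++ w3 := by decide +kernel

/-- The element of the smaller group. -/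
noncomputable def F4 : K4 := ev g4 Fw

theorem idFF : wordOK (Fw ++ Fw) = true := by decide +kernel
theorem idFF2 : wordOK (Fw ++ F2w) = true := by decide +kernel
theorem idFn : ∀ n ∈ l10, n ≠ 4 → wordOK (Fw ++ [n] ++ Fw ++ [n]) = true := by decide +kernel
theorem idnF : ∀ n ∈ l10, n ≠ 4 → wordOK ([n] ++ Fw ++ [n] ++ Fw) = true := by decide +kernel
theorem idFe : wordOK (Fw ++ [4] ++ Fw ++ [4] ++ Fw ++ [4]) = true := by decide +kernel
theorem ideF : wordOK ([4] ++ Fw ++ [4] ++ Fw ++ [4] ++ Fw) = true := by decide +kernel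

theorem Fw_letters : ∀ l ∈ Fw, l < 10 ∧ l ≠ 4 := by decide +kernel
theorem F2w_letters : ∀ l ∈ F2w, l < 10 ∧ l ≠ 4 := by decide +kernel

theorem F4_inv : F4 * F4 = 1 := by
  have := K4_word _ idFF
  rwa [ev_append] at this

/-- The values of the map to the smaller group. -/
noncomputable def rhoF (n : ℕ) : K4 := if n = 10 then F4 else g4 n

theorem rhoF_low (w : List ℕ) (hw : ∀ l ∈ w, l < 10) : ev rhoF w = ev g4 w :=
  ev_congr w (fun l hl => by
    have := hw l hl
    rw [rhoF, if_neg (by omega)])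

/-- The map to the smaller group. -/
noncomputable def rho5 : K5 →* K4 :=
  liftG R5 rhoF (by
    rintro w ((⟨g, h, hg, hh, rfl⟩ | ⟨n, hn, rfl⟩) | rfl)
    · by_cases hg10 : g < 10
      · by_cases hh10 : h < 10
        · rw [cox5_low hg10 hh10, rhoF_low]
          · exact g4_cox hg10 hh10
          · intro l hl
            rcases coxW_letters hl with rfl | rfl <;> assumption
        · have hh' : h = 10 := by omega
          subst hh'
          by_cases h4 : g = 4
          · subst h4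
            have h1 : cox5 4 10 = [4, 10, 4, 10, 4, 10] := by simp [cox5]
            rw [h1]
            have := K4_word _ ideF
            simpa [ev_append, rhoF, F4, mul_assoc] using this
          · have h1 : cox5 g 10 = [g, 10, g, 10] := by
              simp [cox5, h4]
              omega
            rw [h1]
            have := K4_word _ (idnF g (mem_l10 hg10) h4)
            have hg' : g ≠ 10 := by omega
            simpa [ev_append, rhoF, F4, mul_assoc, hg'] using this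
      · have hg' : g = 10 := by omega
        subst hg'
        by_cases hh10 : h < 10
        · by_cases h4 : h = 4
          · subst h4
            rw [cox5_fe]
            have := K4_word _ idFe
            simpa [ev_append, rhoF, F4, mul_assoc] using this
          · rw [cox5_f hh10 h4]
            have := K4_word _ (idFn h (mem_l10 hh10) h4)
            have hh' : h ≠ 10 := by omega
            simpa [ev_append, rhoF, F4, mul_assoc, hh'] using this
        · have hh' : h = 10 := by omega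
          subst hh'
          rw [cox5_self]
          simpa [rhoF] using F4_inv
    · simp only [ev_cons, ev_nil, one_mul, rhoF]
      rw [if_neg (by omega)]
      exact g4_big (by omega)
    · rw [rhoF_low _ (by decide +kernel)]
      exact g4_sp)

theorem rho5_g5 (n : ℕ) : rho5 (g5 n) = rhoF n := by
  simp [rho5, g5]

theorem rho5_pi5 (x : K4) : rho5 (pi5 x) = x := by
  have : rho5.comp pi5 = MonoidHom.id K4 := by
    apply pg_ext
    intro n
    have h1 : pi5 (pg R4 n) = piF n := by simp [pi5]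
    simp only [MonoidHom.comp_apply, MonoidHom.id_apply, h1, piF]
    by_cases hn : n < 10
    · rw [if_pos hn, rho5_g5, rhoF, if_neg (by omega)]
      rfl
    · rw [if_neg hn, map_one]
      exact (g4_big (by omega)).symm
  exact DFunLike.congr_fun this x

/-- The image of the smaller group. -/
noncomputable def H5 : Subgroup K5 := pi5.range

theorem ev_mem_H5 (w : List ℕ) (hw : ∀ l ∈ w, l < 10) : ev g5 w ∈ H5 :=
  ⟨ev g4 w, pi5_ev w hw⟩

theorem idG2 : wordOK (g0w ++ g0w) = true := by decide +kernel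
theorem idGx : ∀ x ∈ [0, 1, 5, 6, 7, 8, 9], wordOK (g0w ++ [x] ++ g0w ++ [x]) = true := by decide +kernel
theorem idGd : wordOK (g0w ++ [3] ++ g0w ++ Fw) = true := by decide +kernel
theorem idGe : wordOK ((Fw ++ [3]).reverse ++ [4] ++ g0w ++ [4]) = true := by decide +kernel
theorem idGS : wordOK (g0w ++ sw ++ g0w ++ spw) = true := by decide +kernel
theorem idSS : wordOK (spw ++ spw) = true := by decide +kernel
theorem idC : wordOK (ypw.reverse ++ sw ++ ypw ++ [2]) = true := by decide +kernel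
theorem idE : wordOK (yw.reverse ++ g0w ++ [2] ++ g0w ++ yw ++ [4]) = true := by decide +kernel

theorem g0w_lt : ∀ l ∈ g0w, l < 10 := by decide +kernel
theorem sw_y : ∀ l ∈ sw, l < 10 ∧ l ≠ 4 := by decide +kernel
theorem spw_y : ∀ l ∈ spw, l < 10 ∧ l ≠ 4 := by decide +kernel
theorem yw_y : ∀ l ∈ yw, l < 10 ∧ l ≠ 4 := by decide +kernel
theorem ypw_lt : ∀ l ∈ ypw, l < 10 := by decide +kernel
theorem w1_a : ∀ l ∈ w1, l ∈ [0, 1, 5, 6, 7, 8, 9, 3, 4] := by decide +kernel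
theorem w2_a : ∀ l ∈ w2, l ∈ [0, 1, 5, 6, 7, 8, 9, 3, 4] := by decide +kernel
theorem w3_a : ∀ l ∈ w3, l ∈ [0, 1, 5, 6, 7, 8, 9, 3, 4] := by decide +kernel

theorem F_inv : ev g5 Fw * ev g5 Fw = 1 := by
  have := id5 _ idFF (by decide +kernel)
  rwa [ev_append] at this

local notation "𝐟" => g5 10
local notation "𝐞" => g5 4
local notation "𝐝" => g5 3
local notation "𝐜" => g5 2
local notation "𝐆" => ev g5 g0w
local notation "𝐅" => ev g5 Fw
local notation "𝐒" => ev g5 sw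
local notation "𝐓" => ev g5 spw
local notation "𝐘" => ev g5 yw
local notation "𝐗" => ev g5 ypw
local notation "𝐦" => g5 10 * ev g5 g0w * g5 10

set_option maxRecDepth 100000 in
/-- The main point: the node lies in the image of the smaller group. -/
theorem f_mem : g5 10 ∈ H5 := by
  have hf : 𝐟 * 𝐟 = 1 := g5_inv 10
  have he : 𝐞 * 𝐞 = 1 := g5_inv 4
  have hd : 𝐝 * 𝐝 = 1 := g5_inv 3
  have hc : 𝐜 * 𝐜 = 1 := g5_inv 2
  have hG : 𝐆 * 𝐆 = 1 := by
    have := id5 _ idG2 (by decide +kernel)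
    rwa [ev_append] at this
  have hF : 𝐅 * 𝐅 = 1 := F_inv
  have hFi : 𝐅⁻¹ = 𝐅 := inv_eq_of_mul_eq_one_left hF
  have hei : 𝐞⁻¹ = 𝐞 := inv_eq_of_mul_eq_one_left he
  have hci : 𝐜⁻¹ = 𝐜 := inv_eq_of_mul_eq_one_left hc
  have hfF : 𝐟 * 𝐅 = 𝐅 * 𝐟 := word_comm Fw Fw_letters
  have hfS : 𝐟 * 𝐒 = 𝐒 * 𝐟 := word_comm sw sw_y
  have hfS' : 𝐟 * 𝐓 = 𝐓 * 𝐟 := word_comm spw spw_y
  have hfY : 𝐟 * 𝐘 = 𝐘 * 𝐟 := word_comm yw yw_y
  -- the letters of type E₇
  have hE7 : ∀ x ∈ [0, 1, 5, 6, 7, 8, 9], 𝐟 * g5 x = g5 x * 𝐟 ∧ 𝐆 * g5 x = g5 x * 𝐆 := by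
    intro x hx
    have hx10 : x < 10 := by
      simp only [List.mem_cons, List.not_mem_nil, or_false] at hx
      omega
    have hx4 : x ≠ 4 := by
      simp only [List.mem_cons, List.not_mem_nil, or_false] at hx
      omega
    refine ⟨f_comm hx10 hx4, ?_⟩
    have h1 := id5 _ (idGx x hx) (by
      intro l hl
      simp only [List.mem_append, List.mem_singleton] at hl
      rcases hl with ((hl | hl) | hl) | hl
      · exact g0w_lt l hl
      · omega
      · exact g0w_lt l hl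
      · omega)
    simp only [ev_append, ev_cons, ev_nil, one_mul] at h1
    have h2 : g5 x * 𝐆 * g5 x * 𝐆 = 1 := by rw [← h1]; simp only [mul_assoc]
    exact (comm_of (g5_inv x) hG h2)
  have hGd : 𝐆 * 𝐝 * 𝐆 = 𝐅 := by
    have h1 := id5 _ idGd (by decide +kernel)
    simp only [ev_append, ev_cons, ev_nil, one_mul] at h1
    have h2 : 𝐅 * (𝐆 * 𝐝 * 𝐆) = 1 := by rw [← h1]; simp only [mul_assoc]
    have h3 := eq_inv_of_mul_eq_one_right h2
    rw [h3, hFi]
  have hZ : 𝐟 * ev g5 (Fw ++ [3]) = ev g5 (Fw ++ [3]) * 𝐟 := word_comm _ (by decide +kernel)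
  have hGe : 𝐆 * 𝐞 = 𝐞 * ev g5 (Fw ++ [3]) := by
    have h1 := id5 _ idGe (by decide +kernel)
    simp only [ev_append, ev_cons, ev_nil, one_mul] at h1
    rw [ev_reverse _ g5_inv, ev_append] at h1
    simp only [ev_cons, ev_nil, one_mul] at h1
    have h2 : 𝐞 * 𝐆 * 𝐞 = 𝐝 * 𝐅 := by
      have h3 : 𝐞 * 𝐆 * 𝐞 * (𝐝 * 𝐅)⁻¹ = 1 := by rw [← h1]; simp only [mul_assoc]
      exact mul_inv_eq_one.mp h3
    have h4 : ev g5 (Fw ++ [3]) = 𝐝 * 𝐅 := by
      rw [ev_append]
      simp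
    rw [h4, ← h2]
    calc 𝐆 * 𝐞 = (𝐞 * 𝐞) * 𝐆 * 𝐞 := by rw [he, one_mul]
      _ = 𝐞 * (𝐞 * 𝐆 * 𝐞) := by group
  have hGS : 𝐆 * 𝐒 * 𝐆 = 𝐓 := by
    have h1 := id5 _ idGS (by decide +kernel)
    simp only [ev_append] at h1
    have h2 : 𝐓 * (𝐆 * 𝐒 * 𝐆) = 1 := by rw [← h1]; simp only [mul_assoc]
    have h3 := eq_inv_of_mul_eq_one_right h2
    have h4 := id5 _ idSS (by decide +kernel)
    rw [ev_append] at h4
    rw [h3]
    exact inv_eq_of_mul_eq_one_left h4
  have hC : 𝐜 = 𝐗 * 𝐒 * 𝐗⁻¹ := by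
    have h1 := id5 _ idC (by decide +kernel)
    simp only [ev_append, ev_cons, ev_nil, one_mul] at h1
    rw [ev_reverse _ g5_inv] at h1
    have h2 : 𝐜 * (𝐗 * 𝐒 * 𝐗⁻¹) = 1 := by rw [← h1]; simp only [mul_assoc]
    have h3 := eq_inv_of_mul_eq_one_right h2
    rw [h3, hci]
  have hE : 𝐞 = 𝐘 * (𝐆 * 𝐜 * 𝐆) * 𝐘⁻¹ := by
    have h1 := id5 _ idE (by decide +kernel)
    simp only [ev_append, ev_cons, ev_nil, one_mul] at h1
    rw [ev_reverse _ g5_inv] at h1
    have h2 : 𝐞 * (𝐘 * (𝐆 * 𝐜 * 𝐆) * 𝐘⁻¹) = 1 := by rw [← h1]; simp only [mul_assoc]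
    have h3 := eq_inv_of_mul_eq_one_right h2
    rw [h3, hei]
  -- the conjugating element
  let Hm : Subgroup K5 := H5.comap (MulAut.conj 𝐦).toMonoidHom
  have hHm : ∀ x, x ∈ Hm ↔ 𝐦 * x * 𝐦⁻¹ ∈ H5 := fun x => Iff.rfl
  have hdm : 𝐝 ∈ Hm := by
    rw [hHm, conj_ii hf hG (f_comm (n := 3) (by norm_num) (by norm_num)) hGd hfF]
    exact ev_mem_H5 _ (by decide +kernel)
  have hem : 𝐞 ∈ Hm := by
    rw [hHm, conj_iii hf hG he f_e hGe hZ]
    have := ev_mem_H5 [4] (by decide +kernel)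
    simpa using this
  have hxm : ∀ x ∈ [0, 1, 5, 6, 7, 8, 9], g5 x ∈ Hm := by
    intro x hx
    obtain ⟨h1, h2⟩ := hE7 x hx
    rw [hHm, conj_i hf hG h1 h2]
    have hx10 : x < 10 := by
      simp only [List.mem_cons, List.not_mem_nil, or_false] at hx
      omega
    have := ev_mem_H5 [x] (by simpa using hx10)
    simpa using this
  have hSm : 𝐒 ∈ Hm := by
    rw [hHm, conj_iv hf hG hfS hGS hfS']
    exact ev_mem_H5 _ (by decide +kernel)
  have hwm : ∀ w : List ℕ, (∀ l ∈ w, l ∈ [0, 1, 5, 6, 7, 8, 9, 3, 4]) → ev g5 w ∈ Hm := by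
    intro w hw
    induction w with
    | nil => exact one_mem _
    | cons a t ih =>
      rw [ev_cons]
      refine mul_mem (ih fun l hl => hw l (List.mem_cons_of_mem _ hl)) ?_
      have ha := hw a List.mem_cons_self
      simp only [List.mem_cons, List.not_mem_nil, or_false] at ha
      rcases ha with rfl | rfl | rfl | rfl | rfl | rfl | rfl | rfl | rfl
      all_goals first
        | exact hdm
        | exact hem
        | exact hxm _ (by decide +kernel)
  have hY'm : 𝐗 ∈ Hm := by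
    have e1 : ev g5 ypw = ev g5 (w1 ++ sw ++ w2 ++ sw ++ w3) := congrArg (ev g5) ypw_eq
    rw [e1, ev_append, ev_append, ev_append, ev_append]
    exact mul_mem (hwm _ w3_a) (mul_mem hSm (mul_mem (hwm _ w2_a) (mul_mem hSm (hwm _ w1_a))))
  have hcm : 𝐜 ∈ Hm := by
    rw [hC]
    exact mul_mem (mul_mem hY'm hSm) (inv_mem hY'm)
  have hfc : 𝐟 * 𝐜 = 𝐜 * 𝐟 := f_comm (n := 2) (by norm_num) (by norm_num)
  have h1 : 𝐟 * 𝐞 * 𝐟 ∈ H5 := by
    rw [conj_vi (e := 𝐞) (Y := 𝐘) hf hG hfc hE hfY]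
    exact mul_mem (mul_mem (ev_mem_H5 _ (fun l hl => (yw_y l hl).1)) ((hHm 𝐜).mp hcm))
      (inv_mem (ev_mem_H5 _ (fun l hl => (yw_y l hl).1)))
  have heH : 𝐞 ∈ H5 := by
    have := ev_mem_H5 [4] (by decide +kernel)
    simpa using this
  have h2 : 𝐞 * 𝐟 * 𝐞 ∈ H5 := by
    rw [← f_e]
    exact h1
  have h3 : 𝐟 = 𝐞 * (𝐞 * 𝐟 * 𝐞) * 𝐞 := by
    calc 𝐟 = (𝐞 * 𝐞) * 𝐟 * (𝐞 * 𝐞) := by rw [he, one_mul, mul_one]
      _ = 𝐞 * (𝐞 * 𝐟 * 𝐞) * 𝐞 := by group
  rw [h3]
  exact mul_mem (mul_mem heH h2) heH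

/-- The relation of the node, first form. -/
theorem f_eq : g5 10 = ev g5 Fw := by
  obtain ⟨ω, hω⟩ := f_mem
  have h1 : rho5 (pi5 ω) = ω := rho5_pi5 ω
  rw [hω, rho5_g5] at h1
  have h2 : ω = F4 := by
    rw [← h1]
    simp [rhoF]
  rw [← hω, h2, F4, pi5_ev _ (fun l hl => (Fw_letters l hl).1)]

/-- The relation of the node, second form. -/
theorem f_eq2 : g5 10 = ev g5 F2w := by
  rw [f_eq]
  have h1 := id5 _ idFF2 (by decide +kernel)
  rw [ev_append] at h1
  have h2 : ev g5 F2w = (ev g5 Fw)⁻¹ := eq_inv_of_mul_eq_one_left h1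
  rw [h2]
  exact (inv_eq_of_mul_eq_one_left F_inv).symm

end Cfsg.Agent.Lib.Y555K
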