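import Mathlib
import Cfsg.Agent.Lib.FusionRed

/-!
# Conjugates of `Ω₁Z(T)` in a group with `Ω₁Z(T) ≤ O_p(X)`.
-/

set_option autoImplicit false

namespace Cfsg.Agent.Lib.ZFusion

open Cfsg Cfsg.Agent.Lib.PCore Cfsg.Agent.Lib.SecFunctor Cfsg.Agent.Lib.TransferRed
open Cfsg.Agent.Lib.NPCFunctor (map_inducedFunctor char_inducedFunctor inducedFunctor_ne_bot normalizer_map_coprime)

universe u

/-- `Ω₁Z(T)`. -/
abbrev ZZ₁ {X : Type*} [Group X] (p : ℕ) (T : Subgroup X) : Subgroup X :=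
  omegaOne p (T ⊓ Subgroup.centralizer ((T : Subgroup X) : Set X))

theorem mem_ZZ₁ {X : Type*} [Group X] {p : ℕ} {T : Subgroup X} {x : X} :
    x ∈ ZZ₁ p T ↔ x ∈ T ⊓ Subgroup.centralizer ((T : Subgroup X) : Set X) ∧ x ^ p = 1 := by
  constructor
  · intro hx
    have hcomm : ∀ a ∈ T ⊓ Subgroup.centralizer ((T : Subgroup X) : Set X),
        ∀ b ∈ T ⊓ Subgroup.centralizer ((T : Subgroup X) : Set X), Commute a b := by
      intro a ha b hb
      exact (Subgroup.mem_centralizer_iff.mp hb.2 a ha.1)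
    unfold ZZ₁ omegaOne at hx
    induction hx using Subgroup.closure_induction with
    | mem y hy => exact hy
    | one => exact ⟨Subgroup.one_mem _, one_pow _⟩
    | mul a b _ _ ha hb =>
      refine ⟨Subgroup.mul_mem _ ha.1 hb.1, ?_⟩
      rw [(hcomm a ha.1 b hb.1).mul_pow, ha.2, hb.2, one_mul]
    | inv a _ ha =>
      refine ⟨Subgroup.inv_mem _ ha.1, ?_⟩
      rw [inv_pow, ha.2, inv_one]
  · intro hx
    exact Subgroup.subset_closure hx

theorem map_ZZ₁_le {X X' : Type*} [Group X] [Group X'] {p : ℕ} (f : X →* X') (T : Subgroup X) :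
    (ZZ₁ p T).map f ≤ ZZ₁ p (T.map f) := by
  rintro _ ⟨x, hx, rfl⟩
  have hx : x ∈ ZZ₁ p T := hx
  rw [mem_ZZ₁] at hx ⊢
  refine ⟨⟨⟨x, hx.1.1, rfl⟩, ?_⟩, by rw [← map_pow, hx.2, map_one]⟩
  show f x ∈ Subgroup.centralizer _
  rw [Subgroup.mem_centralizer_iff]
  rintro _ ⟨t, ht, rfl⟩
  rw [← map_mul, ← map_mul, Subgroup.mem_centralizer_iff.mp hx.1.2 t ht]

theorem ZZ₁_map_le {X X' : Type*} [Group X] [Group X'] {p : ℕ} (f : X →* X') (T : Subgroup X)
    (hf : ∀ x ∈ T, f x = 1 → x = 1) :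
    ZZ₁ p (T.map f) ≤ (ZZ₁ p T).map f := by
  intro y hy
  rw [mem_ZZ₁] at hy
  obtain ⟨⟨⟨t, ht, rfl⟩, h2⟩, h3⟩ := hy
  refine ⟨t, ?_, rfl⟩
  show t ∈ ZZ₁ p T
  rw [mem_ZZ₁]
  refine ⟨⟨ht, ?_⟩, ?_⟩
  · show t ∈ Subgroup.centralizer _
    rw [Subgroup.mem_centralizer_iff]
    intro s hs
    have h4 := Subgroup.mem_centralizer_iff.mp h2 (f s) ⟨s, hs, rfl⟩
    have h5 : f (s * t * (t * s)⁻¹) = 1 := by
      rw [map_mul, map_mul, map_inv, map_mul, h4]
      simp
    have h6 := hf _ (T.mul_mem (T.mul_mem hs ht) (T.inv_mem (T.mul_mem ht hs))) h5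
    exact mul_inv_eq_one.mp h6
  · apply hf _ (T.pow_mem ht p)
    rw [map_pow, h3]

variable {p : ℕ} [hp : Fact p.Prime]

/-- **Lemma Z.**  If `Ω₁Z(T) ≤ O_p(X)`, conjugation on `Ω₁Z(T)` is realized in `N_X(W(T))`. -/
theorem conj_ZZ₁ {W : ∀ (Q : Type u) [Group Q], Subgroup Q} (hW : IsCharPFunctor.{u} p W)
    {Sec : ∀ (X : Type u) [Group X], Prop}
    (hSsub : ∀ (X : Type u) [Group X] (Y : Subgroup X), Sec X → Sec Y)
    (hSquot : ∀ (X : Type u) [Group X] (M : Subgroup X) [M.Normal], Sec X → Sec (X ⧸ M))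
    (hloc : ∀ (X : Type u) [Group X] [Finite X], Sec X →
      Subgroup.centralizer ((pCore p X : Subgroup X) : Set X) ≤ pCore p X →
      ∀ (T : Sylow p X) (x : X),
        ∃ a ∈ Subgroup.centralizer ((ZZ₁ p (T : Subgroup X) : Subgroup X) : Set X),
          ∃ b ∈ Subgroup.normalizer ((inducedFunctor W (T : Subgroup X) : Subgroup X) : Set X), x = a * b)
    (X : Type u) [Group X] [Finite X] (hX : Sec X) (T : Sylow p X)
    (hZ : ZZ₁ p (T : Subgroup X) ≤ pCore p X) {z : X} (hz : z ∈ ZZ₁ p (T : Subgroup X)) (g : X) :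
    ∃ h ∈ Subgroup.normalizer ((inducedFunctor W (T : Subgroup X) : Subgroup X) : Set X),
      g * z * g⁻¹ = h * z * h⁻¹ := by
  classical
  induction hn : Nat.card X using Nat.strong_induction_on generalizing X with
  | _ n ih =>
    subst hn
    set P := pCore p X with hPdef
    have hPn : P.Normal := inferInstance
    have hPT : P ≤ T := pCore_le_sylow p T
    have hzP : z ∈ P := hZ hz
    by_cases hQ : pPrimeCore p X = ⊥
    swap
    · -- modulo `O_{p'}(X)`
      set M := pPrimeCore p X with hM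
      have hMn : M.Normal := inferInstance
      have hc : (Nat.card M).Coprime p := card_pPrimeCore_coprime p
      set π : X →* X ⧸ M := QuotientGroup.mk' M with hπ
      have hπs : Function.Surjective π := QuotientGroup.mk'_surjective M
      have hπ1 : ∀ g, π g = 1 ↔ g ∈ M := fun g => QuotientGroup.eq_one_iff g
      have hdisj : Disjoint (T : Subgroup X) M := by
        obtain ⟨k, hk⟩ := IsPGroup.iff_card.mp T.isPGroup'
        apply Subgroup.disjoint_of_coprime_natCard
        rw [hk]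
        exact (Nat.Coprime.pow_right k hc).symm
      have hinj : ∀ x ∈ (T : Subgroup X), π x = 1 → x = 1 := by
        intro x hx h1
        exact Subgroup.disjoint_def.mp hdisj hx ((hπ1 x).mp h1)
      let T' : Sylow p (X ⧸ M) := T.mapSurjective hπs
      have hT' : (T' : Subgroup (X ⧸ M)) = (T : Subgroup X).map π := rfl
      have hZ' : ZZ₁ p (T' : Subgroup (X ⧸ M)) ≤ pCore p (X ⧸ M) := by
        rw [hT']
        refine (ZZ₁_map_le π _ hinj).trans ?_
        refine (Subgroup.map_mono hZ).trans ?_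
        have : (P.map π).Normal := Subgroup.Normal.map hPn π hπs
        exact le_pCore this ((isPGroup_pCore p).map _)
      have hz' : π z ∈ ZZ₁ p (T' : Subgroup (X ⧸ M)) := map_ZZ₁_le π _ ⟨z, hz, rfl⟩
      have hcard : Nat.card (X ⧸ M) < Nat.card X := by
        have h1 := Subgroup.card_eq_card_quotient_mul_card_subgroup M
        have h2 : 1 < Nat.card M := by
          have : Nontrivial M := (Subgroup.nontrivial_iff_ne_bot M).mpr hQ
          exact Finite.one_lt_card
        have h3 : 0 < Nat.card (X ⧸ M) := Nat.card_pos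
        rw [h1]
        nlinarith
      obtain ⟨hq, hq1, hq2⟩ := ih _ hcard (X ⧸ M) (hSquot X M hX) T' hZ' hz' (π g) rfl
      have hD' : inducedFunctor W (T' : Subgroup (X ⧸ M)) = (inducedFunctor W (T : Subgroup X)).map π :=
        (map_inducedFunctor hW _ T.isPGroup' π hinj).symm
      rw [hD'] at hq1
      obtain ⟨h, hh, rfl⟩ := normalizer_map_coprime _ M
        (T.isPGroup'.to_le (Subgroup.map_subtype_le _)) hc hq1
      refine ⟨h, hh, ?_⟩
      have h1 : g * z * g⁻¹ ∈ (T : Subgroup X) := hPT (hPn.conj_mem z hzP g)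
      have h2 : h * z * h⁻¹ ∈ (T : Subgroup X) := hPT (hPn.conj_mem z hzP h)
      have h3 : π ((g * z * g⁻¹)⁻¹ * (h * z * h⁻¹)) = 1 := by
        simp only [map_mul, map_inv] at hq2 ⊢
        rw [hq2]
        exact inv_mul_cancel _
      have h4 := hinj _ (Subgroup.mul_mem _ (Subgroup.inv_mem _ h1) h2) h3
      exact inv_mul_eq_one.mp h4
    by_cases hC : Subgroup.centralizer ((P : Subgroup X) : Set X) ≤ P
    · -- constrained
      obtain ⟨a, ha, b, hb, hab⟩ := hloc X hX hC T g⁻¹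
      refine ⟨b⁻¹, Subgroup.inv_mem _ hb, ?_⟩
      have hg : g = b⁻¹ * a⁻¹ := by
        have := congrArg (·⁻¹) hab
        simpa using this
      have haz : a⁻¹ * z = z * a⁻¹ := by
        have h1 := Subgroup.mem_centralizer_iff.mp (Subgroup.inv_mem _ ha) z hz
        exact h1.symm
      rw [hg]
      calc b⁻¹ * a⁻¹ * z * (b⁻¹ * a⁻¹)⁻¹ = b⁻¹ * (a⁻¹ * z) * a * b := by group
        _ = b⁻¹ * (z * a⁻¹) * a * b := by rw [haz]
        _ = b⁻¹ * z * b⁻¹⁻¹ := by group
    -- not constrained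
    set E := Subgroup.centralizer ((P : Subgroup X) : Set X) with hE
    have hEn : E.Normal := inferInstance
    have hS₀ : ¬ (T : Subgroup X) ⊓ E ≤ P := fun h => hC (centralizer_le_of T hQ h)
    set L := Subgroup.normalizer ((((T : Subgroup X) ⊓ E : Subgroup X)) : Set X) with hL
    have hSL : (T : Subgroup X) ≤ L := by
      intro s hs
      rw [hL, Subgroup.mem_normalizer_iff]
      intro x
      constructor
      · rintro ⟨h1, h2⟩
        exact ⟨Subgroup.mul_mem _ (Subgroup.mul_mem _ hs h1) (Subgroup.inv_mem _ hs), hEn.conj_mem x h2 s⟩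
      · rintro ⟨h1, h2⟩
        have e : x = s⁻¹ * (s * x * s⁻¹) * s := by group
        refine ⟨?_, ?_⟩
        · rw [e]
          exact Subgroup.mul_mem _ (Subgroup.mul_mem _ (Subgroup.inv_mem _ hs) h1) hs
        · have := hEn.conj_mem _ h2 s⁻¹
          have e2 : s⁻¹ * (s * x * s⁻¹) * s⁻¹⁻¹ = x := by group
          rwa [e2] at this
    have hLne : L ≠ ⊤ := by
      intro htop
      have h2 : ((T : Subgroup X) ⊓ E).Normal := Subgroup.normalizer_eq_top_iff.mp htop
      exact hS₀ (le_pCore h2 (T.isPGroup'.to_le inf_le_left))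
    obtain ⟨c, hc, l, hl, hgcl, -⟩ := exists_factor_frattini T E (Subgroup.zpowers z)
      ((Subgroup.zpowers_le).mpr (hPT hzP)) g (by
        have h1 : Subgroup.zpowers z ≤ P := (Subgroup.zpowers_le).mpr hzP
        intro a ha
        exact hPT (hPn.conj_mem a (h1 ha) g))
    -- in `L`
    let T₁ : Sylow p L := T.subtype hSL
    have hT₁ : (T₁ : Subgroup L) = (T : Subgroup X).subgroupOf L := T.coe_subtype hSL
    have hT₁m : (T₁ : Subgroup L).map L.subtype = T := by
      rw [hT₁, Subgroup.map_subgroupOf_eq_of_le hSL]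
    have hZ₁ : ZZ₁ p (T₁ : Subgroup L) ≤ pCore p L := by
      intro x hx
      have h1 : (x : X) ∈ ZZ₁ p (T : Subgroup X) := by
        have := map_ZZ₁_le L.subtype (T₁ : Subgroup L) ⟨x, hx, rfl⟩
        rwa [hT₁m] at this
      have h2 : (P.subgroupOf L).Normal := inferInstance
      have h3 : IsPGroup p (P.subgroupOf L) := (isPGroup_pCore p).comap_of_injective L.subtype L.subtype_injective
      exact le_pCore h2 h3 (hZ h1)
    have hzL : z ∈ L := hSL (hPT hzP)
    have hz₁ : (⟨z, hzL⟩ : L) ∈ ZZ₁ p (T₁ : Subgroup L) := by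
      rw [mem_ZZ₁] at hz ⊢
      refine ⟨⟨?_, ?_⟩, Subtype.ext (by simpa using hz.2)⟩
      · rw [hT₁]
        exact hz.1.1
      · show (⟨z, hzL⟩ : L) ∈ Subgroup.centralizer _
        rw [Subgroup.mem_centralizer_iff]
        intro s hs
        rw [hT₁] at hs
        exact Subtype.ext (Subgroup.mem_centralizer_iff.mp hz.1.2 _ hs)
    have hcard : Nat.card L < Nat.card X := card_lt_of_ne_top hLne
    obtain ⟨h₁, hh₁, he⟩ := ih _ hcard L (hSsub X L hX) T₁ hZ₁ hz₁ ⟨l, hl⟩ rfl
    have hh₁' : (h₁ : X) ∈ Subgroup.normalizer ((inducedFunctor W (T : Subgroup X) : Subgroup X) : Set X) := by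
      have h1 := map_inducedFunctor hW (T₁ : Subgroup L) T₁.isPGroup' L.subtype (fun x _ hx => Subtype.ext hx)
      rw [hT₁m] at h1
      rw [← h1]
      exact Subgroup.le_normalizer_map L.subtype ⟨h₁, hh₁, rfl⟩
    refine ⟨h₁, hh₁', ?_⟩
    have he' : l * z * l⁻¹ = (h₁ : X) * z * (h₁ : X)⁻¹ := by
      have := congrArg L.subtype he
      simpa using this
    have hc₁ : c * (l * z * l⁻¹) = (l * z * l⁻¹) * c := by
      have h1 := Subgroup.mem_centralizer_iff.mp hc (l * z * l⁻¹) (hPn.conj_mem z hzP l)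
      exact h1.symm
    rw [hgcl, ← he']
    calc c * l * z * (c * l)⁻¹ = (c * (l * z * l⁻¹)) * c⁻¹ := by group
      _ = ((l * z * l⁻¹) * c) * c⁻¹ := by rw [hc₁]
      _ = l * z * l⁻¹ := by group

/-- Factorization through the section. -/
theorem fac_of_section {X Y : Type u} [Group X] [Group Y] [Finite X] [Finite Y] (e : Y ≃* X)
    {W : ∀ (Q : Type u) [Group Q], Subgroup Q} (hW : IsCharPFunctor.{u} p W)
    (h : ∀ (T : Sylow p Y) (x : Y),
      ∃ a ∈ Subgroup.centralizer ((ZZ₁ p (T : Subgroup Y) : Subgroup Y) : Set Y),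
        ∃ b ∈ Subgroup.normalizer ((inducedFunctor W (T : Subgroup Y) : Subgroup Y) : Set Y), x = a * b)
    (S : Sylow p X) (x : X) :
    ∃ a ∈ Subgroup.centralizer ((ZZ₁ p (S : Subgroup X) : Subgroup X) : Set X),
      ∃ b ∈ Subgroup.normalizer ((inducedFunctor W (S : Subgroup X) : Subgroup X) : Set X), x = a * b := by
  let S₁ : Sylow p Y := S.mapSurjective (f := e.symm.toMonoidHom) e.symm.surjective
  have hS₁ : (S₁ : Subgroup Y) = (S : Subgroup X).map e.symm.toMonoidHom := rfl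
  have hS₁e : (S₁ : Subgroup Y).map e.toMonoidHom = S := by
    rw [hS₁]
    ext y
    constructor
    · rintro ⟨_, ⟨z, hz, rfl⟩, rfl⟩
      have e0 : e.toMonoidHom (e.symm.toMonoidHom z) = z := by simp
      rw [e0]
      exact hz
    · intro hy
      exact ⟨e.symm y, ⟨y, hy, rfl⟩, by simp⟩
  obtain ⟨a₁, ha₁, b₁, hb₁, hab⟩ := h S₁ (e.symm x)
  refine ⟨e a₁, ?_, e b₁, Cfsg.Agent.Lib.FusionRed.normalizer_transport e S hW S₁ hS₁e hb₁, ?_⟩
  · rw [Subgroup.mem_centralizer_iff]
    intro z hz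
    have h1 : e.symm z ∈ ZZ₁ p (S₁ : Subgroup Y) := map_ZZ₁_le e.symm.toMonoidHom _ ⟨z, hz, rfl⟩
    have h2 := Subgroup.mem_centralizer_iff.mp ha₁ _ h1
    have := congrArg e h2
    simpa using this
  · have := congrArg e hab
    simpa using this


end Cfsg.Agent.Lib.ZFusion
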