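import Mathlib
import Cfsg.Agent.S0741
import Cfsg.Agent.S0740
import Cfsg.Agent.Lib.ZassH

/-!
# Zassenhaus groups with two-point stabilisers of even order: the case `|Ω| - 2 = 2 d`

All elements interchanging two points are involutions, so the two-point stabiliser is inverted
by each such element and is cyclic.
-/

set_option autoImplicit false
open Cfsg MulAction

namespace Cfsg.Agent.Lib.ZassEven9

open Finset

/-- If `|Ω| - 2 = 2 d` with `d` even then every element interchanging two points is an involution. -/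
theorem swap_mul_self {G Ω : Type*} [Group G] [Finite G] [MulAction G Ω] [Fintype Ω]
    (hZ : Cfsg.IsZassenhausGroup G Ω) {a b : Ω} (hab : a ≠ b)
    (heven : Even (Nat.card ↥(MulAction.stabilizer G a ⊓ MulAction.stabilizer G b)))
    (hdd : Fintype.card Ω - 2 = 2 * Nat.card ↥(MulAction.stabilizer G a ⊓ MulAction.stabilizer G b))
    {x y : Ω} (hxy : x ≠ y) {u : G} (hu1 : u • x = y) (hu2 : u • y = x) : u * u = 1 := by
  classical
  letI := Fintype.ofFinite G
  obtain ⟨hF, h2, h3, -, -⟩ := hZ
  set d := Nat.card ↥(MulAction.stabilizer G a ⊓ MulAction.stabilizer G b) with hd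
  -- an involution for each pair
  have : Fact (Nat.Prime 2) := ⟨Nat.prime_two⟩
  obtain ⟨J, hJ⟩ := exists_prime_orderOf_dvd_card' 2 (even_iff_two_dvd.1 heven)
  have hJ' : orderOf (J : G) = 2 := by rw [Subgroup.orderOf_coe]; exact hJ
  have hJJ : (J : G) * J = 1 := by rw [← pow_two, ← hJ']; exact pow_orderOf_eq_one _
  have hJ1 : (J : G) ≠ 1 := by
    intro h; rw [h, orderOf_one] at hJ'; omega
  have hJa : (J : G) • a = a := J.2.1
  have hJb : (J : G) • b = b := J.2.2
  set Fx : G → Finset Ω := fun u => univ.filter (fun z => u • z = z) with hFx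
  have hFx_le : ∀ u : G, u ≠ 1 → (Fx u).card ≤ 2 := by
    intro u hu
    by_contra hcon
    push Not at hcon
    obtain ⟨p, hp, q, hq, r, hr, hpq, hpr, hqr⟩ := Finset.two_lt_card.1 hcon
    simp only [hFx, mem_filter, mem_univ, true_and] at hp hq hr
    exact hu (h3 u p q r hpq hqr hpr hp hq hr)
  have hinv : ∀ x y : Ω, x ≠ y → ∃ u : G, u * u = 1 ∧ (Fx u).card = 2 ∧ u • x = x ∧ u • y = y := by
    intro x y hxy
    obtain ⟨g, hg1, hg2⟩ := (MulAction.is_two_pretransitive_iff).1 h2 hxy hab
    refine ⟨g⁻¹ * J * g, ?_, ?_, ?_, ?_⟩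
    · have : g⁻¹ * J * g * (g⁻¹ * J * g) = g⁻¹ * (J * J) * g := by group
      rw [this, hJJ]; group
    · have hne : g⁻¹ * J * g ≠ 1 := by
        intro h
        apply hJ1
        have : (J : G) = g * (g⁻¹ * J * g) * g⁻¹ := by group
        rw [this, h]; group
      have hle := hFx_le _ hne
      have hsub : ({x, y} : Finset Ω) ⊆ Fx (g⁻¹ * J * g) := by
        intro z hz
        simp only [mem_insert, mem_singleton] at hz
        simp only [hFx, mem_filter, mem_univ, true_and]
        rcases hz with rfl | rfl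
        · rw [mul_smul, mul_smul, hg1, hJa, ← hg1, inv_smul_smul]
        · rw [mul_smul, mul_smul, hg2, hJb, ← hg2, inv_smul_smul]
      have := Finset.card_le_card hsub
      rw [Finset.card_pair hxy] at this
      omega
    · rw [mul_smul, mul_smul, hg1, hJa, ← hg1, inv_smul_smul]
    · rw [mul_smul, mul_smul, hg2, hJb, ← hg2, inv_smul_smul]
  set Inv : Finset G := univ.filter (fun u => u * u = 1 ∧ (Fx u).card = 2) with hInv
  set Pairs : Finset (Ω × Ω) := univ.filter (fun p => p.1 ≠ p.2) with hPairs
  -- lower bound for the involutions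
  choose! f hf1 hf2 hf3 hf4 using (fun p : Ω × Ω => fun (hp : p.1 ≠ p.2) => hinv p.1 p.2 hp)
  have hlow : Pairs.card ≤ 2 * Inv.card := by
    refine Finset.card_le_mul_card_image_of_maps_to (f := f) ?_ 2 ?_
    · intro p hp
      have hp' : p.1 ≠ p.2 := (mem_filter.1 hp).2
      exact mem_filter.2 ⟨mem_univ _, hf1 p hp', hf2 p hp'⟩
    · intro u hu
      have hu2 : (Fx u).card = 2 := (mem_filter.1 hu).2.2
      have hsub : Pairs.filter (fun p => f p = u) ⊆ (Fx u).offDiag := by
        intro p hp
        rw [mem_filter, hPairs, mem_filter] at hp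
        obtain ⟨⟨-, hp1⟩, hp2⟩ := hp
        rw [mem_offDiag]
        refine ⟨?_, ?_, hp1⟩
        · simp only [hFx, mem_filter, mem_univ, true_and]
          rw [← hp2]; exact hf3 p hp1
        · simp only [hFx, mem_filter, mem_univ, true_and]
          rw [← hp2]; exact hf4 p hp1
      have := Finset.card_le_card hsub
      rw [Finset.offDiag_card, hu2] at this
      simpa using this
  -- double counting
  have hdc := Finset.sum_card_bipartiteAbove_eq_sum_card_bipartiteBelow
    (s := Inv) (t := Pairs) (fun (u : G) (p : Ω × Ω) => u • p.1 = p.2)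
  have habove : ∀ u ∈ Inv, (Pairs.bipartiteAbove (fun (u : G) (p : Ω × Ω) => u • p.1 = p.2) u).card
      = Fintype.card Ω - 2 := by
    intro u hu
    have hu2 : (Fx u).card = 2 := (mem_filter.1 hu).2.2
    have he : Pairs.bipartiteAbove (fun (u : G) (p : Ω × Ω) => u • p.1 = p.2) u =
        (univ.filter (fun z => ¬ u • z = z)).image (fun z => (z, u • z)) := by
      ext ⟨p, q⟩
      simp only [bipartiteAbove, hPairs, mem_filter, mem_univ, true_and, mem_image, Prod.mk.injEq]
      constructor
      · rintro ⟨hne, rfl⟩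
        exact ⟨p, fun h => hne h.symm, rfl, rfl⟩
      · rintro ⟨z, hz, rfl, rfl⟩
        exact ⟨fun h => hz h.symm, rfl⟩
    rw [he, Finset.card_image_of_injective _ (fun z w h => (Prod.mk.inj h).1)]
    have := Finset.card_filter_add_card_filter_not (s := (univ : Finset Ω)) (fun z => u • z = z)
    rw [card_univ] at this
    have h4 : (univ.filter (fun z => u • z = z)).card = 2 := hu2
    omega
  have hbelowsub : ∀ p ∈ Pairs,
      Inv.bipartiteBelow (fun (u : G) (p : Ω × Ω) => u • p.1 = p.2) p ⊆
        univ.filter (fun u : G => u • p.1 = p.2 ∧ u • p.2 = p.1) := by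
    intro p hp u hu
    simp only [bipartiteBelow, mem_filter] at hu
    obtain ⟨hu1, hu2⟩ := hu
    have hu3 : u * u = 1 := (mem_filter.1 hu1).2.1
    refine mem_filter.2 ⟨mem_univ _, hu2, ?_⟩
    rw [← hu2, ← mul_smul, hu3, one_smul]
  have hbelow : ∀ p ∈ Pairs, (Inv.bipartiteBelow (fun (u : G) (p : Ω × Ω) => u • p.1 = p.2) p).card
      ≤ d := by
    intro p hp
    have hp' : p.1 ≠ p.2 := (mem_filter.1 hp).2
    exact le_trans (Finset.card_le_card (hbelowsub p hp))
      (Cfsg.Agent.S0741.card_swappers_le (G := G) h2 (x := p.1) (y := p.2) hab hp')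
  have hsumabove : ∑ u ∈ Inv, (Pairs.bipartiteAbove (fun (u : G) (p : Ω × Ω) => u • p.1 = p.2) u).card
      = Inv.card * (Fintype.card Ω - 2) := by
    rw [Finset.sum_congr rfl habove, Finset.sum_const, smul_eq_mul]
  have hsumd : ∑ p ∈ Pairs, d = Pairs.card * d := by rw [Finset.sum_const, smul_eq_mul]
  have hle : ∑ p ∈ Pairs, d ≤
      ∑ p ∈ Pairs, (Inv.bipartiteBelow (fun (u : G) (p : Ω × Ω) => u • p.1 = p.2) p).card := by
    rw [← hdc, hsumabove, hsumd, hdd]
    calc Pairs.card * d ≤ (2 * Inv.card) * d := Nat.mul_le_mul_right _ hlow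
      _ = Inv.card * (2 * d) := by ring
  have heq : ∀ p ∈ Pairs, (Inv.bipartiteBelow (fun (u : G) (p : Ω × Ω) => u • p.1 = p.2) p).card = d := by
    have h9 := (Finset.sum_eq_sum_iff_of_le hbelow).mp (le_antisymm (Finset.sum_le_sum hbelow) hle)
    exact h9
  have hp0 : (x, y) ∈ Pairs := mem_filter.2 ⟨mem_univ _, hxy⟩
  have hu0 : u ∈ univ.filter (fun u : G => u • (x, y).1 = (x, y).2 ∧ u • (x, y).2 = (x, y).1) :=
    mem_filter.2 ⟨mem_univ _, hu1, hu2⟩
  have heqset := Finset.eq_of_subset_of_card_le (hbelowsub _ hp0) (by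
    rw [heq _ hp0]
    exact Cfsg.Agent.S0741.card_swappers_le (G := G) h2 (x := x) (y := y) hab hxy)
  rw [← heqset] at hu0
  simp only [bipartiteBelow, mem_filter] at hu0
  exact (mem_filter.1 hu0.1).2.1

section

variable {G Ω : Type*} [Group G] [Finite G] [MulAction G Ω] [Fintype Ω]
  (hZ : Cfsg.IsZassenhausGroup G Ω) {a b : Ω} (hab : a ≠ b)
  (heven : Even (Nat.card ↥(MulAction.stabilizer G a ⊓ MulAction.stabilizer G b)))
  (hdd : Fintype.card Ω - 2 = 2 * Nat.card ↥(MulAction.stabilizer G a ⊓ MulAction.stabilizer G b))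

include hZ hab heven hdd

/-- Each element interchanging `a` and `b` inverts the two-point stabiliser. -/
theorem swap_inverts {s : G} (hsa : s • a = b) (hsb : s • b = a) {y : G}
    (hy : y ∈ MulAction.stabilizer G a ⊓ MulAction.stabilizer G b) : s * y * s⁻¹ = y⁻¹ := by
  have hs2 : s * s = 1 := swap_mul_self hZ hab heven hdd hab hsa hsb
  have hya : y • a = a := hy.1
  have hyb : y • b = b := hy.2
  have h1 : (s * y) * (s * y) = 1 := swap_mul_self hZ hab heven hdd hab
    (by rw [mul_smul, hya, hsa]) (by rw [mul_smul, hyb, hsb])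
  have hsi : s⁻¹ = s := inv_eq_of_mul_eq_one_left hs2
  rw [hsi, eq_inv_iff_mul_eq_one]
  rw [← h1]
  group

/-- The two-point stabiliser is abelian. -/
theorem stab_comm (x y : G) (hx : x ∈ MulAction.stabilizer G a ⊓ MulAction.stabilizer G b)
    (hy : y ∈ MulAction.stabilizer G a ⊓ MulAction.stabilizer G b) : x * y = y * x := by
  obtain ⟨s, hsa, hsb⟩ := Cfsg.Agent.Lib.Zassenhaus.two_trans hZ hab (Ne.symm hab)
  have h1 := swap_inverts hZ hab heven hdd hsa hsb hx
  have h2 := swap_inverts hZ hab heven hdd hsa hsb hy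
  have h3 := swap_inverts hZ hab heven hdd hsa hsb
    ((MulAction.stabilizer G a ⊓ MulAction.stabilizer G b).mul_mem hx hy)
  have h4 : s * (x * y) * s⁻¹ = (s * x * s⁻¹) * (s * y * s⁻¹) := by group
  rw [h4, h1, h2, mul_inv_rev] at h3
  have h5 := congrArg (·⁻¹) h3
  simpa using h5.symm

/-- The two-point stabiliser is cyclic. -/
theorem stab_cyclic : IsCyclic ↥(MulAction.stabilizer G a ⊓ MulAction.stabilizer G b) := by
  classical
  set E := MulAction.stabilizer G a ⊓ MulAction.stabilizer G b with hE
  have hcomm : ∀ x y : E, x * y = y * x := fun x y =>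
    Subtype.ext (stab_comm hZ hab heven hdd x y x.2 y.2)
  have hZg : IsZGroup E := by
    refine ⟨fun p hp P => ?_⟩
    have : Fact p.Prime := ⟨hp⟩
    let B := (P : Subgroup E).map E.subtype
    have hB : IsCyclic B := by
      rcases Cfsg.Agent.Lib.ZassH.cyclic_or_quaternion hZ hab hp B (Subgroup.map_subtype_le _)
        (P.2.map E.subtype) with h | ⟨-, n, ⟨e⟩⟩
      · exact h
      · -- an abelian group isomorphic to a quaternion group
        have hcB : ∀ u v : B, u * v = v * u := by
          rintro ⟨_, u, hu, rfl⟩ ⟨_, v, hv, rfl⟩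
          apply Subtype.ext
          exact stab_comm hZ hab heven hdd (u : E) (v : E) (u : E).2 (v : E).2
        rcases Nat.eq_zero_or_pos n with rfl | hn
        · -- `QuaternionGroup 1` is cyclic
          have hc : IsCyclic (QuaternionGroup (2 ^ 0)) := by
            have h4 : orderOf (QuaternionGroup.xa (n := 2 ^ 0) 0) = Nat.card (QuaternionGroup (2 ^ 0)) := by
              rw [QuaternionGroup.orderOf_xa, Nat.card_eq_fintype_card, QuaternionGroup.card]
              norm_num
            exact isCyclic_of_orderOf_eq_card _ h4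
          exact isCyclic_of_surjective e.symm.toMonoidHom e.symm.surjective
        · exfalso
          have h5 := hcB (e.symm (QuaternionGroup.a 1)) (e.symm (QuaternionGroup.xa 0))
          rw [← map_mul, ← map_mul] at h5
          have h6 := e.symm.injective h5
          simp only [QuaternionGroup.a_mul_xa, QuaternionGroup.xa_mul_a] at h6
          have h7 : (0 - 1 : ZMod (2 * 2 ^ n)) = 0 + 1 := QuaternionGroup.xa.inj h6
          have hpow : 2 ≤ 2 ^ n := by
            calc 2 = 2 ^ 1 := rfl
              _ ≤ 2 ^ n := Nat.pow_le_pow_right (by norm_num) hn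
          have h8 : ((2 : ℕ) : ZMod (2 * 2 ^ n)) = 0 := by
            have : (2 : ZMod (2 * 2 ^ n)) = 0 := by linear_combination -h7
            exact_mod_cast this
          rw [ZMod.natCast_eq_zero_iff] at h8
          have := Nat.le_of_dvd (by norm_num) h8
          omega
    exact isCyclic_of_surjective _ (Subgroup.equivMapOfInjective (P : Subgroup E) E.subtype
      E.subtype_injective).symm.surjective
  let _ : CommGroup E := { (inferInstance : Group E) with mul_comm := hcomm }
  infer_instance

end

end Cfsg.Agent.Lib.ZassEven9
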